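import Cfsg.Statements.S1969
-- import your own Cfsg.Agent.* helpers here
import Cfsg.Agent.Helper12.SecInd

set_option autoImplicit false
universe u
open Cfsg

namespace Cfsg.Agent.S1969

/-- Let p be a prime, G a finite group and W an isomorphism-invariant p-group functor (W assigns to every group Q a subgroup W(Q), nontrivial whenever Q is a nontrivial finite p-group, and every isomorphism from a finite p-group Q onto a group R carries W(Q) onto W(R)). Suppose that W(S*) is normal in G* whenever G* = K/R is a section of G with C_{G*}(O_p(G*)) ≤ O_p(G*) and S* is a Sylow p-subgroup of G*. Then W controls strong fusion in every section of G: for every section K/R and every Sylow p-subgroup T of K/R, the subgroup W(T) controls strong fusion in K/R. -/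
theorem result {G : Type u} [Group G] [Finite G] {p : ℕ} [Fact p.Prime] (W : ∀ (Q : Type u) [Group Q], Subgroup Q) (hW : Cfsg.IsCharPFunctor.{u} p W) (hloc : ∀ (K R : Subgroup G) [hR : (R.subgroupOf K).Normal], Subgroup.centralizer ((Cfsg.pCore p (↥K ⧸ R.subgroupOf K) : Subgroup (↥K ⧸ R.subgroupOf K)) : Set (↥K ⧸ R.subgroupOf K)) ≤ Cfsg.pCore p (↥K ⧸ R.subgroupOf K) → ∀ T : Sylow p (↥K ⧸ R.subgroupOf K), (Cfsg.inducedFunctor (G := (↥K ⧸ R.subgroupOf K)) W ((T : Subgroup (↥K ⧸ R.subgroupOf K)))).Normal) : ∀ (K R : Subgroup G) [hR : (R.subgroupOf K).Normal], ∀ T : Sylow p (↥K ⧸ R.subgroupOf K), Cfsg.ControlsStrongFusion p (Cfsg.inducedFunctor (G := (↥K ⧸ R.subgroupOf K)) W ((T : Subgroup (↥K ⧸ R.subgroupOf K)))) := by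
  open Cfsg.Agent.Helper12 in
  (
  have h𝓦 : ∀ W' ∈ ({W} : Set (∀ (Q : Type u) [Group Q], Subgroup Q)),
      Cfsg.IsCharPFunctor.{u} p W' := by
    rintro _ rfl; exact hW
  have h1 : ∀ (K R : Subgroup G) [(R.subgroupOf K).Normal],
      Subgroup.centralizer ((Cfsg.pCore p (↥K ⧸ R.subgroupOf K) :
        Subgroup (↥K ⧸ R.subgroupOf K)) : Set (↥K ⧸ R.subgroupOf K)) ≤
        Cfsg.pCore p (↥K ⧸ R.subgroupOf K) →
        sfCtl p ({W} : Set (∀ (Q : Type u) [Group Q], Subgroup Q)) (↥K ⧸ R.subgroupOf K) := by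
    intro K R _ hcen T A g hA hgA
    refine famRel_step hA hgA ⟨W, rfl, rfl⟩ ?_
    have := hloc K R hcen T
    rw [Subgroup.normalizer_eq_top_iff.mpr this]
    exact Subgroup.mem_top _
  have h2 := sfCtl_sections_of_hloc h𝓦 h1
  intro K R hR T
  have h3 := h2 (↥K ⧸ R.subgroupOf K) ⟨K, QuotientGroup.mk' _, QuotientGroup.mk'_surjective _⟩
  refine ⟨T, cf_le (isConjugacyFunctor_induced hW) T.2, fun A hA => ⟨hA, fun g hgA => ?_⟩⟩
  have hcj : cj g⁻¹ A ⊆ (T : Subgroup (↥K ⧸ R.subgroupOf K)) := by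
    rw [cj_inv_eq]; exact hgA
  obtain ⟨-, -, g', hch, hag⟩ := h3 T A g⁻¹ hA hcj
  have hfin : cj g' A ⊆ (T : Subgroup (↥K ⧸ R.subgroupOf K)) := by
    rw [cj_congr hag]; exact hcj
  have hg'N : g' ∈ Subgroup.normalizer ((Cfsg.inducedFunctor (G := (↥K ⧸ R.subgroupOf K)) W
      (T : Subgroup (↥K ⧸ R.subgroupOf K)) : Subgroup (↥K ⧸ R.subgroupOf K)) :
        Set (↥K ⧸ R.subgroupOf K)) := by
    refine FChain.rel_of_chain_const (fun _ x => x ∈ Subgroup.normalizer
      ((Cfsg.inducedFunctor (G := (↥K ⧸ R.subgroupOf K)) W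
        (T : Subgroup (↥K ⧸ R.subgroupOf K)) : Subgroup (↥K ⧸ R.subgroupOf K)) :
          Set (↥K ⧸ R.subgroupOf K))) ?_ ?_ ?_ hch hfin
    · intro _ _; exact one_mem _
    · rintro B t x ⟨_, ⟨W', rfl, rfl⟩, hx⟩ _ _
      exact (Subgroup.mem_inf.1 hx).2
    · intro _ x y hx hy; exact mul_mem hx hy
  refine ⟨g'⁻¹, inv_mem hg'N, fun a ha => ?_⟩
  have := hag a ha
  rw [inv_inv] at this ⊢
  exact this.symm
  )

end Cfsg.Agent.S1969
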