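import Cfsg.Statements.S1499
import Mathlib

set_option autoImplicit false
open Cfsg

namespace Cfsg.Agent.S1499

theorem orderOf_sub_dvd {G : Type*} [Group G] [Finite G] (K : Subgroup G) {x : G} (hx : x ∈ K) :
    orderOf x ∣ Nat.card K := by
  have h := orderOf_dvd_natCard (⟨x, hx⟩ : K)
  rwa [Subgroup.orderOf_mk] at h

/-- The core computation: a conjugate of `a * u` equal to `b * v` forces the conjugate of `a`
to be `b`. -/
theorem core {G : Type*} [Group G] [Finite G] (A : Set G) (L : Subgroup G) (H : G → Subgroup G)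
    (hD : Cfsg.DadeHypothesis A L H) {a b u v g : G} (ha : a ∈ A) (hb : b ∈ A) (hu : u ∈ H a)
    (hv : v ∈ H b) (hg : g * (a * u) * g⁻¹ = b * v) : g * a * g⁻¹ = b := by
  have self_mem : ∀ c : G, c ∈ Subgroup.centralizer ({c} : Set G) := by
    intro c
    rw [Subgroup.mem_centralizer_iff]
    intro h hh
    rw [Set.mem_singleton_iff.1 hh]
  have haL : a ∈ L ⊓ Subgroup.centralizer ({a} : Set G) :=
    Subgroup.mem_inf.2 ⟨hD.subset ha, self_mem a⟩
  have hbL : b ∈ L ⊓ Subgroup.centralizer ({b} : Set G) :=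
    Subgroup.mem_inf.2 ⟨hD.subset hb, self_mem b⟩
  have hoa := orderOf_sub_dvd _ haL
  have hob := orderOf_sub_dvd _ hbL
  have hou := orderOf_sub_dvd _ hu
  have hov := orderOf_sub_dvd _ hv
  have cau : (orderOf a).Coprime (orderOf u) :=
    (Nat.Coprime.coprime_dvd_left hou (Nat.Coprime.coprime_dvd_right hoa (hD.coprime a ha a ha))).symm
  have cav : (orderOf a).Coprime (orderOf v) :=
    (Nat.Coprime.coprime_dvd_left hov (Nat.Coprime.coprime_dvd_right hoa (hD.coprime b hb a ha))).symm
  have cbu : (orderOf b).Coprime (orderOf u) :=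
    (Nat.Coprime.coprime_dvd_left hou (Nat.Coprime.coprime_dvd_right hob (hD.coprime a ha b hb))).symm
  have cbv : (orderOf b).Coprime (orderOf v) :=
    (Nat.Coprime.coprime_dvd_left hov (Nat.Coprime.coprime_dvd_right hob (hD.coprime b hb b hb))).symm
  have hcomm_au : Commute a u := by
    have := hD.le_centralizer a ha hu
    rw [Subgroup.mem_centralizer_iff] at this
    exact this a rfl
  have hcomm_bv : Commute b v := by
    have := hD.le_centralizer b hb hv
    rw [Subgroup.mem_centralizer_iff] at this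
    exact this b rfl
  have ho1 : orderOf (a * u) = orderOf a * orderOf u :=
    hcomm_au.orderOf_mul_eq_mul_orderOf_of_coprime cau
  have ho2 : orderOf (b * v) = orderOf b * orderOf v :=
    hcomm_bv.orderOf_mul_eq_mul_orderOf_of_coprime cbv
  have ho3 : orderOf (g * (a * u) * g⁻¹) = orderOf (a * u) := by
    have := orderOf_injective (MulAut.conj g).toMonoidHom (MulAut.conj g).injective (a * u)
    simpa using this
  have hoeq : orderOf a * orderOf u = orderOf b * orderOf v := by
    rw [← ho1, ← ho2, ← ho3, hg]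
  have hab : orderOf a ∣ orderOf b :=
    cav.dvd_of_dvd_mul_right (hoeq ▸ dvd_mul_right _ _)
  have hba : orderOf b ∣ orderOf a :=
    cbu.dvd_of_dvd_mul_right (hoeq.symm ▸ dvd_mul_right _ _)
  have hoab : orderOf a = orderOf b := Nat.dvd_antisymm hab hba
  have hapos : 0 < orderOf a := orderOf_pos a
  have houv : orderOf u = orderOf v := by
    rw [hoab] at hoeq
    exact Nat.eq_of_mul_eq_mul_left (hoab ▸ hapos) hoeq
  have ha1 : 1 < orderOf a := by
    rcases Nat.lt_or_ge 1 (orderOf a) with h | h
    · exact h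
    · exfalso
      have h1 : orderOf a = 1 := le_antisymm h hapos
      rw [orderOf_eq_one_iff] at h1
      rw [h1] at ha
      exact hD.one_not_mem ha
  obtain ⟨m, -, hm⟩ := Nat.exists_mul_mod_eq_one_of_coprime cau.symm ha1
  have hau_pow : (a * u) ^ (orderOf u * m) = a := by
    rw [hcomm_au.mul_pow, pow_mul u, pow_orderOf_eq_one, one_pow, mul_one, ← pow_mod_orderOf, hm,
      pow_one]
  have hbv_pow : (b * v) ^ (orderOf u * m) = b := by
    rw [hcomm_bv.mul_pow, houv, pow_mul v, pow_orderOf_eq_one, one_pow, mul_one, ← pow_mod_orderOf,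
      ← hoab, ← houv, hm, pow_one]
  calc g * a * g⁻¹ = g * (a * u) ^ (orderOf u * m) * g⁻¹ := by rw [hau_pow]
    _ = (g * (a * u) * g⁻¹) ^ (orderOf u * m) := (conj_pow).symm
    _ = b := by rw [hg, hbv_pow]

/-- Under the Dade hypothesis for (A, L, H), let a, b ∈ A. If an element of the coset a·H(a) is conjugate in G to an element of b·H(b), then a and b are conjugate by an element of L. Moreover the set normaliser of the coset a·H(a) is the centraliser of a. -/
theorem result {G : Type*} [Group G] [Finite G] (A : Set G) (L : Subgroup G) (H : G → Subgroup G) (hD : Cfsg.DadeHypothesis A L H) (a b : G) (ha : a ∈ A) (hb : b ∈ A) : ((∃ u ∈ H a, ∃ v ∈ H b, ∃ g : G, g * (a * u) * g⁻¹ = b * v) → ∃ x ∈ L, x * a * x⁻¹ = b) ∧ Subgroup.normalizer ((fun u : G => a * u) '' (H a : Set G)) = Subgroup.centralizer ({a} : Set G) := by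
  constructor
  · rintro ⟨u, hu, v, hv, g, hg⟩
    have h := core A L H hD ha hb hu hv hg
    obtain ⟨x, hx, hxa⟩ := hD.fusion a ha g (by rw [h]; exact hb)
    exact ⟨x, hx, by rw [hxa, h]⟩
  · ext g
    constructor
    · intro hgn
      rw [Subgroup.mem_set_normalizer_iff] at hgn
      have h1 : a ∈ (fun u : G => a * u) '' (H a : Set G) := ⟨1, (H a).one_mem, mul_one a⟩
      obtain ⟨v, hv, hve⟩ := (hgn a).1 h1
      have hv' : v ∈ H a := hv
      have hg : g * (a * 1) * g⁻¹ = a * v := by rw [mul_one]; exact hve.symm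
      have h := core A L H hD ha ha (H a).one_mem hv' hg
      rw [Subgroup.mem_centralizer_iff]
      intro y hy
      rw [Set.mem_singleton_iff.1 hy]
      calc a * g = (g * a * g⁻¹) * g := by rw [h]
        _ = g * a := by group
    · intro hgc
      have hcomm : ∀ c ∈ Subgroup.centralizer ({a} : Set G), c * a * c⁻¹ = a := by
        intro c hc
        rw [Subgroup.mem_centralizer_iff] at hc
        have := hc a rfl
        calc c * a * c⁻¹ = (a * c) * c⁻¹ := by rw [this]
          _ = a := by group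
      rw [Subgroup.mem_set_normalizer_iff]
      intro n
      constructor
      · rintro ⟨u, hu, rfl⟩
        refine ⟨g * u * g⁻¹, hD.conj_mem_H a ha g hgc u hu, ?_⟩
        show a * (g * u * g⁻¹) = g * (a * u) * g⁻¹
        calc a * (g * u * g⁻¹) = (g * a * g⁻¹) * (g * u * g⁻¹) := by rw [hcomm g hgc]
          _ = g * (a * u) * g⁻¹ := by group
      · rintro ⟨u, hu, hue⟩
        have hue' : a * u = g * n * g⁻¹ := hue
        have hginv := (Subgroup.centralizer ({a} : Set G)).inv_mem hgc
        refine ⟨g⁻¹ * u * g⁻¹⁻¹, hD.conj_mem_H a ha g⁻¹ hginv u hu, ?_⟩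
        show a * (g⁻¹ * u * g⁻¹⁻¹) = n
        calc a * (g⁻¹ * u * g⁻¹⁻¹) = (g⁻¹ * a * g⁻¹⁻¹) * (g⁻¹ * u * g⁻¹⁻¹) := by
              rw [hcomm g⁻¹ hginv]
          _ = g⁻¹ * (a * u) * g := by group
          _ = n := by rw [hue']; group

end Cfsg.Agent.S1499
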