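import Cfsg.Statements.S1465
import Cfsg.Agent.Helper10.PStabOdd
import Cfsg.Agent.Helper20.HallHigman
import Cfsg.Agent.Helper20.SolvPSolv
-- import your own Cfsg.Agent.* helpers here

set_option autoImplicit false
open Cfsg

namespace Cfsg.Agent.S1465



/-- Let p be an odd prime, G a solvable group of odd order, P a normal p-subgroup of G, and X the subgroup generated by a family of abelian p-subgroups of G each normalized by P. Then the image of X in G/C_G(P) lies in O_p(G/C_G(P)); and if O_{p'}(G) = 1 and O_p(G) ∩ C_G(P) ≤ P then X ≤ O_p(G). -/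
theorem result {G : Type*} [Group G] [Finite G] [Group.IsSolvable G] (hodd : Odd (Nat.card G)) (p : ℕ) [Fact p.Prime] (hp : p ≠ 2) (P : Subgroup G) [P.Normal] (hP : IsPGroup p P)
    (S : Set (Subgroup G)) (hS : ∀ B ∈ S, IsMulCommutative B ∧ IsPGroup p B ∧ P ≤ Subgroup.normalizer (B : Set G)) :
    (sSup S).map (QuotientGroup.mk' (Subgroup.centralizer (P : Set G))) ≤ Cfsg.pCore p (G ⧸ Subgroup.centralizer (P : Set G)) ∧
      (Cfsg.pPrimeCore p G = ⊥ → Cfsg.pCore p G ⊓ Subgroup.centralizer (P : Set G) ≤ P → sSup S ≤ Cfsg.pCore p G) := by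
  classical
  have hpp : p.Prime := Fact.out
  have hpart1 : (sSup S).map (QuotientGroup.mk' (Subgroup.centralizer (P : Set G))) ≤
      Cfsg.pCore p (G ⧸ Subgroup.centralizer (P : Set G)) := by
    rw [Subgroup.map_le_iff_le_comap]
    apply sSup_le
    intro B hB b hb
    rw [Subgroup.mem_comap]
    obtain ⟨hBc, hBp, hPB⟩ := hS B hB
    apply Cfsg.Agent.Helper10.pstab_odd_normal hodd p hp P hP (Subgroup.centralizer (P : Set G))
    · intro g hg
      rw [Subgroup.mem_centralizer_iff]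
      intro u hu
      exact (mul_inv_eq_iff_eq_mul.1 (hg u hu)).symm
    · intro u hu
      have h1 : u * b⁻¹ * u⁻¹ ∈ B :=
        (Subgroup.mem_normalizer_iff.1 (hPB hu) b⁻¹).1 (B.inv_mem hb)
      have hw : b * u * b⁻¹ * u⁻¹ ∈ B := by
        have h2 : b * u * b⁻¹ * u⁻¹ = b * (u * b⁻¹ * u⁻¹) := by group
        rw [h2]; exact B.mul_mem hb h1
      have h3 := mul_comm' (⟨b, hb⟩ : B) ⟨b * u * b⁻¹ * u⁻¹, hw⟩
      have h4 : b * (b * u * b⁻¹ * u⁻¹) = (b * u * b⁻¹ * u⁻¹) * b := congrArg Subtype.val h3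
      rw [mul_inv_eq_iff_eq_mul]
      exact h4
  refine ⟨hpart1, ?_⟩
  intro hO hCP
  have hsol : Cfsg.IsPSolvable p G := Cfsg.Agent.Helper20.PLen.isPSolvable_of_isSolvable p
  have hcent := Cfsg.Agent.Helper20.PLen.centralizer_pCore_le_of_psolvable p hsol hO
  have hOpn : (Cfsg.pCore p G).Normal := Cfsg.Agent.Helper27.pCore_normal' p G
  have hOpp : IsPGroup p (Cfsg.pCore p G) := Cfsg.Agent.Helper27.pCore_isPGroup p G
  have hCn : (Subgroup.centralizer (P : Set G)).Normal := inferInstance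
  obtain ⟨j, hj⟩ := IsPGroup.iff_card.1 hP
  have hCp : ∀ c ∈ Subgroup.centralizer (P : Set G), ∃ k : ℕ, c ^ p ^ k = 1 := by
    intro c hc
    have hcen : c ^ p ^ j ∈ Subgroup.centralizer (Cfsg.pCore p G : Set G) := by
      rw [Subgroup.mem_centralizer_iff]
      intro u hu
      have hw1 : c * u * c⁻¹ * u⁻¹ ∈ Cfsg.pCore p G :=
        (Cfsg.pCore p G).mul_mem (hOpn.conj_mem u hu c) ((Cfsg.pCore p G).inv_mem hu)
      have hw2 : c * u * c⁻¹ * u⁻¹ ∈ Subgroup.centralizer (P : Set G) := by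
        have h2 : c * u * c⁻¹ * u⁻¹ = c * (u * c⁻¹ * u⁻¹) := by group
        rw [h2]
        exact Subgroup.mul_mem _ hc (hCn.conj_mem c⁻¹ (Subgroup.inv_mem _ hc) u)
      have hwP : c * u * c⁻¹ * u⁻¹ ∈ P := hCP (Subgroup.mem_inf.2 ⟨hw1, hw2⟩)
      have hcw : (c * u * c⁻¹ * u⁻¹) * c = c * (c * u * c⁻¹ * u⁻¹) :=
        Subgroup.mem_centralizer_iff.1 hc _ hwP
      have hpow : ∀ m : ℕ, c ^ m * u * (c ^ m)⁻¹ = (c * u * c⁻¹ * u⁻¹) ^ m * u := by
        intro m
        induction m with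
        | zero => simp
        | succ m ihm =>
          have hcomm : Commute (c * u * c⁻¹ * u⁻¹) c := hcw
          have h5 : c * (c * u * c⁻¹ * u⁻¹) ^ m = (c * u * c⁻¹ * u⁻¹) ^ m * c :=
            ((hcomm.pow_left m).eq).symm
          calc c ^ (m + 1) * u * (c ^ (m + 1))⁻¹ = c * (c ^ m * u * (c ^ m)⁻¹) * c⁻¹ := by
                rw [pow_succ']; group
            _ = c * ((c * u * c⁻¹ * u⁻¹) ^ m * u) * c⁻¹ := by rw [ihm]
            _ = (c * (c * u * c⁻¹ * u⁻¹) ^ m) * (u * c⁻¹) := by group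
            _ = ((c * u * c⁻¹ * u⁻¹) ^ m * c) * (u * c⁻¹) := by rw [h5]
            _ = (c * u * c⁻¹ * u⁻¹) ^ (m + 1) * u := by rw [pow_succ]; group
      have h6 : (c * u * c⁻¹ * u⁻¹) ^ p ^ j = 1 := by
        have h7 : (⟨c * u * c⁻¹ * u⁻¹, hwP⟩ : P) ^ Nat.card P = 1 := pow_card_eq_one'
        rw [hj] at h7
        exact congrArg Subtype.val h7
      have h8 := hpow (p ^ j)
      rw [h6, one_mul] at h8
      exact (mul_inv_eq_iff_eq_mul.1 h8).symm
    obtain ⟨k, hk⟩ := hOpp ⟨c ^ p ^ j, hcent hcen⟩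
    refine ⟨j + k, ?_⟩
    have h9 : (c ^ p ^ j) ^ p ^ k = 1 := congrArg Subtype.val hk
    rw [pow_add, pow_mul]
    exact h9
  obtain ⟨K, hK⟩ : ∃ K : Subgroup G, K = (Cfsg.pCore p (G ⧸ Subgroup.centralizer (P : Set G))).comap
      (QuotientGroup.mk' (Subgroup.centralizer (P : Set G))) := ⟨_, rfl⟩
  have hKn : K.Normal := by
    rw [hK]
    exact (Cfsg.Agent.Helper27.pCore_normal' p _).comap _
  have hKp : IsPGroup p K := by
    rintro ⟨g, hg⟩
    rw [hK, Subgroup.mem_comap] at hg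
    obtain ⟨k₁, hk₁⟩ := (Cfsg.Agent.Helper27.pCore_isPGroup p
      (G ⧸ Subgroup.centralizer (P : Set G))) ⟨_, hg⟩
    have h1 : (QuotientGroup.mk' (Subgroup.centralizer (P : Set G)) g) ^ p ^ k₁ = 1 :=
      congrArg Subtype.val hk₁
    rw [← map_pow, QuotientGroup.mk'_apply, QuotientGroup.eq_one_iff] at h1
    obtain ⟨k₂, hk₂⟩ := hCp _ h1
    refine ⟨k₁ + k₂, Subtype.ext ?_⟩
    show g ^ p ^ (k₁ + k₂) = 1
    rw [pow_add, pow_mul]
    exact hk₂
  have hSK : sSup S ≤ K := by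
    rw [hK, ← Subgroup.map_le_iff_le_comap]
    exact hpart1
  exact hSK.trans (Cfsg.Agent.Helper27.le_pCore hKn hKp)

end Cfsg.Agent.S1465
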