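import Cfsg.Statements.S1468
import Cfsg.Agent.Helper10.Puig
-- import your own Cfsg.Agent.* helpers here

set_option autoImplicit false
open Cfsg

namespace Cfsg.Agent.S1468



/-- Let p be an odd prime, G a solvable group of odd order with O_{p'}(G) = 1, S a Sylow p-subgroup and T = O_p(G). Then, viewing the Puig subgroups of S and of T inside G, L_*(S) ≤ L_*(T) ≤ L(T) ≤ L(S). -/
theorem result {G : Type*} [Group G] [Finite G] [Group.IsSolvable G] (hodd : Odd (Nat.card G)) (p : ℕ) [Fact p.Prime] (hp : p ≠ 2) (hO : Cfsg.pPrimeCore p G = ⊥) (S : Sylow p G) :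
    (Cfsg.puigLower ↥(S : Subgroup G)).map (S : Subgroup G).subtype ≤ (Cfsg.puigLower ↥(Cfsg.pCore p G)).map (Cfsg.pCore p G).subtype ∧
      (Cfsg.puigLower ↥(Cfsg.pCore p G)).map (Cfsg.pCore p G).subtype ≤ (Cfsg.puigSubgroup ↥(Cfsg.pCore p G)).map (Cfsg.pCore p G).subtype ∧
      (Cfsg.puigSubgroup ↥(Cfsg.pCore p G)).map (Cfsg.pCore p G).subtype ≤ (Cfsg.puigSubgroup ↥(S : Subgroup G)).map (S : Subgroup G).subtype := by
  have hP := Cfsg.Agent.Helper10.puig_compare hodd p hp hO S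
  refine ⟨?_, ?_, ?_⟩
  · unfold Cfsg.puigLower
    rw [Subgroup.map_iSup, Subgroup.map_iSup]
    exact iSup_mono (fun n => (hP n).1)
  · exact Subgroup.map_mono (Cfsg.Agent.Helper10.puigLower_le_puigSubgroup _)
  · unfold Cfsg.puigSubgroup
    rw [Subgroup.map_iInf _ (Subgroup.subtype_injective _), Subgroup.map_iInf _ (Subgroup.subtype_injective _)]
    exact iInf_mono (fun n => (hP n).2)

end Cfsg.Agent.S1468
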