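import Cfsg.Statements.S2585
import Cfsg.Agent.Helper15.Gram

set_option autoImplicit false
open Cfsg

namespace Cfsg.Agent.S2585

theorem result {F : Type*} [Field F] [Fintype F] [CharP F 2] {m : ℕ} (A : Matrix.symplecticGroup (Fin m) F) : ∃ Q : QuadraticForm F (Fin m ⊕ Fin m → F), (∀ u v : Fin m ⊕ Fin m → F, QuadraticMap.polar ⇑Q u v = Cfsg.sympForm m F u v) ∧ ∀ v : Fin m ⊕ Fin m → F, Q ((A : Matrix (Fin m ⊕ Fin m) (Fin m ⊕ Fin m) F).mulVec v) = Q v := by
  classical
  have h2 : (2 : F) = 0 := CharTwo.two_eq_zero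
  obtain ⟨M, hM⟩ : ∃ M : Matrix (Fin m ⊕ Fin m) (Fin m ⊕ Fin m) F,
      M = (A : Matrix (Fin m ⊕ Fin m) (Fin m ⊕ Fin m) F) := ⟨_, rfl⟩
  have hMJ : M.transpose * Matrix.J (Fin m) F * M = Matrix.J (Fin m) F := by
    rw [hM]
    exact SymplecticGroup.mem_iff'.1 A.2
  have hsymp : ∀ u v, Cfsg.sympForm m F (M.mulVec u) (M.mulVec v) = Cfsg.sympForm m F u v := by
    intro u v
    unfold Cfsg.sympForm
    calc M.mulVec u ⬝ᵥ (Matrix.J (Fin m) F).mulVec (M.mulVec v)
        = Matrix.vecMul u M.transpose ⬝ᵥ (Matrix.J (Fin m) F * M).mulVec v := by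
          rw [Matrix.vecMul_transpose, Matrix.mulVec_mulVec]
      _ = u ⬝ᵥ M.transpose.mulVec ((Matrix.J (Fin m) F * M).mulVec v) :=
          (Matrix.dotProduct_mulVec u M.transpose _).symm
      _ = u ⬝ᵥ (Matrix.J (Fin m) F).mulVec v := by
          rw [Matrix.mulVec_mulVec, ← Matrix.mul_assoc, hMJ]
  have hJ : Matrix.J (Fin m) F = Matrix.fromBlocks 0 1 1 0 := by
    unfold Matrix.J
    congr 1
    ext i j
    rw [Matrix.neg_apply, CharTwo.neg_eq]
  have hpolar : ∀ u v, QuadraticMap.polar (Cfsg.quadFormPlus m F) u v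
      = Cfsg.sympForm m F u v := by
    intro u v
    rw [Helper15.polar_quadFormPlus, Cfsg.sympForm, hJ]
  have hQadd : ∀ u v, Cfsg.quadFormPlus m F (u + v)
      = Cfsg.quadFormPlus m F u + Cfsg.quadFormPlus m F v + Cfsg.sympForm m F u v := by
    intro u v
    have := hpolar u v
    unfold QuadraticMap.polar at this
    linear_combination this
  have hQsmul : ∀ (c : F) v, Cfsg.quadFormPlus m F (c • v)
      = c * c * Cfsg.quadFormPlus m F v := by
    intro c v
    simp only [Cfsg.quadFormPlus, Pi.smul_apply, smul_eq_mul, Finset.mul_sum]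
    refine Finset.sum_congr rfl fun i _ => by ring
  obtain ⟨D, hD⟩ : ∃ D : (Fin m ⊕ Fin m → F) → F,
      D = fun v => Cfsg.quadFormPlus m F (M.mulVec v) + Cfsg.quadFormPlus m F v := ⟨_, rfl⟩
  have hDadd : ∀ u v, D (u + v) = D u + D v := by
    intro u v
    simp only [hD]
    rw [Matrix.mulVec_add, hQadd, hQadd, hsymp]
    linear_combination (Cfsg.sympForm m F u v) * h2
  have hDsmul : ∀ (c : F) v, D (c • v) = c * c * D v := by
    intro c v
    simp only [hD]
    rw [Matrix.mulVec_smul, hQsmul, hQsmul]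
    ring
  have hsq : ∀ a b : F, a * a = b * b → a = b := by
    intro a b h
    have h3 : (a - b) * (a - b) = 0 := by
      linear_combination h + (b * b - a * b) * h2
    exact sub_eq_zero.1 (mul_self_eq_zero.1 h3)
  have hr : ∀ x : F, ∃ s, s * s = x := fun x => by
    obtain ⟨s, hs⟩ := FiniteField.isSquare_of_char_two (ringChar.eq F 2) x
    exact ⟨s, hs.symm⟩
  choose r hr using hr
  let μ : (Fin m ⊕ Fin m → F) →ₗ[F] F :=
    { toFun := fun v => r (D v)
      map_add' := by
        intro u v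
        apply hsq
        rw [hr, hDadd]
        linear_combination -(hr (D u)) - (hr (D v)) - (r (D u) * r (D v)) * h2
      map_smul' := by
        intro c v
        simp only [RingHom.id_apply, smul_eq_mul]
        apply hsq
        rw [hr, hDsmul]
        linear_combination (-(c * c)) * hr (D v) }
  let g : (Fin m ⊕ Fin m → F) →ₗ[F] (Fin m ⊕ Fin m → F) := Matrix.toLin' M + LinearMap.id
  have hμ : μ ∈ (LinearMap.ker g).dualAnnihilator := by
    rw [Submodule.mem_dualAnnihilator]
    intro v hv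
    have h3 : M.mulVec v + v = 0 := by
      simpa [g] using hv
    have h4 : M.mulVec v = v := by
      have h5 := eq_neg_of_add_eq_zero_left h3
      rw [h5]
      funext i
      rw [Pi.neg_apply, CharTwo.neg_eq]
    show r (D v) = 0
    have h5 : D v = 0 := by
      simp only [hD]
      rw [h4]
      linear_combination (Cfsg.quadFormPlus m F v) * h2
    rw [h5]
    exact mul_self_eq_zero.1 (hr 0)
  rw [← LinearMap.range_dualMap_eq_dualAnnihilator_ker] at hμ
  obtain ⟨lam, hlam⟩ := hμ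
  have hlam' : ∀ v, lam (M.mulVec v) + lam v = r (D v) := by
    intro v
    have h3 := congrArg (fun φ : Module.Dual F (Fin m ⊕ Fin m → F) => φ v) hlam
    have h4 : lam (M.mulVec v) + lam v = μ v := by
      simpa [g, LinearMap.dualMap_apply] using h3
    exact h4
  have hP₀ : ∀ v : Fin m ⊕ Fin m → F,
      Matrix.toBilin' (Matrix.fromBlocks 0 1 0 0 : Matrix (Fin m ⊕ Fin m) (Fin m ⊕ Fin m) F) v v
        = Cfsg.quadFormPlus m F v := by
    intro v
    rw [Matrix.toBilin'_apply', Matrix.fromBlocks_mulVec]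
    simp [dotProduct, Fintype.sum_sum_type, Cfsg.quadFormPlus]
  obtain ⟨Q, hQdef⟩ : ∃ Q : QuadraticForm F (Fin m ⊕ Fin m → F),
      Q = LinearMap.BilinMap.toQuadraticMap (Matrix.toBilin' (Matrix.fromBlocks 0 1 0 0 :
        Matrix (Fin m ⊕ Fin m) (Fin m ⊕ Fin m) F)) + QuadraticMap.linMulLin lam lam := ⟨_, rfl⟩
  have hQ : ∀ v, Q v = Cfsg.quadFormPlus m F v + lam v * lam v := by
    intro v
    rw [hQdef]
    show Matrix.toBilin' (Matrix.fromBlocks 0 1 0 0 :
        Matrix (Fin m ⊕ Fin m) (Fin m ⊕ Fin m) F) v v + lam v * lam v = _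
    rw [hP₀]
  refine ⟨Q, ?_, ?_⟩
  · intro u v
    rw [← hpolar]
    unfold QuadraticMap.polar
    rw [hQ, hQ, hQ, map_add]
    linear_combination (lam u * lam v) * h2
  · intro v
    rw [← hM, hQ, hQ]
    have h6 := hlam' v
    have h7 := hr (D v)
    rw [← h6] at h7
    simp only [hD] at h7
    linear_combination (-1 : F) * h7 + (lam (M.mulVec v) * lam (M.mulVec v)
      + lam (M.mulVec v) * lam v - Cfsg.quadFormPlus m F v) * h2

end Cfsg.Agent.S2585
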