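import Mathlib
import Cfsg.Agent.Helper2.ExcIso
import Cfsg.Statements.S0256
-- import your own Cfsg.Agent.* helpers here

set_option autoImplicit false
open Cfsg

namespace Cfsg.Agent.S0256

open Matrix Cfsg.Agent.Helper2
open scoped MatrixGroups

def s01 : Equiv.Perm (Fin 8) := ⟨![4, 5, 6, 7, 0, 1, 2, 3], ![4, 5, 6, 7, 0, 1, 2, 3], by decide, by decide⟩
def s02 : Equiv.Perm (Fin 8) := ⟨![2, 3, 0, 1, 6, 7, 4, 5], ![2, 3, 0, 1, 6, 7, 4, 5], by decide, by decide⟩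
def s03 : Equiv.Perm (Fin 8) := ⟨![1, 0, 3, 2, 5, 4, 7, 6], ![1, 0, 3, 2, 5, 4, 7, 6], by decide, by decide⟩
def s10 : Equiv.Perm (Fin 8) := ⟨![4, 6, 7, 5, 0, 3, 1, 2], ![4, 6, 7, 5, 0, 3, 1, 2], by decide, by decide⟩
def s12 : Equiv.Perm (Fin 8) := ⟨![3, 2, 1, 0, 5, 4, 7, 6], ![3, 2, 1, 0, 5, 4, 7, 6], by decide, by decide⟩
def s13 : Equiv.Perm (Fin 8) := ⟨![2, 3, 0, 1, 7, 6, 5, 4], ![2, 3, 0, 1, 7, 6, 5, 4], by decide, by decide⟩
def s20 : Equiv.Perm (Fin 8) := ⟨![7, 3, 4, 1, 2, 6, 5, 0], ![7, 3, 4, 1, 2, 6, 5, 0], by decide, by decide⟩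
def s21 : Equiv.Perm (Fin 8) := ⟨![5, 4, 3, 2, 1, 0, 7, 6], ![5, 4, 3, 2, 1, 0, 7, 6], by decide, by decide⟩
def s23 : Equiv.Perm (Fin 8) := ⟨![4, 5, 7, 6, 0, 1, 3, 2], ![4, 5, 7, 6, 0, 1, 3, 2], by decide, by decide⟩
def s30 : Equiv.Perm (Fin 8) := ⟨![5, 2, 1, 4, 3, 0, 7, 6], ![5, 2, 1, 4, 3, 0, 7, 6], by decide, by decide⟩
def s31 : Equiv.Perm (Fin 8) := ⟨![6, 3, 4, 1, 2, 7, 0, 5], ![6, 3, 4, 1, 2, 7, 0, 5], by decide, by decide⟩
def s32 : Equiv.Perm (Fin 8) := ⟨![4, 7, 6, 5, 0, 3, 2, 1], ![4, 7, 6, 5, 0, 3, 2, 1], by decide, by decide⟩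

/-- The even permutation of eight points attached to the transvection `1 + E i j`. -/
def sig : Fin 4 → Fin 4 → Equiv.Perm (Fin 8) :=
  ![![1, s01, s02, s03],
    ![s10, 1, s12, s13],
    ![s20, s21, 1, s23],
    ![s30, s31, s32, 1]]

def r0001 : Equiv.Perm (Fin 8) := ⟨![4, 3, 0, 5, 2, 1, 6, 7], ![2, 5, 4, 1, 0, 3, 6, 7], by decide, by decide⟩
def r0010 : Equiv.Perm (Fin 8) := ⟨![5, 1, 6, 3, 0, 4, 7, 2], ![4, 1, 7, 3, 5, 0, 2, 6], by decide, by decide⟩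
def r0011 : Equiv.Perm (Fin 8) := ⟨![3, 7, 2, 5, 4, 0, 1, 6], ![5, 6, 2, 0, 4, 3, 7, 1], by decide, by decide⟩
def r0100 : Equiv.Perm (Fin 8) := ⟨![0, 2, 3, 1, 4, 7, 5, 6], ![0, 3, 1, 2, 4, 6, 7, 5], by decide, by decide⟩
def r0101 : Equiv.Perm (Fin 8) := ⟨![6, 4, 1, 3, 2, 5, 7, 0], ![7, 2, 4, 3, 1, 5, 0, 6], by decide, by decide⟩
def r0110 : Equiv.Perm (Fin 8) := ⟨![5, 3, 2, 4, 1, 6, 0, 7], ![6, 4, 2, 1, 3, 0, 5, 7], by decide, by decide⟩
def r0111 : Equiv.Perm (Fin 8) := ⟨![7, 1, 4, 2, 3, 0, 6, 5], ![5, 1, 3, 4, 2, 7, 6, 0], by decide, by decide⟩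
def r1000 : Equiv.Perm (Fin 8) := ⟨![0, 1, 2, 3, 4, 5, 6, 7], ![0, 1, 2, 3, 4, 5, 6, 7], by decide, by decide⟩
def r1001 : Equiv.Perm (Fin 8) := ⟨![5, 2, 1, 4, 3, 0, 7, 6], ![5, 2, 1, 4, 3, 0, 7, 6], by decide, by decide⟩
def r1010 : Equiv.Perm (Fin 8) := ⟨![7, 3, 4, 1, 2, 6, 5, 0], ![7, 3, 4, 1, 2, 6, 5, 0], by decide, by decide⟩
def r1011 : Equiv.Perm (Fin 8) := ⟨![6, 4, 3, 2, 1, 7, 0, 5], ![6, 4, 3, 2, 1, 7, 0, 5], by decide, by decide⟩
def r1100 : Equiv.Perm (Fin 8) := ⟨![4, 6, 7, 5, 0, 3, 1, 2], ![4, 6, 7, 5, 0, 3, 1, 2], by decide, by decide⟩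
def r1101 : Equiv.Perm (Fin 8) := ⟨![3, 7, 6, 0, 5, 4, 2, 1], ![3, 7, 6, 0, 5, 4, 2, 1], by decide, by decide⟩
def r1110 : Equiv.Perm (Fin 8) := ⟨![2, 5, 0, 6, 7, 1, 3, 4], ![2, 5, 0, 6, 7, 1, 3, 4], by decide, by decide⟩
def r1111 : Equiv.Perm (Fin 8) := ⟨![1, 0, 5, 7, 6, 2, 4, 3], ![1, 0, 5, 7, 6, 2, 4, 3], by decide, by decide⟩

/-- Coset representatives: `rho v` carries the standard affine structure on eight points to
the one attached to the nonzero vector `v`. -/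
def rho (a b c d : ZMod 2) : Equiv.Perm (Fin 8) :=
  (![![![![1, r0001], ![r0010, r0011]], ![![r0100, r0101], ![r0110, r0111]]], ![![![r1000, r1001], ![r1010, r1011]], ![![r1100, r1101], ![r1110, r1111]]]] :
    Fin 2 → Fin 2 → Fin 2 → Fin 2 → Equiv.Perm (Fin 8)) a b c d

/-- The standard affine structure on eight points, as the ternary sum. -/
def xor3 : Fin 8 → Fin 8 → Fin 8 → Fin 8 := fun a b c => a ^^^ b ^^^ c

/-- Action of permutations on ternary operations. -/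
def actT (σ : Equiv.Perm (Fin 8)) (f : Fin 8 → Fin 8 → Fin 8 → Fin 8) :
    Fin 8 → Fin 8 → Fin 8 → Fin 8 := fun a b c => σ (f (σ⁻¹ a) (σ⁻¹ b) (σ⁻¹ c))

theorem actT_mul (σ τ : Equiv.Perm (Fin 8)) (f : Fin 8 → Fin 8 → Fin 8 → Fin 8) :
    actT (σ * τ) f = actT σ (actT τ f) := by
  funext a b c
  simp only [actT, _root_.mul_inv_rev, Equiv.Perm.mul_apply]

theorem actT_one (f : Fin 8 → Fin 8 → Fin 8 → Fin 8) : actT 1 f = f := by
  funext a b c
  simp only [actT, inv_one, Equiv.Perm.one_apply]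

theorem actT_proj (σ : Equiv.Perm (Fin 8)) :
    actT σ (fun a _ _ => a) = fun a _ _ => a := by
  funext a b c
  exact σ.apply_symm_apply a

def rhoV (v : Fin 4 → ZMod 2) : Equiv.Perm (Fin 8) := rho (v 0) (v 1) (v 2) (v 3)

/-- The affine structure attached to a vector of `𝔽₂⁴`. -/
def bet (v : Fin 4 → ZMod 2) : Fin 8 → Fin 8 → Fin 8 → Fin 8 :=
  if v 0 = 0 ∧ v 1 = 0 ∧ v 2 = 0 ∧ v 3 = 0 then (fun a _ _ => a)
  else actT (rhoV v) xor3

/-- The action of the transvection `1 + E i j` on vectors. -/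
def upd (i j : Fin 4) (v : Fin 4 → ZMod 2) : Fin 4 → ZMod 2 :=
  fun k => if k = i then v i + v j else v k

def piT (i j : Fin 4) (a b c d : ZMod 2) : Fin 8 → Fin 8 :=
  fun z => (rhoV (upd i j ![a, b, c, d]))⁻¹ (sig i j (rho a b c d z))

set_option maxRecDepth 100000 in
theorem sig_sign : ∀ i j : Fin 4, i ≠ j → Equiv.Perm.sign (sig i j) = 1 := by decide +kernel

set_option maxRecDepth 100000 in
theorem check : ∀ i j : Fin 4, i ≠ j → ∀ a b c d : ZMod 2, ¬ (a = 0 ∧ b = 0 ∧ c = 0 ∧ d = 0) →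
    ∀ x y : Fin 8, piT i j a b c d (x ^^^ y) ^^^ piT i j a b c d 0 =
      (piT i j a b c d x ^^^ piT i j a b c d 0) ^^^ (piT i j a b c d y ^^^ piT i j a b c d 0) := by
  decide +kernel

set_option maxRecDepth 100000 in
theorem check_nz : ∀ i j : Fin 4, i ≠ j → ∀ a b c d : ZMod 2, ¬ (a = 0 ∧ b = 0 ∧ c = 0 ∧ d = 0) →
    ¬ (upd i j ![a, b, c, d] 0 = 0 ∧ upd i j ![a, b, c, d] 1 = 0 ∧ upd i j ![a, b, c, d] 2 = 0 ∧
      upd i j ![a, b, c, d] 3 = 0) := by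
  decide +kernel

set_option maxRecDepth 100000 in
theorem xor_k1 : ∀ A B Z P : Fin 8, P ^^^ Z = (A ^^^ Z) ^^^ (B ^^^ Z) → P = A ^^^ B ^^^ Z := by
  decide +kernel

set_option maxRecDepth 100000 in
theorem xor_k2 : ∀ A B C Z : Fin 8, (A ^^^ B ^^^ Z) ^^^ C ^^^ Z = A ^^^ B ^^^ C := by
  decide +kernel

theorem aff_fix (π : Equiv.Perm (Fin 8))
    (h : ∀ x y, π (x ^^^ y) ^^^ π 0 = (π x ^^^ π 0) ^^^ (π y ^^^ π 0)) : actT π xor3 = xor3 := by
  funext a b c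
  simp only [actT, xor3]
  have h1 := xor_k1 _ _ _ _ (h (π⁻¹ a) (π⁻¹ b))
  have h2 := xor_k1 _ _ _ _ (h (π⁻¹ a ^^^ π⁻¹ b) (π⁻¹ c))
  rw [h2, h1]
  have ha : π (π⁻¹ a) = a := π.apply_symm_apply a
  have hb : π (π⁻¹ b) = b := π.apply_symm_apply b
  have hc : π (π⁻¹ c) = c := π.apply_symm_apply c
  rw [ha, hb, hc]
  exact xor_k2 a b c (π 0)

theorem vec_eta (v : Fin 4 → ZMod 2) : v = ![v 0, v 1, v 2, v 3] := by
  funext k
  fin_cases k <;> rfl

theorem bet_upd (i j : Fin 4) (h : i ≠ j) (v : Fin 4 → ZMod 2) :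
    bet (upd i j v) = actT (sig i j) (bet v) := by
  by_cases hv : v 0 = 0 ∧ v 1 = 0 ∧ v 2 = 0 ∧ v 3 = 0
  · have hu : upd i j v 0 = 0 ∧ upd i j v 1 = 0 ∧ upd i j v 2 = 0 ∧ upd i j v 3 = 0 := by
      obtain ⟨h0, h1, h2, h3⟩ := hv
      have hz : ∀ k, v k = 0 := by
        intro k
        fin_cases k <;> assumption
      simp [upd, hz]
    rw [bet, if_pos hu, bet, if_pos hv, actT_proj]
  · have hu : ¬ (upd i j v 0 = 0 ∧ upd i j v 1 = 0 ∧ upd i j v 2 = 0 ∧ upd i j v 3 = 0) := by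
      have := check_nz i j h (v 0) (v 1) (v 2) (v 3) hv
      rwa [← vec_eta v] at this
    rw [bet, if_neg hu, bet, if_neg hv]
    have hc := check i j h (v 0) (v 1) (v 2) (v 3) hv
    have hfix : actT ((rhoV (upd i j v))⁻¹ * sig i j * rhoV v) xor3 = xor3 := by
      apply aff_fix
      intro x y
      have h1 := hc x y
      simp only [piT] at h1
      rw [← vec_eta v] at h1
      exact h1
    calc actT (rhoV (upd i j v)) xor3
        = actT (rhoV (upd i j v)) (actT ((rhoV (upd i j v))⁻¹ * sig i j * rhoV v) xor3) := by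
          rw [hfix]
      _ = actT (sig i j) (actT (rhoV v) xor3) := by
          rw [← actT_mul, ← actT_mul]
          congr 1
          group

theorem check_nt : bet (upd 0 1 ![0, 1, 0, 0]) 0 1 4 ≠ bet ![0, 1, 0, 0] 0 1 4 := by decide +kernel

theorem tv_mulVec {i j : Fin 4} (h : i ≠ j) (v : Fin 4 → ZMod 2) :
    (Matrix.SpecialLinearGroup.transvection h (1 : ZMod 2)).1 *ᵥ v = upd i j v := by
  rw [Matrix.SpecialLinearGroup.transvection_coe, Matrix.add_mulVec, Matrix.one_mulVec]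
  ext k
  simp only [Pi.add_apply, upd, Matrix.mulVec, dotProduct, Matrix.single_apply]
  by_cases hk : k = i
  · subst hk
    simp
  · simp [hk, Ne.symm hk]

theorem card_sl4 : Nat.card (SL(4, ZMod 2)) = 20160 := by
  have h := card_SL_mul (ZMod 2) 4 (by norm_num)
  rw [ZMod.card, Fin.prod_univ_four] at h
  have h3 : Nat.card (SL(4, ZMod 2)) * 1 = 20160 := h
  omega

theorem card_alt8 : Nat.card (alternatingGroup (Fin 8)) = 20160 := by
  rw [nat_card_alternatingGroup, Nat.card_eq_fintype_card, Fintype.card_fin]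
  norm_num [Nat.factorial]

theorem center_sl4 : Subgroup.center (SL(4, ZMod 2)) = ⊥ := by
  rw [← Subgroup.card_eq_one, card_center_SL (ZMod 2) 4 (by norm_num), ZMod.card]
  rfl

theorem main : Nonempty (SL(4, ZMod 2) ≃* alternatingGroup (Fin 8)) := by
  have hs : IsSimpleGroup (Matrix.ProjectiveSpecialLinearGroup (Fin 4) (ZMod 2)) :=
    PSL_simple_of_three_le (by simp)
  have hnt : Nontrivial (SL(4, ZMod 2)) := by
    rw [← Finite.one_lt_card_iff_nontrivial, card_sl4]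
    norm_num
  have : IsSimpleGroup (SL(4, ZMod 2)) :=
    IsSimpleGroup.isSimpleGroup_of_surjective (pslEquivSL center_sl4).toMonoidHom
      (pslEquivSL center_sl4).surjective
  refine iso_of_graph
    (X := Fin 4 → ZMod 2) (Y := Fin 8 → Fin 8 → Fin 8 → Fin 8)
    (by rw [card_alt8, card_sl4])
    (fun g v => g.1 *ᵥ v) (fun σ f => actT (σ : Equiv.Perm (Fin 8)) f) ?_ ?_ ?_ ?_
    bet
    {g | ∃ i j : Fin 4, ∃ h : i ≠ j, g = Matrix.SpecialLinearGroup.transvection h (1 : ZMod 2)}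
    ?_ ?_ ?_
  · intro A B v
    simp only [Matrix.SpecialLinearGroup.coe_mul, Matrix.mulVec_mulVec]
  · intro v
    simp only [Matrix.SpecialLinearGroup.coe_one, Matrix.one_mulVec]
  · intro σ τ f
    simp only [Subgroup.coe_mul, actT_mul]
  · intro f
    simp only [Subgroup.coe_one, actT_one]
  · rw [eq_top_iff]
    intro g _
    refine transvection_induction (fun g => g ∈ Subgroup.closure
      {g | ∃ i j : Fin 4, ∃ h : i ≠ j, g = Matrix.SpecialLinearGroup.transvection h (1 : ZMod 2)})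
      ?_ ?_ g
    · intro i j h c
      have hc : c = 0 ∨ c = 1 := by revert c; decide
      rcases hc with rfl | rfl
      · rw [Matrix.SpecialLinearGroup.transvection_coeff_zero]
        exact Subgroup.one_mem _
      · exact Subgroup.subset_closure ⟨i, j, h, rfl⟩
    · intro a b ha hb
      exact Subgroup.mul_mem _ ha hb
  · rintro g ⟨i, j, h, rfl⟩
    refine ⟨⟨sig i j, Equiv.Perm.mem_alternatingGroup.mpr (sig_sign i j h)⟩, fun v => ?_⟩
    show bet ((Matrix.SpecialLinearGroup.transvection h (1 : ZMod 2)).1 *ᵥ v) =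
      actT (sig i j) (bet v)
    rw [tv_mulVec]
    exact bet_upd i j h v
  · refine ⟨Matrix.SpecialLinearGroup.transvection (zero_ne_one : (0 : Fin 4) ≠ 1) (1 : ZMod 2),
      ![0, 1, 0, 0], ?_⟩
    show bet ((Matrix.SpecialLinearGroup.transvection (zero_ne_one : (0 : Fin 4) ≠ 1)
      (1 : ZMod 2)).1 *ᵥ ![0, 1, 0, 0]) ≠ bet ![0, 1, 0, 0]
    rw [tv_mulVec]
    intro hcon
    exact check_nt (congrFun (congrFun (congrFun hcon 0) 1) 4)

/-- PSL_4(2) is isomorphic to A_8. -/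
theorem result {F : Type*} [Field F] [Fintype F] (hF : Fintype.card F = 2) : Nonempty (Matrix.ProjectiveSpecialLinearGroup (Fin 4) F ≃* alternatingGroup (Fin 8)) := by
  have e2 : F ≃+* ZMod 2 := (ZMod.ringEquivOfPrime F Nat.prime_two hF).symm
  obtain ⟨m⟩ := main
  exact ⟨((pslCongr e2).trans (pslEquivSL center_sl4)).trans m⟩

end Cfsg.Agent.S0256
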