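import Cfsg.Statements.S5631
import Cfsg.Agent.Helper28.Transv
import Cfsg.Agent.Helper2.SLGen

set_option autoImplicit false
open Cfsg

namespace Cfsg.Agent.S5631

open scoped Matrix
open Cfsg.Agent.Helper28

theorem gl_ext_mulVec {ι : Type} [Fintype ι] [DecidableEq ι] {F : Type*} [Field F] (g g' : GL ι F)
    (h : ∀ x : ι → F, (g : Matrix ι ι F) *ᵥ x = (g' : Matrix ι ι F) *ᵥ x) : g = g' :=
  Units.ext (Matrix.ext_iff_mulVec.mpr h)

theorem inv_mulVec_mulVec {ι : Type} [Fintype ι] [DecidableEq ι] {F : Type*} [Field F] (g : GL ι F)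
    (x : ι → F) : ((g⁻¹ : GL ι F) : Matrix ι ι F) *ᵥ ((g : Matrix ι ι F) *ᵥ x) = x := by
  rw [Matrix.mulVec_mulVec, ← Units.val_mul, inv_mul_cancel, Units.val_one, Matrix.one_mulVec]

theorem mem_stab_of_action {ι : Type} [Fintype ι] [DecidableEq ι] {F : Type*} [Field F]
    (W : Submodule F (ι → F)) (g : GL ι F) (a : ι → F) (ha : a ∈ W)
    (φ : (ι → F) → F) (hg : ∀ x, (g : Matrix ι ι F) *ᵥ x = x + φ x • a) :
    g ∈ Cfsg.Geo.subspaceStabilizer W := by
  rw [mem_subspaceStabilizer_iff]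
  intro x
  rw [hg]
  constructor
  · intro hx
    exact W.add_mem hx (W.smul_mem _ ha)
  · intro hx
    have h2 := W.sub_mem hx (W.smul_mem (φ x) ha)
    rwa [add_sub_cancel_right] at h2

theorem transv_mem_stab_of_ker {ι : Type} [Fintype ι] [DecidableEq ι] {F : Type*} [Field F]
    (W : Submodule F (ι → F)) (a : ι → F) (f : (ι → F) →ₗ[F] F)
    (h : f a = 0) (hW : ∀ w ∈ W, f w = 0) : transvGL a f h ∈ Cfsg.Geo.subspaceStabilizer W := by
  rw [mem_subspaceStabilizer_iff]
  intro x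
  rw [transvGL_mulVec]
  constructor
  · intro hx
    rw [hW x hx, zero_smul, add_zero]
    exact hx
  · intro hx
    have h1 : f (x + f x • a) = 0 := hW _ hx
    rw [map_add, map_smul, h, smul_zero, add_zero] at h1
    rw [h1, zero_smul, add_zero] at hx
    exact hx

theorem exists_functional {ι : Type} [Fintype ι] [DecidableEq ι] {F : Type*} [Field F]
    (U : Submodule F (ι → F)) (v : ι → F) (hv : v ∉ U) :
    ∃ f : (ι → F) →ₗ[F] F, f v = 1 ∧ ∀ w ∈ U, f w = 0 := by
  obtain ⟨f, hfv, hfp⟩ := Submodule.exists_dual_map_eq_bot_of_notMem hv inferInstance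
  refine ⟨(f v)⁻¹ • f, ?_, ?_⟩
  · rw [LinearMap.smul_apply, smul_eq_mul, inv_mul_cancel₀ hfv]
  · intro w hw
    have h2 : f w ∈ U.map f := Submodule.mem_map_of_mem hw
    rw [hfp] at h2
    rw [LinearMap.smul_apply, (Submodule.mem_bot F).1 h2, smul_zero]

theorem exists_stab_map_line {ι : Type} [Fintype ι] [DecidableEq ι] {F : Type*} [Field F]
    (W : Submodule F (ι → F)) (v v' : ι → F) (hv : v ∉ W) (hv' : v' ∉ W) :
    ∃ g : GL ι F, g ∈ Cfsg.Geo.specialLinear ι F ∧ g ∈ Cfsg.Geo.subspaceStabilizer W ∧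
      ∃ c : F, (g : Matrix ι ι F) *ᵥ v = c • v' := by
  by_cases hcase : v' ∈ W ⊔ Submodule.span F {v}
  · obtain ⟨w, hw, z, hz, hwz⟩ := Submodule.mem_sup.1 hcase
    obtain ⟨c, rfl⟩ := Submodule.mem_span_singleton.1 hz
    have hc : c ≠ 0 := by
      rintro rfl
      rw [zero_smul, add_zero] at hwz
      exact hv' (hwz ▸ hw)
    obtain ⟨f, hfv, hfW⟩ := exists_functional W v hv
    have hw' : c⁻¹ • w ∈ W := W.smul_mem _ hw
    refine ⟨transvGL (c⁻¹ • w) f (hfW _ hw'), transvGL_mem_specialLinear _ _ _,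
      transv_mem_stab_of_ker W _ f _ hfW, c⁻¹, ?_⟩
    rw [transvGL_mulVec, hfv, one_smul, ← hwz, smul_add, smul_smul, inv_mul_cancel₀ hc, one_smul,
      add_comm]
  · have hv2 : v ∉ W ⊔ Submodule.span F {v' - v} := by
      intro hmem
      obtain ⟨w, hw, z, hz, hwz⟩ := Submodule.mem_sup.1 hmem
      obtain ⟨c, rfl⟩ := Submodule.mem_span_singleton.1 hz
      by_cases hc : c = 0
      · subst hc
        rw [zero_smul, add_zero] at hwz
        exact hv (hwz ▸ hw)
      · apply hcase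
        have e1 : c • (v' - v) = v - w := eq_sub_of_add_eq' hwz
        have e2 : v' - v = c⁻¹ • (v - w) := by
          rw [← e1, smul_smul, inv_mul_cancel₀ hc, one_smul]
        have e3 : v' = c⁻¹ • (v - w) + v := eq_add_of_sub_eq e2
        have hvm : v ∈ W ⊔ Submodule.span F {v} :=
          Submodule.mem_sup_right (Submodule.mem_span_singleton_self v)
        have hwm : w ∈ W ⊔ Submodule.span F {v} := Submodule.mem_sup_left hw
        rw [e3]
        exact Submodule.add_mem _ (Submodule.smul_mem _ _ (Submodule.sub_mem _ hvm hwm)) hvm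
    obtain ⟨f, hfv, hfU⟩ := exists_functional _ v hv2
    have hfd : f (v' - v) = 0 :=
      hfU _ (Submodule.mem_sup_right (Submodule.mem_span_singleton_self _))
    have hfW : ∀ w ∈ W, f w = 0 := fun w hw => hfU w (Submodule.mem_sup_left hw)
    refine ⟨transvGL (v' - v) f hfd, transvGL_mem_specialLinear _ _ _,
      transv_mem_stab_of_ker W _ f _ hfW, 1, ?_⟩
    rw [transvGL_mulVec, hfv, one_smul, one_smul, add_sub_cancel]

theorem conj_transv_mem_stab {ι : Type} [Fintype ι] [DecidableEq ι] {F : Type*} [Field F]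
    (W : Submodule F (ι → F)) (k : GL ι F) (a : ι → F)
    (f : (ι → F) →ₗ[F] F) (h : f a = 0) (hka : (k : Matrix ι ι F) *ᵥ a ∈ W) :
    k * transvGL a f h * k⁻¹ ∈ Cfsg.Geo.subspaceStabilizer W := by
  apply mem_stab_of_action W _ ((k : Matrix ι ι F) *ᵥ a) hka
    (fun x => f (((k⁻¹ : GL ι F) : Matrix ι ι F) *ᵥ x))
  intro x
  rw [Units.val_mul, Units.val_mul, ← Matrix.mulVec_mulVec, ← Matrix.mulVec_mulVec, transvGL_mulVec,
    Matrix.mulVec_add, Matrix.mulVec_smul, Matrix.mulVec_mulVec, ← Units.val_mul, mul_inv_cancel,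
    Units.val_one, Matrix.one_mulVec]

theorem toGL_transvection_eq {ι : Type} [Fintype ι] [DecidableEq ι] {F : Type*} [Field F]
    {i j : ι} (hij : i ≠ j) (b : F) :
    ∃ (f : (ι → F) →ₗ[F] F) (hf : f (Pi.single i (1 : F)) = 0),
      Matrix.SpecialLinearGroup.toGL (Matrix.SpecialLinearGroup.transvection hij b)
        = transvGL (Pi.single i (1 : F)) f hf := by
  have hf : (b • (LinearMap.proj j : (ι → F) →ₗ[F] F)) (Pi.single i (1 : F)) = 0 := by
    rw [LinearMap.smul_apply, LinearMap.proj_apply, Pi.single_eq_of_ne (Ne.symm hij), smul_zero]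
  refine ⟨b • (LinearMap.proj j : (ι → F) →ₗ[F] F), hf, ?_⟩
  apply gl_ext_mulVec
  intro x
  have e1 : ((Matrix.SpecialLinearGroup.toGL (Matrix.SpecialLinearGroup.transvection hij b) :
      GL ι F) : Matrix ι ι F) = 1 + Matrix.single i j b := rfl
  rw [e1, transvGL_mulVec, Matrix.add_mulVec, Matrix.one_mulVec, Matrix.single_mulVec_eq,
    LinearMap.smul_apply, LinearMap.proj_apply, smul_eq_mul]


/-- For a finite field F and n ≥ 13, the stabiliser in SL_n(F) of any proper non-zero subspace W of F^n is a maximal subgroup of SL_n(F). Here SL_n(F) is the kernel of the determinant inside GL_n(F) and the stabiliser is the set of elements of determinant one mapping W onto itself. -/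
theorem result {F : Type*} [Field F] [Fintype F] (n : ℕ) (hn : 13 ≤ n) (W : Submodule F (Fin n → F)) (hW0 : W ≠ ⊥) (hW1 : W ≠ ⊤) : Cfsg.Geo.IsMaximalIn (Cfsg.Geo.specialLinear (Fin n) F) (Cfsg.Geo.subspaceStabilizer W ⊓ Cfsg.Geo.specialLinear (Fin n) F) := by
  have hlt : Cfsg.Geo.subspaceStabilizer W ⊓ Cfsg.Geo.specialLinear (Fin n) F
      < Cfsg.Geo.specialLinear (Fin n) F := by
    obtain ⟨h, hh1, hh2⟩ := exists_specialLinear_not_stab W hW0 hW1
    refine lt_of_le_of_ne inf_le_right (fun heq => ?_)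
    have h3 : h ∈ Cfsg.Geo.subspaceStabilizer W ⊓ Cfsg.Geo.specialLinear (Fin n) F := by
      rw [heq]; exact hh1
    exact hh2 h3.1
  refine ⟨hlt, fun M hPM hMK => ?_⟩
  by_cases hMP : M = Cfsg.Geo.subspaceStabilizer W ⊓ Cfsg.Geo.specialLinear (Fin n) F
  · exact Or.inl hMP
  right
  apply le_antisymm hMK
  obtain ⟨h, hhM, hhP⟩ : ∃ h ∈ M, h ∉ Cfsg.Geo.subspaceStabilizer W := by
    by_contra hcon
    push Not at hcon
    exact hMP (le_antisymm (fun x hx => ⟨hcon x hx, hMK hx⟩) hPM)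
  obtain ⟨h', hh'M, w, hw, hw'⟩ : ∃ h' ∈ M, ∃ w ∈ W,
      (h' : Matrix (Fin n) (Fin n) F) *ᵥ w ∉ W := by
    by_cases hcase : ∃ x ∈ W, (h : Matrix (Fin n) (Fin n) F) *ᵥ x ∉ W
    · obtain ⟨x, hx, hx'⟩ := hcase
      exact ⟨h, hhM, x, hx, hx'⟩
    · push Not at hcase
      have hex : ∃ x, x ∉ W ∧ (h : Matrix (Fin n) (Fin n) F) *ᵥ x ∈ W := by
        by_contra hcon
        push Not at hcon
        apply hhP
        rw [mem_subspaceStabilizer_iff]
        intro x
        constructor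
        · exact hcase x
        · intro hx
          by_contra hxW
          exact hcon x hxW hx
      obtain ⟨x, hxW, hx⟩ := hex
      refine ⟨h⁻¹, M.inv_mem hhM, (h : Matrix (Fin n) (Fin n) F) *ᵥ x, hx, ?_⟩
      rw [inv_mulVec_mulVec]
      exact hxW
  have htr : ∀ (a : Fin n → F) (f : (Fin n → F) →ₗ[F] F) (hfa : f a = 0),
      transvGL a f hfa ∈ M := by
    intro a f hfa
    obtain ⟨k, hkM, hka⟩ : ∃ k ∈ M, (k : Matrix (Fin n) (Fin n) F) *ᵥ a ∈ W := by
      by_cases haW : a ∈ W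
      · exact ⟨1, M.one_mem, by rw [Units.val_one, Matrix.one_mulVec]; exact haW⟩
      · obtain ⟨g, hg1, hg2, c, hc⟩ :=
          exists_stab_map_line W a ((h' : Matrix (Fin n) (Fin n) F) *ᵥ w) haW hw'
        refine ⟨h'⁻¹ * g, M.mul_mem (M.inv_mem hh'M) (hPM ⟨hg2, hg1⟩), ?_⟩
        rw [Units.val_mul, ← Matrix.mulVec_mulVec, hc, Matrix.mulVec_smul, inv_mulVec_mulVec]
        exact W.smul_mem c hw
    have hkS := hMK hkM
    have h1 : k * transvGL a f hfa * k⁻¹ ∈ M :=
      hPM ⟨conj_transv_mem_stab W k a f hfa hka,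
        Subgroup.mul_mem _ (Subgroup.mul_mem _ hkS (transvGL_mem_specialLinear a f hfa))
          (Subgroup.inv_mem _ hkS)⟩
    have h2 := M.mul_mem (M.mul_mem (M.inv_mem hkM) h1) hkM
    have e : k⁻¹ * (k * transvGL a f hfa * k⁻¹) * k = transvGL a f hfa := by group
    rwa [e] at h2
  intro g hg
  have hdet : (g : Matrix (Fin n) (Fin n) F).det = 1 := by
    have h1 := hg
    rw [Cfsg.Geo.specialLinear, MonoidHom.mem_ker] at h1
    have h2 := congrArg Units.val h1
    rwa [Matrix.GeneralLinearGroup.val_det_apply, Units.val_one] at h2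
  haveI : Nontrivial (Fin n) := Fin.nontrivial_iff_two_le.mpr (by omega)
  have key : ∀ A : Matrix.SpecialLinearGroup (Fin n) F,
      Matrix.SpecialLinearGroup.toGL A ∈ M := by
    intro A
    refine Cfsg.Agent.Helper2.transvection_induction
      (fun A => Matrix.SpecialLinearGroup.toGL A ∈ M) ?_ ?_ A
    · intro i j hij c
      obtain ⟨f, hf, e⟩ := toGL_transvection_eq (F := F) hij c
      show Matrix.SpecialLinearGroup.toGL (Matrix.SpecialLinearGroup.transvection hij c) ∈ M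
      rw [e]
      exact htr _ f hf
    · intro A B hA hB
      show Matrix.SpecialLinearGroup.toGL (A * B) ∈ M
      rw [map_mul]
      exact M.mul_mem hA hB
  have h3 := key ⟨(g : Matrix (Fin n) (Fin n) F), hdet⟩
  have e : Matrix.SpecialLinearGroup.toGL ⟨(g : Matrix (Fin n) (Fin n) F), hdet⟩ = g :=
    Units.ext rfl
  rwa [e] at h3

end Cfsg.Agent.S5631
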