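import Mathlib
import Cfsg.Statements.S1010
import Cfsg.Agent.S4304

set_option autoImplicit false
open Cfsg

universe u

namespace Cfsg.Agent.S1010

/-! ### the structure of the action when there are `r * p + 1` Sylow subgroups, `r < p` -/

theorem orbit_facts {G : Type u} [Group G] [Finite G] {p r : ℕ} [Fact p.Prime] (hr : r < p)
    (hcard : Nat.card (Sylow p G) = r * p + 1) (X Y : Sylow p G) (hXY : X ≠ Y) :
    (MulAction.orbit ↥(X : Subgroup G) Y).ncard = p ∧
    X ∉ MulAction.orbit ↥(X : Subgroup G) Y ∧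
    Nat.card ↥((X : Subgroup G) ⊓ (Y : Subgroup G)) * p = Nat.card ↥(X : Subgroup G) ∧
    (∀ u ∈ (X : Subgroup G), ∀ w ∈ (X : Subgroup G), w ∈ (Y : Subgroup G) →
      u * w * u⁻¹ ∈ (Y : Subgroup G)) := by
  have hp := (Fact.out : p.Prime)
  have hstab : MulAction.stabilizer ↥(X : Subgroup G) Y =
      (Y : Subgroup G).subgroupOf (X : Subgroup G) := by
    ext u
    rw [MulAction.mem_stabilizer_iff, Subgroup.mem_subgroupOf]
    constructor
    · intro h
      have h0 : (u : G) • Y = Y := h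
      have h1 : (u : G) ∈ Subgroup.normalizer ((Y : Subgroup G) : Set G) :=
        Sylow.smul_eq_iff_mem_normalizer.mp h0
      have h2 : (u : G) ∈ (X : Subgroup G) ⊓ Subgroup.normalizer ((Y : Subgroup G) : Set G) :=
        Subgroup.mem_inf.mpr ⟨u.2, h1⟩
      have h5 : (X : Subgroup G) ⊓ Subgroup.normalizer ((Y : Subgroup G) : Set G) =
          (X : Subgroup G) ⊓ Y := IsPGroup.inf_normalizer_sylow X.2 Y
      rw [h5] at h2
      exact (Subgroup.mem_inf.mp h2).2
    · intro h
      have h0 : (u : G) • Y = Y :=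
        Sylow.smul_eq_iff_mem_normalizer.mpr (Subgroup.le_normalizer h)
      exact h0
  have hX_notin : X ∉ MulAction.orbit ↥(X : Subgroup G) Y := by
    rintro ⟨⟨g, hg⟩, hu⟩
    have h0 : g • Y = X := hu
    have h1 : g⁻¹ • X = X :=
      Sylow.smul_eq_iff_mem_normalizer.mpr (Subgroup.le_normalizer (inv_mem hg))
    have h2 : Y = g⁻¹ • X := by rw [← h0, smul_smul, inv_mul_cancel, one_smul]
    exact hXY (h2.trans h1).symm
  have hidx : (MulAction.stabilizer ↥(X : Subgroup G) Y).index =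
      (MulAction.orbit ↥(X : Subgroup G) Y).ncard := MulAction.index_stabilizer _ Y
  obtain ⟨n, hn⟩ := IsPGroup.card_orbit X.2 Y
  rw [Nat.card_coe_set_eq] at hn
  have hle : (MulAction.orbit ↥(X : Subgroup G) Y).ncard + 1 ≤ r * p + 1 := by
    rw [← Set.ncard_insert_of_notMem hX_notin, ← hcard, ← Set.ncard_univ (Sylow p G)]
    exact Set.ncard_le_ncard (Set.subset_univ _)
  have hn0 : n ≠ 0 := by
    rintro rfl
    rw [pow_zero] at hn
    rw [hn, hstab] at hidx
    have h1 : (Y : Subgroup G).subgroupOf (X : Subgroup G) = ⊤ := Subgroup.index_eq_one.mp hidx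
    have h2 : (X : Subgroup G) ≤ Y := Subgroup.subgroupOf_eq_top.mp h1
    exact hXY (Sylow.ext (X.3 Y.2 h2)).symm
  have hn1 : n = 1 := by
    by_contra hne
    have h2 : 2 ≤ n := by omega
    have h3 : p ^ 2 ≤ p ^ n := Nat.pow_le_pow_right hp.pos h2
    rw [hn] at hle
    have h4 : r * p < p * p := mul_lt_mul_of_pos_right hr hp.pos
    have h5 : p ^ 2 = p * p := sq p
    omega
  rw [hn1, pow_one] at hn
  have hidx' : ((Y : Subgroup G).subgroupOf (X : Subgroup G)).index = p := by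
    rw [← hstab, hidx, hn]
  have hcardXY : Nat.card ↥((X : Subgroup G) ⊓ (Y : Subgroup G)) * p =
      Nat.card ↥(X : Subgroup G) := by
    have h1 := Subgroup.index_mul_card ((Y : Subgroup G).subgroupOf (X : Subgroup G))
    rw [hidx'] at h1
    have h2 : Nat.card ↥((Y : Subgroup G).subgroupOf (X : Subgroup G)) =
        Nat.card ↥((X : Subgroup G) ⊓ (Y : Subgroup G)) := by
      rw [← Subgroup.inf_subgroupOf_left (Y : Subgroup G) (X : Subgroup G)]
      exact Nat.card_congr (Subgroup.subgroupOfEquivOfLe inf_le_left).toEquiv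
    rw [h2] at h1
    exact (mul_comm _ _).trans h1
  have hnormal : ((Y : Subgroup G).subgroupOf (X : Subgroup G)).Normal := by
    apply Subgroup.normal_of_index_eq_minFac_card
    obtain ⟨k, hk⟩ := IsPGroup.iff_card.mp X.2
    have hk0 : k ≠ 0 := by
      rintro rfl
      rw [pow_zero] at hk
      rw [hk] at hcardXY
      have hdvd : p ∣ 1 := Dvd.intro_left _ hcardXY
      exact hp.one_lt.ne' (Nat.dvd_one.mp hdvd)
    rw [hk, Nat.pow_minFac hk0, hp.minFac_eq, hidx']
  refine ⟨hn, hX_notin, hcardXY, ?_⟩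
  intro u hu w hw hwY
  have h1 := hnormal.conj_mem ⟨w, hw⟩ (Subgroup.mem_subgroupOf.mpr hwY) ⟨u, hu⟩
  exact Subgroup.mem_subgroupOf.mp h1

theorem inf_smul_eq {G : Type u} [Group G] [Finite G] {p r : ℕ} [Fact p.Prime] (hr : r < p)
    (hcard : Nat.card (Sylow p G) = r * p + 1) (X Y : Sylow p G) (hXY : X ≠ Y)
    (u : G) (hu : u ∈ (X : Subgroup G)) :
    (X : Subgroup G) ⊓ ((u • Y : Sylow p G) : Subgroup G) =
      (X : Subgroup G) ⊓ (Y : Subgroup G) := by
  obtain ⟨-, -, -, hnorm⟩ := orbit_facts hr hcard X Y hXY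
  ext z
  rw [Subgroup.mem_inf, Subgroup.mem_inf, S4304.mem_smul_sylow]
  constructor
  · rintro ⟨hzX, hz⟩
    refine ⟨hzX, ?_⟩
    have h1 : u⁻¹ * z * u ∈ (X : Subgroup G) := mul_mem (mul_mem (inv_mem hu) hzX) hu
    have h2 := hnorm u hu (u⁻¹ * z * u) h1 hz
    have h3 : u * (u⁻¹ * z * u) * u⁻¹ = z := by group
    rw [h3] at h2
    exact h2
  · rintro ⟨hzX, hz⟩
    refine ⟨hzX, ?_⟩
    have h2 := hnorm u⁻¹ (inv_mem hu) z hzX hz
    rw [inv_inv] at h2
    exact h2

theorem orbit_inf {G : Type u} [Group G] [Finite G] {p r : ℕ} [Fact p.Prime] (hr : r < p)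
    (hcard : Nat.card (Sylow p G) = r * p + 1) (X Y : Sylow p G) (hXY : X ≠ Y)
    (Z : Sylow p G) (hZ : Z ∈ MulAction.orbit ↥(X : Subgroup G) Y) :
    (X : Subgroup G) ⊓ (Z : Subgroup G) = (X : Subgroup G) ⊓ (Y : Subgroup G) := by
  obtain ⟨⟨g, hg⟩, hgZ⟩ := hZ
  have h0 : g • Y = Z := hgZ
  rw [← h0]
  exact inf_smul_eq hr hcard X Y hXY g hg

theorem inf_card {G : Type u} [Group G] [Finite G] {p r : ℕ} [Fact p.Prime] (hr : r < p)
    (hcard : Nat.card (Sylow p G) = r * p + 1) (X Y : Sylow p G) (hXY : X ≠ Y) :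
    Nat.card ↥((X : Subgroup G) ⊓ (Y : Subgroup G)) * p =
      p ^ (Nat.card G).factorization p := by
  obtain ⟨-, -, c, -⟩ := orbit_facts hr hcard X Y hXY
  rw [c]
  exact Sylow.card_eq_multiplicity X

theorem inf_eq_of_le' {G : Type u} [Group G] [Finite G] {p r : ℕ} [Fact p.Prime] (hr : r < p)
    (hcard : Nat.card (Sylow p G) = r * p + 1) (X Y Z W : Sylow p G) (hXY : X ≠ Y)
    (hZW : Z ≠ W)
    (h : (X : Subgroup G) ⊓ (Y : Subgroup G) ≤ (Z : Subgroup G) ⊓ (W : Subgroup G)) :
    (X : Subgroup G) ⊓ (Y : Subgroup G) = (Z : Subgroup G) ⊓ (W : Subgroup G) := by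
  have hp := (Fact.out : p.Prime)
  apply Subgroup.eq_of_le_of_card_ge h
  have h1 : Nat.card ↥((Z : Subgroup G) ⊓ (W : Subgroup G)) * p =
      Nat.card ↥((X : Subgroup G) ⊓ (Y : Subgroup G)) * p := by
    rw [inf_card hr hcard X Y hXY, inf_card hr hcard Z W hZW]
  exact le_of_eq (Nat.eq_of_mul_eq_mul_right hp.pos h1)

theorem all_inf_eq {G : Type u} [Group G] [Finite G] {p r : ℕ} [Fact p.Prime] (hr : r < p)
    (hcard : Nat.card (Sylow p G) = r * p + 1) (P Q R : Sylow p G) (hPQ : P ≠ Q)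
    (hPR : P ≠ R) :
    (P : Subgroup G) ⊓ (Q : Subgroup G) = (P : Subgroup G) ⊓ (R : Subgroup G) := by
  classical
  haveI : Fintype (Sylow p G) := Fintype.ofFinite _
  have hp := (Fact.out : p.Prime)
  by_contra hne
  have hQR : Q ≠ R := by
    intro h
    rw [h] at hne
    exact hne rfl
  have hPnot : ¬ (Q : Subgroup G) ⊓ (R : Subgroup G) ≤ (P : Subgroup G) := by
    intro hle
    apply hne
    have h1 : (Q : Subgroup G) ⊓ (R : Subgroup G) = (Q : Subgroup G) ⊓ (P : Subgroup G) :=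
      inf_eq_of_le' hr hcard Q R Q P hQR hPQ.symm (le_inf inf_le_left hle)
    have h2 : (Q : Subgroup G) ⊓ (R : Subgroup G) = (R : Subgroup G) ⊓ (P : Subgroup G) :=
      inf_eq_of_le' hr hcard Q R R P hQR hPR.symm (le_inf inf_le_right hle)
    rw [inf_comm (P : Subgroup G) (Q : Subgroup G), inf_comm (P : Subgroup G) (R : Subgroup G),
      ← h1, ← h2]
  let f : Sylow p G → Subgroup G := fun Z => (P : Subgroup G) ⊓ (Z : Subgroup G)
  let s : Finset (Sylow p G) := Finset.univ.erase P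
  let B : Finset (Sylow p G) := Finset.univ.filter
    (fun Z : Sylow p G => (Q : Subgroup G) ⊓ (R : Subgroup G) ≤ (Z : Subgroup G))
  have hBmem : ∀ Z : Sylow p G,
      Z ∈ B ↔ (Q : Subgroup G) ⊓ (R : Subgroup G) ≤ (Z : Subgroup G) :=
    fun Z => Finset.mem_filter.trans (and_iff_right (Finset.mem_univ Z))
  have hsmem : ∀ Z : Sylow p G, Z ∈ s ↔ Z ≠ P :=
    fun Z => Finset.mem_erase.trans (and_iff_left (Finset.mem_univ Z))
  have hBs : B ⊆ s := by
    intro Z hZ
    rw [hsmem]
    intro hZP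
    rw [hZP] at hZ
    exact hPnot ((hBmem P).mp hZ)
  -- `B` has at least `p + 1` elements
  have hBcard : p + 1 ≤ B.card := by
    obtain ⟨hc, hQnot, -, -⟩ := orbit_facts hr hcard Q R hQR
    have hsub : insert Q (MulAction.orbit ↥(Q : Subgroup G) R) ⊆ (B : Set (Sylow p G)) := by
      intro Z hZ
      rw [Finset.mem_coe, hBmem]
      rcases Set.mem_insert_iff.mp hZ with hZQ | hZ'
      · rw [hZQ]
        exact inf_le_left
      · rw [← orbit_inf hr hcard Q R hQR Z hZ']
        exact inf_le_right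
    have h1 := Set.ncard_le_ncard hsub (Finset.finite_toSet B)
    rw [Set.ncard_insert_of_notMem hQnot, Set.ncard_coe_finset, hc] at h1
    exact h1
  -- `f` is injective on `B`
  have hinj : Set.InjOn f (B : Set (Sylow p G)) := by
    intro Z hZ Z' hZ' hff
    rw [Finset.mem_coe, hBmem] at hZ hZ'
    by_contra hZZ
    have hPZ : P ≠ Z := by
      intro h
      rw [← h] at hZ
      exact hPnot hZ
    have h1 : (Q : Subgroup G) ⊓ (R : Subgroup G) = (Z : Subgroup G) ⊓ (Z' : Subgroup G) :=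
      inf_eq_of_le' hr hcard Q R Z Z' hQR hZZ (le_inf hZ hZ')
    have hff' : (P : Subgroup G) ⊓ (Z : Subgroup G) = (P : Subgroup G) ⊓ (Z' : Subgroup G) :=
      hff
    have h2 : (P : Subgroup G) ⊓ (Z : Subgroup G) = (Z : Subgroup G) ⊓ (Z' : Subgroup G) := by
      apply inf_eq_of_le' hr hcard P Z Z Z' hPZ hZZ
      apply le_inf inf_le_right
      rw [hff']
      exact inf_le_right
    apply hPnot
    rw [h1, ← h2]
    exact inf_le_left
  -- every fibre of `f` on `s` has at least `p` elements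
  have hfib : ∀ b ∈ s.image f, p ≤ (s.filter (fun a => f a = b)).card := by
    intro b hb
    obtain ⟨Z, hZs, rfl⟩ := Finset.mem_image.mp hb
    have hPZ : P ≠ Z := ((hsmem Z).mp hZs).symm
    obtain ⟨hc, hPnotin, -, -⟩ := orbit_facts hr hcard P Z hPZ
    have hsub : MulAction.orbit ↥(P : Subgroup G) Z ⊆
        ((s.filter (fun a => f a = f Z) : Finset (Sylow p G)) : Set (Sylow p G)) := by
      intro Y hY
      rw [Finset.mem_coe, Finset.mem_filter, hsmem]
      refine ⟨?_, orbit_inf hr hcard P Z hPZ Y hY⟩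
      intro hYP
      rw [hYP] at hY
      exact hPnotin hY
    have h1 := Set.ncard_le_ncard hsub (Finset.finite_toSet _)
    rw [Set.ncard_coe_finset, hc] at h1
    exact h1
  have h1 : p * (s.image f).card ≤ s.card := Finset.mul_card_image_le_card s p hfib
  have h2 : p + 1 ≤ (s.image f).card := by
    have h3 : (B.image f).card = B.card := Finset.card_image_of_injOn hinj
    have h4 : (B.image f).card ≤ (s.image f).card :=
      Finset.card_le_card (Finset.image_subset_image hBs)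
    omega
  have h3 : s.card = r * p := by
    show (Finset.univ.erase P).card = r * p
    rw [Finset.card_erase_of_mem (Finset.mem_univ P), Finset.card_univ,
      ← Nat.card_eq_fintype_card, hcard]
    omega
  have h7 : p * p + p ≤ r * p := by
    calc p * p + p = p * (p + 1) := (Nat.mul_succ p p).symm
      _ ≤ p * (s.image f).card := Nat.mul_le_mul_left p h2
      _ ≤ s.card := h1
      _ = r * p := h3
  have h5 : r * p < p * p := mul_lt_mul_of_pos_right hr hp.pos
  omega

theorem inf_eq_bot {G : Type u} [Group G] [Finite G] {p r : ℕ} [Fact p.Prime] (hr : r < p)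
    (hcard : Nat.card (Sylow p G) = r * p + 1)
    (hfaith : ∀ g : G, (∀ Q : Sylow p G, g • Q = Q) → g = 1)
    (P Q : Sylow p G) (hPQ : P ≠ Q) : (P : Subgroup G) ⊓ (Q : Subgroup G) = ⊥ := by
  rw [eq_bot_iff]
  intro g hg
  rw [Subgroup.mem_bot]
  apply hfaith
  intro Z
  have hmem : g ∈ (Z : Subgroup G) := by
    by_cases hZ : P = Z
    · rw [← hZ]
      exact (Subgroup.mem_inf.mp hg).1
    · have h1 := all_inf_eq hr hcard P Q Z hPQ hZ
      rw [h1] at hg
      exact (Subgroup.mem_inf.mp hg).2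
  exact Sylow.smul_eq_iff_mem_normalizer.mpr (Subgroup.le_normalizer hmem)

theorem card_sylow_eq {G : Type u} [Group G] [Finite G] {p r : ℕ} [Fact p.Prime] (hr : r < p)
    (hr1 : 1 ≤ r)
    (hcard : Nat.card (Sylow p G) = r * p + 1)
    (hfaith : ∀ g : G, (∀ Q : Sylow p G, g • Q = Q) → g = 1)
    (P : Sylow p G) : Nat.card ↥(P : Subgroup G) = p := by
  have hnt : Nontrivial (Sylow p G) := by
    rw [← Finite.one_lt_card_iff_nontrivial, hcard]
    have h1 : 1 * p ≤ r * p := Nat.mul_le_mul_right p hr1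
    have hp := (Fact.out : p.Prime).pos
    omega
  obtain ⟨Q, hQ⟩ := exists_ne P
  obtain ⟨-, -, c, -⟩ := orbit_facts hr hcard P Q (Ne.symm hQ)
  rw [inf_eq_bot hr hcard hfaith P Q (Ne.symm hQ), Subgroup.card_bot, one_mul] at c
  exact c.symm

theorem fix_eq {G : Type u} [Group G] [Finite G] {p r : ℕ} [Fact p.Prime] (hr : r < p)
    (hcard : Nat.card (Sylow p G) = r * p + 1)
    (hfaith : ∀ g : G, (∀ Q : Sylow p G, g • Q = Q) → g = 1)
    (P Q : Sylow p G) (x : G) (hx : x ∈ (P : Subgroup G)) (hx1 : x ≠ 1) (h : x • Q = Q) :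
    Q = P := by
  by_contra hne
  have h1 : x ∈ Subgroup.normalizer ((Q : Subgroup G) : Set G) :=
    Sylow.smul_eq_iff_mem_normalizer.mp h
  have h2 : x ∈ (P : Subgroup G) ⊓ Subgroup.normalizer ((Q : Subgroup G) : Set G) :=
    Subgroup.mem_inf.mpr ⟨hx, h1⟩
  have h5 : (P : Subgroup G) ⊓ Subgroup.normalizer ((Q : Subgroup G) : Set G) =
      (P : Subgroup G) ⊓ Q := IsPGroup.inf_normalizer_sylow P.2 Q
  rw [h5, inf_eq_bot hr hcard hfaith P Q (Ne.symm hne)] at h2
  exact hx1 (Subgroup.mem_bot.mp h2)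

theorem smul_eq_of_comm {G : Type u} [Group G] [Finite G] {p r : ℕ} [Fact p.Prime]
    (hr : r < p) (hcard : Nat.card (Sylow p G) = r * p + 1)
    (hfaith : ∀ g : G, (∀ Q : Sylow p G, g • Q = Q) → g = 1)
    (P : Sylow p G) (x : G) (hx : x ∈ (P : Subgroup G)) (hx1 : x ≠ 1)
    (y : G) (hxy : y * x = x * y) : y • P = P := by
  have h1 : x ∈ ((y • P : Sylow p G) : Subgroup G) := by
    rw [S4304.mem_smul_sylow]
    have h2 : y⁻¹ * x * y = x := by rw [mul_assoc, ← hxy, inv_mul_cancel_left]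
    rw [h2]
    exact hx
  have h3 : x • (y • P) = y • P :=
    Sylow.smul_eq_iff_mem_normalizer.mpr (Subgroup.le_normalizer h1)
  exact fix_eq hr hcard hfaith P (y • P) x hx hx1 h3

/-! ### fixed point counts -/

theorem fix_count {G : Type u} [Group G] [Finite G] {p r : ℕ} [Fact p.Prime] (hr : r < p)
    (hr1 : 1 ≤ r)
    (hcard : Nat.card (Sylow p G) = r * p + 1)
    (hfaith : ∀ g : G, (∀ Q : Sylow p G, g • Q = Q) → g = 1)
    (P : Sylow p G) (x : G) (hx : x ∈ (P : Subgroup G)) (hx1 : x ≠ 1)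
    (y : G) (hxy : y * x = x * y) :
    ∃ k, k ≤ r ∧ Nat.card {Q : Sylow p G // y • Q = Q} = p * k + 1 := by
  classical
  haveI : Fintype (Sylow p G) := Fintype.ofFinite _
  have hp := (Fact.out : p.Prime)
  have hPcard := card_sylow_eq hr hr1 hcard hfaith P
  have hyP : y • P = P := smul_eq_of_comm hr hcard hfaith P x hx hx1 y hxy
  have hinv : ∀ Q : Sylow p G, y • ((MulAction.toPerm x : Equiv.Perm (Sylow p G)) Q) =
      (MulAction.toPerm x : Equiv.Perm (Sylow p G)) Q ↔ y • Q = Q := by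
    intro Q
    show y • (x • Q) = x • Q ↔ y • Q = Q
    rw [smul_smul, hxy, ← smul_smul]
    exact smul_left_cancel_iff x
  have hxp : x ^ p = 1 := by
    have h1 : (⟨x, hx⟩ : ↥(P : Subgroup G)) ^ Nat.card ↥(P : Subgroup G) = 1 := pow_card_eq_one'
    rw [hPcard] at h1
    simpa using congrArg (fun z : ↥(P : Subgroup G) => (z : G)) h1
  have hf : (MulAction.toPerm x : Equiv.Perm (Sylow p G)) ^ p = 1 := by
    have h0 : (MulAction.toPerm x : Equiv.Perm (Sylow p G)) =
        MulAction.toPermHom G (Sylow p G) x := rfl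
    rw [h0, ← map_pow, hxp, map_one]
  have hσ : (Equiv.Perm.subtypePerm (p := fun Q : Sylow p G => y • Q = Q)
      (MulAction.toPerm x : Equiv.Perm (Sylow p G)) hinv) ^ p ^ 1 = 1 := by
    rw [pow_one, Equiv.Perm.subtypePerm_pow]
    refine Equiv.ext (fun a => Subtype.ext ?_)
    have h9 : ((MulAction.toPerm x : Equiv.Perm (Sylow p G)) ^ p) (a : Sylow p G) =
        (1 : Equiv.Perm (Sylow p G)) (a : Sylow p G) := by rw [hf]
    exact h9
  have hmod := Equiv.Perm.card_compl_support_modEq hσ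
  have hcompl : (Equiv.Perm.subtypePerm (p := fun Q : Sylow p G => y • Q = Q)
      (MulAction.toPerm x : Equiv.Perm (Sylow p G)) hinv).supportᶜ =
      {⟨P, hyP⟩} := by
    ext a
    simp only [Finset.mem_compl, Equiv.Perm.mem_support, ne_eq, not_not, Finset.mem_singleton]
    constructor
    · intro h
      have h1 : x • (a : Sylow p G) = a :=
        congrArg (fun z : {Q : Sylow p G // y • Q = Q} => (z : Sylow p G)) h
      exact Subtype.ext (fix_eq hr hcard hfaith P a x hx hx1 h1)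
    · intro h
      rw [h]
      apply Subtype.ext
      show x • P = P
      exact Sylow.smul_eq_iff_mem_normalizer.mpr (Subgroup.le_normalizer hx)
  rw [hcompl, Finset.card_singleton, ← Nat.card_eq_fintype_card] at hmod
  have h1 : Nat.card {Q : Sylow p G // y • Q = Q} % p = 1 := by
    have h2 : 1 % p = Nat.card {Q : Sylow p G // y • Q = Q} % p := hmod
    rw [← h2]
    exact Nat.mod_eq_of_lt hp.one_lt
  have hle : Nat.card {Q : Sylow p G // y • Q = Q} ≤ r * p + 1 := by
    rw [← hcard]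
    exact Finite.card_subtype_le _
  have h3 := Nat.div_add_mod (Nat.card {Q : Sylow p G // y • Q = Q}) p
  rw [h1] at h3
  refine ⟨Nat.card {Q : Sylow p G // y • Q = Q} / p, ?_, h3.symm⟩
  have hc := Nat.mul_comm r p
  have h4 : p * (Nat.card {Q : Sylow p G // y • Q = Q} / p) ≤ p * r := by omega
  exact Nat.le_of_mul_le_mul_left h4 hp.pos

/-! ### the case `p = 5`, `r = 4` -/

theorem invol_fix {G : Type u} [Group G] [Finite G] [Fact (Nat.Prime 5)]
    (hcard : Nat.card (Sylow 5 G) = 4 * 5 + 1)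
    (hfaith : ∀ g : G, (∀ Q : Sylow 5 G, g • Q = Q) → g = 1)
    (hmin : ∀ H : Subgroup G, (∀ Q : Sylow 5 G, (Q : Subgroup G) ≤ H) → H = ⊤)
    (P : Sylow 5 G) (x : G) (hx : x ∈ (P : Subgroup G)) (hx1 : x ≠ 1)
    (y : G) (hxy : y * x = x * y) (hy2 : y ^ 2 = 1) (hy1 : y ≠ 1) :
    Nat.card {Q : Sylow 5 G // y • Q = Q} = 1 := by
  classical
  haveI : Fintype (Sylow 5 G) := Fintype.ofFinite _
  obtain ⟨k, hk4, hk⟩ := fix_count (by norm_num : 4 < 5) (by norm_num : 1 ≤ 4) hcard hfaith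
    P x hx hx1 y hxy
  have hmod2 : Nat.card {Q : Sylow 5 G // y • Q = Q} % 2 = (4 * 5 + 1) % 2 := by
    have h := S4304.fix_modEq (p := 5) y 2 1 (by rw [pow_one]; exact hy2)
    rw [hcard] at h
    exact h
  have hτ1 : (MulAction.toPerm y : Equiv.Perm (Sylow 5 G)) ≠ 1 := by
    intro h
    apply hy1
    apply hfaith
    intro Q
    have h8 := congrArg (fun σ : Equiv.Perm (Sylow 5 G) => σ Q) h
    exact h8
  have hτ2 : (MulAction.toPerm y : Equiv.Perm (Sylow 5 G)) ^ 2 = 1 := by
    have h0 : (MulAction.toPerm y : Equiv.Perm (Sylow 5 G)) =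
        MulAction.toPermHom G (Sylow 5 G) y := rfl
    rw [h0, ← map_pow, hy2, map_one]
  have hord : orderOf (MulAction.toPerm y : Equiv.Perm (Sylow 5 G)) = 2 :=
    orderOf_eq_prime hτ2 hτ1
  obtain ⟨n, hn⟩ := Equiv.Perm.cycleType_prime_order
    (σ := (MulAction.toPerm y : Equiv.Perm (Sylow 5 G))) (by rw [hord]; exact Nat.prime_two)
  rw [hord] at hn
  have hsum := Equiv.Perm.sum_cycleType (MulAction.toPerm y : Equiv.Perm (Sylow 5 G))
  rw [hn, Multiset.sum_replicate, smul_eq_mul] at hsum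
  have hsupp := Finset.card_add_card_compl
    (MulAction.toPerm y : Equiv.Perm (Sylow 5 G)).support
  rw [S4304.card_compl_support, ← Nat.card_eq_fintype_card, hcard] at hsupp
  have hsign := Equiv.Perm.sign_of_cycleType (MulAction.toPerm y : Equiv.Perm (Sylow 5 G))
  rw [hn, Multiset.sum_replicate, Multiset.card_replicate, smul_eq_mul,
    S4304.all_even (by norm_num : 3 ≤ 5) hmin y] at hsign
  have hne : (-1 : ℤˣ) ≠ 1 := by
    intro h
    exact absurd (congrArg (fun z : ℤˣ => (z : ℤ)) h) (by norm_num)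
  have heven : Even ((n + 1) * 2 + (n + 1)) :=
    (neg_one_pow_eq_one_iff_even hne).mp hsign.symm
  rw [Nat.even_iff] at heven
  have hk' : k = 0 ∨ k = 1 ∨ k = 2 ∨ k = 3 ∨ k = 4 := by omega
  rcases hk' with rfl | rfl | rfl | rfl | rfl
  · omega
  · omega
  · omega
  · omega
  · exact absurd (S4304.eq_one_of_fix_all hfaith y (by omega)) hy1

theorem two_elt_fix {G : Type u} [Group G] [Finite G] [Fact (Nat.Prime 5)]
    (hcard : Nat.card (Sylow 5 G) = 4 * 5 + 1)
    (hfaith : ∀ g : G, (∀ Q : Sylow 5 G, g • Q = Q) → g = 1)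
    (hmin : ∀ H : Subgroup G, (∀ Q : Sylow 5 G, (Q : Subgroup G) ≤ H) → H = ⊤)
    (P : Sylow 5 G) (x : G) (hx : x ∈ (P : Subgroup G)) (hx1 : x ≠ 1) :
    ∀ (k : ℕ) (y : G), y * x = x * y → y ^ (2 ^ k) = 1 → y ≠ 1 →
      ∀ Q : Sylow 5 G, y • Q = Q → Q = P := by
  intro k
  induction k with
  | zero =>
    intro y _ hy hy1
    exact absurd (by simpa using hy) hy1
  | succ k ih =>
    intro y hxy hy hy1 Q hQ
    have hc : Commute y x := hxy
    by_cases h2 : y ^ 2 = 1
    · have hone := invol_fix hcard hfaith hmin P x hx hx1 y hxy h2 hy1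
      have hyP : y • P = P :=
        smul_eq_of_comm (by norm_num : 4 < 5) hcard hfaith P x hx hx1 y hxy
      have hsub : Subsingleton {Q : Sylow 5 G // y • Q = Q} :=
        (Nat.card_eq_one_iff_unique.mp hone).1
      have h3 : (⟨Q, hQ⟩ : {Q : Sylow 5 G // y • Q = Q}) = ⟨P, hyP⟩ := Subsingleton.elim _ _
      exact congrArg (fun z : {Q : Sylow 5 G // y • Q = Q} => (z : Sylow 5 G)) h3
    · refine ih (y ^ 2) (hc.pow_left 2).eq ?_ h2 Q ?_
      · rw [← pow_mul, ← pow_succ']
        exact hy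
      · rw [pow_two, mul_smul, hQ, hQ]

theorem key_fusion {G : Type u} [Group G] [Finite G] [Fact (Nat.Prime 5)]
    (hcard : Nat.card (Sylow 5 G) = 4 * 5 + 1)
    (hfaith : ∀ g : G, (∀ Q : Sylow 5 G, g • Q = Q) → g = 1)
    (hmin : ∀ H : Subgroup G, (∀ Q : Sylow 5 G, (Q : Subgroup G) ≤ H) → H = ⊤)
    (P : Sylow 5 G) (x : G) (hx : x ∈ (P : Subgroup G)) (hx1 : x ≠ 1)
    (k : ℕ) (t g : G) (htk : t ^ (2 ^ k) = 1)
    (htC : t ∈ Subgroup.centralizer ((P : Subgroup G) : Set G))
    (hN : g⁻¹ * t * g ∈ Subgroup.normalizer ((P : Subgroup G) : Set G)) :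
    g⁻¹ * t * g ∈ Subgroup.centralizer ((P : Subgroup G) : Set G) := by
  by_cases ht1 : t = 1
  · rw [ht1, mul_one, inv_mul_cancel]
    exact one_mem _
  · have htx : t * x = x * t := (Subgroup.mem_centralizer_iff.mp htC x hx).symm
    have h1 : t • (g • P) = g • P := by
      have h2 : (g⁻¹ * t * g) • P = P := Sylow.smul_eq_iff_mem_normalizer.mpr hN
      have h3 : g • ((g⁻¹ * t * g) • P) = t • (g • P) := by
        rw [smul_smul, smul_smul]
        congr 1
        group
      rw [← h3, h2]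
    have h4 : g • P = P :=
      two_elt_fix hcard hfaith hmin P x hx hx1 k t htx htk ht1 (g • P) h1
    have hgN : g ∈ Subgroup.normalizer ((P : Subgroup G) : Set G) :=
      Sylow.smul_eq_iff_mem_normalizer.mp h4
    rw [Subgroup.mem_centralizer_iff]
    intro z hz
    have hz' : g * z * g⁻¹ ∈ (P : Subgroup G) := (Subgroup.mem_normalizer_iff.mp hgN z).mp hz
    have h5 : g * z * g⁻¹ * t = t * (g * z * g⁻¹) :=
      Subgroup.mem_centralizer_iff.mp htC _ hz'
    calc z * (g⁻¹ * t * g) = g⁻¹ * (g * z * g⁻¹ * t) * g := by group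
      _ = g⁻¹ * (t * (g * z * g⁻¹)) * g := by rw [h5]
      _ = g⁻¹ * t * g * z := by group

theorem fusion_iff {G : Type u} [Group G] [Finite G] [Fact (Nat.Prime 5)]
    (hcard : Nat.card (Sylow 5 G) = 4 * 5 + 1)
    (hfaith : ∀ g : G, (∀ Q : Sylow 5 G, g • Q = Q) → g = 1)
    (hmin : ∀ H : Subgroup G, (∀ Q : Sylow 5 G, (Q : Subgroup G) ≤ H) → H = ⊤)
    (P : Sylow 5 G) (x : G) (hx : x ∈ (P : Subgroup G)) (hx1 : x ≠ 1)
    (T : Sylow 2 G) (hTN : (T : Subgroup G) ≤ Subgroup.normalizer ((P : Subgroup G) : Set G))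
    (a g : G) (ha : a ∈ (T : Subgroup G)) (hb : g⁻¹ * a * g ∈ (T : Subgroup G)) :
    a ∈ Subgroup.centralizer ((P : Subgroup G) : Set G) ↔
      g⁻¹ * a * g ∈ Subgroup.centralizer ((P : Subgroup G) : Set G) := by
  constructor
  · intro h
    obtain ⟨k, hk⟩ := T.2 ⟨a, ha⟩
    have hk' : a ^ (2 ^ k) = 1 := by
      simpa using congrArg (fun z : ↥(T : Subgroup G) => (z : G)) hk
    exact key_fusion hcard hfaith hmin P x hx hx1 k a g hk' h (hTN hb)
  · intro h
    obtain ⟨k, hk⟩ := T.2 ⟨g⁻¹ * a * g, hb⟩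
    have hk' : (g⁻¹ * a * g) ^ (2 ^ k) = 1 := by
      simpa using congrArg (fun z : ↥(T : Subgroup G) => (z : G)) hk
    have e : (g⁻¹)⁻¹ * (g⁻¹ * a * g) * g⁻¹ = a := by group
    have h1 : (g⁻¹)⁻¹ * (g⁻¹ * a * g) * g⁻¹ ∈
        Subgroup.normalizer ((P : Subgroup G) : Set G) := by
      rw [e]
      exact hTN ha
    have h2 := key_fusion hcard hfaith hmin P x hx hx1 k (g⁻¹ * a * g) g⁻¹ hk' h h1
    rw [e] at h2
    exact h2

theorem conj_pow_inv {G : Type u} [Group G] (g w : G) (n : ℕ) :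
    (g⁻¹ * w * g) ^ n = g⁻¹ * w ^ n * g := by
  induction n with
  | zero => simp
  | succ n ih =>
    rw [pow_succ, pow_succ, ih]
    group

/-- The transfer of an element all of whose powers fuse compatibly with `ϕ`. -/
theorem transfer_fusion {X : Type*} [Group X] [Finite X] (S : Sylow 2 X) {A : Type*}
    [CommGroup A] (ϕ : ↥(S : Subgroup X) →* A) (u : X) (c : A)
    (hu : ∀ (k : ℕ) (g : X) (hg : g⁻¹ * u ^ k * g ∈ (S : Subgroup X)),
      ϕ ⟨g⁻¹ * u ^ k * g, hg⟩ = c ^ k) :
    MonoidHom.transfer ϕ u = c ^ (S : Subgroup X).index := by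
  classical
  have : Fintype (Quotient (MulAction.orbitRel (Subgroup.zpowers u) (X ⧸ (S : Subgroup X)))) :=
    Fintype.ofFinite _
  rw [MonoidHom.transfer_eq_prod_quotient_orbitRel_zpowers_quot ϕ u]
  rw [Finset.prod_congr rfl (fun q _ => hu _ _ _), Finset.prod_pow_eq_pow_sum,
    ← Subgroup.index_eq_sum_minimalPeriod]

theorem sylow_two_le_centralizer {G : Type u} [Group G] [Finite G] [Fact (Nat.Prime 5)]
    (hcard : Nat.card (Sylow 5 G) = 4 * 5 + 1)
    (hfaith : ∀ g : G, (∀ Q : Sylow 5 G, g • Q = Q) → g = 1)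
    (hmin : ∀ H : Subgroup G, (∀ Q : Sylow 5 G, (Q : Subgroup G) ≤ H) → H = ⊤)
    (P : Sylow 5 G) (T : Sylow 2 G)
    (hTN : (T : Subgroup G) ≤ Subgroup.normalizer ((P : Subgroup G) : Set G)) :
    (T : Subgroup G) ≤ Subgroup.centralizer ((P : Subgroup G) : Set G) := by
  classical
  have hPcard : Nat.card ↥(P : Subgroup G) = 5 :=
    card_sylow_eq (by norm_num : 4 < 5) (by norm_num : 1 ≤ 4) hcard hfaith P
  have hex : ∃ x ∈ (P : Subgroup G), x ≠ 1 := by
    by_contra hcon
    push Not at hcon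
    have hbot : (P : Subgroup G) = ⊥ := (Subgroup.eq_bot_iff_forall _).mpr hcon
    rw [hbot, Subgroup.card_bot] at hPcard
    omega
  obtain ⟨x, hx, hx1⟩ := hex
  have hcycP : IsCyclic ↥(P : Subgroup G) := isCyclic_of_prime_card hPcard
  haveI hprime : Fact (Nat.card ↥(P : Subgroup G)).Prime := ⟨by rw [hPcard]; norm_num⟩
  haveI hgt : Fact (2 < Nat.card ↥(P : Subgroup G)) := ⟨by rw [hPcard]; norm_num⟩
  let ρ : ↥(T : Subgroup G) →* (ZMod (Nat.card ↥(P : Subgroup G)))ˣ :=
    ((IsCyclic.mulAutMulEquiv ↥(P : Subgroup G)).toMonoidHom.comp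
      (P : Subgroup G).normalizerMonoidHom).comp (Subgroup.inclusion hTN)
  have hρ : ∀ t : ↥(T : Subgroup G), ρ t = 1 ↔
      (t : G) ∈ Subgroup.centralizer ((P : Subgroup G) : Set G) := by
    intro t
    constructor
    · intro ht
      have h2' : (IsCyclic.mulAutMulEquiv ↥(P : Subgroup G))
          ((P : Subgroup G).normalizerMonoidHom (Subgroup.inclusion hTN t)) = 1 := ht
      have h1 : (P : Subgroup G).normalizerMonoidHom (Subgroup.inclusion hTN t) = 1 :=
        (MulEquiv.map_eq_one_iff _).mp h2'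
      have h3 : Subgroup.inclusion hTN t ∈ ((P : Subgroup G).normalizerMonoidHom).ker :=
        MonoidHom.mem_ker.mpr h1
      rw [Subgroup.normalizerMonoidHom_ker, Subgroup.mem_subgroupOf] at h3
      exact h3
    · intro ht
      have h3 : Subgroup.inclusion hTN t ∈ ((P : Subgroup G).normalizerMonoidHom).ker := by
        rw [Subgroup.normalizerMonoidHom_ker, Subgroup.mem_subgroupOf]
        exact ht
      have h1 : (P : Subgroup G).normalizerMonoidHom (Subgroup.inclusion hTN t) = 1 :=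
        MonoidHom.mem_ker.mp h3
      have h2' : (IsCyclic.mulAutMulEquiv ↥(P : Subgroup G))
          ((P : Subgroup G).normalizerMonoidHom (Subgroup.inclusion hTN t)) = 1 := by
        rw [h1, map_one]
      exact h2'
  have hne : (-1 : (ZMod (Nat.card ↥(P : Subgroup G)))ˣ) ≠ 1 := by
    intro h
    have h1 := congrArg (fun z : (ZMod (Nat.card ↥(P : Subgroup G)))ˣ =>
      (z : ZMod (Nat.card ↥(P : Subgroup G)))) h
    simp only [Units.val_neg, Units.val_one] at h1
    exact ZMod.neg_one_ne_one h1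
  have hstep : ∀ i : ℕ, (∀ t : ↥(T : Subgroup G), ρ t ^ (2 ^ (i + 1)) = 1) →
      ∀ u : ↥(T : Subgroup G), ρ u ^ (2 ^ i) = 1 := by
    intro i hall u
    by_contra hu
    let ϕ : ↥(T : Subgroup G) →* (ZMod (Nat.card ↥(P : Subgroup G)))ˣ :=
      (powMonoidHom (2 ^ i)).comp ρ
    have hϕ : ∀ t : ↥(T : Subgroup G), ϕ t = ρ t ^ (2 ^ i) := fun t => rfl
    have hϕ1 : ∀ t : ↥(T : Subgroup G), ϕ t = 1 ↔
        (t : G) ^ (2 ^ i) ∈ Subgroup.centralizer ((P : Subgroup G) : Set G) := by
      intro t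
      rw [hϕ, ← map_pow, hρ, Subgroup.coe_pow]
    have hpm : ∀ t : ↥(T : Subgroup G), ϕ t = 1 ∨ ϕ t = -1 := by
      intro t
      have h1 : ϕ t * ϕ t = 1 := by
        have h0 := hall t
        rw [pow_succ, pow_mul, pow_two] at h0
        rw [hϕ]
        exact h0
      have h2 : ((ϕ t : (ZMod (Nat.card ↥(P : Subgroup G)))ˣ) :
          ZMod (Nat.card ↥(P : Subgroup G))) *
          ((ϕ t : (ZMod (Nat.card ↥(P : Subgroup G)))ˣ) :
            ZMod (Nat.card ↥(P : Subgroup G))) = 1 := by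
        rw [← Units.val_mul, h1, Units.val_one]
      rcases mul_self_eq_one_iff.mp h2 with h3 | h3
      · left
        exact Units.val_eq_one.mp h3
      · right
        refine Units.ext ?_
        rw [h3, Units.val_neg, Units.val_one]
    have hfus : ∀ (k : ℕ) (g : G) (hg : g⁻¹ * (u : G) ^ k * g ∈ (T : Subgroup G)),
        ϕ ⟨g⁻¹ * (u : G) ^ k * g, hg⟩ = (ϕ u) ^ k := by
      intro k g hg
      have ha : (u : G) ^ k ∈ (T : Subgroup G) := pow_mem u.2 k
      have e0 : u ^ k = ⟨(u : G) ^ k, ha⟩ := Subtype.ext (Subgroup.coe_pow _ u k)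
      have e1 : ϕ u ^ k = ϕ ⟨(u : G) ^ k, ha⟩ := by
        rw [← map_pow, e0]
      have hiff : ϕ ⟨(u : G) ^ k, ha⟩ = 1 ↔ ϕ ⟨g⁻¹ * (u : G) ^ k * g, hg⟩ = 1 := by
        rw [hϕ1, hϕ1]
        show ((u : G) ^ k) ^ (2 ^ i) ∈ Subgroup.centralizer ((P : Subgroup G) : Set G) ↔
          (g⁻¹ * (u : G) ^ k * g) ^ (2 ^ i) ∈ Subgroup.centralizer ((P : Subgroup G) : Set G)
        have hb' : g⁻¹ * ((u : G) ^ k) ^ (2 ^ i) * g ∈ (T : Subgroup G) := by
          rw [← conj_pow_inv]
          exact pow_mem hg _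
        rw [conj_pow_inv]
        exact fusion_iff hcard hfaith hmin P x hx hx1 T hTN _ g (pow_mem ha _) hb'
      rw [e1]
      rcases hpm ⟨(u : G) ^ k, ha⟩ with h1 | h1 <;>
        rcases hpm ⟨g⁻¹ * (u : G) ^ k * g, hg⟩ with h2 | h2
      · rw [h1, h2]
      · exact absurd (h2.symm.trans (hiff.mp h1)) hne
      · exact absurd (h1.symm.trans (hiff.mpr h2)) hne
      · rw [h1, h2]
    have htr : MonoidHom.transfer ϕ (u : G) = ϕ u ^ (T : Subgroup G).index :=
      transfer_fusion T ϕ (u : G) (ϕ u) hfus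
    have hϕu : ϕ u = -1 := by
      rcases hpm u with h | h
      · exact absurd ((hϕ u).symm.trans h) hu
      · exact h
    have hodd : Odd (T : Subgroup G).index := by
      rw [← Nat.not_even_iff_odd, even_iff_two_dvd]
      exact T.not_dvd_index
    rw [hϕu, Odd.neg_one_pow hodd] at htr
    have hK : (MonoidHom.transfer ϕ).ker = ⊤ := by
      apply hmin
      intro Q v hv
      rw [MonoidHom.mem_ker]
      obtain ⟨k, hk⟩ := Q.2 ⟨v, hv⟩
      have hk' : v ^ (5 ^ k) = 1 := by
        simpa using congrArg (fun z : ↥(Q : Subgroup G) => (z : G)) hk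
      have h1 : orderOf (MonoidHom.transfer ϕ v) ∣ 5 ^ k := by
        apply orderOf_dvd_of_pow_eq_one
        rw [← map_pow, hk', map_one]
      have h2 : orderOf (MonoidHom.transfer ϕ v) ∣ 4 := by
        apply orderOf_dvd_of_pow_eq_one
        have h3 := ZMod.units_pow_card_sub_one_eq_one (Nat.card ↥(P : Subgroup G))
          (MonoidHom.transfer ϕ v)
        have h4 : Nat.card ↥(P : Subgroup G) - 1 = 4 := by omega
        rw [h4] at h3
        exact h3
      have h3 : orderOf (MonoidHom.transfer ϕ v) = 1 :=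
        Nat.eq_one_of_dvd_coprimes (Nat.Coprime.pow_left k (by norm_num : Nat.Coprime 5 4))
          h1 h2
      rw [orderOf_eq_one_iff] at h3
      exact h3
    have hmem : (u : G) ∈ (MonoidHom.transfer ϕ).ker := by
      rw [hK]
      exact Subgroup.mem_top _
    rw [MonoidHom.mem_ker, htr] at hmem
    exact hne hmem
  have hcard4 : ∀ t : ↥(T : Subgroup G), ρ t ^ (2 ^ (1 + 1)) = 1 := by
    intro t
    have h3 := ZMod.units_pow_card_sub_one_eq_one (Nat.card ↥(P : Subgroup G)) (ρ t)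
    have h4 : Nat.card ↥(P : Subgroup G) - 1 = 2 ^ (1 + 1) := by
      rw [hPcard]
      norm_num
    rw [h4] at h3
    exact h3
  have h2 : ∀ t : ↥(T : Subgroup G), ρ t ^ (2 ^ 1) = 1 := hstep 1 hcard4
  have h1 : ∀ t : ↥(T : Subgroup G), ρ t ^ (2 ^ 0) = 1 := hstep 0 h2
  intro t ht
  have h := h1 ⟨t, ht⟩
  rw [pow_zero, pow_one] at h
  exact (hρ ⟨t, ht⟩).mp h

theorem no_seven {G : Type u} [Group G] [Finite G] [Fact (Nat.Prime 5)]
    (hcard : Nat.card (Sylow 5 G) = 4 * 5 + 1)
    (hfaith : ∀ g : G, (∀ Q : Sylow 5 G, g • Q = Q) → g = 1)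
    (P : Sylow 5 G) (x : G) (hx : x ∈ (P : Subgroup G)) (hx1 : x ≠ 1)
    (y : G) (hxy : y * x = x * y) (hy7 : y ^ 7 = 1) : y = 1 := by
  haveI : Fact (Nat.Prime 7) := ⟨by norm_num⟩
  obtain ⟨k, hk4, hk⟩ := fix_count (by norm_num : 4 < 5) (by norm_num : 1 ≤ 4) hcard hfaith
    P x hx hx1 y hxy
  have hmod7 : Nat.card {Q : Sylow 5 G // y • Q = Q} % 7 = (4 * 5 + 1) % 7 := by
    have h := S4304.fix_modEq (p := 5) y 7 1 (by rw [pow_one]; exact hy7)
    rw [hcard] at h
    exact h
  apply S4304.eq_one_of_fix_all hfaith y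
  omega

/-! ### the contradiction in the reduced situation -/

theorem reduced_false {G : Type u} [Group G] [Finite G] [Fact (Nat.Prime 5)]
    (hcard : Nat.card (Sylow 5 G) = 4 * 5 + 1)
    (hfaith : ∀ g : G, (∀ Q : Sylow 5 G, g • Q = Q) → g = 1)
    (hmin : ∀ H : Subgroup G, (∀ Q : Sylow 5 G, (Q : Subgroup G) ≤ H) → H = ⊤) : False := by
  classical
  obtain ⟨T⟩ := (inferInstance : Nonempty (Sylow 2 G))
  have hfix : (MulAction.fixedPoints ↥(T : Subgroup G) (Sylow 5 G)).Nonempty :=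
    IsPGroup.nonempty_fixed_point_of_prime_not_dvd_card T.2 (Sylow 5 G)
      (by rw [hcard]; omega)
  obtain ⟨P, hP⟩ := hfix
  have hTN : (T : Subgroup G) ≤ Subgroup.normalizer ((P : Subgroup G) : Set G) :=
    (Subgroup.sylow_mem_fixedPoints_iff (T : Subgroup G)).mp hP
  have hPcard : Nat.card ↥(P : Subgroup G) = 5 :=
    card_sylow_eq (by norm_num : 4 < 5) (by norm_num : 1 ≤ 4) hcard hfaith P
  have hex : ∃ x ∈ (P : Subgroup G), x ≠ 1 := by
    by_contra hcon
    push Not at hcon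
    have hbot : (P : Subgroup G) = ⊥ := (Subgroup.eq_bot_iff_forall _).mpr hcon
    rw [hbot, Subgroup.card_bot] at hPcard
    omega
  obtain ⟨x, hx, hx1⟩ := hex
  have hcycP : IsCyclic ↥(P : Subgroup G) := isCyclic_of_prime_card hPcard
  have hTC : (T : Subgroup G) ≤ Subgroup.centralizer ((P : Subgroup G) : Set G) :=
    sylow_two_le_centralizer hcard hfaith hmin P T hTN
  -- Step 2: `N(P) ≤ C(P)`
  have hodd : ¬ 2 ∣ (T : Subgroup G).index := T.not_dvd_index
  have hNC : Subgroup.normalizer ((P : Subgroup G) : Set G) ≤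
      Subgroup.centralizer ((P : Subgroup G) : Set G) := by
    have key := Subgroup.card_dvd_of_injective _
      (QuotientGroup.kerLift_injective (P : Subgroup G).normalizerMonoidHom)
    rw [Subgroup.normalizerMonoidHom_ker, ← Subgroup.index, ← Subgroup.relIndex] at key
    rw [IsCyclic.card_mulAut ↥(P : Subgroup G), hPcard, Nat.totient_prime (by norm_num)] at key
    have hd : (Subgroup.centralizer ((P : Subgroup G) : Set G)).relIndex
        (Subgroup.normalizer ((P : Subgroup G) : Set G)) ∣ (T : Subgroup G).index :=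
      dvd_trans (Subgroup.relIndex_dvd_of_le_left _ hTC)
        (Subgroup.relIndex_dvd_index_of_le hTN)
    have hcop : Nat.Coprime (T : Subgroup G).index (5 - 1) := by
      have h2 : Nat.Coprime (T : Subgroup G).index 2 := by
        rw [Nat.coprime_comm, Nat.Prime.coprime_iff_not_dvd Nat.prime_two]
        exact hodd
      have h22 := Nat.Coprime.mul_right h2 h2
      exact h22
    exact Subgroup.relIndex_eq_one.mp (Nat.eq_one_of_dvd_coprimes hcop hd key)
  -- Step 3: the normal `5`-complement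
  have hcompl := MonoidHom.ker_transferSylow_isComplement' P hNC
  have hidx := hcompl.symm.index_eq_card
  rw [hPcard] at hidx
  have h5K : ¬ 5 ∣ Nat.card ↥(MonoidHom.transferSylow P hNC).ker :=
    MonoidHom.not_dvd_card_ker_transferSylow P hNC
  -- Step 4: a Sylow `7`-subgroup normalized by `P`
  haveI : Fact (Nat.Prime 7) := ⟨by norm_num⟩
  have hcop7 : Nat.Coprime (MonoidHom.transferSylow P hNC).ker.index 7 := by
    rw [hidx]
    norm_num
  have hS7 : ∀ S : Sylow 7 G, (S : Subgroup G) ≤ (MonoidHom.transferSylow P hNC).ker :=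
    fun S => S4304.sylow_le_of_coprime_index _ hcop7 S
  have hn7 : Nat.card (Sylow 7 ↥(MonoidHom.transferSylow P hNC).ker) =
      Nat.card (Sylow 7 G) := S4304.card_sylow_of_le _ hS7
  have h5n7 : ¬ 5 ∣ Nat.card (Sylow 7 G) := by
    rw [← hn7]
    intro h
    obtain ⟨S0⟩ := (inferInstance : Nonempty (Sylow 7 ↥(MonoidHom.transferSylow P hNC).ker))
    exact h5K (dvd_trans h (dvd_trans (Sylow.card_dvd_index S0) (Subgroup.index_dvd_card _)))
  have hfix7 : (MulAction.fixedPoints ↥(P : Subgroup G) (Sylow 7 G)).Nonempty :=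
    IsPGroup.nonempty_fixed_point_of_prime_not_dvd_card P.2 (Sylow 7 G) h5n7
  obtain ⟨S, hS⟩ := hfix7
  have hPNS : (P : Subgroup G) ≤ Subgroup.normalizer ((S : Subgroup G) : Set G) :=
    (Subgroup.sylow_mem_fixedPoints_iff (P : Subgroup G)).mp hS
  have hindex : (Subgroup.normalizer ((P : Subgroup G) : Set G)).index = 4 * 5 + 1 := by
    rw [← hcard]
    exact (Sylow.card_eq_index_normalizer P).symm
  have hGcard : (4 * 5 + 1) * Nat.card ↥(Subgroup.normalizer ((P : Subgroup G) : Set G)) =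
      Nat.card G := by
    rw [← hindex]
    exact Subgroup.index_mul_card _
  have hN7 : ¬ 7 ∣ Nat.card ↥(Subgroup.normalizer ((P : Subgroup G) : Set G)) := by
    intro h7
    obtain ⟨y, hy⟩ := exists_prime_orderOf_dvd_card' 7 h7
    have hy7 : y ^ 7 = 1 := by
      have h0 := pow_orderOf_eq_one y
      rw [hy] at h0
      exact h0
    have hyC : (y : G) ∈ Subgroup.centralizer ((P : Subgroup G) : Set G) := hNC y.2
    have h5' : x * (y : G) = (y : G) * x := Subgroup.mem_centralizer_iff.mp hyC x hx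
    have hy7' : (y : G) ^ 7 = 1 := by
      simpa using congrArg
        (fun z : ↥(Subgroup.normalizer ((P : Subgroup G) : Set G)) => (z : G)) hy7
    have h6 := no_seven hcard hfaith P x hx hx1 (y : G) h5'.symm hy7'
    have h7' : y = 1 := Subtype.ext h6
    rw [h7', orderOf_one] at hy
    omega
  have h7G : 7 ∣ Nat.card G := by
    rw [← hGcard]
    omega
  have h49G : ¬ 49 ∣ Nat.card G := by
    intro h
    rw [← hGcard] at h
    omega
  have hScard : Nat.card ↥(S : Subgroup G) = 7 := by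
    obtain ⟨k, hk⟩ := IsPGroup.iff_card.mp S.2
    have hdvd : 7 ^ k ∣ Nat.card G := by
      rw [← hk]
      exact Subgroup.card_subgroup_dvd_card _
    have hk2 : k < 2 := by
      by_contra hge
      have h : (7 : ℕ) ^ 2 ∣ 7 ^ k := pow_dvd_pow 7 (by omega)
      have e : (7 : ℕ) ^ 2 = 49 := by norm_num
      rw [e] at h
      exact h49G (dvd_trans h hdvd)
    have hk0 : k ≠ 0 := by
      rintro rfl
      rw [pow_zero] at hk
      exact S.ne_bot_of_dvd_card h7G (Subgroup.card_eq_one.mp hk)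
    have hk1 : k = 1 := by omega
    rw [hk, hk1, pow_one]
  have hcycS : IsCyclic ↥(S : Subgroup G) := isCyclic_of_prime_card hScard
  have hxNS : x ∈ Subgroup.normalizer ((S : Subgroup G) : Set G) := hPNS hx
  have hx5 : x ^ 5 = 1 := by
    have h1 : (⟨x, hx⟩ : ↥(P : Subgroup G)) ^ Nat.card ↥(P : Subgroup G) = 1 := pow_card_eq_one'
    rw [hPcard] at h1
    simpa using congrArg (fun z : ↥(P : Subgroup G) => (z : G)) h1
  have hxCS : x ∈ Subgroup.centralizer ((S : Subgroup G) : Set G) := by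
    have hAut : Nat.card (MulAut ↥(S : Subgroup G)) = 7 - 1 := by
      rw [IsCyclic.card_mulAut ↥(S : Subgroup G), hScard, Nat.totient_prime (by norm_num)]
    have h1 : orderOf ((S : Subgroup G).normalizerMonoidHom ⟨x, hxNS⟩) ∣ 5 := by
      apply orderOf_dvd_of_pow_eq_one
      rw [← map_pow]
      have e : (⟨x, hxNS⟩ : ↥(Subgroup.normalizer ((S : Subgroup G) : Set G))) ^ 5 = 1 :=
        Subtype.ext (by simpa using hx5)
      rw [e, map_one]
    have h2 : orderOf ((S : Subgroup G).normalizerMonoidHom ⟨x, hxNS⟩) ∣ 7 - 1 := by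
      rw [← hAut]
      exact orderOf_dvd_natCard _
    have h3 : orderOf ((S : Subgroup G).normalizerMonoidHom ⟨x, hxNS⟩) = 1 :=
      Nat.eq_one_of_dvd_coprimes (by norm_num : Nat.Coprime 5 (7 - 1)) h1 h2
    rw [orderOf_eq_one_iff] at h3
    have h4 : (⟨x, hxNS⟩ : ↥(Subgroup.normalizer ((S : Subgroup G) : Set G))) ∈
        ((S : Subgroup G).normalizerMonoidHom).ker := MonoidHom.mem_ker.mpr h3
    rw [Subgroup.normalizerMonoidHom_ker, Subgroup.mem_subgroupOf] at h4
    exact h4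
  have hexS : ∃ s ∈ (S : Subgroup G), s ≠ 1 := by
    by_contra hcon
    push Not at hcon
    have hbot : (S : Subgroup G) = ⊥ := (Subgroup.eq_bot_iff_forall _).mpr hcon
    rw [hbot, Subgroup.card_bot] at hScard
    omega
  obtain ⟨s, hs, hs1⟩ := hexS
  have hs7 : s ^ 7 = 1 := by
    have h1 : (⟨s, hs⟩ : ↥(S : Subgroup G)) ^ Nat.card ↥(S : Subgroup G) = 1 := pow_card_eq_one'
    rw [hScard] at h1
    simpa using congrArg (fun z : ↥(S : Subgroup G) => (z : G)) h1
  have hsx : s * x = x * s := Subgroup.mem_centralizer_iff.mp hxCS s hs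
  exact hs1 (no_seven hcard hfaith P x hx hx1 s hsx hs7)

theorem main_aux [Fact (Nat.Prime 5)] :
    ∀ (n : ℕ) (G : Type u) [Group G] [Finite G], Nat.card G = n →
      Nat.card (Sylow 5 G) ≠ 4 * 5 + 1 := by
  intro n
  induction n using Nat.strong_induction_on with
  | _ n ih =>
    intro G _ _ hn hcard
    have hmin : ∀ H : Subgroup G, (∀ Q : Sylow 5 G, (Q : Subgroup G) ≤ H) → H = ⊤ := by
      intro H hH
      by_contra hne
      have hlt : Nat.card ↥H < n := by
        rw [← hn]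
        have hle : Nat.card ↥H ≤ Nat.card G := Subgroup.card_le_card_group H
        rcases hle.lt_or_eq with h | h
        · exact h
        · exact absurd ((Subgroup.card_eq_iff_eq_top H).mp h) hne
      exact ih _ hlt ↥H rfl ((S4304.card_sylow_of_le H hH).trans hcard)
    have hfaith : ∀ g : G, (∀ Q : Sylow 5 G, g • Q = Q) → g = 1 := by
      intro g hg
      by_contra hg1
      have hKmem : g ∈ (MulAction.toPermHom G (Sylow 5 G)).ker := by
        rw [MonoidHom.mem_ker]
        apply Equiv.ext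
        intro Q
        exact hg Q
      have hKnorm : ∀ Q : Sylow 5 G, (MulAction.toPermHom G (Sylow 5 G)).ker ≤
          Subgroup.normalizer ((Q : Subgroup G) : Set G) := by
        intro Q k hk
        rw [MonoidHom.mem_ker] at hk
        have h1 : k • Q = Q := congrArg (fun σ : Equiv.Perm (Sylow 5 G) => σ Q) hk
        exact Sylow.smul_eq_iff_mem_normalizer.mp h1
      have hlt : Nat.card (G ⧸ (MulAction.toPermHom G (Sylow 5 G)).ker) < n := by
        rw [← hn]
        have h1 := Subgroup.card_eq_card_quotient_mul_card_subgroup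
          (MulAction.toPermHom G (Sylow 5 G)).ker
        have h2 : 1 < Nat.card ↥(MulAction.toPermHom G (Sylow 5 G)).ker := by
          rw [Subgroup.one_lt_card_iff_ne_bot]
          intro hbot
          rw [hbot, Subgroup.mem_bot] at hKmem
          exact hg1 hKmem
        have h3 : 0 < Nat.card (G ⧸ (MulAction.toPermHom G (Sylow 5 G)).ker) := Nat.card_pos
        have h4 := Nat.mul_le_mul_left (Nat.card (G ⧸ (MulAction.toPermHom G (Sylow 5 G)).ker)) h2
        omega
      exact ih _ hlt (G ⧸ (MulAction.toPermHom G (Sylow 5 G)).ker) rfl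
        ((S4304.card_sylow_quotient _ hKnorm).trans hcard)
    exact reduced_false hcard hfaith hmin

/-- No finite group has exactly twenty-one Sylow 5-subgroups. -/
theorem result {G : Type*} [Group G] [Finite G] : Nat.card (Sylow 5 G) ≠ 21 := by
  haveI : Fact (Nat.Prime 5) := ⟨by norm_num⟩
  exact main_aux (Nat.card G) G rfl

end Cfsg.Agent.S1010
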