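import Cfsg.Statements.S1003
import Mathlib
import Cfsg.Agent.S1010
import Cfsg.Agent.S4304
import Cfsg.Agent.Helper20.SimpleSylow

set_option autoImplicit false
open Cfsg
open Cfsg.Agent

namespace Cfsg.Agent.S1003

/-- A simple group of order 168 has exactly 21 Sylow 2-subgroups, 28 Sylow 3-subgroups and 8 Sylow 7-subgroups. -/
theorem result {G : Type*} [Group G] [Finite G] [IsSimpleGroup G] (h : Nat.card G = 168) : Nat.card (Sylow 2 G) = 21 ∧ Nat.card (Sylow 3 G) = 28 ∧ Nat.card (Sylow 7 G) = 8 := by
  classical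
  haveI : Fact (Nat.Prime 2) := ⟨by norm_num⟩
  haveI : Fact (Nat.Prime 3) := ⟨by norm_num⟩
  haveI : Fact (Nat.Prime 7) := ⟨by norm_num⟩
  haveI : Fintype (Sylow 3 G) := Fintype.ofFinite _
  obtain ⟨P7⟩ : Nonempty (Sylow 7 G) := inferInstance
  obtain ⟨P3⟩ : Nonempty (Sylow 3 G) := inferInstance
  obtain ⟨S⟩ : Nonempty (Sylow 2 G) := inferInstance
  have b7 := Helper20.simple_sylow_basic 7 1 24 (h.trans (by norm_num)) (by norm_num)
    (by norm_num) (by norm_num) P7
  have b3 := fun P : Sylow 3 G => Helper20.simple_sylow_basic 3 1 56 (h.trans (by norm_num))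
    (by norm_num) (by norm_num) (by norm_num) P
  have b2 := fun T : Sylow 2 G => Helper20.simple_sylow_basic 2 3 21 (h.trans (by norm_num))
    (by norm_num) (by norm_num) (by norm_num) T
  have hn7 : Nat.card (Sylow 7 G) = 8 := by
    obtain ⟨-, -, -, hne, hdvd, hmod, -⟩ := b7
    obtain ⟨n, hn⟩ : ∃ n, n = Nat.card (Sylow 7 G) := ⟨_, rfl⟩
    rw [← hn] at hne hdvd hmod ⊢
    have hle : n ≤ 24 := Nat.le_of_dvd (by norm_num) hdvd
    interval_cases n <;> omega
  have hn3 : Nat.card (Sylow 3 G) = 28 := by
    obtain ⟨hc3, hP1, hP2, hne, hdvd, hmod, hN⟩ := b3 P3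
    have h3 : Nat.card (Sylow 3 G) = 4 ∨ Nat.card (Sylow 3 G) = 7 ∨
        Nat.card (Sylow 3 G) = 28 := by
      obtain ⟨n, hn⟩ : ∃ n, n = Nat.card (Sylow 3 G) := ⟨_, rfl⟩
      rw [← hn] at hne hdvd hmod ⊢
      have hle : n ≤ 56 := Nat.le_of_dvd (by norm_num) hdvd
      interval_cases n <;> omega
    rcases h3 with h4 | h7 | h28
    · exfalso
      have h5 := Helper20.simple_card_le_factorial_sylow (G := G) 3 hne
      rw [h4, h] at h5
      have h6 : (4 : ℕ).factorial = 24 := rfl
      rw [h6] at h5
      omega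
    · exfalso
      obtain ⟨x, hxP, hx⟩ := Helper20.exists_order_mem 3 (P3 : Subgroup G)
        (by rw [hc3]; norm_num)
      have hx1 : x ≠ 1 := by
        intro h1
        rw [h1, orderOf_one] at hx
        omega
      have hzx : Subgroup.zpowers x = (P3 : Subgroup G) := by
        apply Subgroup.eq_of_le_of_card_ge
        · rw [Subgroup.zpowers_le]; exact hxP
        · rw [hc3, Nat.card_zpowers, hx]; norm_num
      have hNcard : Nat.card (Subgroup.normalizer ((P3 : Subgroup G) : Set G)) = 24 := by
        rw [h7, h] at hN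
        omega
      have hconjN : ∀ g ∈ Subgroup.normalizer ((P3 : Subgroup G) : Set G),
          g * x * g⁻¹ ∈ Subgroup.zpowers x := by
        intro g hg
        rw [hzx]
        exact (Subgroup.mem_normalizer_iff.1 hg x).1 hxP
      obtain ⟨t, hto, htx⟩ : ∃ t : G, orderOf t = 2 ∧ t * x = x * t := by
        rcases Helper20.normalizer_zpowers_three x hx _ hconjN (Subgroup.le_normalizer hxP)
          with hall | ⟨C, hCN, hC, -, hCcard⟩
        · obtain ⟨t, ht, hto⟩ := Helper20.exists_order_two_mem
            (Subgroup.normalizer ((P3 : Subgroup G) : Set G)) (by rw [hNcard]; norm_num)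
          exact ⟨t, hto, hall t ht⟩
        · obtain ⟨t, ht, hto⟩ := Helper20.exists_order_two_mem C
            (by rw [hNcard] at hCcard; omega)
          exact ⟨t, hto, hC t ht⟩
      have hfaith := Helper20.simple_sylow_faithful (G := G) 3 hne
      have hcard : Nat.card (Sylow 3 G) = 2 * 3 + 1 := by rw [h7]
      obtain ⟨k, hk, hkc⟩ := Cfsg.Agent.S1010.fix_count (p := 3) (r := 2) (by norm_num)
        (by norm_num) hcard hfaith P3 x hxP hx1 t htx
      have ht2 : t ^ 2 = 1 := by rw [← hto]; exact pow_orderOf_eq_one t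
      have hmod2 := Cfsg.Agent.S4304.fix_modEq (p := 3) t 2 1 (by simpa using ht2)
      rw [hkc, h7] at hmod2
      have hmod2' : (3 * k + 1) % 2 = 7 % 2 := hmod2
      have hk0 : k = 0 := by
        rcases Nat.lt_or_ge k 2 with hlt | hge
        · omega
        · exfalso
          have hk2 : k = 2 := by omega
          have ht1 : t = 1 := by
            apply Cfsg.Agent.S4304.eq_one_of_fix_all hfaith t
            rw [hkc, hk2, h7]
          rw [ht1, orderOf_one] at hto
          omega
      rw [hk0] at hkc
      have hsign := Helper20.sign_invol_sylow hfaith t hto 3 (by rw [hkc, h7])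
      have heven := Cfsg.Agent.S4304.all_even (p := 3) (by norm_num)
        (Helper20.simple_sylow_gen 3 P3 hP1) t
      rw [hsign] at heven
      exact absurd heven (by decide)
    · exact h28
  have hn2 : Nat.card (Sylow 2 G) = 21 := by
    obtain ⟨hc2, hS1, hS2, hne, hdvd, hmod, hN⟩ := b2 S
    have h3 : Nat.card (Sylow 2 G) = 3 ∨ Nat.card (Sylow 2 G) = 7 ∨
        Nat.card (Sylow 2 G) = 21 := by
      obtain ⟨n, hn⟩ : ∃ n, n = Nat.card (Sylow 2 G) := ⟨_, rfl⟩
      rw [← hn] at hne hdvd hmod ⊢
      have hle : n ≤ 21 := Nat.le_of_dvd (by norm_num) hdvd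
      interval_cases n <;> omega
    rcases h3 with h3' | h7 | h21
    · exfalso
      have h4 := Helper20.simple_card_le_factorial_sylow (G := G) 2 hne
      rw [h3', h] at h4
      have h5 : (3 : ℕ).factorial = 6 := rfl
      rw [h5] at h4
      omega
    · exfalso
      have hS8 : Nat.card (S : Subgroup G) = 8 := by rw [hc2]; norm_num
      have hNcard : Nat.card (Subgroup.normalizer ((S : Subgroup G) : Set G)) = 24 := by
        rw [h7, h] at hN
        omega
      obtain ⟨x, hxN, hx⟩ := Helper20.exists_order_mem 3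
        (Subgroup.normalizer ((S : Subgroup G) : Set G)) (by rw [hNcard]; norm_num)
      have hx3 : x ^ 3 = 1 := by rw [← hx]; exact pow_orderOf_eq_one x
      have hconjS : ∀ s : G, s ∈ (S : Subgroup G) → x * s * x⁻¹ ∈ (S : Subgroup G) :=
        fun s hs => (Subgroup.mem_normalizer_iff.1 hxN s).1 hs
      have hconjS' : ∀ s : G, s ∈ (S : Subgroup G) → x⁻¹ * s * x ∈ (S : Subgroup G) := by
        intro s hs
        have h1 := (Subgroup.mem_normalizer_iff.1 (Subgroup.inv_mem _ hxN) s).1 hs
        rwa [inv_inv] at h1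
      haveI : Fintype ↥(S : Subgroup G) := Fintype.ofFinite _
      obtain ⟨σ, hσ⟩ : ∃ σ : Equiv.Perm ↥(S : Subgroup G),
          ∀ s : ↥(S : Subgroup G), (σ s : G) = x * s.1 * x⁻¹ :=
        ⟨{ toFun := fun s => ⟨x * s.1 * x⁻¹, hconjS s.1 s.2⟩
           invFun := fun s => ⟨x⁻¹ * s.1 * x, hconjS' s.1 s.2⟩
           left_inv := fun s => Subtype.ext (by
             show x⁻¹ * (x * s.1 * x⁻¹) * x = s.1
             group)
           right_inv := fun s => Subtype.ext (by
             show x * (x⁻¹ * s.1 * x) * x⁻¹ = s.1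
             group) }, fun s => rfl⟩
      have h3σ : ∀ s : ↥(S : Subgroup G), σ (σ (σ s)) = s := by
        intro s
        apply Subtype.ext
        rw [hσ, hσ, hσ]
        have hx3' : x * x * x = 1 := by rw [← hx3, pow_succ, pow_succ, pow_one]
        have e : x * (x * (x * s.1 * x⁻¹) * x⁻¹) * x⁻¹ = x * x * x * s.1 * (x * x * x)⁻¹ := by
          group
        rw [e, hx3', one_mul, inv_one, mul_one]
      have hσ3 : σ ^ 3 ^ 1 = 1 := by
        rw [pow_one]
        apply Equiv.Perm.ext
        intro s
        rw [Equiv.Perm.one_apply, pow_succ, pow_succ, pow_one, Equiv.Perm.mul_apply,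
          Equiv.Perm.mul_apply]
        exact h3σ s
      have hmod3 := Equiv.Perm.card_compl_support_modEq (p := 3) (n := 1) hσ3
      obtain ⟨s', hs1', hsfix⟩ : ∃ s : ↥(S : Subgroup G), s ≠ 1 ∧ σ s = s := by
        by_contra hcon
        push Not at hcon
        have hsub : σ.supportᶜ ⊆ {1} := by
          intro s hs
          rw [Finset.mem_compl, Equiv.Perm.mem_support, not_not] at hs
          rw [Finset.mem_singleton]
          by_contra h1
          exact hcon s h1 hs
        have hle := Finset.card_le_card hsub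
        rw [Finset.card_singleton] at hle
        have hmod' : σ.supportᶜ.card % 3 = 8 % 3 := by
          have h9 := hmod3
          rw [← Nat.card_eq_fintype_card, hS8] at h9
          exact h9
        omega
      obtain ⟨s, hsdef⟩ : ∃ s : G, s = (s' : G) := ⟨_, rfl⟩
      have hsS : s ∈ (S : Subgroup G) := by rw [hsdef]; exact s'.2
      have hs1 : s ≠ 1 := by
        intro h1
        apply hs1'
        apply Subtype.ext
        rw [← hsdef, h1]
        rfl
      have hsx : s * x = x * s := by
        have h1 : x * s * x⁻¹ = s := by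
          rw [hsdef, ← hσ s', hsfix]
        exact (mul_inv_eq_iff_eq_mul.1 h1).symm
      obtain ⟨P, hP⟩ := (IsPGroup.of_card (n := 1) (by rw [Nat.card_zpowers, hx, pow_one]) :
        IsPGroup 3 (Subgroup.zpowers x)).exists_le_sylow
      obtain ⟨hc3, hP1, hP2, -, -, -, hN3⟩ := b3 P
      have hzx : Subgroup.zpowers x = (P : Subgroup G) := by
        apply Subgroup.eq_of_le_of_card_ge hP
        rw [hc3, Nat.card_zpowers, hx]
        norm_num
      have hxP : x ∈ (P : Subgroup G) := hP (Subgroup.mem_zpowers x)
      have hN3card : Nat.card (Subgroup.normalizer ((P : Subgroup G) : Set G)) = 6 := by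
        rw [hn3, h] at hN3
        omega
      have hconjN : ∀ g ∈ Subgroup.normalizer ((P : Subgroup G) : Set G),
          g * x * g⁻¹ ∈ Subgroup.zpowers x := by
        intro g hg
        rw [hzx]
        exact (Subgroup.mem_normalizer_iff.1 hg x).1 hxP
      have hcentP : ∀ g : G, g * x = x * g →
          g ∈ Subgroup.centralizer ((P : Subgroup G) : Set G) := by
        intro g hg
        rw [Subgroup.mem_centralizer_iff]
        intro z hz
        rw [SetLike.mem_coe, ← hzx] at hz
        obtain ⟨k, rfl⟩ := Subgroup.mem_zpowers_iff.1 hz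
        have hc : Commute g x := hg
        exact (hc.zpow_right k).eq.symm
      apply Helper20.simple_not_burnside 3 P hP1 hP2
      rcases Helper20.normalizer_zpowers_three x hx _ hconjN (Subgroup.le_normalizer hxP)
        with hall | ⟨C, hCN, hC, hC', hCcard⟩
      · intro g hg
        exact hcentP g (hall g hg)
      · exfalso
        have hsN : s ∈ Subgroup.normalizer ((P : Subgroup G) : Set G) :=
          Subgroup.centralizer_le_normalizer _ (hcentP s hsx)
        have hsC : s ∈ C := hC' s hsN hsx
        have hC3 : Nat.card C = 3 := by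
          rw [hN3card] at hCcard
          omega
        have h3' : orderOf s ∣ 3 := by
          have h9 := orderOf_dvd_natCard (⟨s, hsC⟩ : C)
          rw [hC3, ← Subgroup.orderOf_coe] at h9
          exact h9
        have h8 : orderOf s ∣ 8 := by
          have h9 := orderOf_dvd_natCard (⟨s, hsS⟩ : (S : Subgroup G))
          rw [hS8, ← Subgroup.orderOf_coe] at h9
          exact h9
        have h1 : orderOf s ∣ 1 := (by decide : Nat.gcd 8 3 = 1) ▸ Nat.dvd_gcd h8 h3'
        exact hs1 (orderOf_eq_one_iff.1 (Nat.dvd_one.1 h1))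
    · exact h21
  exact ⟨hn2, hn3, hn7⟩

end Cfsg.Agent.S1003
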