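import Cfsg.Statements.S0708
-- import your own Cfsg.Agent.* helpers here
import Mathlib

set_option autoImplicit false
open Cfsg

namespace Cfsg.Agent.S0708

/-- four pairwise distinct points -/
def D4 {Ω : Type*} (a b c d : Ω) : Prop := a ≠ b ∧ a ≠ c ∧ a ≠ d ∧ b ≠ c ∧ b ≠ d ∧ c ≠ d

/-- embedding from four distinct points -/
def emb4 {Ω : Type*} (a b c d : Ω) (h : D4 a b c d) : Fin 4 ↪ Ω :=
  ⟨![a, b, c, d], by
    obtain ⟨hab, hac, had, hbc, hbd, hcd⟩ := h
    intro i j hij
    fin_cases i <;> fin_cases j <;> simp_all⟩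

/-- Tits' argument: a sharply 4-transitive group (no finiteness assumed) has finite degree at most 11, and at most 6 when the degree is even. -/
theorem result {G : Type*} [Group G] {Ω : Type*} [MulAction G Ω] (h4 : MulAction.IsMultiplyPretransitive G Ω 4) (hsharp : ∀ x : Fin 4 ↪ Ω, MulAction.stabilizer G x = ⊥) (hne : Nonempty (Fin 4 ↪ Ω)) : Finite Ω ∧ Nat.card Ω ≤ 11 ∧ (Even (Nat.card Ω) → Nat.card Ω ≤ 6) := by
  classical
  obtain ⟨x⟩ := hne
  have hT : ∀ (e e' : Fin 4 ↪ Ω), ∃ g : G, ∀ i, g • e i = e' i := by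
    intro e e'
    obtain ⟨g, hg⟩ := h4.exists_smul_eq e e'
    exact ⟨g, fun i => by rw [← hg]; rfl⟩
  have hU : ∀ (g : G) (e : Fin 4 ↪ Ω), (∀ i, g • e i = e i) → g = 1 := by
    intro g e h
    have hmem : g ∈ MulAction.stabilizer G e := by
      rw [MulAction.mem_stabilizer_iff]
      ext i
      exact h i
    rw [hsharp e, Subgroup.mem_bot] at hmem
    exact hmem
  have hT' : ∀ a b c d a' b' c' d' : Ω, D4 a b c d → D4 a' b' c' d' →
      ∃ g : G, g • a = a' ∧ g • b = b' ∧ g • c = c' ∧ g • d = d' := by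
    intro a b c d a' b' c' d' h h'
    obtain ⟨g, hg⟩ := hT (emb4 a b c d h) (emb4 a' b' c' d' h')
    exact ⟨g, hg 0, hg 1, hg 2, hg 3⟩
  have hU' : ∀ (g : G) (a b c d : Ω), D4 a b c d → g • a = a → g • b = b → g • c = c →
      g • d = d → g = 1 := by
    intro g a b c d h ha hb hc hd
    apply hU g (emb4 a b c d h)
    intro i
    fin_cases i
    · exact ha
    · exact hb
    · exact hc
    · exact hd
  have hL : ∀ g : G, g ≠ 1 → ∀ s : Finset Ω, (∀ ω ∈ s, g • ω = ω) → s.card ≤ 3 := by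
    intro g hg s hs
    by_contra hcard
    push Not at hcard
    obtain ⟨s', hs's, hs'card⟩ := Finset.exists_subset_card_eq (show 4 ≤ s.card by omega)
    apply hg
    apply hU g ((Finset.equivFinOfCardEq hs'card).symm.toEmbedding.trans
      (Function.Embedding.subtype _))
    intro i
    exact hs _ (hs's ((Finset.equivFinOfCardEq hs'card).symm i).2)
  have hL2 : ∀ g : G, g ≠ 1 → {ω : Ω | g • ω = ω}.Finite ∧ {ω : Ω | g • ω = ω}.ncard ≤ 3 := by
    intro g hg
    have hfin : {ω : Ω | g • ω = ω}.Finite := by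
      by_contra hinf
      obtain ⟨s, hs, hscard⟩ := Set.Infinite.exists_subset_card_eq hinf 4
      have := hL g hg s (fun ω hω => hs hω)
      omega
    refine ⟨hfin, ?_⟩
    rw [Set.ncard_eq_toFinset_card _ hfin]
    exact hL g hg _ (fun ω hω => (Set.Finite.mem_toFinset hfin).1 hω)
  have hinj := x.injective
  obtain ⟨a, a', b, b', hD⟩ : ∃ a a' b b' : Ω, D4 a a' b b' :=
    ⟨x 0, x 1, x 2, x 3, fun h => absurd (hinj h) (by decide), fun h => absurd (hinj h) (by decide),
      fun h => absurd (hinj h) (by decide), fun h => absurd (hinj h) (by decide),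
      fun h => absurd (hinj h) (by decide), fun h => absurd (hinj h) (by decide)⟩
  obtain ⟨haa', hab, hab', ha'b, ha'b', hbb'⟩ := hD
  have hD : D4 a a' b b' := ⟨haa', hab, hab', ha'b, ha'b', hbb'⟩
  obtain ⟨t, hta, hta', htb, htb'⟩ := hT' a a' b b' a' a b' b hD
    ⟨haa'.symm, ha'b', ha'b, hab', hab, hbb'.symm⟩
  have htt : t * t = 1 := by
    apply hU' (t * t) a a' b b' hD
    · rw [mul_smul, hta, hta']
    · rw [mul_smul, hta', hta]
    · rw [mul_smul, htb, htb']
    · rw [mul_smul, htb', htb]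
  have htt' : ∀ ω : Ω, t • t • ω = ω := fun ω => by rw [← mul_smul, htt, one_smul]
  have ht1 : t ≠ 1 := by
    rintro rfl
    rw [one_smul] at hta
    exact haa' hta
  obtain ⟨hFfin, hFcard⟩ := hL2 t ht1
  have haF : t • a ≠ a := by
    rw [hta]
    exact haa'.symm
  have ha'F : t • a' ≠ a' := by
    rw [hta']
    exact haa'
  by_cases hF2 : ∃ φ₁ φ₂ : Ω, t • φ₁ = φ₁ ∧ t • φ₂ = φ₂ ∧ φ₁ ≠ φ₂
  · obtain ⟨φ₁, φ₂, hφ₁, hφ₂, hφ⟩ := hF2
    have hgc : ∀ c : Ω, t • c ≠ c → c ≠ a → c ≠ a' →
        ∃ g : G, g • a = a ∧ g • a' = a' ∧ g • b = c ∧ g * t = t * g := by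
      intro c hc hca hca'
      have hD' : D4 a a' c (t • c) := by
        refine ⟨haa', fun h => hca h.symm, ?_, fun h => hca' h.symm, ?_, fun h => hc h.symm⟩
        · intro h
          apply hca'
          have h5 := hta
          rw [h, htt'] at h5
          exact h5
        · intro h
          apply hca
          have h5 := hta'
          rw [h, htt'] at h5
          exact h5
      obtain ⟨g, hga, hga', hgb, hgb'⟩ := hT' a a' b b' a a' c (t • c) hD hD'
      refine ⟨g, hga, hga', hgb, ?_⟩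
      have hw : t⁻¹ * (g * t * g⁻¹) = 1 := by
        apply hU' _ a a' c (t • c) hD'
        · rw [mul_smul, mul_smul, mul_smul, inv_smul_eq_iff.2 hga.symm, hta, hga',
            inv_smul_eq_iff, hta]
        · rw [mul_smul, mul_smul, mul_smul, inv_smul_eq_iff.2 hga'.symm, hta', hga,
            inv_smul_eq_iff, hta']
        · rw [mul_smul, mul_smul, mul_smul, inv_smul_eq_iff.2 hgb.symm, htb, hgb',
            inv_smul_eq_iff]
        · rw [mul_smul, mul_smul, mul_smul, inv_smul_eq_iff.2 hgb'.symm, htb', hgb,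
            inv_smul_eq_iff, htt']
      have h6 : t = g * t * g⁻¹ := inv_mul_eq_one.1 hw
      calc g * t = g * t * g⁻¹ * g := by group
        _ = t * g := by rw [← h6]
    choose! gc hgc using hgc
    have hD2 : D4 a a' φ₁ φ₂ :=
      ⟨haa', fun h => haF (h ▸ hφ₁), fun h => haF (h ▸ hφ₂), fun h => ha'F (h ▸ hφ₁),
        fun h => ha'F (h ▸ hφ₂), hφ⟩
    have hmaps : ∀ c ∈ {c : Ω | t • c ≠ c ∧ c ≠ a ∧ c ≠ a'},
        (gc c • φ₁, gc c • φ₂) ∈ (↑(hFfin.toFinset.offDiag) : Set (Ω × Ω)) := by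
      rintro c ⟨hc, hca, hca'⟩
      obtain ⟨-, -, -, hcomm⟩ := hgc c hc hca hca'
      rw [Finset.mem_coe, Finset.mem_offDiag]
      refine ⟨?_, ?_, ?_⟩
      · rw [Set.Finite.mem_toFinset]
        show t • gc c • φ₁ = gc c • φ₁
        rw [← mul_smul, ← hcomm, mul_smul, hφ₁]
      · rw [Set.Finite.mem_toFinset]
        show t • gc c • φ₂ = gc c • φ₂
        rw [← mul_smul, ← hcomm, mul_smul, hφ₂]
      · intro h
        exact hφ (smul_left_cancel _ h)
    have hinjOn : Set.InjOn (fun c => (gc c • φ₁, gc c • φ₂))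
        {c : Ω | t • c ≠ c ∧ c ≠ a ∧ c ≠ a'} := by
      rintro c ⟨hc, hca, hca'⟩ c' ⟨hc', hc'a, hc'a'⟩ h
      obtain ⟨h1, h2, h3, -⟩ := hgc c hc hca hca'
      obtain ⟨h1', h2', h3', -⟩ := hgc c' hc' hc'a hc'a'
      have e1 : gc c • φ₁ = gc c' • φ₁ := congrArg Prod.fst h
      have e2 : gc c • φ₂ = gc c' • φ₂ := congrArg Prod.snd h
      have hu : (gc c)⁻¹ * gc c' = 1 := by
        apply hU' _ a a' φ₁ φ₂ hD2
        · rw [mul_smul, h1', inv_smul_eq_iff, h1]
        · rw [mul_smul, h2', inv_smul_eq_iff, h2]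
        · rw [mul_smul, ← e1, inv_smul_smul]
        · rw [mul_smul, ← e2, inv_smul_smul]
      have hgg : gc c = gc c' := inv_mul_eq_one.1 hu
      rw [← h3, ← h3', hgg]
    have hRfin : {c : Ω | t • c ≠ c ∧ c ≠ a ∧ c ≠ a'}.Finite :=
      Set.Finite.of_injOn hmaps hinjOn (Finset.finite_toSet _)
    have hRcard : {c : Ω | t • c ≠ c ∧ c ≠ a ∧ c ≠ a'}.ncard ≤
        hFfin.toFinset.card * hFfin.toFinset.card - hFfin.toFinset.card := by
      have := Set.ncard_le_ncard_of_injOn _ hmaps hinjOn (Finset.finite_toSet _)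
      rwa [Set.ncard_coe_finset, Finset.offDiag_card] at this
    have hcover : (Set.univ : Set Ω) ⊆ {ω : Ω | t • ω = ω} ∪ {a, a'} ∪
        {c : Ω | t • c ≠ c ∧ c ≠ a ∧ c ≠ a'} := by
      intro ω _
      by_cases h1 : t • ω = ω
      · exact Or.inl (Or.inl h1)
      by_cases h2 : ω = a
      · exact Or.inl (Or.inr (Or.inl h2))
      by_cases h3 : ω = a'
      · exact Or.inl (Or.inr (Or.inr h3))
      · exact Or.inr ⟨h1, h2, h3⟩
    have hfin3 : ({ω : Ω | t • ω = ω} ∪ {a, a'} ∪
        {c : Ω | t • c ≠ c ∧ c ≠ a ∧ c ≠ a'}).Finite :=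
      (hFfin.union (Set.toFinite {a, a'})).union hRfin
    have hΩfin : Finite Ω := Set.finite_univ_iff.1 (Set.Finite.subset hfin3 hcover)
    have hFF : hFfin.toFinset.card = {ω : Ω | t • ω = ω}.ncard :=
      (Set.ncard_eq_toFinset_card _ hFfin).symm
    have hcard : Nat.card Ω ≤ {ω : Ω | t • ω = ω}.ncard + 2 +
        ({ω : Ω | t • ω = ω}.ncard * {ω : Ω | t • ω = ω}.ncard - {ω : Ω | t • ω = ω}.ncard) := by
      rw [← hFF, ← Set.ncard_univ]
      calc (Set.univ : Set Ω).ncard ≤ ({ω : Ω | t • ω = ω} ∪ {a, a'} ∪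
            {c : Ω | t • c ≠ c ∧ c ≠ a ∧ c ≠ a'}).ncard := Set.ncard_le_ncard hcover hfin3
        _ ≤ ({ω : Ω | t • ω = ω} ∪ {a, a'}).ncard +
            {c : Ω | t • c ≠ c ∧ c ≠ a ∧ c ≠ a'}.ncard := Set.ncard_union_le _ _
        _ ≤ {ω : Ω | t • ω = ω}.ncard + ({a, a'} : Set Ω).ncard +
            {c : Ω | t • c ≠ c ∧ c ≠ a ∧ c ≠ a'}.ncard :=
          Nat.add_le_add_right (Set.ncard_union_le _ _) _
        _ ≤ _ := by
          have h2 : ({a, a'} : Set Ω).ncard ≤ 2 :=
            (Set.ncard_insert_le _ _).trans (by rw [Set.ncard_singleton])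
          rw [hFF] at hRcard ⊢
          omega
    refine ⟨hΩfin, ?_, ?_⟩
    · have h9 : {ω : Ω | t • ω = ω}.ncard * {ω : Ω | t • ω = ω}.ncard ≤ 9 := by nlinarith
      omega
    · intro heven
      by_cases hf3 : {ω : Ω | t • ω = ω}.ncard = 3
      · exfalso
        have := Fintype.ofFinite Ω
        have hσ : (MulAction.toPerm t : Equiv.Perm Ω) ^ 2 = 1 := by
          ext ω
          rw [pow_two]
          exact htt' ω
        have h2 := Equiv.Perm.two_dvd_card_support hσ
        have hsupp : (MulAction.toPerm t : Equiv.Perm Ω).supportᶜ = hFfin.toFinset := by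
          ext ω
          rw [Finset.mem_compl, Equiv.Perm.notMem_support, Set.Finite.mem_toFinset]
          rfl
        have hc := Finset.card_compl (MulAction.toPerm t : Equiv.Perm Ω).support
        rw [hsupp, hFF, hf3] at hc
        have hle := Finset.card_le_univ (MulAction.toPerm t : Equiv.Perm Ω).support
        rw [Nat.card_eq_fintype_card] at heven
        obtain ⟨r, hr⟩ := h2
        rw [Nat.even_iff] at heven
        omega
      · have hf2 : {ω : Ω | t • ω = ω}.ncard ≤ 2 := by omega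
        have h4' : {ω : Ω | t • ω = ω}.ncard * {ω : Ω | t • ω = ω}.ncard ≤ 4 := by nlinarith
        omega
  · push Not at hF2
    obtain ⟨v, hva, hva', hvb, hvb'⟩ := hT' a a' b b' a a' b' b hD
      ⟨haa', hab', hab, ha'b', ha'b, hbb'.symm⟩
    have hvv : v * v = 1 := by
      apply hU' (v * v) a a' b b' hD
      · rw [mul_smul, hva, hva]
      · rw [mul_smul, hva', hva']
      · rw [mul_smul, hvb, hvb']
      · rw [mul_smul, hvb', hvb]
    have hvv' : ∀ ω : Ω, v • v • ω = ω := fun ω => by rw [← mul_smul, hvv, one_smul]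
    have hv1 : v ≠ 1 := by
      rintro rfl
      rw [one_smul] at hvb
      exact hbb' hvb
    have hfixv : ∀ c : Ω, c ≠ b → c ≠ b' → v • c = c := by
      intro c hcb hcb'
      by_contra hvc
      have hD' : D4 b b' c (v • c) := by
        refine ⟨hbb', fun h => hcb h.symm, ?_, fun h => hcb' h.symm, ?_, fun h => hvc h.symm⟩
        · intro h
          apply hcb'
          have h5 := hvb
          rw [h, hvv'] at h5
          exact h5
        · intro h
          apply hcb
          have h5 := hvb'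
          rw [h, hvv'] at h5
          exact h5
      obtain ⟨h, hha, hha', hhb, hhb'⟩ := hT' a a' b b' b b' c (v • c) hD hD'
      have hw : v⁻¹ * (h * t * h⁻¹) = 1 := by
        apply hU' _ b b' c (v • c) hD'
        · rw [mul_smul, mul_smul, mul_smul, inv_smul_eq_iff.2 hha.symm, hta, hha',
            inv_smul_eq_iff, hvb]
        · rw [mul_smul, mul_smul, mul_smul, inv_smul_eq_iff.2 hha'.symm, hta', hha,
            inv_smul_eq_iff, hvb']
        · rw [mul_smul, mul_smul, mul_smul, inv_smul_eq_iff.2 hhb.symm, htb, hhb',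
            inv_smul_eq_iff]
        · rw [mul_smul, mul_smul, mul_smul, inv_smul_eq_iff.2 hhb'.symm, htb', hhb,
            inv_smul_eq_iff, hvv']
      have hv : v = h * t * h⁻¹ := inv_mul_eq_one.1 hw
      have e1 : t • (h⁻¹ • a) = h⁻¹ • a := by
        have h3 : (h * t * h⁻¹) • a = a := by
          rw [← hv]
          exact hva
        rw [mul_smul, mul_smul] at h3
        exact eq_inv_smul_iff.2 h3
      have e2 : t • (h⁻¹ • a') = h⁻¹ • a' := by
        have h3 : (h * t * h⁻¹) • a' = a' := by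
          rw [← hv]
          exact hva'
        rw [mul_smul, mul_smul] at h3
        exact eq_inv_smul_iff.2 h3
      exact haa' (smul_left_cancel _ (hF2 _ _ e1 e2))
    obtain ⟨hVfin, hVcard⟩ := hL2 v hv1
    have hcover : (Set.univ : Set Ω) ⊆ {b, b'} ∪ {ω : Ω | v • ω = ω} := by
      intro ω _
      by_cases h1 : ω = b
      · exact Or.inl (Or.inl h1)
      by_cases h2 : ω = b'
      · exact Or.inl (Or.inr h2)
      · exact Or.inr (hfixv ω h1 h2)
    have hfin2 : ({b, b'} ∪ {ω : Ω | v • ω = ω}).Finite := (Set.toFinite {b, b'}).union hVfin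
    have hΩfin : Finite Ω := Set.finite_univ_iff.1 (Set.Finite.subset hfin2 hcover)
    have hcard : Nat.card Ω ≤ 5 := by
      rw [← Set.ncard_univ]
      calc (Set.univ : Set Ω).ncard ≤ ({b, b'} ∪ {ω : Ω | v • ω = ω}).ncard :=
            Set.ncard_le_ncard hcover hfin2
        _ ≤ ({b, b'} : Set Ω).ncard + {ω : Ω | v • ω = ω}.ncard := Set.ncard_union_le _ _
        _ ≤ 5 := by
          have h2 : ({b, b'} : Set Ω).ncard ≤ 2 :=
            (Set.ncard_insert_le _ _).trans (by rw [Set.ncard_singleton])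
          omega
    exact ⟨hΩfin, by omega, fun _ => by omega⟩

end Cfsg.Agent.S0708
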