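import Cfsg.Statements.S0768
-- import your own Cfsg.Agent.* helpers here
import Mathlib
import Cfsg.Agent.Helper5.SympGen

set_option autoImplicit false
open scoped LinearAlgebra.Projectivization
open Cfsg

namespace Cfsg.Agent.S0768

open scoped Pointwise

open Cfsg.Agent.Helper5 in
theorem IT_to_spGL {F : Type*} [Field F] (m : ℕ)
    (g : (Fin m ⊕ Fin m → F) ≃ₗ[F] (Fin m ⊕ Fin m → F)) (hg : IT m g) :
    ∃ g' : ↥(Cfsg.spGL m F), ∀ x : Fin m ⊕ Fin m → F, g' • x = g x := by
  obtain ⟨A, -, hA⟩ := hg
  have hdet : (A : Matrix (Fin m ⊕ Fin m) (Fin m ⊕ Fin m) F).det ≠ 0 :=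
    (SymplecticGroup.symplectic_det A.2).ne_zero
  refine ⟨⟨Matrix.GeneralLinearGroup.mkOfDetNeZero
    (A : Matrix (Fin m ⊕ Fin m) (Fin m ⊕ Fin m) F) hdet, ?_⟩, fun x => ?_⟩
  · intro u v
    change Cfsg.sympForm m F ((A : Matrix (Fin m ⊕ Fin m) (Fin m ⊕ Fin m) F).mulVec u)
      ((A : Matrix (Fin m ⊕ Fin m) (Fin m ⊕ Fin m) F).mulVec v) = Cfsg.sympForm m F u v
    rw [← sB_apply, ← sB_apply]
    exact sp_preserves m A.1 A.2 u v
  · exact hA x

open Cfsg.Agent.Helper5 in
theorem blockA {F : Type*} [Field F] (m : ℕ)
    (Bk : Set (Projectivization F (Fin m ⊕ Fin m → F)))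
    (hBk : MulAction.IsBlock (Cfsg.spGL m F) Bk)
    (u w w' : Fin m ⊕ Fin m → F) (hu : u ≠ 0) (hw : w ≠ 0) (hw' : w' ≠ 0)
    (huB : Projectivization.mk F u hu ∈ Bk) (hwB : Projectivization.mk F w hw ∈ Bk)
    (hind : w ∉ Submodule.span F {u}) (hind' : w' ∉ Submodule.span F {u})
    (htype : sB m u w' = 0 ↔ sB m u w = 0) : Projectivization.mk F w' hw' ∈ Bk := by
  obtain ⟨c, hc0, hc⟩ : ∃ c : F, c ≠ 0 ∧ sB m u (c • w') = sB m u w := by
    by_cases h0 : sB m u w = 0
    · refine ⟨1, one_ne_zero, ?_⟩
      rw [one_smul, h0]
      exact htype.2 h0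
    · have h1 : sB m u w' ≠ 0 := fun h => h0 (htype.1 h)
      refine ⟨sB m u w / sB m u w', div_ne_zero h0 h1, ?_⟩
      rw [map_smul, smul_eq_mul, div_mul_cancel₀ _ h1]
  have hind'' : c • w' ∉ Submodule.span F {u} := by
    intro hmem
    apply hind'
    have := Submodule.smul_mem _ c⁻¹ hmem
    rwa [smul_smul, inv_mul_cancel₀ hc0, one_smul] at this
  obtain ⟨g, hg, hgX, hgw⟩ := core_gen (sB m) (sB_nondeg m) (sB_alt m) (IT m) (IT_trans m)
    (IT_transv m) (Submodule.span F {u}) w (c • w') hind hind'' (by
      intro t ht
      obtain ⟨a, rfl⟩ := Submodule.mem_span_singleton.1 ht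
      rw [map_smul, LinearMap.smul_apply, map_sub, hc, sub_self, smul_zero])
  obtain ⟨g', hg'⟩ := IT_to_spGL m g hg
  have hgu : g' • u = u := by
    rw [hg']
    exact hgX u (Submodule.mem_span_singleton_self u)
  have h1 : g' • Projectivization.mk F u hu = Projectivization.mk F u hu := by
    refine (Projectivization.smul_mk g' hu).trans ?_
    exact (Projectivization.mk_eq_mk_iff' F _ _ _ _).2 ⟨1, by rw [one_smul, hgu]⟩
  have hblock := MulAction.isBlock_iff_smul_eq_of_mem.1 hBk huB (by rw [h1]; exact huB)
  have h2 : g' • Projectivization.mk F w hw ∈ Bk := by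
    have h3 : g' • Projectivization.mk F w hw ∈ g' • Bk := Set.smul_mem_smul_set hwB
    rwa [hblock] at h3
  have h4 : g' • Projectivization.mk F w hw = Projectivization.mk F w' hw' := by
    refine (Projectivization.smul_mk g' hw).trans ?_
    exact (Projectivization.mk_eq_mk_iff' F _ _ _ _).2 ⟨c, by rw [hg', hgw]⟩
  rw [← h4]
  exact h2

/-- Primitivity: for m ≥ 1 and F finite, the symplectic group of the form sympForm (as a subgroup of the general linear group) acts primitively on the projective space of F^(2m). -/
theorem result {F : Type*} [Field F] [Finite F] (m : ℕ) (hm : 1 ≤ m) : MulAction.IsPreprimitive ↥(Cfsg.spGL m F) (ℙ F (Fin m ⊕ Fin m → F)) := by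
  classical
  have hA := Cfsg.Agent.Helper5.sB_alt (F := F) m
  have hND := Cfsg.Agent.Helper5.sB_nondeg (F := F) m
  obtain ⟨B, hBdef⟩ : ∃ B : LinearMap.BilinForm F (Fin m ⊕ Fin m → F),
      B = Cfsg.Agent.Helper5.sB m := ⟨_, rfl⟩
  have hneg : ∀ x y, B x y = - B y x := by
    intro x y
    rw [hBdef, hA.neg_eq]
  have hself : ∀ x, B x x = 0 := by
    intro x
    rw [hBdef]
    exact hA x
  have hpt : MulAction.IsPretransitive ↥(Cfsg.spGL m F)
      (Projectivization F (Fin m ⊕ Fin m → F)) := by
    constructor
    intro p p'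
    induction p using Projectivization.ind with
    | h u hu =>
    induction p' using Projectivization.ind with
    | h u' hu' =>
    obtain ⟨g, hg, -, hgu⟩ := Cfsg.Agent.Helper5.core_gen (Cfsg.Agent.Helper5.sB m) hND hA
      (Cfsg.Agent.Helper5.IT m) (Cfsg.Agent.Helper5.IT_trans m)
      (Cfsg.Agent.Helper5.IT_transv m) ⊥ u u'
      (by rw [Submodule.mem_bot]; exact hu) (by rw [Submodule.mem_bot]; exact hu') (by
        intro t ht
        rw [Submodule.mem_bot] at ht
        rw [ht, map_zero, LinearMap.zero_apply])
    obtain ⟨g', hg'⟩ := IT_to_spGL m g hg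
    refine ⟨g', ?_⟩
    refine (Projectivization.smul_mk g' hu).trans ?_
    exact (Projectivization.mk_eq_mk_iff' F _ _ _ _).2 ⟨1, by rw [one_smul, hg', hgu]⟩
  refine { toIsPretransitive := hpt, isTrivialBlock_of_isBlock := ?_ }
  intro Bk hBk
  by_cases hsub : Bk.Subsingleton
  · exact Or.inl hsub
  · right
    rw [Set.not_subsingleton_iff] at hsub
    obtain ⟨p, hp, q, hq, hpq⟩ := hsub
    induction p using Projectivization.ind with
    | h u hu =>
    induction q using Projectivization.ind with
    | h w hw =>
    have hind : w ∉ Submodule.span F {u} := by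
      intro hmem
      obtain ⟨a, rfl⟩ := Submodule.mem_span_singleton.1 hmem
      exact hpq ((Projectivization.mk_eq_mk_iff' F _ _ _ _).2 ⟨a⁻¹, by
        have ha : a ≠ 0 := by
          rintro rfl
          exact hw (zero_smul _ _)
        rw [smul_smul, inv_mul_cancel₀ ha, one_smul]⟩)
    rw [Set.eq_univ_iff_forall]
    intro r
    induction r using Projectivization.ind with
    | h z hz =>
    by_cases hzu : z ∈ Submodule.span F {u}
    · obtain ⟨a, rfl⟩ := Submodule.mem_span_singleton.1 hzu
      have : Projectivization.mk F (a • u) hz = Projectivization.mk F u hu :=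
        (Projectivization.mk_eq_mk_iff' F _ _ _ _).2 ⟨a, rfl⟩
      rw [this]
      exact hp
    · by_cases ht : (B u z = 0 ↔ B u w = 0)
      · exact blockA m Bk hBk u w z hu hw hz hp hq hind hzu (by rw [← hBdef]; exact ht)
      · by_cases h0 : B u w = 0
        · have huz : B u z ≠ 0 := fun h => ht ⟨fun _ => h0, fun _ => h⟩
          have hzu' : B z u ≠ 0 := by
            rw [hneg]
            exact neg_ne_zero.2 huz
          obtain ⟨w', hw'def⟩ : ∃ w' : Fin m ⊕ Fin m → F, w' = w - (B z w / B z u) • u :=
            ⟨_, rfl⟩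
          have hw'span : w' ∉ Submodule.span F {u} := by
            intro hmem
            apply hind
            have h1 : w = w' + (B z w / B z u) • u := by
              rw [hw'def]
              abel
            rw [h1]
            exact Submodule.add_mem _ hmem
              (Submodule.smul_mem _ _ (Submodule.mem_span_singleton_self u))
          have hw'0 : w' ≠ 0 := by
            rintro rfl
            exact hw'span (Submodule.zero_mem _)
          have huw' : B u w' = 0 := by
            rw [hw'def, map_sub, map_smul, h0, hself, smul_zero, sub_zero]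
          have hzw' : B z w' = 0 := by
            rw [hw'def, map_sub, map_smul, smul_eq_mul, div_mul_cancel₀ _ hzu', sub_self]
          have hw'B : Projectivization.mk F w' hw'0 ∈ Bk :=
            blockA m Bk hBk u w w' hu hw hw'0 hp hq hind hw'span (by
              rw [← hBdef, huw', h0])
          refine blockA m Bk hBk w' u z hw'0 hu hz hw'B hp ?_ ?_ ?_
          · intro hmem
            obtain ⟨a, rfl⟩ := Submodule.mem_span_singleton.1 hmem
            apply hzu'
            rw [map_smul, hzw', smul_zero]
          · intro hmem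
            obtain ⟨a, rfl⟩ := Submodule.mem_span_singleton.1 hmem
            apply huz
            rw [map_smul, huw', smul_zero]
          · rw [← hBdef, hneg w' z, hzw', hneg w' u, huw']
        · have huz : B u z = 0 := by
            by_contra h
            exact ht ⟨fun h' => absurd h' h, fun h' => absurd h' h0⟩
          obtain ⟨t₂, ht₂⟩ : ∃ t₂, B z t₂ ≠ 0 := by
            by_contra hcon
            push Not at hcon
            rw [hBdef] at hcon
            exact hz (hND.1 z hcon)
          obtain ⟨w', huw', hzw'⟩ : ∃ w', B u w' ≠ 0 ∧ B z w' ≠ 0 := by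
            by_cases h1 : B z w = 0
            · by_cases h2 : B u t₂ = 0
              · refine ⟨w + t₂, ?_, ?_⟩
                · rw [map_add, h2, add_zero]
                  exact h0
                · rw [map_add, h1, zero_add]
                  exact ht₂
              · exact ⟨t₂, h2, ht₂⟩
            · exact ⟨w, h0, h1⟩
          have hw'span : w' ∉ Submodule.span F {u} := by
            intro hmem
            obtain ⟨a, rfl⟩ := Submodule.mem_span_singleton.1 hmem
            apply huw'
            rw [map_smul, hself, smul_zero]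
          have hw'0 : w' ≠ 0 := by
            rintro rfl
            exact hw'span (Submodule.zero_mem _)
          have hw'B : Projectivization.mk F w' hw'0 ∈ Bk :=
            blockA m Bk hBk u w w' hu hw hw'0 hp hq hind hw'span (by
              rw [← hBdef]
              exact ⟨fun h => absurd h huw', fun h => absurd h h0⟩)
          refine blockA m Bk hBk w' u z hw'0 hu hz hw'B hp ?_ ?_ ?_
          · intro hmem
            obtain ⟨a, rfl⟩ := Submodule.mem_span_singleton.1 hmem
            apply huw'
            rw [map_smul, LinearMap.smul_apply, hself, smul_zero]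
          · intro hmem
            obtain ⟨a, rfl⟩ := Submodule.mem_span_singleton.1 hmem
            rw [map_smul, smul_eq_mul] at huz
            rcases mul_eq_zero.1 huz with ha | ha
            · exact hz (by rw [ha, zero_smul])
            · exact huw' ha
          · rw [← hBdef, hneg w' z, hneg w' u]
            exact ⟨fun h => absurd (neg_eq_zero.1 h) hzw', fun h => absurd (neg_eq_zero.1 h) huw'⟩

end Cfsg.Agent.S0768
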