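import Cfsg.Agent.Helper2.Dihedral
import Cfsg.Statements.S0237
-- import your own Cfsg.Agent.* helpers here

set_option autoImplicit false
open Cfsg

namespace Cfsg.Agent.S0237

/-- If x is real (conjugate to x⁻¹) in a finite group G, the number of g with g x g⁻¹ = x⁻¹ equals |C_G(x)|. -/
theorem result {G : Type*} [Group G] [Finite G] (x : G) (hreal : IsConj x x⁻¹) : Nat.card {g : G // g * x * g⁻¹ = x⁻¹} = Nat.card (Subgroup.centralizer ({x} : Set G)) := by
  obtain ⟨g0, hg0⟩ := isConj_iff.1 hreal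
  symm
  apply Nat.card_congr
  refine
    { toFun := fun c => ⟨g0 * c.1, ?_⟩
      invFun := fun g => ⟨g0⁻¹ * g.1, ?_⟩
      left_inv := ?_
      right_inv := ?_ }
  · obtain ⟨c, hc⟩ := c
    rw [Subgroup.mem_centralizer_iff] at hc
    have hc' := hc x (Set.mem_singleton x)
    show g0 * c * x * (g0 * c)⁻¹ = x⁻¹
    rw [← hg0]
    have : g0 * c * x = g0 * (x * c) := by rw [hc']; group
    rw [this]; group
  · obtain ⟨g, hg⟩ := g
    rw [Subgroup.mem_centralizer_iff]
    intro y hy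
    rw [Set.mem_singleton_iff] at hy
    subst hy
    have h1 : g * y * g⁻¹ = g0 * y * g0⁻¹ := by rw [hg, hg0]
    have h2 : g0⁻¹ * (g * y * g⁻¹) * g0 = y := by rw [h1]; group
    calc y * (g0⁻¹ * g) = (g0⁻¹ * (g * y * g⁻¹) * g0) * (g0⁻¹ * g) := by rw [h2]
      _ = g0⁻¹ * g * y := by group
  · rintro ⟨c, hc⟩
    apply Subtype.ext
    show g0⁻¹ * (g0 * c) = c
    group
  · rintro ⟨g, hg⟩
    apply Subtype.ext
    show g0 * (g0⁻¹ * g) = g
    group

end Cfsg.Agent.S0237
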