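import Cfsg.Agent.S0236
import Cfsg.Agent.S0237
import Cfsg.Statements.S0238
-- import your own Cfsg.Agent.* helpers here

set_option autoImplicit false
open Cfsg

namespace Cfsg.Agent.S0238

/-- For every x in a finite group G, the number c of ordered pairs (u, v) of involutions with uv = x is at most |C_G(x)|; c = 0 when x is not conjugate to x⁻¹; and c + 2 ≤ |C_G(x)| when x is an involution. -/
theorem result {G : Type*} [Group G] [Finite G] (x : G) : Nat.card {p : G × G // orderOf p.1 = 2 ∧ orderOf p.2 = 2 ∧ p.1 * p.2 = x} ≤ Nat.card (Subgroup.centralizer ({x} : Set G)) ∧ (¬ IsConj x x⁻¹ → Nat.card {p : G × G // orderOf p.1 = 2 ∧ orderOf p.2 = 2 ∧ p.1 * p.2 = x} = 0) ∧ (orderOf x = 2 → Nat.card {p : G × G // orderOf p.1 = 2 ∧ orderOf p.2 = 2 ∧ p.1 * p.2 = x} + 2 ≤ Nat.card (Subgroup.centralizer ({x} : Set G))) := by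
  classical
  have hinv : ∀ p : {p : G × G // orderOf p.1 = 2 ∧ orderOf p.2 = 2 ∧ p.1 * p.2 = x},
      p.1.1 * x * p.1.1⁻¹ = x⁻¹ := by
    rintro ⟨⟨u, v⟩, hu, hv, rfl⟩
    have hu2 := Helper2.sq_of_orderOf_two hu
    have hui := Helper2.inv_of_orderOf_two hu
    have hvi := Helper2.inv_of_orderOf_two hv
    show u * (u * v) * u⁻¹ = (u * v)⁻¹
    rw [← mul_assoc, hu2, one_mul, mul_inv_rev, hui, hvi]
  have hinj : Function.Injective (fun p : {p : G × G // orderOf p.1 = 2 ∧ orderOf p.2 = 2 ∧ p.1 * p.2 = x} =>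
      (⟨p.1.1, hinv p⟩ : {g : G // g * x * g⁻¹ = x⁻¹})) := by
    rintro ⟨⟨u, v⟩, hu, hv, huv⟩ ⟨⟨u', v'⟩, hu', hv', huv'⟩ h
    have h1 : u = u' := congrArg Subtype.val h
    subst h1
    have h2 : v = v' := by
      have : u * v = u * v' := by rw [huv, huv']
      exact mul_left_cancel this
    subst h2
    rfl
  have hle := Nat.card_le_card_of_injective _ hinj
  have h2 : ¬ IsConj x x⁻¹ → Nat.card {p : G × G // orderOf p.1 = 2 ∧ orderOf p.2 = 2 ∧ p.1 * p.2 = x} = 0 := by
    intro hnc
    have : IsEmpty {p : G × G // orderOf p.1 = 2 ∧ orderOf p.2 = 2 ∧ p.1 * p.2 = x} :=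
      ⟨fun p => hnc (isConj_iff.2 ⟨p.1.1, hinv p⟩)⟩
    exact Nat.card_of_isEmpty
  refine ⟨?_, h2, ?_⟩
  · by_cases hc : IsConj x x⁻¹
    · rw [← S0237.result x hc]
      exact hle
    · rw [h2 hc]
      exact Nat.zero_le _
  · intro hx
    have h3 := S0236.result x hx
    have hinj2 : Function.Injective (fun t : {t : G // orderOf t = 2 ∧ Commute t x} =>
        (⟨⟨t.1, by
          rw [Subgroup.mem_centralizer_iff]
          intro y hy
          rw [Set.mem_singleton_iff] at hy
          rw [hy]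
          exact (t.2.2).symm.eq⟩, by
          intro h
          have : t.1 = 1 := congrArg Subtype.val h
          exact Helper2.ne_one_of_orderOf_two t.2.1 this⟩ :
          {c : Subgroup.centralizer ({x} : Set G) // c ≠ 1})) := by
      rintro ⟨t, ht⟩ ⟨t', ht'⟩ h
      have : t = t' := congrArg (fun c : {c : Subgroup.centralizer ({x} : Set G) // c ≠ 1} => (c.1.1 : G)) h
      subst this
      rfl
    have hle2 := Nat.card_le_card_of_injective _ hinj2
    have h4 : Nat.card {c : Subgroup.centralizer ({x} : Set G) // c ≠ 1} + 1 =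
        Nat.card (Subgroup.centralizer ({x} : Set G)) := by
      rw [← Finite.card_option]
      exact Nat.card_congr (Equiv.optionSubtypeNe _)
    omega

end Cfsg.Agent.S0238
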