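import Cfsg.Statements.S3963
import Cfsg.Agent.Helper21.Schur
import Cfsg.Agent.Helper21.StemIndex2

set_option autoImplicit false
open Cfsg

namespace Cfsg.Agent.S3963

/-- For every `n ≥ 1` the dicyclic (generalized quaternion) group of order `4 n` has trivial Schur multiplier. -/
theorem result (n : ℕ) [NeZero n] : Cfsg.HasCyclicSchurMultiplier (QuaternionGroup n) 1 := by
  have h2n : NeZero (2 * n) := ⟨by have := NeZero.ne n; omega⟩
  apply Cfsg.Agent.Helper21.schur_one_of_ker_bot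
  intro Γ _ _ σ hσ
  obtain ⟨s, hs⟩ := hσ.1 (QuaternionGroup.xa 0)
  have hC : ∀ x : QuaternionGroup n, x ∈ Subgroup.zpowers (QuaternionGroup.a 1 : QuaternionGroup n) ↔
      ∃ i : ZMod (2 * n), x = QuaternionGroup.a i := by
    intro x
    constructor
    · rintro ⟨k, rfl⟩
      cases k with
      | ofNat m => exact ⟨(m : ZMod (2 * n)), by simp⟩
      | negSucc m =>
        refine ⟨-((m + 1 : ℕ) : ZMod (2 * n)), ?_⟩
        show QuaternionGroup.a 1 ^ (Int.negSucc m) = _
        rw [zpow_negSucc, QuaternionGroup.a_one_pow]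
        rfl
    · rintro ⟨i, rfl⟩
      refine ⟨((i.val : ℕ) : ℤ), ?_⟩
      show QuaternionGroup.a 1 ^ ((i.val : ℕ) : ℤ) = _
      rw [zpow_natCast, QuaternionGroup.a_one_pow, ZMod.natCast_zmod_val]
  have ht : ∀ c ∈ Subgroup.zpowers (QuaternionGroup.a 1 : QuaternionGroup n),
      QuaternionGroup.xa 0 * c * (QuaternionGroup.xa 0)⁻¹ ∈
        Subgroup.zpowers (QuaternionGroup.a 1 : QuaternionGroup n) := by
    intro c hc
    obtain ⟨i, rfl⟩ := (hC c).mp hc
    rw [hC]
    exact ⟨_, rfl⟩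
  have hcov : ∀ h : QuaternionGroup n, h ∈ Subgroup.zpowers (QuaternionGroup.a 1 : QuaternionGroup n) ∨
      h * (QuaternionGroup.xa 0)⁻¹ ∈ Subgroup.zpowers (QuaternionGroup.a 1 : QuaternionGroup n) := by
    rintro (i | i)
    · exact Or.inl ((hC _).mpr ⟨i, rfl⟩)
    · exact Or.inr ((hC _).mpr ⟨_, rfl⟩)
  rw [Subgroup.eq_bot_iff_forall]
  intro x hx
  obtain ⟨r, hr, rfl⟩ := Cfsg.Agent.Helper21.stem_ker_form σ hσ
    (Subgroup.zpowers (QuaternionGroup.a 1 : QuaternionGroup n)) (QuaternionGroup.xa 0) ht hcov s hs x hx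
  obtain ⟨i, hi⟩ := (hC _).mp hr
  have h1 : σ (s * r * s⁻¹ * r⁻¹) = 1 := MonoidHom.mem_ker.mp hx
  rw [map_mul, map_mul, map_mul, map_inv, map_inv, hs, hi] at h1
  have hnn : ((n : ZMod (2 * n)) + (n : ZMod (2 * n))) = 0 := by
    have : ((2 * n : ℕ) : ZMod (2 * n)) = 0 := ZMod.natCast_self (2 * n)
    rw [← this]
    push_cast
    ring
  have h2 : i + i = 0 := by
    have h3 : QuaternionGroup.xa 0 * QuaternionGroup.a i * (QuaternionGroup.xa 0)⁻¹ * (QuaternionGroup.a i)⁻¹
        = QuaternionGroup.a ((n : ZMod (2 * n)) + ((n : ZMod (2 * n)) + 0) - (0 + i) + -i) := rfl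
    rw [h3, QuaternionGroup.one_def] at h1
    have h4 := QuaternionGroup.a.inj h1
    have h5 : i + i = ((n : ZMod (2 * n)) + (n : ZMod (2 * n)))
        - ((n : ZMod (2 * n)) + ((n : ZMod (2 * n)) + 0) - (0 + i) + -i) := by ring
    rw [h5, h4, hnn, sub_zero]
  have hcen : ∀ k : Γ, σ k = 1 → ∀ g : Γ, g * k = k * g := by
    intro k hk g
    exact Subgroup.mem_center_iff.mp (hσ.2.1 (MonoidHom.mem_ker.mpr hk)) g
  have h6 : i = 0 ∨ i = (n : ZMod (2 * n)) := by
    have h7 : ((i.val + i.val : ℕ) : ZMod (2 * n)) = 0 := by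
      push_cast
      rw [ZMod.natCast_zmod_val]
      exact h2
    have h8 : 2 * n ∣ i.val + i.val := (ZMod.natCast_eq_zero_iff _ _).mp h7
    have h9 : i.val < 2 * n := ZMod.val_lt i
    obtain ⟨c, hc⟩ := h8
    have hc' : c < 2 := by
      by_contra hge
      have : 2 * n * 2 ≤ 2 * n * c := Nat.mul_le_mul_left _ (by omega)
      omega
    interval_cases c
    · left
      have : i.val = 0 := by omega
      exact (ZMod.val_eq_zero i).mp this
    · right
      have hv : i.val = n := by omega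
      have h10 := ZMod.natCast_zmod_val i
      rw [hv] at h10
      exact h10.symm
  rcases h6 with h6 | h6
  · have h7 := hcen r (by rw [hi, h6]; rfl) s
    calc s * r * s⁻¹ * r⁻¹ = (s * r) * s⁻¹ * r⁻¹ := by group
      _ = (r * s) * s⁻¹ * r⁻¹ := by rw [h7]
      _ = 1 := by group
  · have hk : σ (r * (s ^ 2)⁻¹) = 1 := by
      rw [map_mul, map_inv, map_pow, hs, hi, h6, QuaternionGroup.xa_sq]
      exact mul_inv_cancel _
    have h7 := hcen (r * (s ^ 2)⁻¹) hk s
    have h8 : s * r = r * s := by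
      calc s * r = (s * (r * (s ^ 2)⁻¹)) * s ^ 2 := by group
        _ = ((r * (s ^ 2)⁻¹) * s) * s ^ 2 := by rw [h7]
        _ = r * s := by group
    calc s * r * s⁻¹ * r⁻¹ = (s * r) * s⁻¹ * r⁻¹ := by group
      _ = (r * s) * s⁻¹ * r⁻¹ := by rw [h8]
      _ = 1 := by group

end Cfsg.Agent.S3963
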