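import Cfsg.Statements.S0019
import Mathlib
import Cfsg.Agent.Helper1.SZ
import Cfsg.Agent.Helper1.Fact

set_option autoImplicit false
open Cfsg

universe u

namespace Cfsg.Agent.S0019

theorem main (n : ℕ) : ∀ (G : Type u) [Group G] [Finite G], Nat.card G = n →
    ∀ (H₁ H₂ H₃ : Subgroup G), Group.IsSolvable H₁ → Group.IsSolvable H₂ → Group.IsSolvable H₃ →
    (∀ g : G, ∃ x ∈ H₁, ∃ y ∈ H₂, g = x * y) → (∀ g : G, ∃ x ∈ H₁, ∃ y ∈ H₃, g = x * y) →
    H₂.index.Coprime H₃.index → Group.IsSolvable G := by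
  induction n using Nat.strong_induction_on with
  | _ n ih =>
  intro G _ _ hn H₁ H₂ H₃ h₁ h₂ h₃ h12 h13 hcop
  haveI := h₁
  haveI := h₂
  haveI := h₃
  by_cases hbot : H₁ = ⊥
  · have htop : ∀ g : G, g ∈ H₂ := by
      intro g
      obtain ⟨x, hx, y, hy, rfl⟩ := h12 g
      rw [hbot, Subgroup.mem_bot] at hx
      rw [hx, one_mul]; exact hy
    exact Group.isSolvable_of_surjective (f := H₂.subtype) (fun g => ⟨⟨g, htop g⟩, rfl⟩)
  · haveI : Nontrivial H₁ := (Subgroup.nontrivial_iff_ne_bot H₁).mpr hbot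
    obtain ⟨p, hp, A, hAchar, hAne, -, hAp⟩ := Cfsg.Agent.Helper1.exists_char_elemAbelian H₁
    obtain ⟨N, hN⟩ : ∃ N : Subgroup G, N = A.map H₁.subtype := ⟨_, rfl⟩
    have hNp : IsPGroup p N := by
      rintro ⟨n, hn⟩
      rw [hN] at hn
      obtain ⟨a, ha, rfl⟩ := Subgroup.mem_map.mp hn
      have h1 : ((a : H₁) : G) ^ p = 1 := by
        rw [← Subgroup.coe_pow, hAp a ha, Subgroup.coe_one]
      refine ⟨1, Subtype.ext ?_⟩
      simpa using h1
    have hnorm : ∀ x ∈ H₁, ∀ n ∈ N, x * n * x⁻¹ ∈ N := by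
      intro x hx n hn
      rw [hN] at hn ⊢
      obtain ⟨a, ha, rfl⟩ := Subgroup.mem_map.mp hn
      haveI : A.Normal := inferInstance
      exact Subgroup.mem_map.mpr ⟨⟨x, hx⟩ * a * ⟨x, hx⟩⁻¹,
        Subgroup.Normal.conj_mem inferInstance a ha ⟨x, hx⟩, rfl⟩
    have hNne : N ≠ ⊥ := by
      intro h0
      apply hAne
      rw [eq_bot_iff]
      intro a ha
      have h1 : (a : G) ∈ N := by rw [hN]; exact Subgroup.mem_map.mpr ⟨a, ha, rfl⟩
      rw [h0, Subgroup.mem_bot] at h1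
      rw [Subgroup.mem_bot]
      exact Subtype.ext h1
    have key : ∃ M : Subgroup G, M.Normal ∧ M ≠ ⊥ ∧ Group.IsSolvable M := by
      have hM : ∀ K : Subgroup G, Group.IsSolvable K →
          (∀ g : G, ∃ x ∈ H₁, ∃ y ∈ K, g = x * y) → ¬ p ∣ K.index →
          ∃ M : Subgroup G, M.Normal ∧ M ≠ ⊥ ∧ Group.IsSolvable M := by
        intro K hKs hHK hpK
        haveI := hKs
        have hle := Cfsg.Agent.Helper1.normalClosure_le_of_factor H₁ K N hHK hnorm p hp hNp hpK
        refine ⟨Subgroup.normalClosure (N : Set G), Subgroup.normalClosure_normal, ?_, ?_⟩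
        · intro h0
          apply hNne
          rw [eq_bot_iff, ← h0]
          exact Subgroup.le_normalClosure
        · exact Group.isSolvable_of_isSolvable_injective (Subgroup.inclusion_injective hle)
      by_cases hp2 : p ∣ H₂.index
      · have hp3 : ¬ p ∣ H₃.index := by
          intro hp3
          exact hp.one_lt.ne' (Nat.eq_one_of_dvd_coprimes hcop hp2 hp3)
        exact hM H₃ h₃ h13 hp3
      · exact hM H₂ h₂ h12 hp2
    obtain ⟨M, hMn, hMne, hMs⟩ := key
    haveI := hMn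
    have hlt : Nat.card (G ⧸ M) < n := hn ▸ Cfsg.Agent.Helper1.card_quotient_lt_of_ne_bot M hMne
    have hmap : ∀ K : Subgroup G, Group.IsSolvable K →
        Group.IsSolvable (K.map (QuotientGroup.mk' M)) := by
      intro K hK
      haveI := hK
      exact Group.isSolvable_of_surjective (f := (QuotientGroup.mk' M).subgroupMap K)
        (MonoidHom.subgroupMap_surjective _ _)
    have hfac : ∀ K : Subgroup G, (∀ g : G, ∃ x ∈ H₁, ∃ y ∈ K, g = x * y) →
        ∀ g : G ⧸ M, ∃ x ∈ H₁.map (QuotientGroup.mk' M), ∃ y ∈ K.map (QuotientGroup.mk' M),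
          g = x * y := by
      intro K hK g
      obtain ⟨g, rfl⟩ := QuotientGroup.mk'_surjective M g
      obtain ⟨x, hx, y, hy, rfl⟩ := hK g
      exact ⟨_, Subgroup.mem_map_of_mem _ hx, _, Subgroup.mem_map_of_mem _ hy, map_mul _ _ _⟩
    have hQ : Group.IsSolvable (G ⧸ M) := by
      refine ih _ hlt (G ⧸ M) rfl (H₁.map (QuotientGroup.mk' M)) (H₂.map (QuotientGroup.mk' M))
        (H₃.map (QuotientGroup.mk' M)) (hmap _ h₁) (hmap _ h₂) (hmap _ h₃) (hfac _ h12)
        (hfac _ h13) ?_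
      exact Nat.Coprime.coprime_dvd_left
        (Subgroup.index_map_dvd H₂ (QuotientGroup.mk'_surjective M))
        (Nat.Coprime.coprime_dvd_right
          (Subgroup.index_map_dvd H₃ (QuotientGroup.mk'_surjective M)) hcop)
    exact (Group.isSolvable_iff_subgroup_quotient M).mpr ⟨hMs, hQ⟩

/-- A finite group that factorises as H₁H₂ and as H₁H₃ with all three subgroups solvable and the indices of H₂ and H₃ coprime is solvable. -/
theorem result {G : Type*} [Group G] [Finite G] (H₁ H₂ H₃ : Subgroup G)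
    (h₁ : Group.IsSolvable H₁) (h₂ : Group.IsSolvable H₂) (h₃ : Group.IsSolvable H₃)
    (h12 : ∀ g : G, ∃ x ∈ H₁, ∃ y ∈ H₂, g = x * y) (h13 : ∀ g : G, ∃ x ∈ H₁, ∃ y ∈ H₃, g = x * y)
    (hcop : H₂.index.Coprime H₃.index) : Group.IsSolvable G := by
  exact main _ G rfl H₁ H₂ H₃ h₁ h₂ h₃ h12 h13 hcop

end Cfsg.Agent.S0019
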