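import Cfsg.Statements.S0006
import Mathlib
import Cfsg.Agent.Helper1.Fact
import Cfsg.Agent.S0019
import Cfsg.Agent.S0144

set_option autoImplicit false
open Cfsg

universe u

namespace Cfsg.Agent.S0006

theorem main (n : ℕ) : ∀ (G : Type u) [Group G] [Finite G], Nat.card G = n →
    (∀ p : ℕ, p.Prime → ∃ H : Subgroup G, H.index = p ^ (Nat.card G).factorization p) →
    Group.IsSolvable G := by
  induction n using Nat.strong_induction_on with
  | _ n ih =>
  intro G _ _ hn h
  have hn0 : Nat.card G ≠ 0 := Nat.card_pos.ne'
  have hprod := Nat.prod_factorization_pow_eq_self hn0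
  rw [Finsupp.prod, Nat.support_factorization] at hprod
  by_cases h3 : 2 < (Nat.card G).primeFactors.card
  · obtain ⟨p₁, p₂, p₃, hp₁, hp₂, hp₃, h12, h13, h23⟩ := Finset.two_lt_card_iff.mp h3
    have hsolv : ∀ p ∈ (Nat.card G).primeFactors, ∀ H : Subgroup G,
        H.index = p ^ (Nat.card G).factorization p → Group.IsSolvable H := by
      intro p hp H hH
      have hpp : p.Prime := Nat.prime_of_mem_primeFactors hp
      have hpd : p ∣ Nat.card G := Nat.dvd_of_mem_primeFactors hp
      have hcardH : Nat.card G = Nat.card H * p ^ (Nat.card G).factorization p := by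
        rw [← hH, Subgroup.card_mul_index]
      have hH0 : Nat.card H ≠ 0 := Nat.card_pos.ne'
      have hlt : Nat.card H < n := by
        have h1 : 1 < p ^ (Nat.card G).factorization p :=
          Nat.one_lt_pow (hpp.factorization_pos_of_dvd hn0 hpd).ne' hpp.one_lt
        have h2 : 0 < Nat.card H := Nat.card_pos
        rw [← hn, hcardH]
        exact lt_mul_of_one_lt_right h2 h1
      refine ih _ hlt H rfl ?_
      intro r hr
      by_cases hrp : r = p
      · refine ⟨⊤, ?_⟩
        rw [Subgroup.index_top, hrp]
        have h2 : (Nat.card G).factorization p =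
            (Nat.card H * p ^ (Nat.card G).factorization p).factorization p :=
          congrArg (fun m : ℕ => m.factorization p) hcardH
        rw [Nat.factorization_mul hH0 (pow_ne_zero _ hpp.ne_zero), Finsupp.add_apply,
          Nat.factorization_pow, Finsupp.smul_apply, hpp.factorization_self, smul_eq_mul,
          mul_one] at h2
        have h5 : (Nat.card H).factorization p = 0 := by omega
        rw [h5, pow_zero]
      · obtain ⟨K, hK⟩ := h r hr
        refine ⟨K.subgroupOf H, ?_⟩
        have hcop : H.index.Coprime K.index := by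
          rw [hH, hK]
          exact Nat.Coprime.pow _ _ ((Nat.coprime_primes hpp hr).mpr (fun e => hrp e.symm))
        have h1 : (K.subgroupOf H).index = K.index :=
          Cfsg.Agent.Helper1.relIndex_of_coprime H K hcop
        rw [h1, hK]
        congr 1
        have h2 : (Nat.card G).factorization r =
            (Nat.card H * p ^ (Nat.card G).factorization p).factorization r :=
          congrArg (fun m : ℕ => m.factorization r) hcardH
        rw [Nat.factorization_mul hH0 (pow_ne_zero _ hpp.ne_zero), Finsupp.add_apply,
          Nat.factorization_pow, Finsupp.smul_apply, hpp.factorization, Finsupp.single_apply,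
          if_neg (fun e => hrp e.symm), smul_zero, add_zero] at h2
        exact h2
    have hpp₁ := Nat.prime_of_mem_primeFactors hp₁
    have hpp₂ := Nat.prime_of_mem_primeFactors hp₂
    have hpp₃ := Nat.prime_of_mem_primeFactors hp₃
    obtain ⟨K₁, hK₁⟩ := h p₁ hpp₁
    obtain ⟨K₂, hK₂⟩ := h p₂ hpp₂
    obtain ⟨K₃, hK₃⟩ := h p₃ hpp₃
    have hc12 : K₁.index.Coprime K₂.index := by
      rw [hK₁, hK₂]
      exact Nat.Coprime.pow _ _ ((Nat.coprime_primes hpp₁ hpp₂).mpr h12)
    have hc13 : K₁.index.Coprime K₃.index := by
      rw [hK₁, hK₃]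
      exact Nat.Coprime.pow _ _ ((Nat.coprime_primes hpp₁ hpp₃).mpr h13)
    have hc23 : K₂.index.Coprime K₃.index := by
      rw [hK₂, hK₃]
      exact Nat.Coprime.pow _ _ ((Nat.coprime_primes hpp₂ hpp₃).mpr h23)
    exact Cfsg.Agent.S0019.result K₁ K₂ K₃ (hsolv p₁ hp₁ K₁ hK₁) (hsolv p₂ hp₂ K₂ hK₂)
      (hsolv p₃ hp₃ K₃ hK₃) (Cfsg.Agent.Helper1.mul_eq_univ_of_coprime K₁ K₂ hc12)
      (Cfsg.Agent.Helper1.mul_eq_univ_of_coprime K₁ K₃ hc13) hc23
  · rcases Nat.lt_or_ge (Nat.card G).primeFactors.card 2 with hlt | hge
    · rcases Nat.lt_or_ge (Nat.card G).primeFactors.card 1 with hlt1 | hge1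
      · have h0 : (Nat.card G).primeFactors = ∅ := Finset.card_eq_zero.mp (by omega)
        rw [h0, Finset.prod_empty] at hprod
        exact Cfsg.Agent.S0144.result 2 3 0 0 Nat.prime_two Nat.prime_three
          (by rw [← hprod]; norm_num)
      · obtain ⟨p, hp⟩ := Finset.card_eq_one.mp
          (by omega : (Nat.card G).primeFactors.card = 1)
        have hpp : p.Prime :=
          Nat.prime_of_mem_primeFactors (by rw [hp]; exact Finset.mem_singleton_self p)
        rw [hp, Finset.prod_singleton] at hprod
        exact Cfsg.Agent.S0144.result p 2 ((Nat.card G).factorization p) 0 hpp Nat.prime_two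
          (by rw [pow_zero, mul_one]; exact hprod.symm)
    · obtain ⟨p, q, hpq, hpqs⟩ := Finset.card_eq_two.mp
        (by omega : (Nat.card G).primeFactors.card = 2)
      have hpp : p.Prime := Nat.prime_of_mem_primeFactors (by rw [hpqs]; simp)
      have hqp : q.Prime := Nat.prime_of_mem_primeFactors (by rw [hpqs]; simp)
      rw [hpqs, Finset.prod_pair hpq] at hprod
      exact Cfsg.Agent.S0144.result p q _ _ hpp hqp hprod.symm

/-- Converse of Hall's Theorem: if for every prime p a finite group has a subgroup of index equal to the p-part of the group order (a Hall p-complement), then the group is solvable. -/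
theorem result {G : Type*} [Group G] [Finite G]
    (h : ∀ p : ℕ, p.Prime → ∃ H : Subgroup G, H.index = p ^ (Nat.card G).factorization p) :
    Group.IsSolvable G := by
  exact main _ G rfl h

end Cfsg.Agent.S0006
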