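import Cfsg.Statements.S0865
import Cfsg.Agent.Helper6.LinExt
import Cfsg.Agent.S0864

set_option autoImplicit false
open Cfsg

namespace Cfsg.Agent.S0865

open Cfsg.Agent Cfsg.Agent.Helper6 in
/-- Let N be a normal subgroup of the finite group G and λ a character of N of degree 1, invariant under conjugation by G, whose order (under pointwise multiplication) is coprime to the index of N. Then there is a character μ of G of degree 1 restricting to λ with the same order as λ, and μ is the only degree-1 character of G restricting to λ whose order is coprime to the index of N. -/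
theorem result {G : Type*} [Group G] [Finite G] (N : Subgroup G) [hN : N.Normal] (lam : N → ℂ) (hlam : Cfsg.IsCharacter N lam ∧ lam 1 = 1) (hinv : ∀ (g : G) (n : N), lam ⟨g * n * g⁻¹, hN.conj_mem (n : G) n.2 g⟩ = lam n) (hcop : Nat.Coprime N.index (orderOf lam)) : ∃ μ : G → ℂ, (Cfsg.IsCharacter G μ ∧ μ 1 = 1 ∧ (∀ n : N, μ n = lam n) ∧ orderOf μ = orderOf lam) ∧ ∀ μ' : G → ℂ, Cfsg.IsCharacter G μ' ∧ μ' 1 = 1 → (∀ n : N, μ' n = lam n) → Nat.Coprime N.index (orderOf μ') → μ' = μ := by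
  classical
  have := Fintype.ofFinite G
  obtain ⟨hlamc, hlam1⟩ := hlam
  have hpowN : ∀ n : N, lam n ^ Nat.card N = 1 := fun n => by
    rw [← Helper24.linear_char_pow hlamc hlam1, pow_card_eq_one', hlam1]
  have hfin : lam ^ Nat.card N = 1 := funext fun n => by
    rw [Pi.pow_apply, hpowN, Pi.one_apply]
  have hmpos : 0 < orderOf lam :=
    orderOf_pos_iff.mpr (isOfFinOrder_iff_pow_eq_one.mpr ⟨Nat.card N, Nat.card_pos, hfin⟩)
  have hm1 : ∀ n : N, lam n ^ orderOf lam = 1 := fun n => by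
    have := congrFun (pow_orderOf_eq_one lam) n
    rwa [Pi.pow_apply, Pi.one_apply] at this
  -- some extension
  obtain ⟨μ₀, hμ₀c, hμ₀1, hμ₀N⟩ := Cfsg.Agent.S0864.result N lam ⟨hlamc, hlam1⟩ hinv (by
    intro p hp hpm
    refine ⟨N, le_refl N, lam, Nat.Coprime.coprime_dvd_right hpm hcop, ⟨0, ?_⟩, hlamc, hlam1,
      fun n => rfl⟩
    rw [Subgroup.relIndex_self, pow_zero])
  have hμ₀pow : ∀ (g : G) (j : ℕ), μ₀ (g ^ j) = μ₀ g ^ j :=
    fun g j => Helper24.linear_char_pow hμ₀c hμ₀1 g j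
  have hμ₀mk : ∀ g : G, μ₀ g ^ (N.index * orderOf lam) = 1 := by
    intro g
    rw [pow_mul, ← hμ₀pow]
    have h1 := hμ₀N ⟨g ^ N.index, N.pow_index_mem g⟩
    rw [show ((⟨g ^ N.index, N.pow_index_mem g⟩ : N) : G) = g ^ N.index from rfl] at h1
    rw [h1, hm1]
  -- the Chinese remainder exponent
  obtain ⟨s, hs1, hs0⟩ := Nat.chineseRemainder hcop.symm 1 0
  have hks : N.index ∣ s := (Nat.modEq_zero_iff_dvd).mp hs0
  have hpowchar : ∀ j : ℕ, IsCharacter G (μ₀ ^ j) := by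
    intro j
    induction j with
    | zero =>
      rw [pow_zero]
      exact Helper24.isCharacter_of_irr Helper2.isIrrCharacter_one_fun
    | succ j ih =>
      rw [pow_succ]
      exact Helper2.IsCharacter.mul ih hμ₀c
  have hμN : ∀ n : N, (μ₀ ^ s) n = lam n := by
    intro n
    rw [Pi.pow_apply, hμ₀N, pow_eq_pow_mod s (hm1 n), hs1, ← pow_eq_pow_mod 1 (hm1 n), pow_one]
  have hμm : (μ₀ ^ s) ^ orderOf lam = 1 := by
    funext g
    obtain ⟨j, hj⟩ := hks
    rw [Pi.pow_apply, Pi.pow_apply, Pi.one_apply, ← pow_mul, hj, mul_right_comm, pow_mul, hμ₀mk,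
      one_pow]
  have hord : orderOf (μ₀ ^ s) = orderOf lam := by
    apply Nat.dvd_antisymm (orderOf_dvd_of_pow_eq_one hμm)
    apply orderOf_dvd_of_pow_eq_one
    funext n
    have h1 := congrFun (pow_orderOf_eq_one (μ₀ ^ s)) (n : G)
    rw [Pi.pow_apply, hμN, Pi.one_apply] at h1
    rw [Pi.pow_apply, h1, Pi.one_apply]
  refine ⟨μ₀ ^ s, ⟨hpowchar s, by rw [Pi.pow_apply, hμ₀1, one_pow], hμN, hord⟩, ?_⟩
  rintro μ' ⟨hμ'c, hμ'1⟩ hμ'N hμ'cop
  funext g
  have hμc : IsCharacter G (μ₀ ^ s) := hpowchar s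
  have hμ1 : (μ₀ ^ s) 1 = 1 := by rw [Pi.pow_apply, hμ₀1, one_pow]
  have hb0 : (μ₀ ^ s) g ≠ 0 := by
    intro h0
    have h1 := Helper24.linear_char_norm hμc hμ1 g
    rw [h0, norm_zero] at h1
    exact zero_ne_one h1
  have hk : (μ' g * ((μ₀ ^ s) g)⁻¹) ^ N.index = 1 := by
    rw [mul_pow, inv_pow, ← Helper24.linear_char_pow hμ'c hμ'1, ← Helper24.linear_char_pow hμc hμ1]
    have h1 := hμ'N ⟨g ^ N.index, N.pow_index_mem g⟩
    have h2 := hμN ⟨g ^ N.index, N.pow_index_mem g⟩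
    rw [show ((⟨g ^ N.index, N.pow_index_mem g⟩ : N) : G) = g ^ N.index from rfl] at h1 h2
    rw [h1, h2]
    have hl0 : lam ⟨g ^ N.index, N.pow_index_mem g⟩ ≠ 0 := by
      intro h0
      have h3 := Helper24.linear_char_norm hlamc hlam1 ⟨g ^ N.index, N.pow_index_mem g⟩
      rw [h0, norm_zero] at h3
      exact zero_ne_one h3
    exact mul_inv_cancel₀ hl0
  have hL : (μ' g * ((μ₀ ^ s) g)⁻¹) ^ (orderOf μ' * orderOf lam) = 1 := by
    rw [mul_pow, inv_pow, pow_mul, mul_comm (orderOf μ') (orderOf lam), pow_mul]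
    have h1 := congrFun (pow_orderOf_eq_one μ') g
    rw [Pi.pow_apply, Pi.one_apply] at h1
    have h2 := congrFun hμm g
    rw [Pi.pow_apply, Pi.one_apply] at h2
    rw [h1, h2, one_pow, one_pow, inv_one, mul_one]
  have hgcd : (μ' g * ((μ₀ ^ s) g)⁻¹) ^ (N.index.gcd (orderOf μ' * orderOf lam)) = 1 :=
    pow_gcd_eq_one.mpr ⟨hk, hL⟩
  have hcop' : N.index.gcd (orderOf μ' * orderOf lam) = 1 :=
    Nat.Coprime.mul_right hμ'cop hcop
  rw [hcop', pow_one] at hgcd
  exact eq_of_mul_inv_eq_one hgcd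

end Cfsg.Agent.S0865
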