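import Cfsg.Statements.S0867
import Cfsg.Agent.Helper6.GallagherExt
import Cfsg.Agent.S0865
import Cfsg.Agent.S0866
import Cfsg.Agent.S0862

set_option autoImplicit false
open Cfsg

namespace Cfsg.Agent.S0867

open Cfsg.Agent Cfsg.Agent.Helper6 in
/-- Let N be a normal subgroup of the finite group G and ϑ an irreducible character of N of degree d, invariant under conjugation by G, such that the index of N is coprime to the product of d and the determinantal order of ϑ. Then there is an irreducible character χ of G restricting to ϑ whose determinantal order equals that of ϑ, and χ is the only irreducible character of G restricting to ϑ whose determinantal order is coprime to the index of N. -/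
theorem result {G : Type*} [Group G] [Finite G] (N : Subgroup G) [hN : N.Normal] (ϑ : N → ℂ) (hϑ : Cfsg.IsIrrCharacter N ϑ) (hinv : ∀ (g : G) (n : N), ϑ ⟨g * n * g⁻¹, hN.conj_mem (n : G) n.2 g⟩ = ϑ n) (d : ℕ) (hd : ϑ 1 = d) (hcop : Nat.Coprime N.index (Cfsg.detOrder ϑ * d)) : ∃ χ : G → ℂ, (Cfsg.IsIrrCharacter G χ ∧ (∀ n : N, χ n = ϑ n) ∧ Cfsg.detOrder χ = Cfsg.detOrder ϑ) ∧ ∀ χ' : G → ℂ, Cfsg.IsIrrCharacter G χ' → (∀ n : N, χ' n = ϑ n) → Nat.Coprime N.index (Cfsg.detOrder χ') → χ' = χ := by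
  classical
  have := Fintype.ofFinite G
  haveI : Fintype N := Fintype.ofFinite _
  have hϑc := Helper24.isCharacter_of_irr hϑ
  obtain ⟨hlc, hl1⟩ := detChar_isLinear hϑc
  have hcop1 : Nat.Coprime N.index (orderOf (detChar ϑ)) :=
    Nat.Coprime.coprime_dvd_right (Dvd.intro _ rfl) hcop
  have hcop2 : Nat.Coprime N.index d :=
    Nat.Coprime.coprime_dvd_right (Dvd.intro_left _ rfl) hcop
  have hlinv : ∀ (g : G) (n : N),
      detChar ϑ ⟨g * n * g⁻¹, hN.conj_mem (n : G) n.2 g⟩ = detChar ϑ n := by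
    intro g n
    have h : detChar (ϑ ∘ ⇑(MulAut.conjNormal g : N ≃* N)) =
        detChar ϑ ∘ ⇑(MulAut.conjNormal g : N ≃* N) :=
      detChar_comp (MulAut.conjNormal g : N ≃* N).toMonoidHom hϑc
    have h2 : conjFun N g ϑ = ϑ := funext fun n' => hinv g n'
    rw [← conjFun_eq_comp, h2, ← conjFun_eq_comp] at h
    have h3 := congrFun h n
    rw [conjFun_apply] at h3
    exact h3.symm
  obtain ⟨μ, ⟨hμc, hμ1, hμN, hμord⟩, hμuniq⟩ :=
    Cfsg.Agent.S0865.result N (detChar ϑ) ⟨hlc, hl1⟩ hlinv hcop1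
  have hext := (Cfsg.Agent.S0866.result N ϑ hϑ hinv d hd hcop2).mpr ⟨μ, hμc, hμ1, hμN⟩
  obtain ⟨χ, ⟨hχ, hχN, hχdet⟩, hχuniq⟩ :=
    Cfsg.Agent.S0862.result N ϑ hϑ d hd hcop2 hext μ ⟨hμc, hμ1⟩ hμN
  refine ⟨χ, ⟨hχ, hχN, ?_⟩, ?_⟩
  · show orderOf (detChar χ) = orderOf (detChar ϑ)
    rw [hχdet, hμord]
  · intro χ' hχ' hχ'N hcop'
    apply hχuniq
    refine ⟨hχ', hχ'N, ?_⟩
    have hχ'c := Helper24.isCharacter_of_irr hχ'
    apply hμuniq (detChar χ') (detChar_isLinear hχ'c)
    · intro n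
      have h3 := detChar_restrict N hχ'c
      have h4 : (fun n : N => χ' n) = ϑ := funext hχ'N
      rw [h4] at h3
      exact (congrFun h3 n).symm
    · exact hcop'

end Cfsg.Agent.S0867
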