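import Cfsg.Statements.S0080
import Cfsg.Agent.Lead.AbelianSylow

set_option autoImplicit false
open Cfsg

namespace Cfsg.Agent.S0080

/-- When the index of H is prime to the order of H/H', the focal subgroup of H is G' ∩ H, and H/(G' ∩ H) has a normal complement. -/
theorem result {G : Type*} [Group G] [Finite G] (H : Subgroup G) (h : Nat.Coprime H.index (⁅H, H⁆.relIndex H)) : Subgroup.focalSubgroup H = commutator G ⊓ H ∧ ∃ N : Subgroup G, N.Normal ∧ N ⊓ H = commutator G ⊓ H ∧ N ⊔ H = ⊤ := by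
  have hdvd : Nat.card (H ⧸ H.focalSubgroupOf) ∣ ⁅H, H⁆.relIndex H := by
    have h1 := Subgroup.relIndex_mul_relIndex (H := ⁅H, H⁆) (K := H.focalSubgroup) (L := H)
      H.commutator_le_focalSubgroup H.focalSubgroup_le
    have h2 : Nat.card (H ⧸ H.focalSubgroupOf) = H.focalSubgroup.relIndex H := by
      rw [← Subgroup.index_eq_card]; rfl
    rw [h2]; exact Dvd.intro_left _ h1
  obtain ⟨ha, hb, hc⟩ := Cfsg.Agent.Lead.focal_general H (Nat.Coprime.coprime_dvd_right hdvd h)
  exact ⟨hc.symm, H.transferFocal.ker, inferInstance, by rw [ha, hc], hb⟩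

end Cfsg.Agent.S0080
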