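import Cfsg.Statements.S0622
-- import your own Cfsg.Agent.* helpers here
import Cfsg.Agent.Helper11.StableNC

set_option autoImplicit false
universe u
open Cfsg

namespace Cfsg.Agent.S0622

/-- Basic properties of the stable normal closure W(S) of Ω₁(Z(S)) in a finite p-group: characteristic, squeezed between Ω₁(Z(S)) and Ω₁(Z(J(S))), nontrivial for S ≠ 1, and transported by group isomorphisms. -/
theorem result {S : Type u} [Group S] [Finite S] {p : ℕ} [Fact p.Prime] (hS : IsPGroup p S) : (Cfsg.stableNormalClosure p S).Characteristic ∧ Cfsg.omegaOne p (Subgroup.center S) ≤ Cfsg.stableNormalClosure p S ∧ Cfsg.stableNormalClosure p S ≤ Cfsg.omegaCenterThompson p S ∧ (Nontrivial S → Cfsg.stableNormalClosure p S ≠ ⊥) ∧ ∀ (S' : Type u) [Group S'] (η : S ≃* S'), (Cfsg.stableNormalClosure p S).map η.toMonoidHom = Cfsg.stableNormalClosure p S' := by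
  have h5 : ∀ (S' : Type u) [Group S'] (η : S ≃* S'),
      (Cfsg.stableNormalClosure p S).map η.toMonoidHom = Cfsg.stableNormalClosure p S' :=
    fun S' _ η => Cfsg.Agent.Helper11.snc_map_equiv η
  have h2 : Cfsg.omegaOne p (Subgroup.center S) ≤ Cfsg.stableNormalClosure p S := by
    unfold Cfsg.stableNormalClosure
    apply le_sInf
    intro W hW
    exact hW.1
  refine ⟨?_, h2, ?_, ?_, h5⟩
  · rw [Subgroup.characteristic_iff_map_eq]
    intro ϕ
    exact h5 S ϕ
  · unfold Cfsg.stableNormalClosure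
    apply sInf_le
    refine ⟨Cfsg.Agent.Helper11.omegaZ_le_omegaCT, ?_⟩
    intro H _ τ hτ
    exact Cfsg.Agent.Helper11.omegaCT_map_normal τ hτ.1 hτ.2.2.2.2.1
  · intro hnt hbot
    haveI := hnt
    apply Cfsg.Agent.Helper11.omegaZ_ne_bot hS
    have h2' := h2
    rw [hbot] at h2'
    exact le_bot_iff.1 h2'

end Cfsg.Agent.S0622
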