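import Cfsg.Statements.S0245
-- import your own Cfsg.Agent.* helpers here
import Mathlib
import Cfsg.Agent.Helper15.SpCard

set_option autoImplicit false
open Cfsg

namespace Cfsg.Agent.S0245

/-- Order of the finite symplectic group: |Sp_{2m}(q)| = q^(m^2) * prod_{i=1}^{m} (q^(2i) - 1). -/
theorem result {F : Type*} [Field F] [Fintype F] {q : ℕ} (hF : Fintype.card F = q) (m : ℕ) : Nat.card (Matrix.symplecticGroup (Fin m) F) = q ^ (m ^ 2) * ∏ i ∈ Finset.range m, (q ^ (2 * (i + 1)) - 1) := by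
  rw [Cfsg.Agent.Helper15.card_symplecticGroup hF m,
    Fin.prod_univ_eq_prod_range (fun i => q ^ (2 * (i + 1)) - 1) m]

end Cfsg.Agent.S0245
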