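import Cfsg.Statements.S0246
-- import your own Cfsg.Agent.* helpers here
import Mathlib
import Cfsg.Agent.Helper5.SympGen
import Cfsg.Agent.Helper5.Scalar

set_option autoImplicit false
open Cfsg

namespace Cfsg.Agent.S0246

open Matrix in
theorem center_scalar {F : Type*} [Field F] (m : ℕ) (g : Matrix.symplecticGroup (Fin m) F)
    (hg : g ∈ Subgroup.center (Matrix.symplecticGroup (Fin m) F)) :
    ∃ a : F, (g : Matrix (Fin m ⊕ Fin m) (Fin m ⊕ Fin m) F) = a • 1 := by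
  apply Cfsg.Agent.Helper5.scalar_of_eigen
  intro v
  by_cases hv : v = 0
  · exact ⟨0, by rw [hv, Matrix.mulVec_zero, smul_zero]⟩
  · obtain ⟨x, hx⟩ : ∃ x, Cfsg.Agent.Helper5.sB m x v ≠ 0 := by
      by_contra hcon
      push Not at hcon
      exact hv ((Cfsg.Agent.Helper5.sB_nondeg m).2 v hcon)
    have hT : (⟨Cfsg.sympTransvection m v 1, Cfsg.Agent.Helper6.sympTransvection_mem m v 1⟩ :
        Matrix.symplecticGroup (Fin m) F) * g
        = g * ⟨Cfsg.sympTransvection m v 1, Cfsg.Agent.Helper6.sympTransvection_mem m v 1⟩ :=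
      Subgroup.mem_center_iff.1 hg _
    have hT' : Cfsg.sympTransvection m v 1 * (g : Matrix (Fin m ⊕ Fin m) (Fin m ⊕ Fin m) F)
        = (g : Matrix (Fin m ⊕ Fin m) (Fin m ⊕ Fin m) F) * Cfsg.sympTransvection m v 1 :=
      congrArg Subtype.val hT
    have h1 : (Cfsg.sympTransvection m v 1
        * (g : Matrix (Fin m ⊕ Fin m) (Fin m ⊕ Fin m) F)) *ᵥ x
        = ((g : Matrix (Fin m ⊕ Fin m) (Fin m ⊕ Fin m) F) * Cfsg.sympTransvection m v 1) *ᵥ x := by
      rw [hT']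
    rw [← Matrix.mulVec_mulVec, ← Matrix.mulVec_mulVec, Cfsg.Agent.Helper5.transv_mulVec,
      Cfsg.Agent.Helper5.transv_mulVec] at h1
    change (g : Matrix (Fin m ⊕ Fin m) (Fin m ⊕ Fin m) F) *ᵥ x
        + (1 * Cfsg.Agent.Helper5.sB m ((g : Matrix (Fin m ⊕ Fin m) (Fin m ⊕ Fin m) F) *ᵥ x) v) • v
      = (g : Matrix (Fin m ⊕ Fin m) (Fin m ⊕ Fin m) F) *ᵥ
        (x + (1 * Cfsg.Agent.Helper5.sB m x v) • v) at h1
    rw [Matrix.mulVec_add, Matrix.mulVec_smul, one_mul, one_mul] at h1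
    have h2 := add_left_cancel h1
    refine ⟨Cfsg.Agent.Helper5.sB m ((g : Matrix (Fin m ⊕ Fin m) (Fin m ⊕ Fin m) F) *ᵥ x) v
      / Cfsg.Agent.Helper5.sB m x v, ?_⟩
    rw [div_eq_inv_mul, ← smul_smul, h2, smul_smul, inv_mul_cancel₀ hx, one_smul]

open Matrix in
theorem scalar_sq {F : Type*} [Field F] (m : ℕ) (hm : 1 ≤ m) (a : F)
    (h : (a • (1 : Matrix (Fin m ⊕ Fin m) (Fin m ⊕ Fin m) F))
      ∈ Matrix.symplecticGroup (Fin m) F) : a * a = 1 := by
  rw [SymplecticGroup.mem_iff, Matrix.transpose_smul, Matrix.transpose_one, Matrix.smul_mul,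
    Matrix.one_mul, Matrix.mul_smul, Matrix.mul_one, smul_smul] at h
  have h3 := congrFun (congrFun h (Sum.inr ⟨0, hm⟩)) (Sum.inl ⟨0, hm⟩)
  rw [Matrix.smul_apply, Matrix.J, Matrix.fromBlocks_apply₂₁, Matrix.one_apply_eq, smul_eq_mul,
    mul_one] at h3
  exact h3

/-- The centre of `Sp` consists of `1` and `-1`. -/
theorem center_pm {F : Type*} [Field F] (m : ℕ) (hm : 1 ≤ m)
    (g : Matrix.symplecticGroup (Fin m) F)
    (hg : g ∈ Subgroup.center (Matrix.symplecticGroup (Fin m) F)) :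
    (g : Matrix (Fin m ⊕ Fin m) (Fin m ⊕ Fin m) F) = 1
      ∨ (g : Matrix (Fin m ⊕ Fin m) (Fin m ⊕ Fin m) F) = -1 := by
  obtain ⟨a, ha⟩ := center_scalar m g hg
  have ha2 : a * a = 1 := scalar_sq m hm a (by rw [← ha]; exact g.2)
  rcases mul_self_eq_one_iff.1 ha2 with h1 | h1
  · left
    rw [ha, h1, one_smul]
  · right
    rw [ha, h1, neg_smul, one_smul]

/-- The centre of Sp_{2m}(q), m at least 1, is {1, -1}: it has order gcd(2, q-1). -/
theorem result {F : Type*} [Field F] [Fintype F] {q : ℕ} (hF : Fintype.card F = q) (m : ℕ) (hm : 1 ≤ m) : Nat.card (Subgroup.center (Matrix.symplecticGroup (Fin m) F)) = Nat.gcd 2 (q - 1) := by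
  classical
  obtain ⟨z, hz⟩ : ∃ z : Matrix.symplecticGroup (Fin m) F,
      (z : Matrix (Fin m ⊕ Fin m) (Fin m ⊕ Fin m) F) = -1 :=
    ⟨⟨-1, SymplecticGroup.neg_mem (one_mem _)⟩, rfl⟩
  have hzc : z ∈ Subgroup.center (Matrix.symplecticGroup (Fin m) F) := by
    rw [Subgroup.mem_center_iff]
    intro g
    apply Subtype.ext
    show (g : Matrix (Fin m ⊕ Fin m) (Fin m ⊕ Fin m) F)
        * (z : Matrix (Fin m ⊕ Fin m) (Fin m ⊕ Fin m) F)
      = (z : Matrix (Fin m ⊕ Fin m) (Fin m ⊕ Fin m) F)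
        * (g : Matrix (Fin m ⊕ Fin m) (Fin m ⊕ Fin m) F)
    rw [hz, mul_neg, mul_one, neg_mul, one_mul]
  have hcenter : Subgroup.center (Matrix.symplecticGroup (Fin m) F) = Subgroup.zpowers z := by
    apply le_antisymm
    · intro g hg
      rcases center_pm m hm g hg with h1 | h1
      · have hg1 : g = 1 := Subtype.ext (by rw [h1]; rfl)
        rw [hg1]
        exact Subgroup.one_mem _
      · have hgz : g = z := Subtype.ext (by rw [h1, hz])
        rw [hgz]
        exact Subgroup.mem_zpowers z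
    · exact Subgroup.zpowers_le.2 hzc
  rw [hcenter, Nat.card_zpowers]
  have hz2 : z ^ 2 = 1 := by
    apply Subtype.ext
    rw [pow_two]
    show (z : Matrix (Fin m ⊕ Fin m) (Fin m ⊕ Fin m) F)
        * (z : Matrix (Fin m ⊕ Fin m) (Fin m ⊕ Fin m) F) = 1
    rw [hz, neg_mul_neg, mul_one]
  by_cases h2 : (2 : F) = 0
  · have hz1 : z = 1 := by
      apply Subtype.ext
      rw [hz]
      show (-1 : Matrix (Fin m ⊕ Fin m) (Fin m ⊕ Fin m) F) = 1
      have hF1 : (-1 : F) = 1 := by linear_combination (-1 : F) * h2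
      ext i j
      rw [Matrix.neg_apply, Matrix.one_apply]
      split_ifs
      · exact hF1
      · exact neg_zero
    rw [hz1, orderOf_one]
    have hc : CharP F 2 := CharTwo.of_one_ne_zero_of_two_eq_zero one_ne_zero h2
    obtain ⟨n, -, hn⟩ := FiniteField.card F 2
    rw [hF] at hn
    have hodd : Odd (q - 1) := by
      have h3 : q = 2 * 2 ^ ((n : ℕ) - 1) := by
        rw [hn, ← pow_succ']
        congr 1
        have := n.pos
        omega
      have h4 : 0 < 2 ^ ((n : ℕ) - 1) := Nat.pos_of_ne_zero (by positivity)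
      exact ⟨2 ^ ((n : ℕ) - 1) - 1, by omega⟩
    exact (Eq.symm (Nat.coprime_two_left.2 hodd : Nat.gcd 2 (q - 1) = 1))
  · have hz1 : z ≠ 1 := by
      intro h
      have h3 := congrArg Subtype.val h
      rw [hz] at h3
      have h4 := congrFun (congrFun h3 (Sum.inl ⟨0, hm⟩)) (Sum.inl ⟨0, hm⟩)
      change (-1 : Matrix (Fin m ⊕ Fin m) (Fin m ⊕ Fin m) F) (Sum.inl ⟨0, hm⟩) (Sum.inl ⟨0, hm⟩)
        = (1 : Matrix (Fin m ⊕ Fin m) (Fin m ⊕ Fin m) F) (Sum.inl ⟨0, hm⟩) (Sum.inl ⟨0, hm⟩) at h4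
      rw [Matrix.neg_apply, Matrix.one_apply_eq] at h4
      apply h2
      linear_combination (-1 : F) * h4
    have : Fact (Nat.Prime 2) := ⟨Nat.prime_two⟩
    rw [orderOf_eq_prime hz2 hz1]
    obtain ⟨p, hp⟩ := CharP.exists F
    have := hp
    obtain ⟨n, hpp, hn⟩ := FiniteField.card F p
    rw [hF] at hn
    have hp2 : p ≠ 2 := by
      rintro rfl
      apply h2
      have h5 := CharP.cast_eq_zero F 2
      exact_mod_cast h5
    have hpodd : Odd p := hpp.odd_of_ne_two hp2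
    have hqodd : Odd q := by
      rw [hn]
      exact hpodd.pow
    obtain ⟨k, hk⟩ := hqodd
    have h6 : 2 ∣ q - 1 := ⟨k, by omega⟩
    exact (Nat.gcd_eq_left h6).symm

end Cfsg.Agent.S0246
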