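import Cfsg.Statements.S0271
-- import your own Cfsg.Agent.* helpers here
import Mathlib
import Cfsg.Agent.Helper5.SympGen

set_option autoImplicit false
open Cfsg

namespace Cfsg.Agent.S0271

/-- Sp_{2m}(F) is transitive on non-zero vectors. -/
theorem result {F : Type*} [Field F] (m : ℕ) (v w : Fin m ⊕ Fin m → F) (hv : v ≠ 0) (hw : w ≠ 0) : ∃ g : Matrix.symplecticGroup (Fin m) F, (g : Matrix (Fin m ⊕ Fin m) (Fin m ⊕ Fin m) F).mulVec v = w := by
  classical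
  obtain ⟨g, hg, -, hgv⟩ := Cfsg.Agent.Helper5.core_gen (Cfsg.Agent.Helper5.sB m)
    (Cfsg.Agent.Helper5.sB_nondeg m) (Cfsg.Agent.Helper5.sB_alt m) (Cfsg.Agent.Helper5.IT m)
    (fun g₁ g₂ h1 h2 => Cfsg.Agent.Helper5.IT_trans m g₁ g₂ h1 h2)
    (fun c w => Cfsg.Agent.Helper5.IT_transv m c w) ⊥ v w (by simpa using hv) (by simpa using hw)
    (fun x hx => by
      rw [(Submodule.mem_bot F).1 hx]
      simp)
  obtain ⟨A, -, hA⟩ := hg
  exact ⟨A, by rw [hA v, hgv]⟩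

end Cfsg.Agent.S0271
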