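import Cfsg.Statements.S0269
-- import your own Cfsg.Agent.* helpers here
import Mathlib
import Cfsg.Agent.Helper5.SympGen
import Cfsg.Agent.Helper5.StabProd
import Cfsg.Agent.S0765
import Cfsg.Agent.S0271

set_option autoImplicit false
open Cfsg

namespace Cfsg.Agent.S0269

open Matrix in
theorem U_mem {F : Type*} [Field F] (m : ℕ) (B : Matrix (Fin m) (Fin m) F) (hB : Bᵀ = B) :
    (Matrix.fromBlocks 1 B 0 1 : Matrix (Fin m ⊕ Fin m) (Fin m ⊕ Fin m) F)
      ∈ Matrix.symplecticGroup (Fin m) F := by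
  rw [SymplecticGroup.mem_iff, Matrix.J, Matrix.fromBlocks_multiply, Matrix.fromBlocks_transpose,
    Matrix.fromBlocks_multiply]
  simp only [Matrix.transpose_zero, Matrix.transpose_one, mul_zero, zero_mul, add_zero, zero_add,
    mul_one, one_mul, mul_neg, neg_mul, hB, neg_zero, add_neg_cancel]

open Matrix in
theorem D_mem {F : Type*} [Field F] (m : ℕ) (X : GL (Fin m) F) :
    Matrix.fromBlocks (X : Matrix (Fin m) (Fin m) F) 0 0
      ((X⁻¹ : GL (Fin m) F) : Matrix (Fin m) (Fin m) F)ᵀ ∈ Matrix.symplecticGroup (Fin m) F := by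
  have hXi : (X : Matrix (Fin m) (Fin m) F)
      * ((X⁻¹ : GL (Fin m) F) : Matrix (Fin m) (Fin m) F) = 1 := by
    rw [← Units.val_mul, mul_inv_cancel, Units.val_one]
  rw [SymplecticGroup.mem_iff, Matrix.J, Matrix.fromBlocks_multiply,
    Matrix.fromBlocks_transpose, Matrix.fromBlocks_multiply]
  have hT : ((X⁻¹ : GL (Fin m) F) : Matrix (Fin m) (Fin m) F)ᵀ
      * (X : Matrix (Fin m) (Fin m) F)ᵀ = 1 := by
    rw [← Matrix.transpose_mul, hXi, Matrix.transpose_one]
  simp only [Matrix.transpose_zero, Matrix.transpose_transpose, mul_zero, zero_mul, add_zero,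
    zero_add, mul_one, mul_neg, neg_mul, hXi, hT, neg_zero]

open Matrix in
theorem DU_comm {F : Type*} [Field F] (m : ℕ) (X : GL (Fin m) F)
    (B : Matrix (Fin m) (Fin m) F) :
    Matrix.fromBlocks (X : Matrix (Fin m) (Fin m) F) 0 0
        ((X⁻¹ : GL (Fin m) F) : Matrix (Fin m) (Fin m) F)ᵀ * Matrix.fromBlocks 1 B 0 1
      = Matrix.fromBlocks 1 ((X : Matrix (Fin m) (Fin m) F) * B
          * (X : Matrix (Fin m) (Fin m) F)ᵀ) 0 1
        * Matrix.fromBlocks (X : Matrix (Fin m) (Fin m) F) 0 0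
          ((X⁻¹ : GL (Fin m) F) : Matrix (Fin m) (Fin m) F)ᵀ := by
  rw [Matrix.fromBlocks_multiply, Matrix.fromBlocks_multiply]
  have hT : (X : Matrix (Fin m) (Fin m) F)ᵀ
      * ((X⁻¹ : GL (Fin m) F) : Matrix (Fin m) (Fin m) F)ᵀ = 1 := by
    rw [← Matrix.transpose_mul, ← Units.val_mul, inv_mul_cancel, Units.val_one,
      Matrix.transpose_one]
  simp only [mul_zero, zero_mul, add_zero, zero_add, mul_one, one_mul, Matrix.mul_assoc, hT]

/-- `U(B)` is the matrix of an element of the commutator subgroup of `Sp`. -/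
def InC {F : Type*} [Field F] (m : ℕ) (B : Matrix (Fin m) (Fin m) F) : Prop :=
  ∃ x : Matrix.symplecticGroup (Fin m) F, x ∈ commutator (Matrix.symplecticGroup (Fin m) F) ∧
    (x : Matrix (Fin m ⊕ Fin m) (Fin m ⊕ Fin m) F) = Matrix.fromBlocks 1 B 0 1

open Matrix in
open scoped commutatorElement in
theorem InC_comm {F : Type*} [Field F] (m : ℕ) (X : GL (Fin m) F)
    (B : Matrix (Fin m) (Fin m) F) (hB : Bᵀ = B) :
    InC m ((X : Matrix (Fin m) (Fin m) F) * B * (X : Matrix (Fin m) (Fin m) F)ᵀ - B) := by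
  obtain ⟨d, hd⟩ : ∃ d : Matrix.symplecticGroup (Fin m) F,
      (d : Matrix (Fin m ⊕ Fin m) (Fin m ⊕ Fin m) F)
        = Matrix.fromBlocks (X : Matrix (Fin m) (Fin m) F) 0 0
          ((X⁻¹ : GL (Fin m) F) : Matrix (Fin m) (Fin m) F)ᵀ := ⟨⟨_, D_mem m X⟩, rfl⟩
  obtain ⟨u, hu⟩ : ∃ u : Matrix.symplecticGroup (Fin m) F,
      (u : Matrix (Fin m ⊕ Fin m) (Fin m ⊕ Fin m) F) = Matrix.fromBlocks 1 B 0 1 :=
    ⟨⟨_, U_mem m B hB⟩, rfl⟩
  refine ⟨⁅d, u⁆, Subgroup.commutator_mem_commutator (Subgroup.mem_top d) (Subgroup.mem_top u),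
    ?_⟩
  have hB' : ((X : Matrix (Fin m) (Fin m) F) * B * (X : Matrix (Fin m) (Fin m) F)ᵀ)ᵀ
      = (X : Matrix (Fin m) (Fin m) F) * B * (X : Matrix (Fin m) (Fin m) F)ᵀ := by
    rw [Matrix.transpose_mul, Matrix.transpose_mul, Matrix.transpose_transpose, hB,
      Matrix.mul_assoc]
  have hS : ((X : Matrix (Fin m) (Fin m) F) * B * (X : Matrix (Fin m) (Fin m) F)ᵀ - B)ᵀ
      = (X : Matrix (Fin m) (Fin m) F) * B * (X : Matrix (Fin m) (Fin m) F)ᵀ - B := by
    rw [Matrix.transpose_sub, hB', hB]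
  have key : (⟨_, U_mem m _ hS⟩ : Matrix.symplecticGroup (Fin m) F) = ⁅d, u⁆ := by
    rw [commutatorElement_def, eq_mul_inv_iff_mul_eq, eq_mul_inv_iff_mul_eq]
    apply Subtype.ext
    show Matrix.fromBlocks 1 ((X : Matrix (Fin m) (Fin m) F) * B
        * (X : Matrix (Fin m) (Fin m) F)ᵀ - B) 0 1
      * (u : Matrix (Fin m ⊕ Fin m) (Fin m ⊕ Fin m) F)
      * (d : Matrix (Fin m ⊕ Fin m) (Fin m ⊕ Fin m) F)
      = (d : Matrix (Fin m ⊕ Fin m) (Fin m ⊕ Fin m) F)
        * (u : Matrix (Fin m ⊕ Fin m) (Fin m ⊕ Fin m) F)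
    rw [hd, hu, DU_comm, Matrix.fromBlocks_multiply]
    simp
  rw [← key]

open Matrix in
theorem InC_sub {F : Type*} [Field F] (m : ℕ) (B₁ B₂ : Matrix (Fin m) (Fin m) F)
    (h₁ : InC m B₁) (h₂ : InC m B₂) : InC m (B₁ - B₂) := by
  obtain ⟨x₁, c₁, e₁⟩ := h₁
  obtain ⟨x₂, c₂, e₂⟩ := h₂
  refine ⟨x₁ * x₂⁻¹, Subgroup.mul_mem _ c₁ (Subgroup.inv_mem _ c₂), ?_⟩
  have h1 : (x₁ * x₂⁻¹) * x₂ = x₁ := inv_mul_cancel_right _ _
  have h2 : ((x₁ * x₂⁻¹ : Matrix.symplecticGroup (Fin m) F) :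
      Matrix (Fin m ⊕ Fin m) (Fin m ⊕ Fin m) F)
      * (x₂ : Matrix (Fin m ⊕ Fin m) (Fin m ⊕ Fin m) F)
      = (x₁ : Matrix (Fin m ⊕ Fin m) (Fin m ⊕ Fin m) F) := congrArg Subtype.val h1
  rw [e₁, e₂] at h2
  have h3 : (Matrix.fromBlocks 1 B₂ 0 1 : Matrix (Fin m ⊕ Fin m) (Fin m ⊕ Fin m) F)
      * Matrix.fromBlocks 1 (-B₂) 0 1 = 1 := by
    rw [Matrix.fromBlocks_multiply]
    simp
  calc ((x₁ * x₂⁻¹ : Matrix.symplecticGroup (Fin m) F) :
        Matrix (Fin m ⊕ Fin m) (Fin m ⊕ Fin m) F)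
      = ((x₁ * x₂⁻¹ : Matrix.symplecticGroup (Fin m) F) :
        Matrix (Fin m ⊕ Fin m) (Fin m ⊕ Fin m) F)
          * (Matrix.fromBlocks 1 B₂ 0 1 * Matrix.fromBlocks 1 (-B₂) 0 1) := by
        rw [h3, mul_one]
    _ = Matrix.fromBlocks 1 B₁ 0 1 * Matrix.fromBlocks 1 (-B₂) 0 1 := by
        rw [← mul_assoc, h2]
    _ = Matrix.fromBlocks 1 (B₁ - B₂) 0 1 := by
        rw [Matrix.fromBlocks_multiply]
        simp [sub_eq_add_neg, add_comm]

theorem elem_conj {F : Type*} [Field F] (m : ℕ) (i j : Fin m) (B : Matrix (Fin m) (Fin m) F) :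
    Matrix.transvection i j 1 * B * (Matrix.transvection i j (1 : F)).transpose - B
      = Matrix.single i j 1 * B + B * Matrix.single j i 1
        + Matrix.single i j 1 * B * Matrix.single j i 1 := by
  rw [Matrix.transvection, Matrix.transpose_add, Matrix.transpose_one, Matrix.transpose_single]
  noncomm_ring

theorem InC_elem {F : Type*} [Field F] (m : ℕ) (i j : Fin m) (hij : i ≠ j)
    (B : Matrix (Fin m) (Fin m) F) (hB : B.transpose = B) :
    InC m (Matrix.single i j 1 * B + B * Matrix.single j i 1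
        + Matrix.single i j 1 * B * Matrix.single j i 1) := by
  obtain ⟨X, hX⟩ : ∃ X : Matrix.GeneralLinearGroup (Fin m) F,
      (X : Matrix (Fin m) (Fin m) F) = Matrix.transvection i j 1 :=
    ⟨Matrix.GeneralLinearGroup.mkOfDetNeZero (Matrix.transvection i j 1) (by
      rw [Matrix.det_transvection_of_ne i j hij]
      exact one_ne_zero), rfl⟩
  have h := InC_comm m X B hB
  rw [hX, elem_conj] at h
  exact h

theorem E00 {F : Type*} [Field F] [Fintype F] (m : ℕ)
    (h : 3 ≤ m ∨ (m = 2 ∧ 3 ≤ Fintype.card F) ∨ 4 ≤ Fintype.card F) (i₀ : Fin m) (b : F) :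
    InC m (Matrix.single i₀ i₀ b) := by
  classical
  -- case I: a ≠ 0 with a * a ≠ 1
  have caseI : 4 ≤ Fintype.card F → InC m (Matrix.single i₀ i₀ b) := by
    intro hq
    obtain ⟨a, ha0, ha1⟩ : ∃ a : F, a ≠ 0 ∧ a * a ≠ 1 := by
      by_contra hcon
      push Not at hcon
      have hsub : (Finset.univ : Finset F) ⊆ {0, 1, -1} := by
        intro a _
        by_cases ha : a = 0
        · simp [ha]
        · have h1 := hcon a ha
          have h2 : (a - 1) * (a + 1) = 0 := by linear_combination h1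
          rcases mul_eq_zero.1 h2 with h3 | h3
          · have : a = 1 := by linear_combination h3
            simp [this]
          · have : a = -1 := by linear_combination h3
            simp [this]
      have h4 := Finset.card_le_card hsub
      have h5 : ({0, 1, -1} : Finset F).card ≤ 3 := Finset.card_le_three
      rw [Finset.card_univ] at h4
      omega
    obtain ⟨X, hX⟩ : ∃ X : Matrix.GeneralLinearGroup (Fin m) F,
        (X : Matrix (Fin m) (Fin m) F) = Matrix.diagonal (Function.update (fun _ => 1) i₀ a) := by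
      refine ⟨⟨Matrix.diagonal (Function.update (fun _ => 1) i₀ a),
        Matrix.diagonal (Function.update (fun _ => 1) i₀ a⁻¹), ?_, ?_⟩, rfl⟩
      · rw [Matrix.diagonal_mul_diagonal, ← Matrix.diagonal_one]
        congr 1
        funext i
        by_cases hi : i = i₀
        · subst hi
          simp [ha0]
        · simp [hi]
      · rw [Matrix.diagonal_mul_diagonal, ← Matrix.diagonal_one]
        congr 1
        funext i
        by_cases hi : i = i₀
        · subst hi
          simp [ha0]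
        · simp [hi]
    have hne : a * a - 1 ≠ 0 := sub_ne_zero.2 ha1
    have h1 := InC_comm m X (Matrix.single i₀ i₀ (b / (a * a - 1)))
      (Matrix.transpose_single _ _ _)
    have h2 : (X : Matrix (Fin m) (Fin m) F) * Matrix.single i₀ i₀ (b / (a * a - 1))
        * (X : Matrix (Fin m) (Fin m) F).transpose - Matrix.single i₀ i₀ (b / (a * a - 1))
        = Matrix.single i₀ i₀ b := by
      rw [hX, Matrix.diagonal_transpose]
      ext i j
      rw [Matrix.sub_apply, Matrix.mul_diagonal, Matrix.diagonal_mul]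
      by_cases hi : i = i₀
      · by_cases hj : j = i₀
        · subst hi
          subst hj
          simp
          have e : a * (b / (a * a - 1)) * a - b / (a * a - 1)
              = b * (a * a - 1) / (a * a - 1) := by ring
          rw [e, mul_div_cancel_right₀ b hne]
        · subst hi
          simp [Matrix.single_apply, hj, Ne.symm hj]
      · simp [Matrix.single_apply, hi, Ne.symm hi]
    rw [h2] at h1
    exact h1
  -- case II: 2 ≠ 0 and a second index
  have caseII : (2 : F) ≠ 0 → ∀ i₁ : Fin m, i₁ ≠ i₀ → InC m (Matrix.single i₀ i₀ b) := by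
    intro h2 i₁ h10
    have h01 : i₀ ≠ i₁ := Ne.symm h10
    have h := InC_elem m i₀ i₁ h01
      (Matrix.single i₀ i₁ (b / 2) + Matrix.single i₁ i₀ (b / 2))
      (by rw [Matrix.transpose_add, Matrix.transpose_single, Matrix.transpose_single, add_comm])
    have e : Matrix.single i₀ i₁ 1 * (Matrix.single i₀ i₁ (b / 2) + Matrix.single i₁ i₀ (b / 2))
        + (Matrix.single i₀ i₁ (b / 2) + Matrix.single i₁ i₀ (b / 2)) * Matrix.single i₁ i₀ 1
        + Matrix.single i₀ i₁ 1 * (Matrix.single i₀ i₁ (b / 2) + Matrix.single i₁ i₀ (b / 2))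
          * Matrix.single i₁ i₀ 1 = Matrix.single i₀ i₀ b := by
      have z10 : ∀ (c d : F) (i l : Fin m), Matrix.single i i₁ c * Matrix.single i₀ l d = 0 :=
        fun c d i l => Matrix.single_mul_single_of_ne c i i₁ i₀ h10 d
      have z01 : ∀ (c d : F) (i l : Fin m), Matrix.single i i₀ c * Matrix.single i₁ l d = 0 :=
        fun c d i l => Matrix.single_mul_single_of_ne c i i₀ i₁ h01 d
      simp only [Matrix.mul_add, Matrix.add_mul, Matrix.single_mul_single_same,
        z10, z01, one_mul, mul_one, zero_add, add_zero, zero_mul, mul_zero]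
      rw [← Matrix.single_add]
      congr 1
      field_simp
      ring
    rw [e] at h
    exact h
  -- case III: two more indices
  have caseIII : ∀ i₁ i₂ : Fin m, i₁ ≠ i₀ → i₂ ≠ i₀ → i₁ ≠ i₂ →
      InC m (Matrix.single i₀ i₀ b) := by
    intro i₁ i₂ h10 h20 h12
    have h01 : i₀ ≠ i₁ := Ne.symm h10
    have h02 : i₀ ≠ i₂ := Ne.symm h20
    have h21 : i₂ ≠ i₁ := Ne.symm h12
    have s1 := InC_elem m i₀ i₁ h01 (Matrix.single i₁ i₂ b + Matrix.single i₂ i₁ b)
      (by rw [Matrix.transpose_add, Matrix.transpose_single, Matrix.transpose_single, add_comm])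
    have e1 : Matrix.single i₀ i₁ 1 * (Matrix.single i₁ i₂ b + Matrix.single i₂ i₁ b)
        + (Matrix.single i₁ i₂ b + Matrix.single i₂ i₁ b) * Matrix.single i₁ i₀ 1
        + Matrix.single i₀ i₁ 1 * (Matrix.single i₁ i₂ b + Matrix.single i₂ i₁ b)
          * Matrix.single i₁ i₀ 1 = Matrix.single i₀ i₂ b + Matrix.single i₂ i₀ b := by
      have z12 : ∀ (c d : F) (i l : Fin m), Matrix.single i i₁ c * Matrix.single i₂ l d = 0 :=
        fun c d i l => Matrix.single_mul_single_of_ne c i i₁ i₂ h12 d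
      have z21 : ∀ (c d : F) (i l : Fin m), Matrix.single i i₂ c * Matrix.single i₁ l d = 0 :=
        fun c d i l => Matrix.single_mul_single_of_ne c i i₂ i₁ h21 d
      simp only [Matrix.mul_add, Matrix.add_mul, Matrix.single_mul_single_same,
        z12, z21, one_mul, mul_one, zero_add, add_zero, zero_mul, mul_zero]
    rw [e1] at s1
    have s2 := InC_elem m i₀ i₂ h02 (Matrix.single i₂ i₂ b) (Matrix.transpose_single _ _ _)
    have e2 : Matrix.single i₀ i₂ 1 * Matrix.single i₂ i₂ b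
        + Matrix.single i₂ i₂ b * Matrix.single i₂ i₀ 1
        + Matrix.single i₀ i₂ 1 * Matrix.single i₂ i₂ b * Matrix.single i₂ i₀ 1
        = Matrix.single i₀ i₂ b + Matrix.single i₂ i₀ b + Matrix.single i₀ i₀ b := by
      simp only [Matrix.single_mul_single_same, one_mul, mul_one]
    rw [e2] at s2
    have s3 := InC_sub m _ _ s2 s1
    rw [add_sub_cancel_left] at s3
    exact s3
  rcases h with h3 | ⟨h2, hq⟩ | hq
  · -- m ≥ 3
    have hcard : 1 < ((Finset.univ : Finset (Fin m)).erase i₀).card := by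
      rw [Finset.card_erase_of_mem (Finset.mem_univ _), Finset.card_univ, Fintype.card_fin]
      omega
    obtain ⟨i₁, hi₁, i₂, hi₂, h12⟩ := Finset.one_lt_card.1 hcard
    exact caseIII i₁ i₂ (Finset.ne_of_mem_erase hi₁) (Finset.ne_of_mem_erase hi₂) h12
  · by_cases hq4 : 4 ≤ Fintype.card F
    · exact caseI hq4
    · have hq3 : Fintype.card F = 3 := by omega
      have h2F : (2 : F) ≠ 0 := by
        intro h20
        have hc : CharP F 2 := CharTwo.of_one_ne_zero_of_two_eq_zero one_ne_zero h20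
        obtain ⟨n, -, hn⟩ := FiniteField.card F 2
        have h5 : 2 ∣ Fintype.card F := by
          rw [hn]
          exact dvd_pow_self 2 n.ne_zero
        rw [hq3] at h5
        omega
      have hcard : 0 < ((Finset.univ : Finset (Fin m)).erase i₀).card := by
        rw [Finset.card_erase_of_mem (Finset.mem_univ _), Finset.card_univ, Fintype.card_fin]
        omega
      obtain ⟨i₁, hi₁⟩ := Finset.card_pos.1 hcard
      exact caseII h2F i₁ (Finset.ne_of_mem_erase hi₁)
  · exact caseI hq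

open Matrix in
theorem transv_e0 {F : Type*} [Field F] (m : ℕ) (i₀ : Fin m) (c : F) :
    Cfsg.sympTransvection m (Pi.single (Sum.inl i₀) 1) c
      = (Matrix.fromBlocks 1 (Matrix.single i₀ i₀ c) 0 1 :
          Matrix (Fin m ⊕ Fin m) (Fin m ⊕ Fin m) F) := by
  have hJ : Matrix.J (Fin m) F *ᵥ (Pi.single (Sum.inl i₀) 1 : Fin m ⊕ Fin m → F)
      = Pi.single (Sum.inr i₀) 1 := by
    funext k
    rcases k with k | k
    · rw [Cfsg.Agent.Helper6.J_mulVec_apply_inl]
      simp
    · rw [Cfsg.Agent.Helper6.J_mulVec_apply_inr]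
      simp [Pi.single_apply]
  unfold Cfsg.sympTransvection
  rw [hJ]
  ext (i | i) (j | j) <;>
    simp [Matrix.vecMulVec_apply, Matrix.single_apply, Pi.single_apply, Matrix.one_apply]
  by_cases h1 : j = i₀
  · by_cases h2 : i = i₀
    · simp [h1, h2]
    · have h2' : ¬ i₀ = i := fun h => h2 h.symm
      simp [h1, h2, h2']
  · have h1' : ¬ i₀ = j := fun h => h1 h.symm
    simp [h1, h1']

open Matrix in
theorem transv_conj_mat {F : Type*} [Field F] (m : ℕ)
    (g : Matrix (Fin m ⊕ Fin m) (Fin m ⊕ Fin m) F)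
    (hg : g ∈ Matrix.symplecticGroup (Fin m) F) (w : Fin m ⊕ Fin m → F) (c : F) :
    g * Cfsg.sympTransvection m w c = Cfsg.sympTransvection m (g *ᵥ w) c * g := by
  apply Cfsg.Agent.Helper5.mat_ext
  intro x
  rw [← Matrix.mulVec_mulVec, ← Matrix.mulVec_mulVec, Cfsg.Agent.Helper5.transv_mulVec,
    Cfsg.Agent.Helper5.transv_mulVec]
  change g *ᵥ (x + (c * Cfsg.Agent.Helper5.sB m x w) • w)
    = g *ᵥ x + (c * Cfsg.Agent.Helper5.sB m (g *ᵥ x) (g *ᵥ w)) • (g *ᵥ w)
  rw [Cfsg.Agent.Helper5.sp_preserves m g hg, Matrix.mulVec_add, Matrix.mulVec_smul]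

/-- Sp_{2m}(q) is perfect except for Sp_2(2), Sp_2(3) and Sp_4(2): stated as m at least 3, or m = 2 and q at least 3, or q at least 4. -/
theorem result {F : Type*} [Field F] [Fintype F] (m : ℕ) (h : 3 ≤ m ∨ (m = 2 ∧ 3 ≤ Fintype.card F) ∨ 4 ≤ Fintype.card F) : commutator (Matrix.symplecticGroup (Fin m) F) = ⊤ := by
  classical
  rcases Nat.eq_zero_or_pos m with hm0 | hmpos
  · subst hm0
    rw [eq_top_iff]
    intro x _
    have hx : x = 1 := Subtype.ext (Matrix.ext (fun i => by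
      rcases i with i | i <;> exact i.elim0))
    rw [hx]
    exact Subgroup.one_mem _
  · obtain ⟨i₀⟩ : Nonempty (Fin m) := ⟨⟨0, hmpos⟩⟩
    rw [eq_top_iff, ← Cfsg.Agent.S0765.result m, Subgroup.closure_le]
    rintro A ⟨w, c, hA⟩
    show A ∈ commutator (Matrix.symplecticGroup (Fin m) F)
    by_cases hw : w = 0
    · have hA1 : A = 1 := Subtype.ext (by
        rw [hA, hw]
        simp [Cfsg.sympTransvection])
      rw [hA1]
      exact Subgroup.one_mem _
    · obtain ⟨g, hg⟩ := Cfsg.Agent.S0271.result m w (Pi.single (Sum.inl i₀) 1) hw (by simp)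
      obtain ⟨x, hxC, hx⟩ := E00 m h i₀ c
      have hAx : A = g⁻¹ * x * g := by
        rw [eq_comm, mul_assoc, inv_mul_eq_iff_eq_mul]
        apply Subtype.ext
        show (x : Matrix (Fin m ⊕ Fin m) (Fin m ⊕ Fin m) F)
            * (g : Matrix (Fin m ⊕ Fin m) (Fin m ⊕ Fin m) F)
          = (g : Matrix (Fin m ⊕ Fin m) (Fin m ⊕ Fin m) F)
            * (A : Matrix (Fin m ⊕ Fin m) (Fin m ⊕ Fin m) F)
        rw [hx, hA, transv_conj_mat m g.1 g.2, ← transv_e0, hg]
      rw [hAx]
      have h1 := (inferInstance : (commutator (Matrix.symplecticGroup (Fin m) F)).Normal).conj_mem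
        x hxC g⁻¹
      simpa using h1

end Cfsg.Agent.S0269
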