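import Cfsg.Statements.S0966
import Cfsg.Agent.Helper25.BlockCover
open Cfsg.Agent.Helper25

set_option autoImplicit false
open Cfsg

namespace Cfsg.Agent.S0966

/-- Let N be a normal subgroup of p-power index in the finite group G and b a block of N relative to a maximal ideal M of the algebraic integers containing p. Then there is exactly one block B of G containing a character whose restriction to N has a constituent in b. -/
theorem result {G : Type*} [Group G] [Fintype G] (p : ℕ) [Fact p.Prime] (M : Ideal Cfsg.AlgInt) (hM : Cfsg.IsPModular p M) (N : Subgroup G) [N.Normal] [Fintype N] (hidx : ∃ k : ℕ, N.index = p ^ k) (b : Set (Cfsg.IrrCharacter N)) (hb : Cfsg.IsPBlock M b) : ∃! B : Set (Cfsg.IrrCharacter G), Cfsg.IsPBlock M B ∧ ∃ χ ∈ B, ∃ θ ∈ b, Cfsg.classInner (fun n : N => (χ : G → ℂ) n) (θ : N → ℂ) ≠ 0 := by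
  classical
  have := Helper24.finite_irrCharacter (G := G)
  have : Fintype (IrrCharacter G) := Fintype.ofFinite _
  have hMp := hM.2.1.isPrime
  obtain ⟨θ₀, rfl⟩ := hb
  obtain ⟨χ₀, hχ₀⟩ := exists_over N θ₀
  have hθ₀ := mem_blockOf_self hMp.ne_top θ₀
  have hreg : ∀ g : G, ¬ p ∣ orderOf g → g ∈ N := by
    intro g hg
    obtain ⟨k, hk⟩ := hidx
    have h1 : orderOf (QuotientGroup.mk' N g) ∣ orderOf g := orderOf_map_dvd _ g
    have h2 : orderOf (QuotientGroup.mk' N g) ∣ p ^ k := by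
      rw [← hk, Subgroup.index_eq_card]
      exact orderOf_dvd_natCard _
    obtain ⟨j, hj, hj2⟩ := (Nat.dvd_prime_pow (Fact.out : p.Prime)).1 h2
    have hj0 : j = 0 := by
      by_contra hne
      apply hg
      refine dvd_trans ?_ h1
      rw [hj2]
      exact dvd_pow_self p hne
    rw [hj0, pow_zero, orderOf_eq_one_iff] at hj2
    exact (QuotientGroup.eq_one_iff g).1 hj2
  refine ⟨blockOf M (χ₀ : G → ℂ),
    ⟨⟨χ₀, rfl⟩, χ₀, mem_blockOf_self hMp.ne_top χ₀, θ₀, hθ₀, hχ₀⟩, ?_⟩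
  rintro B' ⟨⟨χ₁, rfl⟩, χ, hχ, θ, hθ, hcon⟩
  have hs : SameBlock M (χ₀ : G → ℂ) (χ : G → ℂ) := by
    apply sameBlock_of_regular hM
    intro g hg
    have hgN := hreg g hg
    have h1 := (constituent_iff_centralChar N χ₀ θ₀).1 hχ₀ ⟨g, hgN⟩
    have h2 := (constituent_iff_centralChar N χ θ).1 hcon ⟨g, hgN⟩
    simp only at h1 h2
    rw [h1, h2]
    exact inducedCentralChar_sub_mem hMp N θ₀ θ (mem_blockOf.1 hθ) g
  rw [blockOf_eq_of_mem hMp hχ, blockOf_eq_of_mem hMp (mem_blockOf.2 hs)]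

end Cfsg.Agent.S0966
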