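import Cfsg.Statements.S0967
import Cfsg.Agent.Helper25.BlockPPrimeQuot
import Cfsg.Agent.Helper25.BlockPPrime
open Cfsg.Agent.Helper25
open Cfsg.Agent

set_option autoImplicit false
open Cfsg

namespace Cfsg.Agent.S0967

/-- Let N be a normal subgroup of the finite group G of order prime to p and fix a maximal ideal M of the algebraic integers containing p. If χ is an irreducible character of G ⧸ N and ψ lies in the block of its inflation χ ∘ (quotient map), then ψ is itself inflated from an irreducible character ψ' of G ⧸ N lying in the block of χ. (Over a normal p'-subgroup, blocks of the quotient are whole blocks of G.) -/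
theorem result {G : Type*} [Group G] [Finite G] (p : ℕ) [Fact p.Prime] (M : Ideal Cfsg.AlgInt) (hM : Cfsg.IsPModular p M) (N : Subgroup G) [N.Normal] (hN : ¬ p ∣ Nat.card N) (χ : Cfsg.IrrCharacter (G ⧸ N)) (ψ : Cfsg.IrrCharacter G) (hψ : ψ ∈ Cfsg.blockOf M ((χ : G ⧸ N → ℂ) ∘ QuotientGroup.mk)) : ∃ ψ' : Cfsg.IrrCharacter (G ⧸ N), (ψ : G → ℂ) = (ψ' : G ⧸ N → ℂ) ∘ QuotientGroup.mk ∧ Cfsg.SameBlock M (χ : G ⧸ N → ℂ) (ψ' : G ⧸ N → ℂ) := by
  classical
  have : Fintype G := Fintype.ofFinite G
  have : Fintype N := Fintype.ofFinite _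
  have hs : SameBlock M ((inflIrr N χ : IrrCharacter G) : G → ℂ) (ψ : G → ℂ) := by
    rw [inflIrr_coe]
    exact hψ
  have h1 : classInner (fun n : N => ((inflIrr N χ : IrrCharacter G) : G → ℂ) n)
      (oneIrr N : N → ℂ) ≠ 0 := by
    rw [over_one_iff]
    intro n hn
    rw [inflIrr_coe]
    simp only [Function.comp_apply]
    rw [(QuotientGroup.eq_one_iff n).mpr hn, QuotientGroup.mk_one]
  have h2 := (over_one_iff N ψ).mp
    (over_of_sameBlock_pprime hM N hN (inflIrr N χ) ψ hs (oneIrr N) h1)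
  obtain ⟨ψ', hψ'⟩ := exists_deflation_of_ker N ψ h2
  refine ⟨ψ', hψ', ?_⟩
  apply sameBlock_deflate_pprime hM N hN
  rw [← hψ']
  exact hψ

end Cfsg.Agent.S0967
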