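import Cfsg.Statements.S0312
import Cfsg.Agent.Helper3.BN2

set_option autoImplicit false
open Cfsg

namespace Cfsg.Agent.S0312

/-- Every standard parabolic subgroup of a group with a (B,N)-pair equals its own normaliser. -/
theorem result {G : Type*} [Group G] (P : Cfsg.BNPair G) {J : Set G}
    (hJ : J ⊆ P.S) : Subgroup.normalizer (P.parabolic J : Set G) = P.parabolic J := by
  apply le_antisymm
  · intro g hg
    rw [Subgroup.mem_normalizer_iff] at hg
    obtain ⟨n, hn, b, hb, b', hb', rfl⟩ := Cfsg.Agent.Helper3.bruhat P g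
    have hB := Cfsg.Agent.Helper3.B_le_parabolic P J
    have hconj : ∀ b0 ∈ P.B, n * b0 * n⁻¹ ∈ P.parabolic J := by
      intro b0 hb0
      have h1 := (hg (b'⁻¹ * b0 * b')).1
        (hB (P.B.mul_mem (P.B.mul_mem (P.B.inv_mem hb') hb0) hb'))
      have h2 := Subgroup.mul_mem _ (Subgroup.mul_mem _ (hB (P.B.inv_mem hb)) h1) (hB hb)
      have e : b⁻¹ * (b * n * b' * (b'⁻¹ * b0 * b') * (b * n * b')⁻¹) * b = n * b0 * n⁻¹ := by
        group
      rw [e] at h2; exact h2
    have hnP := Cfsg.Agent.Helper3.mem_of_conj_le P hn hB hconj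
    exact Subgroup.mul_mem _ (Subgroup.mul_mem _ (hB hb) hnP) (hB hb')
  · exact Subgroup.le_normalizer

end Cfsg.Agent.S0312
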