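import Cfsg.Statements.S0319
import Cfsg.Agent.Helper3.BN3

set_option autoImplicit false
open Cfsg

namespace Cfsg.Agent.S0319

/-- Simplicity criterion for groups with a (B,N)-pair: if the distinguished generators admit no
splitting into two non-empty mutually commuting parts, `B` is solvable, `G` is perfect and the intersection
of all conjugates of `B` is trivial, then `G` is simple. -/
theorem result {G : Type*} [Group G] [Nontrivial G]
    (P : Cfsg.BNPair G) (hirr : P.Irreducible) (hsolv : Group.IsSolvable P.B) (hperf : commutator G = ⊤)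
    (hcore : P.B.normalCore = ⊥) : IsSimpleGroup G := by
  refine { eq_bot_or_eq_top_of_normal := ?_ }
  intro H hH
  have := hH
  have hBM : P.B ≤ P.B ⊔ H := le_sup_left
  have hHM : H ≤ P.B ⊔ H := le_sup_right
  have hJS : {s | s ∈ P.S ∧ s ∈ P.B ⊔ H} ⊆ P.S := fun s hs => hs.1
  have hMJ := Cfsg.Agent.Helper3.eq_parabolic P (P.B ⊔ H) hBM
  have hBJ := Cfsg.Agent.Helper3.B_le_parabolic P {s | s ∈ P.S ∧ s ∈ P.B ⊔ H}
  have hcomm : ∀ s1 ∈ {s | s ∈ P.S ∧ s ∈ P.B ⊔ H},
      ∀ s2 ∈ P.S \ {s | s ∈ P.S ∧ s ∈ P.B ⊔ H}, s1 * s2 * s1⁻¹ * s2⁻¹ ∈ P.B := by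
    intro s1 hs1 s2 hs2
    have hs1S : s1 ∈ P.S := hs1.1
    have hs2S : s2 ∈ P.S := hs2.1
    have hs2J : s2 ∉ {s | s ∈ P.S ∧ s ∈ P.B ⊔ H} := hs2.2
    have hs1N := P.subset hs1S
    have hs2N := P.subset hs2S
    have hs1M : s1 ∈ ((H ⊔ P.B : Subgroup G) : Set G) := by
      rw [sup_comm]; exact hs1.2
    rw [Subgroup.normal_mul] at hs1M
    obtain ⟨h, hh, b0, hb0, e⟩ := Set.mem_mul.1 hs1M
    have hh' : s1 * b0⁻¹ ∈ H := by
      rw [← e]; simpa using hh
    have hconj : s2 * (s1 * b0⁻¹) * s2⁻¹ ∈ H := hH.conj_mem _ hh' s2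
    have hconjM : s2 * (s1 * b0⁻¹) * s2⁻¹ ∈ P.parabolic {s | s ∈ P.S ∧ s ∈ P.B ⊔ H} := by
      rw [← hMJ]; exact hHM hconj
    have e2 : s2 * (s1 * b0⁻¹) * s2⁻¹ = (s2 * s1) * (b0⁻¹ * (s2 * s2)⁻¹) * s2 := by group
    rw [e2] at hconjM
    have hbb : b0⁻¹ * (s2 * s2)⁻¹ ∈ P.B :=
      P.B.mul_mem (P.B.inv_mem hb0) (Cfsg.Agent.Helper3.S_inv_sq P hs2S).1
    have hne : s1 * s2 ∉ P.B := by
      intro hc
      have h1 : s1⁻¹ * s2 ∈ P.B := by
        have := P.B.mul_mem (Cfsg.Agent.Helper3.S_inv_sq P hs1S).1 hc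
        have e : (s1 * s1)⁻¹ * (s1 * s2) = s1⁻¹ * s2 := by group
        rw [e] at this; exact this
      have := P.inj s1 hs1S s2 hs2S h1
      exact hs2J (this ▸ hs1)
    rcases Cfsg.Agent.Helper3.ax_right P hs2S (P.N.mul_mem hs2N hs1N) hbb with h | h
    · have hw : s2 * s1 * s2 ∈ P.parabolic {s | s ∈ P.S ∧ s ∈ P.B ⊔ H} := by
        obtain ⟨b, hb, b', hb', e⟩ := h
        have : s2 * s1 * s2 = b⁻¹ * (s2 * s1 * (b0⁻¹ * (s2 * s2)⁻¹) * s2) * b'⁻¹ := by
          rw [e]; group
        rw [this]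
        exact Subgroup.mul_mem _ (Subgroup.mul_mem _ (hBJ (P.B.inv_mem hb)) hconjM)
          (hBJ (P.B.inv_mem hb'))
      have hnr : ¬ Cfsg.Agent.Helper3.Red P [s2, s1, s2] := by
        intro hr
        have hlet := Cfsg.Agent.Helper3.red_letters P _ hr
          (P.parabolic {s | s ∈ P.S ∧ s ∈ P.B ⊔ H}) hBJ (by
            intro b hb
            have hp : [s2, s1, s2].prod = s2 * s1 * s2 := by simp [mul_assoc]
            rw [hp]
            exact Subgroup.mul_mem _ (Subgroup.mul_mem _ hw (hBJ hb)) (Subgroup.inv_mem _ hw))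
        exact hs2J (Cfsg.Agent.Helper3.mem_S_parabolic P hJS hs2S (hlet s2 (by simp)))
      have hasc : Cfsg.Agent.Helper3.Asc P s1 s2 := by
        by_contra hna
        obtain ⟨l1, x, l2, e, hc⟩ := Cfsg.Agent.Helper3.exchange P hs1S (l := [s2])
          (by simpa using hs2S) (by simpa using hna)
        match l1, e, hc with
        | [], e, hc =>
          simp only [List.nil_append, List.cons.injEq] at e
          obtain ⟨rfl, rfl⟩ := e
          apply hne
          have : Cfsg.Agent.Helper3.Cg P 1 (s1 * s2) := by simpa using hc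
          unfold Cfsg.Agent.Helper3.Cg at this
          simpa using this.1
        | y :: l, e, _ =>
          simp at e
      have hr12 : Cfsg.Agent.Helper3.Red P [s1, s2] := by
        refine ⟨by simp [hs1S, hs2S], ?_⟩
        intro j hj hlen
        have hp : [s1, s2].prod = s1 * s2 := by simp
        rw [hp] at hlen
        obtain ⟨j', hj', hlen'⟩ := Cfsg.Agent.Helper3.hasLen_of_asc P hs1S hs2N hasc hlen
        have hj0 : j' = 0 := by
          simp at hj; omega
        subst hj0
        exact Cfsg.Agent.Helper3.S_not_mem_B P hs2S (Cfsg.Agent.Helper3.hasLen_zero P hlen').1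
      have hna : ¬ Cfsg.Agent.Helper3.Asc P s2 (s1 * s2) := by
        intro ha
        apply hnr
        refine ⟨by simp [hs1S, hs2S], ?_⟩
        intro j hj hlen
        have hp : [s2, s1, s2].prod = s2 * (s1 * s2) := by simp
        rw [hp] at hlen
        obtain ⟨j', hj', hlen'⟩ :=
          Cfsg.Agent.Helper3.hasLen_of_asc P hs2S (P.N.mul_mem hs1N hs2N) ha hlen
        exact hr12.2 j' (by simp at hj ⊢; omega) (by simpa using hlen')
      obtain ⟨l1, x, l2, e, hc⟩ := Cfsg.Agent.Helper3.exchange P hs2S (l := [s1, s2])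
        (by simp [hs1S, hs2S]) (by simpa using hna)
      match l1, e, hc with
      | [], e, hc =>
        exfalso
        simp only [List.nil_append, List.cons.injEq] at e
        obtain ⟨rfl, rfl⟩ := e
        apply hne
        have hc' : Cfsg.Agent.Helper3.Cg P s2 (s2 * (s1 * s2)) := by simpa using hc
        unfold Cfsg.Agent.Helper3.Cg at hc'
        have e : s2⁻¹ * (s2 * (s1 * s2)) = s1 * s2 := by group
        rw [e] at hc'
        exact hc'.1
      | [y], e, hc =>
        simp only [List.cons_append, List.nil_append, List.cons.injEq] at e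
        obtain ⟨rfl, rfl, rfl⟩ := e
        have ht : Cfsg.Agent.Helper3.Cg P s1 (s2 * (s1 * s2)) := by simpa using hc
        have h3 := Cfsg.Agent.Helper3.T_conj P hs1N
          ((P.B ⊓ P.N).mul_mem (Cfsg.Agent.Helper3.S_sq P hs2S) ((P.B ⊓ P.N).inv_mem ht))
        have e3 : s1 * (s2 * s2 * (s1⁻¹ * (s2 * (s1 * s2)))⁻¹) * s1⁻¹ = s1 * s2 * s1⁻¹ * s2⁻¹ := by
          group
        rw [e3] at h3
        exact h3.1
      | y :: z :: l, e, _ =>
        exfalso
        simp at e
    · exfalso
      have hw : s2 * s1 ∈ P.parabolic {s | s ∈ P.S ∧ s ∈ P.B ⊔ H} := by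
        obtain ⟨b, hb, b', hb', e⟩ := h
        have : s2 * s1 = b⁻¹ * (s2 * s1 * (b0⁻¹ * (s2 * s2)⁻¹) * s2) * b'⁻¹ := by
          rw [e]; group
        rw [this]
        exact Subgroup.mul_mem _ (Subgroup.mul_mem _ (hBJ (P.B.inv_mem hb)) hconjM)
          (hBJ (P.B.inv_mem hb'))
      have h1 := Subgroup.mul_mem _ hw
        (Subgroup.inv_mem _ (Cfsg.Agent.Helper3.subset_parabolic P _ hs1))
      have e : s2 * s1 * s1⁻¹ = s2 := by group
      rw [e] at h1
      exact hs2J (Cfsg.Agent.Helper3.mem_S_parabolic P hJS hs2S h1)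
  by_cases hJe : {s | s ∈ P.S ∧ s ∈ P.B ⊔ H}.Nonempty
  · by_cases hJc : (P.S \ {s | s ∈ P.S ∧ s ∈ P.B ⊔ H}).Nonempty
    · exfalso
      obtain ⟨s, hs, s', hs', hnot⟩ := hirr _ hJS hJe hJc
      exact hnot (hcomm s hs s' hs')
    · right
      have hSJ : ∀ s ∈ P.S, s ∈ P.B ⊔ H := by
        intro s hs
        by_contra hns
        exact hJc ⟨s, hs, fun h => hns h.2⟩
      have hMtop : P.B ⊔ H = ⊤ := by
        rw [eq_top_iff, ← P.sup_eq_top]
        apply sup_le hBM
        rw [← P.closure_sup]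
        apply sup_le
        · rw [Subgroup.closure_le]
          intro s hs
          exact hSJ s hs
        · exact inf_le_left.trans hBM
      have hsurj : Function.Surjective ((QuotientGroup.mk' H).comp P.B.subtype) := by
        intro q
        obtain ⟨g, rfl⟩ := QuotientGroup.mk_surjective q
        have hg : g ∈ ((P.B ⊔ H : Subgroup G) : Set G) := by
          rw [hMtop]; trivial
        rw [Subgroup.mul_normal] at hg
        obtain ⟨b, hb, h, hh, rfl⟩ := Set.mem_mul.1 hg
        refine ⟨⟨b, hb⟩, ?_⟩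
        show (QuotientGroup.mk b : G ⧸ H) = QuotientGroup.mk (b * h)
        rw [QuotientGroup.eq]
        simpa using hh
      have : Group.IsSolvable (G ⧸ H) := Group.isSolvable_of_surjective hsurj
      obtain ⟨n, hn⟩ := (Group.isSolvable_def (G ⧸ H)).1 inferInstance
      have hder : ∀ k, derivedSeries G k = ⊤ := by
        intro k
        induction k with
        | zero => rfl
        | succ k ih =>
          rw [derivedSeries_succ, ih]
          exact hperf
      have h2 := map_derivedSeries_eq (QuotientGroup.mk'_surjective H) n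
      rw [hder n, hn, Subgroup.map_top_of_surjective _ (QuotientGroup.mk'_surjective H)] at h2
      apply QuotientGroup.subgroup_eq_top_of_subsingleton
      exact Subgroup.subsingleton_iff.1 (subsingleton_of_bot_eq_top h2.symm)
  · left
    have hJ0 : {s | s ∈ P.S ∧ s ∈ P.B ⊔ H} = (∅ : Set G) := Set.not_nonempty_iff_eq_empty.1 hJe
    have hMB : P.B ⊔ H = P.B := by
      rw [hMJ, hJ0]
      unfold Cfsg.BNPair.parabolic
      rw [Subgroup.closure_empty, sup_bot_eq]
    have hHB : H ≤ P.B := by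
      rw [← hMB]; exact hHM
    have := Subgroup.normal_le_normalCore.2 hHB
    rw [hcore] at this
    exact le_bot_iff.1 this

end Cfsg.Agent.S0319
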