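import Cfsg.Statements.S0007
import Mathlib
import Cfsg.Agent.Helper4.CardMul

set_option autoImplicit false
open Cfsg

open Pointwise

namespace Cfsg.Agent.S0007

/-- Subgroups of coprime index: the intersection has index equal to the product of the indices, and every element is a product of an element of the first subgroup and an element of the second. -/
theorem result {G : Type*} [Group G] [Finite G] (H K : Subgroup G)
    (h : H.index.Coprime K.index) :
    (H ⊓ K).index = H.index * K.index ∧ ∀ g : G, ∃ x ∈ H, ∃ y ∈ K, g = x * y := by
  have hidx : (H ⊓ K).index = H.index * K.index := by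
    apply le_antisymm Subgroup.index_inf_le
    apply Nat.le_of_dvd (Nat.pos_of_ne_zero Subgroup.index_ne_zero_of_finite)
    exact Nat.Coprime.mul_dvd_of_dvd_of_dvd h (Subgroup.index_dvd_of_le inf_le_left)
      (Subgroup.index_dvd_of_le inf_le_right)
  refine ⟨hidx, ?_⟩
  have h1 := Cfsg.Agent.Helper4.card_mul_card_eq H K
  have h2 := Subgroup.card_mul_index H
  have h3 := Subgroup.card_mul_index K
  have h4 := Subgroup.card_mul_index (H ⊓ K)
  rw [hidx] at h4
  have hn : 0 < Nat.card G := Nat.card_pos
  have h5 : Nat.card ((H : Set G) * (K : Set G) : Set G) = Nat.card G := by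
    have h6 : Nat.card ((H : Set G) * (K : Set G) : Set G) * Nat.card G = Nat.card G * Nat.card G := by
      calc Nat.card ((H : Set G) * (K : Set G) : Set G) * Nat.card G
          = Nat.card ((H : Set G) * (K : Set G) : Set G) *
              (Nat.card (H ⊓ K : Subgroup G) * (H.index * K.index)) := by rw [h4]
        _ = (Nat.card H * Nat.card K) * (H.index * K.index) := by rw [h1]; ring
        _ = (Nat.card H * H.index) * (Nat.card K * K.index) := by ring
        _ = Nat.card G * Nat.card G := by rw [h2, h3]
    exact Nat.eq_of_mul_eq_mul_right hn h6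
  have h7 : ((H : Set G) * (K : Set G) : Set G) = Set.univ := by
    rw [Set.eq_univ_iff_ncard, ← Nat.card_coe_set_eq]
    exact h5
  intro g
  have hg : g ∈ ((H : Set G) * (K : Set G) : Set G) := by rw [h7]; exact Set.mem_univ g
  obtain ⟨x, hx, y, hy, hxy⟩ := Set.mem_mul.mp hg
  exact ⟨x, hx, y, hy, hxy.symm⟩

end Cfsg.Agent.S0007
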