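import Cfsg.Statements.S0010
import Mathlib
import Cfsg.Agent.Helper9.Fitting
import Cfsg.Agent.Helper1.Basic

set_option autoImplicit false
open Cfsg

open Pointwise

namespace Cfsg.Agent.S0010

/-- The largest normal p-subgroup of a finite group is the intersection of all its Sylow p-subgroups. -/
theorem result {G : Type*} [Group G] [Finite G] (p : ℕ) [Fact p.Prime] :
    Cfsg.pCore p G = ⨅ P : Sylow p G, (P : Subgroup G) := by
  apply le_antisymm
  · apply le_iInf
    intro Q
    have hp : IsPGroup p (Cfsg.pCore p G) := Cfsg.Agent.Helper9.pCore_isPGroup p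
    obtain ⟨P, hP⟩ := hp.exists_le_sylow
    obtain ⟨g, rfl⟩ := MulAction.exists_smul_eq G P Q
    intro x hx
    have hn : (Cfsg.pCore p G).Normal := Subgroup.sSup_normal _ (fun _ h => h.1)
    have hx' : g⁻¹ * x * g ∈ Cfsg.pCore p G := by
      have h1 := hn.conj_mem x hx g⁻¹
      rwa [inv_inv] at h1
    rw [Sylow.coe_subgroup_smul]
    exact Cfsg.Agent.Helper1.mem_conj_smul.mpr (hP hx')
  · apply Cfsg.Agent.Helper9.le_pCore
    · constructor
      intro x hx g
      rw [Subgroup.mem_iInf] at hx ⊢
      intro P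
      have h1 := hx (g⁻¹ • P)
      rw [Sylow.coe_subgroup_smul] at h1
      have h2 := Cfsg.Agent.Helper1.mem_conj_smul.mp h1
      rwa [inv_inv] at h2
    · obtain ⟨P⟩ : Nonempty (Sylow p G) := inferInstance
      exact P.isPGroup'.to_le (iInf_le _ P)

end Cfsg.Agent.S0010
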