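import Cfsg.Statements.S0070
import Mathlib
import Cfsg.Agent.Helper9.Fitting

set_option autoImplicit false
open Cfsg

open Pointwise

namespace Cfsg.Agent.S0070

theorem pcore_quot_le {G : Type*} [Group G] [Finite G] (p : ℕ) [Fact p.Prime] :
    Cfsg.pCore p (G ⧸ frattini G) ≤ (Cfsg.pCore p G).map (QuotientGroup.mk' (frattini G)) := by
  obtain ⟨Q, hQdef⟩ : ∃ Q : Subgroup G,
      Q = (Cfsg.pCore p (G ⧸ frattini G)).comap (QuotientGroup.mk' (frattini G)) := ⟨_, rfl⟩
  have hmemQ : ∀ x : G, x ∈ Q ↔ QuotientGroup.mk' (frattini G) x ∈ Cfsg.pCore p (G ⧸ frattini G) := by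
    intro x; rw [hQdef]; exact Iff.rfl
  haveI hQn : Q.Normal := by
    have h1 : (Cfsg.pCore p (G ⧸ frattini G)).Normal := Subgroup.sSup_normal _ (fun _ h => h.1)
    rw [hQdef]
    exact Subgroup.Normal.comap h1 _
  have hpc : IsPGroup p (Cfsg.pCore p (G ⧸ frattini G)) := Cfsg.Agent.Helper9.pCore_isPGroup p
  obtain ⟨P⟩ : Nonempty (Sylow p Q) := inferInstance
  obtain ⟨P₀, hP₀def⟩ : ∃ P₀ : Subgroup G, P₀ = (P : Subgroup Q).map Q.subtype := ⟨_, rfl⟩
  have hpq : IsPGroup p (Q ⧸ (frattini G).subgroupOf Q) := by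
    intro g
    obtain ⟨x, rfl⟩ := QuotientGroup.mk_surjective g
    obtain ⟨k, hk⟩ := hpc ⟨QuotientGroup.mk' (frattini G) (x : G), (hmemQ _).mp x.2⟩
    refine ⟨k, ?_⟩
    rw [← QuotientGroup.mk_pow, QuotientGroup.eq_one_iff, Subgroup.mem_subgroupOf]
    have h1 : QuotientGroup.mk' (frattini G) ((x : G) ^ p ^ k) = 1 := by
      rw [map_pow]
      simpa using congrArg Subtype.val hk
    have h2 : (x : G) ^ p ^ k ∈ frattini G := (QuotientGroup.eq_one_iff _).mp h1
    simpa using h2
  have hsup : Q ≤ P₀ ⊔ frattini G := by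
    rw [← Subgroup.relIndex_eq_one]
    obtain ⟨k, hk⟩ := (IsPGroup.iff_card (p := p)).mp hpq
    have h5 : (frattini G).relIndex Q = p ^ k := hk
    have h1 : (P₀ ⊔ frattini G).relIndex Q ∣ (frattini G).relIndex Q :=
      Subgroup.relIndex_dvd_of_le_left Q le_sup_right
    have h2 : (P₀ ⊔ frattini G).relIndex Q ∣ P₀.relIndex Q :=
      Subgroup.relIndex_dvd_of_le_left Q le_sup_left
    have h3 : P₀.subgroupOf Q = (P : Subgroup Q) := by
      rw [hP₀def]
      exact Subgroup.comap_map_eq_self_of_injective Q.subtype_injective _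
    have h3' : P₀.relIndex Q = (P : Subgroup Q).index := by
      unfold Subgroup.relIndex
      rw [h3]
    have h4 : ¬ p ∣ (P : Subgroup Q).index := P.not_dvd_index
    rw [h5] at h1
    obtain ⟨j, hj, hj'⟩ := (Nat.dvd_prime_pow (Fact.out)).mp h1
    rw [hj'] at h2 ⊢
    rcases Nat.eq_zero_or_pos j with rfl | hpos
    · simp
    · exfalso
      apply h4
      rw [← h3']
      exact (dvd_pow_self p hpos.ne').trans h2
  have hnorm : Subgroup.normalizer (P₀ : Set G) = ⊤ := by
    apply frattini_nongenerating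
    have h1 : Subgroup.normalizer (P₀ : Set G) ⊔ Q = ⊤ := by
      rw [hP₀def]
      exact Sylow.normalizer_sup_eq_top P
    apply top_le_iff.mp
    rw [← h1]
    apply sup_le le_sup_left
    exact hsup.trans (sup_le (Subgroup.le_normalizer.trans le_sup_left) le_sup_right)
  have hP₀n : P₀.Normal := Subgroup.normalizer_eq_top_iff.mp hnorm
  have hP₀p : IsPGroup p P₀ := by
    rw [hP₀def]
    exact P.isPGroup'.map _
  have hle : P₀ ≤ Cfsg.pCore p G := Cfsg.Agent.Helper9.le_pCore hP₀n hP₀p
  have h6 : (P₀ ⊔ frattini G).map (QuotientGroup.mk' (frattini G)) ≤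
      (Cfsg.pCore p G).map (QuotientGroup.mk' (frattini G)) := by
    rw [Subgroup.map_sup]
    apply sup_le (Subgroup.map_mono hle)
    have h7 : (frattini G).map (QuotientGroup.mk' (frattini G)) = ⊥ := by
      rw [Subgroup.map_eq_bot_iff, QuotientGroup.ker_mk']
    rw [h7]
    exact bot_le
  intro y hy
  obtain ⟨x, rfl⟩ := QuotientGroup.mk'_surjective (frattini G) y
  exact h6 (Subgroup.mem_map_of_mem _ (hsup ((hmemQ x).mpr hy)))

/-- The Fitting subgroup commutes with passing to the Frattini quotient: the Fitting subgroup of G modulo its Frattini subgroup is the image of the Fitting subgroup of G. -/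
theorem result {G : Type*} [Group G] [Finite G] :
    Cfsg.fittingSubgroup (G ⧸ frattini G) = (Cfsg.fittingSubgroup G).map (QuotientGroup.mk' (frattini G)) := by
  apply le_antisymm
  · rw [Cfsg.Agent.Helper9.fitting_eq_iSup_pCore]
    apply iSup_le
    intro q
    haveI : Fact (q : ℕ).Prime := ⟨q.2⟩
    exact (pcore_quot_le (G := G) (q : ℕ)).trans
      (Subgroup.map_mono (Cfsg.Agent.Helper9.pCore_le_fitting (q : ℕ)))
  · apply Cfsg.Agent.Helper9.le_fitting
    · exact Subgroup.Normal.map (Cfsg.Agent.Helper9.fitting_normal) _ (QuotientGroup.mk'_surjective _)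
    · haveI hn : Group.IsNilpotent (Cfsg.fittingSubgroup G) := Cfsg.Agent.Helper9.fitting_nilpotent
      exact Group.nilpotent_of_surjective
        ((QuotientGroup.mk' (frattini G)).subgroupMap (Cfsg.fittingSubgroup G))
        (MonoidHom.subgroupMap_surjective _ _)

end Cfsg.Agent.S0070
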