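import Cfsg.Statements.S0011
import Mathlib
import Cfsg.Agent.S0070

set_option autoImplicit false
open Cfsg

namespace Cfsg.Agent.S0011

/-- If the Frattini quotient of a finite group is nilpotent then the group is nilpotent. -/
theorem result {G : Type*} [Group G] [Finite G]
    (h : Group.IsNilpotent (G ⧸ frattini G)) : Group.IsNilpotent G := by
  have h70 := Cfsg.Agent.S0070.result (G := G)
  have htop : Cfsg.fittingSubgroup (G ⧸ frattini G) = ⊤ := by
    apply top_le_iff.mp
    exact Cfsg.Agent.Helper9.le_fitting inferInstance inferInstance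
  rw [htop] at h70
  have hF : Cfsg.fittingSubgroup G ⊔ frattini G = ⊤ := by
    have h1 := congrArg (Subgroup.comap (QuotientGroup.mk' (frattini G))) h70
    rw [Subgroup.comap_top, Subgroup.comap_map_eq, QuotientGroup.ker_mk'] at h1
    exact h1.symm
  have hF' : Cfsg.fittingSubgroup G = ⊤ := frattini_nongenerating hF
  haveI hn : Group.IsNilpotent (Cfsg.fittingSubgroup G) := Cfsg.Agent.Helper9.fitting_nilpotent
  exact Group.nilpotent_of_surjective (Cfsg.fittingSubgroup G).subtype
    (fun g => ⟨⟨g, hF' ▸ Subgroup.mem_top g⟩, rfl⟩)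

end Cfsg.Agent.S0011
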