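import Cfsg.Statements.S0013
import Mathlib

set_option autoImplicit false
open Cfsg

open Pointwise

namespace Cfsg.Agent.S0013

/-- In a finite p-group the Frattini subgroup is the smallest normal subgroup with elementary abelian quotient: it lies below any normal subgroup containing all commutators and all p-th powers. -/
theorem result {G : Type*} [Group G] [Finite G] (p : ℕ) [Fact p.Prime]
    (hG : IsPGroup p G) (N : Subgroup G) [N.Normal] (hcomm : commutator G ≤ N) (hpow : ∀ x : G, x ^ p ∈ N) :
    frattini G ≤ N := by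
  intro x hx
  by_contra hxN
  have hfin : {M : Subgroup G | N ≤ M ∧ x ∉ M}.Finite := Set.toFinite _
  obtain ⟨M, hNM, hMmax⟩ := hfin.exists_le_maximal (a := N) ⟨le_rfl, hxN⟩
  obtain ⟨⟨hNM', hxM⟩, hmax⟩ := hMmax
  have hcm : ∀ a b : G, a * b * a⁻¹ * b⁻¹ ∈ M := by
    intro a b
    apply hNM
    apply hcomm
    rw [commutator_def]
    exact Subgroup.commutator_mem_commutator (Subgroup.mem_top a) (Subgroup.mem_top b)
  haveI hMn : M.Normal := by
    constructor
    intro m hm g
    have h1 : g * m * g⁻¹ = (g * m * g⁻¹ * m⁻¹) * m := by group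
    rw [h1]
    exact M.mul_mem (hcm g m) hm
  have hco : IsCoatom M := by
    refine ⟨fun h => hxM (by rw [h]; exact Subgroup.mem_top x), ?_⟩
    intro K hMK
    have hxK : x ∈ K := by
      by_contra hxK
      exact absurd (hmax ⟨hNM.trans hMK.le, hxK⟩ hMK.le) (not_le_of_gt hMK)
    rw [eq_top_iff]
    intro y _
    by_cases hyM : y ∈ M
    · exact hMK.le hyM
    · have hlt : M < M ⊔ Subgroup.zpowers y := by
        refine lt_of_le_of_ne le_sup_left ?_
        intro h
        apply hyM
        rw [h]
        exact Subgroup.mem_sup_right (Subgroup.mem_zpowers y)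
      have hx2 : x ∈ M ⊔ Subgroup.zpowers y := by
        by_contra hx2
        exact absurd (hmax ⟨hNM.trans hlt.le, hx2⟩ hlt.le) (not_le_of_gt hlt)
      have hx3 : x ∈ ((M : Set G) * (Subgroup.zpowers y : Set G)) := by
        rw [← Subgroup.normal_mul]
        exact hx2
      obtain ⟨m, hm, z, hz, hmz⟩ := Set.mem_mul.mp hx3
      obtain ⟨j, rfl⟩ := Subgroup.mem_zpowers_iff.mp hz
      have hyjK : y ^ j ∈ K := by
        have h2 : y ^ j = m⁻¹ * x := by rw [← hmz]; group
        rw [h2]
        exact K.mul_mem (K.inv_mem (hMK.le hm)) hxK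
      have hypK : y ^ (p : ℤ) ∈ K := by
        rw [zpow_natCast]
        exact hMK.le (hNM (hpow y))
      have hpj : ¬ (p : ℤ) ∣ j := by
        rintro ⟨i, rfl⟩
        apply hxM
        rw [← hmz]
        refine M.mul_mem hm ?_
        rw [zpow_mul, zpow_natCast]
        exact M.zpow_mem (hNM (hpow y)) i
      have hcop : IsCoprime (p : ℤ) j := by
        have hp : Prime (p : ℤ) := Nat.prime_iff_prime_int.mp Fact.out
        exact hp.coprime_iff_not_dvd.mpr hpj
      obtain ⟨u, v, huv⟩ := hcop
      have h3 : y = (y ^ (p : ℤ)) ^ u * (y ^ j) ^ v := by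
        rw [← zpow_mul, ← zpow_mul, ← zpow_add, mul_comm (p : ℤ) u, mul_comm j v, huv, zpow_one]
      rw [h3]
      exact K.mul_mem (K.zpow_mem hypK u) (K.zpow_mem hyjK v)
  exact hxM (frattini_le_coatom hco hx)

end Cfsg.Agent.S0013
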