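import Cfsg.Statements.S0015
import Mathlib
import Cfsg.Agent.S0065

set_option autoImplicit false
open Cfsg

namespace Cfsg.Agent.S0015

/-- In a finite nilpotent group, an abelian normal subgroup that is maximal among abelian normal subgroups equals its own centralizer. -/
theorem result {G : Type*} [Group G] [Finite G] [Group.IsNilpotent G]
    (N : Subgroup G) [N.Normal] [IsMulCommutative N]
    (hmax : ∀ M : Subgroup G, M.Normal → IsMulCommutative M → N ≤ M → M = N) :
    Subgroup.centralizer (N : Set G) = N := by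
  have hNC : N ≤ Subgroup.centralizer (N : Set G) := by
    intro a ha
    rw [Subgroup.mem_centralizer_iff]
    intro b hb
    exact congrArg Subtype.val (mul_comm' (⟨b, hb⟩ : N) ⟨a, ha⟩)
  refine le_antisymm ?_ hNC
  by_contra hnot
  have hCn : (Subgroup.centralizer (N : Set G)).Normal := inferInstance
  have hCbar : (Subgroup.centralizer (N : Set G)).map (QuotientGroup.mk' N) ≠ ⊥ := by
    intro h
    apply hnot
    rw [Subgroup.map_eq_bot_iff, QuotientGroup.ker_mk'] at h
    exact h
  haveI : ((Subgroup.centralizer (N : Set G)).map (QuotientGroup.mk' N)).Normal :=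
    Subgroup.Normal.map hCn _ (QuotientGroup.mk'_surjective N)
  have h65 := Cfsg.Agent.S0065.result (G := G ⧸ N)
    ((Subgroup.centralizer (N : Set G)).map (QuotientGroup.mk' N)) hCbar
  obtain ⟨z, hz, hz1⟩ : ∃ z ∈ (Subgroup.centralizer (N : Set G)).map (QuotientGroup.mk' N) ⊓
      Subgroup.center (G ⧸ N), z ≠ 1 := by
    by_contra hcon
    push_neg at hcon
    apply h65
    rw [eq_bot_iff]
    intro z hz
    exact Subgroup.mem_bot.mpr (hcon z hz)
  obtain ⟨⟨x, hxC, rfl⟩, hzc⟩ := hz
  have hxN : x ∉ N := fun h => hz1 ((QuotientGroup.eq_one_iff x).mpr h)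
  have hcomm : ∀ y : G, x * y * x⁻¹ * y⁻¹ ∈ N := by
    intro y
    rw [← QuotientGroup.eq_one_iff]
    have h1 : (y : G ⧸ N) * (x : G ⧸ N) = (x : G ⧸ N) * (y : G ⧸ N) :=
      Subgroup.mem_center_iff.mp hzc (y : G ⧸ N)
    rw [QuotientGroup.mk_mul, QuotientGroup.mk_mul, QuotientGroup.mk_mul, QuotientGroup.mk_inv,
      QuotientGroup.mk_inv, ← h1]
    group
  have hMn : (N ⊔ Subgroup.zpowers x).Normal := by
    constructor
    intro m hm g
    have hle : N ⊔ Subgroup.zpowers x ≤
        (N ⊔ Subgroup.zpowers x).comap (MulAut.conj g).toMonoidHom := by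
      apply sup_le
      · intro n hn
        show g * n * g⁻¹ ∈ N ⊔ Subgroup.zpowers x
        exact Subgroup.mem_sup_left (‹N.Normal›.conj_mem n hn g)
      · rw [Subgroup.zpowers_le]
        show g * x * g⁻¹ ∈ N ⊔ Subgroup.zpowers x
        have h1 : g * x * g⁻¹ = (x * g * x⁻¹ * g⁻¹)⁻¹ * x := by group
        rw [h1]
        exact Subgroup.mul_mem _ (Subgroup.mem_sup_left (N.inv_mem (hcomm g)))
          (Subgroup.mem_sup_right (Subgroup.mem_zpowers x))
    exact hle hm
  have hxC' : Subgroup.zpowers x ≤ Subgroup.centralizer (N : Set G) := Subgroup.zpowers_le.mpr hxC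
  have h1 : N ⊔ Subgroup.zpowers x ≤ Subgroup.centralizer (N : Set G) := sup_le hNC hxC'
  have h2 : N ⊔ Subgroup.zpowers x ≤
      Subgroup.centralizer ((Subgroup.zpowers x : Subgroup G) : Set G) := by
    apply sup_le
    · rw [Subgroup.le_centralizer_iff]
      exact hxC'
    · intro a ha
      rw [Subgroup.mem_centralizer_iff]
      intro b hb
      obtain ⟨i, rfl⟩ := Subgroup.mem_zpowers_iff.mp ha
      obtain ⟨j, rfl⟩ := Subgroup.mem_zpowers_iff.mp hb
      rw [← zpow_add, ← zpow_add, add_comm]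
  have h3 : N ⊔ Subgroup.zpowers x ≤
      Subgroup.centralizer ((N ⊔ Subgroup.zpowers x : Subgroup G) : Set G) :=
    sup_le (Subgroup.le_centralizer_iff.mp h1) (Subgroup.le_centralizer_iff.mp h2)
  have hMc : IsMulCommutative (N ⊔ Subgroup.zpowers x : Subgroup G) :=
    IsMulCommutative.of_comm (fun a b =>
      Subtype.ext (Subgroup.mem_centralizer_iff.mp (h3 b.2) a a.2))
  have hMN := hmax (N ⊔ Subgroup.zpowers x) hMn hMc le_sup_left
  apply hxN
  rw [← hMN]
  exact Subgroup.mem_sup_right (Subgroup.mem_zpowers x)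

end Cfsg.Agent.S0015
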