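import Cfsg.Statements.S0018
import Mathlib
import Cfsg.Agent.S0017
import Cfsg.Agent.S0010
import Cfsg.Agent.Helper18.Solvable

set_option autoImplicit false
open Cfsg

namespace Cfsg.Agent.S0018

/-- A finite solvable group whose Sylow p-subgroups are abelian has p-length one: a Sylow p-subgroup together with the largest normal subgroup of order prime to p generates a normal subgroup. -/
theorem result {G : Type*} [Group G] [Finite G] [Group.IsSolvable G]
    (p : ℕ) [Fact p.Prime] (P : Sylow p G) (hP : IsMulCommutative P) :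
    ((P : Subgroup G) ⊔ Cfsg.pPrimeCore p G).Normal := by
  haveI hOn : (Cfsg.pPrimeCore p G).Normal := Subgroup.sSup_normal _ (fun _ h => h.1)
  have hπ : Function.Surjective (QuotientGroup.mk' (Cfsg.pPrimeCore p G)) :=
    QuotientGroup.mk'_surjective _
  have hbar : Cfsg.pPrimeCore p (G ⧸ Cfsg.pPrimeCore p G) = ⊥ := by
    rw [eq_bot_iff]
    apply sSup_le
    rintro N ⟨hN, hNc⟩
    exact (Cfsg.Agent.Helper18.pPrimeCore_quotient_trivial p N hN hNc).le
  have h17 := Cfsg.Agent.S0017.result (G := G ⧸ Cfsg.pPrimeCore p G) p hbar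
  have h10 := Cfsg.Agent.S0010.result (G := G ⧸ Cfsg.pPrimeCore p G) p
  have hle : Cfsg.pCore p (G ⧸ Cfsg.pPrimeCore p G) ≤
      (P : Subgroup G).map (QuotientGroup.mk' (Cfsg.pPrimeCore p G)) := by
    rw [h10]
    exact iInf_le _ (P.mapSurjective hπ)
  have hcomm : ∀ a ∈ (P : Subgroup G).map (QuotientGroup.mk' (Cfsg.pPrimeCore p G)),
      ∀ b ∈ (P : Subgroup G).map (QuotientGroup.mk' (Cfsg.pPrimeCore p G)), a * b = b * a := by
    rintro _ ⟨x, hx, rfl⟩ _ ⟨y, hy, rfl⟩
    rw [← map_mul, ← map_mul]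
    congr 1
    exact congrArg Subtype.val (mul_comm' (⟨x, hx⟩ : P) ⟨y, hy⟩)
  have hle2 : (P : Subgroup G).map (QuotientGroup.mk' (Cfsg.pPrimeCore p G)) ≤
      Cfsg.pCore p (G ⧸ Cfsg.pPrimeCore p G) := by
    refine le_trans ?_ h17
    intro a ha
    rw [Subgroup.mem_centralizer_iff]
    intro b hb
    exact hcomm b (hle hb) a ha
  have heq : (P : Subgroup G).map (QuotientGroup.mk' (Cfsg.pPrimeCore p G)) =
      Cfsg.pCore p (G ⧸ Cfsg.pPrimeCore p G) := le_antisymm hle2 hle
  have hn : ((P : Subgroup G).map (QuotientGroup.mk' (Cfsg.pPrimeCore p G))).Normal := by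
    rw [heq]
    exact Subgroup.sSup_normal _ (fun _ h => h.1)
  have hc : ((P : Subgroup G).map (QuotientGroup.mk' (Cfsg.pPrimeCore p G))).comap
      (QuotientGroup.mk' (Cfsg.pPrimeCore p G)) = (P : Subgroup G) ⊔ Cfsg.pPrimeCore p G := by
    rw [Subgroup.comap_map_eq, QuotientGroup.ker_mk']
  rw [← hc]
  exact hn.comap _

end Cfsg.Agent.S0018
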