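import Cfsg.Statements.S0020
import Mathlib
import Cfsg.Agent.Helper1.Hall
import Cfsg.Agent.Helper4.CardMul

set_option autoImplicit false
open Pointwise
open Cfsg

open Pointwise
universe u

namespace Cfsg.Agent.S0020

theorem index_iInf_finset {G : Type*} [Group G] [Finite G] (H : ℕ → Subgroup G) (f : ℕ → ℕ)
    (s : Finset ℕ) (hidx : ∀ q ∈ s, (H q).index = f q)
    (hcop : ∀ q ∈ s, ∀ q' ∈ s, q ≠ q' → (f q).Coprime (f q')) :
    (⨅ q ∈ s, H q).index = ∏ q ∈ s, f q := by
  classical
  induction s using Finset.induction_on with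
  | empty => simp
  | insert a s ha ih =>
    rw [Finset.iInf_insert, Finset.prod_insert ha]
    have ih' := ih (fun q hq => hidx q (Finset.mem_insert_of_mem hq))
      (fun q hq q' hq' hne =>
        hcop q (Finset.mem_insert_of_mem hq) q' (Finset.mem_insert_of_mem hq') hne)
    have hia := hidx a (Finset.mem_insert_self a s)
    have hc : (H a).index.Coprime (⨅ q ∈ s, H q).index := by
      rw [ih', hia]
      apply Nat.Coprime.prod_right
      intro q hq
      exact hcop a (Finset.mem_insert_self a s) q (Finset.mem_insert_of_mem hq)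
        (by rintro rfl; exact ha hq)
    have h1 : (H a ⊓ ⨅ q ∈ s, H q).index = (H a).index * (⨅ q ∈ s, H q).index := by
      apply le_antisymm Subgroup.index_inf_le
      apply Nat.le_of_dvd (Nat.pos_of_ne_zero Subgroup.index_ne_zero_of_finite)
      exact Nat.Coprime.mul_dvd_of_dvd_of_dvd hc (Subgroup.index_dvd_of_le inf_le_left)
        (Subgroup.index_dvd_of_le inf_le_right)
    rw [h1, ih', hia]

theorem prod_erase_aux (n : ℕ) (s : Finset ℕ) (p : ℕ) (hp : p ∉ s → n.factorization p = 0) :
    p ^ n.factorization p * ∏ q ∈ s.erase p, q ^ n.factorization q =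
      ∏ q ∈ s, q ^ n.factorization q := by
  classical
  by_cases hps : p ∈ s
  · exact Finset.mul_prod_erase s (fun q => q ^ n.factorization q) hps
  · rw [Finset.erase_eq_of_notMem hps, hp hps, pow_zero, one_mul]

theorem aux {G : Type u} [Group G] [Finite G] [Group.IsSolvable G] :
    ∃ K : ℕ → Subgroup G,
      (∀ p : ℕ, p.Prime → Nat.card (K p) = p ^ (Nat.card G).factorization p) ∧
      ∀ p q : ℕ, p.Prime → q.Prime →
        (K p : Set G) * (K q : Set G) = (K q : Set G) * (K p : Set G) := by
  classical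
  have hex : ∀ q : ℕ, ∃ H : Subgroup G,
      q.Prime → H.index = q ^ (Nat.card G).factorization q := by
    intro q
    by_cases hq : q.Prime
    · have hG : Nat.card G = (Nat.card G / q ^ (Nat.card G).factorization q) *
          q ^ (Nat.card G).factorization q :=
        (Nat.div_mul_cancel (Nat.ordProj_dvd (Nat.card G) q)).symm
      have hcop : (Nat.card G / q ^ (Nat.card G).factorization q).Coprime
          (q ^ (Nat.card G).factorization q) :=
        Nat.Coprime.pow_right _ (Nat.coprime_ordCompl hq Nat.card_pos.ne').symm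
      obtain ⟨H, hH⟩ := Cfsg.Agent.Helper1.hall_exists _ _ hG hcop
      refine ⟨H, fun _ => ?_⟩
      have h1 := Subgroup.card_mul_index H
      rw [hH] at h1
      exact Nat.eq_of_mul_eq_mul_left
        (Nat.div_pos (Nat.le_of_dvd Nat.card_pos (Nat.ordProj_dvd _ _)) (pow_pos hq.pos _))
        (h1.trans hG)
    · exact ⟨⊤, fun h => absurd h hq⟩
  choose H hH using hex
  obtain ⟨P, hP⟩ : ∃ P : Finset ℕ, P = (Nat.card G).primeFactors := ⟨_, rfl⟩
  have hPprime : ∀ q ∈ P, q.Prime := by
    intro q hq
    rw [hP] at hq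
    exact Nat.prime_of_mem_primeFactors hq
  have hfac0 : ∀ q, q ∉ P → (Nat.card G).factorization q = 0 := by
    intro q hq
    rw [hP, ← Nat.support_factorization] at hq
    exact Finsupp.notMem_support_iff.mp hq
  have hidx : ∀ s : Finset ℕ, s ⊆ P →
      (⨅ q ∈ s, H q).index = ∏ q ∈ s, q ^ (Nat.card G).factorization q := by
    intro s hs
    apply index_iInf_finset H (fun q => q ^ (Nat.card G).factorization q) s
    · intro q hq
      exact hH q (hPprime q (hs hq))
    · intro q hq q' hq' hne
      exact Nat.Coprime.pow _ _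
        ((Nat.coprime_primes (hPprime q (hs hq)) (hPprime q' (hs hq'))).mpr hne)
  have hprod : ∏ q ∈ P, q ^ (Nat.card G).factorization q = Nat.card G := by
    have h0 := Nat.prod_factorization_pow_eq_self (Nat.card_pos (α := G)).ne'
    rw [hP]
    rwa [Finsupp.prod, Nat.support_factorization] at h0
  obtain ⟨K, hKdef⟩ : ∃ K : ℕ → Subgroup G, ∀ p, K p = ⨅ q ∈ P.erase p, H q :=
    ⟨fun p => ⨅ q ∈ P.erase p, H q, fun p => rfl⟩
  obtain ⟨T, hTdef⟩ : ∃ T : ℕ → ℕ → Subgroup G, ∀ p q, T p q = ⨅ r ∈ (P.erase p).erase q, H r :=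
    ⟨fun p q => ⨅ r ∈ (P.erase p).erase q, H r, fun p q => rfl⟩
  have hcardK : ∀ p : ℕ, Nat.card (K p) = p ^ (Nat.card G).factorization p := by
    intro p
    have h1 := Subgroup.card_mul_index (K p)
    rw [hKdef, hidx _ (Finset.erase_subset p P)] at h1
    have h2 := prod_erase_aux (Nat.card G) P p (hfac0 p)
    rw [hprod] at h2
    have hI : 0 < ∏ q ∈ P.erase p, q ^ (Nat.card G).factorization q := by
      apply Nat.pos_of_ne_zero
      intro h0
      rw [h0, mul_zero] at h2
      exact (Nat.card_pos (α := G)).ne' h2.symm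
    rw [hKdef]
    exact Nat.eq_of_mul_eq_mul_right hI (h1.trans h2.symm)
  have hcardT : ∀ p q : ℕ, p ≠ q → Nat.card (T p q) =
      p ^ (Nat.card G).factorization p * q ^ (Nat.card G).factorization q := by
    intro p q hpq
    have h1 := Subgroup.card_mul_index (T p q)
    rw [hTdef, hidx _ ((Finset.erase_subset q _).trans (Finset.erase_subset p P))] at h1
    have h2 := prod_erase_aux (Nat.card G) P p (hfac0 p)
    rw [hprod] at h2
    have h3 := prod_erase_aux (Nat.card G) (P.erase p) q
      (fun hq => hfac0 q (fun hqP => hq (Finset.mem_erase.mpr ⟨Ne.symm hpq, hqP⟩)))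
    rw [← h3] at h2
    have hJ : 0 < ∏ r ∈ (P.erase p).erase q, r ^ (Nat.card G).factorization r := by
      apply Nat.pos_of_ne_zero
      intro h0
      rw [h0, mul_zero, mul_zero] at h2
      exact (Nat.card_pos (α := G)).ne' h2.symm
    apply Nat.eq_of_mul_eq_mul_right hJ
    rw [hTdef, mul_assoc]
    exact h1.trans h2.symm
  have hkey : ∀ p q : ℕ, p.Prime → q.Prime → p ≠ q →
      (K p : Set G) * (K q : Set G) = (T p q : Set G) := by
    intro p q hp hq hpq
    have hle1 : K p ≤ T p q := by
      rw [hKdef, hTdef]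
      exact le_iInf₂ (fun r hr => iInf₂_le r (Finset.mem_of_mem_erase hr))
    have hle2 : K q ≤ T p q := by
      rw [hKdef, hTdef]
      exact le_iInf₂ (fun r hr => iInf₂_le r (Finset.mem_erase.mpr
        ⟨(Finset.mem_erase.mp hr).1, Finset.mem_of_mem_erase (Finset.mem_of_mem_erase hr)⟩))
    have hsub : (K p : Set G) * (K q : Set G) ⊆ (T p q : Set G) := by
      rintro x ⟨a, ha, b, hb, rfl⟩
      exact Subgroup.mul_mem _ (hle1 ha) (hle2 hb)
    apply Set.eq_of_subset_of_ncard_le hsub
    have hcop : (Nat.card (K p)).Coprime (Nat.card (K q)) := by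
      rw [hcardK p, hcardK q]
      exact Nat.Coprime.pow _ _ ((Nat.coprime_primes hp hq).mpr hpq)
    have hdisj : K p ⊓ K q = ⊥ := (Subgroup.disjoint_of_coprime_natCard hcop).eq_bot
    have h1 := Cfsg.Agent.Helper4.card_mul_card_eq (K p) (K q)
    rw [hdisj, Subgroup.card_bot, mul_one, hcardK p, hcardK q, ← hcardT p q hpq] at h1
    rw [← Nat.card_coe_set_eq, ← Nat.card_coe_set_eq]
    exact h1.le
  refine ⟨K, fun p _ => hcardK p, ?_⟩
  intro p q hp hq
  by_cases hpq : p = q
  · rw [hpq]
  · rw [hkey p q hp hq hpq, hkey q p hq hp (Ne.symm hpq), hTdef, hTdef, Finset.erase_right_comm]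

/-- A finite solvable group admits a Sylow system: Sylow subgroups, one for each prime, that pairwise permute as sets. -/
theorem result {G : Type*} [Group G] [Finite G] [Group.IsSolvable G] :
    ∃ S : (p : Nat.Primes) → Sylow (p : ℕ) G,
      ∀ p q : Nat.Primes, (S p : Set G) * (S q : Set G) = (S q : Set G) * (S p : Set G) := by
  obtain ⟨K, hK, hperm⟩ := aux (G := G)
  refine ⟨fun p => @Sylow.ofCard G _ _ (p : ℕ) ⟨p.2⟩ (K p) (hK p p.2), ?_⟩
  intro p q
  exact hperm p q p.2 q.2

end Cfsg.Agent.S0020
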