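import Cfsg.Statements.S0021
import Mathlib
import Cfsg.Agent.S0006

set_option autoImplicit false
open Pointwise
open Cfsg

namespace Cfsg.Agent.S0021

/-- Elementwise permutability of two subgroups. -/
def Perm {G : Type*} [Group G] (A B : Subgroup G) : Prop :=
  ∀ a ∈ A, ∀ b ∈ B, ∃ b' ∈ B, ∃ a' ∈ A, a * b = b' * a'

theorem perm_bot {G : Type*} [Group G] (A : Subgroup G) : Perm A ⊥ := by
  intro a ha b hb
  rw [Subgroup.mem_bot] at hb
  exact ⟨1, Subgroup.one_mem _, a, ha, by rw [hb, mul_one, one_mul]⟩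

theorem bot_perm {G : Type*} [Group G] (A : Subgroup G) : Perm ⊥ A := by
  intro a ha b hb
  rw [Subgroup.mem_bot] at ha
  exact ⟨b, hb, 1, Subgroup.one_mem _, by rw [ha, mul_one, one_mul]⟩

/-- The sup of two permuting subgroups is their product. -/
theorem perm_sup {G : Type*} [Group G] [Finite G] (A B : Subgroup G) (h : Perm A B) :
    (∀ x ∈ A ⊔ B, ∃ b ∈ B, ∃ a ∈ A, x = b * a) ∧
      Nat.card (A ⊔ B : Subgroup G) ≤ Nat.card A * Nat.card B := by
  let M : Subgroup G :=
    { carrier := {x | ∃ b ∈ B, ∃ a ∈ A, x = b * a}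
      mul_mem' := by
        rintro x y ⟨b₁, hb₁, a₁, ha₁, rfl⟩ ⟨b₂, hb₂, a₂, ha₂, rfl⟩
        obtain ⟨b', hb', a', ha', hab⟩ := h a₁ ha₁ b₂ hb₂
        refine ⟨b₁ * b', B.mul_mem hb₁ hb', a' * a₂, A.mul_mem ha' ha₂, ?_⟩
        have e1 : b₁ * a₁ * (b₂ * a₂) = b₁ * (a₁ * b₂) * a₂ := by group
        rw [e1, hab]; group
      one_mem' := ⟨1, B.one_mem, 1, A.one_mem, (mul_one 1).symm⟩
      inv_mem' := by
        rintro x ⟨b, hb, a, ha, rfl⟩
        obtain ⟨b', hb', a', ha', hab⟩ := h a⁻¹ (A.inv_mem ha) b⁻¹ (B.inv_mem hb)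
        exact ⟨b', hb', a', ha', by rw [mul_inv_rev, hab]⟩ }
  have hM : A ⊔ B ≤ M := by
    refine sup_le ?_ ?_
    · intro a ha
      exact ⟨1, B.one_mem, a, ha, (one_mul a).symm⟩
    · intro b hb
      exact ⟨b, hb, 1, A.one_mem, (mul_one b).symm⟩
  refine ⟨fun x hx => hM hx, ?_⟩
  have h1 : Nat.card (A ⊔ B : Subgroup G) ≤ Nat.card M := Subgroup.card_le_of_le hM
  have h2 : Nat.card M ≤ Nat.card (B × A) := by
    have hsurj : Function.Surjective (fun q : B × A =>
        (⟨(q.1 : G) * (q.2 : G), ⟨q.1, q.1.2, q.2, q.2.2, rfl⟩⟩ : M)) := by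
      rintro ⟨x, b, hb, a, ha, rfl⟩
      exact ⟨(⟨b, hb⟩, ⟨a, ha⟩), rfl⟩
    exact Nat.card_le_card_of_surjective _ hsurj
  rw [Nat.card_prod, mul_comm] at h2
  exact h1.trans h2

theorem key {G : Type*} [Group G] [Finite G] (S' : ℕ → Subgroup G)
    (hperm : ∀ r q : ℕ, Perm (S' r) (S' q)) (T : Finset ℕ) :
    (∀ r : ℕ, Perm (S' r) (T.sup S')) ∧
      Nat.card (T.sup S' : Subgroup G) ≤ ∏ q ∈ T, Nat.card (S' q) := by
  classical
  induction T using Finset.induction_on with
  | empty =>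
    refine ⟨fun r => ?_, ?_⟩
    · rw [Finset.sup_empty]; exact perm_bot _
    · rw [Finset.sup_empty, Finset.prod_empty, Subgroup.card_bot]
  | insert q T hq ih =>
    obtain ⟨ih1, ih2⟩ := ih
    obtain ⟨hs1, hs2⟩ := perm_sup (S' q) (T.sup S') (ih1 q)
    refine ⟨fun r => ?_, ?_⟩
    · rw [Finset.sup_insert]
      intro a ha x hx
      obtain ⟨k, hk, s, hs, rfl⟩ := hs1 x hx
      obtain ⟨k', hk', a', ha', e1⟩ := ih1 r a ha k hk
      obtain ⟨s', hs', a'', ha'', e2⟩ := hperm r q a' ha' s hs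
      refine ⟨k' * s', (S' q ⊔ T.sup S').mul_mem (le_sup_right (a := S' q) hk')
        (le_sup_left (b := T.sup S') hs'), a'', ha'', ?_⟩
      rw [← mul_assoc, e1, mul_assoc, e2, mul_assoc]
    · rw [Finset.sup_insert, Finset.prod_insert hq]
      exact hs2.trans (Nat.mul_le_mul_left _ ih2)

/-- A finite group with a family of pairwise permuting Sylow subgroups, one for each prime, is solvable (this direction rests on Burnside's two-prime Theorem). -/
theorem result {G : Type*} [Group G] [Finite G]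
    (S : (p : Nat.Primes) → Sylow (p : ℕ) G)
    (hS : ∀ p q : Nat.Primes, (S p : Set G) * (S q : Set G) = (S q : Set G) * (S p : Set G)) :
    Group.IsSolvable G := by
  classical
  apply Cfsg.Agent.S0006.result
  intro p hp
  have hn0 : Nat.card G ≠ 0 := Nat.card_pos.ne'
  obtain ⟨S', hS'⟩ : ∃ S' : ℕ → Subgroup G,
      S' = fun q => if h : q.Prime then (S ⟨q, h⟩ : Subgroup G) else ⊥ := ⟨_, rfl⟩
  have hS'p : ∀ q : ℕ, ∀ h : q.Prime, S' q = (S ⟨q, h⟩ : Subgroup G) := by
    intro q h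
    rw [hS']
    exact dif_pos h
  have hS'n : ∀ q : ℕ, ¬ q.Prime → S' q = ⊥ := by
    intro q h
    rw [hS']
    exact dif_neg h
  have hperm : ∀ r q : ℕ, Perm (S' r) (S' q) := by
    intro r q
    by_cases hr : r.Prime
    · by_cases hq : q.Prime
      · rw [hS'p r hr, hS'p q hq]
        intro a ha b hb
        have h1 : a * b ∈ (S ⟨r, hr⟩ : Set G) * (S ⟨q, hq⟩ : Set G) :=
          Set.mul_mem_mul ha hb
        rw [hS ⟨r, hr⟩ ⟨q, hq⟩] at h1
        obtain ⟨b', hb', a', ha', e⟩ := Set.mem_mul.mp h1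
        exact ⟨b', hb', a', ha', e.symm⟩
      · rw [hS'n q hq]; exact perm_bot _
    · rw [hS'n r hr]; exact bot_perm _
  have hcard : ∀ q : ℕ, q.Prime → Nat.card (S' q) = q ^ (Nat.card G).factorization q := by
    intro q hq
    rw [hS'p q hq]
    haveI : Fact q.Prime := ⟨hq⟩
    exact Sylow.card_eq_multiplicity (S ⟨q, hq⟩)
  obtain ⟨T, hT⟩ : ∃ T : Finset ℕ, T = (Nat.card G).primeFactors.erase p := ⟨_, rfl⟩
  obtain ⟨-, hk2⟩ := key S' hperm T
  refine ⟨T.sup S', ?_⟩
  have hprod := Nat.prod_factorization_pow_eq_self hn0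
  rw [Finsupp.prod, Nat.support_factorization] at hprod
  -- |G| = p^a * P
  obtain ⟨P, hP⟩ : ∃ P : ℕ, P = ∏ q ∈ T, q ^ (Nat.card G).factorization q := ⟨_, rfl⟩
  have hnP : Nat.card G = p ^ (Nat.card G).factorization p * P := by
    by_cases hpm : p ∈ (Nat.card G).primeFactors
    · have e := Finset.mul_prod_erase (Nat.card G).primeFactors
        (fun q => q ^ (Nat.card G).factorization q) hpm
      rw [hP, hT]
      exact (e.trans hprod).symm
    · have h0 : (Nat.card G).factorization p = 0 := by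
        apply Nat.factorization_eq_zero_of_not_dvd
        intro hd
        exact hpm (Nat.mem_primeFactors.mpr ⟨hp, hd, hn0⟩)
      rw [h0, pow_zero, one_mul, hP, hT, Finset.erase_eq_of_notMem hpm]
      exact hprod.symm
  have hHle : Nat.card (T.sup S' : Subgroup G) ≤ P := by
    refine hk2.trans (le_of_eq ?_)
    rw [hP]
    refine Finset.prod_congr rfl fun q hq => ?_
    rw [hT] at hq
    exact hcard q (Nat.prime_of_mem_primeFactors (Finset.mem_of_mem_erase hq))
  have hPpos : 0 < P := by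
    rcases Nat.eq_zero_or_pos P with h0 | h0
    · rw [h0, mul_zero] at hnP; exact absurd hnP hn0
    · exact h0
  -- the index is a power of p
  have hidx0 : (T.sup S' : Subgroup G).index ≠ 0 := Subgroup.index_ne_zero_of_finite
  have hidxdvd : (T.sup S' : Subgroup G).index ∣ Nat.card G := Subgroup.index_dvd_card _
  have hpow := Nat.eq_prime_pow_of_unique_prime_dvd (p := p) hidx0 (by
    intro r hr hrd
    by_contra hrp
    have hrm : r ∈ T := by
      rw [hT]
      exact Finset.mem_erase.mpr ⟨hrp, Nat.mem_primeFactors.mpr ⟨hr, hrd.trans hidxdvd, hn0⟩⟩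
    have hle : S' r ≤ T.sup S' := Finset.le_sup hrm
    have h1 : (T.sup S' : Subgroup G).index ∣ (S' r).index := Subgroup.index_dvd_of_le hle
    haveI : Fact r.Prime := ⟨hr⟩
    have h2 : ¬ r ∣ (S' r).index := by
      rw [hS'p r hr]
      exact Sylow.not_dvd_index (S ⟨r, hr⟩)
    exact h2 (hrd.trans h1))
  obtain ⟨k, hk⟩ : ∃ k : ℕ, (T.sup S' : Subgroup G).index = p ^ k := ⟨_, hpow⟩
  have hkle : k ≤ (Nat.card G).factorization p := by
    rw [← Nat.Prime.pow_dvd_iff_le_factorization hp hn0, ← hk]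
    exact hidxdvd
  have hmul := Subgroup.card_mul_index (T.sup S' : Subgroup G)
  rw [hk, hnP] at hmul
  rw [hk]
  congr 1
  by_contra hne
  have hlt : k < (Nat.card G).factorization p := lt_of_le_of_ne hkle hne
  have h1 : p ^ k < p ^ (Nat.card G).factorization p := Nat.pow_lt_pow_right hp.one_lt hlt
  have h2 : Nat.card (T.sup S' : Subgroup G) * p ^ k ≤ P * p ^ k := Nat.mul_le_mul_right _ hHle
  nlinarith

end Cfsg.Agent.S0021
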