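import Cfsg.Statements.S0036
import Mathlib
import Cfsg.Agent.Helper1.Frob

set_option autoImplicit false
open Cfsg

open Pointwise

namespace Cfsg.Agent.S0036

theorem frob_invol {G : Type*} [Group G] [Finite G] (H : Subgroup G)
    (hH : Cfsg.IsFrobeniusComplement H) (t : G) (ht : t ∈ H) (ht1 : t ≠ 1) (ht2 : t * t = 1) :
    (∀ r : G, r ∉ H → t * (r * t * r⁻¹) ∈ Cfsg.frobeniusKernel H) ∧
    (∀ x ∈ Cfsg.frobeniusKernel H, x ≠ 1 → ∃ r : G, r ∉ H ∧ x = t * (r * t * r⁻¹)) ∧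
    (∀ h ∈ H, h * t = t * h) := by
  classical
  obtain ⟨hHbot, hHtop, hTI⟩ := hH
  have htinv : t⁻¹ = t := inv_eq_of_mul_eq_one_right ht2
  have hTI' : ∀ g : G, ∀ b : G, b ≠ 1 → b ∈ H → g⁻¹ * b * g ∈ H → g ∈ H := by
    intro g b hb1 hbH hbg
    by_contra hg
    have h1 : b ∈ H ⊓ MulAut.conj g • H :=
      Subgroup.mem_inf.mpr ⟨hbH, Cfsg.Agent.Helper1.mem_conj_smul.mpr hbg⟩
    rw [hTI g hg, Subgroup.mem_bot] at h1
    exact hb1 h1
  have hB : ∀ c : G, c * t = t * c → c ∈ H := by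
    intro c hc
    apply hTI' c t ht1 ht
    have e : c⁻¹ * t * c = t := by
      rw [mul_assoc, ← hc, ← mul_assoc, inv_mul_cancel, one_mul]
    rw [e]
    exact ht
  have hA1 : ∀ r : G, r ∉ H → t * (r * t * r⁻¹) ≠ 1 := by
    intro r hr h1
    have h2 : r * t * r⁻¹ = t := by
      have h0 := eq_inv_of_mul_eq_one_right h1
      rw [h0, htinv]
    apply hr
    apply hB
    calc r * t = r * t * r⁻¹ * r := by group
      _ = t * r := by rw [h2]
  have hA : ∀ r : G, r ∉ H → t * (r * t * r⁻¹) ∈ Cfsg.frobeniusKernel H := by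
    intro r hr
    refine Or.inr ?_
    intro x hax
    have ha1 := hA1 r hr
    obtain ⟨a, ha⟩ : ∃ a : G, a = t * (r * t * r⁻¹) := ⟨_, rfl⟩
    rw [← ha] at hax ha1
    have hinv : t * a * t = a⁻¹ := by
      have e1 : t * (t * (r * t * r⁻¹)) * t = (t * t) * (r * t * r⁻¹) * t := by group
      have e2 : (t * (r * t * r⁻¹))⁻¹ = r * t⁻¹ * r⁻¹ * t⁻¹ := by group
      rw [ha, e1, e2, ht2, htinv, one_mul]
    rw [Cfsg.Agent.Helper1.mem_conj_smul] at hax
    have hb1 : x⁻¹ * a * x ≠ 1 := by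
      intro h
      apply ha1
      have e : a = x * (x⁻¹ * a * x) * x⁻¹ := by group
      rw [e, h]
      group
    have hb2 : (x⁻¹ * t * x)⁻¹ * (x⁻¹ * a * x) * (x⁻¹ * t * x) ∈ H := by
      have e : (x⁻¹ * t * x)⁻¹ * (x⁻¹ * a * x) * (x⁻¹ * t * x) = x⁻¹ * (t⁻¹ * a * t) * x := by
        group
      have e3 : t⁻¹ * a * t = a⁻¹ := by
        rw [htinv]
        exact hinv
      have e4 : x⁻¹ * a⁻¹ * x = (x⁻¹ * a * x)⁻¹ := by group
      rw [e, e3, e4]
      exact H.inv_mem hax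
    have hu : x⁻¹ * t * x ∈ H := hTI' _ _ hb1 hax hb2
    have hxH : x ∈ H := hTI' x t ht1 ht hu
    have haH : a ∈ H := by
      have e : a = x * (x⁻¹ * a * x) * x⁻¹ := by group
      rw [e]
      exact H.mul_mem (H.mul_mem hxH hax) (H.inv_mem hxH)
    have hcH : r * t * r⁻¹ ∈ H := by
      have e : r * t * r⁻¹ = t * a := by
        rw [ha, ← mul_assoc, ht2, one_mul]
      rw [e]
      exact H.mul_mem ht haH
    have hc1 : r * t * r⁻¹ ≠ 1 := fun h => ht1 (conj_eq_one_iff.mp h)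
    apply hr
    apply hTI' r _ hc1 hcH
    have e : r⁻¹ * (r * t * r⁻¹) * r = t := by group
    rw [e]
    exact ht
  obtain ⟨s, hs⟩ : ∃ s : G ⧸ H → G, ∀ q, (s q : G ⧸ H) = q :=
    ⟨Quotient.out, QuotientGroup.out_eq'⟩
  have hsH : ∀ q : G ⧸ H, q ≠ ((1 : G) : G ⧸ H) → s q ∉ H := by
    intro q hq hmem
    apply hq
    rw [← hs q, QuotientGroup.eq]
    simpa using H.inv_mem hmem
  have h1K : (1 : G) ∈ Cfsg.frobeniusKernel H := Or.inl rfl
  let ψ : ↥((Set.univ : Set (G ⧸ H)) \ {((1 : G) : G ⧸ H)}) →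
      ↥(Cfsg.frobeniusKernel H \ {1}) :=
    fun q => ⟨t * (s q.1 * t * (s q.1)⁻¹),
      ⟨hA _ (hsH q.1 (fun h => q.2.2 h)), hA1 _ (hsH q.1 (fun h => q.2.2 h))⟩⟩
  have hψinj : Function.Injective ψ := by
    intro q q' heq
    have h1 : t * (s q.1 * t * (s q.1)⁻¹) = t * (s q'.1 * t * (s q'.1)⁻¹) :=
      congrArg Subtype.val heq
    have h2 : s q.1 * t * (s q.1)⁻¹ = s q'.1 * t * (s q'.1)⁻¹ := mul_left_cancel h1
    have h3 : (s q.1)⁻¹ * s q'.1 ∈ H := by
      apply hB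
      have e : (s q.1)⁻¹ * s q'.1 * t =
          (s q.1)⁻¹ * (s q'.1 * t * (s q'.1)⁻¹) * s q'.1 := by group
      rw [e, ← h2]
      group
    apply Subtype.ext
    have h4 := QuotientGroup.eq.mpr h3
    rwa [hs, hs] at h4
  have hcard1 : Nat.card ↥((Set.univ : Set (G ⧸ H)) \ {((1 : G) : G ⧸ H)}) + 1 = H.index := by
    rw [Nat.card_coe_set_eq, Set.ncard_diff_singleton_add_one (Set.mem_univ _), Set.ncard_univ]
    rfl
  have hcard2 : Nat.card ↥(Cfsg.frobeniusKernel H \ {1}) + 1 = H.index := by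
    rw [Nat.card_coe_set_eq, Set.ncard_diff_singleton_add_one h1K, ← Nat.card_coe_set_eq]
    exact Cfsg.Agent.Helper1.card_frobeniusKernel H hTI
  have hψbij : Function.Bijective ψ := hψinj.bijective_of_nat_card_le (by omega)
  refine ⟨hA, ?_, ?_⟩
  · intro x hxK hx1
    obtain ⟨q, hq⟩ := hψbij.2 ⟨x, ⟨hxK, hx1⟩⟩
    exact ⟨s q.1, hsH q.1 (fun h => q.2.2 h), (congrArg Subtype.val hq).symm⟩
  · intro h hh
    obtain ⟨g, hg⟩ : ∃ g : G, g ∉ H := by
      by_contra hcon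
      push_neg at hcon
      exact hHtop (eq_top_iff.mpr (fun g _ => hcon g))
    have hq0 : (g : G ⧸ H) ≠ ((1 : G) : G ⧸ H) := by
      intro h0
      apply hg
      have h1 := QuotientGroup.eq.mp h0
      simpa using H.inv_mem h1
    obtain ⟨r, hr⟩ : ∃ r : G, r = s (g : G ⧸ H) := ⟨_, rfl⟩
    have hrH : r ∉ H := by
      rw [hr]
      exact hsH _ hq0
    have hrh : r * h ∉ H := fun h0 => hrH (by simpa using H.mul_mem h0 (H.inv_mem hh))
    obtain ⟨q', hq'⟩ := hψbij.2 ⟨t * (r * h * t * (r * h)⁻¹), ⟨hA _ hrh, hA1 _ hrh⟩⟩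
    have h1 : t * (s q'.1 * t * (s q'.1)⁻¹) = t * (r * h * t * (r * h)⁻¹) :=
      congrArg Subtype.val hq'
    have h2 : s q'.1 * t * (s q'.1)⁻¹ = r * h * t * (r * h)⁻¹ := mul_left_cancel h1
    have h3 : (s q'.1)⁻¹ * (r * h) ∈ H := by
      apply hB
      have e : (s q'.1)⁻¹ * (r * h) * t =
          (s q'.1)⁻¹ * (r * h * t * (r * h)⁻¹) * (r * h) := by group
      rw [e, ← h2]
      group
    have h4 : (s q'.1)⁻¹ * r ∈ H := by
      have h0 := H.mul_mem h3 (H.inv_mem hh)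
      have e : (s q'.1)⁻¹ * r = (s q'.1)⁻¹ * (r * h) * h⁻¹ := by group
      rw [e]
      exact h0
    have h5 : s q'.1 = r := by
      have h0 := QuotientGroup.eq.mpr h4
      rw [hs, hr, hs] at h0
      rw [hr, h0]
    rw [h5] at h2
    have h6 : h * t * h⁻¹ = t := by
      have e : h * t * h⁻¹ = r⁻¹ * (r * h * t * (r * h)⁻¹) * r := by group
      rw [e, ← h2]
      group
    calc h * t = h * t * h⁻¹ * h := by group
      _ = t * h := by rw [h6]

/-- When a Frobenius complement contains an involution, an elementary argument shows the Frobenius kernel is closed under multiplication (hence a subgroup). -/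
theorem result {G : Type*} [Group G] [Finite G] (H : Subgroup G) (hH : Cfsg.IsFrobeniusComplement H)
    (t : G) (ht : t ∈ H) (ht1 : t ≠ 1) (ht2 : t * t = 1) :
    ∀ x ∈ Cfsg.frobeniusKernel H, ∀ y ∈ Cfsg.frobeniusKernel H, x * y ∈ Cfsg.frobeniusKernel H := by
  obtain ⟨hA, hC, hD⟩ := frob_invol H hH t ht ht1 ht2
  intro x hx y hy
  by_cases hx1 : x = 1
  · rw [hx1, one_mul]
    exact hy
  by_cases hy1 : y = 1
  · rw [hy1, mul_one]
    exact hx
  obtain ⟨r, hr, rfl⟩ := hC x hx hx1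
  have hyK : r⁻¹ * y * r ∈ Cfsg.frobeniusKernel H := by
    rcases hy with h | h
    · exact absurd h hy1
    · refine Or.inr ?_
      intro g hg
      apply h (r * g)
      rw [← Cfsg.Agent.Helper1.conj_smul_smul]
      exact Cfsg.Agent.Helper1.mem_conj_smul.mpr hg
  have hy1' : r⁻¹ * y * r ≠ 1 := by
    intro h
    apply hy1
    have e : y = r * (r⁻¹ * y * r) * r⁻¹ := by group
    rw [e, h]
    group
  obtain ⟨u, hu, huy⟩ := hC _ hyK hy1'
  have hy2 : y = (r * t * r⁻¹) * ((r * u) * t * (r * u)⁻¹) := by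
    have e : y = r * (r⁻¹ * y * r) * r⁻¹ := by group
    rw [e, huy]
    group
  have hss : (r * t * r⁻¹) * (r * t * r⁻¹) = 1 := by
    have e : (r * t * r⁻¹) * (r * t * r⁻¹) = r * (t * t) * r⁻¹ := by group
    rw [e, ht2]
    group
  have key : ∀ S W : G, S * S = 1 → t * S * (S * W) = t * W := by
    intro S W h
    rw [mul_assoc, ← mul_assoc S S W, h, one_mul]
  have hxy : t * (r * t * r⁻¹) * y = t * ((r * u) * t * (r * u)⁻¹) := by
    rw [hy2]
    exact key _ _ hss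
  rw [hxy]
  by_cases hru : r * u ∈ H
  · have h1 := hD _ hru
    have h2 : (r * u) * t * (r * u)⁻¹ = t := by
      rw [h1]
      group
    rw [h2, ht2]
    exact Or.inl rfl
  · exact hA _ hru

end Cfsg.Agent.S0036
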