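import Cfsg.Statements.S0043
import Mathlib
import Cfsg.Agent.Helper1.SZ
import Cfsg.Agent.Helper1.CharSub

set_option autoImplicit false
open Cfsg

namespace Cfsg.Agent.S0043

/-- A minimal normal subgroup of a finite solvable group is abelian, and for some prime p all of its elements have order dividing p. -/
theorem result {G : Type*} [Group G] [Finite G] [Group.IsSolvable G]
    (N : Subgroup G) [N.Normal] (hN : N ≠ ⊥) (hmin : ∀ M : Subgroup G, M.Normal → M ≤ N → M = ⊥ ∨ M = N) :
    IsMulCommutative N ∧ ∃ p : ℕ, p.Prime ∧ ∀ x ∈ N, x ^ p = 1 := by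
  haveI : Nontrivial N := (Subgroup.nontrivial_iff_ne_bot N).mpr hN
  obtain ⟨p, hp, A, hAchar, hAne, hAcomm, hApow⟩ := Cfsg.Agent.Helper1.exists_char_elemAbelian N
  have hnorm : (A.map N.subtype).Normal := by
    rw [← Subgroup.normalizer_eq_top_iff]
    apply top_le_iff.mp
    have h1 := Cfsg.Agent.Helper1.normalizer_le_normalizer_map_char N A
    rwa [Subgroup.normalizer_eq_top_iff.mpr ‹N.Normal›] at h1
  have hle : A.map N.subtype ≤ N := Subgroup.map_subtype_le A
  have hAeq : A.map N.subtype = N := by
    rcases hmin _ hnorm hle with h | h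
    · exfalso
      apply hAne
      rw [eq_bot_iff]
      intro a ha
      have h2 : (a : G) ∈ A.map N.subtype := Subgroup.mem_map_of_mem N.subtype ha
      rw [h, Subgroup.mem_bot] at h2
      exact Subgroup.mem_bot.mpr (Subtype.ext h2)
    · exact h
  have hall : ∀ x : N, x ∈ A := by
    intro x
    have h2 : (x : G) ∈ A.map N.subtype := by rw [hAeq]; exact x.2
    obtain ⟨a, ha, hax⟩ := h2
    have h3 : a = x := Subtype.ext hax
    rw [← h3]
    exact ha
  refine ⟨IsMulCommutative.of_comm (fun a b => hAcomm a (hall a) b (hall b)), p, hp, ?_⟩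
  intro x hx
  have h4 := hApow ⟨x, hx⟩ (hall _)
  simpa using congrArg Subtype.val h4

end Cfsg.Agent.S0043
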