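import Cfsg.Statements.S0044
import Mathlib
import Cfsg.Agent.Helper9.FStar

set_option autoImplicit false
open Cfsg

namespace Cfsg.Agent.S0044

/-- In a finite solvable group, the centraliser of the Fitting subgroup is contained in the Fitting subgroup. -/
theorem result {G : Type*} [Group G] [Finite G] [Group.IsSolvable G] :
    Subgroup.centralizer (Cfsg.fittingSubgroup G : Set G) ≤ Cfsg.fittingSubgroup G := by
  have hl : Cfsg.layer G = ⊥ := by
    unfold Cfsg.layer
    rw [sSup_eq_bot]
    intro K hK
    exact absurd (inferInstance : Group.IsSolvable K) (Cfsg.Agent.Helper9.quasi_not_solvable hK.2)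
  have h := Cfsg.Agent.Helper9.centralizer_genFitting_le (G := G)
  unfold Cfsg.generalizedFittingSubgroup at h
  rw [hl, bot_sup_eq] at h
  exact h

end Cfsg.Agent.S0044
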