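import Cfsg.Statements.S0046
import Mathlib
import Cfsg.Agent.Helper1.Frob
import Cfsg.Agent.Helper1.SZ
import Cfsg.Agent.Helper1.Coprime
import Cfsg.Agent.Helper1.Basic3
import Cfsg.Agent.Helper4.MaxPrimeIndex

set_option autoImplicit false
open Cfsg

open Pointwise
universe u

namespace Cfsg.Agent.S0046

theorem aux : ∀ (n : ℕ) (G : Type u) [Group G] [Finite G], Nat.card G = n →
    (∀ M : Subgroup G, IsCoatom M → Group.IsNilpotent M) → Group.IsSolvable G := by
  intro n
  induction n using Nat.strong_induction_on with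
  | _ n ih =>
    intro G _ _ hn h
    classical
    by_cases hsimple : ∃ N : Subgroup G, N.Normal ∧ N ≠ ⊥ ∧ N ≠ ⊤
    · obtain ⟨N, hNn, hNbot, hNtop⟩ := hsimple
      haveI := hNn
      obtain ⟨M, hM, hNM⟩ := (eq_top_or_exists_le_coatom N).resolve_left hNtop
      haveI := h M hM
      have hNsolv : Group.IsSolvable N :=
        Group.isSolvable_of_isSolvable_injective (Subgroup.inclusion_injective hNM)
      have hQ : Group.IsSolvable (G ⧸ N) := by
        apply ih (Nat.card (G ⧸ N)) (by
          rw [← hn]
          exact Cfsg.Agent.Helper1.card_quotient_lt_of_ne_bot N hNbot) (G ⧸ N) rfl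
        intro M' hM'
        have hco := Cfsg.Agent.Helper4.isCoatom_comap_mk N M' hM'
        haveI := h _ hco
        have hmap : (M'.comap (QuotientGroup.mk' N)).map (QuotientGroup.mk' N) = M' :=
          Subgroup.map_comap_eq_self_of_surjective (QuotientGroup.mk'_surjective N) M'
        have hnil := Group.nilpotent_of_surjective
          ((QuotientGroup.mk' N).subgroupMap (M'.comap (QuotientGroup.mk' N)))
          (MonoidHom.subgroupMap_surjective _ _)
        rw [hmap] at hnil
        exact hnil
      exact (Group.isSolvable_iff_subgroup_quotient N).mpr ⟨hNsolv, hQ⟩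
    · push_neg at hsimple
      by_contra hns
      have hcoatom_ne_bot : ∀ M : Subgroup G, IsCoatom M → M ≠ ⊥ := by
        intro M hM hbot
        apply hns
        apply Group.isSolvable_of_comm
        intro a b
        by_cases ha : a = 1
        · rw [ha, one_mul, mul_one]
        · have hz : Subgroup.zpowers a = ⊤ := by
            apply hM.2
            rw [hbot]
            exact bot_lt_iff_ne_bot.mpr (fun h0 => ha (Subgroup.zpowers_eq_bot.mp h0))
          have hb : b ∈ Subgroup.zpowers a := by
            rw [hz]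
            exact Subgroup.mem_top b
          obtain ⟨j, rfl⟩ := Subgroup.mem_zpowers_iff.mp hb
          exact ((Commute.refl a).zpow_right j).eq
      have hnn : ∀ M : Subgroup G, IsCoatom M → ¬ M.Normal := by
        intro M hM hMn
        exact hM.1 (hsimple M hMn (hcoatom_ne_bot M hM))
      have hTIco : ∀ M₁ M₂ : Subgroup G, IsCoatom M₁ → IsCoatom M₂ → M₁ ≠ M₂ →
          M₁ ⊓ M₂ = ⊥ := by
        by_contra hcon
        push_neg at hcon
        obtain ⟨A, B, hA, hB, hAB, hD⟩ := hcon
        haveI : Nonempty {p : Subgroup G × Subgroup G //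
            IsCoatom p.1 ∧ IsCoatom p.2 ∧ p.1 ≠ p.2} := ⟨⟨(A, B), hA, hB, hAB⟩⟩
        obtain ⟨⟨⟨M₁, M₂⟩, hM₁, hM₂, hne⟩, hmax⟩ := Finite.exists_max
          (fun p : {p : Subgroup G × Subgroup G // IsCoatom p.1 ∧ IsCoatom p.2 ∧ p.1 ≠ p.2} =>
            Nat.card (p.1.1 ⊓ p.1.2 : Subgroup G))
        have hM₁' : IsCoatom M₁ := hM₁
        have hM₂' : IsCoatom M₂ := hM₂
        have hne' : M₁ ≠ M₂ := hne
        have hDne : M₁ ⊓ M₂ ≠ ⊥ := by
          intro h0
          have h1 : Nat.card (A ⊓ B : Subgroup G) ≤ Nat.card (M₁ ⊓ M₂ : Subgroup G) :=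
            hmax ⟨(A, B), hA, hB, hAB⟩
          rw [h0, Subgroup.card_bot] at h1
          have h2 : 0 < Nat.card (A ⊓ B : Subgroup G) := Nat.card_pos
          exact hD (Subgroup.card_eq_one.mp (by omega))
        obtain ⟨D, hDdef⟩ : ∃ D : Subgroup G, D = M₁ ⊓ M₂ := ⟨_, rfl⟩
        rw [← hDdef] at hDne
        have hD1 : D ≤ M₁ := by rw [hDdef]; exact inf_le_left
        have hD2 : D ≤ M₂ := by rw [hDdef]; exact inf_le_right
        have hDne1 : D ≠ M₁ := by
          intro h0
          apply hne'
          have hle : M₁ ≤ M₂ := by rw [← h0]; exact hD2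
          by_contra hne2
          exact hM₂'.1 (hM₁'.2 M₂ (lt_of_le_of_ne hle hne2))
        have hDne2 : D ≠ M₂ := by
          intro h0
          apply hne'
          have hle : M₂ ≤ M₁ := by rw [← h0]; exact hD1
          by_contra hne2
          exact hM₁'.1 (hM₂'.2 M₁ (lt_of_le_of_ne hle (Ne.symm hne2)))
        have hNtop : Subgroup.normalizer (D : Set G) ≠ ⊤ := by
          intro h0
          have hDn : D.Normal := Subgroup.normalizer_eq_top_iff.mp h0
          have h1 := hsimple D hDn hDne
          rw [h1] at hD1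
          exact hM₁'.1 (top_le_iff.mp hD1)
        obtain ⟨M₃, hM₃, hNM₃⟩ := (eq_top_or_exists_le_coatom _).resolve_left hNtop
        haveI := h M₁ hM₁'
        haveI := h M₂ hM₂'
        obtain ⟨x, hxM, hxD, hxN⟩ := Cfsg.Agent.Helper1.exists_normalizer_mem M₁ D hD1 hDne1
        obtain ⟨y, hyM, hyD, hyN⟩ := Cfsg.Agent.Helper1.exists_normalizer_mem M₂ D hD2 hDne2
        have hDM₃ : D ≤ M₃ := Subgroup.le_normalizer.trans hNM₃
        have key : ∀ M : Subgroup G, IsCoatom M → ∀ z : G, D ≤ M → z ∈ M → z ∉ D → z ∈ M₃ →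
            M = M₃ := by
          intro M hM z hDM hzM hzD hzM₃
          by_contra hne3
          have h1 : Nat.card (M ⊓ M₃ : Subgroup G) ≤ Nat.card (M₁ ⊓ M₂ : Subgroup G) :=
            hmax ⟨(M, M₃), hM, hM₃, hne3⟩
          rw [← hDdef] at h1
          have hle : D ≤ M ⊓ M₃ := le_inf hDM hDM₃
          have heq : D = M ⊓ M₃ := Subgroup.eq_of_le_of_card_ge hle h1
          apply hzD
          rw [heq]
          exact Subgroup.mem_inf.mpr ⟨hzM, hzM₃⟩
        have e1 := key M₁ hM₁' x hD1 hxM hxD (hNM₃ hxN)
        have e2 := key M₂ hM₂' y hD2 hyM hyD (hNM₃ hyN)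
        exact hne' (e1.trans e2.symm)
      haveI : Nontrivial G := by
        by_contra hnt
        rw [not_nontrivial_iff_subsingleton] at hnt
        exact hns inferInstance
      obtain ⟨M, hM⟩ : ∃ M : Subgroup G, IsCoatom M := by
        obtain ⟨M, hM, -⟩ := (eq_top_or_exists_le_coatom (⊥ : Subgroup G)).resolve_left bot_ne_top
        exact ⟨M, hM⟩
      have hTIM : ∀ M : Subgroup G, IsCoatom M → ∀ g : G, g ∉ M →
          M ⊓ MulAut.conj g • M = ⊥ := by
        intro M hM g hg
        apply hTIco M _ hM (Cfsg.Agent.Helper1.isCoatom_conj hM g)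
        intro heq
        have hgN : g ∈ Subgroup.normalizer (M : Set G) :=
          Cfsg.Agent.Helper1.mem_normalizer_iff_conj_smul.mpr heq.symm
        have hNM : Subgroup.normalizer (M : Set G) = M := by
          by_contra hne'
          have h0 := hM.2 _ (lt_of_le_of_ne Subgroup.le_normalizer (Ne.symm hne'))
          exact hnn M hM (Subgroup.normalizer_eq_top_iff.mp h0)
        rw [hNM] at hgN
        exact hg hgN
      have hcount : ∀ M : Subgroup G, IsCoatom M →
          Nat.card G ≤ 2 * Nat.card (Cfsg.Agent.Helper1.conjUnion M) := by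
        intro M hM
        have h1 := Cfsg.Agent.Helper1.card_conjUnion M (hTIM M hM)
        have h2 := Subgroup.card_mul_index M
        have h3 : 2 ≤ Nat.card M := by
          have h5 : Nat.card M ≠ 1 := fun h0 => hcoatom_ne_bot M hM (Subgroup.card_eq_one.mp h0)
          have h6 : 0 < Nat.card M := Nat.card_pos
          omega
        have h4 : 2 * M.index ≤ Nat.card G := by
          rw [← h2]
          exact Nat.mul_le_mul_right _ h3
        omega
      have hidx2 : 2 ≤ M.index := by
        have h1 : M.index ≠ 1 := fun h0 => hM.1 (Subgroup.index_eq_one.mp h0)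
        have h2 : M.index ≠ 0 := Subgroup.index_ne_zero_of_finite
        omega
      obtain ⟨x, hx1, hxU⟩ : ∃ x : G, x ≠ 1 ∧ x ∉ Cfsg.Agent.Helper1.conjUnion M := by
        by_contra hcon
        push_neg at hcon
        have hsub : ({1}ᶜ : Set G) ⊆ Cfsg.Agent.Helper1.conjUnion M := fun x hx => hcon x hx
        have h1 := Set.ncard_le_ncard hsub
        have h2 := Set.ncard_add_ncard_compl ({1} : Set G)
        rw [Set.ncard_singleton] at h2
        have h3 := Cfsg.Agent.Helper1.card_conjUnion M (hTIM M hM)
        rw [Nat.card_coe_set_eq] at h3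
        omega
      have hzx : Subgroup.zpowers x ≠ ⊤ := by
        intro h0
        apply hns
        apply Group.isSolvable_of_comm
        intro a b
        have ha : a ∈ Subgroup.zpowers x := by rw [h0]; exact Subgroup.mem_top a
        have hb : b ∈ Subgroup.zpowers x := by rw [h0]; exact Subgroup.mem_top b
        obtain ⟨i, rfl⟩ := Subgroup.mem_zpowers_iff.mp ha
        obtain ⟨j, rfl⟩ := Subgroup.mem_zpowers_iff.mp hb
        rw [← zpow_add, ← zpow_add, add_comm]
      obtain ⟨M', hM', hxM'⟩ := (eq_top_or_exists_le_coatom _).resolve_left hzx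
      have hxM'' : x ∈ M' := hxM' (Subgroup.mem_zpowers x)
      have hdisj : Disjoint (Cfsg.Agent.Helper1.conjUnion M)
          (Cfsg.Agent.Helper1.conjUnion M') := by
        rw [Set.disjoint_left]
        rintro y ⟨hy1, a, hya⟩ ⟨-, b, hyb⟩
        have heq : MulAut.conj a • M = MulAut.conj b • M' := by
          by_contra hne'
          have h0 := hTIco _ _ (Cfsg.Agent.Helper1.isCoatom_conj hM a)
            (Cfsg.Agent.Helper1.isCoatom_conj hM' b) hne'
          have hy : y ∈ MulAut.conj a • M ⊓ MulAut.conj b • M' :=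
            Subgroup.mem_inf.mpr ⟨hya, hyb⟩
          rw [h0, Subgroup.mem_bot] at hy
          exact hy1 hy
        apply hxU
        refine ⟨hx1, b⁻¹ * a, ?_⟩
        rw [← Cfsg.Agent.Helper1.conj_smul_smul, heq, Cfsg.Agent.Helper1.conj_smul_inv_smul]
        exact hxM''
      have h1 := hcount M hM
      have h2 := hcount M' hM'
      have hsub : Cfsg.Agent.Helper1.conjUnion M ∪ Cfsg.Agent.Helper1.conjUnion M' ⊆
          ({1}ᶜ : Set G) := by
        rintro y (hy | hy)
        · exact hy.1
        · exact hy.1
      have h3 := Set.ncard_le_ncard hsub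
      rw [Set.ncard_union_eq hdisj] at h3
      have h4 := Set.ncard_add_ncard_compl ({1} : Set G)
      rw [Set.ncard_singleton] at h4
      rw [Nat.card_coe_set_eq] at h1 h2
      omega

/-- Schmidt's Theorem on minimal non-nilpotent groups: a finite group in which every maximal subgroup is nilpotent is solvable. -/
theorem result {G : Type*} [Group G] [Finite G]
    (h : ∀ M : Subgroup G, IsCoatom M → Group.IsNilpotent M) : Group.IsSolvable G := by
  exact aux _ G rfl h

end Cfsg.Agent.S0046
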