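import Cfsg.Statements.S0047
import Mathlib

set_option autoImplicit false
open Cfsg
open scoped commutatorElement

namespace Cfsg.Agent.S0047

theorem comm_of_mem {G : Type*} [Group G] {A : Subgroup G} [IsMulCommutative A] {x y : G}
    (hx : x ∈ A) (hy : y ∈ A) : x * y = y * x := by
  have h := mul_comm' (⟨x, hx⟩ : A) ⟨y, hy⟩
  exact congrArg Subtype.val h

theorem comm_mul_left {G : Type*} [Group G] (x y z : G) (h : y * z = z * y) :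
    ⁅x * y, z⁆ = ⁅x, z⁆ := by
  rw [commutatorElement_def, commutatorElement_def]
  have h1 : y * z * y⁻¹ = z := by rw [h]; group
  calc x * y * z * (x * y)⁻¹ * z⁻¹ = x * (y * z * y⁻¹) * x⁻¹ * z⁻¹ := by group
    _ = x * z * x⁻¹ * z⁻¹ := by rw [h1]

theorem comm_mul_right {G : Type*} [Group G] (x y z : G) (h : z * x = x * z) :
    ⁅x, y * z⁆ = ⁅x, y⁆ := by
  rw [commutatorElement_def, commutatorElement_def]
  have h1 : z * x⁻¹ * z⁻¹ = x⁻¹ := by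
    have : z * x⁻¹ = x⁻¹ * z := by
      have h2 : x⁻¹ * (z * x) * x⁻¹ = x⁻¹ * (x * z) * x⁻¹ := by rw [h]
      simpa [mul_assoc] using h2.symm
    rw [this]; group
  calc x * (y * z) * x⁻¹ * (y * z)⁻¹ = x * y * (z * x⁻¹ * z⁻¹) * y⁻¹ := by group
    _ = x * y * x⁻¹ * y⁻¹ := by rw [h1]

theorem conj_comm {G : Type*} [Group G] (g x y : G) :
    g * ⁅x, y⁆ * g⁻¹ = ⁅g * x * g⁻¹, g * y * g⁻¹⁆ := by
  rw [commutatorElement_def, commutatorElement_def]; group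

theorem left_le_normalizer_commutator {G : Type*} [Group G] (A B : Subgroup G) :
    A ≤ Subgroup.normalizer ((⁅A, B⁆ : Subgroup G) : Set G) := by
  have key : ∀ a₁ ∈ A, ∀ x ∈ ⁅A, B⁆, a₁ * x * a₁⁻¹ ∈ ⁅A, B⁆ := by
    intro a₁ ha₁ x hx
    rw [Subgroup.commutator_def] at hx
    induction hx using Subgroup.closure_induction with
    | mem z hz =>
      obtain ⟨a, ha, b, hb, rfl⟩ := hz
      have h1 : a₁ * ⁅a, b⁆ * a₁⁻¹ = ⁅a₁ * a, b⁆ * ⁅a₁, b⁆⁻¹ := by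
        simp only [commutatorElement_def]; group
      rw [h1]
      exact Subgroup.mul_mem _ (Subgroup.commutator_mem_commutator (A.mul_mem ha₁ ha) hb)
        (Subgroup.inv_mem _ (Subgroup.commutator_mem_commutator ha₁ hb))
    | one => simp
    | mul y z _ _ ihy ihz =>
      have h1 : a₁ * (y * z) * a₁⁻¹ = (a₁ * y * a₁⁻¹) * (a₁ * z * a₁⁻¹) := by group
      rw [h1]
      exact Subgroup.mul_mem _ ihy ihz
    | inv y _ ihy =>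
      have h1 : a₁ * y⁻¹ * a₁⁻¹ = (a₁ * y * a₁⁻¹)⁻¹ := by group
      rw [h1]
      exact Subgroup.inv_mem _ ihy
  intro a₁ ha₁
  rw [Subgroup.mem_normalizer_iff]
  intro x
  constructor
  · exact key a₁ ha₁ x
  · intro hx
    have := key a₁⁻¹ (A.inv_mem ha₁) _ hx
    simpa [mul_assoc] using this

theorem right_le_normalizer_commutator {G : Type*} [Group G] (A B : Subgroup G) :
    B ≤ Subgroup.normalizer ((⁅A, B⁆ : Subgroup G) : Set G) := by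
  rw [Subgroup.commutator_comm]
  exact left_le_normalizer_commutator B A

/-- A finite group which is the product AB of two abelian subgroups A and B is solvable. -/
theorem result {G : Type*} [Group G] [Finite G] (A B : Subgroup G)
    [IsMulCommutative A] [IsMulCommutative B] (hAB : ∀ g : G, ∃ a ∈ A, ∃ b ∈ B, g = a * b) :
    Group.IsSolvable G := by
  have hBA : ∀ g : G, ∃ b ∈ B, ∃ a ∈ A, g = b * a := by
    intro g
    obtain ⟨a, ha, b, hb, h⟩ := hAB g⁻¹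
    refine ⟨b⁻¹, B.inv_mem hb, a⁻¹, A.inv_mem ha, ?_⟩
    have : g = (g⁻¹)⁻¹ := by simp
    rw [this, h]; group
  -- key computation
  have key : ∀ a ∈ A, ∀ b ∈ B, ∀ a₁ ∈ A, ∀ b₁ ∈ B,
      (a₁ * b₁) * ⁅a, b⁆ * (a₁ * b₁)⁻¹ = (b₁ * a₁) * ⁅a, b⁆ * (b₁ * a₁)⁻¹ := by
    intro a ha b hb a₁ ha₁ b₁ hb₁
    obtain ⟨a', ha', b', hb', h1⟩ := hAB (b₁ * a * b₁⁻¹)
    obtain ⟨b'', hb'', a'', ha'', h2⟩ := hBA (a₁ * b * a₁⁻¹)
    have e1 : b₁ * b * b₁⁻¹ = b := by rw [comm_of_mem hb₁ hb]; group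
    have e2 : a₁ * a * a₁⁻¹ = a := by rw [comm_of_mem ha₁ ha]; group
    have e3 : a₁ * a' * a₁⁻¹ = a' := by rw [comm_of_mem ha₁ ha']; group
    have e4 : b₁ * b'' * b₁⁻¹ = b'' := by rw [comm_of_mem hb₁ hb'']; group
    have lhs : (a₁ * b₁) * ⁅a, b⁆ * (a₁ * b₁)⁻¹ = ⁅a', b''⁆ := by
      calc (a₁ * b₁) * ⁅a, b⁆ * (a₁ * b₁)⁻¹ = a₁ * (b₁ * ⁅a, b⁆ * b₁⁻¹) * a₁⁻¹ := by group
        _ = a₁ * ⁅a' * b', b⁆ * a₁⁻¹ := by rw [conj_comm, h1, e1]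
        _ = a₁ * ⁅a', b⁆ * a₁⁻¹ := by rw [comm_mul_left a' b' b (comm_of_mem hb' hb)]
        _ = ⁅a', b'' * a''⁆ := by rw [conj_comm, e3, h2]
        _ = ⁅a', b''⁆ := by rw [comm_mul_right a' b'' a'' (comm_of_mem ha'' ha')]
    have rhs : (b₁ * a₁) * ⁅a, b⁆ * (b₁ * a₁)⁻¹ = ⁅a', b''⁆ := by
      calc (b₁ * a₁) * ⁅a, b⁆ * (b₁ * a₁)⁻¹ = b₁ * (a₁ * ⁅a, b⁆ * a₁⁻¹) * b₁⁻¹ := by group
        _ = b₁ * ⁅a, b'' * a''⁆ * b₁⁻¹ := by rw [conj_comm, e2, h2]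
        _ = b₁ * ⁅a, b''⁆ * b₁⁻¹ := by rw [comm_mul_right a b'' a'' (comm_of_mem ha'' ha)]
        _ = ⁅a' * b', b''⁆ := by rw [conj_comm, h1, e4]
        _ = ⁅a', b''⁆ := by rw [comm_mul_left a' b' b'' (comm_of_mem hb' hb'')]
    rw [lhs, rhs]
  -- generators commute
  have hgen : ∀ a ∈ A, ∀ b ∈ B, ∀ a₁ ∈ A, ∀ b₁ ∈ B, ⁅a₁, b₁⁆ * ⁅a, b⁆ = ⁅a, b⁆ * ⁅a₁, b₁⁆ := by
    intro a ha b hb a₁ ha₁ b₁ hb₁
    have h := key a ha b hb a₁⁻¹ (A.inv_mem ha₁) b₁⁻¹ (B.inv_mem hb₁)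
    have h3 : ⁅a₁, b₁⁆ = (b₁⁻¹ * a₁⁻¹)⁻¹ * (a₁⁻¹ * b₁⁻¹) := by
      rw [commutatorElement_def]; group
    rw [h3]
    have h4 : (b₁⁻¹ * a₁⁻¹)⁻¹ * ((a₁⁻¹ * b₁⁻¹) * ⁅a, b⁆ * (a₁⁻¹ * b₁⁻¹)⁻¹) * (a₁⁻¹ * b₁⁻¹)
        = (b₁⁻¹ * a₁⁻¹)⁻¹ * ((b₁⁻¹ * a₁⁻¹) * ⁅a, b⁆ * (b₁⁻¹ * a₁⁻¹)⁻¹) * (a₁⁻¹ * b₁⁻¹) := by
      rw [h]
    calc (b₁⁻¹ * a₁⁻¹)⁻¹ * (a₁⁻¹ * b₁⁻¹) * ⁅a, b⁆
        = (b₁⁻¹ * a₁⁻¹)⁻¹ * ((a₁⁻¹ * b₁⁻¹) * ⁅a, b⁆ * (a₁⁻¹ * b₁⁻¹)⁻¹) * (a₁⁻¹ * b₁⁻¹) := by group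
      _ = (b₁⁻¹ * a₁⁻¹)⁻¹ * ((b₁⁻¹ * a₁⁻¹) * ⁅a, b⁆ * (b₁⁻¹ * a₁⁻¹)⁻¹) * (a₁⁻¹ * b₁⁻¹) := h4
      _ = ⁅a, b⁆ * ((b₁⁻¹ * a₁⁻¹)⁻¹ * (a₁⁻¹ * b₁⁻¹)) := by group
  set S : Set G := {g | ∃ a ∈ A, ∃ b ∈ B, ⁅a, b⁆ = g} with hS
  have hN : ⁅A, B⁆ = Subgroup.closure S := Subgroup.commutator_def A B
  have hS1 : S ⊆ Subgroup.centralizer S := by
    rintro _ ⟨a, ha, b, hb, rfl⟩
    rw [SetLike.mem_coe, Subgroup.mem_centralizer_iff]
    rintro _ ⟨a₁, ha₁, b₁, hb₁, rfl⟩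
    exact hgen a ha b hb a₁ ha₁ b₁ hb₁
  have hS2 : Subgroup.closure S ≤ Subgroup.centralizer S := (Subgroup.closure_le _).mpr hS1
  have hS3 : S ⊆ Subgroup.centralizer (Subgroup.closure S : Set G) := by
    intro s hs
    rw [SetLike.mem_coe, Subgroup.mem_centralizer_iff]
    intro h hh
    exact ((Subgroup.mem_centralizer_iff.mp (hS2 hh)) s hs).symm
  have hS4 : Subgroup.closure S ≤ Subgroup.centralizer (Subgroup.closure S : Set G) :=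
    (Subgroup.closure_le _).mpr hS3
  have hNcomm : ∀ x y : (⁅A, B⁆ : Subgroup G), x * y = y * x := by
    intro x y
    apply Subtype.ext
    have hx : (x : G) ∈ Subgroup.closure S := hN ▸ x.2
    have hy : (y : G) ∈ Subgroup.closure S := hN ▸ y.2
    exact ((Subgroup.mem_centralizer_iff.mp (hS4 hx)) y hy).symm
  have hNn : (⁅A, B⁆ : Subgroup G).Normal := by
    rw [← Subgroup.normalizer_eq_top_iff, eq_top_iff]
    intro g _
    obtain ⟨a, ha, b, hb, rfl⟩ := hAB g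
    exact Subgroup.mul_mem _ (left_le_normalizer_commutator A B ha)
      (right_le_normalizer_commutator A B hb)
  have hNsolv : Group.IsSolvable (⁅A, B⁆ : Subgroup G) := Group.isSolvable_of_comm hNcomm
  have hQcomm : ∀ x y : G ⧸ (⁅A, B⁆ : Subgroup G), x * y = y * x := by
    intro x y
    induction x using QuotientGroup.induction_on with
    | H g =>
    induction y using QuotientGroup.induction_on with
    | H g' =>
    obtain ⟨a, ha, b, hb, rfl⟩ := hAB g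
    obtain ⟨a', ha', b', hb', rfl⟩ := hAB g'
    have hmk : ∀ x ∈ A, ∀ y ∈ B,
        (x : G ⧸ (⁅A, B⁆ : Subgroup G)) * (y : G ⧸ (⁅A, B⁆ : Subgroup G)) = y * x := by
      intro x hx y hy
      rw [← QuotientGroup.mk_mul, ← QuotientGroup.mk_mul, QuotientGroup.eq]
      have h1 : (x * y)⁻¹ * (y * x) = ⁅y⁻¹, x⁻¹⁆ := by rw [commutatorElement_def]; group
      rw [h1, Subgroup.commutator_comm]
      exact Subgroup.commutator_mem_commutator (B.inv_mem hy) (A.inv_mem hx)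
    have hαα' : (a : G ⧸ (⁅A, B⁆ : Subgroup G)) * a' = a' * a := by
      rw [← QuotientGroup.mk_mul, ← QuotientGroup.mk_mul, comm_of_mem ha ha']
    have hββ' : (b : G ⧸ (⁅A, B⁆ : Subgroup G)) * b' = b' * b := by
      rw [← QuotientGroup.mk_mul, ← QuotientGroup.mk_mul, comm_of_mem hb hb']
    have hβα' := (hmk a' ha' b hb).symm
    have hαβ' := hmk a ha b' hb'
    rw [QuotientGroup.mk_mul, QuotientGroup.mk_mul]
    calc (a : G ⧸ (⁅A, B⁆ : Subgroup G)) * b * (a' * b') = a * (b * a') * b' := by group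
      _ = a * (a' * b) * b' := by rw [hβα']
      _ = (a * a') * (b * b') := by group
      _ = (a' * a) * (b' * b) := by rw [hαα', hββ']
      _ = a' * (a * b') * b := by group
      _ = a' * (b' * a) * b := by rw [hαβ']
      _ = a' * b' * (a * b) := by group
  have hQsolv : Group.IsSolvable (G ⧸ (⁅A, B⁆ : Subgroup G)) := Group.isSolvable_of_comm hQcomm
  exact (Group.isSolvable_iff_subgroup_quotient (⁅A, B⁆ : Subgroup G)).mpr ⟨hNsolv, hQsolv⟩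

end Cfsg.Agent.S0047
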