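import Cfsg.Statements.S0048
import Mathlib
import Cfsg.Agent.Helper1.SZ
import Cfsg.Agent.Helper1.Basic2
import Cfsg.Agent.Helper4.CardMul

set_option autoImplicit false
open Cfsg

universe u

namespace Cfsg.Agent.S0048

theorem aux : ∀ (n : ℕ) (G : Type u) [Group G] [Finite G] [Group.IsSolvable G], Nat.card G = n →
    ∀ M : Subgroup G, IsCoatom M → IsPrimePow M.index := by
  intro n
  induction n using Nat.strong_induction_on with
  | _ n ih =>
    intro G _ _ _ hn M hM
    haveI : Nontrivial G := by
      by_contra h
      rw [not_nontrivial_iff_subsingleton] at h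
      exact hM.1 (Subsingleton.elim _ _)
    obtain ⟨p, hp, A, hAchar, hAne, hAcomm, hApow⟩ := Cfsg.Agent.Helper1.exists_char_elemAbelian G
    haveI hAn : A.Normal := inferInstance
    haveI : Fact p.Prime := ⟨hp⟩
    by_cases hAM : A ≤ M
    · have hco := Cfsg.Agent.Helper1.isCoatom_map_mk A M hM hAM
      have hlt : Nat.card (G ⧸ A) < n := by
        rw [← hn]
        exact Cfsg.Agent.Helper1.card_quotient_lt_of_ne_bot A hAne
      have h1 := ih _ hlt (G ⧸ A) rfl _ hco
      rwa [Subgroup.index_map_eq _ (QuotientGroup.mk'_surjective A)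
        (by rw [QuotientGroup.ker_mk']; exact hAM)] at h1
    · have htop : M ⊔ A = ⊤ :=
        hM.2 _ (lt_of_le_of_ne le_sup_left (fun h => hAM (by rw [h]; exact le_sup_right)))
      have h1 := Cfsg.Agent.Helper4.card_sup_mul_card_inf M A
        (by rw [Subgroup.normalizer_eq_top_iff.mpr hAn]; exact le_top)
      rw [htop, Subgroup.card_top] at h1
      have h2 := Subgroup.card_mul_index M
      have hdvd : M.index ∣ Nat.card A := by
        have h3 : Nat.card M * (M.index * Nat.card (M ⊓ A : Subgroup G)) =
            Nat.card M * Nat.card A := by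
          rw [← mul_assoc, h2, h1]
        have h4 := Nat.eq_of_mul_eq_mul_left Nat.card_pos h3
        exact Dvd.intro _ h4
      have hApg : IsPGroup p A := by
        intro a
        refine ⟨1, ?_⟩
        rw [pow_one]
        exact Subtype.ext (by simpa using hApow a a.2)
      obtain ⟨k, hk⟩ := (IsPGroup.iff_card (p := p)).mp hApg
      rw [hk] at hdvd
      obtain ⟨j, hj, hj'⟩ := (Nat.dvd_prime_pow hp).mp hdvd
      rw [hj']
      have hj0 : j ≠ 0 := by
        rintro rfl
        rw [pow_zero] at hj'
        exact hM.1 (Subgroup.index_eq_one.mp hj')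
      exact (Nat.Prime.isPrimePow hp).pow hj0

/-- In a finite solvable group every maximal subgroup has index a prime power. -/
theorem result {G : Type*} [Group G] [Finite G] [Group.IsSolvable G]
    (M : Subgroup G) (hM : IsCoatom M) : IsPrimePow M.index := by
  exact aux _ G rfl M hM

end Cfsg.Agent.S0048
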