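import Cfsg.Statements.S0049
import Mathlib

set_option autoImplicit false
open Cfsg

namespace Cfsg.Agent.S0049

/-- A prime divisor of the order of a finite group also divides the index of the Frattini subgroup. -/
theorem result {G : Type*} [Group G] [Finite G] (p : ℕ) (hp : p.Prime) (hdvd : p ∣ Nat.card G) :
    p ∣ (frattini G).index := by
  by_contra hnd
  haveI : Fact p.Prime := ⟨hp⟩
  obtain ⟨P⟩ : Nonempty (Sylow p (frattini G)) := inferInstance
  obtain ⟨P₀, hP₀⟩ : ∃ P₀ : Subgroup G,
      P₀ = (P : Subgroup (frattini G)).map (frattini G).subtype := ⟨_, rfl⟩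
  have hnorm : Subgroup.normalizer (P₀ : Set G) = ⊤ := by
    apply frattini_nongenerating
    rw [hP₀]
    exact Sylow.normalizer_sup_eq_top P
  haveI hP₀n : P₀.Normal := Subgroup.normalizer_eq_top_iff.mp hnorm
  have hidx : P₀.index = (P : Subgroup (frattini G)).index * (frattini G).index := by
    rw [hP₀]
    exact Subgroup.index_map_subtype _
  have hndvd : ¬ p ∣ P₀.index := by
    rw [hidx]
    intro h
    rcases (Nat.Prime.dvd_mul hp).mp h with h | h
    · exact P.not_dvd_index h
    · exact hnd h
  have hcardP : Nat.card P₀ = Nat.card (P : Subgroup (frattini G)) := by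
    rw [hP₀]
    exact Subgroup.card_map_of_injective (Subgroup.subtype_injective _)
  obtain ⟨k, hk⟩ := (IsPGroup.iff_card (p := p)).mp P.isPGroup'
  have hcop : (Nat.card P₀).Coprime P₀.index := by
    rw [hcardP, hk]
    exact Nat.Coprime.pow_left k ((Nat.Prime.coprime_iff_not_dvd hp).mpr hndvd)
  obtain ⟨H, hH⟩ := Subgroup.exists_right_complement'_of_coprime hcop
  have hHtop : H = ⊤ := by
    apply frattini_nongenerating
    apply top_le_iff.mp
    have h1 : P₀ ⊔ H = ⊤ := hH.sup_eq_top
    rw [← h1]
    refine sup_le ?_ le_sup_left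
    rw [hP₀]
    exact (Subgroup.map_subtype_le _).trans le_sup_right
  have hP₀bot : P₀ = ⊥ := by
    have h1 : P₀ ⊓ H = ⊥ := hH.disjoint.eq_bot
    rw [hHtop, inf_top_eq] at h1
    exact h1
  have h1 : Nat.card P₀ * P₀.index = Nat.card G := Subgroup.card_mul_index P₀
  rw [hP₀bot, Subgroup.card_bot, one_mul] at h1
  rw [hP₀bot] at hndvd
  apply hndvd
  rw [h1]
  exact hdvd

end Cfsg.Agent.S0049
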