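import Cfsg.Statements.S0050
import Cfsg.Agent.Helper1.Hall
import Cfsg.Agent.Helper1.Coprime

set_option autoImplicit false
open Cfsg
open Pointwise

namespace Cfsg.Agent.S0050

/-- Frattini argument for Hall subgroups: if L is a solvable normal subgroup and H a subgroup of L of order coprime to its index in L, then L together with the normaliser of H generates the whole group. -/
theorem result {G : Type*} [Group G] [Finite G] (L : Subgroup G) [L.Normal] (hL : Group.IsSolvable L)
    (H : Subgroup G) (hHL : H ≤ L) (hHall : (Nat.card H).Coprime (H.relIndex L)) :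
    L ⊔ Subgroup.normalizer (H : Set G) = ⊤ := by
  rw [eq_top_iff]
  intro g _
  have hgH : MulAut.conj g • H ≤ L := by
    intro x hx
    rw [Cfsg.Agent.Helper1.mem_conj_smul] at hx
    have := (inferInstance : L.Normal).conj_mem _ (hHL hx) g
    simpa [mul_assoc] using this
  have hc1 : Nat.card (H.subgroupOf L) = Nat.card H :=
    Nat.card_congr (Subgroup.subgroupOfEquivOfLe hHL).toEquiv
  have hc2 : Nat.card ((MulAut.conj g • H).subgroupOf L) = Nat.card H := by
    rw [Nat.card_congr (Subgroup.subgroupOfEquivOfLe hgH).toEquiv,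
      Cfsg.Agent.Helper1.card_conj_smul]
  have hcardL : Nat.card L = Nat.card H * H.relIndex L := by
    rw [← hc1]
    exact (Subgroup.card_mul_index (H.subgroupOf L)).symm
  obtain ⟨l, hl⟩ := Cfsg.Agent.Helper1.hall_conj (Nat.card H) (H.relIndex L) hcardL hHall
    (H.subgroupOf L) ((MulAut.conj g • H).subgroupOf L) hc1 hc2
  have h3 := Cfsg.Agent.Helper1.conj_of_conj_subgroupOf hHL hgH l hl
  have h4 : (l : G)⁻¹ * g ∈ Subgroup.normalizer (H : Set G) := by
    rw [Cfsg.Agent.Helper1.mem_normalizer_iff_conj_smul, ← Cfsg.Agent.Helper1.conj_smul_smul,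
      ← h3, Cfsg.Agent.Helper1.conj_smul_smul, inv_mul_cancel, map_one, one_smul]
  have h5 : g = (l : G) * ((l : G)⁻¹ * g) := by group
  rw [h5]
  exact Subgroup.mul_mem_sup l.2 h4

end Cfsg.Agent.S0050
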