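import Cfsg.Statements.S0052
import Mathlib
import Cfsg.Agent.Helper1.Gaschutz
import Cfsg.Agent.Helper1.Coprime

set_option autoImplicit false
open Pointwise
open Cfsg

open scoped IsMulCommutative

namespace Cfsg.Agent.S0052

/-- Gaschütz's Theorem, conjugacy: for an abelian normal subgroup K ≤ U with the order of K coprime to the index of U, two complements of K in G having the same intersection with U are conjugate. -/
theorem result {G : Type*} [Group G] [Finite G] (K U : Subgroup G) [K.Normal] [IsMulCommutative K]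
    (hKU : K ≤ U) (hcop : (Nat.card K).Coprime U.index)
    (H₀ H₁ : Subgroup G) (h₀ : Subgroup.IsComplement' K H₀) (h₁ : Subgroup.IsComplement' K H₁) (hU : H₀ ⊓ U = H₁ ⊓ U) :
    ∃ g : G, MulAut.conj g • H₀ = H₁ := by
  classical
  obtain ⟨hd0, hg0⟩ := Cfsg.Agent.Helper1.isComplement'_iff_elem.mp h₀
  obtain ⟨hd1, hg1⟩ := Cfsg.Agent.Helper1.isComplement'_iff_elem.mp h₁
  obtain ⟨l0, hl0K, hl0H, hl0mul, -⟩ := Cfsg.Agent.Helper1.exists_proj K ⊤ H₀ le_top le_top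
    (fun u _ => hg0 u) (fun x hxH hxK => hd0 x hxK hxH)
  obtain ⟨l1, hl1K, hl1H, hl1mul, hl1ker⟩ := Cfsg.Agent.Helper1.exists_proj K ⊤ H₁ le_top le_top
    (fun u _ => hg1 u) (fun x hxH hxK => hd1 x hxK hxH)
  have hm0 : ∀ g g' : G, l0 (g * g') = l0 g * MulAut.conjNormal g (l0 g') :=
    fun g g' => hl0mul g (Subgroup.mem_top g) g' (Subgroup.mem_top g')
  have hm1 : ∀ g g' : G, l1 (g * g') = l1 g * MulAut.conjNormal g (l1 g') :=
    fun g g' => hl1mul g (Subgroup.mem_top g) g' (Subgroup.mem_top g')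
  obtain ⟨d, hd⟩ : ∃ d : G → K, ∀ g, d g = l1 g * (l0 g)⁻¹ := ⟨_, fun _ => rfl⟩
  have hdmul : ∀ g g' : G, d (g * g') = d g * MulAut.conjNormal g (d g') := by
    intro g g'
    rw [hd, hd, hd, hm1, hm0, map_mul, map_inv, mul_inv]
    exact mul_mul_mul_comm _ _ _ _
  have hdK : ∀ k : K, d (k : G) = 1 := by
    intro k
    rw [hd, hl1K, hl0K, mul_inv_cancel]
  have hdU : ∀ u ∈ U, d u = 1 := by
    intro u hu
    obtain ⟨k, hk, h, hh, rfl⟩ := hg0 u
    have hhU : h ∈ U := by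
      have e : h = k⁻¹ * (k * h) := by group
      rw [e]; exact U.mul_mem (U.inv_mem (hKU hk)) hu
    have hh1 : h ∈ H₁ := by
      have h2 : h ∈ H₀ ⊓ U := Subgroup.mem_inf.mpr ⟨hh, hhU⟩
      rw [hU] at h2
      exact (Subgroup.mem_inf.mp h2).1
    have h3 : d h = 1 := by
      rw [hd, hl1H h hh1, hl0H h hh, inv_one, mul_one]
    rw [hdmul, h3, map_one, mul_one]
    exact hdK ⟨k, hk⟩
  have hdcoset : ∀ x y : G, ((x : G) : G ⧸ U) = ((y : G) : G ⧸ U) → d x = d y := by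
    intro x y hxy
    have h1 : x⁻¹ * y ∈ U := QuotientGroup.eq.mp hxy
    have e : y = x * (x⁻¹ * y) := by group
    rw [e, hdmul, hdU _ h1, map_one, mul_one]
  haveI : Fintype (G ⧸ U) := Fintype.ofFinite _
  obtain ⟨r, hr, hrg⟩ := Cfsg.Agent.Helper1.exists_reps U
  obtain ⟨c₀, hc₀⟩ : ∃ c₀ : K, c₀ = ∏ c : G ⧸ U, d (r c) := ⟨_, rfl⟩
  have hkey : ∀ g : G, c₀ = (d g) ^ U.index * MulAut.conjNormal g c₀ := by
    intro g
    have h1 : ∏ c : G ⧸ U, d (g * r c) = c₀ := by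
      rw [hc₀]
      have h2 : ∏ c : G ⧸ U, d (g * r c) = ∏ c : G ⧸ U, d (r (g • c)) :=
        Finset.prod_congr rfl (fun c _ => (hdcoset _ _ (hrg g c)).symm)
      rw [h2]
      exact Equiv.prod_comp (MulAction.toPerm g) (fun c => d (r c))
    have h3 : ∏ c : G ⧸ U, d (g * r c) = ∏ c : G ⧸ U, (d g * MulAut.conjNormal g (d (r c))) :=
      Finset.prod_congr rfl (fun c _ => hdmul g (r c))
    have h4 : ∏ c : G ⧸ U, MulAut.conjNormal g (d (r c)) =
        MulAut.conjNormal g (∏ c : G ⧸ U, d (r c)) :=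
      (map_prod (MulAut.conjNormal g) (fun c => d (r c)) Finset.univ).symm
    rw [h3, Finset.prod_mul_distrib, Finset.prod_const, Finset.card_univ, h4, ← hc₀] at h1
    rw [Subgroup.index, Nat.card_eq_fintype_card]
    exact h1.symm
  obtain ⟨e, he⟩ := Cfsg.Agent.Helper1.exists_zpow_inv (K := K) U.index hcop
  obtain ⟨k₀, hk₀⟩ : ∃ k₀ : K, k₀ = c₀ ^ e := ⟨_, rfl⟩
  have hdg : ∀ g : G, d g = k₀ * (MulAut.conjNormal g k₀)⁻¹ := by
    intro g
    have h1 : (d g) ^ U.index = c₀ * (MulAut.conjNormal g c₀)⁻¹ := by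
      rw [eq_mul_inv_iff_mul_eq]
      exact (hkey g).symm
    have h2 := he (d g)
    rw [h1, mul_zpow, inv_zpow, ← map_zpow, ← hk₀] at h2
    exact h2.symm
  refine ⟨(k₀ : G)⁻¹, ?_⟩
  have hle : MulAut.conj (k₀ : G)⁻¹ • H₀ ≤ H₁ := by
    intro x hx
    rw [Cfsg.Agent.Helper1.mem_conj_smul, inv_inv] at hx
    obtain ⟨h, hh⟩ : ∃ h, h = (k₀ : G) * x * (k₀ : G)⁻¹ := ⟨_, rfl⟩
    rw [← hh] at hx
    have ex : x = (k₀ : G)⁻¹ * h * (k₀ : G) := by rw [hh]; group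
    rw [ex]
    apply hl1ker _ (Subgroup.mem_top _)
    have h1 : l1 h = k₀ * (MulAut.conjNormal h k₀)⁻¹ := by
      have h2 := hdg h
      rw [hd, hl0H h hx, inv_one, mul_one] at h2
      exact h2
    have h3 : l1 ((k₀ : G)⁻¹) = k₀⁻¹ := hl1K k₀⁻¹
    rw [hm1, hm1, h3, hl1K, h1]
    have h4 : MulAut.conjNormal ((k₀ : G)⁻¹) (k₀ * (MulAut.conjNormal h k₀)⁻¹) =
        k₀ * (MulAut.conjNormal h k₀)⁻¹ := Cfsg.Agent.Helper1.conjNormal_self K k₀⁻¹ _
    have h5 : MulAut.conjNormal ((k₀ : G)⁻¹ * h) k₀ = MulAut.conjNormal h k₀ := by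
      rw [← Cfsg.Agent.Helper1.conjNormal_mul_apply]
      exact Cfsg.Agent.Helper1.conjNormal_self K k₀⁻¹ _
    rw [h4, h5]
    group
  have hcard : Nat.card H₁ ≤ Nat.card (MulAut.conj (k₀ : G)⁻¹ • H₀ : Subgroup G) := by
    rw [Cfsg.Agent.Helper1.card_conj_smul]
    have e0 := h₀.card_mul_card
    have e1 := h₁.card_mul_card
    have hK : 0 < Nat.card K := Nat.card_pos
    have e2 : Nat.card K * Nat.card H₁ = Nat.card K * Nat.card H₀ := by rw [e0, e1]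
    exact le_of_eq (Nat.eq_of_mul_eq_mul_left hK e2)
  exact Subgroup.eq_of_le_of_card_ge hle hcard

end Cfsg.Agent.S0052
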