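import Cfsg.Statements.S0053
import Mathlib
import Cfsg.Agent.Helper1.SZ
import Cfsg.Agent.Helper1.Basic2

set_option autoImplicit false
open Cfsg

open Pointwise

namespace Cfsg.Agent.S0053

/-- An abelian minimal normal subgroup N of a finite group is complemented exactly when N is not inside the Frattini subgroup. -/
theorem result {G : Type*} [Group G] [Finite G]
    (N : Subgroup G) [N.Normal] [IsMulCommutative N] (hN : N ≠ ⊥)
    (hmin : ∀ M : Subgroup G, M.Normal → M ≤ N → M = ⊥ ∨ M = N) :
    (∃ H : Subgroup G, Subgroup.IsComplement' N H) ↔ ¬ N ≤ frattini G := by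
  constructor
  · rintro ⟨H, hH⟩ hle
    have hHtop : H = ⊤ := by
      apply frattini_nongenerating
      apply top_le_iff.mp
      rw [← hH.sup_eq_top]
      exact sup_le (hle.trans le_sup_right) le_sup_left
    apply hN
    have h1 : N ⊓ H = ⊥ := hH.disjoint.eq_bot
    rwa [hHtop, inf_top_eq] at h1
  · intro hnle
    obtain ⟨M, hM, hNM⟩ : ∃ M : Subgroup G, IsCoatom M ∧ ¬ N ≤ M := by
      by_contra hcon
      push_neg at hcon
      apply hnle
      intro x hx
      rw [Cfsg.Agent.Helper1.mem_frattini_iff]
      intro M hM
      exact hcon M hM hx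
    have htop : M ⊔ N = ⊤ :=
      hM.2 _ (lt_of_le_of_ne le_sup_left (fun h => hNM (by rw [h]; exact le_sup_right)))
    have hNc : N ≤ Subgroup.centralizer (N : Set G) := by
      intro a ha
      rw [Subgroup.mem_centralizer_iff]
      intro b hb
      exact congrArg Subtype.val (mul_comm' (⟨b, hb⟩ : N) ⟨a, ha⟩)
    have hnorm : (M ⊓ N).Normal := by
      rw [← Subgroup.normalizer_eq_top_iff]
      apply top_le_iff.mp
      rw [← htop]
      apply sup_le
      · exact Cfsg.Agent.Helper1.le_normalizer_inf_normal M N
      · exact hNc.trans ((Subgroup.centralizer_le (SetLike.coe_subset_coe.mpr inf_le_right)).trans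
          (Subgroup.centralizer_le_normalizer _))
    have hdisj : M ⊓ N = ⊥ := by
      rcases hmin _ hnorm inf_le_right with h | h
      · exact h
      · exact absurd (by rw [← h]; exact inf_le_left : N ≤ M) hNM
    refine ⟨M, ?_⟩
    apply Subgroup.isComplement'_of_disjoint_and_mul_eq_univ
    · rw [disjoint_iff, inf_comm]
      exact hdisj
    · have htop' : N ⊔ M = ⊤ := by rw [sup_comm]; exact htop
      rw [← Subgroup.normal_mul]
      exact (congrArg (fun S : Subgroup G => (S : Set G)) htop').trans Subgroup.coe_top

end Cfsg.Agent.S0053
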