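import Cfsg.Statements.S0054
import Mathlib

set_option autoImplicit false
open Cfsg

namespace Cfsg.Agent.S0054

/-- A regular normal subgroup of a finite 2-transitive group is elementary abelian: it is commutative and all its elements have order dividing one prime. -/
theorem result {G : Type*} [Group G] [Finite G]
    {X : Type*} [Nonempty X] [MulAction G X] (h2 : MulAction.IsMultiplyPretransitive G X 2)
    (N : Subgroup G) [N.Normal] (htrans : MulAction.IsPretransitive N X) (hreg : ∀ x : X, MulAction.stabilizer N x = ⊥) :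
    IsMulCommutative N ∧ ∃ p : ℕ, p.Prime ∧ ∀ n ∈ N, n ^ p = 1 := by
  classical
  have hNn : N.Normal := inferInstance
  obtain ⟨x₀⟩ := ‹Nonempty X›
  have h2' : ∀ (a b c d : X), a ≠ b → c ≠ d → ∃ g : G, g • a = c ∧ g • b = d :=
    fun a b c d hab hcd => MulAction.is_two_pretransitive_iff.mp h2 hab hcd
  have hstab : ∀ n ∈ N, n • x₀ = x₀ → n = 1 := by
    intro n hn h
    have h1 : (⟨n, hn⟩ : N) ∈ MulAction.stabilizer N x₀ := by
      rw [MulAction.mem_stabilizer_iff]; exact h
    rw [hreg x₀, Subgroup.mem_bot] at h1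
    exact congrArg Subtype.val h1
  have hconj : ∀ n ∈ N, n ≠ 1 → ∀ n' ∈ N, n' ≠ 1 → ∃ g : G, g * n * g⁻¹ = n' := by
    intro n hn hn1 n' hn' hn'1
    have ha : x₀ ≠ n • x₀ := fun h => hn1 (hstab n hn h.symm)
    have hb : x₀ ≠ n' • x₀ := fun h => hn'1 (hstab n' hn' h.symm)
    obtain ⟨g, hg1, hg2⟩ := h2' _ _ _ _ ha hb
    refine ⟨g, ?_⟩
    have hg3 : g⁻¹ • x₀ = x₀ := by rw [inv_smul_eq_iff]; exact hg1.symm
    have h3 : (n'⁻¹ * (g * n * g⁻¹)) • x₀ = x₀ := by
      rw [mul_smul, mul_smul, mul_smul, hg3, hg2, inv_smul_smul]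
    have h4 := hstab _ (N.mul_mem (N.inv_mem hn') (hNn.conj_mem n hn g)) h3
    exact (inv_mul_eq_one.mp h4).symm
  by_cases hN : N = ⊥
  · refine ⟨IsMulCommutative.of_setLike_mul_comm (fun a ha b hb => ?_), 2, Nat.prime_two, ?_⟩
    · rw [hN, Subgroup.mem_bot] at ha hb; rw [ha, hb]
    · intro n hn; rw [hN, Subgroup.mem_bot] at hn; rw [hn, one_pow]
  · have hNt : Nontrivial N := (Subgroup.nontrivial_iff_ne_bot N).mpr hN
    have hcard : Nat.card N ≠ 1 := by
      intro h
      exact hN ((Subgroup.card_eq_one).mp h)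
    obtain ⟨p, hp⟩ : ∃ p, p = (Nat.card N).minFac := ⟨_, rfl⟩
    have hpp : p.Prime := hp ▸ Nat.minFac_prime hcard
    have hpdvd : p ∣ Nat.card N := hp ▸ Nat.minFac_dvd _
    haveI : Fact p.Prime := ⟨hpp⟩
    obtain ⟨n₀, hn₀⟩ := exists_prime_orderOf_dvd_card' (G := ↥N) p hpdvd
    have hn₀1 : (n₀ : G) ≠ 1 := by
      intro h
      have h1 : n₀ = 1 := Subtype.ext h
      rw [h1, orderOf_one] at hn₀
      exact hpp.one_lt.ne hn₀
    have hn₀p : (n₀ : G) ^ p = 1 := by
      have h1 := pow_orderOf_eq_one n₀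
      rw [hn₀] at h1
      exact congrArg Subtype.val h1
    have hexp : ∀ n ∈ N, n ^ p = 1 := by
      intro n hn
      by_cases hn1 : n = 1
      · rw [hn1, one_pow]
      · obtain ⟨g, hg⟩ := hconj n₀ n₀.2 hn₀1 n hn hn1
        rw [← hg, conj_pow, hn₀p, mul_one, mul_inv_cancel]
    have hPG : IsPGroup p N := by
      intro g
      refine ⟨1, ?_⟩
      rw [pow_one]
      exact Subtype.ext (hexp g g.2)
    haveI : Nontrivial (Subgroup.center N) := hPG.center_nontrivial
    obtain ⟨z, hz⟩ := exists_ne (1 : Subgroup.center N)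
    have hzN : ((z : N) : G) ∈ N := (z : N).2
    have hz1 : ((z : N) : G) ≠ 1 := by
      intro h
      apply hz
      apply Subtype.ext
      apply Subtype.ext
      exact h
    have hzc : ∀ m ∈ N, m * ((z : N) : G) = ((z : N) : G) * m := by
      intro m hm
      have h1 := Subgroup.mem_center_iff.mp z.2 ⟨m, hm⟩
      exact congrArg Subtype.val h1
    refine ⟨IsMulCommutative.of_setLike_mul_comm (fun a ha b hb => ?_), p, hpp, hexp⟩
    by_cases ha1 : a = 1
    · rw [ha1, one_mul, mul_one]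
    · obtain ⟨g, hg⟩ := hconj _ hzN hz1 a ha ha1
      have h5 := hzc (g⁻¹ * b * g) (by
        have h6 := hNn.conj_mem b hb g⁻¹
        rwa [inv_inv] at h6)
      rw [← hg]
      calc g * ((z : N) : G) * g⁻¹ * b = g * (((z : N) : G) * (g⁻¹ * b * g)) * g⁻¹ := by group
        _ = g * (g⁻¹ * b * g * ((z : N) : G)) * g⁻¹ := by rw [h5]
        _ = b * (g * ((z : N) : G) * g⁻¹) := by group

end Cfsg.Agent.S0054
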