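import Cfsg.Statements.S0057
import Mathlib
import Cfsg.Agent.Helper1.Fact
import Cfsg.Agent.Helper1.Coprime2
import Cfsg.Agent.S0027
import Cfsg.Agent.S0055

set_option autoImplicit false
open Cfsg

namespace Cfsg.Agent.S0057

/-- Under coprime action, if the centraliser of A in K has prime index p in K then the commutator subgroup [K, A] has order exactly p. -/
theorem result {G : Type*} [Group G] [Finite G] (A K : Subgroup G) (hAK : A ≤ Subgroup.normalizer (K : Set G))
    (hcop : (Nat.card A).Coprime (Nat.card K)) (hsolv : Group.IsSolvable A ∨ Group.IsSolvable K)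
    (p : ℕ) (hp : p.Prime) (hidx : (K ⊓ Subgroup.centralizer (A : Set G)).relIndex K = p) :
    Nat.card (⁅K, A⁆ : Subgroup G) = p := by
  classical
  haveI : Fact p.Prime := ⟨hp⟩
  obtain ⟨P, hPK, hPcard, hAP⟩ := Cfsg.Agent.Helper1.inv_sylow_exists A K hAK hcop hsolv p
  have hidx' : (Subgroup.centralizer (A : Set G)).relIndex K = p := by
    rw [← Subgroup.inf_relIndex_left]; exact hidx
  have hcardP' : Nat.card (P.subgroupOf K) = p ^ (Nat.card K).factorization p := by
    rw [← hPcard]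
    exact Nat.card_congr (Subgroup.subgroupOfEquivOfLe hPK).toEquiv
  have hndvd : ¬ p ∣ (P.subgroupOf K).index :=
    Sylow.not_dvd_index (Sylow.ofCard (P.subgroupOf K) hcardP')
  have hcopi : (P.subgroupOf K).index.Coprime
      ((Subgroup.centralizer (A : Set G)).subgroupOf K).index := by
    have h1 : ((Subgroup.centralizer (A : Set G)).subgroupOf K).index = p := hidx'
    rw [h1]
    exact Nat.Coprime.symm ((Nat.Prime.coprime_iff_not_dvd hp).mpr hndvd)
  have hfac : ∀ k ∈ K, ∃ x ∈ P, ∃ c ∈ Subgroup.centralizer (A : Set G), k = x * c := by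
    intro k hk
    obtain ⟨x, hx, y, hy, e⟩ := Cfsg.Agent.Helper1.mul_eq_univ_of_coprime _ _ hcopi ⟨k, hk⟩
    exact ⟨x, hx, y, hy, congrArg Subtype.val e⟩
  have hidxP : (Subgroup.centralizer (A : Set G)).relIndex P = p := by
    have h1 := Cfsg.Agent.Helper1.relIndex_of_coprime _ _ hcopi
    rw [Subgroup.relIndex_subgroupOf hPK] at h1
    rw [h1]; exact hidx'
  have hD : (⁅K, A⁆ : Subgroup G) = ⁅P, A⁆ := by
    apply le_antisymm
    · rw [Subgroup.commutator_le]
      intro k hk a ha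
      obtain ⟨x, hx, c, hc, rfl⟩ := hfac k hk
      have hca : a * c = c * a := (Subgroup.mem_centralizer_iff.mp hc) a ha
      have e : x * c * a * (x * c)⁻¹ * a⁻¹ = x * a * x⁻¹ * a⁻¹ := by
        have e1 : x * c * a * (x * c)⁻¹ * a⁻¹ = x * (c * a) * c⁻¹ * x⁻¹ * a⁻¹ := by group
        rw [e1, ← hca]; group
      show x * c * a * (x * c)⁻¹ * a⁻¹ ∈ _
      rw [e]
      exact Subgroup.commutator_mem_commutator hx ha
    · exact Subgroup.commutator_mono hPK le_rfl
  rw [hD]
  have ha0 : (Nat.card K).factorization p ≠ 0 := by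
    intro h0
    rw [h0, pow_zero] at hPcard
    have hPbot : P = ⊥ := Subgroup.card_eq_one.mp hPcard
    have h1 : (Subgroup.centralizer (A : Set G)).relIndex P = 1 :=
      Subgroup.relIndex_eq_one.mpr (hPbot ▸ bot_le)
    rw [h1] at hidxP
    exact hp.one_lt.ne hidxP
  have hNorm : ((Subgroup.centralizer (A : Set G)).subgroupOf P).Normal := by
    apply Subgroup.normal_of_index_eq_minFac_card
    rw [hPcard, hp.pow_minFac ha0]
    exact hidxP
  have hconj : ∀ x ∈ P, ∀ c ∈ P, c ∈ Subgroup.centralizer (A : Set G) →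
      x⁻¹ * c * x ∈ Subgroup.centralizer (A : Set G) := by
    intro x hx c hc hcc
    have h1 := hNorm.conj_mem ⟨c, hc⟩ (Subgroup.mem_subgroupOf.mpr hcc) ⟨x, hx⟩⁻¹
    rw [Subgroup.mem_subgroupOf] at h1
    simpa using h1
  have hDcent : ∀ d ∈ (⁅P, A⁆ : Subgroup G), ∀ c ∈ P, c ∈ Subgroup.centralizer (A : Set G) →
      d * c = c * d := by
    intro d hd c hcP hcc
    have hle : (⁅P, A⁆ : Subgroup G) ≤ Subgroup.centralizer ({c} : Set G) := by
      rw [Subgroup.commutator_le]
      intro x hx a ha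
      rw [Subgroup.mem_centralizer_iff]
      intro c' hc'
      rw [Set.mem_singleton_iff.mp hc']
      have hca : a * c = c * a := (Subgroup.mem_centralizer_iff.mp hcc) a ha
      have hc2 := hconj x hx c hcP hcc
      have hca2 : a * (x⁻¹ * c * x) = (x⁻¹ * c * x) * a :=
        (Subgroup.mem_centralizer_iff.mp hc2) a ha
      have hca' : a⁻¹ * c = c * a⁻¹ := by
        calc a⁻¹ * c = a⁻¹ * (c * a) * a⁻¹ := by group
          _ = a⁻¹ * (a * c) * a⁻¹ := by rw [hca]
          _ = c * a⁻¹ := by group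
      show c * (x * a * x⁻¹ * a⁻¹) = x * a * x⁻¹ * a⁻¹ * c
      calc c * (x * a * x⁻¹ * a⁻¹) = x * ((x⁻¹ * c * x) * a) * x⁻¹ * a⁻¹ := by group
        _ = x * (a * (x⁻¹ * c * x)) * x⁻¹ * a⁻¹ := by rw [hca2]
        _ = x * a * x⁻¹ * (c * a⁻¹) := by group
        _ = x * a * x⁻¹ * (a⁻¹ * c) := by rw [hca']
        _ = x * a * x⁻¹ * a⁻¹ * c := by group
    have h1 := hle hd
    rw [Subgroup.mem_centralizer_iff] at h1
    exact (h1 c (Set.mem_singleton c)).symm
  have hDP : (⁅P, A⁆ : Subgroup G) ≤ P :=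
    Cfsg.Agent.Helper1.commutator_le_of_le_normalizer P A hAP
  have hcopP : (Nat.card A).Coprime (Nat.card P) :=
    Nat.Coprime.coprime_dvd_right (Subgroup.card_dvd_of_le hPK) hcop
  have hsolvP : Group.IsSolvable A ∨ Group.IsSolvable P :=
    hsolv.imp id (fun hK => by
      haveI := hK
      exact Group.isSolvable_of_isSolvable_injective (Subgroup.inclusion_injective hPK))
  have hDD : (⁅⁅P, A⁆, A⁆ : Subgroup G) = ⁅P, A⁆ := Cfsg.Agent.S0027.result A P hAP hcopP hsolvP
  have hAD : A ≤ Subgroup.normalizer ((⁅P, A⁆ : Subgroup G) : Set G) :=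
    Cfsg.Agent.Helper1.le_normalizer_commutator P A A hAP Subgroup.le_normalizer
  haveI := hNorm
  obtain ⟨f, hf⟩ : ∃ f : (⁅P, A⁆ : Subgroup G) →*
      P ⧸ (Subgroup.centralizer (A : Set G)).subgroupOf P,
      ∀ d, f d = 1 → (d : G) ∈ Subgroup.centralizer (A : Set G) :=
    ⟨(QuotientGroup.mk' _).comp (Subgroup.inclusion hDP),
      fun d hd => (QuotientGroup.eq_one_iff (Subgroup.inclusion hDP d)).mp hd⟩
  have hDcomm : ∀ d₁ ∈ (⁅P, A⁆ : Subgroup G), ∀ d₂ ∈ (⁅P, A⁆ : Subgroup G),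
      d₁ * d₂ = d₂ * d₁ := by
    haveI : IsCyclic (P ⧸ (Subgroup.centralizer (A : Set G)).subgroupOf P) :=
      isCyclic_of_prime_card (p := p) (by rw [← Subgroup.index_eq_card]; exact hidxP)
    have hker : f.ker ≤ Subgroup.center (⁅P, A⁆ : Subgroup G) := by
      intro d hd
      rw [MonoidHom.mem_ker] at hd
      have h1 := hf d hd
      rw [Subgroup.mem_center_iff]
      intro e
      exact Subtype.ext (hDcent (e : G) e.2 (d : G) (hDP d.2) h1)
    intro d₁ h₁ d₂ h₂
    have h3 := commutative_of_cyclic_center_quotient f hker ⟨d₁, h₁⟩ ⟨d₂, h₂⟩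
    exact congrArg Subtype.val h3
  haveI : IsMulCommutative (⁅P, A⁆ : Subgroup G) :=
    IsMulCommutative.of_comm (fun a b => Subtype.ext (hDcomm a a.2 b b.2))
  have hcopD : (Nat.card A).Coprime (Nat.card (⁅P, A⁆ : Subgroup G)) :=
    Nat.Coprime.coprime_dvd_right (Subgroup.card_dvd_of_le hDP) hcopP
  obtain ⟨h55, -⟩ := Cfsg.Agent.S0055.result A (⁅P, A⁆ : Subgroup G) hAD hcopD
  rw [hDD] at h55
  have hDC : (⁅P, A⁆ : Subgroup G) ⊓ Subgroup.centralizer (A : Set G) = ⊥ := by
    rw [← h55]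
    exact (inf_eq_left.mpr inf_le_left).symm
  have hDne : (⁅P, A⁆ : Subgroup G) ≠ ⊥ := by
    intro h0
    have hle : P ≤ Subgroup.centralizer (A : Set G) :=
      Subgroup.commutator_eq_bot_iff_le_centralizer.mp h0
    have h1 : (Subgroup.centralizer (A : Set G)).relIndex P = 1 :=
      Subgroup.relIndex_eq_one.mpr hle
    rw [h1] at hidxP
    exact hp.one_lt.ne hidxP
  have hDle : Nat.card (⁅P, A⁆ : Subgroup G) ≤ p := by
    have hinj : Function.Injective f := by
      rw [injective_iff_map_eq_one]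
      intro d hd
      have h2 : (d : G) ∈ (⁅P, A⁆ : Subgroup G) ⊓ Subgroup.centralizer (A : Set G) :=
        Subgroup.mem_inf.mpr ⟨d.2, hf d hd⟩
      rw [hDC, Subgroup.mem_bot] at h2
      exact Subtype.ext h2
    have h3 := Nat.card_le_card_of_injective f hinj
    rw [← Subgroup.index_eq_card] at h3
    exact h3.trans (le_of_eq hidxP)
  have hDge : p ≤ Nat.card (⁅P, A⁆ : Subgroup G) := by
    have h1 : Nat.card (⁅P, A⁆ : Subgroup G) ∣ p ^ (Nat.card K).factorization p := by
      rw [← hPcard]; exact Subgroup.card_dvd_of_le hDP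
    obtain ⟨j, -, hj⟩ := (Nat.dvd_prime_pow hp).mp h1
    rcases Nat.eq_zero_or_pos j with h0 | h0
    · rw [h0, pow_zero] at hj
      exact absurd (Subgroup.card_eq_one.mp hj) hDne
    · rw [hj]
      exact Nat.le_self_pow h0.ne' p
  exact le_antisymm hDle hDge

end Cfsg.Agent.S0057
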