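import Cfsg.Statements.S0059
import Cfsg.Agent.Helper1.Coprime2

set_option autoImplicit false
open Cfsg

namespace Cfsg.Agent.S0059

open Cfsg.Agent.Helper1 in
/-- Let a finite group act on a set on which a normal subgroup K of coprime order and index is transitive, with K or the quotient solvable. Then any complement H of K has a fixed point, and any two H-fixed points are interchanged by an element of K centralising H. -/
theorem result {G : Type*} [Group G] [Finite G] {X : Type*} [Nonempty X] [MulAction G X]
    (K H : Subgroup G) [K.Normal] (hc : Subgroup.IsComplement' K H) (hcop : (Nat.card K).Coprime K.index)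
    (hsolv : Group.IsSolvable K ∨ Group.IsSolvable (G ⧸ K)) (htrans : MulAction.IsPretransitive K X) :
    (∃ x : X, ∀ h ∈ H, h • x = x) ∧
    ∀ x y : X, (∀ h ∈ H, h • x = x) → (∀ h ∈ H, h • y = y) → ∃ k ∈ K ⊓ Subgroup.centralizer (H : Set G), k • x = y := by
  have hidx : K.index = Nat.card H := hc.symm.index_eq_card
  have hcop' : (Nat.card H).Coprime (Nat.card K) := by rw [← hidx]; exact hcop.symm
  have hsolv' : Group.IsSolvable H ∨ Group.IsSolvable K := by
    rcases hsolv with h | h
    · exact Or.inr h
    · exact Or.inl (isSolvable_complement_of_quotient K H hc h)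
  have hHK : H ≤ Subgroup.normalizer (K : Set G) := by
    rw [Subgroup.normalizer_eq_top]
    exact le_top
  constructor
  · obtain ⟨x₀⟩ := (inferInstance : Nonempty X)
    have hS : MulAction.stabilizer G x₀ ⊔ K = ⊤ := by
      rw [eq_top_iff]
      intro g _
      obtain ⟨k, hk⟩ := MulAction.exists_smul_eq K x₀ (g • x₀)
      have h1 : (k : G)⁻¹ * g ∈ MulAction.stabilizer G x₀ := by
        rw [MulAction.mem_stabilizer_iff, mul_smul, ← hk]
        exact inv_smul_smul (k : G) x₀
      have h2 : g = (k : G) * ((k : G)⁻¹ * g) := by group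
      rw [h2, sup_comm]
      exact Subgroup.mul_mem_sup k.2 h1
    obtain ⟨d, hd, hconj⟩ := exists_conj_le_of_sup_eq_top K H (MulAction.stabilizer G x₀)
      hcop' hsolv' hS
    refine ⟨d⁻¹ • x₀, fun h hh => ?_⟩
    have h1 : d * h * d⁻¹ ∈ MulAction.stabilizer G x₀ := hconj (conj_mem_conj_smul hh)
    rw [MulAction.mem_stabilizer_iff] at h1
    have h2 : h • d⁻¹ • x₀ = d⁻¹ • (d * h * d⁻¹) • x₀ := by
      simp only [← mul_smul]
      congr 1
      group
    rw [h2, h1]
  · intro x y hx hy
    obtain ⟨k, hk⟩ := MulAction.exists_smul_eq K x y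
    have hk' : (k : G) • x = y := hk
    set D := K ⊓ MulAction.stabilizer G x with hD
    have hHst : H ≤ MulAction.stabilizer G x := fun h hh => hx h hh
    have hHD : H ≤ Subgroup.normalizer (D : Set G) := by
      intro a ha
      rw [Subgroup.mem_normalizer_iff]
      intro z
      have e1 := Subgroup.mem_normalizer_iff.mp (hHK ha) z
      have e2 := Subgroup.mem_normalizer_iff.mp (Subgroup.le_normalizer (hHst ha)) z
      simp only [hD, Subgroup.mem_inf]
      rw [e1, e2]
    have h : ∀ a ∈ H, (k : G)⁻¹ * a * k * a⁻¹ ∈ D := by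
      intro a ha
      constructor
      · have h3 : a * k * a⁻¹ ∈ K := (Subgroup.mem_normalizer_iff.mp (hHK ha) k).mp k.2
        have := K.mul_mem (K.inv_mem k.2) h3
        simpa [mul_assoc] using this
      · change (k : G)⁻¹ * a * k * a⁻¹ ∈ MulAction.stabilizer G x
        rw [MulAction.mem_stabilizer_iff]
        have e1 : a⁻¹ • x = x := by rw [inv_smul_eq_iff, hx a ha]
        rw [mul_smul, mul_smul, mul_smul, e1, hk', hy a ha, ← hk', inv_smul_smul]
    obtain ⟨d, hd, hcc⟩ := coprime_coset_fixed H K D hHK hHD inf_le_left hcop' hsolv' k k.2 h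
    refine ⟨(k : G) * d, ⟨K.mul_mem k.2 hd.1, hcc⟩, ?_⟩
    rw [mul_smul, MulAction.mem_stabilizer_iff.mp hd.2, hk']

end Cfsg.Agent.S0059
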