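import Cfsg.Statements.S0060
import Mathlib
import Cfsg.Agent.S0010
import Cfsg.Agent.Helper1.Coprime
import Cfsg.Agent.Helper1.Basic2

set_option autoImplicit false
open Pointwise
open Cfsg

open Pointwise

namespace Cfsg.Agent.S0060

theorem sylow_conj_le_in {G : Type*} [Group G] [Finite G] {p : ℕ} [Fact p.Prime] (S : Sylow p G)
    (N : Subgroup G) (hSN : (S : Subgroup G) ≤ N) (Q : Subgroup G) (hQ : IsPGroup p Q)
    (hQN : Q ≤ N) : ∃ x ∈ N, MulAut.conj x • Q ≤ (S : Subgroup G) := by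
  have hQ' : IsPGroup p (Q.subgroupOf N) := hQ.comap_subtype
  obtain ⟨P', hP'⟩ := hQ'.exists_le_sylow
  obtain ⟨x, hx⟩ := MulAction.exists_smul_eq N P' (S.subtype hSN)
  refine ⟨x, x.2, ?_⟩
  intro y hy
  rw [Cfsg.Agent.Helper1.mem_conj_smul] at hy
  have hyN : y ∈ N := by
    have h1 : y = (x : G) * ((x : G)⁻¹ * y * x) * (x : G)⁻¹ := by group
    rw [h1]
    exact N.mul_mem (N.mul_mem x.2 (hQN hy)) (N.inv_mem x.2)
  have h2 : (x⁻¹ * ⟨y, hyN⟩ * x : N) ∈ (P' : Subgroup N) := hP' (by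
    rw [Subgroup.mem_subgroupOf]
    exact hy)
  have h3 : (⟨y, hyN⟩ : N) ∈ MulAut.conj x • (P' : Subgroup N) :=
    Cfsg.Agent.Helper1.mem_conj_smul.mpr h2
  have h4 : (⟨y, hyN⟩ : N) ∈ ((x • P' : Sylow p N) : Subgroup N) := h3
  rw [hx] at h4
  exact h4

/-- Brodkey's Theorem: in a finite group with abelian Sylow p-subgroups and no nontrivial normal p-subgroup, some conjugate of a Sylow p-subgroup meets it trivially. -/
theorem result {G : Type*} [Group G] [Finite G] (p : ℕ) [Fact p.Prime]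
    (S : Sylow p G) (hS : IsMulCommutative S) (hOp : Cfsg.pCore p G = ⊥) :
    ∃ g : G, (S : Subgroup G) ⊓ MulAut.conj g • (S : Subgroup G) = ⊥ := by
  obtain ⟨g, hg⟩ := Finite.exists_min (fun g : G =>
    Nat.card ((S : Subgroup G) ⊓ MulAut.conj g • (S : Subgroup G) : Subgroup G))
  refine ⟨g, ?_⟩
  obtain ⟨D, hDdef⟩ : ∃ D : Subgroup G,
      D = (S : Subgroup G) ⊓ MulAut.conj g • (S : Subgroup G) := ⟨_, rfl⟩
  rw [← hDdef]
  have hDS : D ≤ (S : Subgroup G) := by rw [hDdef]; exact inf_le_left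
  have hDT : D ≤ MulAut.conj g • (S : Subgroup G) := by rw [hDdef]; exact inf_le_right
  have hScomm : ∀ a ∈ (S : Subgroup G), ∀ b ∈ (S : Subgroup G), a * b = b * a :=
    fun a ha b hb => congrArg Subtype.val (mul_comm' (⟨a, ha⟩ : S) ⟨b, hb⟩)
  have hSN : (S : Subgroup G) ≤ Subgroup.normalizer (D : Set G) := by
    refine le_trans ?_ (Subgroup.centralizer_le_normalizer _)
    intro a ha
    rw [Subgroup.mem_centralizer_iff]
    intro b hb
    exact hScomm b (hDS hb) a ha
  have hTN : MulAut.conj g • (S : Subgroup G) ≤ Subgroup.normalizer (D : Set G) := by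
    refine le_trans ?_ (Subgroup.centralizer_le_normalizer _)
    intro a ha
    rw [Subgroup.mem_centralizer_iff]
    intro b hb
    have ha' := Cfsg.Agent.Helper1.mem_conj_smul.mp ha
    have hb' := Cfsg.Agent.Helper1.mem_conj_smul.mp (hDT hb)
    have h1 := hScomm _ hb' _ ha'
    have h2 : b * a = g * ((g⁻¹ * b * g) * (g⁻¹ * a * g)) * g⁻¹ := by group
    rw [h2, h1]
    group
  have hkey : ∀ h : G, D ≤ MulAut.conj h • (S : Subgroup G) := by
    intro h
    have hRp : IsPGroup p ((MulAut.conj h • (S : Subgroup G)) ⊓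
        Subgroup.normalizer (D : Set G) : Subgroup G) := by
      have h0 : IsPGroup p (MulAut.conj h • (S : Subgroup G) : Subgroup G) := by
        rw [Cfsg.Agent.Helper1.conj_smul_eq_map]
        exact S.isPGroup'.map _
      exact h0.to_le inf_le_left
    obtain ⟨x, hxN, hx⟩ := sylow_conj_le_in S (Subgroup.normalizer (D : Set G)) hSN _ hRp
      inf_le_right
    have hxD : MulAut.conj x • D = D := Cfsg.Agent.Helper1.mem_normalizer_iff_conj_smul.mp hxN
    have hle : MulAut.conj (x * h) • (S : Subgroup G) ⊓ MulAut.conj g • (S : Subgroup G) ≤ D := by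
      intro y hy
      obtain ⟨hy1, hy2⟩ := Subgroup.mem_inf.mp hy
      rw [hDdef]
      refine Subgroup.mem_inf.mpr ⟨?_, hy2⟩
      apply hx
      rw [Cfsg.Agent.Helper1.mem_conj_smul]
      refine Subgroup.mem_inf.mpr ⟨?_, ?_⟩
      · rw [← Cfsg.Agent.Helper1.conj_smul_smul] at hy1
        exact Cfsg.Agent.Helper1.mem_conj_smul.mp hy1
      · exact Subgroup.mul_mem _ (Subgroup.mul_mem _ (Subgroup.inv_mem _ hxN) (hTN hy2)) hxN
    have hcard : Nat.card D ≤ Nat.card (MulAut.conj (x * h) • (S : Subgroup G) ⊓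
        MulAut.conj g • (S : Subgroup G) : Subgroup G) := by
      have h1 := hg (g⁻¹ * (x * h))
      have h2 : MulAut.conj g • ((S : Subgroup G) ⊓
          MulAut.conj (g⁻¹ * (x * h)) • (S : Subgroup G)) =
          MulAut.conj (x * h) • (S : Subgroup G) ⊓ MulAut.conj g • (S : Subgroup G) := by
        rw [Subgroup.smul_inf, Cfsg.Agent.Helper1.conj_smul_smul, inf_comm, mul_inv_cancel_left]
      rw [← h2, Cfsg.Agent.Helper1.card_conj_smul, hDdef]
      exact h1
    have heq : MulAut.conj (x * h) • (S : Subgroup G) ⊓ MulAut.conj g • (S : Subgroup G) = D :=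
      Subgroup.eq_of_le_of_card_ge hle hcard
    have hD1 : D ≤ MulAut.conj (x * h) • (S : Subgroup G) := by
      rw [← heq]
      exact inf_le_left
    intro d hd
    have hd' : x * d * x⁻¹ ∈ D := by
      rw [← hxD]
      exact Cfsg.Agent.Helper1.conj_mem_conj_smul hd
    have hd2 := hD1 hd'
    rw [← Cfsg.Agent.Helper1.conj_smul_smul, Cfsg.Agent.Helper1.mem_conj_smul] at hd2
    have h3 : x⁻¹ * (x * d * x⁻¹) * x = d := by group
    rwa [h3] at hd2
  rw [eq_bot_iff, ← hOp, Cfsg.Agent.S0010.result p]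
  apply le_iInf
  intro P
  obtain ⟨h, rfl⟩ := MulAction.exists_smul_eq G S P
  exact hkey h

end Cfsg.Agent.S0060
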