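import Cfsg.Statements.S0063
import Mathlib

set_option autoImplicit false
open Cfsg

universe u

namespace Cfsg.Agent.S0063

theorem aux (p : ℕ) [hp : Fact p.Prime] : ∀ (m : ℕ) (G : Type u) [Group G] [Finite G],
    Nat.card G = p ^ m → 1 < m → Group.nilpotencyClass G ≤ m - 1 := by
  intro m
  induction m using Nat.strong_induction_on with
  | _ m ih =>
    intro G _ _ hG hm
    have hpG : IsPGroup p G := IsPGroup.of_card hG
    haveI : Nontrivial G := by
      rw [← Finite.one_lt_card_iff_nontrivial, hG]
      exact Nat.one_lt_pow (by omega) hp.out.one_lt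
    haveI hnil : Group.IsNilpotent G := hpG.isNilpotent
    have hZ : Subgroup.center G ≠ ⊥ := ne_of_gt hpG.bot_lt_center
    obtain ⟨k, hk⟩ := (IsPGroup.iff_card (p := p)).mp (hpG.to_subgroup (Subgroup.center G))
    have hk1 : 1 ≤ k := by
      by_contra hk0
      have hk0' : k = 0 := by omega
      rw [hk0', pow_zero] at hk
      exact hZ (Subgroup.card_eq_one.mp hk)
    have hcard : Nat.card G = Nat.card (G ⧸ Subgroup.center G) * Nat.card (Subgroup.center G) :=
      Subgroup.card_eq_card_quotient_mul_card_subgroup _
    have hkm : k ≤ m := by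
      have h1 : p ^ k ∣ p ^ m := by
        rw [← hk, ← hG]
        exact Subgroup.card_subgroup_dvd_card _
      exact (Nat.pow_dvd_pow_iff_le_right hp.out.one_lt).mp h1
    have hq : Nat.card (G ⧸ Subgroup.center G) = p ^ (m - k) := by
      rw [hG, hk] at hcard
      have h2 : p ^ m = p ^ (m - k) * p ^ k := by rw [← pow_add, Nat.sub_add_cancel hkm]
      rw [h2] at hcard
      exact (Nat.eq_of_mul_eq_mul_right (pow_pos hp.out.pos k) hcard).symm
    have hcls : Group.nilpotencyClass G = Group.nilpotencyClass (G ⧸ Subgroup.center G) + 1 :=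
      Group.nilpotencyClass_eq_quotient_center_plus_one
    by_cases h2 : 2 ≤ m - k
    · have h3 := ih (m - k) (by omega) (G ⧸ Subgroup.center G) hq (by omega)
      omega
    · have hcyc : IsCyclic (G ⧸ Subgroup.center G) := by
        have h3 : m - k = 0 ∨ m - k = 1 := by omega
        rcases h3 with h3 | h3
        · rw [h3, pow_zero] at hq
          haveI : Subsingleton (G ⧸ Subgroup.center G) := (Nat.card_eq_one_iff_unique.mp hq).1
          infer_instance
        · rw [h3, pow_one] at hq
          exact isCyclic_of_prime_card hq
      have hcomm : ∀ a b : G, a * b = b * a :=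
        commutative_of_cyclic_center_quotient (QuotientGroup.mk' (Subgroup.center G))
          (by rw [QuotientGroup.ker_mk'])
      have h4 : Group.nilpotencyClass G ≤ 1 := by
        rw [Group.IsNilpotent.nilpotencyClass_le_one_iff]
        exact IsMulCommutative.of_comm hcomm
      omega

/-- A finite group of prime-power order p ^ m with m > 1 is nilpotent of class at most m - 1. -/
theorem result {G : Type*} [Group G] [Finite G] (p m : ℕ) [Fact p.Prime]
    (hG : Nat.card G = p ^ m) (hm : 1 < m) : Group.nilpotencyClass G ≤ m - 1 := by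
  exact aux p m G hG hm

end Cfsg.Agent.S0063
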