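import Cfsg.Statements.S0064
import Mathlib

set_option autoImplicit false
open Cfsg

namespace Cfsg.Agent.S0064

/-- A finite group is nilpotent exactly when each of its subgroups is subnormal. -/
theorem result {G : Type*} [Group G] [Finite G] :
    Group.IsNilpotent G ↔ ∀ H : Subgroup G, H.IsSubnormal := by
  constructor
  · intro hnil H
    have hnc : NormalizerCondition G := Group.normalizerCondition_of_isNilpotent
    refine WellFoundedGT.induction (motive := fun H : Subgroup G => H.IsSubnormal) H ?_
    intro H ih
    by_cases hH : H = ⊤
    · rw [hH]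
      exact Subgroup.IsSubnormal.top
    · have hlt : H < Subgroup.normalizer (H : Set G) := hnc H (lt_top_iff_ne_top.mpr hH)
      exact Subgroup.IsSubnormal.step H _ hlt.le (ih _ hlt) Subgroup.normal_in_normalizer
  · intro h
    have htfae : Group.IsNilpotent G ↔ ∀ H : Subgroup G, IsCoatom H → H.Normal :=
      (Group.isNilpotent_of_finite_tfae (G := G)).out 0 2
    rw [htfae]
    intro M hM
    obtain ⟨K, hKn, hMK, hK⟩ := (h M).exists_normal_and_le_and_lt_top_of_ne hM.1
    have hMK' : M = K := by
      by_contra hne
      exact hK.ne (hM.2 K (lt_of_le_of_ne hMK hne))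
    rw [hMK']
    exact hKn

end Cfsg.Agent.S0064
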