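import Cfsg.Statements.S0073
import Cfsg.Agent.Lead.PrimeAction

set_option autoImplicit false
open Cfsg

namespace Cfsg.Agent.S0073

/-- For a finite non-abelian simple group, either the cube of the least prime divisor of the order divides the order, or 12 does. -/
theorem result {G : Type*} [Group G] [Finite G] [IsSimpleGroup G] (hG : ∃ x y : G, x * y ≠ y * x) : (Nat.card G).minFac ^ 3 ∣ Nat.card G ∨ 12 ∣ Nat.card G := by
  classical
  obtain ⟨x0, y0, hxy0⟩ := hG
  have hcard1 : Nat.card G ≠ 1 := by
    intro h1
    have hsub : Subsingleton G := (Nat.card_eq_one_iff_unique.mp h1).1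
    exact hxy0 (Subsingleton.elim _ _)
  obtain ⟨p, hp_def⟩ : ∃ p, p = (Nat.card G).minFac := ⟨_, rfl⟩
  rw [← hp_def]
  have hp : p.Prime := hp_def ▸ Nat.minFac_prime hcard1
  have : Fact p.Prime := ⟨hp⟩
  have hpd : p ∣ Nat.card G := hp_def ▸ Nat.minFac_dvd _
  obtain ⟨P⟩ : Nonempty (Sylow p G) := inferInstance
  have hPc0 : Nat.card (P : Subgroup G) = p ^ (Nat.card G).factorization p :=
    Sylow.card_eq_multiplicity P
  have hPdvd : Nat.card (P : Subgroup G) ∣ Nat.card G := Subgroup.card_subgroup_dvd_card _
  have ha0 : 0 < (Nat.card G).factorization p :=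
    Nat.Prime.factorization_pos_of_dvd hp (Nat.card_pos.ne') hpd
  obtain ⟨a, ha_def⟩ : ∃ a, a = (Nat.card G).factorization p := ⟨_, rfl⟩
  have hPc : Nat.card (P : Subgroup G) = p ^ a := by rw [ha_def]; exact hPc0
  have ha1 : 1 ≤ a := by omega
  by_cases ha3 : 3 ≤ a
  · left
    exact (pow_dvd_pow p ha3).trans (hPc ▸ hPdvd)
  · have ha2 : a ≤ 2 := by omega
    have hcomm : ∀ x ∈ (P : Subgroup G), ∀ y ∈ (P : Subgroup G), x * y = y * x := by
      have hc : ∀ u v : (P : Subgroup G), u * v = v * u := by
        rcases (show a = 1 ∨ a = 2 by omega) with h | h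
        · have hcP : Nat.card (P : Subgroup G) = p := by rw [hPc, h, pow_one]
          have hcyc : IsCyclic (P : Subgroup G) := isCyclic_of_prime_card hcP
          have hI : IsMulCommutative (P : Subgroup G) := IsCyclic.isMulCommutative
          exact hI.is_comm.comm
        · have hcP : Nat.card (P : Subgroup G) = p ^ 2 := by rw [hPc, h]
          exact (IsPGroup.isMulCommutative_of_card_eq_prime_sq hcP).is_comm.comm
      intro x hx y hy
      exact congrArg Subtype.val (hc ⟨x, hx⟩ ⟨y, hy⟩)
    have hP1 : 1 < Nat.card (P : Subgroup G) := by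
      rw [hPc]; exact Nat.one_lt_pow (by omega) hp.one_lt
    by_cases hNC : Subgroup.normalizer ((P : Subgroup G) : Set G) ≤
        Subgroup.centralizer ((P : Subgroup G) : Set G)
    · exfalso
      obtain ⟨K, hKn, hKc⟩ := (Cfsg.Agent.Lead.hasNormalPComplement_iff P).mp
        (Cfsg.Agent.Lead.burnside_npc P hNC)
      have hmul : Nat.card K * Nat.card (P : Subgroup G) = Nat.card G := hKc.card_mul_card
      rcases hKn.eq_bot_or_eq_top with hK | hK
      · rw [hK, Subgroup.card_bot, one_mul] at hmul
        have hPtop : (P : Subgroup G) = ⊤ := (Subgroup.card_eq_iff_eq_top _).mp hmul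
        exact hxy0 (hcomm x0 (hPtop ▸ Subgroup.mem_top x0) y0 (hPtop ▸ Subgroup.mem_top y0))
      · rw [hK, Subgroup.card_top] at hmul
        have hpos : 0 < Nat.card G := Nat.card_pos
        nlinarith
    · right
      obtain ⟨q, D, hq, hqp, hqd, hD, hmod⟩ :=
        Cfsg.Agent.Lead.exists_prime_action_of_not_le P hcomm hNC
      have hpq : p < q := by
        have := Nat.minFac_le_of_dvd hq.two_le hqd
        rw [← hp_def] at this
        omega
      have hDdvd : Nat.card D ∣ p ^ a := hPc ▸ Subgroup.card_subgroup_dvd_card D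
      obtain ⟨j, hja, hj⟩ := (Nat.dvd_prime_pow hp).mp hDdvd
      have hjlt : j < a := by
        rcases Nat.lt_or_ge j a with h | h
        · exact h
        · exfalso
          have hja' : j = a := le_antisymm hja h
          apply hD
          rw [← Subgroup.card_eq_iff_eq_top, hj, hja', hPc]
      rw [hPc, hj] at hmod
      have hle : p ^ j ≤ p ^ a := Nat.pow_le_pow_right hp.pos hja
      have hdiv : q ∣ p ^ a - p ^ j := (Nat.modEq_iff_dvd' hle).mp hmod.symm
      have hqnp : ¬ q ∣ p := fun h => hqp ((Nat.prime_dvd_prime_iff_eq hq hp).mp h)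
      have hqnp1 : ¬ q ∣ p - 1 := by
        intro h
        have h1 : 0 < p - 1 := by have := hp.two_le; omega
        have := Nat.le_of_dvd h1 h
        omega
      have hcases : (a = 1 ∧ j = 0) ∨ (a = 2 ∧ j = 0) ∨ (a = 2 ∧ j = 1) := by omega
      rcases hcases with ⟨h1, h0⟩ | ⟨h2, h0⟩ | ⟨h2, h1⟩
      · exfalso
        rw [h1, h0, pow_one, pow_zero] at hdiv
        exact hqnp1 hdiv
      · rw [h2, h0, pow_zero] at hdiv
        have hfac : p ^ 2 - 1 = (p - 1) * (p + 1) := by
          obtain ⟨m, rfl⟩ : ∃ m, p = m + 1 := ⟨p - 1, by have := hp.two_le; omega⟩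
          have : (m + 1) ^ 2 = m * (m + 1 + 1) + 1 := by ring
          rw [this]; simp
        rw [hfac] at hdiv
        rcases (Nat.Prime.dvd_mul hq).mp hdiv with h | h
        · exact absurd h hqnp1
        · have hle' := Nat.le_of_dvd (by omega) h
          have hq' : q = p + 1 := by omega
          have hp2 : p = 2 := by
            rcases hp.eq_two_or_odd with h2' | hodd
            · exact h2'
            · exfalso
              have h2q : 2 ∣ q := by rw [hq']; omega
              have := (Nat.prime_dvd_prime_iff_eq Nat.prime_two hq).mp h2q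
              have := hp.two_le
              omega
          have hq3 : q = 3 := by omega
          have h4 : 4 ∣ Nat.card G := by
            have h44 : Nat.card (P : Subgroup G) = 4 := by rw [hPc, h2, hp2]; norm_num
            exact h44 ▸ hPdvd
          have h3 : 3 ∣ Nat.card G := hq3 ▸ hqd
          have h12 : 4 * 3 ∣ Nat.card G :=
            Nat.Coprime.mul_dvd_of_dvd_of_dvd (by norm_num : Nat.Coprime 4 3) h4 h3
          simpa using h12
      · exfalso
        rw [h2, h1, pow_one] at hdiv
        have hfac : p ^ 2 - p = p * (p - 1) := by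
          rw [Nat.mul_sub, mul_one, sq]
        rw [hfac] at hdiv
        rcases (Nat.Prime.dvd_mul hq).mp hdiv with h | h
        · exact hqnp h
        · exact hqnp1 h

end Cfsg.Agent.S0073
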