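import Cfsg.Statements.S0074
import Cfsg.Agent.Lead.AbelianHall

set_option autoImplicit false
open Cfsg

namespace Cfsg.Agent.S0074

/-- For an abelian Sylow p-subgroup P, the intersection of P with the derived subgroup of G equals its intersection with the derived subgroup of the normalizer of P. -/
theorem result {G : Type*} [Group G] [Finite G] {p : ℕ} [Fact p.Prime] (P : Sylow p G) (hP : IsMulCommutative P) : commutator G ⊓ (P : Subgroup G) = ⁅Subgroup.normalizer (P : Set G), Subgroup.normalizer (P : Set G)⁆ ⊓ (P : Subgroup G) := by
  haveI : IsMulCommutative (P : Subgroup G) := hP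
  have h := Cfsg.Agent.Lead.commutator_inf_sylow_abelian P
  apply le_antisymm
  · apply le_inf _ inf_le_right
    rw [h]
    exact Subgroup.commutator_mono Subgroup.le_normalizer le_rfl
  · exact inf_le_inf_right _ (Subgroup.commutator_mono le_top le_top)

end Cfsg.Agent.S0074
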