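import Cfsg.Statements.S0075
import Cfsg.Agent.Lead.AbelianHall

set_option autoImplicit false
open Cfsg

namespace Cfsg.Agent.S0075

/-- For an abelian Sylow p-subgroup T, its intersection with the subgroup generated by the elements of order prime to p is the commutator of T with its normalizer. -/
theorem result {G : Type*} [Group G] [Finite G] {p : ℕ} [Fact p.Prime] (T : Sylow p G) (hT : IsMulCommutative T) : (T : Subgroup G) ⊓ Cfsg.pResidual p G = ⁅(T : Subgroup G), Subgroup.normalizer (T : Set G)⁆ := by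
  haveI : IsMulCommutative (T : Subgroup G) := hT
  have hfoc := Cfsg.Agent.Lead.commutator_inf_sylow_abelian T
  apply le_antisymm
  · rintro x ⟨hxT, hxR⟩
    have hxT' : x ∈ (T : Subgroup G) := hxT
    obtain ⟨k, hk⟩ := T.2.exists_card_eq
    have hxk : x ^ p ^ k = 1 := by
      have h' := congrArg Subtype.val (pow_card_eq_one' (G := (T : Subgroup G)) (x := ⟨x, hxT'⟩))
      simp only [SubgroupClass.coe_pow, Subgroup.coe_one] at h'
      rw [← hk]; exact h'
    have h1 : x ∈ commutator G ⊓ (T : Subgroup G) :=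
      ⟨Cfsg.Agent.Lead.mem_commutator_of_mem_pResidual x k hxk hxR, hxT'⟩
    rw [hfoc] at h1
    exact h1
  · change ⁅(T : Subgroup G), Subgroup.normalizer ((T : Subgroup G) : Set G)⁆ ≤ _
    rw [Subgroup.commutator_le]
    intro x hx n hn
    refine ⟨?_, Cfsg.Agent.Lead.comm_mem_pResidual T x hx n hn⟩
    have h1 : n * x⁻¹ * n⁻¹ ∈ (T : Subgroup G) :=
      (Subgroup.mem_normalizer_iff.mp hn x⁻¹).mp (inv_mem hx)
    have h2 := mul_mem hx h1
    change _ ∈ (T : Subgroup G)
    rw [commutatorElement_def]
    simpa [mul_assoc] using h2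

end Cfsg.Agent.S0075
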