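import Cfsg.Statements.S0077
import Cfsg.Agent.Lead.PrimeAction

set_option autoImplicit false
open Cfsg

namespace Cfsg.Agent.S0077

open scoped commutatorElement


/-- If a subgroup Z of the centre of a Sylow p-subgroup P is weakly closed in P, then P meets the derived subgroup of G exactly where it meets the derived subgroup of the normalizer of Z. -/
theorem result {G : Type*} [Group G] [Finite G] {p : ℕ} [Fact p.Prime] (P : Sylow p G) (Z : Subgroup G) (hZ : Z ≤ Subgroup.centralizer (P : Set G)) (hW : Cfsg.IsWeaklyClosed Z P) : commutator G ⊓ (P : Subgroup G) = ⁅Subgroup.normalizer (Z : Set G), Subgroup.normalizer (Z : Set G)⁆ ⊓ (P : Subgroup G) := by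
  classical
  have hZP : Z ≤ (P : Subgroup G) := hW.1
  have hZp : IsPGroup p Z := P.2.to_le hZP
  have hcomm : ∀ z ∈ Z, ∀ x ∈ (P : Subgroup G), x * z = z * x := by
    intro z hz x hx
    exact Subgroup.mem_centralizer_iff.mp (hZ hz) x hx
  have hwc : ∀ t : G, (∀ z ∈ Z, t * z * t⁻¹ ∈ (P : Subgroup G)) →
      t ∈ Subgroup.normalizer (Z : Set G) := by
    intro t ht
    have hle : Z.map (MulAut.conj t).toMonoidHom ≤ (P : Subgroup G) := by
      rintro _ ⟨z, hz, rfl⟩
      exact ht z hz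
    have heq := hW.2 t hle
    apply Subgroup.mem_normalizer_fintype
    intro z hz
    have h1 : t * z * t⁻¹ ∈ Z.map (MulAut.conj t).toMonoidHom := ⟨z, hz, rfl⟩
    rw [heq] at h1
    exact h1
  have hPN : (P : Subgroup G) ≤ Subgroup.normalizer (Z : Set G) := by
    intro x hx
    apply Subgroup.centralizer_le_normalizer
    rw [Subgroup.mem_centralizer_iff]
    intro z hz
    exact (hcomm z hz x hx).symm
  have key : ∀ x ∈ (P : Subgroup G), ∀ g : G, g * x * g⁻¹ ∈ (P : Subgroup G) →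
      ∃ n ∈ Subgroup.normalizer (Z : Set G), n * x * n⁻¹ = g * x * g⁻¹ := by
    intro x hx g hy
    have hZC : Z ≤ Subgroup.centralizer ({g * x * g⁻¹} : Set G) := by
      intro z hz
      rw [Subgroup.mem_centralizer_iff]
      rintro _ rfl
      exact hcomm z hz _ hy
    have hZgC : ∀ z ∈ Z, g * z * g⁻¹ ∈ Subgroup.centralizer ({g * x * g⁻¹} : Set G) := by
      intro z hz
      rw [Subgroup.mem_centralizer_iff]
      rintro _ rfl
      have h1 := hcomm z hz x hx
      calc g * x * g⁻¹ * (g * z * g⁻¹) = g * (x * z) * g⁻¹ := by group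
        _ = g * (z * x) * g⁻¹ := by rw [h1]
        _ = g * z * g⁻¹ * (g * x * g⁻¹) := by group
    have hZgp : IsPGroup p (Z.map (MulAut.conj g).toMonoidHom) := hZp.map _
    have hZgle : Z.map (MulAut.conj g).toMonoidHom ≤
        Subgroup.centralizer ({g * x * g⁻¹} : Set G) := by
      rintro _ ⟨z, hz, rfl⟩
      exact hZgC z hz
    obtain ⟨R1, hR1⟩ := (hZp.comap_subtype
      (K := Subgroup.centralizer ({g * x * g⁻¹} : Set G))).exists_le_sylow
    obtain ⟨R2, hR2⟩ := (hZgp.comap_subtype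
      (K := Subgroup.centralizer ({g * x * g⁻¹} : Set G))).exists_le_sylow
    obtain ⟨c, hc⟩ := MulAction.exists_smul_eq
      (Subgroup.centralizer ({g * x * g⁻¹} : Set G)) R2 R1
    obtain ⟨Q, hQ⟩ := (R1.2.map
      (Subgroup.centralizer ({g * x * g⁻¹} : Set G)).subtype).exists_le_sylow
    obtain ⟨h, rfl⟩ := MulAction.exists_smul_eq G P Q
    have h1 : h⁻¹ ∈ Subgroup.normalizer (Z : Set G) := by
      apply hwc
      intro z hz
      have hz1 : (⟨z, hZC hz⟩ : Subgroup.centralizer ({g * x * g⁻¹} : Set G)) ∈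
          (R1 : Subgroup _) := hR1 (Subgroup.mem_comap.mpr hz)
      have hz2 : z ∈ ((h • P : Sylow p G) : Subgroup G) := hQ ⟨_, hz1, rfl⟩
      rw [Cfsg.Agent.Lead.mem_smul_sylow] at hz2
      rw [inv_inv]; exact hz2
    have h2 : h⁻¹ * (c : G) * g ∈ Subgroup.normalizer (Z : Set G) := by
      apply hwc
      intro z hz
      have hz1 : (⟨g * z * g⁻¹, hZgC z hz⟩ : Subgroup.centralizer ({g * x * g⁻¹} : Set G)) ∈
          (R2 : Subgroup _) := hR2 (Subgroup.mem_comap.mpr ⟨z, hz, rfl⟩)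
      have hz2 : c * (⟨g * z * g⁻¹, hZgC z hz⟩ :
          Subgroup.centralizer ({g * x * g⁻¹} : Set G)) * c⁻¹ ∈
          ((c • R2 : Sylow p _) : Subgroup _) := by
        rw [Cfsg.Agent.Lead.mem_smul_sylow]
        have e : c⁻¹ * (c * (⟨g * z * g⁻¹, hZgC z hz⟩ :
          Subgroup.centralizer ({g * x * g⁻¹} : Set G)) * c⁻¹) * c = ⟨g * z * g⁻¹, hZgC z hz⟩ := by
          group
        rw [e]; exact hz1
      rw [hc] at hz2
      have hz3 : (c : G) * (g * z * g⁻¹) * (c : G)⁻¹ ∈ ((h • P : Sylow p G) : Subgroup G) :=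
        hQ ⟨_, hz2, rfl⟩
      rw [Cfsg.Agent.Lead.mem_smul_sylow] at hz3
      have e : h⁻¹ * (c : G) * g * z * (h⁻¹ * (c : G) * g)⁻¹ =
          h⁻¹ * ((c : G) * (g * z * g⁻¹) * (c : G)⁻¹) * h := by group
      rw [e]; exact hz3
    refine ⟨(c : G) * g, ?_, ?_⟩
    · have e : (c : G) * g = (h⁻¹)⁻¹ * (h⁻¹ * (c : G) * g) := by group
      rw [e]
      exact mul_mem (inv_mem h1) h2
    · have hcy := Subgroup.mem_centralizer_iff.mp c.2 (g * x * g⁻¹) rfl
      calc (c : G) * g * x * ((c : G) * g)⁻¹ = ((c : G) * (g * x * g⁻¹)) * (c : G)⁻¹ := by group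
        _ = (g * x * g⁻¹ * (c : G)) * (c : G)⁻¹ := by rw [hcy]
        _ = g * x * g⁻¹ := by group
  apply le_antisymm
  · rw [Subgroup.commutator_inf_eq_focalSubgroup P]
    refine le_inf ?_ (Subgroup.focalSubgroup_le _)
    rw [Subgroup.focalSubgroup_def, Subgroup.closure_le]
    rintro w ⟨hw, x, hx, t, rfl⟩
    have h2 : t * x⁻¹ * t⁻¹ ∈ (P : Subgroup G) := by
      have := mul_mem (inv_mem hx) hw
      rw [commutatorElement_def] at this
      simpa [mul_assoc] using this
    obtain ⟨n, hn, hnx⟩ := key x⁻¹ (inv_mem hx) t h2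
    have h3 : ⁅x, t⁆ = ⁅x, n⁆ := by
      rw [commutatorElement_def, commutatorElement_def]
      calc x * t * x⁻¹ * t⁻¹ = x * (t * x⁻¹ * t⁻¹) := by group
        _ = x * (n * x⁻¹ * n⁻¹) := by rw [← hnx]
        _ = x * n * x⁻¹ * n⁻¹ := by group
    rw [SetLike.mem_coe, h3]
    exact Subgroup.commutator_mem_commutator (hPN hx) hn
  · exact inf_le_inf_right _ (Subgroup.commutator_mono le_top le_top)

end Cfsg.Agent.S0077
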