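import Cfsg.Statements.S0078
import Cfsg.Agent.Lead.Tate
import Cfsg.Agent.S0077
import Mathlib.GroupTheory.Focal

set_option autoImplicit false
open Cfsg

namespace Cfsg.Agent.S0078

/-- In a p-normal group, a Sylow p-subgroup P meets O^p(G) exactly where it meets O^p(V), for any subgroup V containing the normalizer of the centre of P. -/
theorem result {G : Type*} [Group G] [Finite G] {p : ℕ} [Fact p.Prime] (P : Sylow p G) (hn : ∀ Q : Sylow p G, (P : Subgroup G) ⊓ Subgroup.centralizer (P : Set G) ≤ (Q : Subgroup G) → (Q : Subgroup G) ⊓ Subgroup.centralizer (Q : Set G) = (P : Subgroup G) ⊓ Subgroup.centralizer (P : Set G)) (V : Subgroup G) (hV : Subgroup.normalizer (((P : Subgroup G) ⊓ Subgroup.centralizer (P : Set G) : Subgroup G) : Set G) ≤ V) : (P : Subgroup G) ⊓ Cfsg.pResidual p G = (P : Subgroup G) ⊓ (Cfsg.pResidual p V).map V.subtype := by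
  classical
  have hp : p.Prime := Fact.out
  have hW : Cfsg.IsWeaklyClosed ((P : Subgroup G) ⊓ Subgroup.centralizer (P : Set G))
      (P : Subgroup G) := by
    refine ⟨inf_le_left, ?_⟩
    intro g hg
    have hZQ : (P : Subgroup G) ⊓ Subgroup.centralizer (P : Set G) ≤
        ((g⁻¹ • P : Sylow p G) : Subgroup G) := by
      intro x hx
      rw [Cfsg.Agent.Lead.mem_smul_sylow, inv_inv]
      exact hg ⟨x, hx, rfl⟩
    have hQ := hn (g⁻¹ • P) hZQ
    have hle : ((P : Subgroup G) ⊓ Subgroup.centralizer (P : Set G)).map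
        (MulAut.conj g).toMonoidHom ≤ (P : Subgroup G) ⊓ Subgroup.centralizer (P : Set G) := by
      rintro _ ⟨x, hx, rfl⟩
      have hx' := hx
      rw [← hQ] at hx'
      obtain ⟨hx1, hx2⟩ := Subgroup.mem_inf.mp hx'
      rw [Cfsg.Agent.Lead.mem_smul_sylow, inv_inv] at hx1
      show g * x * g⁻¹ ∈ (P : Subgroup G) ⊓ Subgroup.centralizer (P : Set G)
      refine Subgroup.mem_inf.mpr ⟨hx1, ?_⟩
      rw [Subgroup.mem_centralizer_iff]
      intro y hy
      have hyQ : g⁻¹ * y * g ∈ ((g⁻¹ • P : Sylow p G) : Subgroup G) := by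
        rw [Cfsg.Agent.Lead.mem_smul_sylow, inv_inv]
        have e0 : g * (g⁻¹ * y * g) * g⁻¹ = y := by group
        rw [e0]; exact hy
      have h3 := Subgroup.mem_centralizer_iff.mp hx2 _ hyQ
      have e1 : y * (g * x * g⁻¹) = g * (g⁻¹ * y * g * x) * g⁻¹ := by group
      rw [e1, h3]; group
    exact Subgroup.eq_of_le_of_card_ge hle
      (by rw [Subgroup.card_map_of_injective (MulAut.conj g).injective])
  have hfocal := Cfsg.Agent.S0077.result P
    ((P : Subgroup G) ⊓ Subgroup.centralizer (P : Set G)) inf_le_right hW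
  have hPN : (P : Subgroup G) ≤ Subgroup.normalizer
      (((P : Subgroup G) ⊓ Subgroup.centralizer (P : Set G) : Subgroup G) : Set G) := by
    intro y hy
    rw [Subgroup.mem_normalizer_iff]
    intro z
    have hcomm : ∀ z ∈ (P : Subgroup G) ⊓ Subgroup.centralizer (P : Set G),
        y * z * y⁻¹ = z := by
      intro z hz
      have h1 := Subgroup.mem_centralizer_iff.mp (Subgroup.mem_inf.mp hz).2 y hy
      rw [h1]; group
    constructor
    · intro hz; rw [hcomm z hz]; exact hz
    · intro hz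
      have h2 := hcomm _ hz
      have h3 : y * z * y⁻¹ = z := mul_left_cancel (mul_right_cancel h2)
      rw [← h3]; exact hz
  have hPV : (P : Subgroup G) ≤ V := hPN.trans hV
  have hPidx : ((P : Subgroup G).index).Coprime p :=
    ((Nat.Prime.coprime_iff_not_dvd hp).mpr P.not_dvd_index).symm
  have hVidx : V.index.Coprime p :=
    Nat.Coprime.coprime_dvd_left (Subgroup.index_dvd_of_le hPV) hPidx
  have hA : Nat.card (Multiplicative (ZMod p)) = p :=
    (Nat.card_congr Multiplicative.toAdd).trans (Nat.card_zmod p)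
  have hAp : ∀ a : Multiplicative (ZMod p), a ^ p = 1 := fun a => by
    have := pow_card_eq_one' (x := a); rwa [hA] at this
  have hcopfoc : Nat.Coprime (P : Subgroup G).index
      (Nat.card (↥(P : Subgroup G) ⧸ (P : Subgroup G).focalSubgroupOf)) := by
    obtain ⟨k, hk⟩ := IsPGroup.iff_card.mp (P.2.to_quotient (P : Subgroup G).focalSubgroupOf)
    rw [hk]; exact Nat.Coprime.pow_right k hPidx
  have hext : ∀ ε : ↥V →* Multiplicative (ZMod p),
      ∃ ε' : G →* Multiplicative (ZMod p), ∀ v : ↥V, ε' (v : G) = ε v := by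
    intro ε
    let φ : ↥(P : Subgroup G) →* Multiplicative (ZMod p) := ε.comp (Subgroup.inclusion hPV)
    have hφ : (P : Subgroup G).focalSubgroupOf ≤ φ.ker := by
      intro x hx
      rw [Subgroup.focalSubgroupOf_def, Subgroup.mem_subgroupOf] at hx
      have hfg := (Cfsg.Agent.Lead.focal_general (P : Subgroup G) hcopfoc).2.2
      rw [← hfg, hfocal] at hx
      have hx1 := (Subgroup.mem_inf.mp hx).1
      have hx2 : (x : G) ∈ ⁅V, V⁆ := Subgroup.commutator_mono hV hV hx1
      rw [← Subgroup.map_subtype_commutator] at hx2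
      obtain ⟨w, hw, hwx⟩ := hx2
      rw [MonoidHom.mem_ker]
      have hincl : Subgroup.inclusion hPV x = w := Subtype.ext hwx.symm
      show ε (Subgroup.inclusion hPV x) = 1
      rw [hincl]
      exact Abelianization.commutator_subset_ker ε hw
    let φbar : ↥(P : Subgroup G) ⧸ (P : Subgroup G).focalSubgroupOf →*
        Multiplicative (ZMod p) := QuotientGroup.lift _ φ hφ
    obtain ⟨m, -, hm⟩ := Nat.exists_mul_mod_eq_one_of_coprime hPidx hp.one_lt
    let ε' : G →* Multiplicative (ZMod p) :=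
      (powMonoidHom m).comp (φbar.comp (P : Subgroup G).transferFocal)
    have hε'P : ∀ x : ↥(P : Subgroup G), ε' (x : G) = φ x := by
      intro x
      show (φbar ((P : Subgroup G).transferFocal (x : G))) ^ m = φ x
      rw [Subgroup.transferFocal_eq_pow, map_pow]
      have hb : φbar (x : ↥(P : Subgroup G) ⧸ (P : Subgroup G).focalSubgroupOf) = φ x :=
        QuotientGroup.lift_mk _ hφ x
      rw [hb, ← pow_mul, pow_eq_pow_mod _ (hAp (φ x)), hm, pow_one]
    refine ⟨ε', ?_⟩
    let δ : ↥V →* Multiplicative (ZMod p) := (ε'.comp V.subtype) / ε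
    have hδ : ((P : Subgroup G).subgroupOf V) ≤ δ.ker := by
      intro v hv
      rw [Subgroup.mem_subgroupOf] at hv
      rw [MonoidHom.mem_ker]
      show ε' (v : G) / ε v = 1
      have h1 := hε'P ⟨(v : G), hv⟩
      have h2 : φ ⟨(v : G), hv⟩ = ε v := by
        show ε (Subgroup.inclusion hPV ⟨(v : G), hv⟩) = ε v
        congr 1
      have h1' : ε' (v : G) = φ ⟨(v : G), hv⟩ := h1
      rw [h1', h2, div_self']
    have hSidx : (((P : Subgroup G).subgroupOf V).index).Coprime p :=
      Nat.Coprime.coprime_dvd_left (Subgroup.relIndex_dvd_index_of_le hPV) hPidx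
    intro v
    have h3 := Cfsg.Agent.Lead.hom_eq_one_of_le_ker hA _ hSidx δ hδ v
    have h4 : ε' (v : G) / ε v = 1 := h3
    exact div_eq_one.mp h4
  have htate := Cfsg.Agent.Lead.tate hA V hVidx hext
  apply le_antisymm
  · intro x hx
    obtain ⟨hxP, hxR⟩ := Subgroup.mem_inf.mp hx
    refine Subgroup.mem_inf.mpr ⟨hxP, ?_⟩
    have hxV : x ∈ V := hPV hxP
    have h1 : (⟨x, hxV⟩ : ↥V) ∈ (Cfsg.pResidual p G).subgroupOf V :=
      Subgroup.mem_subgroupOf.mpr hxR
    exact ⟨⟨x, hxV⟩, htate h1, rfl⟩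
  · intro x hx
    obtain ⟨hxP, hxR⟩ := Subgroup.mem_inf.mp hx
    exact Subgroup.mem_inf.mpr ⟨hxP, Cfsg.Agent.Lead.pResidual_map_subtype_le p V hxR⟩

end Cfsg.Agent.S0078
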