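import Cfsg.Statements.S0079
import Cfsg.Agent.Lead.FusionNPC
import Cfsg.Agent.Helper21.NilCoprime

set_option autoImplicit false
open Cfsg

namespace Cfsg.Agent.S0079

/-- A nilpotent Hall subgroup has a normal complement exactly when elements of it that are conjugate in the whole group are already conjugate inside it. -/
theorem result {G : Type*} [Group G] [Finite G] (H : Subgroup G) (hH : Group.IsNilpotent H) (hHall : Nat.Coprime (Nat.card H) H.index) : (∃ N : Subgroup G, N.Normal ∧ N.IsComplement' H) ↔ ∀ x ∈ H, ∀ y ∈ H, (∃ g : G, g * x * g⁻¹ = y) → ∃ h ∈ H, h * x * h⁻¹ = y := by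
  classical
  constructor
  · rintro ⟨N, hN, hc⟩ x hx y hy ⟨g, rfl⟩
    obtain ⟨⟨⟨h, hh⟩, ⟨n, hn⟩⟩, hxn⟩ := hc.symm.2 g
    have hxn' : h * n = g := hxn
    have h1 : n * x * n⁻¹ ∈ H := by
      have : n * x * n⁻¹ = h⁻¹ * (g * x * g⁻¹) * h := by rw [← hxn']; group
      rw [this]
      exact mul_mem (mul_mem (inv_mem hh) hy) hh
    have h2 : n * x * n⁻¹ * x⁻¹ ∈ H := mul_mem h1 (inv_mem hx)
    have h3 : n * x * n⁻¹ * x⁻¹ ∈ N := by
      have : n * x * n⁻¹ * x⁻¹ = n * (x * n⁻¹ * x⁻¹) := by group
      rw [this]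
      exact mul_mem hn (hN.conj_mem _ (inv_mem hn) x)
    have h4 : n * x * n⁻¹ * x⁻¹ = 1 := Subgroup.disjoint_def.mp hc.disjoint h3 h2
    have h5 : n * x * n⁻¹ = x := by
      have := congrArg (· * x) h4
      simpa using this
    refine ⟨h, hh, ?_⟩
    rw [← hxn']
    calc h * x * h⁻¹ = h * (n * x * n⁻¹) * h⁻¹ := by rw [h5]
      _ = h * n * x * (h * n)⁻¹ := by group
  · intro hfus
    have := hH
    have hG0 : Nat.card G ≠ 0 := Nat.card_pos.ne'
    have hH0 : Nat.card H ≠ 0 := Nat.card_pos.ne'
    have hcardG : Nat.card G = Nat.card H * H.index := (Subgroup.card_mul_index H).symm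
    have step : ∀ p : ℕ, p.Prime → p ∣ Nat.card H → ∃ K : Subgroup G, K.Normal ∧
        K.index = p ^ (Nat.card H).factorization p ∧ (Nat.card K).Coprime p := by
      intro p hp hpH
      have : Fact p.Prime := ⟨hp⟩
      have hnd : ¬ p ∣ H.index :=
        (Nat.Prime.coprime_iff_not_dvd hp).mp (Nat.Coprime.coprime_dvd_left hpH hHall)
      have hfac : (Nat.card G).factorization p = (Nat.card H).factorization p := by
        rw [hcardG, Nat.factorization_mul hH0 Subgroup.index_ne_zero_of_finite,
          Finsupp.add_apply, Nat.factorization_eq_zero_of_not_dvd hnd, add_zero]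
      obtain ⟨PH⟩ : Nonempty (Sylow p H) := inferInstance
      have hall : ∀ (r : ℕ) (_hr : Fact r.Prime) (R : Sylow r H), (R : Subgroup H).Normal :=
        ((Group.isNilpotent_of_finite_tfae (G := H)).out 0 3).mp hH
      have hPHn : (PH : Subgroup H).Normal := hall p ⟨hp⟩ PH
      have hnt : Subgroup.normalizer ((PH : Subgroup H) : Set H) = ⊤ :=
        Subgroup.normalizer_eq_top_iff.mpr hPHn
      have hcardP : Nat.card ((PH : Subgroup H).map H.subtype) =
          p ^ (Nat.card G).factorization p := by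
        rw [Subgroup.card_map_of_injective H.subtype_injective, Sylow.card_eq_multiplicity, hfac]
      obtain ⟨P, hPcoe⟩ : ∃ P : Sylow p G, (P : Subgroup G) = (PH : Subgroup H).map H.subtype :=
        ⟨Sylow.ofCard _ hcardP, rfl⟩
      have hctl : ∀ x ∈ (P : Subgroup G), ∀ y ∈ (P : Subgroup G), (∃ g : G, g * x * g⁻¹ = y) →
          ∃ z ∈ (P : Subgroup G), z * x * z⁻¹ = y := by
        rw [hPcoe]
        rintro x ⟨x', hx', rfl⟩ y ⟨y', hy', rfl⟩ hg
        obtain ⟨h, hh, hconj⟩ := hfus _ x'.2 _ y'.2 hg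
        obtain ⟨c, a, k, hc, ha, hca, hck, hacop⟩ :=
          Cfsg.Agent.Lead.exists_p_decomp p (⟨h, hh⟩ : H)
        have hcP : c ∈ (PH : Subgroup H) :=
          Cfsg.Agent.Lead.mem_sylow_of_mem_normalizer PH c k hck (by rw [hnt]; exact Subgroup.mem_top _)
        have hcomm : Commute a x' := by
          apply Cfsg.Agent.Helper21.commute_of_coprime_orderOf
          obtain ⟨j, hj⟩ := PH.2 ⟨x', hx'⟩
          have hj' : x' ^ p ^ j = 1 := by simpa using congrArg Subtype.val hj
          exact Nat.Coprime.coprime_dvd_right (orderOf_dvd_of_pow_eq_one hj') (hacop.pow_right j)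
        refine ⟨(c : G), ⟨c, hcP, rfl⟩, ?_⟩
        have e1 : (⟨h, hh⟩ : H) * x' * (⟨h, hh⟩ : H)⁻¹ = y' := Subtype.ext (by simpa using hconj)
        have hax : a * x' * a⁻¹ = x' := by rw [hcomm.eq, mul_inv_cancel_right]
        have e2 : c * x' * c⁻¹ = y' := by
          rw [← e1, hca]
          calc c * x' * c⁻¹ = c * (a * x' * a⁻¹) * c⁻¹ := by rw [hax]
            _ = c * a * x' * (c * a)⁻¹ := by group
        have := congrArg Subtype.val e2
        simpa using this
      obtain ⟨K, hK, hKc⟩ := Cfsg.Agent.Lead.npc_of_controls_fusion P hctl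
      refine ⟨K, hK, ?_, ?_⟩
      · rw [hKc.symm.index_eq_card, Sylow.card_eq_multiplicity, hfac]
      · have hl : Nat.card K = (P : Subgroup G).index := hKc.card_left
        rw [hl]
        exact ((Nat.Prime.coprime_iff_not_dvd hp).mpr P.not_dvd_index).symm
    choose! K hKn hKi hKc using step
    obtain ⟨N, hNdef⟩ : ∃ N : Subgroup G, N = ⨅ p : (Nat.card H).primeFactors, K p.1 := ⟨_, rfl⟩
    have hN0 : N.index ≠ 0 := Subgroup.index_ne_zero_of_finite
    have hNn : N.Normal := by
      rw [hNdef]
      exact Subgroup.normal_iInf_normal (fun p => hKn p.1 (Nat.prime_of_mem_primeFactors p.2)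
        (Nat.dvd_of_mem_primeFactors p.2))
    have hNle : ∀ p, p.Prime → p ∣ Nat.card H → N ≤ K p := by
      intro p hp hd
      rw [hNdef]
      exact iInf_le (fun q : (Nat.card H).primeFactors => K q.1)
        ⟨p, Nat.mem_primeFactors.mpr ⟨hp, hd, hH0⟩⟩
    have hidx_le : N.index ≤ Nat.card H := by
      calc N.index ≤ ∏ p : (Nat.card H).primeFactors, (K p.1).index := by
            rw [hNdef]; exact Subgroup.index_iInf_le _
        _ = ∏ p : (Nat.card H).primeFactors, p.1 ^ (Nat.card H).factorization p.1 := by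
            apply Finset.prod_congr rfl
            intro p _
            exact hKi p.1 (Nat.prime_of_mem_primeFactors p.2) (Nat.dvd_of_mem_primeFactors p.2)
        _ = ∏ p ∈ (Nat.card H).primeFactors, p ^ (Nat.card H).factorization p :=
            Finset.prod_coe_sort _ (fun p => p ^ (Nat.card H).factorization p)
        _ = Nat.card H :=
            (Nat.prod_factorization_eq_prod_primeFactors (· ^ ·)).symm.trans
              (Nat.prod_factorization_pow_eq_self hH0)
    have hdvd : Nat.card H ∣ N.index := by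
      rw [← Nat.factorization_prime_le_iff_dvd hH0 hN0]
      intro p hp
      by_cases hd : p ∣ Nat.card H
      · rw [← hp.pow_dvd_iff_le_factorization hN0, ← hKi p hp hd]
        exact Subgroup.index_dvd_of_le (hNle p hp hd)
      · rw [Nat.factorization_eq_zero_of_not_dvd hd]; exact Nat.zero_le _
    have hidx : N.index = Nat.card H :=
      le_antisymm hidx_le (Nat.le_of_dvd (Nat.pos_of_ne_zero hN0) hdvd)
    refine ⟨N, hNn, ?_⟩
    apply Subgroup.isComplement'_of_card_mul_and_disjoint
    · rw [← hidx]; exact Subgroup.card_mul_index N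
    · rw [Subgroup.disjoint_def]
      intro x hxN hxH
      by_contra hx1
      have hord : orderOf x ≠ 1 := fun h => hx1 (orderOf_eq_one_iff.mp h)
      obtain ⟨p, hp, hpd⟩ := Nat.exists_prime_and_dvd hord
      have hpH : p ∣ Nat.card H := hpd.trans (by
        have := orderOf_dvd_natCard (⟨x, hxH⟩ : H)
        rwa [Subgroup.orderOf_mk] at this)
      have hxK : x ∈ K p := hNle p hp hpH hxN
      have hpK : p ∣ Nat.card (K p) := hpd.trans (by
        have := orderOf_dvd_natCard (⟨x, hxK⟩ : K p)
        rwa [Subgroup.orderOf_mk] at this)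
      exact (Nat.Prime.coprime_iff_not_dvd hp).mp (hKc p hp hpH).symm hpK

end Cfsg.Agent.S0079
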