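import Cfsg.Statements.S0081
import Cfsg.Agent.Lead.Tate

set_option autoImplicit false
open Cfsg

namespace Cfsg.Agent.S0081

/-- If a normal subgroup meets a Sylow p-subgroup P inside the Frattini subgroup of P, then it has a normal p-complement. -/
theorem result {G : Type*} [Group G] [Finite G] {p : ℕ} [Fact p.Prime] (P : Sylow p G) (N : Subgroup G) [N.Normal] (h : N ⊓ (P : Subgroup G) ≤ (frattini P).map (P : Subgroup G).subtype) : Cfsg.HasNormalPComplement p N := by
  have hp : p.Prime := Fact.out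
  have hRn := Cfsg.Agent.Lead.pResidual_normal p ↥N
  have hKn := Cfsg.Agent.Lead.pResidual_subgroup_normal p N
  have hA : Nat.card (Multiplicative (ZMod p)) = p :=
    (Nat.card_congr Multiplicative.toAdd).trans (Nat.card_zmod p)
  have hAp : ∀ a : Multiplicative (ZMod p), a ^ p = 1 := fun a => by
    have := pow_card_eq_one' (x := a); rwa [hA] at this
  have hKhom : ∀ (f : ↥((Cfsg.pResidual p ↥N).map N.subtype) →* Multiplicative (ZMod p))
      (k : ↥((Cfsg.pResidual p ↥N).map N.subtype)), f k = 1 := by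
    intro f k
    let e := Subgroup.equivMapOfInjective (Cfsg.pResidual p ↥N) N.subtype N.subtype_injective
    have h1 := Cfsg.Agent.Lead.hom_pResidual_eq_one hAp (f.comp e.toMonoidHom) (e.symm k)
    have h2 : f (e (e.symm k)) = 1 := h1
    rwa [MulEquiv.apply_symm_apply] at h2
  have hl : ∀ (l : ↥(P : Subgroup G) →* Multiplicative (ZMod p)) (x : ↥(P : Subgroup G)),
      (x : G) ∈ (Cfsg.pResidual p ↥N).map N.subtype → l x = 1 := by
    intro l x hx
    have hxN : (x : G) ∈ N := by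
      obtain ⟨r, -, hr⟩ := hx
      rw [← hr]; exact r.2
    obtain ⟨y, hy, hyx⟩ := h ⟨hxN, x.2⟩
    have hyx' : y = x := Subtype.ext hyx
    rw [hyx'] at hy
    exact MonoidHom.mem_ker.mp (Cfsg.Agent.Lead.frattini_le_ker hA P.2 l hy)
  have hidx : ((P : Subgroup G).index).Coprime p :=
    ((Nat.Prime.coprime_iff_not_dvd hp).mpr P.not_dvd_index).symm
  have hq : IsPGroup p (↥(P : Subgroup G) ⧸ (⊥ : Subgroup ↥(P : Subgroup G))) :=
    P.2.to_quotient ⊥
  have hbot := Cfsg.Agent.Lead.tate_aux hA (P : Subgroup G)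
    ((Cfsg.pResidual p ↥N).map N.subtype) hidx hKhom hl ⊥ hq
  have hKP : ∀ g : G, g ∈ (Cfsg.pResidual p ↥N).map N.subtype → g ∈ (P : Subgroup G) →
      g = 1 := by
    intro g hgK hgP
    have hmem : (⟨g, hgP⟩ : ↥(P : Subgroup G)) ∈
        ((Cfsg.pResidual p ↥N).map N.subtype).subgroupOf (P : Subgroup G) :=
      Subgroup.mem_subgroupOf.mpr hgK
    have h1 := hbot hmem
    rw [Subgroup.mem_bot] at h1
    exact congrArg Subtype.val h1
  refine Cfsg.Agent.Lead.npc_of_normal_coprime (Cfsg.pResidual p ↥N) ?_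
    (Cfsg.Agent.Lead.isPGroup_quotient_pResidual p)
  intro hdvd
  obtain ⟨r, hr⟩ := exists_prime_orderOf_dvd_card' p hdvd
  have hg : orderOf ((r : ↥N) : G) = p := by
    rw [Subgroup.orderOf_coe, Subgroup.orderOf_coe]; exact hr
  have hgK : ((r : ↥N) : G) ∈ (Cfsg.pResidual p ↥N).map N.subtype := ⟨r.1, r.2, rfl⟩
  have hpow : ((r : ↥N) : G) ^ p ^ 1 = 1 := by
    have := pow_orderOf_eq_one ((r : ↥N) : G)
    rw [hg] at this
    rw [pow_one]; exact this
  have hQ : IsPGroup p (Subgroup.zpowers ((r : ↥N) : G)) :=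
    Cfsg.Agent.Lead.isPGroup_zpowers_of_pow _ 1 hpow
  obtain ⟨Q, hQ'⟩ := hQ.exists_le_sylow
  obtain ⟨y, rfl⟩ := MulAction.exists_smul_eq G P Q
  have hcQ : ((r : ↥N) : G) ∈ ((y • P : Sylow p G) : Subgroup G) :=
    hQ' (Subgroup.mem_zpowers _)
  rw [Cfsg.Agent.Lead.mem_smul_sylow] at hcQ
  have h2 : y⁻¹ * ((r : ↥N) : G) * y ∈ (Cfsg.pResidual p ↥N).map N.subtype := by
    have := hKn.conj_mem _ hgK y⁻¹
    rwa [inv_inv] at this
  have h3 := hKP _ h2 hcQ
  have h4 : ((r : ↥N) : G) = 1 := by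
    have h5 : ((r : ↥N) : G) = y * (y⁻¹ * ((r : ↥N) : G) * y) * y⁻¹ := by group
    rw [h5, h3]; group
  rw [h4, orderOf_one] at hg
  exact hp.one_lt.ne hg

end Cfsg.Agent.S0081
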