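import Cfsg.Statements.S0082
import Cfsg.Agent.Lead.AbelianSylow

set_option autoImplicit false
open Cfsg

namespace Cfsg.Agent.S0082

open scoped commutatorElement in
theorem aux {G : Type*} [Group G] [Finite G] {p : ℕ} [Fact p.Prime] (P : Sylow p G)
    (hP : IsCyclic (P : Subgroup G)) : Cfsg.HasNormalPComplement p G ∨ Cfsg.pResidual p G = ⊤ := by
  classical
  haveI : IsMulCommutative (P : Subgroup G) := IsCyclic.isMulCommutative
  have hDP : ⁅(P : Subgroup G), Subgroup.normalizer ((P : Subgroup G) : Set G)⁆ ≤ (P : Subgroup G) := by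
    rw [← Cfsg.Agent.Lead.commutator_inf_sylow_abelian P]; exact inf_le_right
  by_cases hC : ∀ x ∈ (P : Subgroup G), x ∈ Subgroup.centralizer
      ((Subgroup.normalizer ((P : Subgroup G) : Set G) : Subgroup G) : Set G) → x = 1
  · right
    have hP_le : (P : Subgroup G) ≤ Cfsg.pResidual p G := by
      intro x hx
      obtain ⟨d, hd, hxd⟩ := Cfsg.Agent.Lead.abelian_sylow_decomp P x hx
      have h1 : x * d = 1 := hC _ (mul_mem hx (hDP hd)) hxd
      have h2 : x = d⁻¹ := eq_inv_of_mul_eq_one_left h1
      rw [h2]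
      exact inv_mem ((Subgroup.commutator_le.mpr
        (fun x hx n hn => Cfsg.Agent.Lead.comm_mem_pResidual P x hx n hn)) hd)
    exact Cfsg.Agent.Lead.pResidual_eq_top_of_sylow_le P hP_le
  · left
    push_neg at hC
    obtain ⟨z, hzP, hzC, hz1⟩ := hC
    have hD : ∀ d ∈ ⁅(P : Subgroup G), Subgroup.normalizer ((P : Subgroup G) : Set G)⁆, d = 1 := by
      intro d hd
      by_contra hd1
      obtain ⟨c, hc1, hca, hcb⟩ := Cfsg.Agent.Lead.cyclic_pgroup_common P.2
        (⟨z, hzP⟩ : (P : Subgroup G)) ⟨d, hDP hd⟩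
        (fun h => hz1 (congrArg Subtype.val h)) (fun h => hd1 (congrArg Subtype.val h))
      obtain ⟨i, hi⟩ := Subgroup.mem_zpowers_iff.mp hca
      obtain ⟨j, hj⟩ := Subgroup.mem_zpowers_iff.mp hcb
      have hci : (c : G) = z ^ i := by rw [← hi]; simp
      have hcj : (c : G) = d ^ j := by rw [← hj]; simp
      have h1 : (c : G) ∈ Subgroup.centralizer
          ((Subgroup.normalizer ((P : Subgroup G) : Set G) : Subgroup G) : Set G) := by
        rw [hci]; exact zpow_mem hzC i
      have h2 : (c : G) ∈ ⁅Subgroup.normalizer ((P : Subgroup G) : Set G),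
          Subgroup.normalizer ((P : Subgroup G) : Set G)⁆ := by
        rw [hcj]
        exact zpow_mem (Subgroup.commutator_mono (Subgroup.le_normalizer (H := (P : Subgroup G))) le_rfl hd) j
      have h3 := Cfsg.Agent.Lead.abelian_sylow_disjoint P (c : G) c.2 h2 h1
      exact hc1 (Subtype.ext h3)
    have hNC : Subgroup.normalizer ((P : Subgroup G) : Set G) ≤
        Subgroup.centralizer ((P : Subgroup G) : Set G) := by
      intro n hn
      rw [Subgroup.mem_centralizer_iff]
      intro x hx
      have h1 := hD ⁅x, n⁆ (Subgroup.commutator_mem_commutator hx hn)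
      rw [commutatorElement_def] at h1
      have h2 := mul_inv_eq_one.mp h1
      exact mul_inv_eq_iff_eq_mul.mp h2
    exact Cfsg.Agent.Lead.burnside_npc P hNC


/-- With a cyclic Sylow p-subgroup, either there is a normal p-complement or the elements of order prime to p generate the whole group. -/
theorem result {G : Type*} [Group G] [Finite G] {p : ℕ} [Fact p.Prime] (P : Sylow p G) (hP : IsCyclic P) : Cfsg.HasNormalPComplement p G ∨ Cfsg.pResidual p G = ⊤ := by
  exact aux P hP

end Cfsg.Agent.S0082
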