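import Cfsg.Statements.S0083
import Cfsg.Agent.Lead.Transfer

set_option autoImplicit false
open Cfsg

namespace Cfsg.Agent.S0083

/-- For an abelian Sylow p-subgroup P, a normal p-complement exists exactly when the normalizer of P is an internal direct product of P with some subgroup. -/
theorem result {G : Type*} [Group G] [Finite G] {p : ℕ} [Fact p.Prime] (P : Sylow p G) (hP : IsMulCommutative P) : Cfsg.HasNormalPComplement p G ↔ ∃ Q : Subgroup G, Q ≤ Subgroup.centralizer (P : Set G) ∧ Q ⊓ (P : Subgroup G) = ⊥ ∧ Q ⊔ (P : Subgroup G) = Subgroup.normalizer (P : Set G) := by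
  classical
  constructor
  · intro h
    obtain ⟨N, hN, hc⟩ := (Cfsg.Agent.Lead.hasNormalPComplement_iff P).mp h
    have hbot : N ⊓ (P : Subgroup G) = ⊥ := disjoint_iff.mp hc.disjoint
    refine ⟨N ⊓ Subgroup.normalizer ((P : Subgroup G) : Set G), ?_, ?_, ?_⟩
    · intro q hq
      change q ∈ Subgroup.centralizer ((P : Subgroup G) : Set G)
      rw [Subgroup.mem_centralizer_iff]
      intro x hx
      have hx' : x ∈ (P : Subgroup G) := hx
      have h1 : q * x * q⁻¹ * x⁻¹ ∈ N := by
        have h0 : x * q⁻¹ * x⁻¹ ∈ N := hN.conj_mem _ (inv_mem hq.1) x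
        have := mul_mem hq.1 h0
        simpa [mul_assoc] using this
      have h2 : q * x * q⁻¹ * x⁻¹ ∈ (P : Subgroup G) := by
        have h0 : q * x * q⁻¹ ∈ (P : Subgroup G) := (Subgroup.mem_normalizer_iff.mp hq.2 x).mp hx'
        exact mul_mem h0 (inv_mem hx')
      have h3 : q * x * q⁻¹ * x⁻¹ = 1 := by
        have : q * x * q⁻¹ * x⁻¹ ∈ N ⊓ (P : Subgroup G) := ⟨h1, h2⟩
        rwa [hbot, Subgroup.mem_bot] at this
      have h4 := mul_inv_eq_one.mp h3
      exact (mul_inv_eq_iff_eq_mul.mp h4).symm
    · rw [eq_bot_iff, ← hbot]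
      exact inf_le_inf_right _ inf_le_left
    · apply le_antisymm
      · exact sup_le inf_le_right Subgroup.le_normalizer
      · intro n hn
        obtain ⟨⟨⟨a, ha⟩, ⟨b, hb⟩⟩, hab⟩ := hc.2 n
        change a * b = n at hab
        have hb' : b ∈ (P : Subgroup G) := hb
        have han : a ∈ Subgroup.normalizer ((P : Subgroup G) : Set G) := by
          have : a = n * b⁻¹ := by rw [← hab]; group
          rw [this]
          exact mul_mem hn (inv_mem (Subgroup.le_normalizer hb'))
        rw [← hab]
        exact Subgroup.mul_mem_sup ⟨ha, han⟩ hb'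
  · rintro ⟨Q, hQc, hQP, hsup⟩
    haveI : IsMulCommutative (P : Subgroup G) := hP
    have hPc : (P : Subgroup G) ≤ Subgroup.centralizer ((P : Subgroup G) : Set G) := Subgroup.le_centralizer _
    have hNC : Subgroup.normalizer ((P : Subgroup G) : Set G) ≤ Subgroup.centralizer ((P : Subgroup G) : Set G) := by
      have h1 : Q ⊔ (P : Subgroup G) ≤ Subgroup.centralizer ((P : Subgroup G) : Set G) := sup_le hQc hPc
      have h2 : Q ⊔ (P : Subgroup G) = Subgroup.normalizer ((P : Subgroup G) : Set G) := hsup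
      rwa [h2] at h1
    exact Cfsg.Agent.Lead.burnside_npc P hNC

end Cfsg.Agent.S0083
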