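import Cfsg.Statements.S0084
import Cfsg.Agent.Lead.PrimeAction

set_option autoImplicit false
open Cfsg

namespace Cfsg.Agent.S0084

/-- A group whose Sylow 2-subgroups are Klein four-groups and whose order is prime to 3 has a normal 2-complement. -/
theorem result {G : Type*} [Group G] [Finite G] (T : Sylow 2 G) (hT : IsKleinFour T) (h3 : ¬ 3 ∣ Nat.card G) : Cfsg.HasNormalPComplement 2 G := by
  have hc4 : Nat.card (T : Subgroup G) = 4 := hT.card_four
  have hexp2 : Monoid.exponent (T : Subgroup G) = 2 := hT.exponent_two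
  have hexp : ∀ x : (T : Subgroup G), x * x = 1 := by
    intro x
    have := Monoid.pow_exponent_eq_one x
    rw [hexp2] at this
    rwa [pow_two] at this
  have hcomm : ∀ x ∈ (T : Subgroup G), ∀ y ∈ (T : Subgroup G), x * y = y * x := by
    intro x hx y hy
    have h1 := congrArg Subtype.val (hexp ⟨x, hx⟩)
    have h2 := congrArg Subtype.val (hexp ⟨y, hy⟩)
    have h3 := congrArg Subtype.val (hexp (⟨x, hx⟩ * ⟨y, hy⟩))
    exact Cfsg.Agent.Lead.comm_of_sq_eq_one x y h1 h2 h3
  by_cases h : Subgroup.normalizer ((T : Subgroup G) : Set G) ≤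
      Subgroup.centralizer ((T : Subgroup G) : Set G)
  · exact Cfsg.Agent.Lead.burnside_npc T h
  · exfalso
    obtain ⟨q, D, hq, hq2, hqd, hD, hmod⟩ :=
      Cfsg.Agent.Lead.exists_prime_action_of_not_le T hcomm h
    have hdvd : Nat.card D ∣ 4 := hc4 ▸ Subgroup.card_subgroup_dvd_card D
    have hne : Nat.card D ≠ 4 := by
      intro h4
      apply hD
      rw [← Subgroup.card_eq_iff_eq_top, h4, hc4]
    rw [hc4] at hmod
    have hle : Nat.card D ≤ 4 := Nat.le_of_dvd (by norm_num) hdvd
    have hq3 : q ≠ 3 := by rintro rfl; exact h3 hqd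
    have hdiv : q ∣ 4 - Nat.card D := (Nat.modEq_iff_dvd' hle).mp hmod.symm
    generalize Nat.card D = d at *
    interval_cases d
    · simp at hdvd
    · exact hq3 ((Nat.prime_dvd_prime_iff_eq hq Nat.prime_three).mp hdiv)
    · exact hq2 ((Nat.prime_dvd_prime_iff_eq hq Nat.prime_two).mp hdiv)
    · norm_num at hdvd
    · exact hne rfl

end Cfsg.Agent.S0084
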