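import Cfsg.Statements.S0088
import Cfsg.Agent.Lead.Transfer

set_option autoImplicit false
open Cfsg

namespace Cfsg.Agent.S0088

/-- An abelian Hall subgroup meets G' ∩ Z(G) trivially. -/
theorem result {G : Type*} [Group G] [Finite G] (H : Subgroup G) (hc : IsMulCommutative H) (hHall : Nat.Coprime (Nat.card H) H.index) : H ⊓ commutator G ⊓ Subgroup.center G = ⊥ := by
  rw [eq_bot_iff]
  rintro z ⟨⟨hzH, hzc⟩, hzZ⟩
  haveI := hc
  have h1 := Cfsg.Agent.Lead.central_comm_pow_index H z hzZ hzc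
  have h2 : z ^ Nat.card H = 1 := by
    have h' := congrArg Subtype.val (pow_card_eq_one' (G := H) (x := ⟨z, hzH⟩))
    simp only [SubgroupClass.coe_pow, Subgroup.coe_one] at h'
    exact h'
  have h3 : orderOf z ∣ Nat.gcd (Nat.card H) H.index :=
    Nat.dvd_gcd (orderOf_dvd_of_pow_eq_one h2) (orderOf_dvd_of_pow_eq_one h1)
  rw [Nat.Coprime.gcd_eq_one hHall] at h3
  rw [Subgroup.mem_bot]
  exact orderOf_eq_one_iff.mp (Nat.dvd_one.mp h3)

end Cfsg.Agent.S0088
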