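import Cfsg.Statements.S0090
import Cfsg.Agent.Lead.AbelianHall

set_option autoImplicit false
open Cfsg

namespace Cfsg.Agent.S0090

/-- An abelian normal Hall subgroup A splits as the internal direct product of G' ∩ A and Z(G) ∩ A, and [A, G] = G' ∩ A. -/
theorem result {G : Type*} [Group G] [Finite G] (A : Subgroup G) [A.Normal] (hc : IsMulCommutative A) (hHall : Nat.Coprime (Nat.card A) A.index) : ⁅A, (⊤ : Subgroup G)⁆ = commutator G ⊓ A ∧ (commutator G ⊓ A) ⊓ (Subgroup.center G ⊓ A) = ⊥ ∧ (commutator G ⊓ A) ⊔ (Subgroup.center G ⊓ A) = A := by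
  haveI := hc
  have hD : ⁅A, (⊤ : Subgroup G)⁆ ≤ A := Subgroup.commutator_le_left A ⊤
  have hDc : ⁅A, (⊤ : Subgroup G)⁆ ≤ commutator G := Subgroup.commutator_mono le_top le_rfl
  have hbot : ∀ y, y ∈ A → y ∈ commutator G → y ∈ Subgroup.center G → y = 1 :=
    fun y h1 h2 h3 => Cfsg.Agent.Lead.abelian_hall_disjoint A hHall y h1 h2 h3
  refine ⟨?_, ?_, ?_⟩
  · apply le_antisymm
    · exact le_inf hDc hD
    · rintro y ⟨hyc, hyA⟩
      obtain ⟨d, hd, hyd⟩ := Cfsg.Agent.Lead.abelian_hall_decomp A hHall y hyA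
      have h1 : y * d = 1 := hbot _ (mul_mem hyA (hD hd)) (mul_mem hyc (hDc hd)) hyd
      have h2 : y = d⁻¹ := eq_inv_of_mul_eq_one_left h1
      rw [h2]; exact inv_mem hd
  · rw [eq_bot_iff]
    rintro y ⟨⟨hyc, hyA⟩, ⟨hyZ, -⟩⟩
    exact (Subgroup.mem_bot).mpr (hbot y hyA hyc hyZ)
  · apply le_antisymm
    · exact sup_le inf_le_right inf_le_right
    · intro y hyA
      obtain ⟨d, hd, hyd⟩ := Cfsg.Agent.Lead.abelian_hall_decomp A hHall y hyA
      have h1 : y = (y * d) * d⁻¹ := by group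
      rw [h1, sup_comm]
      exact Subgroup.mul_mem_sup (Subgroup.mem_inf.mpr ⟨hyd, mul_mem hyA (hD hd)⟩) (Subgroup.mem_inf.mpr ⟨inv_mem (hDc hd), inv_mem (hD hd)⟩)

end Cfsg.Agent.S0090
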