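import Cfsg.Statements.S0092
import Cfsg.Agent.Lead.Split
import Cfsg.Agent.Lead.AbelianSylow

set_option autoImplicit false
open Cfsg

namespace Cfsg.Agent.S0092

/-- If the Sylow p-subgroups of O^p(G) are abelian then G splits over O^p(G). -/
theorem result {G : Type*} [Group G] [Finite G] {p : ℕ} [Fact p.Prime] (h : ∀ Q : Sylow p (Cfsg.pResidual p G), IsMulCommutative Q) : ∃ K : Subgroup G, K.IsComplement' (Cfsg.pResidual p G) := by
  classical
  have hNn : (Cfsg.pResidual p G).Normal := Cfsg.Agent.Lead.pResidual_normal p G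
  obtain ⟨Q₀⟩ : Nonempty (Sylow p ↥(Cfsg.pResidual p G)) := inferInstance
  have hQ₀c : IsMulCommutative ↥(Q₀ : Subgroup ↥(Cfsg.pResidual p G)) := h Q₀
  have hres : Cfsg.pResidual p ↥(Cfsg.pResidual p G) = ⊤ :=
    Cfsg.Agent.Lead.pResidual_pResidual p G
  refine Cfsg.Agent.Lead.split_of_abelian_sylow (Cfsg.pResidual p G)
    (Cfsg.Agent.Lead.exists_pow_mem_pResidual p) Q₀ ?_
  intro z hz hzc
  obtain ⟨k, hk⟩ := Q₀.2 ⟨z, hz⟩
  have hzk : z ^ p ^ k = 1 := congrArg Subtype.val hk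
  have hzc' : z ∈ commutator ↥(Cfsg.pResidual p G) :=
    Cfsg.Agent.Lead.mem_commutator_of_mem_pResidual z k hzk
      (by rw [hres]; exact Subgroup.mem_top z)
  have h1 : z ∈ ⁅(Q₀ : Subgroup ↥(Cfsg.pResidual p G)),
      Subgroup.normalizer ((Q₀ : Subgroup ↥(Cfsg.pResidual p G)) :
        Set ↥(Cfsg.pResidual p G))⁆ := by
    rw [← Cfsg.Agent.Lead.commutator_inf_sylow_abelian Q₀]
    exact Subgroup.mem_inf.mpr ⟨hzc', hz⟩
  have h2 := Subgroup.commutator_mono
    (Subgroup.le_normalizer (H := (Q₀ : Subgroup ↥(Cfsg.pResidual p G)))) le_rfl h1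
  exact Cfsg.Agent.Lead.abelian_sylow_disjoint Q₀ z hz h2 hzc

end Cfsg.Agent.S0092
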