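import Cfsg.Statements.S0094
import Cfsg.Agent.Lead.PGroup

set_option autoImplicit false
open Cfsg

namespace Cfsg.Agent.S0094

open scoped commutatorElement in
theorem aux {P : Type*} [Group P] [Finite P] {p : ℕ} [Fact p.Prime] (h : Cfsg.IsSpecial p P) (z : P)
    (hz : z ∈ Subgroup.center P) : z ^ p = 1 := by
  obtain ⟨hP, hfr, hcomm⟩ := h
  have hz' : z ∈ commutator P := hcomm ▸ hz
  rw [commutator_eq_closure] at hz'
  have key : ∀ x ∈ Subgroup.closure (commutatorSet P), x ∈ Subgroup.center P ∧ x ^ p = 1 := by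
    intro x hx
    induction hx using Subgroup.closure_induction with
    | mem x hx =>
      obtain ⟨a, b, rfl⟩ := hx
      have hc : ⁅a, b⁆ ∈ Subgroup.center P := by
        rw [← hcomm, commutator_eq_closure]; exact Subgroup.subset_closure ⟨a, b, rfl⟩
      refine ⟨hc, ?_⟩
      have hca : Commute ⁅a, b⁆ a := (Subgroup.mem_center_iff.mp hc a).symm
      rw [← Cfsg.Agent.Lead.commutatorElement_pow_left a b hca p]
      have h2 : a ^ p ∈ Subgroup.center P := by
        rw [← hfr]; exact Cfsg.Agent.Lead.pow_mem_frattini hP a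
      rw [commutatorElement_def]
      have h3 := Subgroup.mem_center_iff.mp h2 b
      rw [← h3]; group
    | one => exact ⟨one_mem _, one_pow _⟩
    | mul x y _ _ hx hy =>
      refine ⟨mul_mem hx.1 hy.1, ?_⟩
      have hcomm' : Commute x y := (Subgroup.mem_center_iff.mp hx.1 y).symm
      rw [hcomm'.mul_pow, hx.2, hy.2, one_mul]
    | inv x _ hx => exact ⟨inv_mem hx.1, by rw [inv_pow, hx.2, inv_one]⟩
  exact (key z hz').2


/-- In a special p-group every central element has order dividing p. -/
theorem result {P : Type*} [Group P] [Finite P] {p : ℕ} [Fact p.Prime] (h : Cfsg.IsSpecial p P) (z : P) (hz : z ∈ Subgroup.center P) : z ^ p = 1 := by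
  exact aux h z hz

end Cfsg.Agent.S0094
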