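import Cfsg.Statements.S0097
-- import your own Cfsg.Agent.* helpers here
import Cfsg.Agent.Helper24.Class2
import Cfsg.Agent.Lead.PGroup

set_option autoImplicit false
open Cfsg

namespace Cfsg.Agent.S0097

open Cfsg.Agent.Helper24
open scoped commutatorElement

/-- For odd p and E extraspecial, the subgroup generated by the elements of order dividing p has exponent dividing p and index at most p. -/
theorem result {E : Type*} [Group E] [Finite E] {p : ℕ} [Fact p.Prime] (hp : p ≠ 2) (h : Cfsg.IsExtraspecial p E) : (Subgroup.closure {x : E | x ^ p = 1}).index ≤ p ∧ ∀ g ∈ Subgroup.closure {x : E | x ^ p = 1}, g ^ p = 1 := by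
  classical
  have hpp : p.Prime := Fact.out
  obtain ⟨⟨hPg, hfr, hcomm⟩, hcard⟩ := h
  have h2 : ⁅commutator E, (⊤ : Subgroup E)⁆ = ⊥ := by
    rw [hcomm, Subgroup.commutator_eq_bot_iff_le_centralizer, Subgroup.coe_top,
      Subgroup.centralizer_univ]
  have hexp : ∀ g ∈ Subgroup.closure {x : E | x ^ p = 1}, g ^ p = 1 :=
    fun g hg => pow_prime_eq_one_of_mem_closure_class_two hpp hp h2 g hg
  refine ⟨?_, hexp⟩
  have hmemZ : ∀ x : E, x ^ p ∈ Subgroup.center E := by
    intro x
    rw [← hfr]
    exact Cfsg.Agent.Lead.pow_mem_frattini hPg x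
  have hzp : ∀ z ∈ Subgroup.center E, z ^ p = 1 := by
    intro z hz
    have h1 : (⟨z, hz⟩ : Subgroup.center E) ^ Nat.card (Subgroup.center E) = 1 :=
      pow_card_eq_one'
    rw [hcard] at h1
    exact congrArg Subtype.val h1
  have hmul : ∀ x y : E, (x * y) ^ p = x ^ p * y ^ p := by
    intro x y
    have hc := commutator_central_of_class_two h2 y x
    rw [mul_pow_of_commutator_central x y (hc x) (hc y) p]
    have hcz : ⁅y, x⁆ ∈ Subgroup.center E := by
      rw [← hcomm, commutator_def]
      exact Subgroup.commutator_mem_commutator (Subgroup.mem_top y) (Subgroup.mem_top x)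
    have hdvd : p ∣ p.choose 2 := by
      apply hpp.dvd_choose_self (by norm_num)
      have := hpp.two_le
      omega
    obtain ⟨k, hk⟩ := hdvd
    rw [hk, pow_mul, hzp _ hcz, one_pow, mul_one]
  let φ : E →* Subgroup.center E := MonoidHom.mk' (fun x => ⟨x ^ p, hmemZ x⟩)
    (fun x y => Subtype.ext (hmul x y))
  have hker : Subgroup.closure {x : E | x ^ p = 1} = φ.ker := by
    ext g
    rw [MonoidHom.mem_ker]
    constructor
    · intro hg
      exact Subtype.ext (hexp g hg)
    · intro hg
      exact Subgroup.subset_closure (congrArg Subtype.val hg)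
  rw [hker, Subgroup.index_ker, ← hcard]
  exact Subgroup.card_le_card_group _

end Cfsg.Agent.S0097
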