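import Cfsg.Statements.S0099
-- import your own Cfsg.Agent.* helpers here
import Cfsg.Agent.Helper11.ExtraIso

set_option autoImplicit false
open Cfsg

namespace Cfsg.Agent.S0099

/-- Among three extraspecial 2-groups of equal order, some two are isomorphic. -/
theorem result {E₁ : Type*} {E₂ : Type*} {E₃ : Type*} [Group E₁] [Group E₂] [Group E₃] [Finite E₁] [Finite E₂] [Finite E₃] (h₁ : Cfsg.IsExtraspecial 2 E₁) (h₂ : Cfsg.IsExtraspecial 2 E₂) (h₃ : Cfsg.IsExtraspecial 2 E₃) (h12 : Nat.card E₁ = Nat.card E₂) (h23 : Nat.card E₂ = Nat.card E₃) : Nonempty (E₁ ≃* E₂) ∨ Nonempty (E₂ ≃* E₃) ∨ Nonempty (E₁ ≃* E₃) := by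
  obtain ⟨m₁, -, c₁, n₁⟩ := Cfsg.Agent.Helper11.extraspecial_two_value h₁
  obtain ⟨m₂, -, c₂, n₂⟩ := Cfsg.Agent.Helper11.extraspecial_two_value h₂
  obtain ⟨m₃, -, c₃, n₃⟩ := Cfsg.Agent.Helper11.extraspecial_two_value h₃
  have e12 : m₂ = m₁ := by
    have h1 : (2:ℕ) ^ (2 * m₂ + 1) = 2 ^ (2 * m₁ + 1) := c₂.symm.trans (h12.symm.trans c₁)
    have h2 := Nat.pow_right_injective (le_refl 2) h1
    omega
  have e13 : m₃ = m₁ := by
    have h1 : (2:ℕ) ^ (2 * m₃ + 1) = 2 ^ (2 * m₁ + 1) :=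
      c₃.symm.trans (h23.symm.trans (h12.symm.trans c₁))
    have h2 := Nat.pow_right_injective (le_refl 2) h1
    omega
  subst e12 e13
  rcases n₁ with n₁ | n₁ <;> rcases n₂ with n₂ | n₂ <;> rcases n₃ with n₃ | n₃
  all_goals first
    | exact Or.inl (Cfsg.Agent.Helper11.extraspecial_two_iso h₁ h₂ h12.symm (n₂.trans n₁.symm))
    | exact Or.inr (Or.inl
        (Cfsg.Agent.Helper11.extraspecial_two_iso h₂ h₃ h23.symm (n₃.trans n₂.symm)))
    | exact Or.inr (Or.inr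
        (Cfsg.Agent.Helper11.extraspecial_two_iso h₁ h₃ (h12.trans h23).symm (n₃.trans n₁.symm)))

end Cfsg.Agent.S0099
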