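import Cfsg.Statements.S0102
import Cfsg.Agent.Lead.AbelianSylow

set_option autoImplicit false
open Cfsg

namespace Cfsg.Agent.S0102

/-- A finite perfect group with cyclic Sylow p-subgroups has no perfect central extension whose kernel has order divisible by p. -/
theorem result {G : Type*} {H : Type*} [Group G] [Group H] [Finite G] [Finite H] (hG : commutator G = ⊤) {p : ℕ} [Fact p.Prime] (hcyc : ∀ P : Sylow p G, IsCyclic P) (σ : H →* G) (hσ : Function.Surjective σ) (hz : σ.ker ≤ Subgroup.center H) (hH : commutator H = ⊤) : ¬ p ∣ Nat.card σ.ker := by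
  classical
  intro hdvd
  obtain ⟨z', hz'⟩ := exists_prime_orderOf_dvd_card' p hdvd
  have hzk : (z' : H) ∈ σ.ker := z'.2
  have hzord : orderOf (z' : H) = p := by rw [← hz']; exact Subgroup.orderOf_coe z'
  let P : Sylow p H := default
  have hzZ : (z' : H) ∈ Subgroup.center H := hz hzk
  have hzP : (z' : H) ∈ (P : Subgroup H) :=
    Cfsg.Agent.Lead.mem_sylow_of_mem_normalizer P (z' : H) 1
      (by rw [pow_one, ← hzord]; exact pow_orderOf_eq_one _) (by
        rw [Subgroup.mem_normalizer_iff]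
        intro h
        have hc := Subgroup.mem_center_iff.mp hzZ h
        rw [← hc, mul_inv_cancel_right])
  have hPcyc : IsCyclic (P : Subgroup H) := by
    have hmapP : IsPGroup p ((P : Subgroup H).map σ) := P.2.map σ
    obtain ⟨Q, hQ⟩ := hmapP.exists_le_sylow
    haveI : IsCyclic (Q : Subgroup G) := hcyc Q
    haveI : IsCyclic ((P : Subgroup H).map σ) := Subgroup.isCyclic_of_le hQ
    obtain ⟨⟨y, hy⟩, hgen⟩ := IsCyclic.exists_generator (α := (P : Subgroup H).map σ)
    obtain ⟨x, hxP, rfl⟩ := hy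
    have hsup : Subgroup.zpowers (⟨x, hxP⟩ : (P : Subgroup H)) ⊔ frattini (P : Subgroup H) = ⊤ := by
      rw [eq_top_iff]
      rintro ⟨w, hw⟩ -
      obtain ⟨i, hi⟩ := Subgroup.mem_zpowers_iff.mp (hgen ⟨σ w, ⟨w, hw, rfl⟩⟩)
      have hi' : σ x ^ i = σ w := by
        have := congrArg Subtype.val hi
        simpa using this
      have hk : x ^ (-i) * w ∈ σ.ker := by
        rw [MonoidHom.mem_ker, map_mul, map_zpow, zpow_neg, hi', inv_mul_cancel]
      have hkP : x ^ (-i) * w ∈ (P : Subgroup H) := mul_mem (zpow_mem hxP _) hw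
      have hfr := Cfsg.Agent.Lead.central_sylow_mem_frattini P _ (hz hk)
        (by rw [hH]; exact Subgroup.mem_top _) hkP
      have hw' : (⟨w, hw⟩ : (P : Subgroup H)) = ⟨x, hxP⟩ ^ i * ⟨x ^ (-i) * w, hkP⟩ := by
        apply Subtype.ext; simp [zpow_neg]
      rw [hw']
      exact Subgroup.mul_mem_sup (zpow_mem (Subgroup.mem_zpowers _) i) hfr
    have htop : Subgroup.zpowers (⟨x, hxP⟩ : (P : Subgroup H)) = ⊤ := frattini_nongenerating hsup
    exact isCyclic_iff_exists_zpowers_eq_top.mpr ⟨_, htop⟩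
  haveI : IsMulCommutative (P : Subgroup H) := IsCyclic.isMulCommutative
  have h1 := Cfsg.Agent.Lead.abelian_hall_disjoint (P : Subgroup H) (Sylow.card_coprime_index P)
    (z' : H) hzP (by rw [hH]; exact Subgroup.mem_top _) hzZ
  rw [h1, orderOf_one] at hzord
  exact (Fact.out : p.Prime).one_lt.ne hzord

end Cfsg.Agent.S0102
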