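import Cfsg.Statements.S0103
-- import your own Cfsg.Agent.* helpers here

set_option autoImplicit false
open Cfsg

namespace Cfsg.Agent.S0103

/-- If a Sylow p-subgroup P intersects every distinct conjugate trivially, then its normalizer controls fusion in P. -/
theorem result {G : Type*} [Group G] [Finite G] {p : ℕ} [Fact p.Prime] (P : Sylow p G) (hTI : ∀ g : G, (P : Subgroup G).map (MulAut.conj g).toMonoidHom ≠ (P : Subgroup G) → (P : Subgroup G) ⊓ (P : Subgroup G).map (MulAut.conj g).toMonoidHom = ⊥) (x y : G) (hx : x ∈ P) (hy : y ∈ P) (hc : ∃ g : G, g * x * g⁻¹ = y) : ∃ n ∈ Subgroup.normalizer (P : Set G), n * x * n⁻¹ = y := by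
  classical
  obtain ⟨g, rfl⟩ := hc
  by_cases hg : (P : Subgroup G).map (MulAut.conj g).toMonoidHom = (P : Subgroup G)
  · refine ⟨g, ?_, rfl⟩
    change g ∈ Subgroup.normalizer ((P : Subgroup G) : Set G)
    rw [Subgroup.mem_normalizer_iff]
    intro h
    constructor
    · intro hh
      rw [← hg]
      exact ⟨h, hh, by simp [MulAut.conj_apply]⟩
    · intro hh
      rw [← hg] at hh
      obtain ⟨k, hk, hk2⟩ := hh
      have : k = h := by
        simp only [MulEquiv.coe_toMonoidHom, MulAut.conj_apply] at hk2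
        have := mul_left_cancel (mul_right_cancel hk2)
        exact this
      rwa [← this]
  · have hbot := hTI g hg
    have hmem : g * x * g⁻¹ ∈ (P : Subgroup G) ⊓ (P : Subgroup G).map (MulAut.conj g).toMonoidHom :=
      ⟨hy, ⟨x, hx, by simp [MulAut.conj_apply]⟩⟩
    rw [hbot, Subgroup.mem_bot] at hmem
    have hx1 : x = 1 := by
      have := congrArg (fun t => g⁻¹ * t * g) hmem
      simpa [mul_assoc] using this
    refine ⟨1, Subgroup.one_mem _, ?_⟩
    rw [hmem, hx1]; simp

end Cfsg.Agent.S0103
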