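import Cfsg.Statements.S0104
import Cfsg.Agent.Lead.Fusion

set_option autoImplicit false
open Cfsg

namespace Cfsg.Agent.S0104

/-- A subgroup Z of a Sylow p-subgroup P that is normalized by N_G(P) is weakly closed in P exactly when it is normal in every Sylow p-subgroup containing it. -/
theorem result {G : Type*} [Group G] [Finite G] {p : ℕ} [Fact p.Prime] (P : Sylow p G) (Z : Subgroup G) (hZP : Z ≤ (P : Subgroup G)) (hZN : Subgroup.normalizer (P : Set G) ≤ Subgroup.normalizer (Z : Set G)) : Cfsg.IsWeaklyClosed Z P ↔ ∀ R : Sylow p G, Z ≤ (R : Subgroup G) → (R : Subgroup G) ≤ Subgroup.normalizer (Z : Set G) := by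
  classical
  have hP : (P : Subgroup G) ≤ Subgroup.normalizer (Z : Set G) := le_trans Subgroup.le_normalizer hZN
  constructor
  · rintro ⟨-, hw⟩ R hZR
    obtain ⟨g, rfl⟩ := MulAction.exists_smul_eq G P R
    have h1 : Z.map (MulAut.conj g⁻¹).toMonoidHom ≤ P := by
      rintro _ ⟨z, hz, rfl⟩
      have := hZR hz
      rw [Cfsg.Agent.Lead.mem_smul_sylow] at this
      simpa [MulAut.conj_apply] using this
    have h2 := hw g⁻¹ h1
    have hginv : g⁻¹ ∈ Subgroup.normalizer (Z : Set G) := Subgroup.mem_normalizer_iff_map_conj_eq.mpr h2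
    have hg : g ∈ Subgroup.normalizer (Z : Set G) := by simpa using inv_mem hginv
    intro x hx
    rw [Cfsg.Agent.Lead.mem_smul_sylow] at hx
    have h3 := hP hx
    have h4 : x = g * (g⁻¹ * x * g) * g⁻¹ := by group
    rw [h4]; exact mul_mem (mul_mem hg h3) (inv_mem hg)
  · intro h
    refine ⟨hZP, fun g hg => ?_⟩
    have hZR : Z ≤ ((g⁻¹ • P : Sylow p G) : Subgroup G) := by
      intro z hz
      rw [Cfsg.Agent.Lead.mem_smul_sylow]
      have := hg ⟨z, hz, rfl⟩
      simpa [MulAut.conj_apply] using this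
    have hR := h (g⁻¹ • P) hZR
    obtain ⟨c, hc, hn⟩ := Cfsg.Agent.Lead.sylow_fusion P (Subgroup.normalizer (Z : Set G)) g⁻¹ hP hR
    have h5 : c * g⁻¹ ∈ Subgroup.normalizer (Z : Set G) := hZN hn
    have hg' : g⁻¹ ∈ Subgroup.normalizer (Z : Set G) := by
      have := mul_mem (inv_mem hc) h5; simpa using this
    have hg'' : g ∈ Subgroup.normalizer (Z : Set G) := by simpa using inv_mem hg'
    exact Subgroup.mem_normalizer_iff_map_conj_eq.mp hg''

end Cfsg.Agent.S0104
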