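import Cfsg.Statements.S0105
import Cfsg.Agent.Lead.AbelianSylow

set_option autoImplicit false
open Cfsg

namespace Cfsg.Agent.S0105

theorem aux {G : Type*} [Group G] [Finite G] {p : ℕ} [Fact p.Prime] (P : Sylow p G)
    [hc : IsMulCommutative (P : Subgroup G)] :
    ∃ (N : Subgroup G) (hN : N.Normal), Nonempty (G ⧸ N ≃* ((P : Subgroup G) ⊓
      Subgroup.centralizer ((Subgroup.normalizer ((P : Subgroup G) : Set G) : Subgroup G) : Set G) : Subgroup G)) := by
  have hfoc : (P : Subgroup G).focalSubgroup =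
      ⁅(P : Subgroup G), Subgroup.normalizer ((P : Subgroup G) : Set G)⁆ := by
    rw [← Cfsg.Agent.Lead.commutator_inf_sylow_abelian P]
    exact (Subgroup.commutator_inf_eq_focalSubgroup P).symm
  let f : ((P : Subgroup G) ⊓
      Subgroup.centralizer ((Subgroup.normalizer ((P : Subgroup G) : Set G) : Subgroup G) : Set G) : Subgroup G)
        →* (P : Subgroup G) ⧸ (P : Subgroup G).focalSubgroupOf :=
    (QuotientGroup.mk' _).comp (Subgroup.inclusion inf_le_left)
  have hinj : Function.Injective f := by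
    rw [injective_iff_map_eq_one]
    rintro ⟨c, hcP, hcZ⟩ h1
    have h2 : (⟨c, hcP⟩ : (P : Subgroup G)) ∈ (P : Subgroup G).focalSubgroupOf :=
      (QuotientGroup.eq_one_iff _).mp h1
    rw [Subgroup.focalSubgroupOf_def, Subgroup.mem_subgroupOf] at h2
    have h3 : c ∈ ⁅(P : Subgroup G), Subgroup.normalizer ((P : Subgroup G) : Set G)⁆ := hfoc ▸ h2
    have h4 := Subgroup.commutator_mono (Subgroup.le_normalizer (H := (P : Subgroup G))) le_rfl h3
    have := Cfsg.Agent.Lead.abelian_sylow_disjoint P c hcP h4 hcZ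
    exact Subtype.ext this
  have hsurj : Function.Surjective f := by
    intro y
    obtain ⟨⟨x, hx⟩, rfl⟩ := QuotientGroup.mk'_surjective _ y
    obtain ⟨d, hd, hxd⟩ := Cfsg.Agent.Lead.abelian_sylow_decomp P x hx
    have hdf : d ∈ (P : Subgroup G).focalSubgroup := hfoc ▸ hd
    have hdP : d ∈ (P : Subgroup G) := (P : Subgroup G).focalSubgroup_le hdf
    refine ⟨⟨x * d, mul_mem hx hdP, hxd⟩, ?_⟩
    change ((⟨x * d, mul_mem hx hdP⟩ : (P : Subgroup G)) : (P : Subgroup G) ⧸ (P : Subgroup G).focalSubgroupOf)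
      = ((⟨x, hx⟩ : (P : Subgroup G)) : (P : Subgroup G) ⧸ (P : Subgroup G).focalSubgroupOf)
    rw [QuotientGroup.eq, Subgroup.focalSubgroupOf_def, Subgroup.mem_subgroupOf]
    have : (((⟨x * d, mul_mem hx hdP⟩ : (P : Subgroup G))⁻¹ * (⟨x, hx⟩ : (P : Subgroup G)) : (P : Subgroup G)) : G) = d⁻¹ := by
      simp
    rw [this]
    exact inv_mem hdf
  exact ⟨(P : Subgroup G).transferFocal.ker, inferInstance,
    ⟨(Subgroup.transferFocal.quotientKerMulEquivQuotientFocalSubroupOf P).trans
      (MulEquiv.ofBijective f ⟨hinj, hsurj⟩).symm⟩⟩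


/-- With an abelian Sylow p-subgroup P, some quotient of G is isomorphic to the part of P central in N_G(P). -/
theorem result {G : Type*} [Group G] [Finite G] {p : ℕ} [Fact p.Prime] (P : Sylow p G) (hP : IsMulCommutative P) : ∃ (N : Subgroup G) (hN : N.Normal), Nonempty (G ⧸ N ≃* ((P : Subgroup G) ⊓ Subgroup.centralizer (Subgroup.normalizer (P : Set G) : Set G) : Subgroup G)) := by
  haveI : IsMulCommutative (P : Subgroup G) := hP
  exact aux P

end Cfsg.Agent.S0105
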