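import Cfsg.Statements.S0106
-- import your own Cfsg.Agent.* helpers here
import Mathlib
import Cfsg.Agent.S0071
import Cfsg.Agent.Helper18.QuatSub
import Cfsg.Agent.Helper18.SL23Rec

set_option autoImplicit false
open Cfsg

namespace Cfsg.Agent.S0106

open Subgroup Cfsg.Agent.Helper18.QuatSub Cfsg.Agent.Helper18.SL23Rec

/-- for an element of odd order, commuting of a `2`-power power implies commuting -/
theorem commute_of_pow {G : Type*} [Group G] (g x : G) (hodd : (orderOf g).Coprime 2) (k : ℕ)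
    (h : Commute (g ^ 2 ^ k) x) : Commute g x := by
  obtain ⟨m, hm⟩ := exists_pow_eq_self_of_coprime (x := g) (n := 2 ^ k)
    (Nat.Coprime.pow_left k hodd.symm)
  rw [← hm]
  exact h.pow_left m

/-- an element of odd order normalizing a subgroup whose automorphism group is a 2-group
centralizes it -/
theorem centralizes_of_aut_two {G : Type*} [Group G] (Q : Subgroup G)
    (h2 : IsPGroup 2 (MulAut Q)) (g : G) (hg : g ∈ normalizer (Q : Set G))
    (hodd : (orderOf g).Coprime 2) : g ∈ centralizer (Q : Set G) := by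
  set φ := Q.normalizerMonoidHom ⟨g, hg⟩ with hφ
  have h1 : orderOf φ ∣ orderOf g := by
    have := orderOf_map_dvd Q.normalizerMonoidHom (⟨g, hg⟩ : normalizer (Q : Set G))
    rwa [Subgroup.orderOf_mk] at this
  obtain ⟨k, hk⟩ := h2 φ
  have h3 : orderOf φ ∣ 2 ^ k := orderOf_dvd_of_pow_eq_one hk
  have h4 : orderOf φ = 1 :=
    Nat.Coprime.eq_one_of_dvd (Nat.Coprime.coprime_dvd_left h1 (Nat.Coprime.pow_right k hodd)) h3
  have h5 : φ = 1 := orderOf_eq_one_iff.mp h4
  have h6 : (⟨g, hg⟩ : normalizer (Q : Set G)) ∈ Q.normalizerMonoidHom.ker :=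
    MonoidHom.mem_ker.mpr h5
  rw [Subgroup.normalizerMonoidHom_ker] at h6
  exact Subgroup.mem_subgroupOf.mp h6

/-- a quaternion pair inside a subgroup -/
def QP {G : Type*} [Group G] (Q : Subgroup G) (u w : G) : Prop :=
  u ∈ Q ∧ w ∈ Q ∧ orderOf u = 4 ∧ w ∉ zpowers u ∧ w * w = u * u ∧ w * u * w⁻¹ = u⁻¹

theorem qp_cases {G : Type*} [Group G] [Finite G] {Q : Subgroup G} {u w : G}
    (hc : Nat.card Q = 8) (h : QP Q u w) (v : G) (hv : v ∈ Q) :
    v ∈ zpowers u ∨ ∃ s ∈ zpowers u, v = s * w := by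
  obtain ⟨hu, hw, ho, hwn, -, -⟩ := h
  by_cases hvA : v ∈ zpowers u
  · exact Or.inl hvA
  · right
    have hAQ : zpowers u ≤ Q := by rw [zpowers_le]; exact hu
    have hidx : ((zpowers u).subgroupOf Q).index = 2 := by
      have h1 := Subgroup.index_mul_card ((zpowers u).subgroupOf Q)
      rw [Nat.card_congr (Subgroup.subgroupOfEquivOfLe hAQ).toEquiv, Nat.card_zpowers, ho, hc] at h1
      omega
    have h2 := Subgroup.mul_mem_iff_of_index_two hidx (a := (⟨v, hv⟩ : Q))
      (b := (⟨w, hw⟩ : Q)⁻¹)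
    have h3 : (⟨v, hv⟩ : Q) * (⟨w, hw⟩ : Q)⁻¹ ∈ (zpowers u).subgroupOf Q := by
      rw [h2, inv_mem_iff, Subgroup.mem_subgroupOf, Subgroup.mem_subgroupOf]
      exact ⟨fun h => absurd h hvA, fun h => absurd h hwn⟩
    rw [Subgroup.mem_subgroupOf] at h3
    refine ⟨v * w⁻¹, h3, by group⟩

theorem qp_swap {G : Type*} [Group G] [Finite G] {Q : Subgroup G} {u w : G}
    (hc : Nat.card Q = 8) (h : QP Q u w) (v : G) (hv : v ∈ Q) (hvn : v ∉ zpowers u) :
    QP Q u v ∧ QP Q v u := by
  have h' := h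
  obtain ⟨hu, hw, ho, hwn, hww, hwu⟩ := h
  rcases qp_cases hc h' v hv with h1 | ⟨s, hs, rfl⟩
  · exact absurd h1 hvn
  obtain ⟨k, rfl⟩ := hs
  have hcs : Commute (u ^ k) u := (Commute.refl u).zpow_left k
  have hws : w * u ^ k * w⁻¹ = (u ^ k)⁻¹ := by
    rw [← conj_zpow, hwu, inv_zpow]
  have hvv : u ^ k * w * (u ^ k * w) = u * u := by
    have e : u ^ k * w * (u ^ k * w) = u ^ k * (w * u ^ k * w⁻¹) * (w * w) := by group
    rw [e, hws, hww]; group
  have hvu : u ^ k * w * u * (u ^ k * w)⁻¹ = u⁻¹ := by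
    have e : u ^ k * w * u * (u ^ k * w)⁻¹ = u ^ k * (w * u * w⁻¹) * (u ^ k)⁻¹ := by group
    rw [e, hwu]
    have hc' : Commute (u ^ k) u⁻¹ := hcs.inv_right
    rw [hc'.eq]; group
  have hu4 : u ^ 4 = 1 := by rw [← ho]; exact pow_orderOf_eq_one u
  have hu2 : u * u ≠ 1 := by
    intro h2
    have h3 : u ^ 2 = 1 := by rw [pow_two]; exact h2
    have h4 := orderOf_dvd_of_pow_eq_one h3
    rw [ho] at h4
    omega
  have hov : orderOf (u ^ k * w) = 4 := by
    have h1 : ¬ (u ^ k * w) ^ 2 ^ 1 = 1 := by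
      rw [pow_one, pow_two, hvv]; exact hu2
    have h2 : (u ^ k * w) ^ 2 ^ (1 + 1) = 1 := by
      have e : (u ^ k * w) ^ 2 ^ (1 + 1) = (u ^ k * w * (u ^ k * w)) * (u ^ k * w * (u ^ k * w)) := by
        norm_num [pow_succ, mul_assoc]
      rw [e, hvv]
      have e2 : u * u * (u * u) = u ^ 4 := by
        rw [show (4 : ℕ) = 2 + 2 from rfl, pow_add, pow_two]
      rw [e2, hu4]
    exact orderOf_eq_prime_pow h1 h2
  refine ⟨⟨hu, hv, ho, hvn, hvv, hvu⟩, ⟨hv, hu, hov, ?_, hvv.symm, ?_⟩⟩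
  · intro hmem
    have hle : zpowers u ≤ zpowers (u ^ k * w) := by rw [zpowers_le]; exact hmem
    have heq : zpowers u = zpowers (u ^ k * w) := by
      apply Subgroup.eq_of_le_of_card_ge hle
      rw [Nat.card_zpowers, Nat.card_zpowers, ho, hov]
    apply hvn
    rw [heq]
    exact mem_zpowers _
  · have e : u ^ k * w * u * (u ^ k * w) = u := by
      have e1 : u ^ k * w * u * (u ^ k * w) =
          (u ^ k * w * u * (u ^ k * w)⁻¹) * (u ^ k * w * (u ^ k * w)) := by group
      rw [e1, hvu, hvv]; group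
    rw [eq_comm, inv_eq_iff_mul_eq_one]
    have e2 : u ^ k * w * (u * (u ^ k * w) * u⁻¹) = (u ^ k * w * u * (u ^ k * w)) * u⁻¹ := by group
    rw [e2, e, mul_inv_cancel]

theorem qp_cent {G : Type*} [Group G] [Finite G] {Q : Subgroup G} {u w : G}
    (hc : Nat.card Q = 8) (h : QP Q u w) (g : G) (hgu : Commute g u) (hgw : Commute g w) :
    g ∈ centralizer (Q : Set G) := by
  rw [Subgroup.mem_centralizer_iff]
  intro v hv
  rcases qp_cases hc h v hv with ⟨k, rfl⟩ | ⟨s, ⟨k, rfl⟩, rfl⟩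
  · exact ((hgu.zpow_right k).eq).symm
  · exact (((hgu.zpow_right k).mul_right hgw).eq).symm

theorem qp_move {G : Type*} [Group G] [Finite G] {Q : Subgroup G} {u w : G}
    (hc : Nat.card Q = 8) (h : QP Q u w) (g : G) (hg : g ∈ normalizer (Q : Set G))
    (hodd : (orderOf g).Coprime 2) (hgc : g ∉ centralizer (Q : Set G)) :
    g * u * g⁻¹ ∉ zpowers u := by
  have h' := h
  obtain ⟨hu, hw, ho, hwn, hww, hwu⟩ := h
  intro hmem
  apply hgc
  have hu4 : u ^ 4 = 1 := by rw [← ho]; exact pow_orderOf_eq_one u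
  have hgu : Commute g u := by
    rw [← mem_powers_iff_mem_zpowers, Submonoid.mem_powers_iff] at hmem
    obtain ⟨k, hk⟩ := hmem
    rw [← pow_mod_orderOf, ho] at hk
    have hk4 : k % 4 < 4 := Nat.mod_lt _ (by norm_num)
    generalize k % 4 = r at hk hk4
    interval_cases r
    · exfalso
      rw [pow_zero] at hk
      have : u = 1 := by
        have e : u = g⁻¹ * (g * u * g⁻¹) * g := by group
        rw [e, ← hk]; group
      rw [this, orderOf_one] at ho
      omega
    · rw [pow_one] at hk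
      show g * u = u * g
      have e : g * u = (g * u * g⁻¹) * g := by group
      rw [e, ← hk]
    · exfalso
      have h2 : (g * u * g⁻¹) ^ 2 = 1 := by
        rw [← hk, ← pow_mul]; exact hu4
      rw [conj_pow] at h2
      have h3 : u ^ 2 = 1 := by
        have e : u ^ 2 = g⁻¹ * (g * u ^ 2 * g⁻¹) * g := by group
        rw [e, h2]; group
      have h4 := orderOf_dvd_of_pow_eq_one h3
      rw [ho] at h4
      omega
    · have hinv : u ^ 3 = u⁻¹ := by
        rw [eq_inv_iff_mul_eq_one, ← pow_succ]; exact hu4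
      rw [hinv] at hk
      apply commute_of_pow g u hodd 1
      show g ^ 2 ^ 1 * u = u * g ^ 2 ^ 1
      have e : g ^ 2 ^ 1 * u = g * (g * u * g⁻¹) * g⁻¹ * g ^ 2 ^ 1 := by
        norm_num [pow_succ]; group
      rw [e, ← hk]
      have e2 : g * u⁻¹ * g⁻¹ = (g * u * g⁻¹)⁻¹ := by group
      rw [e2, ← hk, inv_inv]
  -- the image of `w`
  have hw'Q : g * w * g⁻¹ ∈ Q := ((Subgroup.mem_normalizer_iff.mp hg) w).mp hw
  have hw'n : g * w * g⁻¹ ∉ zpowers u := by
    rintro ⟨j, hj⟩
    apply hwn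
    refine ⟨j, ?_⟩
    have e : w = g⁻¹ * (g * w * g⁻¹) * g := by group
    rw [e, ← hj]
    have hcj : Commute g (u ^ j) := hgu.zpow_right j
    show u ^ j = g⁻¹ * u ^ j * g
    rw [mul_assoc, ← hcj.eq]; group
  rcases qp_cases hc h' (g * w * g⁻¹) hw'Q with h1 | ⟨s, hs, hsw⟩
  · exact absurd h1 hw'n
  obtain ⟨j, rfl⟩ := hs
  have hcs : Commute g (u ^ j) := hgu.zpow_right j
  have hgw1 : g * w = u ^ j * w * g := by
    have e : g * w = (g * w * g⁻¹) * g := by group
    rw [e, hsw]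
  have hpow : ∀ m : ℕ, g ^ m * w = (u ^ j) ^ m * w * g ^ m := by
    intro m
    induction m with
    | zero => simp
    | succ m ih =>
      have hcm : Commute g ((u ^ j) ^ m) := hcs.pow_right m
      calc g ^ (m + 1) * w = g * (g ^ m * w) := by rw [pow_succ']; group
        _ = g * ((u ^ j) ^ m * w * g ^ m) := by rw [ih]
        _ = (g * (u ^ j) ^ m) * w * g ^ m := by group
        _ = (u ^ j) ^ m * (g * w) * g ^ m := by rw [hcm.eq]; group
        _ = (u ^ j) ^ m * (u ^ j * w * g) * g ^ m := by rw [hgw1]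
        _ = (u ^ j) ^ (m + 1) * w * g ^ (m + 1) := by rw [pow_succ, pow_succ']; group
  have hs4 : (u ^ j) ^ 4 = 1 := by
    rw [← zpow_natCast, ← zpow_mul, mul_comm, zpow_mul, zpow_natCast, hu4, one_zpow]
  have hgw : Commute g w := by
    apply commute_of_pow g w hodd 2
    show g ^ 2 ^ 2 * w = w * g ^ 2 ^ 2
    have := hpow 4
    rw [hs4, one_mul] at this
    exact this
  exact qp_cent hc h' g hgu hgw

/-- a quaternion subgroup of order 8 normalized but not centralized by an element of odd order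
gives a section isomorphic to `SL(2,3)` -/
theorem section_of_qdata {G : Type*} [Group G] [Finite G] (Q : Subgroup G) (hQ : QData Q) (g : G)
    (hg : g ∈ normalizer (Q : Set G)) (hodd : (orderOf g).Coprime 2)
    (hgc : g ∉ centralizer (Q : Set G)) :
    ∃ (H K : Subgroup G) (hK : (K.subgroupOf H).Normal),
      Nonempty ((H ⧸ K.subgroupOf H) ≃* Matrix.SpecialLinearGroup (Fin 2) (ZMod 3)) := by
  obtain ⟨hc, u', w', ho', hwn', hww', hwu'⟩ := hQ
  have hqp : QP Q (u' : G) (w' : G) := by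
    refine ⟨u'.2, w'.2, by rw [Subgroup.orderOf_coe]; exact ho', ?_, ?_, ?_⟩
    · rintro ⟨k, hk⟩
      exact hwn' ⟨k, Subtype.ext (by simpa using hk)⟩
    · exact congrArg Subtype.val hww'
    · have := congrArg Subtype.val hwu'
      simpa using this
  set a₀ : G := (u' : G) with ha₀
  have hnorm : ∀ v ∈ Q, g * v * g⁻¹ ∈ Q := fun v hv => ((Subgroup.mem_normalizer_iff.mp hg) v).mp hv
  set b₀ : G := g * a₀ * g⁻¹ with hb₀
  have hb₀Q : b₀ ∈ Q := hnorm a₀ hqp.1
  have hb₀n : b₀ ∉ zpowers a₀ := qp_move hc hqp g hg hodd hgc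
  obtain ⟨hP1, hP2⟩ := qp_swap hc hqp b₀ hb₀Q hb₀n
  set d : G := g * b₀ * g⁻¹ with hd
  have hdQ : d ∈ Q := hnorm b₀ hb₀Q
  have hd1 : d ∉ zpowers b₀ := qp_move hc hP2 g hg hodd hgc
  have hd2 : d ∉ zpowers a₀ := by
    have hgg : g * g ∈ normalizer (Q : Set G) := mul_mem hg hg
    have hoddgg : (orderOf (g * g)).Coprime 2 := by
      rw [← pow_two, Nat.Coprime.orderOf_pow hodd]; exact hodd
    have hggc : g * g ∉ centralizer (Q : Set G) := by
      intro hcen
      apply hgc
      rw [Subgroup.mem_centralizer_iff] at hcen ⊢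
      intro v hv
      have h1 : Commute (g ^ 2 ^ 1) v := by
        show g ^ 2 ^ 1 * v = v * g ^ 2 ^ 1
        rw [pow_one, pow_two]
        exact (hcen v hv).symm
      exact ((commute_of_pow g v hodd 1 h1).eq).symm
    have := qp_move hc hqp (g * g) hgg hoddgg hggc
    have e : g * g * a₀ * (g * g)⁻¹ = d := by rw [hd, hb₀]; group
    rwa [e] at this
  -- the good generator
  obtain ⟨a, hqa, hR4⟩ : ∃ a : G, QP Q a (g * a * g⁻¹) ∧
      g * (g * a * g⁻¹) * g⁻¹ = a * (g * a * g⁻¹) := by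
    obtain ⟨hu, hw, ho, hwn, hww, hwu⟩ := hP1
    have hu4 : a₀ ^ 4 = 1 := by rw [← ho]; exact pow_orderOf_eq_one a₀
    rcases qp_cases hc ⟨hu, hw, ho, hwn, hww, hwu⟩ d hdQ with h1 | ⟨s, hs, hds⟩
    · exact absurd h1 hd2
    rw [← mem_powers_iff_mem_zpowers, Submonoid.mem_powers_iff] at hs
    obtain ⟨k, hk⟩ := hs
    rw [← pow_mod_orderOf, ho] at hk
    have hk4 : k % 4 < 4 := Nat.mod_lt _ (by norm_num)
    generalize k % 4 = r at hk hk4
    interval_cases r
    · exfalso
      apply hd1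
      rw [hds, ← hk, pow_zero, one_mul]
      exact mem_zpowers _
    · refine ⟨a₀, ⟨hu, hw, ho, hwn, hww, hwu⟩, ?_⟩
      rw [← hb₀, ← hd, hds, ← hk, pow_one]
    · exfalso
      apply hd1
      rw [hds, ← hk, pow_two, ← hww]
      have e : b₀ * b₀ * b₀ = b₀ ^ 3 := by rw [pow_succ, pow_two]
      rw [e]
      exact pow_mem (mem_zpowers _) 3
    · have hinv : a₀ ^ 3 = a₀⁻¹ := by
        rw [eq_inv_iff_mul_eq_one, ← pow_succ]; exact hu4
      rw [hinv] at hk
      have hgi : g * a₀⁻¹ * g⁻¹ = b₀⁻¹ := by rw [hb₀]; group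
      have h1 : a₀ = b₀ * a₀⁻¹ * b₀⁻¹ := by
        have e : b₀ * a₀⁻¹ * b₀⁻¹ = (b₀ * a₀ * b₀⁻¹)⁻¹ := by group
        rw [e, hwu, inv_inv]
      have hba : b₀⁻¹ * a₀ = a₀⁻¹ * b₀⁻¹ := by
        calc b₀⁻¹ * a₀ = b₀⁻¹ * (b₀ * a₀⁻¹ * b₀⁻¹) := by rw [← h1]
          _ = a₀⁻¹ * b₀⁻¹ := by group
      refine ⟨a₀⁻¹, ?_, ?_⟩
      · rw [hgi]
        refine ⟨inv_mem hu, inv_mem hw, by rw [orderOf_inv]; exact ho, ?_, ?_, ?_⟩
        · rw [Subgroup.zpowers_inv, inv_mem_iff]; exact hwn
        · rw [← mul_inv_rev, ← mul_inv_rev, hww]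
        · rw [inv_inv, inv_inv]
          have e : b₀⁻¹ * a₀⁻¹ * b₀ = b₀⁻¹ * (b₀ * a₀ * b₀⁻¹) * b₀ := by rw [hwu]
          rw [e]; group
      · rw [hgi]
        have e : g * b₀⁻¹ * g⁻¹ = d⁻¹ := by rw [hd]; group
        rw [e, hds, ← hk, mul_inv_rev, inv_inv, hba]
  set b : G := g * a * g⁻¹ with hb
  obtain ⟨haQ, hbQ, hoa, hbn, hbb, hbab⟩ := hqa
  have ha4 : a ^ 4 = 1 := by rw [← hoa]; exact pow_orderOf_eq_one a
  have hbab' : b * a * b = a := by
    have e : b * a * b = (b * a * b⁻¹) * (b * b) := by group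
    rw [e, hbab, hbb]; group
  -- the cube of `g` centralizes `Q`
  have hta : Commute (g ^ 3) a := by
    show g ^ 3 * a = a * g ^ 3
    have e : g ^ 3 * a = g * (g * (g * a * g⁻¹) * g⁻¹) * g⁻¹ * g ^ 3 := by
      norm_num [pow_succ]; group
    rw [e, ← hb, hR4]
    have e2 : g * (a * b) * g⁻¹ = (g * a * g⁻¹) * (g * b * g⁻¹) := by group
    rw [e2, ← hb, hR4, ← mul_assoc, hbab']
  have htb : Commute (g ^ 3) b := by
    show g ^ 3 * b = b * g ^ 3
    have e : g ^ 3 * b = g * (g ^ 3 * a) * g⁻¹ := by rw [hb]; group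
    rw [e, hta.eq, hb]; group
  have htQ : g ^ 3 ∈ centralizer (Q : Set G) :=
    qp_cent hc ⟨haQ, hbQ, hoa, hbn, hbb, hbab⟩ (g ^ 3) hta htb
  -- the section
  set H : Subgroup G := closure ({a, g} : Set G) with hH
  set K : Subgroup G := zpowers (g ^ 3) with hK
  have haH : a ∈ H := subset_closure (Or.inl rfl)
  have hgH : g ∈ H := subset_closure (Or.inr rfl)
  have hbH : b ∈ H := mul_mem (mul_mem hgH haH) (inv_mem hgH)
  have hQH : Q ≤ H := by
    intro v hv
    rcases qp_cases hc ⟨haQ, hbQ, hoa, hbn, hbb, hbab⟩ v hv with ⟨k, rfl⟩ | ⟨s, ⟨k, rfl⟩, rfl⟩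
    · exact zpow_mem haH k
    · exact mul_mem (zpow_mem haH k) hbH
  have htH : ∀ h ∈ H, Commute (g ^ 3) h := by
    intro h hh
    refine Subgroup.closure_induction (p := fun h _ => Commute (g ^ 3) h) ?_ ?_ ?_ ?_ hh
    · rintro x (rfl | rfl)
      · exact hta
      · exact (Commute.refl x).pow_left 3
    · exact Commute.one_right _
    · intro x y _ _ hx hy
      exact hx.mul_right hy
    · intro x _ hx
      exact hx.inv_right
  have hKn : (K.subgroupOf H).Normal := by
    refine ⟨fun n hn h => ?_⟩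
    rw [Subgroup.mem_subgroupOf] at hn ⊢
    obtain ⟨j, hj⟩ := hn
    have hcj : Commute ((g ^ 3) ^ j) (h : G) := (htH h h.2).zpow_left j
    have e : ((h * n * h⁻¹ : H) : G) = (h : G) * (n : G) * (h : G)⁻¹ := by simp
    rw [e, ← hj, ← hcj.eq]
    have e2 : (g ^ 3) ^ j * (h : G) * (h : G)⁻¹ = (g ^ 3) ^ j := by group
    rw [e2]
    exact ⟨j, rfl⟩
  refine ⟨H, K, hKn, ?_⟩
  set π := QuotientGroup.mk' (K.subgroupOf H) with hπ
  set A' : H := ⟨a, haH⟩ with hA'
  set C' : H := ⟨g, hgH⟩ with hC'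
  have hrel : Rel (π A') (π C') := by
    refine ⟨?_, ?_, ?_, ?_, ?_⟩
    · rw [← map_pow]
      have : A' ^ 4 = 1 := Subtype.ext (by simpa [hA'] using ha4)
      rw [this, map_one]
    · rw [← map_pow, hπ, QuotientGroup.mk'_apply, QuotientGroup.eq_one_iff, Subgroup.mem_subgroupOf]
      have : ((C' ^ 3 : H) : G) = g ^ 3 := by simp [hC']
      rw [this]
      exact mem_zpowers _
    · have : (C' * A' * C'⁻¹) * (C' * A' * C'⁻¹) = A' * A' :=
        Subtype.ext hbb
      have h2 := congrArg π this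
      simpa only [map_mul, map_inv] using h2
    · have : (C' * A' * C'⁻¹) * A' * (C' * A' * C'⁻¹)⁻¹ = A'⁻¹ :=
        Subtype.ext hbab
      have h2 := congrArg π this
      simpa only [map_mul, map_inv] using h2
    · have : C' * (C' * A' * C'⁻¹) * C'⁻¹ = A' * (C' * A' * C'⁻¹) :=
        Subtype.ext (by simpa [hA', hC'] using hR4)
      have h2 := congrArg π this
      simpa only [map_mul, map_inv] using h2
  have hgenH : closure ({A', C'} : Set H) = ⊤ := by
    have h1 := Subgroup.closure_closure_coe_preimage (k := ({a, g} : Set G))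
    have h2 : ((↑) : closure ({a, g} : Set G) → G) ⁻¹' ({a, g} : Set G) = ({A', C'} : Set H) := by
      ext x
      simp only [Set.mem_preimage, Set.mem_insert_iff, Set.mem_singleton_iff]
      constructor
      · rintro (h | h)
        · exact Or.inl (Subtype.ext h)
        · exact Or.inr (Subtype.ext h)
      · rintro (h | h)
        · exact Or.inl (congrArg Subtype.val h)
        · exact Or.inr (congrArg Subtype.val h)
    rw [h2] at h1
    exact h1
  have hgen : closure ({π A', π C'} : Set (H ⧸ K.subgroupOf H)) = ⊤ := by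
    have h1 : ({π A', π C'} : Set (H ⧸ K.subgroupOf H)) = π '' ({A', C'} : Set H) := by
      rw [Set.image_pair]
    rw [h1, ← MonoidHom.map_closure, hgenH]
    exact Subgroup.map_top_of_surjective π (QuotientGroup.mk'_surjective _)
  have hcard : 24 ≤ Nat.card (H ⧸ K.subgroupOf H) := by
    have h3 : 3 ∣ Nat.card (H ⧸ K.subgroupOf H) := by
      have hne : π C' ≠ 1 := by
        rw [hπ, QuotientGroup.mk'_apply, Ne, QuotientGroup.eq_one_iff, Subgroup.mem_subgroupOf]
        intro hmem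
        apply hgc
        have hle : K ≤ centralizer (Q : Set G) := by rw [hK, zpowers_le]; exact htQ
        exact hle hmem
      have : Fact (Nat.Prime 3) := ⟨by norm_num⟩
      have ho3 : orderOf (π C') = 3 := orderOf_eq_prime hrel.2.1 hne
      rw [← ho3]
      exact orderOf_dvd_natCard _
    have h8 : 8 ∣ Nat.card (H ⧸ K.subgroupOf H) := by
      set ψ : Q →* (H ⧸ K.subgroupOf H) := π.comp (Subgroup.inclusion hQH) with hψ
      have hinj : Function.Injective ψ := by
        rw [injective_iff_map_eq_one]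
        intro q hq
        rw [hψ, MonoidHom.comp_apply, hπ, QuotientGroup.mk'_apply, QuotientGroup.eq_one_iff,
          Subgroup.mem_subgroupOf] at hq
        have hq' : (q : G) ∈ K := hq
        have hcop : Nat.Coprime (Nat.card Q) (Nat.card K) := by
          rw [hc, hK, Nat.card_zpowers]
          have h1 : orderOf (g ^ 3) ∣ orderOf g := orderOf_pow_dvd 3
          have h2 : Nat.Coprime (orderOf (g ^ 3)) 2 := Nat.Coprime.coprime_dvd_left h1 hodd
          have h3 : Nat.Coprime (orderOf (g ^ 3)) (2 ^ 3) := Nat.Coprime.pow_right 3 h2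
          exact h3.symm
        have hbot := disjoint_iff.mp (Subgroup.disjoint_of_coprime_natCard hcop)
        have hmem : (q : G) ∈ Q ⊓ K := ⟨q.2, hq'⟩
        rw [hbot, Subgroup.mem_bot] at hmem
        exact Subtype.ext hmem
      have h1 : Nat.card ψ.range = 8 := by
        rw [← Nat.card_congr (MonoidHom.ofInjective hinj).toEquiv, hc]
      rw [← h1]
      exact Subgroup.card_subgroup_dvd_card _
    have h24 : 8 * 3 ∣ Nat.card (H ⧸ K.subgroupOf H) :=
      Nat.Coprime.mul_dvd_of_dvd_of_dvd (by norm_num) h8 h3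
    exact Nat.le_of_dvd Nat.card_pos h24
  exact exists_iso (π A') (π C') hrel hgen hcard

/-- A finite group with generalized quaternion Sylow 2-subgroups either has a normal 2-complement or has a section isomorphic to SL(2,3). -/
theorem result {G : Type*} [Group G] [Finite G] (T : Sylow 2 G) (n : ℕ) (hn : 1 ≤ n) (hT : Nonempty ((T : Subgroup G) ≃* QuaternionGroup (2 ^ n))) : Cfsg.HasNormalPComplement 2 G ∨ ∃ (H K : Subgroup G) (hK : (K.subgroupOf H).Normal), Nonempty ((H ⧸ K.subgroupOf H) ≃* Matrix.SpecialLinearGroup (Fin 2) (ZMod 3)) := by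
  classical
  by_cases hnpc : Cfsg.HasNormalPComplement 2 G
  · exact Or.inl hnpc
  · right
    have h1 : ¬ ∃ N : Subgroup G, N.Normal ∧ N.IsComplement' (T : Subgroup G) :=
      fun ⟨N, hN, hc⟩ => hnpc ⟨T, N, hN, hc⟩
    rw [Cfsg.Agent.S0071.result T] at h1
    push Not at h1
    obtain ⟨Q, hQT, g, hg, hcop, hgc⟩ := h1
    obtain ⟨e⟩ := hT
    have e1 : Q ≃* ((Q.subgroupOf T).map e.toMonoidHom) :=
      (Subgroup.subgroupOfEquivOfLe hQT).symm.trans
        ((Q.subgroupOf T).equivMapOfInjective e.toMonoidHom e.injective)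
    rcases quat_subgroup_dichotomy n ((Q.subgroupOf T).map e.toMonoidHom) with h | h
    · exact absurd (centralizes_of_aut_two Q (isPGroup_mulAut_of_equiv e1.symm h) g hg hcop) hgc
    · exact section_of_qdata Q (qdata_of_equiv e1.symm h) g hg hcop hgc

end Cfsg.Agent.S0106
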