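import Cfsg.Statements.S0111
import Cfsg.Agent.Lead.PrimeAction
import Mathlib.GroupTheory.Transfer

set_option autoImplicit false
open Cfsg

namespace Cfsg.Agent.S0111

/-- The Thompson transfer lemma states that an involution of a Sylow 2-subgroup P lying outside a subgroup Q of index 2 in P either lies outside some normal subgroup of index 2 in G or is conjugate to an element of Q. -/
theorem result {G : Type*} [Group G] [Finite G] (P : Sylow 2 G) (Q : Subgroup G) (hQP : Q ≤ (P : Subgroup G)) (hQi : Q.relIndex (P : Subgroup G) = 2) (u : G) (hu : orderOf u = 2) (huP : u ∈ (P : Subgroup G)) (huQ : u ∉ Q) : (∃ M : Subgroup G, M.Normal ∧ M.index = 2 ∧ u ∉ M) ∨ ∃ g : G, g * u * g⁻¹ ∈ Q := by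
  classical
  by_cases hconj : ∃ g : G, g * u * g⁻¹ ∈ Q
  · exact Or.inr hconj
  · left
    push Not at hconj
    have hu2 : u ^ 2 = 1 := by rw [← hu, pow_orderOf_eq_one]
    have hidx : (Q.subgroupOf (P : Subgroup G)).index = 2 := hQi
    let ϕ : (P : Subgroup G) →* ℤˣ :=
      { toFun := fun x => if (x : G) ∈ Q then 1 else -1
        map_one' := by simp [Q.one_mem]
        map_mul' := by
          intro x y
          have h := Subgroup.mul_mem_iff_of_index_two hidx (a := x) (b := y)
          simp only [Subgroup.mem_subgroupOf, Subgroup.coe_mul] at h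
          by_cases hx : (x : G) ∈ Q <;> by_cases hy : (y : G) ∈ Q <;> simp [hx, hy, h] }
    have hϕu : ϕ ⟨u, huP⟩ = -1 := by
      show (if u ∈ Q then (1 : ℤˣ) else -1) = -1
      rw [if_neg huQ]
    have hϕ : ∀ (n : ℕ) (a : G) (hmem : a⁻¹ * u ^ n * a ∈ (P : Subgroup G)),
        ϕ ⟨a⁻¹ * u ^ n * a, hmem⟩ = (ϕ ⟨u, huP⟩) ^ n := by
      intro n a hmem
      rw [hϕu]
      rcases Nat.even_or_odd n with ⟨k, hk⟩ | ⟨k, hk⟩
      · have hun : u ^ n = 1 := by rw [hk, ← two_mul, pow_mul, hu2, one_pow]
        have h1 : a⁻¹ * u ^ n * a = 1 := by rw [hun]; group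
        have h2 : (-1 : ℤˣ) ^ n = 1 := by rw [hk, ← two_mul, pow_mul]; simp
        rw [h2]
        show (if a⁻¹ * u ^ n * a ∈ Q then (1 : ℤˣ) else -1) = 1
        rw [if_pos (h1 ▸ Q.one_mem)]
      · have hun : u ^ n = u := by rw [hk, pow_succ, pow_mul, hu2, one_pow, one_mul]
        have hnot : a⁻¹ * u ^ n * a ∉ Q := by
          rw [hun]
          have := hconj a⁻¹
          rwa [inv_inv] at this
        have h2 : (-1 : ℤˣ) ^ n = -1 := by rw [hk, pow_succ, pow_mul]; simp
        rw [h2]
        show (if a⁻¹ * u ^ n * a ∈ Q then (1 : ℤˣ) else -1) = -1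
        rw [if_neg hnot]
    have : Fintype (Quotient (MulAction.orbitRel (Subgroup.zpowers u) (G ⧸ (P : Subgroup G)))) :=
      Fintype.ofFinite _
    have hV : MonoidHom.transfer ϕ u = -1 := by
      rw [MonoidHom.transfer_eq_prod_quotient_orbitRel_zpowers_quot]
      simp only [hϕ]
      rw [Finset.prod_pow_eq_pow_sum, ← Subgroup.index_eq_sum_minimalPeriod (P : Subgroup G) u, hϕu]
      have hodd : Odd (P : Subgroup G).index := by
        rw [← Nat.not_even_iff_odd, even_iff_two_dvd]; exact P.not_dvd_index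
      exact hodd.neg_one_pow
    refine ⟨(MonoidHom.transfer ϕ).ker, inferInstance, ?_, ?_⟩
    · rw [Subgroup.index_ker]
      have hsurj : Function.Surjective (MonoidHom.transfer ϕ) := by
        intro z
        rcases Int.units_eq_one_or z with rfl | rfl
        · exact ⟨1, map_one _⟩
        · exact ⟨u, hV⟩
      rw [MonoidHom.range_eq_top.mpr hsurj, Subgroup.card_top, Nat.card_eq_fintype_card,
        Fintype.card_units_int]
    · intro hmem
      rw [MonoidHom.mem_ker, hV] at hmem
      exact absurd hmem (by decide)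

end Cfsg.Agent.S0111
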