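import Cfsg.Statements.S0107
import Cfsg.Agent.Lead.PGroup
import Cfsg.Agent.Lead.Fusion
import Cfsg.Agent.S0111

set_option autoImplicit false
open Cfsg

namespace Cfsg.Agent.S0107

/-- A finite group with no nontrivial 2-group quotient and dihedral Sylow 2-subgroups of order at least 8 has a single class of involutions. -/
theorem result {G : Type*} [Group G] [Finite G] (T : Sylow 2 G) (n : ℕ) (hn : 2 ≤ n) (hT : Nonempty ((T : Subgroup G) ≃* DihedralGroup (2 ^ n))) (hO : Cfsg.pResidual 2 G = ⊤) (x y : G) (hx : orderOf x = 2) (hy : orderOf y = 2) : ∃ g : G, g * x * g⁻¹ = y := by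
  classical
  obtain ⟨e⟩ := hT
  have : NeZero (2 ^ n) := ⟨by positivity⟩
  -- rotation subgroup
  obtain ⟨R, hRmem⟩ : ∃ R : Subgroup (DihedralGroup (2 ^ n)),
      ∀ d, d ∈ R ↔ ∃ i, d = DihedralGroup.r i :=
    ⟨{ carrier := {d | ∃ i, d = DihedralGroup.r i}
       one_mem' := ⟨0, DihedralGroup.one_def⟩
       mul_mem' := by
         rintro _ _ ⟨i, rfl⟩ ⟨j, rfl⟩
         exact ⟨i + j, DihedralGroup.r_mul_r i j⟩
       inv_mem' := by
         rintro _ ⟨i, rfl⟩
         exact ⟨-i, DihedralGroup.inv_r i⟩ }, fun d => Iff.rfl⟩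
  have hRidx : R.index = 2 := by
    rw [Subgroup.index_eq_two_iff]
    refine ⟨DihedralGroup.sr 0, ?_⟩
    intro b
    cases b with
    | r i =>
      refine Or.inr ⟨(hRmem _).mpr ⟨i, rfl⟩, ?_⟩
      intro hmem
      obtain ⟨j, hj⟩ := (hRmem _).mp hmem
      rw [DihedralGroup.r_mul_sr] at hj
      cases hj
    | sr i =>
      refine Or.inl ⟨(hRmem _).mpr ⟨0 - i, DihedralGroup.sr_mul_sr i 0⟩, ?_⟩
      intro hmem
      obtain ⟨j, hj⟩ := (hRmem _).mp hmem
      cases hj
  -- unique involution among rotations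
  have key : ∀ i : ZMod (2 ^ n), orderOf (DihedralGroup.r i) = 2 → i.val = 2 ^ (n - 1) := by
    intro i hi
    have h1 : (DihedralGroup.r i) ^ 2 = 1 := by
      have h0 := pow_orderOf_eq_one (DihedralGroup.r i)
      rwa [hi] at h0
    rw [DihedralGroup.r_pow, DihedralGroup.one_def] at h1
    have h2 : i * ((2 : ℕ) : ZMod (2 ^ n)) = 0 := DihedralGroup.r.inj h1
    have h3 : ((i.val * 2 : ℕ) : ZMod (2 ^ n)) = 0 := by
      rw [Nat.cast_mul, ZMod.natCast_zmod_val]; exact h2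
    have h4 : 2 ^ n ∣ i.val * 2 := (ZMod.natCast_eq_zero_iff _ _).mp h3
    have h5 : i.val < 2 ^ n := ZMod.val_lt i
    have h6 : i.val ≠ 0 := by
      intro h0
      have hi0 : i = 0 := (ZMod.val_eq_zero i).mp h0
      rw [hi0, DihedralGroup.r_zero, orderOf_one] at hi
      omega
    have h7 : (2 : ℕ) ^ n = 2 * 2 ^ (n - 1) := by
      rw [← pow_succ']; congr 1; omega
    obtain ⟨c, hc⟩ := h4
    have hc1 : c = 1 := by
      have hcpos : 0 < c := by
        rcases Nat.eq_zero_or_pos c with h | h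
        · rw [h, mul_zero] at hc; omega
        · exact h
      have hclt : c < 2 := by
        by_contra hge
        push Not at hge
        have : 2 ^ n * 2 ≤ 2 ^ n * c := Nat.mul_le_mul_left _ hge
        omega
      omega
    have hc' : i.val * 2 = 2 ^ n := by rw [hc, hc1, mul_one]
    omega
  have hinv : ∀ i j : ZMod (2 ^ n), orderOf (DihedralGroup.r i) = 2 →
      orderOf (DihedralGroup.r j) = 2 → i = j := by
    intro i j hi hj
    exact ZMod.val_injective _ ((key i hi).trans (key j hj).symm)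
  obtain ⟨Q, hQdef⟩ : ∃ Q : Subgroup G,
      Q = (R.comap e.toMonoidHom).map (T : Subgroup G).subtype := ⟨_, rfl⟩
  have hQT : Q ≤ (T : Subgroup G) := by rw [hQdef]; exact Subgroup.map_subtype_le _
  have hQmem : ∀ (t : G) (ht : t ∈ (T : Subgroup G)),
      t ∈ Q ↔ ∃ i, e ⟨t, ht⟩ = DihedralGroup.r i := by
    intro t ht
    rw [hQdef]
    constructor
    · rintro ⟨t', ht', rfl⟩
      exact (hRmem _).mp ht'
    · intro h
      exact ⟨⟨t, ht⟩, (hRmem _).mpr h, rfl⟩
  have hQi : Q.relIndex (T : Subgroup G) = 2 := by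
    have h1 : Q.subgroupOf (T : Subgroup G) = R.comap e.toMonoidHom := by
      rw [hQdef]
      exact Subgroup.comap_map_eq_self_of_injective (Subgroup.subtype_injective _) _
    show (Q.subgroupOf (T : Subgroup G)).index = 2
    rw [h1, Subgroup.index_comap_of_surjective R (f := e.toMonoidHom) e.surjective]
    exact hRidx
  have hno2 : ∀ M : Subgroup G, M.Normal → M.index = 2 → False := by
    intro M hM hM2
    have hle : Cfsg.pResidual 2 G ≤ M := by
      unfold Cfsg.pResidual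
      rw [Subgroup.closure_le]
      intro g hg
      have hodd : Odd (orderOf g) := Nat.Coprime.odd_of_right hg
      obtain ⟨j, hj⟩ := hodd
      have h1 : g = (g ^ 2) ^ (j + 1) := by
        rw [← pow_mul]
        have : 2 * (j + 1) = orderOf g + 1 := by omega
        rw [this, pow_succ, pow_orderOf_eq_one, one_mul]
      rw [SetLike.mem_coe, h1]
      exact pow_mem (Subgroup.sq_mem_of_index_two hM2 g) _
    rw [hO, top_le_iff] at hle
    rw [hle, Subgroup.index_top] at hM2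
    omega
  have hinQ : ∀ u : G, orderOf u = 2 → u ∈ (T : Subgroup G) → ∃ g : G, g * u * g⁻¹ ∈ Q := by
    intro u hu huT
    by_cases huQ : u ∈ Q
    · exact ⟨1, by simpa using huQ⟩
    · rcases Cfsg.Agent.S0111.result T Q hQT hQi u hu huT huQ with ⟨M, hM, hM2, -⟩ | h
      · exact (hno2 M hM hM2).elim
      · exact h
  have hallQ : ∀ u : G, orderOf u = 2 → ∃ g : G, g * u * g⁻¹ ∈ Q := by
    intro u hu
    have h2grp : IsPGroup 2 (Subgroup.zpowers u) := by
      apply IsPGroup.of_card (n := 1)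
      rw [Nat.card_zpowers, hu, pow_one]
    obtain ⟨S, hS⟩ := h2grp.exists_le_sylow
    obtain ⟨a, ha⟩ := MulAction.exists_smul_eq G S T
    have huS : u ∈ (S : Subgroup G) := hS (Subgroup.mem_zpowers u)
    have huT : a * u * a⁻¹ ∈ (T : Subgroup G) := by
      rw [← ha, Cfsg.Agent.Lead.mem_smul_sylow]
      have e1 : a⁻¹ * (a * u * a⁻¹) * a = u := by group
      rw [e1]; exact huS
    have hord : orderOf (a * u * a⁻¹) = 2 := by rw [Cfsg.Agent.Lead.orderOf_conj', hu]
    obtain ⟨g, hg⟩ := hinQ _ hord huT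
    refine ⟨g * a, ?_⟩
    have e2 : g * a * u * (g * a)⁻¹ = g * (a * u * a⁻¹) * g⁻¹ := by group
    rw [e2]; exact hg
  obtain ⟨g₁, h₁⟩ := hallQ x hx
  obtain ⟨g₂, h₂⟩ := hallQ y hy
  have huniq : ∀ w₁ w₂ : G, w₁ ∈ Q → w₂ ∈ Q → orderOf w₁ = 2 → orderOf w₂ = 2 → w₁ = w₂ := by
    intro w₁ w₂ hw₁ hw₂ ho₁ ho₂
    obtain ⟨i, hi⟩ := (hQmem w₁ (hQT hw₁)).mp hw₁
    obtain ⟨j, hj⟩ := (hQmem w₂ (hQT hw₂)).mp hw₂
    have hoi : orderOf (DihedralGroup.r i : DihedralGroup (2 ^ n)) = 2 := by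
      rw [← hi, MulEquiv.orderOf_eq e, Subgroup.orderOf_mk, ho₁]
    have hoj : orderOf (DihedralGroup.r j : DihedralGroup (2 ^ n)) = 2 := by
      rw [← hj, MulEquiv.orderOf_eq e, Subgroup.orderOf_mk, ho₂]
    have hij := hinv i j hoi hoj
    have h3 : e ⟨w₁, hQT hw₁⟩ = e ⟨w₂, hQT hw₂⟩ := by rw [hi, hj, hij]
    exact congrArg Subtype.val (e.injective h3)
  have heq := huniq _ _ h₁ h₂ (by rw [Cfsg.Agent.Lead.orderOf_conj', hx])
    (by rw [Cfsg.Agent.Lead.orderOf_conj', hy])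
  refine ⟨g₂⁻¹ * g₁, ?_⟩
  calc g₂⁻¹ * g₁ * x * (g₂⁻¹ * g₁)⁻¹ = g₂⁻¹ * (g₁ * x * g₁⁻¹) * g₂ := by group
    _ = g₂⁻¹ * (g₂ * y * g₂⁻¹) * g₂ := by rw [heq]
    _ = y := by group

end Cfsg.Agent.S0107
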