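import Cfsg.Statements.S0109
import Cfsg.Agent.S0607
import Cfsg.Agent.Helper16.PCore
import Cfsg.Agent.Helper16.SylowNormal
import Cfsg.Agent.Helper9.PConstr
import Cfsg.Agent.Helper4.CharTwoType
import Cfsg.Agent.Helper12.QuadPP
import Cfsg.Agent.Helper10.PSolvSL2
import Cfsg.Agent.Helper10.ActPStab
import Cfsg.Agent.Helper10.PStabOdd
import Cfsg.Agent.Helper20.SolvPSolv

set_option autoImplicit false
open Cfsg
open scoped commutatorElement

namespace Cfsg.Agent.S0109

-- `p`-stability of solvable groups (`p` odd, abelian Sylow `2`-subgroups when `p = 3`):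
-- an element acting quadratically on a normal `p`-subgroup lies in `O_p` modulo the centralizer.
theorem quad_mem_core {G : Type*} [Group G] [Finite G] {p : ℕ} [Fact p.Prime] (hp : p ≠ 2)
    (hs : Group.IsSolvable G) (h3 : p = 3 → ∀ T : Sylow 2 G, IsMulCommutative T)
    (V : Subgroup G) [V.Normal] (hV : IsPGroup p V) (C : Subgroup G) [C.Normal]
    (hC : ∀ g : G, (∀ u ∈ V, g * u * g⁻¹ = u) → g ∈ C)
    (a : G) (hq : ∀ u ∈ V, a * (a * u * a⁻¹ * u⁻¹) * a⁻¹ = a * u * a⁻¹ * u⁻¹) :
    (QuotientGroup.mk a : G ⧸ C) ∈ Cfsg.pCore p (G ⧸ C) := by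
  have hpp : p.Prime := Fact.out
  by_cases h : p = 3
  · exact Cfsg.Agent.Helper10.pstab_gen_normal (Cfsg.Agent.Helper10.gl2Core_subgroups (h3 h))
      p hp V hV C hC a hq
  · have h5 : 5 ≤ p := by
      have h2 := hpp.two_le
      by_contra hlt
      have h' : p = 2 ∨ p = 3 ∨ p = 4 := by omega
      rcases h' with h' | h' | h'
      · exact hp h'
      · exact h h'
      · rw [h'] at hpp; exact absurd hpp (by decide)
    have := hs
    exact Cfsg.Agent.Helper12.pstab_gen_normalP p
      (Cfsg.Agent.Helper10.gl2CoreP_subgroups_of_psolvable p h5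
        (Cfsg.Agent.Helper20.PLen.isPSolvable_of_isSolvable p)) hp V hV C hC a hq

/-- The Thompson factorization Theorem for solvable groups states that, with p odd (and abelian Sylow 2-subgroups when p = 3) and no nontrivial normal subgroup of order prime to p, every element of G is a product of an element normalizing J(P) and an element centralizing the elements of order dividing p in the centre of P. -/
theorem result {G : Type*} [Group G] [Finite G] {p : ℕ} [Fact p.Prime] (hp : p ≠ 2) (hs : Group.IsSolvable G) (h3 : p = 3 → ∀ T : Sylow 2 G, IsMulCommutative T) (hF : ∀ N : Subgroup G, N.Normal → Nat.Coprime (Nat.card N) p → N = ⊥) (P : Sylow p G) (g : G) : ∃ a ∈ Subgroup.normalizer (Cfsg.thompsonSubgroupOf p (P : Subgroup G) : Set G), ∃ c ∈ Subgroup.centralizer {x : G | x ∈ (P : Subgroup G) ∧ (∀ y ∈ (P : Subgroup G), x * y = y * x) ∧ x ^ p = 1}, g = a * c := by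
  classical
  have hpp : p.Prime := Fact.out
  have hO : Cfsg.pPrimeCore p G = ⊥ := by
    unfold Cfsg.pPrimeCore
    rw [eq_bot_iff]
    apply sSup_le
    rintro N ⟨hN, hc⟩
    rw [hF N hN hc]
  have hcen : Subgroup.centralizer (Cfsg.pCore p G : Set G) ≤ Cfsg.pCore p G :=
    (Cfsg.Agent.Helper9.layer_eq_bot_iff_centralizer_pCore_le p hO).mp
      (Cfsg.Agent.Helper4.layer_eq_bot_of_solvable hs)
  obtain ⟨F, hFdef⟩ : ∃ F : Subgroup G, F = Cfsg.pCore p G := ⟨_, rfl⟩
  rw [← hFdef] at hcen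
  have hFn : F.Normal := by rw [hFdef]; exact Cfsg.Agent.Helper16.pCore_normal p G
  have hFP : F ≤ (P : Subgroup G) := by
    rw [hFdef]; exact Cfsg.Agent.Helper16.pCore_le_sylow P
  obtain ⟨W, hWdef⟩ : ∃ W : Set G, W = {x : G | x ∈ (P : Subgroup G) ∧
      (∀ y ∈ (P : Subgroup G), x * y = y * x) ∧ x ^ p = 1} := ⟨_, rfl⟩
  rw [← hWdef]
  -- `U = Ω₁(Z(F))`
  let U : Subgroup G :=
    { carrier := {x | x ∈ F ∧ (∀ y ∈ F, x * y = y * x) ∧ x ^ p = 1}
      mul_mem' := by
        rintro a b ⟨ha, hac, hap⟩ ⟨hb, hbc, hbp⟩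
        refine ⟨F.mul_mem ha hb, fun y hy => ?_, ?_⟩
        · rw [mul_assoc, hbc y hy, ← mul_assoc, hac y hy, mul_assoc]
        · have hab : Commute a b := hac b hb
          rw [hab.mul_pow, hap, hbp, one_mul]
      one_mem' := ⟨F.one_mem, fun y _ => by rw [one_mul, mul_one], one_pow p⟩
      inv_mem' := by
        rintro a ⟨ha, hac, hap⟩
        refine ⟨F.inv_mem ha, fun y hy => ?_, ?_⟩
        · have hc : Commute a y := hac y hy
          exact hc.inv_left.eq
        · rw [inv_pow, hap, inv_one] }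
  have hUmem : ∀ x : G, x ∈ U ↔ x ∈ F ∧ (∀ y ∈ F, x * y = y * x) ∧ x ^ p = 1 := fun x => Iff.rfl
  have hUn : U.Normal := by
    refine ⟨fun x hx g => ?_⟩
    rw [hUmem] at hx ⊢
    obtain ⟨hxF, hxc, hxp⟩ := hx
    refine ⟨hFn.conj_mem x hxF g, fun y hy => ?_, ?_⟩
    · have h1 := hxc (g⁻¹ * y * g) (by
        have := hFn.conj_mem y hy g⁻¹
        rwa [inv_inv] at this)
      calc g * x * g⁻¹ * y = g * (x * (g⁻¹ * y * g)) * g⁻¹ := by group
        _ = g * ((g⁻¹ * y * g) * x) * g⁻¹ := by rw [h1]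
        _ = y * (g * x * g⁻¹) := by group
    · rw [conj_pow, hxp, mul_one, mul_inv_cancel]
  have hWU : W ⊆ (U : Set G) := by
    intro x hx
    rw [hWdef] at hx
    obtain ⟨hxP, hxc, hxp⟩ := hx
    have hxF : x ∈ F := by
      apply hcen
      rw [Subgroup.mem_centralizer_iff]
      intro y hy
      exact (hxc y (hFP hy)).symm
    exact ⟨hxF, fun y hy => hxc y (hFP hy), hxp⟩
  obtain ⟨V, hVdef⟩ : ∃ V : Subgroup G, V = Subgroup.normalClosure W := ⟨_, rfl⟩
  have hVn : V.Normal := by rw [hVdef]; exact Subgroup.normalClosure_normal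
  have hWV : W ⊆ (V : Set G) := by rw [hVdef]; exact Subgroup.subset_normalClosure
  have hVU : V ≤ U := by
    rw [hVdef]
    have := hUn
    exact Subgroup.normalClosure_le_normal hWU
  have hVF : V ≤ F := fun x hx => (hVU hx).1
  have hVP : V ≤ (P : Subgroup G) := hVF.trans hFP
  have hVc : ∀ x ∈ V, ∀ y ∈ V, x * y = y * x := fun x hx y hy => (hVU hx).2.1 y (hVF hy)
  have hVp : ∀ x ∈ V, x ^ p = 1 := fun x hx => (hVU hx).2.2
  have hVpg : IsPGroup p V := by
    intro x
    refine ⟨1, ?_⟩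
    rw [pow_one]
    apply Subtype.ext
    rw [Subgroup.coe_pow]
    exact hVp x x.2
  obtain ⟨C, hCdef⟩ : ∃ C : Subgroup G, C = Subgroup.centralizer (V : Set G) := ⟨_, rfl⟩
  have := hVn
  have hCn : C.Normal := by rw [hCdef]; infer_instance
  have := hCn
  have hmemC : ∀ g : G, g ∈ C ↔ ∀ u ∈ V, u * g = g * u := by
    intro g
    rw [hCdef, Subgroup.mem_centralizer_iff]
    rfl
  -- `O_p(G/C) = 1`
  have hOp : Cfsg.pCore p (G ⧸ C) = ⊥ := by
    have hsurj : Function.Surjective (QuotientGroup.mk' C) := QuotientGroup.mk'_surjective C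
    obtain ⟨D, hDdef⟩ : ∃ D : Subgroup G,
        D = (Cfsg.pCore p (G ⧸ C)).comap (QuotientGroup.mk' C) := ⟨_, rfl⟩
    have hDn : D.Normal := by
      rw [hDdef]
      have := Cfsg.Agent.Helper16.pCore_normal p (G ⧸ C)
      infer_instance
    have hDW : ∀ d ∈ D, ∀ w ∈ W, w * d = d * w := by
      intro d hd w hw
      rw [hDdef, Subgroup.mem_comap] at hd
      have hle := Cfsg.Agent.Helper16.pCore_le_sylow (P.mapSurjective hsurj) hd
      rw [Sylow.coe_mapSurjective] at hle
      obtain ⟨x, hxP, hxd⟩ := Subgroup.mem_map.mp hle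
      have hc : x⁻¹ * d ∈ C := by
        rw [QuotientGroup.mk'_apply, QuotientGroup.mk'_apply] at hxd
        exact QuotientGroup.eq.mp hxd
      have hwV : w ∈ V := hWV hw
      have h1 : w * (x⁻¹ * d) = (x⁻¹ * d) * w := (hmemC _).mp hc w hwV
      rw [hWdef] at hw
      have h2 : w * x = x * w := hw.2.1 x hxP
      calc w * d = (w * x) * (x⁻¹ * d) := by group
        _ = x * (w * (x⁻¹ * d)) := by rw [h2, mul_assoc]
        _ = x * ((x⁻¹ * d) * w) := by rw [h1]
        _ = d * w := by group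
    have hVD : V ≤ Subgroup.centralizer (D : Set G) := by
      rw [hVdef]
      have := hDn
      apply Subgroup.normalClosure_le_normal
      intro w hw
      rw [SetLike.mem_coe, Subgroup.mem_centralizer_iff]
      intro d hd
      exact (hDW d hd w hw).symm
    rw [eq_bot_iff]
    intro q hq
    induction q using QuotientGroup.induction_on with | _ d =>
    have hdD : d ∈ D := by rw [hDdef, Subgroup.mem_comap]; exact hq
    rw [Subgroup.mem_bot, QuotientGroup.eq_one_iff, hmemC]
    intro u hu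
    have h1 := hVD hu
    rw [Subgroup.mem_centralizer_iff] at h1
    exact (h1 d hdD).symm
  -- quadratic elements centralize `V`
  have hquad : ∀ b : G, (∀ u ∈ V, b * (b * u * b⁻¹ * u⁻¹) * b⁻¹ = b * u * b⁻¹ * u⁻¹) →
      b ∈ C := by
    intro b hb
    have hC' : ∀ g : G, (∀ u ∈ V, g * u * g⁻¹ = u) → g ∈ C := by
      intro g hg
      rw [hmemC]
      intro u hu
      have h1 := hg u hu
      calc u * g = (g * u * g⁻¹) * g := by rw [h1]
        _ = g * u := by group
    have h2 := quad_mem_core hp hs h3 V hVpg C hC' b hb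
    rw [hOp, Subgroup.mem_bot, QuotientGroup.eq_one_iff] at h2
    exact h2
  -- every maximal elementary abelian subgroup of `P` centralizes `V`
  have hAC : ∀ A ∈ Cfsg.maxElementaryAbelianSubgroups p ↥(P : Subgroup G),
      A.map (P : Subgroup G).subtype ≤ C := by
    intro A hA
    by_contra hnot
    obtain ⟨V', hV'def⟩ : ∃ V' : Subgroup ↥(P : Subgroup G),
        V' = V.subgroupOf (P : Subgroup G) := ⟨_, rfl⟩
    have hV'n : V'.Normal := by rw [hV'def]; infer_instance
    have hV'ea : Cfsg.IsElementaryAbelian p V' := by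
      refine ⟨⟨⟨fun a b => ?_⟩⟩, fun a ha => ?_⟩
      · apply Subtype.ext
        apply Subtype.ext
        have ha : (a : ↥(P : Subgroup G)) ∈ V.subgroupOf (P : Subgroup G) := by
          rw [← hV'def]; exact a.2
        have hb : (b : ↥(P : Subgroup G)) ∈ V.subgroupOf (P : Subgroup G) := by
          rw [← hV'def]; exact b.2
        rw [Subgroup.mem_subgroupOf] at ha hb
        exact hVc _ ha _ hb
      · rw [hV'def, Subgroup.mem_subgroupOf] at ha
        apply Subtype.ext
        rw [Subgroup.coe_pow]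
        exact hVp _ ha
    obtain ⟨-, hq2, hne⟩ := Cfsg.Agent.S0607.result V' hV'ea A hA
    obtain ⟨B, hBdef⟩ : ∃ B : Subgroup ↥(P : Subgroup G), B = ⁅V', A⁆ ⊔ (A ⊓
        Subgroup.centralizer ((⁅V', A⁆ : Subgroup ↥(P : Subgroup G)) : Set ↥(P : Subgroup G))) :=
      ⟨_, rfl⟩
    rw [← hBdef] at hq2 hne
    have h1 : ⁅V', A⁆ ≠ ⊥ := by
      intro h0
      apply hnot
      rintro _ ⟨a, ha, rfl⟩
      rw [hmemC]
      intro u hu
      have hu' : (⟨u, hVP hu⟩ : ↥(P : Subgroup G)) ∈ V' := by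
        rw [hV'def, Subgroup.mem_subgroupOf]; exact hu
      have hcm : ⁅(⟨u, hVP hu⟩ : ↥(P : Subgroup G)), a⁆ ∈ ⁅V', A⁆ :=
        Subgroup.commutator_mem_commutator hu' ha
      rw [h0, Subgroup.mem_bot, commutatorElement_eq_one_iff_mul_comm] at hcm
      exact congrArg Subtype.val hcm
    apply hne h1
    rw [eq_bot_iff, Subgroup.commutator_le]
    intro u hu b hb
    rw [Subgroup.mem_bot, commutatorElement_eq_one_iff_mul_comm]
    have hbq := Cfsg.Agent.Helper10.quad_of_commutator V' B hq2 b hb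
    have hbC : (b : G) ∈ C := by
      apply hquad
      intro v hv
      have h2 := hbq ⟨v, hVP hv⟩ (by rw [hV'def, Subgroup.mem_subgroupOf]; exact hv)
      exact congrArg Subtype.val h2
    rw [hV'def, Subgroup.mem_subgroupOf] at hu
    have h3 := (hmemC _).mp hbC _ hu
    exact Subtype.ext h3
  -- the Thompson subgroup
  obtain ⟨J, hJdef⟩ : ∃ J : Subgroup G, J = Cfsg.thompsonSubgroupOf p (P : Subgroup G) :=
    ⟨_, rfl⟩
  rw [← hJdef]
  have hJle : ∀ K : Subgroup G, (∀ A ∈ Cfsg.maxElementaryAbelianSubgroups p ↥(P : Subgroup G),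
      ∀ a ∈ A, (a : G) ∈ K) → J ≤ K := by
    intro K hK
    rw [hJdef]
    unfold Cfsg.thompsonSubgroupOf Cfsg.thompsonSubgroup
    rw [Subgroup.map_le_iff_le_comap]
    apply sSup_le
    intro A hA a ha
    rw [Subgroup.mem_comap]
    exact hK A hA a ha
  have hJmem : ∀ A ∈ Cfsg.maxElementaryAbelianSubgroups p ↥(P : Subgroup G),
      ∀ a ∈ A, (a : G) ∈ J := by
    intro A hA a ha
    rw [hJdef]
    unfold Cfsg.thompsonSubgroupOf Cfsg.thompsonSubgroup
    exact Subgroup.mem_map_of_mem _ (le_sSup hA ha)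
  have hconj : ∀ n : G, (∀ x ∈ (P : Subgroup G) ⊓ C, n * x * n⁻¹ ∈ (P : Subgroup G) ⊓ C) →
      ∀ x ∈ J, n * x * n⁻¹ ∈ J := by
    intro n hn
    have hle : J ≤ J.comap (MulAut.conj n).toMonoidHom := by
      apply hJle
      intro A hA a ha
      rw [Subgroup.mem_comap, MulEquiv.coe_toMonoidHom, MulAut.conj_apply]
      have hAPC : ∀ a ∈ A, (a : G) ∈ (P : Subgroup G) ⊓ C := fun a ha =>
        ⟨a.2, hAC A hA (Subgroup.mem_map_of_mem _ ha)⟩
      obtain ⟨A', hA'def⟩ : ∃ A' : Subgroup ↥(P : Subgroup G),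
          A' = ((A.map (P : Subgroup G).subtype).comap
            (MulAut.conj n⁻¹).toMonoidHom).subgroupOf (P : Subgroup G) := ⟨_, rfl⟩
      have hmemA' : ∀ y : ↥(P : Subgroup G), y ∈ A' ↔
          ∃ a ∈ A, (a : G) = n⁻¹ * (y : G) * n := by
        intro y
        rw [hA'def, Subgroup.mem_subgroupOf, Subgroup.mem_comap, MulEquiv.coe_toMonoidHom,
          MulAut.conj_apply, inv_inv, Subgroup.mem_map]
        rfl
      have hA'mem : A' ∈ Cfsg.maxElementaryAbelianSubgroups p ↥(P : Subgroup G) := by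
        obtain ⟨⟨hAc, hAp⟩, hAmax⟩ := hA
        refine ⟨⟨⟨⟨fun y z => ?_⟩⟩, fun y hy => ?_⟩, fun B hB => ?_⟩
        · obtain ⟨a, ha, hay⟩ := (hmemA' y).mp y.2
          obtain ⟨b, hb, hbz⟩ := (hmemA' z).mp z.2
          have hab : a * b = b * a := congrArg Subtype.val (hAc.is_comm.comm ⟨a, ha⟩ ⟨b, hb⟩)
          have hab' : (a : G) * (b : G) = (b : G) * (a : G) := congrArg Subtype.val hab
          rw [hay, hbz] at hab'
          apply Subtype.ext
          apply Subtype.ext
          show ((y : ↥(P : Subgroup G)) : G) * ((z : ↥(P : Subgroup G)) : G) =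
            ((z : ↥(P : Subgroup G)) : G) * ((y : ↥(P : Subgroup G)) : G)
          generalize ((y : ↥(P : Subgroup G)) : G) = y0 at hab' ⊢
          generalize ((z : ↥(P : Subgroup G)) : G) = z0 at hab' ⊢
          calc y0 * z0 = n * ((n⁻¹ * y0 * n) * (n⁻¹ * z0 * n)) * n⁻¹ := by group
            _ = n * ((n⁻¹ * z0 * n) * (n⁻¹ * y0 * n)) * n⁻¹ := by rw [hab']
            _ = z0 * y0 := by group
        · obtain ⟨a, ha, hay⟩ := (hmemA' y).mp hy
          have hap := hAp a ha
          have hap' : (a : G) ^ p = 1 := by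
            rw [← Subgroup.coe_pow, hap]; rfl
          rw [hay] at hap'
          apply Subtype.ext
          rw [Subgroup.coe_pow]
          have h3 : (n⁻¹ * (y : G) * n) ^ p = n⁻¹ * (y : G) ^ p * n := by
            have h4 := conj_pow (a := n⁻¹) (b := (y : G)) (i := p)
            rwa [inv_inv] at h4
          rw [h3] at hap'
          generalize (y : G) ^ p = t at hap' ⊢
          calc t = n * (n⁻¹ * t * n) * n⁻¹ := by group
            _ = 1 := by rw [hap']; group
        · refine (hAmax B hB).trans ?_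
          have hf : ∀ a : A, n * ((a : ↥(P : Subgroup G)) : G) * n⁻¹ ∈ (P : Subgroup G) :=
            fun a => (hn _ (hAPC a.1 a.2)).1
          have hf' : ∀ a : A,
              (⟨n * ((a : ↥(P : Subgroup G)) : G) * n⁻¹, hf a⟩ : ↥(P : Subgroup G)) ∈ A' := by
            intro a
            rw [hmemA']
            refine ⟨a.1, a.2, ?_⟩
            show ((a : ↥(P : Subgroup G)) : G) =
              n⁻¹ * (n * ((a : ↥(P : Subgroup G)) : G) * n⁻¹) * n
            group
          apply Nat.card_le_card_of_injective (fun a : A =>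
            (⟨⟨n * ((a : ↥(P : Subgroup G)) : G) * n⁻¹, hf a⟩, hf' a⟩ : A'))
          intro a b hab
          have h4 : n * ((a : ↥(P : Subgroup G)) : G) * n⁻¹ =
              n * ((b : ↥(P : Subgroup G)) : G) * n⁻¹ :=
            congrArg (fun t : A' => ((t : ↥(P : Subgroup G)) : G)) hab
          have h5 : ((a : ↥(P : Subgroup G)) : G) = ((b : ↥(P : Subgroup G)) : G) :=
            mul_left_cancel (mul_right_cancel h4)
          exact Subtype.ext (Subtype.ext h5)
      have hmem : (⟨n * (a : G) * n⁻¹, (hn _ (hAPC a ha)).1⟩ : ↥(P : Subgroup G)) ∈ A' := by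
        rw [hmemA']
        refine ⟨a, ha, ?_⟩
        show (a : G) = n⁻¹ * (n * (a : G) * n⁻¹) * n
        group
      exact hJmem A' hA'mem _ hmem
    intro x hx
    have h1 := hle hx
    rw [Subgroup.mem_comap, MulEquiv.coe_toMonoidHom, MulAut.conj_apply] at h1
    exact h1
  -- Frattini argument
  obtain ⟨Q, hQ⟩ := Cfsg.Agent.Helper16.sylow_subgroupOf_normal P C
  have hfr := Sylow.normalizer_sup_eq_top Q
  rw [hQ, Subgroup.subgroupOf_map_subtype] at hfr
  have hg : g ∈ Subgroup.normalizer ((((P : Subgroup G) ⊓ C : Subgroup G)) : Set G) ⊔ C := by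
    rw [hfr]; trivial
  obtain ⟨a, ha, c, hc, hac⟩ := Subgroup.mem_sup_of_normal_right.mp hg
  refine ⟨a, ?_, c, ?_, hac.symm⟩
  · rw [Subgroup.mem_normalizer_iff] at ha ⊢
    intro x
    constructor
    · intro hx
      exact hconj a (fun y hy => (ha y).mp hy) x hx
    · intro hx
      have h1 := hconj a⁻¹ (fun y hy => by
        have h2 := (ha (a⁻¹ * y * a⁻¹⁻¹)).mpr (by
          have h3 : a * (a⁻¹ * y * a⁻¹⁻¹) * a⁻¹ = y := by group
          rw [h3]; exact hy)
        exact h2) (a * x * a⁻¹) hx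
      have h4 : a⁻¹ * (a * x * a⁻¹) * a⁻¹⁻¹ = x := by group
      rw [h4] at h1
      exact h1
  · rw [hCdef] at hc
    exact Subgroup.centralizer_le hWV hc

end Cfsg.Agent.S0109
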