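import Cfsg.Statements.S0118
-- import your own Cfsg.Agent.* helpers here
import Cfsg.Agent.Helper12.SL2Stable
import Cfsg.Agent.Helper12.KStable
import Cfsg.Agent.Helper10.FullZJNpc

set_option autoImplicit false
open Cfsg

namespace Cfsg.Agent.S0118

/-- Glauberman's ZJ-Theorem, in the case of groups with no section isomorphic to SL(2,p), p odd: conjugation of subsets of a Sylow p-subgroup P inside P is always induced from the normalizer of Z(J(P)). -/
theorem result {G : Type*} [Group G] [Finite G] {p : ℕ} [Fact p.Prime] (hp : p ≠ 2) (hfree : ¬ ∃ (H K : Subgroup G) (hK : (K.subgroupOf H).Normal), Nonempty ((H ⧸ K.subgroupOf H) ≃* Matrix.SpecialLinearGroup (Fin 2) (ZMod p))) (P : Sylow p G) (A : Set G) (hA : A ⊆ (P : Set G)) (g : G) (hAg : (fun a => g⁻¹ * a * g) '' A ⊆ (P : Set G)) : ∃ n ∈ Subgroup.normalizer (Cfsg.centerThompsonOf p (P : Subgroup G) : Set G), ∀ a ∈ A, n⁻¹ * a * n = g⁻¹ * a * g := by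
  open Cfsg.Agent.Helper12 in
  (
  have hst : ∀ (K R : Subgroup G) [hR : (R.subgroupOf K).Normal],
      Cfsg.IsNormalizerPStable p (↥K ⧸ R.subgroupOf K) := by
    intro K R hR
    refine section_nps_of_sl2_free hp (fun Q _ _ hinv => hfree ?_) K R
    obtain ⟨K', R', hN', ⟨e⟩⟩ := Cfsg.Agent.Helper27.involves_of_injective
      (Subgroup.normalizer (Q : Set G)).subtype (Subgroup.subtype_injective _) hinv
    exact ⟨K', R', hN', ⟨e⟩⟩
  have hW : Cfsg.IsCharPFunctor p (Cfsg.Agent.Helper10.WF p) := Cfsg.Agent.Helper10.WF_char p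
  have h𝓦 : ∀ W' ∈ ({Cfsg.Agent.Helper10.WF p} : Set (∀ (Q : Type _) [Group Q], Subgroup Q)),
      Cfsg.IsCharPFunctor p W' := by
    rintro _ rfl; exact hW
  have h1 : ∀ (K R : Subgroup G) [(R.subgroupOf K).Normal],
      Subgroup.centralizer ((Cfsg.pCore p (↥K ⧸ R.subgroupOf K) :
        Subgroup (↥K ⧸ R.subgroupOf K)) : Set (↥K ⧸ R.subgroupOf K)) ≤
        Cfsg.pCore p (↥K ⧸ R.subgroupOf K) →
        sfCtl p ({Cfsg.Agent.Helper10.WF p} : Set (∀ (Q : Type _) [Group Q], Subgroup Q))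
          (↥K ⧸ R.subgroupOf K) := by
    intro K R _ hcen T B y hB hyB
    refine famRel_step hB hyB ⟨Cfsg.Agent.Helper10.WF p, rfl, rfl⟩ ?_
    have hn : (Cfsg.Agent.Helper10.fullZ p (T : Subgroup (↥K ⧸ R.subgroupOf K))).Normal := by
      refine Cfsg.Agent.Helper10.fullZ_normal hp T hcen ?_
      intro V hVn hV a _ hq
      have ha : a ∈ Subgroup.normalizer (V : Set (↥K ⧸ R.subgroupOf K)) := by
        rw [Subgroup.normalizer_eq_top_iff.mpr hVn]; exact Subgroup.mem_top a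
      exact Cfsg.Agent.Helper1.pstable_of_normalizer V a ha (hst K R V hV a ha hq)
    show y ∈ Subgroup.normalizer ((Cfsg.inducedFunctor (Cfsg.Agent.Helper10.WF p)
      (T : Subgroup (↥K ⧸ R.subgroupOf K)) : Subgroup (↥K ⧸ R.subgroupOf K)) :
        Set (↥K ⧸ R.subgroupOf K))
    rw [Cfsg.Agent.Helper10.inducedFunctor_WF, Subgroup.normalizer_eq_top_iff.mpr hn]
    exact Subgroup.mem_top _
  have h2 := sfCtl_sections_of_hloc h𝓦 h1
  have h3 := h2 G (isSectionOf_self G)
  have hAg' : cj g A ⊆ ((P : Subgroup G) : Set G) := hAg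
  obtain ⟨-, -, g', hch, hag⟩ := h3 P A g hA hAg'
  have hfin : cj g' A ⊆ (P : Subgroup G) := by
    rw [cj_congr hag]; exact hAg'
  have hg'N : g' ∈ Subgroup.normalizer
      ((Cfsg.inducedFunctor (Cfsg.Agent.Helper10.WF p) (P : Subgroup G) : Subgroup G) : Set G) := by
    refine FChain.rel_of_chain_const (fun _ x => x ∈ Subgroup.normalizer
      ((Cfsg.inducedFunctor (Cfsg.Agent.Helper10.WF p) (P : Subgroup G) : Subgroup G) : Set G))
      ?_ ?_ ?_ hch hfin
    · intro _ _; exact one_mem _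
    · rintro B t x ⟨_, ⟨W', rfl, rfl⟩, hx⟩ _ _
      exact (Subgroup.mem_inf.1 hx).2
    · intro _ x y hx hy; exact mul_mem hx hy
  rw [Cfsg.Agent.Helper10.inducedFunctor_WF,
    ← Cfsg.Agent.Helper10.centerThompsonOf_eq_fullZ] at hg'N
  exact ⟨g', hg'N, hag⟩
  )

end Cfsg.Agent.S0118
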