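import Cfsg.Statements.S0125
import Cfsg.Agent.Lead.PrimeAction
import Cfsg.Agent.Helper20.Norm

set_option autoImplicit false
open Cfsg

namespace Cfsg.Agent.S0125

/-- The centralizer of a self-centralizing normal subgroup A of a Sylow p-subgroup is the direct product of A with a normal p'-subgroup. -/
theorem result {G : Type*} [Group G] [Finite G] {p : ℕ} [Fact p.Prime] (R : Sylow p G) (A : Subgroup G) (hAR : A ≤ (R : Subgroup G)) (hAn : (R : Subgroup G) ≤ Subgroup.normalizer (A : Set G)) (hC : (R : Subgroup G) ⊓ Subgroup.centralizer (A : Set G) = A) : ∃ H : Subgroup G, H ≤ Subgroup.centralizer (A : Set G) ∧ Nat.Coprime (Nat.card H) p ∧ Subgroup.centralizer (A : Set G) ≤ Subgroup.normalizer (H : Set G) ∧ H ⊓ A = ⊥ ∧ H ⊔ A = Subgroup.centralizer (A : Set G) := by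
  classical
  have hp : p.Prime := Fact.out
  have hAC : A ≤ Subgroup.centralizer (A : Set G) := by
    have h : (R : Subgroup G) ⊓ Subgroup.centralizer (A : Set G) ≤
        Subgroup.centralizer (A : Set G) := inf_le_right
    rwa [hC] at h
  have hAp : IsPGroup p A := R.2.to_le hAR
  -- the centraliser is normal in the normaliser
  have hCN : Subgroup.centralizer (A : Set G) ≤ Subgroup.normalizer (A : Set G) :=
    Subgroup.centralizer_le_normalizer _
  have hTn : ((Subgroup.centralizer (A : Set G)).subgroupOf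
      (Subgroup.normalizer (A : Set G))).Normal := by
    constructor
    intro c hc n
    rw [Subgroup.mem_subgroupOf] at hc ⊢
    rw [Subgroup.mem_centralizer_iff] at hc ⊢
    intro a ha
    have ha' : (n : G)⁻¹ * a * (n : G) ∈ A :=
      (Subgroup.mem_normalizer_iff''.mp n.2 a).mp ha
    have h1 := hc _ ha'
    show a * ((n : G) * (c : G) * (n : G)⁻¹) = (n : G) * (c : G) * (n : G)⁻¹ * a
    calc a * ((n : G) * (c : G) * (n : G)⁻¹)
        = (n : G) * (((n : G)⁻¹ * a * (n : G)) * (c : G)) * (n : G)⁻¹ := by group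
      _ = (n : G) * ((c : G) * ((n : G)⁻¹ * a * (n : G))) * (n : G)⁻¹ := by rw [h1]
      _ = (n : G) * (c : G) * (n : G)⁻¹ * a := by group
  have hnd : ¬ p ∣ (A.subgroupOf (Subgroup.centralizer (A : Set G))).index := by
    have h1 := Cfsg.Agent.Helper20.sylow_inf_normal_not_dvd (R.subtype hAn)
      ((Subgroup.centralizer (A : Set G)).subgroupOf (Subgroup.normalizer (A : Set G)))
    rw [Sylow.coe_subtype] at h1
    have e : (R : Subgroup G).subgroupOf (Subgroup.normalizer (A : Set G)) ⊓
        (Subgroup.centralizer (A : Set G)).subgroupOf (Subgroup.normalizer (A : Set G)) =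
        ((R : Subgroup G) ⊓ Subgroup.centralizer (A : Set G)).subgroupOf
          (Subgroup.normalizer (A : Set G)) := (Subgroup.comap_inf _ _ _).symm
    rw [e, Subgroup.relIndex_subgroupOf hCN, hC] at h1
    exact h1
  have hS' : IsPGroup p (A.subgroupOf (Subgroup.centralizer (A : Set G))) := hAp.comap_subtype
  obtain ⟨S, hSdef⟩ : ∃ S : Sylow p (Subgroup.centralizer (A : Set G)),
      (S : Subgroup (Subgroup.centralizer (A : Set G))) =
        A.subgroupOf (Subgroup.centralizer (A : Set G)) := ⟨hS'.toSylow hnd, rfl⟩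
  have hcent : Subgroup.normalizer ((S : Subgroup (Subgroup.centralizer (A : Set G))) :
      Set (Subgroup.centralizer (A : Set G))) ≤
      Subgroup.centralizer ((S : Subgroup (Subgroup.centralizer (A : Set G))) :
      Set (Subgroup.centralizer (A : Set G))) := by
    intro c _
    rw [Subgroup.mem_centralizer_iff]
    intro a ha
    rw [SetLike.mem_coe, hSdef, Subgroup.mem_subgroupOf] at ha
    exact Subtype.ext (Subgroup.mem_centralizer_iff.mp c.2 (a : G) ha)
  obtain ⟨K, hKn, hKc⟩ := (Cfsg.Agent.Lead.hasNormalPComplement_iff S).mp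
    (Cfsg.Agent.Lead.burnside_npc S hcent)
  have hSmap : (S : Subgroup (Subgroup.centralizer (A : Set G))).map
      (Subgroup.centralizer (A : Set G)).subtype = A := by
    rw [hSdef]; exact Subgroup.map_subgroupOf_eq_of_le hAC
  refine ⟨K.map (Subgroup.centralizer (A : Set G)).subtype, ?_, ?_, ?_, ?_, ?_⟩
  · exact Subgroup.map_subtype_le _
  · rw [Subgroup.card_map_of_injective (Subgroup.subtype_injective _)]
    have h1 : Nat.card K = (S : Subgroup (Subgroup.centralizer (A : Set G))).index := hKc.card_left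
    rw [h1]
    exact ((Nat.Prime.coprime_iff_not_dvd hp).mpr S.not_dvd_index).symm
  · intro c hc
    apply Subgroup.mem_normalizer_fintype
    rintro _ ⟨k, hk, rfl⟩
    exact ⟨⟨c, hc⟩ * k * ⟨c, hc⟩⁻¹, hKn.conj_mem k hk ⟨c, hc⟩, rfl⟩
  · rw [eq_bot_iff]
    rintro _ ⟨⟨k, hk, rfl⟩, hkA⟩
    have hkS : k ∈ (S : Subgroup (Subgroup.centralizer (A : Set G))) := by
      rw [hSdef, Subgroup.mem_subgroupOf]; exact hkA
    have hk1 : k ∈ K ⊓ (S : Subgroup (Subgroup.centralizer (A : Set G))) := ⟨hk, hkS⟩
    rw [hKc.disjoint.eq_bot, Subgroup.mem_bot] at hk1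
    rw [Subgroup.mem_bot, hk1]; rfl
  · have h1 : K ⊔ (S : Subgroup (Subgroup.centralizer (A : Set G))) = ⊤ := hKc.sup_eq_top
    have h2 := congrArg (Subgroup.map (Subgroup.centralizer (A : Set G)).subtype) h1
    rw [Subgroup.map_sup, hSmap, ← MonoidHom.range_eq_map, Subgroup.range_subtype] at h2
    exact h2

end Cfsg.Agent.S0125
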