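import Cfsg.Statements.S0129
-- import your own Cfsg.Agent.* helpers here
import Cfsg.Agent.Helper24.NormalCenter

set_option autoImplicit false
open Cfsg

namespace Cfsg.Agent.S0129

open Cfsg.Agent.Helper24

/-- The order of a p-group is bounded by p^(a(a+1)/2) when it has a maximal normal abelian subgroup of order p^a. -/
theorem result {G : Type*} [Group G] [Finite G] {p : ℕ} [Fact p.Prime] (hG : IsPGroup p G) (A : Subgroup G) [A.Normal] (hA : IsMulCommutative A) (hmax : ∀ B : Subgroup G, B.Normal → IsMulCommutative B → A ≤ B → B = A) (a : ℕ) (ha : Nat.card A = p ^ a) : Nat.card G ≤ p ^ (a * (a + 1) / 2) := by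
  have hpp : p.Prime := Fact.out
  haveI : Group.IsNilpotent G := hG.isNilpotent
  have hC := centralizer_eq_of_maximal_normal_abelian A hA hmax
  have hidx := index_centralizer_le_of_normal hG a A inferInstance ha
  rw [hC] at hidx
  have h1 := Subgroup.card_mul_index A
  rw [← h1, ha]
  calc p ^ a * A.index ≤ p ^ a * p ^ (a.choose 2) := Nat.mul_le_mul_left _ hidx
    _ = p ^ ((a + 1).choose 2) := by
        rw [← pow_add]; congr 1; rw [Nat.choose_succ_succ' a 1, Nat.choose_one_right]
    _ = p ^ (a * (a + 1) / 2) := by
        rw [Nat.choose_two_right, Nat.add_sub_cancel, mul_comm]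

end Cfsg.Agent.S0129
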