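import Cfsg.Statements.S0131
import Cfsg.Agent.Lead.AbelianSylow

set_option autoImplicit false
open Cfsg

namespace Cfsg.Agent.S0131

open scoped commutatorElement in
theorem aux {G : Type*} [Group G] [Finite G] {p : ℕ} [Fact p.Prime] (P : Sylow p G) :
    (∃ N : Subgroup G, N.Normal ∧ N ⊓ (P : Subgroup G) = ⁅(P : Subgroup G), (P : Subgroup G)⁆ ∧
      N ⊔ (P : Subgroup G) = ⊤) ↔
    commutator G ⊓ (P : Subgroup G) = ⁅(P : Subgroup G), (P : Subgroup G)⁆ := by
  constructor
  · rintro ⟨N, hN, hNP, hsup⟩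
    apply le_antisymm
    · have hcomm : commutator G ≤ N := by
        rw [← Subgroup.Normal.quotient_commutative_iff_commutator_le]
        refine ⟨⟨fun a b => ?_⟩⟩
        obtain ⟨a, rfl⟩ := QuotientGroup.mk_surjective a
        obtain ⟨b, rfl⟩ := QuotientGroup.mk_surjective b
        have ha : a ∈ N ⊔ (P : Subgroup G) := hsup ▸ Subgroup.mem_top a
        have hb : b ∈ N ⊔ (P : Subgroup G) := hsup ▸ Subgroup.mem_top b
        rw [← SetLike.mem_coe, Subgroup.normal_mul] at ha hb
        obtain ⟨n1, hn1, x1, hx1, rfl⟩ := Set.mem_mul.mp ha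
        obtain ⟨n2, hn2, x2, hx2, rfl⟩ := Set.mem_mul.mp hb
        have e1 : (QuotientGroup.mk (n1 * x1) : G ⧸ N) = QuotientGroup.mk x1 := by
          rw [QuotientGroup.mk_mul, (QuotientGroup.eq_one_iff n1).mpr hn1, one_mul]
        have e2 : (QuotientGroup.mk (n2 * x2) : G ⧸ N) = QuotientGroup.mk x2 := by
          rw [QuotientGroup.mk_mul, (QuotientGroup.eq_one_iff n2).mpr hn2, one_mul]
        rw [e1, e2, ← QuotientGroup.mk_mul, ← QuotientGroup.mk_mul, QuotientGroup.eq]
        have h0 : (x1 * x2)⁻¹ * (x2 * x1) = ⁅x2⁻¹, x1⁻¹⁆ := by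
          rw [commutatorElement_def]; group
        rw [h0]
        have h3 : ⁅x2⁻¹, x1⁻¹⁆ ∈ ⁅(P : Subgroup G), (P : Subgroup G)⁆ :=
          Subgroup.commutator_mem_commutator (inv_mem hx2) (inv_mem hx1)
        rw [← hNP] at h3
        exact h3.1
      calc commutator G ⊓ (P : Subgroup G) ≤ N ⊓ (P : Subgroup G) := inf_le_inf_right _ hcomm
        _ = ⁅(P : Subgroup G), (P : Subgroup G)⁆ := hNP
    · refine le_inf (Subgroup.commutator_mono le_top le_top) ?_
      rw [Subgroup.commutator_le]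
      intro a ha b hb
      exact mul_mem (mul_mem (mul_mem ha hb) (inv_mem ha)) (inv_mem hb)
  · intro hcp
    have hcop : Nat.Coprime (P : Subgroup G).index
        (Nat.card ((P : Subgroup G) ⧸ (P : Subgroup G).focalSubgroupOf)) := by
      have hq : IsPGroup p ((P : Subgroup G) ⧸ (P : Subgroup G).focalSubgroupOf) :=
        P.2.to_quotient _
      obtain ⟨n, hn⟩ := IsPGroup.iff_card.mp hq
      rw [hn]
      exact Nat.Coprime.pow_right n
        ((Nat.Prime.coprime_iff_not_dvd Fact.out).mpr P.not_dvd_index).symm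
    obtain ⟨ha, hb, hc⟩ := Cfsg.Agent.Lead.focal_general (P : Subgroup G) hcop
    exact ⟨_, inferInstance, by rw [ha, ← hc, hcp], hb⟩


/-- P/P' has a normal complement in G exactly when the focal subgroup G' ∩ P is as small as possible, namely P'. -/
theorem result {G : Type*} [Group G] [Finite G] {p : ℕ} [Fact p.Prime] (P : Sylow p G) : (∃ N : Subgroup G, N.Normal ∧ N ⊓ (P : Subgroup G) = ⁅(P : Subgroup G), (P : Subgroup G)⁆ ∧ N ⊔ (P : Subgroup G) = ⊤) ↔ commutator G ⊓ (P : Subgroup G) = ⁅(P : Subgroup G), (P : Subgroup G)⁆ := by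
  exact aux P

end Cfsg.Agent.S0131
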