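import Cfsg.Statements.S0132
import Cfsg.Agent.Lead.Frobenius

set_option autoImplicit false
open Cfsg

namespace Cfsg.Agent.S0132

open scoped commutatorElement


/-- A minimal non-p-nilpotent finite group is a minimal non-nilpotent group with a normal Sylow p-subgroup. -/
theorem result {G : Type*} [Group G] [Finite G] {p : ℕ} [Fact p.Prime] (h1 : ¬ Cfsg.HasNormalPComplement p G) (h2 : ∀ H : Subgroup G, H ≠ ⊤ → Cfsg.HasNormalPComplement p H) : (∀ H : Subgroup G, H ≠ ⊤ → Group.IsNilpotent H) ∧ ¬ Group.IsNilpotent G ∧ ∀ P : Sylow p G, (P : Subgroup G).Normal := by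
  classical
  have hp : p.Prime := Fact.out
  have hnF : ¬ Cfsg.Agent.Lead.FrobHyp p G := by
    intro hF
    obtain ⟨P⟩ : Nonempty (Sylow p G) := inferInstance
    obtain ⟨K, hK, hKc⟩ := Cfsg.Agent.Lead.frobenius_npc hF P
    exact h1 ⟨P, K, hK, hKc⟩
  unfold Cfsg.Agent.Lead.FrobHyp at hnF
  push Not at hnF
  obtain ⟨X, hX, g, hgN, hgcop, hgC⟩ := hnF
  have htop : X ⊔ Subgroup.zpowers g = ⊤ := by
    by_contra hne
    obtain ⟨PH, K, hK, hKc⟩ := h2 _ hne
    have hFH := Cfsg.Agent.Lead.frobHyp_of_npc PH K hKc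
    exact hgC (Cfsg.Agent.Lead.FrobHyp.apply_of_subgroup _ hFH X hX le_sup_left g
      (le_sup_right (a := X) (Subgroup.mem_zpowers g)) hgN hgcop)
  have hXn : X.Normal := by
    rw [← Subgroup.normalizer_eq_top_iff, eq_top_iff, ← htop]
    exact sup_le Subgroup.le_normalizer (Subgroup.zpowers_le.mpr hgN)
  have hidx : (X.index).Coprime p := by
    have e1 : X.index = X.relIndex (Subgroup.zpowers g) := by
      rw [← Subgroup.relIndex_top_right, ← htop, Subgroup.relIndex_sup_left]
    have e2 : X.relIndex (Subgroup.zpowers g) ∣ orderOf g := by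
      rw [← Nat.card_zpowers]; exact Subgroup.relIndex_dvd_card _ _
    rw [e1]
    exact Nat.Coprime.coprime_dvd_left e2 hgcop
  have hXall : ∀ (y : G) (k : ℕ), y ^ p ^ k = 1 → y ∈ X := by
    intro y k hy
    have h3 : orderOf (QuotientGroup.mk y : G ⧸ X) ∣ p ^ k := by
      apply orderOf_dvd_of_pow_eq_one
      rw [← QuotientGroup.mk_pow, hy]; rfl
    have h4 : orderOf (QuotientGroup.mk y : G ⧸ X) ∣ X.index := by
      rw [Subgroup.index_eq_card]; exact orderOf_dvd_natCard _
    have h5 : orderOf (QuotientGroup.mk y : G ⧸ X) = 1 :=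
      Nat.Coprime.eq_one_of_dvd (Nat.Coprime.coprime_dvd_left h4 (hidx.pow_right k)) h3
    rw [orderOf_eq_one_iff] at h5
    exact (QuotientGroup.eq_one_iff y).mp h5
  have hSyl : ∀ P : Sylow p G, (P : Subgroup G) = X := by
    intro P
    have hle : (P : Subgroup G) ≤ X := by
      intro y hy
      obtain ⟨k, hk⟩ := P.2 ⟨y, hy⟩
      exact hXall y k (by simpa using congrArg Subtype.val hk)
    exact (P.3 hX hle).symm
  have hcomm : commutator G ≤ X := by
    have hgen : ∀ y : G ⧸ X, y ∈ Subgroup.zpowers (QuotientGroup.mk g : G ⧸ X) := by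
      intro y
      have hmap : (X ⊔ Subgroup.zpowers g).map (QuotientGroup.mk' X) = ⊤ := by
        rw [htop]; exact Subgroup.map_top_of_surjective _ (QuotientGroup.mk'_surjective X)
      rw [Subgroup.map_sup, QuotientGroup.map_mk'_self, bot_sup_eq, MonoidHom.map_zpowers] at hmap
      have hy : y ∈ (⊤ : Subgroup (G ⧸ X)) := trivial
      rw [← hmap] at hy
      exact hy
    have hcyc : IsCyclic (G ⧸ X) := ⟨⟨_, hgen⟩⟩
    let _ : CommGroup (G ⧸ X) := IsCyclic.commGroup
    have := Abelianization.commutator_subset_ker (QuotientGroup.mk' X)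
    rwa [QuotientGroup.ker_mk'] at this
  refine ⟨?_, ?_, ?_⟩
  · intro H hH
    obtain ⟨PH, K, hK, hKc⟩ := h2 H hH
    have hKmem : ∀ x : H, x ∈ K ↔ (orderOf x).Coprime p :=
      fun x => Cfsg.Agent.S0086.result PH K hKc x
    have hcentral : ∀ x : H, x ∈ K → ∀ h : H, h * x * h⁻¹ = x := by
      intro x hx h
      have h3 : h * x * h⁻¹ * x⁻¹ ∈ K := mul_mem (hK.conj_mem x hx h) (inv_mem hx)
      have h4 : ((h * x * h⁻¹ * x⁻¹ : H) : G) ∈ X := by
        apply hcomm
        have : ((h * x * h⁻¹ * x⁻¹ : H) : G) = ⁅(h : G), (x : G)⁆ := by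
          rw [commutatorElement_def]; simp
        rw [this]
        exact Subgroup.commutator_mem_commutator (Subgroup.mem_top _) (Subgroup.mem_top _)
      have h5 : (orderOf (h * x * h⁻¹ * x⁻¹)).Coprime p := (hKmem _).mp h3
      obtain ⟨k, hk⟩ := hX ⟨_, h4⟩
      have h6 : (h * x * h⁻¹ * x⁻¹) ^ p ^ k = 1 := by
        apply Subtype.ext
        have := congrArg Subtype.val hk
        simpa using this
      have h7 : orderOf (h * x * h⁻¹ * x⁻¹) = 1 :=
        Nat.Coprime.eq_one_of_dvd (h5.pow_right k) (orderOf_dvd_of_pow_eq_one h6)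
      rw [orderOf_eq_one_iff] at h7
      calc h * x * h⁻¹ = (h * x * h⁻¹ * x⁻¹) * x := by group
        _ = x := by rw [h7, one_mul]
    have hall : ∀ (r : ℕ) (_hr : Fact r.Prime) (R : Sylow r H), (R : Subgroup H).Normal := by
      intro r hr R
      by_cases hrp : r = p
      · subst hrp
        have hA : IsPGroup r (X.subgroupOf H) := hX.comap_subtype
        have hRA : (R : Subgroup H) = X.subgroupOf H := by
          apply le_antisymm
          · intro y hy
            obtain ⟨k, hk⟩ := R.2 ⟨y, hy⟩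
            rw [Subgroup.mem_subgroupOf]
            apply hXall (y : G) k
            have := congrArg Subtype.val (congrArg Subtype.val hk)
            simpa using this
          · have h3 : IsPGroup r ((R : Subgroup H) ⊔ X.subgroupOf H : Subgroup H) :=
              R.2.to_sup_of_normal_right hA
            have h4 := R.3 h3 le_sup_left
            rw [← h4]; exact le_sup_right
        rw [hRA]; infer_instance
      · constructor
        intro n hn h
        have hnK : n ∈ K := by
          rw [hKmem]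
          obtain ⟨k, hk⟩ := R.2 ⟨n, hn⟩
          have h3 : n ^ r ^ k = 1 := by simpa using congrArg Subtype.val hk
          have h4 : orderOf n ∣ r ^ k := orderOf_dvd_of_pow_eq_one h3
          have h5 : (r ^ k).Coprime p :=
            Nat.Coprime.pow_left k ((Nat.coprime_primes hr.1 hp).mpr hrp)
          exact Nat.Coprime.coprime_dvd_left h4 h5
        rw [hcentral n hnK h]; exact hn
    exact ((Group.isNilpotent_of_finite_tfae (G := H)).out 0 3).mpr hall
  · intro hnil
    apply hgC
    have hCn : (Subgroup.centralizer (X : Set G)).Normal := Subgroup.normal_centralizer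
    have hSylC : ∀ (q : ℕ) [Fact q.Prime], q ≠ p → ∀ Q : Sylow q G,
        (Q : Subgroup G) ≤ Subgroup.centralizer (X : Set G) := by
      intro q _ hq Q y hy
      have hQn : (Q : Subgroup G).Normal := inferInstance
      rw [Subgroup.mem_centralizer_iff]
      intro x hx
      have hdis : Disjoint X (Q : Subgroup G) :=
        IsPGroup.disjoint_of_ne p q (Ne.symm hq) X (Q : Subgroup G) hX Q.2
      exact (Subgroup.commute_of_normal_of_disjoint X (Q : Subgroup G) hXn hQn hdis x y hx hy).eq
    have hnd : ∀ q : ℕ, q.Prime → q ∣ (Subgroup.centralizer (X : Set G)).index → q = p := by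
      intro q hq hdvd
      by_contra hne
      have : Fact q.Prime := ⟨hq⟩
      obtain ⟨Q⟩ : Nonempty (Sylow q G) := inferInstance
      have h3 := Subgroup.index_dvd_of_le (hSylC q hne Q)
      exact Q.not_dvd_index (hdvd.trans h3)
    obtain ⟨e, hpow⟩ : ∃ e, (Subgroup.centralizer (X : Set G)).index = p ^ e :=
      ⟨_, Nat.eq_prime_pow_of_unique_prime_dvd Subgroup.index_ne_zero_of_finite
        (fun {d} hd hdv => hnd d hd hdv)⟩
    have h3 : orderOf (QuotientGroup.mk g : G ⧸ Subgroup.centralizer (X : Set G)) ∣ orderOf g :=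
      orderOf_dvd_of_pow_eq_one (by rw [← QuotientGroup.mk_pow, pow_orderOf_eq_one]; rfl)
    have h4 : orderOf (QuotientGroup.mk g : G ⧸ Subgroup.centralizer (X : Set G)) ∣ p ^ e := by
      rw [← hpow, Subgroup.index_eq_card]; exact orderOf_dvd_natCard _
    have h5 : orderOf (QuotientGroup.mk g : G ⧸ Subgroup.centralizer (X : Set G)) = 1 :=
      Nat.Coprime.eq_one_of_dvd (Nat.Coprime.coprime_dvd_left h3 (hgcop.pow_right e)) h4
    rw [orderOf_eq_one_iff] at h5
    exact (QuotientGroup.eq_one_iff g).mp h5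
  · intro P
    rw [hSyl P]; exact hXn

end Cfsg.Agent.S0132
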