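import Cfsg.Statements.S0134
import Mathlib
import Cfsg.Agent.Helper2.CharOrtho

set_option autoImplicit false
open Cfsg

namespace Cfsg.Agent.S0134

/-- The sum of the squares of the degrees of the irreducible complex characters of a finite group is the order of the group. -/
theorem result {G : Type*} [Group G] [Finite G] : ∑ᶠ χ : Cfsg.IrrCharacter G, (χ : G → ℂ) 1 ^ 2 = (Nat.card G : ℂ) := by
  classical
  have := Fintype.ofFinite G
  have hfin := Cfsg.Agent.Helper24.finite_irrCharacter (G := G)
  have := Fintype.ofFinite (IrrCharacter G)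
  rw [finsum_eq_sum_of_fintype]
  have h := Cfsg.Agent.Helper2.second_orthogonality (G := G) 1 1
  rw [if_pos (IsConj.refl _)] at h
  have hc : Nat.card (Subgroup.centralizer ({(1:G)} : Set G)) = Nat.card G := by
    have h1 : Subgroup.centralizer ({(1:G)} : Set G) = ⊤ := by
      rw [eq_top_iff]
      intro x _
      rw [Subgroup.mem_centralizer_iff]
      intro y hy
      rw [Set.mem_singleton_iff] at hy
      subst hy
      simp
    rw [h1]
    exact Subgroup.card_top
  rw [hc] at h
  rw [← h]
  refine Finset.sum_congr rfl fun χ _ => ?_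
  have h1 := Cfsg.Agent.Helper24.charDegree_spec (Cfsg.Agent.Helper24.isCharacter_of_irr χ.2)
  rw [h1, map_natCast, sq]

end Cfsg.Agent.S0134
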