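import Cfsg.Statements.S0136
import Mathlib
import Cfsg.Agent.Helper2.CharOrtho

set_option autoImplicit false
open Cfsg

namespace Cfsg.Agent.S0136

/-- Two elements of a finite group are conjugate if and only if no irreducible complex character separates them. -/
theorem result {G : Type*} [Group G] [Finite G] (g h : G) : IsConj g h ↔ ∀ χ : Cfsg.IrrCharacter G, (χ : G → ℂ) g = (χ : G → ℂ) h := by
  classical
  have := Fintype.ofFinite G
  have hfin := Cfsg.Agent.Helper24.finite_irrCharacter (G := G)
  have := Fintype.ofFinite (IrrCharacter G)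
  constructor
  · intro hc χ
    exact Cfsg.Agent.Helper2.IsClassFunction.apply_eq_of_isConj
      (Cfsg.Agent.Helper2.IsIrrCharacter.isClassFunction χ.2) hc
  · intro hall
    by_contra hnc
    have h1 := Cfsg.Agent.Helper2.second_orthogonality (G := G) g h
    have h2 := Cfsg.Agent.Helper2.second_orthogonality (G := G) h h
    rw [if_neg hnc] at h1
    rw [if_pos (IsConj.refl _)] at h2
    have h3 : (Nat.card (Subgroup.centralizer ({h} : Set G)) : ℂ) = 0 := by
      rw [← h2, ← h1]
      refine Finset.sum_congr rfl fun χ _ => ?_
      rw [hall χ]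
    have hpos : 0 < Nat.card (Subgroup.centralizer ({h} : Set G)) := Nat.card_pos
    exact hpos.ne' (by exact_mod_cast h3)

end Cfsg.Agent.S0136
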