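import Cfsg.Agent.Helper2.CharBound
import Cfsg.Statements.S0138
-- import your own Cfsg.Agent.* helpers here

set_option autoImplicit false
open Cfsg

namespace Cfsg.Agent.S0138

/-- A character value has absolute value equal to the degree exactly when the group element acts by a scalar. -/
theorem result {G : Type*} [Group G] [Finite G] {V : Type*} [AddCommGroup V] [Module ℂ V] [FiniteDimensional ℂ V] (ρ : Representation ℂ G V) (g : G) : ‖ρ.character g‖ = (Module.finrank ℂ V : ℝ) ↔ ∃ ω : ℂ, ρ g = ω • (LinearMap.id : V →ₗ[ℂ] V) := by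
  constructor
  · intro h
    obtain ⟨ω, hω, -⟩ := Helper2.character_scalar_of_norm_eq ρ g h
    exact ⟨ω, hω⟩
  · rintro ⟨ω, hω⟩
    have htr : ρ.character g = ω * (Module.finrank ℂ V : ℂ) := by
      show LinearMap.trace ℂ V (ρ g) = _
      rw [hω, map_smul, LinearMap.trace_id, smul_eq_mul]
    by_cases hn0 : Module.finrank ℂ V = 0
    · rw [htr, hn0]; simp
    · have hN : 0 < Nat.card G := Nat.card_pos
      have h1 := Helper2.rep_pow_card ρ g
      rw [hω] at h1
      have h2 : (ω • (LinearMap.id : V →ₗ[ℂ] V)) ^ Nat.card G = ω ^ Nat.card G • (1 : Module.End ℂ V) := by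
        rw [← Module.End.one_eq_id, smul_pow, one_pow]
      rw [h2] at h1
      have h3 := congrArg (LinearMap.trace ℂ V) h1
      rw [map_smul, LinearMap.trace_one, smul_eq_mul] at h3
      have hnC : (Module.finrank ℂ V : ℂ) ≠ 0 := by exact_mod_cast hn0
      have h4 : ω ^ Nat.card G = 1 := by
        have := mul_right_cancel₀ hnC (h3.trans (one_mul _).symm)
        exact this
      have h5 : ‖ω‖ = 1 := by
        have : ‖ω‖ ^ Nat.card G = 1 := by rw [← norm_pow, h4, norm_one]
        exact (pow_eq_one_iff_of_nonneg (norm_nonneg ω) hN.ne').1 this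
      rw [htr, norm_mul, h5, one_mul, Complex.norm_natCast]

end Cfsg.Agent.S0138
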