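import Cfsg.Agent.Helper2.CharBound
import Cfsg.Statements.S0139
-- import your own Cfsg.Agent.* helpers here

set_option autoImplicit false
open Cfsg

namespace Cfsg.Agent.S0139

/-- The kernel of a complex representation of a finite group is the set of elements where the character equals the degree. -/
theorem result {G : Type*} [Group G] [Finite G] {V : Type*} [AddCommGroup V] [Module ℂ V] [FiniteDimensional ℂ V] (ρ : Representation ℂ G V) (g : G) : ρ.character g = (Module.finrank ℂ V : ℂ) ↔ ρ g = LinearMap.id := by
  constructor
  · intro h
    have hnorm : ‖ρ.character g‖ = (Module.finrank ℂ V : ℝ) := by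
      rw [h, Complex.norm_natCast]
    obtain ⟨ω, hω, hω2⟩ := Helper2.character_scalar_of_norm_eq ρ g hnorm
    by_cases hn0 : Module.finrank ℂ V = 0
    · have : Subsingleton V := Module.finrank_zero_iff.1 hn0
      exact Subsingleton.elim _ _
    · have hnC : (Module.finrank ℂ V : ℂ) ≠ 0 := by exact_mod_cast hn0
      rw [h] at hω2
      have : ω = 1 := mul_left_cancel₀ hnC (hω2.trans (mul_one _).symm)
      rw [hω, this, one_smul]
      rfl
  · intro h
    show LinearMap.trace ℂ V (ρ g) = _
    rw [h, LinearMap.trace_id]

end Cfsg.Agent.S0139
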