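import Cfsg.Agent.Helper2.IndFun
import Cfsg.Statements.S0147
-- import your own Cfsg.Agent.* helpers here

set_option autoImplicit false
open Cfsg

namespace Cfsg.Agent.S0147

/-- Transitivity of induction: inducing from H to K and then from K to G is the same as inducing from H to G. -/
theorem result {G : Type*} [Group G] [Fintype G] (H K : Subgroup G) [Fintype K] (hHK : H ≤ K) (θ : H → ℂ) : Cfsg.indFun K (Cfsg.indFun (H.subgroupOf K) (fun x => θ ⟨(x : K), Subgroup.mem_subgroupOf.mp x.2⟩)) = Cfsg.indFun H θ := by
  classical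
  have hK0 : (Nat.card K : ℂ) ≠ 0 := by exact_mod_cast Nat.card_pos.ne'
  have hcard : Nat.card (H.subgroupOf K) = Nat.card H :=
    Nat.card_congr (Subgroup.subgroupOfEquivOfLe hHK).toEquiv
  -- the inner extension by zero agrees with the outer one
  have hext : ∀ k : K, extendByZero (H.subgroupOf K)
      (fun x => θ ⟨(x : K), Subgroup.mem_subgroupOf.mp x.2⟩) k = extendByZero H θ (k : G) := by
    intro k
    by_cases hk : (k : G) ∈ H
    · rw [Helper2.extendByZero_apply_mem H θ hk,
        Helper2.extendByZero_apply_mem (H.subgroupOf K) _ (Subgroup.mem_subgroupOf.2 hk)]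
    · rw [Helper2.extendByZero_apply_not_mem H θ hk,
        Helper2.extendByZero_apply_not_mem (H.subgroupOf K) _ (fun h => hk (Subgroup.mem_subgroupOf.1 h))]
  have hunif : ∀ u : G, extendByZero K (indFun (H.subgroupOf K)
      (fun x => θ ⟨(x : K), Subgroup.mem_subgroupOf.mp x.2⟩)) u =
      (Nat.card H : ℂ)⁻¹ * ∑ y : K, extendByZero H θ ((y : G)⁻¹ * u * (y : G)) := by
    intro u
    by_cases hu : u ∈ K
    · rw [Helper2.extendByZero_apply_mem K _ hu, Helper2.indFun_apply, hcard]
      congr 1
      refine Finset.sum_congr rfl fun y _ => ?_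
      rw [hext]
      rfl
    · rw [Helper2.extendByZero_apply_not_mem K _ hu]
      have : ∀ y : K, extendByZero H θ ((y : G)⁻¹ * u * (y : G)) = 0 := by
        intro y
        apply Helper2.extendByZero_apply_not_mem
        intro h
        apply hu
        have h1 := hHK h
        have h2 : u = (y : G) * ((y : G)⁻¹ * u * (y : G)) * (y : G)⁻¹ := by group
        rw [h2]
        exact K.mul_mem (K.mul_mem y.2 h1) (K.inv_mem y.2)
      rw [Finset.sum_congr rfl (fun y _ => this y), Finset.sum_const_zero, mul_zero]
  funext g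
  rw [Helper2.indFun_apply, Helper2.indFun_apply]
  simp only [hunif]
  rw [← Finset.mul_sum, Finset.sum_comm]
  have hy : ∀ y : K, ∑ x : G, extendByZero H θ ((y : G)⁻¹ * (x⁻¹ * g * x) * (y : G)) =
      ∑ z : G, extendByZero H θ (z⁻¹ * g * z) := by
    intro y
    rw [← Equiv.sum_comp (Equiv.mulRight (y : G)) (fun z => extendByZero H θ (z⁻¹ * g * z))]
    refine Finset.sum_congr rfl fun x _ => ?_
    congr 1
    simp only [Equiv.coe_mulRight]
    group
  rw [Finset.sum_congr rfl (fun y _ => hy y), Finset.sum_const, Finset.card_univ, nsmul_eq_mul,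
    ← Nat.card_eq_fintype_card]
  field_simp

end Cfsg.Agent.S0147
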