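import Cfsg.Agent.Helper2.IndFun
import Cfsg.Statements.S0149
-- import your own Cfsg.Agent.* helpers here

set_option autoImplicit false
open Cfsg

namespace Cfsg.Agent.S0149

/-- Let T be a subset of G meeting each of its conjugates by elements outside its normalizer N only in the identity, and let ψ be a class function of N vanishing on N away from T. Then the function induced from ψ agrees with ψ at every non-identity element of T. -/
theorem result {G : Type*} [Group G] [Fintype G] (T : Set G) (hTI : ∀ g : G, g ∉ Subgroup.normalizer T → ∀ t ∈ T, g * t * g⁻¹ ∈ T → t = 1) (hTN : T ⊆ Subgroup.normalizer T) (ψ : Subgroup.normalizer T → ℂ) (hψ : Cfsg.IsClassFunction (Subgroup.normalizer T) ψ) (hψT : ∀ x : Subgroup.normalizer T, (x : G) ∉ T → ψ x = 0) (t : Subgroup.normalizer T) (htT : (t : G) ∈ T) (ht1 : t ≠ 1) : Cfsg.indFun (Subgroup.normalizer T) ψ t = ψ t := by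
  classical
  have := Fintype.ofFinite (Subgroup.normalizer T)
  rw [Helper2.indFun_apply]
  have hN0 : (Nat.card (Subgroup.normalizer T) : ℂ) ≠ 0 := by exact_mod_cast Nat.card_pos.ne'
  have ht1' : (t : G) ≠ 1 := fun h => ht1 (Subtype.ext h)
  have key : ∀ x : G, extendByZero (Subgroup.normalizer T) ψ (x⁻¹ * (t : G) * x) =
      if x ∈ Subgroup.normalizer T then ψ t else 0 := by
    intro x
    by_cases hx : x ∈ Subgroup.normalizer T
    · rw [if_pos hx]
      have hmem : x⁻¹ * (t : G) * x ∈ Subgroup.normalizer T :=
        Subgroup.mul_mem _ (Subgroup.mul_mem _ (Subgroup.inv_mem _ hx) t.2) hx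
      rw [Helper2.extendByZero_apply_mem _ ψ hmem]
      have h := hψ t (⟨x, hx⟩ : Subgroup.normalizer T)⁻¹
      rw [← h]
      congr 1
      apply Subtype.ext
      simp
    · rw [if_neg hx]
      by_cases hmem : x⁻¹ * (t : G) * x ∈ Subgroup.normalizer T
      · rw [Helper2.extendByZero_apply_mem _ ψ hmem]
        apply hψT
        intro hT
        apply ht1'
        have hx' : x⁻¹ ∉ Subgroup.normalizer T := fun h => hx (by simpa using Subgroup.inv_mem _ h)
        exact hTI x⁻¹ hx' t htT (by simpa using hT)
      · exact Helper2.extendByZero_apply_not_mem _ ψ hmem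
  rw [Finset.sum_congr rfl fun x _ => key x, ← Finset.sum_filter, Finset.sum_const,
    ← Fintype.card_subtype, nsmul_eq_mul]
  have hc : (Fintype.card {x : G // x ∈ Subgroup.normalizer T} : ℂ) =
      (Nat.card (Subgroup.normalizer T) : ℂ) := by
    rw [Nat.card_eq_fintype_card]
  rw [hc, ← mul_assoc, inv_mul_cancel₀ hN0, one_mul]

end Cfsg.Agent.S0149
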