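import Cfsg.Agent.Helper2.CharLinear
import Cfsg.Agent.Helper24.LinearChar
import Cfsg.Statements.S0154
-- import your own Cfsg.Agent.* helpers here

set_option autoImplicit false
open Cfsg

namespace Cfsg.Agent.S0154

/-- A finite group has exactly as many irreducible complex characters of degree 1 as the index of its commutator subgroup. -/
theorem result {G : Type*} [Group G] [Finite G] : Nat.card {χ : Cfsg.IrrCharacter G // (χ : G → ℂ) 1 = 1} = (commutator G).index := by
  classical
  have := Helper24.finite_irrCharacter (G := G)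
  apply le_antisymm Helper24.card_linear_le_index
  have hidx : (commutator G).index = Nat.card (Abelianization G →* ℂˣ) := by
    rw [CommGroup.card_monoidHom_of_hasEnoughRootsOfUnity, Subgroup.index_eq_card]
    rfl
  rw [hidx]
  have hfin : Finite (Abelianization G →* ℂˣ) := by
    apply Nat.finite_of_card_ne_zero
    rw [CommGroup.card_monoidHom_of_hasEnoughRootsOfUnity]
    exact Nat.card_pos.ne'
  let F : (Abelianization G →* ℂˣ) → {χ : Cfsg.IrrCharacter G // (χ : G → ℂ) 1 = 1} := fun f =>
    ⟨⟨fun g => ((f.comp Abelianization.of g : ℂˣ) : ℂ),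
      Helper2.isIrrCharacter_of_hom (f.comp Abelianization.of)⟩, by simp⟩
  apply Nat.card_le_card_of_injective F
  intro f f' h
  have h1 : ∀ g : G, ((f (Abelianization.of g) : ℂˣ) : ℂ) = ((f' (Abelianization.of g) : ℂˣ) : ℂ) :=
    fun g => congrFun (congrArg (fun x => (x.1 : G → ℂ)) h) g
  ext a
  exact h1 a

end Cfsg.Agent.S0154
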