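import Cfsg.Agent.Helper2.IndFun
import Cfsg.Statements.S0190
-- import your own Cfsg.Agent.* helpers here

set_option autoImplicit false
open Cfsg

namespace Cfsg.Agent.S0190

/-- For a transitive action of a finite group on X, the permutation character g ↦ (number of fixed points of g) is the function induced from the principal character of the stabilizer of any point. -/
theorem result {G : Type*} [Group G] [Fintype G] (X : Type*) [MulAction G X] [Finite X] [MulAction.IsPretransitive G X] (x : X) : (fun g : G => (Nat.card (MulAction.fixedBy X g) : ℂ)) = Cfsg.indFun (MulAction.stabilizer G x) (fun _ => 1) := by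
  classical
  funext g
  have := Fintype.ofFinite X
  have hH0 : (Nat.card (MulAction.stabilizer G x) : ℂ) ≠ 0 := by exact_mod_cast Nat.card_pos.ne'
  rw [Helper2.indFun_apply]
  have hc : ∀ z : X, ∃ c : G, c • x = z := fun z => MulAction.exists_smul_eq G x z
  choose c hcz using hc
  have key : ∀ y : G, extendByZero (MulAction.stabilizer G x) (fun _ => (1 : ℂ)) (y⁻¹ * g * y) =
      if y • x ∈ MulAction.fixedBy X g then 1 else 0 := by
    intro y
    have hiff : y⁻¹ * g * y ∈ MulAction.stabilizer G x ↔ y • x ∈ MulAction.fixedBy X g := by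
      rw [MulAction.mem_stabilizer_iff, MulAction.mem_fixedBy, mul_smul, mul_smul,
        inv_smul_eq_iff]
    by_cases hy : y • x ∈ MulAction.fixedBy X g
    · rw [if_pos hy, Helper2.extendByZero_apply_mem _ _ (hiff.2 hy)]
    · rw [if_neg hy, Helper2.extendByZero_apply_not_mem _ _ (fun h => hy (hiff.1 h))]
  rw [Finset.sum_congr rfl fun y _ => key y, Finset.sum_boole, ← Fintype.card_subtype]
  let e : {y : G // y • x ∈ MulAction.fixedBy X g} ≃
      (MulAction.fixedBy X g) × (MulAction.stabilizer G x) :=
    { toFun := fun y => (⟨y.1 • x, y.2⟩, ⟨(c (y.1 • x))⁻¹ * y.1, by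
        rw [MulAction.mem_stabilizer_iff, mul_smul, inv_smul_eq_iff, hcz]⟩)
      invFun := fun p => ⟨c p.1.1 * p.2.1, by
        rw [mul_smul, MulAction.mem_stabilizer_iff.1 p.2.2, hcz]
        exact p.1.2⟩
      left_inv := fun y => by
        apply Subtype.ext
        simp
      right_inv := fun p => by
        have h1 : (c p.1.1 * p.2.1) • x = p.1.1 := by
          rw [mul_smul, MulAction.mem_stabilizer_iff.1 p.2.2, hcz]
        apply Prod.ext
        · apply Subtype.ext
          exact h1
        · apply Subtype.ext
          show (c ((c p.1.1 * p.2.1) • x))⁻¹ * (c p.1.1 * p.2.1) = p.2.1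
          rw [h1]
          group }
  have hcard : Fintype.card {y : G // y • x ∈ MulAction.fixedBy X g} =
      Nat.card (MulAction.fixedBy X g) * Nat.card (MulAction.stabilizer G x) := by
    rw [← Nat.card_eq_fintype_card, Nat.card_congr e, Nat.card_prod]
  rw [hcard]
  push_cast
  field_simp

end Cfsg.Agent.S0190
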