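import Cfsg.Agent.Helper2.CharOrtho
import Cfsg.Agent.Helper2.IndFun
import Cfsg.Agent.Helper2.CharNat
import Cfsg.Agent.Helper2.CharLinear
import Cfsg.Agent.S0190
import Cfsg.Statements.S0157
-- import your own Cfsg.Agent.* helpers here

set_option autoImplicit false
open Cfsg

namespace Cfsg.Agent.S0157

open MulAction

theorem two_trans_iff_stab {G X : Type*} [Group G] [MulAction G X] [IsPretransitive G X] (x : X) :
    IsMultiplyPretransitive G X 2 ↔
      ∀ y z : X, y ≠ x → z ≠ x → ∃ h ∈ stabilizer G x, h • y = z := by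
  rw [is_two_pretransitive_iff]
  constructor
  · intro H y z hy hz
    obtain ⟨g, hg1, hg2⟩ := H (a := x) (b := y) (c := x) (d := z) hy.symm hz.symm
    exact ⟨g, hg1, hg2⟩
  · intro H a b c d hab hcd
    obtain ⟨g₁, hg₁⟩ := exists_smul_eq G a x
    obtain ⟨g₂, hg₂⟩ := exists_smul_eq G c x
    have h1 : g₁ • b ≠ x := by
      intro h
      apply hab
      have : g₁ • a = g₁ • b := by rw [hg₁, h]
      exact smul_left_cancel g₁ this
    have h2 : g₂ • d ≠ x := by
      intro h
      apply hcd
      have : g₂ • c = g₂ • d := by rw [hg₂, h]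
      exact smul_left_cancel g₂ this
    obtain ⟨h, hh, hh2⟩ := H (g₁ • b) (g₂ • d) h1 h2
    refine ⟨g₂⁻¹ * h * g₁, ?_, ?_⟩
    · rw [mul_smul, mul_smul, hg₁, mem_stabilizer_iff.1 hh, inv_smul_eq_iff, hg₂]
    · rw [mul_smul, mul_smul, hh2, inv_smul_smul]

theorem orbits_stab_eq_two_iff {G X : Type*} [Group G] [MulAction G X] [Finite X] (x : X)
    (hX : ∃ y : X, y ≠ x) :
    Nat.card (Quotient (orbitRel (stabilizer G x) X)) = 2 ↔
      ∀ y z : X, y ≠ x → z ≠ x → ∃ h ∈ stabilizer G x, h • y = z := by
  classical
  have hx : ∀ y : X, (Quotient.mk'' y : Quotient (orbitRel (stabilizer G x) X)) = Quotient.mk'' x →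
      y = x := by
    intro y hy
    have : y ∈ orbit (stabilizer G x) x := Quotient.eq''.1 hy
    obtain ⟨h, rfl⟩ := this
    exact mem_stabilizer_iff.1 h.2
  have := Fintype.ofFinite (Quotient (orbitRel (stabilizer G x) X))
  constructor
  · intro hcard y z hy hz
    have h3 : ¬ (2 < Fintype.card (Quotient (orbitRel (stabilizer G x) X))) := by
      rw [← Nat.card_eq_fintype_card, hcard]
      exact lt_irrefl 2
    rw [Fintype.two_lt_card_iff] at h3
    push Not at h3
    have hyz : (Quotient.mk'' y : Quotient (orbitRel (stabilizer G x) X)) = Quotient.mk'' z := by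
      by_contra hne
      exact hne (h3 (Quotient.mk'' x) (Quotient.mk'' y) (Quotient.mk'' z)
        (fun h => hy (hx y h.symm)) (fun h => hz (hx z h.symm)))
    have : z ∈ orbit (stabilizer G x) y := Quotient.eq''.1 hyz.symm
    obtain ⟨h, hh⟩ := this
    exact ⟨h, h.2, hh⟩
  · intro H
    obtain ⟨y₀, hy₀⟩ := hX
    rw [Nat.card_eq_two_iff]
    refine ⟨Quotient.mk'' x, Quotient.mk'' y₀, fun h => hy₀ (hx y₀ h.symm), ?_⟩
    ext q
    simp only [Set.mem_insert_iff, Set.mem_singleton_iff, Set.mem_univ, iff_true]
    induction q using Quotient.inductionOn' with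
    | h z =>
      by_cases hz : z = x
      · left
        rw [hz]
      · right
        obtain ⟨h, hh, hh2⟩ := H y₀ z hy₀ hz
        apply Quotient.sound'
        exact ⟨⟨h, hh⟩, hh2⟩

/-- For a transitive action of a finite group on a finite set with at least two points: the action is 2-transitive if and only if the function sending g to (number of fixed points of g) − 1 is an irreducible character. -/
theorem result {G : Type*} [Group G] [Finite G] (X : Type*) [MulAction G X] [Finite X] [MulAction.IsPretransitive G X] (hX : 2 ≤ Nat.card X) : Cfsg.IsIrrCharacter G (fun g => (Nat.card (MulAction.fixedBy X g) : ℂ) - 1) ↔ MulAction.IsMultiplyPretransitive G X 2 := by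
  classical
  have := Fintype.ofFinite G
  have := Fintype.ofFinite X
  have hne : Nonempty X := by
    by_contra h
    rw [not_nonempty_iff] at h
    rw [Nat.card_of_isEmpty] at hX
    omega
  obtain ⟨x⟩ := hne
  have hXx : ∃ y : X, y ≠ x := by
    by_contra h
    push Not at h
    have : Subsingleton X := ⟨fun a b => (h a).trans (h b).symm⟩
    have := Finite.card_le_one_iff_subsingleton.2 this
    omega
  have := Fintype.ofFinite (stabilizer G x)
  have hπ := S0190.result (G := G) X x
  have hπch : IsCharacter G (fun g : G => (Nat.card (fixedBy X g) : ℂ)) := by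
    rw [hπ]
    exact Helper2.isCharacter_indFun _ Helper2.isCharacter_one
  have hπcf := Helper2.IsCharacter.isClassFunction hπch
  have hH0 : (Nat.card (stabilizer G x) : ℂ) ≠ 0 := by exact_mod_cast Nat.card_pos.ne'
  have h1cf : IsClassFunction G (fun _ => (1 : ℂ)) :=
    Helper2.IsCharacter.isClassFunction Helper2.isCharacter_one
  -- ⟨π, 1⟩ = 1
  have hB : classInner (fun g : G => (Nat.card (fixedBy X g) : ℂ)) (fun _ => 1) = 1 := by
    rw [hπ, Helper2.frobenius_reciprocity _ _ _ h1cf]
    unfold classInner
    simp only [map_one, mul_one, Finset.sum_const, Finset.card_univ, nsmul_eq_mul]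
    rw [← Nat.card_eq_fintype_card, inv_mul_cancel₀ hH0]
  have hB' : classInner (fun _ : G => (1 : ℂ)) (fun g : G => (Nat.card (fixedBy X g) : ℂ)) = 1 := by
    rw [← Helper2.classInner_conj_symm, hB, map_one]
  have h11 : classInner (fun _ : G => (1 : ℂ)) (fun _ => 1) = 1 := by
    rw [Helper2.classInner_irr Helper2.isIrrCharacter_one_fun Helper2.isIrrCharacter_one_fun,
      if_pos rfl]
  -- ⟨π, π⟩ = number of orbits of the stabilizer
  have hC : classInner (fun g : G => (Nat.card (fixedBy X g) : ℂ))
      (fun g : G => (Nat.card (fixedBy X g) : ℂ)) =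
      (Nat.card (Quotient (orbitRel (stabilizer G x) X)) : ℂ) := by
    conv_lhs => rw [hπ]
    rw [Helper2.frobenius_reciprocity _ _ _ (by rw [← hπ]; exact hπcf)]
    unfold classInner
    have hburn := sum_card_fixedBy_eq_card_orbits_mul_card_group (stabilizer G x) X
    have hsum : ∑ h : stabilizer G x, (1 : ℂ) *
        (starRingEnd ℂ) (indFun (stabilizer G x) (fun _ => 1) (h : G)) =
        ((∑ h : stabilizer G x, Fintype.card (fixedBy X h) : ℕ) : ℂ) := by
      push_cast
      refine Finset.sum_congr rfl fun h _ => ?_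
      rw [← hπ, one_mul, Complex.conj_natCast, Nat.card_eq_fintype_card]
      congr 1
    have hH0' : (Fintype.card (stabilizer G x) : ℂ) ≠ 0 := by
      rw [← Nat.card_eq_fintype_card]
      exact hH0
    rw [hsum, hburn]
    push_cast
    rw [Nat.card_eq_fintype_card, Nat.card_eq_fintype_card]
    field_simp
  have hsub : (fun g : G => (Nat.card (fixedBy X g) : ℂ) - 1) =
      (fun g : G => (Nat.card (fixedBy X g) : ℂ)) - (fun _ => 1) := rfl
  have hnorm : classInner (fun g : G => (Nat.card (fixedBy X g) : ℂ) - 1)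
      (fun g : G => (Nat.card (fixedBy X g) : ℂ) - 1) =
      (Nat.card (Quotient (orbitRel (stabilizer G x) X)) : ℂ) - 1 := by
    rw [hsub, Helper2.classInner_sub_left, Helper2.classInner_sub_right,
      Helper2.classInner_sub_right, hC, hB, hB', h11]
    ring
  rw [two_trans_iff_stab x, ← orbits_stab_eq_two_iff x hXx]
  constructor
  · intro hirr
    have h := Helper2.classInner_irr hirr hirr
    rw [if_pos rfl, hnorm] at h
    have h2 : (Nat.card (Quotient (orbitRel (stabilizer G x) X)) : ℂ) = ((2 : ℕ) : ℂ) := by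
      push_cast
      linear_combination h
    exact_mod_cast h2
  · intro h2
    have hch : IsCharacter G (fun g : G => (Nat.card (fixedBy X g) : ℂ) - 1) := by
      rw [hsub]
      apply Helper2.isCharacter_of_classInner_nat (Helper2.IsClassFunction.sub hπcf h1cf)
      intro χ hχ
      obtain ⟨m, hm⟩ := Helper2.classInner_char_nat hπch (Helper24.isCharacter_of_irr hχ)
      rw [Helper2.classInner_sub_left, Helper2.classInner_irr Helper2.isIrrCharacter_one_fun hχ]
      by_cases h1 : (fun _ : G => (1 : ℂ)) = χ
      · rw [if_pos h1, ← h1, hB]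
        exact ⟨0, by simp⟩
      · rw [if_neg h1, hm]
        exact ⟨m, by simp⟩
    apply Helper2.isIrrCharacter_of_norm_one hch
    rw [hnorm, h2]
    norm_num

end Cfsg.Agent.S0157
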