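import Cfsg.Statements.S0158
import Cfsg.Agent.Helper25.FSIndicator
open Cfsg.Agent.Helper25 Cfsg.Agent.Helper24

set_option autoImplicit false
open Cfsg

namespace Cfsg.Agent.S0158

/-- The Frobenius–Schur indicator of an irreducible complex representation of a finite group — the average over s of the character at s * s — is 0, 1 or −1, and it vanishes exactly when some character value is not real. -/
theorem result {G : Type*} [Group G] [Fintype G] {V : Type*} [AddCommGroup V] [Module ℂ V] [FiniteDimensional ℂ V] (ρ : Representation ℂ G V) [ρ.IsIrreducible] : ((Nat.card G : ℂ)⁻¹ * ∑ s : G, ρ.character (s * s) = 0 ∨ (Nat.card G : ℂ)⁻¹ * ∑ s : G, ρ.character (s * s) = 1 ∨ (Nat.card G : ℂ)⁻¹ * ∑ s : G, ρ.character (s * s) = -1) ∧ ((Nat.card G : ℂ)⁻¹ * ∑ s : G, ρ.character (s * s) = 0 ↔ ∃ s : G, (ρ.character s).im ≠ 0) := by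
  have hirr := Cfsg.Agent.Helper2.isIrrCharacter_of_rep ρ
  obtain ⟨h1, h2⟩ := fs_indicator hirr
  by_cases hreal : ∀ s : G, (ρ.character s).im = 0
  · have h3 := h1 hreal
    refine ⟨Or.inr h3, ?_⟩
    constructor
    · intro h0
      exfalso
      rcases h3 with h | h
      · rw [h0] at h
        exact zero_ne_one h
      · rw [h0] at h
        norm_num at h
    · rintro ⟨s, hs⟩
      exact absurd (hreal s) hs
  · push Not at hreal
    have h3 := h2 hreal
    exact ⟨Or.inl h3, fun _ => hreal, fun _ => h3⟩

end Cfsg.Agent.S0158
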