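import Cfsg.Statements.S0159
import Cfsg.Agent.Helper25.FrobSchur
open Cfsg.Agent.Helper25 Cfsg.Agent.Helper24

set_option autoImplicit false
open Cfsg

namespace Cfsg.Agent.S0159

/-- The number of solutions of s * s = 1 in a finite group equals the sum, over the irreducible characters χ, of (the average over s of χ (s * s)) times χ 1. -/
theorem result {G : Type*} [Group G] [Fintype G] : (Nat.card {s : G // s * s = 1} : ℂ) = ∑ᶠ χ : Cfsg.IrrCharacter G, ((Nat.card G : ℂ)⁻¹ * ∑ s : G, (χ : G → ℂ) (s * s)) * (χ : G → ℂ) 1 := by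
  have := finite_irrCharacter (G := G)
  have := Fintype.ofFinite (IrrCharacter G)
  rw [finsum_eq_sum_of_fintype]
  exact sqrt_count 1

end Cfsg.Agent.S0159
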