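import Cfsg.Agent.Helper2.CharOrtho
import Cfsg.Agent.Helper2.CharLinear
import Cfsg.Agent.Helper2.Invol
import Cfsg.Agent.S0160
import Cfsg.Statements.S0161
-- import your own Cfsg.Agent.* helpers here

set_option autoImplicit false
open Cfsg

namespace Cfsg.Agent.S0161

theorem eq_one_of_isConj_inv_of_odd {G : Type*} [Group G] [Finite G] (hodd : Odd (Nat.card G))
    (g : G) (h : IsConj g g⁻¹) : g = 1 := by
  obtain ⟨c, hc⟩ := isConj_iff.1 h
  have hco : Odd (orderOf c) := Odd.of_dvd_nat hodd (orderOf_dvd_natCard c)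
  obtain ⟨k, hk⟩ := hco
  have h2 := (Helper2.conj_pow_of_inverts g c hc k).2
  rw [← hk, pow_orderOf_eq_one] at h2
  have h3 : g = g⁻¹ := by simpa using h2
  have h4 : g ^ 2 = 1 := by
    rw [pow_two]
    nth_rewrite 1 [h3]
    exact inv_mul_cancel g
  have h5 : orderOf g ∣ 2 := orderOf_dvd_of_pow_eq_one h4
  have h6 : Odd (orderOf g) := Odd.of_dvd_nat hodd (orderOf_dvd_natCard g)
  have h7 : orderOf g = 1 := by
    rcases (Nat.dvd_prime Nat.prime_two).1 h5 with h | h
    · exact h
    · rw [h] at h6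
      exact absurd h6 (by decide)
  exact orderOf_eq_one_iff.1 h7

/-- In a finite group of odd order, a real-valued irreducible complex character is the trivial character. -/
theorem result {G : Type*} [Group G] [Finite G] (hodd : Odd (Nat.card G)) (χ : Cfsg.IrrCharacter G) (hreal : ∀ g : G, ((χ : G → ℂ) g).im = 0) : (χ : G → ℂ) = fun _ => 1 := by
  classical
  have hcount := S0160.result (G := G)
  have hsub : Subsingleton {C : ConjClasses G // ∀ g : G, ConjClasses.mk g = C → IsConj g g⁻¹} := by
    refine ⟨fun a b => ?_⟩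
    have key : ∀ C : {C : ConjClasses G // ∀ g : G, ConjClasses.mk g = C → IsConj g g⁻¹},
        C.1 = ConjClasses.mk 1 := by
      intro C
      obtain ⟨g, hg⟩ := ConjClasses.mk_surjective C.1
      have := eq_one_of_isConj_inv_of_odd hodd g (C.2 g hg)
      rw [← hg, this]
    exact Subtype.ext ((key a).trans (key b).symm)
  have hle : Nat.card {χ : Cfsg.IrrCharacter G // ∀ g : G, ((χ : G → ℂ) g).im = 0} ≤ 1 := by
    rw [hcount]
    exact Finite.card_le_one_iff_subsingleton.2 hsub
  have := Helper24.finite_irrCharacter (G := G)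
  have hsub2 := Finite.card_le_one_iff_subsingleton.1 hle
  let triv : {χ : Cfsg.IrrCharacter G // ∀ g : G, ((χ : G → ℂ) g).im = 0} :=
    ⟨⟨fun _ => 1, Helper2.isIrrCharacter_one_fun⟩, fun g => by simp⟩
  have := hsub2.elim ⟨χ, hreal⟩ triv
  exact congrArg (fun x => (x.1 : G → ℂ)) this

end Cfsg.Agent.S0161
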