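import Cfsg.Agent.Helper2.CharOrtho
import Cfsg.Agent.Helper2.CharReg
import Cfsg.Agent.S0161
import Cfsg.Statements.S0162
-- import your own Cfsg.Agent.* helpers here

set_option autoImplicit false
open Cfsg

namespace Cfsg.Agent.S0162

open scoped ComplexConjugate

theorem zmod16_odd_sq : ∀ r : ZMod 16, r.val % 2 = 1 → 2 * (r * r - 1) = 0 := by decide

theorem two_mul_sq_sub_one (d : ℕ) (hd : Odd d) : (2 : ZMod 16) * ((d : ZMod 16) * (d : ZMod 16) - 1) = 0 := by
  apply zmod16_odd_sq
  rw [ZMod.val_natCast]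
  rw [Nat.odd_iff] at hd
  omega

/-- If a finite group has odd order, its order is congruent to its number of conjugacy classes modulo 16. -/
theorem result {G : Type*} [Group G] [Finite G] (hodd : Odd (Nat.card G)) : Nat.card G ≡ Nat.card (ConjClasses G) [MOD 16] := by
  classical
  have := Fintype.ofFinite G
  have := Helper24.finite_irrCharacter (G := G)
  have := Fintype.ofFinite (IrrCharacter G)
  -- degrees
  have hdeg : ∀ χ : IrrCharacter G, (χ : G → ℂ) 1 = (charDegree (χ : G → ℂ) : ℂ) := fun χ =>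
    Helper24.charDegree_spec (Helper24.isCharacter_of_irr χ.2)
  have hodd' : ∀ χ : IrrCharacter G, Odd (charDegree (χ : G → ℂ)) := fun χ =>
    Odd.of_dvd_nat hodd (Helper2.irr_degree_dvd_card χ.2)
  have hsum : ∑ χ : IrrCharacter G, charDegree (χ : G → ℂ) * charDegree (χ : G → ℂ) = Nat.card G := by
    have h := Helper2.sum_degree_sq (G := G)
    simp only [hdeg] at h
    exact_mod_cast h
  -- the involution
  let ι : IrrCharacter G → IrrCharacter G := fun χ =>
    ⟨fun g => conj ((χ : G → ℂ) g), Helper2.isIrrCharacter_conj χ.2⟩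
  have hιdeg : ∀ χ : IrrCharacter G, charDegree ((ι χ : IrrCharacter G) : G → ℂ) = charDegree (χ : G → ℂ) := by
    intro χ
    show ⌊(conj ((χ : G → ℂ) 1)).re⌋₊ = ⌊((χ : G → ℂ) 1).re⌋₊
    rw [Complex.conj_re]
  have hιι : ∀ χ : IrrCharacter G, ι (ι χ) = χ := by
    intro χ
    apply Subtype.ext
    funext g
    show conj (conj ((χ : G → ℂ) g)) = (χ : G → ℂ) g
    exact Complex.conj_conj _
  have hfix : ∀ χ : IrrCharacter G, ι χ = χ → charDegree (χ : G → ℂ) = 1 := by
    intro χ h
    have hreal : ∀ g : G, ((χ : G → ℂ) g).im = 0 := by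
      intro g
      have := congrFun (congrArg Subtype.val h) g
      exact Complex.conj_eq_iff_im.1 this
    have h1 := S0161.result hodd χ hreal
    have h2 : ((1 : ℕ) : ℂ) = (charDegree (χ : G → ℂ) : ℂ) := by
      rw [← hdeg χ, h1]
      simp
    exact (Nat.cast_injective h2).symm
  have hzero : ∑ χ : IrrCharacter G,
      (((charDegree (χ : G → ℂ) : ℕ) : ZMod 16) * ((charDegree (χ : G → ℂ) : ℕ) : ZMod 16) - 1) = 0 := by
    refine Finset.sum_involution (fun χ _ => ι χ) ?_ ?_ (fun _ _ => Finset.mem_univ _) (fun χ _ => hιι χ)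
    · intro χ _
      rw [hιdeg χ, ← two_mul]
      exact two_mul_sq_sub_one _ (hodd' χ)
    · intro χ _ hne hfixed
      apply hne
      rw [hfix χ hfixed]
      simp
  rw [Finset.sum_sub_distrib] at hzero
  simp only [Finset.sum_const, Finset.card_univ, nsmul_eq_mul, mul_one] at hzero
  have h3 : ((Nat.card G : ℕ) : ZMod 16) = ((Nat.card (ConjClasses G) : ℕ) : ZMod 16) := by
    rw [← hsum, ← Helper2.card_irrCharacter, Nat.card_eq_fintype_card]
    push_cast
    exact sub_eq_zero.1 hzero
  exact (ZMod.natCast_eq_natCast_iff _ _ _).1 h3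

end Cfsg.Agent.S0162
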