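import Cfsg.Agent.Helper2.CharOrtho
import Cfsg.Agent.Helper24.ClassSum
import Cfsg.Statements.S0168
-- import your own Cfsg.Agent.* helpers here

set_option autoImplicit false
open Cfsg

namespace Cfsg.Agent.S0168

open scoped ComplexConjugate

theorem eq_one_of_char_eq {G : Type*} [Group G] [Finite G] {V : Type*} [AddCommGroup V]
    [Module ℂ V] [FiniteDimensional ℂ V] (ρ : Representation ℂ G V)
    (hf : Function.Injective ρ) (g : G) (h : ρ.character g = ρ.character 1) : g = 1 := by
  apply hf
  rw [map_one]
  by_cases h0 : Module.finrank ℂ V = 0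
  · have : Subsingleton V := Module.finrank_zero_iff.1 h0
    ext v
    exact Subsingleton.elim _ _
  · have h1 : ρ.character 1 = (Module.finrank ℂ V : ℂ) := by rw [Representation.char_one]
    obtain ⟨ω, hω, hω2⟩ := Helper2.character_scalar_of_norm_eq ρ g (by rw [h, h1]; simp)
    rw [h, h1] at hω2
    have : ω = 1 := by
      have hd : (Module.finrank ℂ V : ℂ) ≠ 0 := by exact_mod_cast h0
      exact mul_left_cancel₀ hd (by rw [hω2, mul_one])
    rw [hω, this, one_smul]

/-- The Burnside–Brauer Theorem. Let χ be the character of a faithful complex representation of a finite group, taking m distinct values. Then every irreducible character has nonzero inner product with χ ^ i for some i < m. -/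
theorem result {G : Type*} [Group G] [Fintype G] {V : Type*} [AddCommGroup V] [Module ℂ V] [FiniteDimensional ℂ V] (ρ : Representation ℂ G V) (hfaithful : Function.Injective ρ) (ψ : G → ℂ) (hψ : Cfsg.IsIrrCharacter G ψ) : ∃ i : ℕ, i < Nat.card (Set.range ρ.character) ∧ Cfsg.classInner (fun g => ρ.character g ^ i) ψ ≠ 0 := by
  classical
  by_contra hcon
  push Not at hcon
  have hfin : Finite (Set.range ρ.character) := Set.finite_range ρ.character
  have e : Fin (Nat.card (Set.range ρ.character)) ≃ Set.range ρ.character :=
    (Finite.equivFin (Set.range ρ.character)).symm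
  let a : Fin (Nat.card (Set.range ρ.character)) → ℂ := fun j => (e j : ℂ)
  have ha : Function.Injective a := Subtype.val_injective.comp e.injective
  let b : Fin (Nat.card (Set.range ρ.character)) → ℂ :=
    fun j => ∑ g : G, if ρ.character g = a j then conj (ψ g) else 0
  have hG0 : (Nat.card G : ℂ) ≠ 0 := by exact_mod_cast Nat.card_pos.ne'
  have hsys : ∀ i : Fin (Nat.card (Set.range ρ.character)), ∑ j, b j * a j ^ (i : ℕ) = 0 := by
    intro i
    have h := hcon i i.2
    unfold classInner at h
    have h' : ∑ g : G, ρ.character g ^ (i : ℕ) * conj (ψ g) = 0 := by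
      rcases mul_eq_zero.1 h with h | h
      · exact absurd (inv_eq_zero.1 h) hG0
      · exact h
    rw [← h']
    simp only [b, Finset.sum_mul]
    rw [Finset.sum_comm]
    refine Finset.sum_congr rfl fun g _ => ?_
    have hj₀ : a (e.symm ⟨ρ.character g, Set.mem_range_self g⟩) = ρ.character g := by
      show ((e (e.symm ⟨ρ.character g, Set.mem_range_self g⟩) : Set.range ρ.character) : ℂ) = _
      rw [Equiv.apply_symm_apply]
    rw [Finset.sum_eq_single (e.symm ⟨ρ.character g, Set.mem_range_self g⟩)]
    · rw [if_pos hj₀.symm, hj₀, mul_comm]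
    · intro j _ hj
      rw [if_neg, zero_mul]
      intro h
      apply hj
      apply ha
      rw [hj₀, h]
    · intro h
      exact absurd (Finset.mem_univ _) h
  have hb : b = 0 := by
    apply Matrix.eq_zero_of_vecMul_eq_zero (M := Matrix.vandermonde a)
      (Matrix.det_vandermonde_ne_zero_iff.2 ha)
    · funext i
      simp only [Matrix.vecMul, dotProduct, Matrix.vandermonde_apply, Pi.zero_apply]
      exact hsys i
  have hj₁ : a (e.symm ⟨ρ.character 1, Set.mem_range_self 1⟩) = ρ.character 1 := by
    show ((e (e.symm ⟨ρ.character 1, Set.mem_range_self 1⟩) : Set.range ρ.character) : ℂ) = _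
    rw [Equiv.apply_symm_apply]
  have hb1 := congrFun hb (e.symm ⟨ρ.character 1, Set.mem_range_self 1⟩)
  simp only [b, Pi.zero_apply] at hb1
  rw [Finset.sum_eq_single (1 : G)] at hb1
  · rw [if_pos hj₁.symm] at hb1
    exact Helper24.irr_one_ne_zero hψ ((map_eq_zero _).1 hb1)
  · intro g _ hg
    rw [if_neg]
    intro h
    apply hg
    exact eq_one_of_char_eq ρ hfaithful g (h.trans hj₁)
  · intro h
    exact absurd (Finset.mem_univ _) h

end Cfsg.Agent.S0168
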