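import Cfsg.Agent.Helper2.CharOrtho
import Cfsg.Agent.Helper2.CharLinear
import Cfsg.Agent.Helper10.VirtualChar
import Cfsg.Statements.S0198
-- import your own Cfsg.Agent.* helpers here

set_option autoImplicit false
open Cfsg

namespace Cfsg.Agent.S0198

theorem gram_cases {X : Type*} (a b a' b' : X) [Decidable (a = a')] [Decidable (a = b')]
    [Decidable (b = a')] [Decidable (b = b')] (hab : a ≠ b) (hab' : a' ≠ b')
    (h : ((if a = a' then (1 : ℂ) else 0) - (if a = b' then 1 else 0)) -
      ((if b = a' then 1 else 0) - (if b = b' then 1 else 0)) = 1) :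
    (a = a' ∧ b ≠ b') ∨ (b = b' ∧ a ≠ a') := by
  by_cases p : a = a' <;> by_cases q : a = b' <;> by_cases r : b = a' <;> by_cases s : b = b' <;>
    (first | rw [if_pos p] at h | rw [if_neg p] at h) <;>
    (first | rw [if_pos q] at h | rw [if_neg q] at h) <;>
    (first | rw [if_pos r] at h | rw [if_neg r] at h) <;>
    (first | rw [if_pos s] at h | rw [if_neg s] at h) <;>
    first
      | exact Or.inl ⟨p, s⟩
      | exact Or.inr ⟨s, p⟩
      | exact absurd (p.symm.trans q) hab'
      | exact absurd (p.trans r.symm) hab
      | (exfalso; norm_num at h)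

/-- A norm-two generalized character vanishing at `1` is a difference of two distinct irreducible
characters. -/
theorem diff_of_norm_two {G : Type*} [Group G] [Fintype G] {θ : G → ℂ}
    (hθ : IsGeneralizedCharacter G θ) (h2 : classInner θ θ = 2) (h1 : θ 1 = 0) :
    ∃ a b : G → ℂ, IsIrrCharacter G a ∧ IsIrrCharacter G b ∧ a ≠ b ∧ θ = a - b := by
  obtain ⟨χ₁, χ₂, e₁, e₂, hχ₁, hχ₂, hne, he₁, he₂, hθeq⟩ := Helper10.gen_norm_two hθ h2
  obtain ⟨d₁, hd₁, hd₁'⟩ := Helper10.irr_one_eq hχ₁
  obtain ⟨d₂, hd₂, hd₂'⟩ := Helper10.irr_one_eq hχ₂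
  have hval : e₁ * d₁ + e₂ * d₂ = 0 := by
    have := congrFun hθeq 1
    rw [h1] at this
    simp only [Pi.add_apply, Pi.smul_apply, smul_eq_mul, hd₁', hd₂'] at this
    have h3 : ((e₁ * d₁ + e₂ * d₂ : ℝ) : ℂ) = 0 := by
      push_cast
      exact this.symm
    exact_mod_cast h3
  rcases he₁ with rfl | rfl <;> rcases he₂ with rfl | rfl
  · exfalso; nlinarith
  · refine ⟨χ₁, χ₂, hχ₁, hχ₂, hne, ?_⟩
    rw [hθeq]
    funext g
    simp
    ring
  · refine ⟨χ₂, χ₁, hχ₂, hχ₁, hne.symm, ?_⟩
    rw [hθeq]
    funext g
    simp
    ring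
  · exfalso; nlinarith

/-- The isometry lemma behind exceptional characters. Let τ be a family of generalized characters of a finite group G indexed by Fin n, with τ i₀ = 0, every τ i vanishing at the identity, and inner products ⟨τ i, τ j⟩ = 2 if i = j and 1 otherwise for i, j ≠ i₀. Then there are a sign ε and pairwise distinct irreducible characters μ i with τ i = ε (μ i − μ i₀) for all i. -/
theorem result {G : Type*} [Group G] [Fintype G] (n : ℕ) (i₀ : Fin n) (τ : Fin n → (G → ℂ)) (h0 : τ i₀ = 0) (hgen : ∀ i, Cfsg.IsGeneralizedCharacter G (τ i)) (hone : ∀ i, τ i 1 = 0) (hgram : ∀ i j, i ≠ i₀ → j ≠ i₀ → Cfsg.classInner (τ i) (τ j) = if i = j then 2 else 1) : ∃ ε : ℂ, (ε = 1 ∨ ε = -1) ∧ ∃ μ : Fin n → (G → ℂ), (∀ i, Cfsg.IsIrrCharacter G (μ i)) ∧ Function.Injective μ ∧ ∀ i, τ i = ε • (μ i - μ i₀) := by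
  classical
  have step1 : ∀ i, i ≠ i₀ → ∃ a b : G → ℂ, IsIrrCharacter G a ∧ IsIrrCharacter G b ∧ a ≠ b ∧
      τ i = a - b := by
    intro i hi
    have h2 := hgram i i hi hi
    rw [if_pos rfl] at h2
    exact diff_of_norm_two (hgen i) h2 (hone i)
  choose! a b ha hb hab hτ using step1
  have step2 : ∀ i j, i ≠ i₀ → j ≠ i₀ → i ≠ j →
      (a i = a j ∧ b i ≠ b j) ∨ (b i = b j ∧ a i ≠ a j) := by
    intro i j hi hj hij
    have h := hgram i j hi hj
    rw [if_neg hij, hτ i hi, hτ j hj, Helper2.classInner_sub_left, Helper2.classInner_sub_right,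
      Helper2.classInner_sub_right, Helper2.classInner_irr (ha i hi) (ha j hj),
      Helper2.classInner_irr (ha i hi) (hb j hj), Helper2.classInner_irr (hb i hi) (ha j hj),
      Helper2.classInner_irr (hb i hi) (hb j hj)] at h
    exact gram_cases (a i) (b i) (a j) (b j) (hab i hi) (hab j hj) h
  by_cases hex : ∃ i₁, i₁ ≠ i₀
  · obtain ⟨i₁, hi₁⟩ := hex
    by_cases hA : ∀ i j, i ≠ i₀ → j ≠ i₀ → a i = a j
    · refine ⟨-1, Or.inr rfl, fun i => if i = i₀ then a i₁ else b i, ?_, ?_, ?_⟩
      · intro i
        by_cases hi : i = i₀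
        · simp only [if_pos hi]; exact ha i₁ hi₁
        · simp only [if_neg hi]; exact hb i hi
      · intro i j hij
        by_cases hi : i = i₀ <;> by_cases hj : j = i₀
        · rw [hi, hj]
        · exfalso
          simp only [if_pos hi, if_neg hj] at hij
          exact hab j hj ((hA j i₁ hj hi₁).trans hij)
        · exfalso
          simp only [if_neg hi, if_pos hj] at hij
          exact hab i hi ((hA i i₁ hi hi₁).trans hij.symm)
        · simp only [if_neg hi, if_neg hj] at hij
          by_contra hne
          rcases step2 i j hi hj hne with h | h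
          · exact h.2 hij
          · exact h.2 (hA i j hi hj)
      · intro i
        by_cases hi : i = i₀
        · subst hi
          simp [h0]
        · simp only [if_neg hi, if_true]
          rw [hτ i hi, hA i i₁ hi hi₁]
          funext g
          simp
    · have hB : ∀ k, k ≠ i₀ → b k = b i₁ := by
        push Not at hA
        obtain ⟨i, j, hi, hj, hne⟩ := hA
        have hij : i ≠ j := fun h => hne (by rw [h])
        have hbij : b i = b j := by
          rcases step2 i j hi hj hij with h | h
          · exact absurd h.1 hne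
          · exact h.1
        have key : ∀ k, k ≠ i₀ → b k = b i := by
          intro k hk
          by_cases hki : k = i
          · rw [hki]
          by_cases hkj : k = j
          · rw [hkj, hbij]
          rcases step2 i k hi hk (Ne.symm hki) with h | h
          · rcases step2 j k hj hk (Ne.symm hkj) with h' | h'
            · exact absurd (h.1.trans h'.1.symm) hne
            · rw [← h'.1, hbij]
          · exact h.1.symm
        intro k hk
        rw [key k hk, key i₁ hi₁]
      refine ⟨1, Or.inl rfl, fun i => if i = i₀ then b i₁ else a i, ?_, ?_, ?_⟩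
      · intro i
        by_cases hi : i = i₀
        · simp only [if_pos hi]; exact hb i₁ hi₁
        · simp only [if_neg hi]; exact ha i hi
      · intro i j hij
        by_cases hi : i = i₀ <;> by_cases hj : j = i₀
        · rw [hi, hj]
        · exfalso
          simp only [if_pos hi, if_neg hj] at hij
          exact hab j hj (hij.symm.trans (hB j hj).symm)
        · exfalso
          simp only [if_neg hi, if_pos hj] at hij
          exact hab i hi (hij.trans (hB i hi).symm)
        · simp only [if_neg hi, if_neg hj] at hij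
          by_contra hne
          rcases step2 i j hi hj hne with h | h
          · exact h.2 ((hB i hi).trans (hB j hj).symm)
          · exact h.2 hij
      · intro i
        by_cases hi : i = i₀
        · subst hi
          simp [h0]
        · simp only [if_neg hi, if_true]
          rw [hτ i hi, hB i hi, one_smul]
  · push Not at hex
    refine ⟨1, Or.inl rfl, fun _ => fun _ => 1, fun _ => Helper2.isIrrCharacter_one_fun, ?_, ?_⟩
    · intro i j _
      rw [hex i, hex j]
    · intro i
      rw [hex i, h0]
      simp

end Cfsg.Agent.S0198
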