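import Cfsg.Agent.Helper2.CharOrtho
import Cfsg.Agent.Helper2.IndFun
import Cfsg.Agent.Helper2.CharNat
import Cfsg.Agent.S0150
import Cfsg.Agent.S0198
import Cfsg.Statements.S0170
-- import your own Cfsg.Agent.* helpers here

set_option autoImplicit false
open Cfsg

namespace Cfsg.Agent.S0170

theorem indFun_sub {G : Type*} [Group G] [Fintype G] (H : Subgroup G) (θ₁ θ₂ : H → ℂ) :
    indFun H (θ₁ - θ₂) = indFun H θ₁ - indFun H θ₂ := by
  classical
  funext g
  rw [Pi.sub_apply, Helper2.indFun_apply, Helper2.indFun_apply, Helper2.indFun_apply, ← mul_sub,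
    ← Finset.sum_sub_distrib]
  congr 1
  refine Finset.sum_congr rfl fun x _ => ?_
  by_cases hx : x⁻¹ * g * x ∈ H
  · rw [Helper2.extendByZero_apply_mem H _ hx, Helper2.extendByZero_apply_mem H _ hx,
      Helper2.extendByZero_apply_mem H _ hx]
    rfl
  · rw [Helper2.extendByZero_apply_not_mem H _ hx, Helper2.extendByZero_apply_not_mem H _ hx,
      Helper2.extendByZero_apply_not_mem H _ hx, sub_zero]

theorem indFun_one_eq {G : Type*} [Group G] [Fintype G] (H : Subgroup G) (θ₁ θ₂ : H → ℂ)
    (h : θ₁ 1 = θ₂ 1) : indFun H θ₁ 1 = indFun H θ₂ 1 := by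
  rw [Helper2.indFun_apply, Helper2.indFun_apply]
  congr 1
  refine Finset.sum_congr rfl fun x _ => ?_
  have hx : x⁻¹ * 1 * x ∈ H := by simp
  rw [Helper2.extendByZero_apply_mem H _ hx, Helper2.extendByZero_apply_mem H _ hx]
  have : (⟨x⁻¹ * 1 * x, hx⟩ : H) = 1 := by
    apply Subtype.ext
    simp
  rw [this, h]

/-- Exceptional characters. Let S be a subset of a finite group contained in its normalizer N and meeting its conjugates by elements outside N only in the identity. Given n ≥ 2 distinct irreducible characters of N of equal degree that vanish on N away from S, there exist a sign ε and n distinct irreducible characters θ_i of G such that inducing χ_i − χ_j to G gives ε (θ_i − θ_j) for all i, j. -/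
theorem result {G : Type*} [Group G] [Fintype G] (S : Set G) (hSN : S ⊆ Subgroup.normalizer S) (hTI : ∀ g : G, g ∉ Subgroup.normalizer S → ∀ s ∈ S, g * s * g⁻¹ ∈ S → s = 1) (n : ℕ) (hn : 2 ≤ n) (χ : Fin n → (Subgroup.normalizer S → ℂ)) (hirr : ∀ i, Cfsg.IsIrrCharacter (Subgroup.normalizer S) (χ i)) (hinj : Function.Injective χ) (hvan : ∀ i, ∀ x : Subgroup.normalizer S, (x : G) ∉ S → χ i x = 0) (hdeg : ∀ i j, χ i 1 = χ j 1) : ∃ ε : ℂ, (ε = 1 ∨ ε = -1) ∧ ∃ θ : Fin n → (G → ℂ), (∀ i, Cfsg.IsIrrCharacter G (θ i)) ∧ Function.Injective θ ∧ ∀ i j, Cfsg.indFun (Subgroup.normalizer S) (χ i) - Cfsg.indFun (Subgroup.normalizer S) (χ j) = ε • (θ i - θ j) := by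
  classical
  have := Fintype.ofFinite (Subgroup.normalizer S)
  let i₀ : Fin n := ⟨0, by omega⟩
  have hcf : ∀ i, IsClassFunction (Subgroup.normalizer S) (χ i) := fun i =>
    Helper2.IsIrrCharacter.isClassFunction (hirr i)
  have hch : ∀ i, IsCharacter G (indFun (Subgroup.normalizer S) (χ i)) := fun i =>
    Helper2.isCharacter_indFun _ (Helper24.isCharacter_of_irr (hirr i))
  obtain ⟨ε, hε, μ, hμ, hμinj, hτ⟩ := S0198.result n i₀
    (fun i => indFun (Subgroup.normalizer S) (χ i) - indFun (Subgroup.normalizer S) (χ i₀))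
    (sub_self _)
    (fun i => ⟨_, _, hch i, hch i₀, rfl⟩)
    (fun i => by
      rw [Pi.sub_apply, indFun_one_eq _ (χ i) (χ i₀) (hdeg i i₀), sub_self])
    (fun i j hi hj => by
      rw [← indFun_sub, ← indFun_sub]
      rw [S0150.result S hTI hSN (χ i - χ i₀) (χ j - χ i₀)
        (Helper2.IsClassFunction.sub (hcf i) (hcf i₀))
        (Helper2.IsClassFunction.sub (hcf j) (hcf i₀))
        (fun x hx => by rw [Pi.sub_apply, hvan i x hx, hvan i₀ x hx, sub_zero])
        (fun x hx => by rw [Pi.sub_apply, hvan j x hx, hvan i₀ x hx, sub_zero])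
        (by rw [Pi.sub_apply, hdeg i i₀, sub_self])]
      rw [Helper2.classInner_sub_left, Helper2.classInner_sub_right, Helper2.classInner_sub_right,
        Helper2.classInner_irr (hirr i) (hirr j), Helper2.classInner_irr (hirr i) (hirr i₀),
        Helper2.classInner_irr (hirr i₀) (hirr j), Helper2.classInner_irr (hirr i₀) (hirr i₀),
        if_pos rfl, if_neg (fun h => hi (hinj h)), if_neg (fun h => hj (hinj h).symm)]
      by_cases hij : i = j
      · rw [if_pos hij, if_pos (by rw [hij])]
        norm_num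
      · rw [if_neg hij, if_neg (fun h => hij (hinj h))]
        norm_num)
  refine ⟨ε, hε, μ, hμ, hμinj, fun i j => ?_⟩
  have h1 := hτ i
  have h2 := hτ j
  have : indFun (Subgroup.normalizer S) (χ i) - indFun (Subgroup.normalizer S) (χ j) =
      (indFun (Subgroup.normalizer S) (χ i) - indFun (Subgroup.normalizer S) (χ i₀)) -
      (indFun (Subgroup.normalizer S) (χ j) - indFun (Subgroup.normalizer S) (χ i₀)) := by
    abel
  rw [this, h1, h2, ← smul_sub]
  congr 1
  abel

end Cfsg.Agent.S0170
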