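import Mathlib
import Cfsg.Statements.S0172
-- import your own Cfsg.Agent.* helpers here

set_option autoImplicit false
open Cfsg

namespace Cfsg.Agent.S0172

open scoped Pointwise

theorem card_commPairs_subgroup {G : Type*} [Group G] [Fintype G] (L : Subgroup G) :
    Nat.card {p : L × L // Commute p.1 p.2} = Nat.card {p : G × G // p.1 ∈ L ∧ p.2 ∈ L ∧
      p.1 * p.2 = p.2 * p.1} := by
  apply Nat.card_congr
  exact {
    toFun := fun p => ⟨(p.1.1, p.1.2), p.1.1.2, p.1.2.2, congrArg Subtype.val p.2.eq⟩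
    invFun := fun p => ⟨(⟨p.1.1, p.2.1⟩, ⟨p.1.2, p.2.2.1⟩), Subtype.ext p.2.2.2⟩
    left_inv := fun p => rfl
    right_inv := fun p => rfl }

theorem card_pairs_eq_sum {G : Type*} [Fintype G] (P : G → G → Prop)
    [∀ x y, Decidable (P x y)] :
    Nat.card {p : G × G // P p.1 p.2} = ∑ x : G, ∑ y : G, if P x y then 1 else 0 := by
  rw [Nat.card_eq_fintype_card, Fintype.card_subtype, Finset.card_filter,
    ← Finset.univ_product_univ, Finset.sum_product]

/-- Class number of a Frobenius group: if G = K H with K normal, K ⊓ H trivial and no non-identity element of H commuting with a non-identity element of K, then |H| * k(G) + 1 = |H| * k(H) + k(K), where k denotes the number of conjugacy classes. -/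
theorem result {G : Type*} [Group G] [Finite G] (K H : Subgroup G) [K.Normal] (hKH : K ⊓ H = ⊥) (hKH' : K ⊔ H = ⊤) (hfpf : ∀ h ∈ H, h ≠ 1 → ∀ k ∈ K, h * k = k * h → k = 1) : Nat.card H * Nat.card (ConjClasses G) + 1 = Nat.card H * Nat.card (ConjClasses H) + Nat.card (ConjClasses K) := by
  classical
  have := Fintype.ofFinite G
  -- class equations
  have hCG : Nat.card (ConjClasses G) * Nat.card G =
      ∑ x : G, ∑ y : G, if x * y = y * x then 1 else 0 := by
    rw [← card_comm_eq_card_conjClasses_mul_card]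
    exact card_pairs_eq_sum (fun x y => x * y = y * x)
  have hCL : ∀ L : Subgroup G, Nat.card (ConjClasses L) * Nat.card L =
      ∑ x : G, ∑ y : G, if x ∈ L ∧ y ∈ L ∧ x * y = y * x then 1 else 0 := by
    intro L
    rw [← card_comm_eq_card_conjClasses_mul_card, card_commPairs_subgroup]
    exact card_pairs_eq_sum (fun x y => x ∈ L ∧ y ∈ L ∧ x * y = y * x)
  -- basic structure
  have hinf : ∀ x : G, x ∈ K → x ∈ H → x = 1 := by
    intro x hxK hxH
    have : x ∈ K ⊓ H := ⟨hxK, hxH⟩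
    rw [hKH] at this
    exact Subgroup.mem_bot.mp this
  have hdec : ∀ g : G, ∃ k ∈ K, ∃ h ∈ H, g = k * h := by
    intro g
    have h1 : g ∈ ((K ⊔ H : Subgroup G) : Set G) := by rw [hKH']; trivial
    rw [Subgroup.normal_mul] at h1
    obtain ⟨k, hk, h, hh, rfl⟩ := Set.mem_mul.mp h1
    exact ⟨k, hk, h, hh, rfl⟩
  have hcard : Nat.card G = Nat.card K * Nat.card H := by
    have hc : Subgroup.IsComplement' K H := by
      apply Subgroup.isComplement'_of_disjoint_and_mul_eq_univ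
      · rw [disjoint_iff]; exact hKH
      · rw [← Subgroup.normal_mul, hKH']; rfl
    exact hc.card_mul_card.symm
  have hF3 : ∀ h ∈ H, h ≠ 1 → ∀ k ∈ K, ∃ k₀ ∈ K, k₀ * h * k₀⁻¹ = k * h := by
    intro h hh hne k hk
    have hmem : ∀ k₀ : K, (k₀ : G) * h * (k₀ : G)⁻¹ * h⁻¹ ∈ K := by
      intro k₀
      have e : (k₀ : G) * h * (k₀ : G)⁻¹ * h⁻¹ = (k₀ : G) * (h * (k₀ : G)⁻¹ * h⁻¹) := by group
      rw [e]
      exact K.mul_mem k₀.2 (Subgroup.Normal.conj_mem inferInstance _ (K.inv_mem k₀.2) h)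
    have hinj : Function.Injective (fun k₀ : K => (⟨_, hmem k₀⟩ : K)) := by
      intro k₁ k₂ h12
      have h1 : (k₁ : G) * h * (k₁ : G)⁻¹ * h⁻¹ = (k₂ : G) * h * (k₂ : G)⁻¹ * h⁻¹ :=
        congrArg Subtype.val h12
      have h2 : h * ((k₁ : G)⁻¹ * (k₂ : G)) = ((k₁ : G)⁻¹ * (k₂ : G)) * h := by
        have h3 : (k₁ : G) * h * (k₁ : G)⁻¹ = (k₂ : G) * h * (k₂ : G)⁻¹ :=
          mul_right_cancel h1
        calc h * ((k₁ : G)⁻¹ * (k₂ : G))
            = (k₁ : G)⁻¹ * ((k₁ : G) * h * (k₁ : G)⁻¹) * (k₂ : G) := by group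
          _ = (k₁ : G)⁻¹ * ((k₂ : G) * h * (k₂ : G)⁻¹) * (k₂ : G) := by rw [h3]
          _ = ((k₁ : G)⁻¹ * (k₂ : G)) * h := by group
      have h4 := hfpf h hh hne _ (K.mul_mem (K.inv_mem k₁.2) k₂.2) h2
      apply Subtype.ext
      exact (inv_mul_eq_one.mp h4)
    have hsurj := Finite.injective_iff_surjective.mp hinj
    obtain ⟨k₀, hk₀⟩ := hsurj ⟨k, hk⟩
    have h5 : (k₀ : G) * h * (k₀ : G)⁻¹ * h⁻¹ = k := congrArg Subtype.val hk₀
    refine ⟨k₀, k₀.2, ?_⟩
    rw [← h5]; group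
  have hconjK : ∀ g : G, g ∉ K → ∃ k₀ ∈ K, ∃ h ∈ H, h ≠ 1 ∧ g = k₀ * h * k₀⁻¹ := by
    intro g hg
    obtain ⟨k, hk, h, hh, rfl⟩ := hdec g
    have hne : h ≠ 1 := by
      rintro rfl
      apply hg
      rw [mul_one]; exact hk
    obtain ⟨k₀, hk₀, e⟩ := hF3 h hh hne k hk
    exact ⟨k₀, hk₀, h, hh, hne, e.symm⟩
  have hF2 : ∀ x ∈ K, x ≠ 1 → ∀ y, x * y = y * x → y ∈ K := by
    intro x hx hx1 y hxy
    by_contra hy
    obtain ⟨k₀, hk₀, h, hh, hne, rfl⟩ := hconjK y hy
    have h1 : h * (k₀⁻¹ * x * k₀) = (k₀⁻¹ * x * k₀) * h := by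
      calc h * (k₀⁻¹ * x * k₀) = k₀⁻¹ * ((k₀ * h * k₀⁻¹) * x) * k₀ := by group
        _ = k₀⁻¹ * (x * (k₀ * h * k₀⁻¹)) * k₀ := by rw [hxy]
        _ = (k₀⁻¹ * x * k₀) * h := by group
    have hmem : k₀⁻¹ * x * k₀ ∈ K := by
      have := Subgroup.Normal.conj_mem (inferInstance : K.Normal) x hx k₀⁻¹
      rwa [inv_inv] at this
    have h2 := hfpf h hh hne _ hmem h1
    apply hx1
    have e : x = k₀ * (k₀⁻¹ * x * k₀) * k₀⁻¹ := by group
    rw [e, h2]; group
  have hF4 : ∀ x ∈ H, x ≠ 1 → ∀ y, x * y = y * x → y ∈ H := by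
    intro x hx hx1 y hxy
    obtain ⟨k, hk, h', hh', rfl⟩ := hdec y
    have h1 : k⁻¹ * x * k = h' * x * h'⁻¹ := by
      calc k⁻¹ * x * k = k⁻¹ * (x * (k * h')) * h'⁻¹ := by group
        _ = k⁻¹ * ((k * h') * x) * h'⁻¹ := by rw [hxy]
        _ = h' * x * h'⁻¹ := by group
    have h2 : k⁻¹ * x * k * x⁻¹ = 1 := by
      apply hinf
      · have e : k⁻¹ * x * k * x⁻¹ = k⁻¹ * (x * k * x⁻¹) := by group
        rw [e]
        exact K.mul_mem (K.inv_mem hk) (Subgroup.Normal.conj_mem inferInstance k hk x)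
      · rw [h1]
        exact H.mul_mem (H.mul_mem (H.mul_mem hh' hx) (H.inv_mem hh')) (H.inv_mem hx)
    have h3 : x * k = k * x := by
      have e : x * k = k * (k⁻¹ * x * k * x⁻¹) * x := by group
      rw [e, h2]; group
    have h4 := hfpf x hx hx1 k hk h3
    rw [h4, one_mul]
    exact hh'
  -- the centralizer-size function
  obtain ⟨n, hn⟩ : ∃ n : G → ℕ, ∀ x, n x = ∑ y : G, if x * y = y * x then 1 else 0 :=
    ⟨_, fun _ => rfl⟩
  have hL_sum : ∀ L : Subgroup G, (∀ x ∈ L, x ≠ 1 → ∀ y, x * y = y * x → y ∈ L) →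
      (∑ x : G, ∑ y : G, if x ∈ L ∧ y ∈ L ∧ x * y = y * x then 1 else 0) =
      Nat.card L + ∑ x ∈ Finset.univ.filter (fun x : G => x ∈ L ∧ x ≠ 1), n x := by
    intro L hL
    have hterm : ∀ x : G, (∑ y : G, if x ∈ L ∧ y ∈ L ∧ x * y = y * x then 1 else 0) =
        (if x = 1 then Nat.card L else 0) + (if x ∈ L ∧ x ≠ 1 then n x else 0) := by
      intro x
      by_cases hx1 : x = 1
      · subst hx1
        have hc : Nat.card L = ∑ y : G, if y ∈ L then 1 else 0 := by
          rw [Nat.card_eq_fintype_card, Fintype.card_subtype, Finset.card_filter]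
        simp only [L.one_mem, true_and, one_mul, mul_one, and_true, if_true, ne_eq,
          not_true_eq_false, and_false, if_false, add_zero]
        exact hc.symm
      · by_cases hxL : x ∈ L
        · rw [if_neg hx1, if_pos ⟨hxL, hx1⟩, zero_add, hn x]
          apply Finset.sum_congr rfl
          intro y _
          by_cases hc : x * y = y * x
          · rw [if_pos hc, if_pos ⟨hxL, hL x hxL hx1 y hc, hc⟩]
          · rw [if_neg hc, if_neg (fun h => hc h.2.2)]
        · rw [if_neg hx1, if_neg (fun h => hxL h.1), zero_add]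
          apply Finset.sum_eq_zero
          intro y _
          rw [if_neg (fun h => hxL h.1)]
    rw [Finset.sum_congr rfl (fun x _ => hterm x), Finset.sum_add_distrib, Finset.sum_ite_eq',
      if_pos (Finset.mem_univ _), ← Finset.sum_filter]
  have hK_sum := hL_sum K hF2
  have hH_sum := hL_sum H hF4
  -- conjugation invariance
  have hn_conj : ∀ k h : G, n (k * h * k⁻¹) = n h := by
    intro k h
    rw [hn, hn]
    apply Fintype.sum_equiv (MulAut.conj k⁻¹).toEquiv
    intro y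
    have hiff : (k * h * k⁻¹) * y = y * (k * h * k⁻¹) ↔
        h * ((MulAut.conj k⁻¹).toEquiv y) = ((MulAut.conj k⁻¹).toEquiv y) * h := by
      simp only [MulEquiv.toEquiv_eq_coe, MulEquiv.coe_toEquiv, MulAut.conj_apply, inv_inv]
      constructor
      · intro h1
        calc h * (k⁻¹ * y * k) = k⁻¹ * ((k * h * k⁻¹) * y) * k := by group
          _ = k⁻¹ * (y * (k * h * k⁻¹)) * k := by rw [h1]
          _ = k⁻¹ * y * k * h := by group
      · intro h1
        calc (k * h * k⁻¹) * y = k * (h * (k⁻¹ * y * k)) * k⁻¹ := by group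
          _ = k * ((k⁻¹ * y * k) * h) * k⁻¹ := by rw [h1]
          _ = y * (k * h * k⁻¹) := by group
    by_cases hc : (k * h * k⁻¹) * y = y * (k * h * k⁻¹)
    · rw [if_pos hc, if_pos (hiff.mp hc)]
    · rw [if_neg hc, if_neg (fun h' => hc (hiff.mpr h'))]
  -- sum over the complement of K
  have hout : (∑ x ∈ Finset.univ.filter (fun x : G => x ∉ K), n x) =
      Nat.card K * ∑ x ∈ Finset.univ.filter (fun x : G => x ∈ H ∧ x ≠ 1), n x := by
    have hKc : Nat.card K = (Finset.univ.filter (fun x : G => x ∈ K)).card := by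
      rw [Nat.card_eq_fintype_card, Fintype.card_subtype]
    have hprod : (Finset.univ.filter (fun x : G => x ∈ K)).card *
        (∑ x ∈ Finset.univ.filter (fun x : G => x ∈ H ∧ x ≠ 1), n x) =
        ∑ p ∈ (Finset.univ.filter (fun x : G => x ∈ K)) ×ˢ
          (Finset.univ.filter (fun x : G => x ∈ H ∧ x ≠ 1)), n p.2 := by
      rw [Finset.sum_product]
      simp only [Finset.sum_const, smul_eq_mul]
    rw [hKc, hprod]
    symm
    apply Finset.sum_bij (fun (p : G × G) _ => p.1 * p.2 * p.1⁻¹)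
    · intro p hp
      rw [Finset.mem_product, Finset.mem_filter, Finset.mem_filter] at hp
      rw [Finset.mem_filter]
      refine ⟨Finset.mem_univ _, fun hmem => ?_⟩
      apply hp.2.2.2
      apply hinf _ _ hp.2.2.1
      have := Subgroup.Normal.conj_mem (inferInstance : K.Normal) _ hmem p.1⁻¹
      have e : p.1⁻¹ * (p.1 * p.2 * p.1⁻¹) * p.1⁻¹⁻¹ = p.2 := by group
      rwa [e] at this
    · intro p hp q hq hpq
      rw [Finset.mem_product, Finset.mem_filter, Finset.mem_filter] at hp hq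
      have hpq' : p.1 * p.2 * p.1⁻¹ = q.1 * q.2 * q.1⁻¹ := hpq
      have h1 : (q.1⁻¹ * p.1) * p.2 * (q.1⁻¹ * p.1)⁻¹ = q.2 := by
        calc (q.1⁻¹ * p.1) * p.2 * (q.1⁻¹ * p.1)⁻¹ = q.1⁻¹ * (p.1 * p.2 * p.1⁻¹) * q.1 := by group
          _ = q.1⁻¹ * (q.1 * q.2 * q.1⁻¹) * q.1 := by rw [hpq']
          _ = q.2 := by group
      have hkK : q.1⁻¹ * p.1 ∈ K := K.mul_mem (K.inv_mem hq.1.2) hp.1.2
      have h2 : (q.1⁻¹ * p.1) * p.2 * (q.1⁻¹ * p.1)⁻¹ * p.2⁻¹ = 1 := by
        apply hinf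
        · have e : (q.1⁻¹ * p.1) * p.2 * (q.1⁻¹ * p.1)⁻¹ * p.2⁻¹ =
              (q.1⁻¹ * p.1) * (p.2 * (q.1⁻¹ * p.1)⁻¹ * p.2⁻¹) := by group
          rw [e]
          exact K.mul_mem hkK (Subgroup.Normal.conj_mem inferInstance _ (K.inv_mem hkK) p.2)
        · rw [h1]
          exact H.mul_mem hq.2.2.1 (H.inv_mem hp.2.2.1)
      have h3 : p.2 = q.2 := by
        rw [h1] at h2
        exact (mul_inv_eq_one.mp h2).symm
      have h4 : p.2 * (q.1⁻¹ * p.1) = (q.1⁻¹ * p.1) * p.2 := by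
        have e : (q.1⁻¹ * p.1) * p.2 =
            ((q.1⁻¹ * p.1) * p.2 * (q.1⁻¹ * p.1)⁻¹ * p.2⁻¹) * p.2 * (q.1⁻¹ * p.1) := by group
        rw [e, h2]; group
      have h5 := hfpf p.2 hp.2.2.1 hp.2.2.2 _ hkK h4
      have h6 : p.1 = q.1 := (inv_mul_eq_one.mp h5).symm
      exact Prod.ext h6 h3
    · intro g hg
      rw [Finset.mem_filter] at hg
      obtain ⟨k₀, hk₀, h, hh, hne, rfl⟩ := hconjK g hg.2
      refine ⟨(k₀, h), ?_, rfl⟩
      rw [Finset.mem_product, Finset.mem_filter, Finset.mem_filter]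
      exact ⟨⟨Finset.mem_univ _, hk₀⟩, Finset.mem_univ _, hh, hne⟩
    · intro p _
      exact (hn_conj p.1 p.2).symm
  -- total
  have hG_sum : (∑ x : G, n x) =
      Nat.card G + (∑ x ∈ Finset.univ.filter (fun x : G => x ∈ K ∧ x ≠ 1), n x) +
      Nat.card K * ∑ x ∈ Finset.univ.filter (fun x : G => x ∈ H ∧ x ≠ 1), n x := by
    rw [← Finset.sum_filter_add_sum_filter_not Finset.univ (fun x : G => x ∈ K), hout]
    congr 1
    have hsplit : Finset.univ.filter (fun x : G => x ∈ K) =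
        insert 1 (Finset.univ.filter (fun x : G => x ∈ K ∧ x ≠ 1)) := by
      ext x
      rw [Finset.mem_insert, Finset.mem_filter, Finset.mem_filter]
      constructor
      · rintro ⟨-, hx⟩
        by_cases hx1 : x = 1
        · exact Or.inl hx1
        · exact Or.inr ⟨Finset.mem_univ _, hx, hx1⟩
      · rintro (rfl | ⟨-, hx, -⟩)
        · exact ⟨Finset.mem_univ _, K.one_mem⟩
        · exact ⟨Finset.mem_univ _, hx⟩
    rw [hsplit, Finset.sum_insert (by simp)]
    congr 1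
    rw [hn 1]
    simp only [one_mul, mul_one, if_true, Finset.sum_const, Finset.card_univ, smul_eq_mul]
    rw [Nat.card_eq_fintype_card]
  have hCK := hCL K
  have hCH := hCL H
  rw [hK_sum] at hCK
  rw [hH_sum] at hCH
  have hCG' : Nat.card (ConjClasses G) * Nat.card G = ∑ x : G, n x := by
    rw [hCG]
    exact Finset.sum_congr rfl (fun x _ => (hn x).symm)
  rw [hG_sum] at hCG'
  have hKpos : 0 < Nat.card K := Nat.card_pos
  generalize (∑ x ∈ Finset.univ.filter (fun x : G => x ∈ K ∧ x ≠ 1), n x) = A at *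
  generalize (∑ x ∈ Finset.univ.filter (fun x : G => x ∈ H ∧ x ≠ 1), n x) = B at *
  rw [hcard] at hCG'
  generalize Nat.card (ConjClasses G) = kG at *
  generalize Nat.card (ConjClasses K) = kK at *
  generalize Nat.card (ConjClasses H) = kH at *
  generalize Nat.card K = cK at *
  generalize Nat.card H = cH at *
  apply Nat.eq_of_mul_eq_mul_left hKpos
  calc cK * (cH * kG + 1) = kG * (cK * cH) + cK := by ring
    _ = cK * cH + A + cK * B + cK := by rw [hCG']
    _ = cK * (cH + B) + (cK + A) := by ring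
    _ = cK * (kH * cH) + kK * cK := by rw [hCK, hCH]
    _ = cK * (cH * kH + kK) := by ring

end Cfsg.Agent.S0172
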