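import Cfsg.Agent.Helper2.CharConstituent
import Cfsg.Agent.Helper2.CharLinear
import Cfsg.Agent.Helper24.ClassSum
import Cfsg.Statements.S0175
-- import your own Cfsg.Agent.* helpers here

set_option autoImplicit false
open Cfsg

namespace Cfsg.Agent.S0175

open Cfsg.Agent.Helper2 Cfsg.Agent
open scoped commutatorElement

/-- value of a character on x equals degree if each irreducible constituent has this property. -/
theorem char_eq_of_constituents {G : Type*} [Group G] [Fintype G] {ψ : G → ℂ}
    (hψ : IsCharacter G ψ) (x : G)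
    (h : ∀ φ : G → ℂ, IsIrrCharacter G φ → classInner ψ φ ≠ 0 → φ x = φ 1) : ψ x = ψ 1 := by
  classical
  have := Helper24.finite_irrCharacter (G := G)
  have := Fintype.ofFinite (IrrCharacter G)
  have e := class_fn_expansion (IsCharacter.isClassFunction hψ)
  have e1 := congrFun e x
  have e2 := congrFun e 1
  rw [e1, e2]
  simp only [Finset.sum_apply, Pi.smul_apply, smul_eq_mul]
  apply Finset.sum_congr rfl
  intro χ _
  by_cases h0 : classInner ψ (χ : G → ℂ) = 0
  · rw [h0]; simp
  · rw [h χ χ.2 h0]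

theorem mem_of_indFun_one_eq {G : Type*} [Group G] [Fintype G] (H : Subgroup G) (x : G)
    (h : indFun H (fun _ => (1:ℂ)) x = indFun H (fun _ => (1:ℂ)) 1) : x ∈ H := by
  classical
  rw [indFun_apply, indFun_apply] at h
  have hH0 : (Nat.card H : ℂ) ≠ 0 := by exact_mod_cast Nat.card_pos.ne'
  have h2 := mul_left_cancel₀ (inv_ne_zero hH0) h
  by_contra hx
  have e1 : ∀ g : G, extendByZero H (fun _ => (1:ℂ)) (g⁻¹ * x * g) =
      ((if g⁻¹ * x * g ∈ H then (1:ℝ) else 0 : ℝ) : ℂ) := by
    intro g; rw [extendByZero_apply]; split_ifs <;> simp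
  have e2 : ∀ g : G, extendByZero H (fun _ => (1:ℂ)) (g⁻¹ * 1 * g) = ((1:ℝ) : ℂ) := by
    intro g
    rw [extendByZero_apply_mem H _ (by simp)]; simp
  rw [Finset.sum_congr rfl (fun g _ => e1 g), Finset.sum_congr rfl (fun g _ => e2 g),
    ← Complex.ofReal_sum, ← Complex.ofReal_sum] at h2
  have h3 : ∑ g : G, (if g⁻¹ * x * g ∈ H then (1:ℝ) else 0) = ∑ g : G, (1:ℝ) :=
    Complex.ofReal_injective h2
  have h4 : ∑ g : G, (if g⁻¹ * x * g ∈ H then (1:ℝ) else 0) < ∑ g : G, (1:ℝ) := by
    apply Finset.sum_lt_sum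
    · intro g _; split_ifs <;> norm_num
    · exact ⟨1, Finset.mem_univ _, by simp [hx]⟩
  exact absurd h3 h4.ne

theorem lam_commutator {G : Type*} [Group G] (H : Subgroup G) (lam : H →* ℂˣ) :
    ⁅H, H⁆ ≤ lam.ker.map H.subtype := by
  rw [Subgroup.commutator_le]
  intro a ha b hb
  refine ⟨⁅(⟨a, ha⟩ : H), (⟨b, hb⟩ : H)⁆, ?_, rfl⟩
  show ⁅(⟨a, ha⟩ : H), (⟨b, hb⟩ : H)⁆ ∈ lam.ker
  rw [MonoidHom.mem_ker, map_commutatorElement]
  exact commutatorElement_eq_one_iff_commute.mpr (Commute.all _ _)

theorem taketa_aux {G : Type*} [Group G] [Fintype G]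
    (hM : ∀ χ : G → ℂ, IsIrrCharacter G χ → ∃ (H : Subgroup G) (lam : H →* ℂˣ),
      χ = indFun H (fun h => (lam h : ℂ))) :
    ∀ d : ℕ, ∃ i : ℕ, ∀ χ : G → ℂ, IsIrrCharacter G χ → charDegree χ ≤ d →
      ∀ x ∈ derivedSeries G i, χ x = χ 1 := by
  intro d
  induction d with
  | zero =>
    refine ⟨0, ?_⟩
    intro χ hχ hd
    have := Helper24.irr_degree_pos hχ
    omega
  | succ d ih =>
    obtain ⟨i, hi⟩ := ih
    refine ⟨i + 1, ?_⟩
    intro χ hχ hd x hx
    have hanti : derivedSeries G (i+1) ≤ derivedSeries G i :=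
      derivedSeries_antitone G (Nat.le_succ i)
    by_cases hd' : charDegree χ ≤ d
    · exact hi χ hχ hd' x (hanti hx)
    have hdeg : charDegree χ = d + 1 := by omega
    obtain ⟨H, lam, hlam⟩ := hM χ hχ
    have hχ1 : χ 1 = (H.index : ℂ) := by
      rw [hlam, indFun_apply_one]; simp
    have hidx : H.index = d + 1 := by
      have := Helper24.charDegree_spec (Helper24.isCharacter_of_irr hχ)
      rw [hχ1, hdeg] at this
      exact_mod_cast this
    have hπc : IsCharacter G (indFun H (fun _ => (1:ℂ))) := isCharacter_indFun H isCharacter_one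
    have hπ1 : indFun H (fun _ => (1:ℂ)) 1 = (H.index : ℂ) := by rw [indFun_apply_one]; simp
    have h1irr : IsIrrCharacter G (fun _ => (1:ℂ)) := isIrrCharacter_one_fun
    have hinner : classInner (indFun H (fun _ => (1:ℂ))) (fun _ => (1:ℂ)) ≠ 0 := by
      classical
      have := Fintype.ofFinite H
      rw [frobenius_reciprocity H _ _ (IsIrrCharacter.isClassFunction h1irr)]
      unfold classInner
      have hH0 : (Nat.card H : ℂ) ≠ 0 := by exact_mod_cast Nat.card_pos.ne'
      simp [Nat.card_eq_fintype_card]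
    have hψc : IsCharacter G (indFun H (fun _ => (1:ℂ)) - fun _ => (1:ℂ)) :=
      isCharacter_sub_of_constituent hπc h1irr hinner
    have hψdeg : charDegree (indFun H (fun _ => (1:ℂ)) - fun _ => (1:ℂ)) = d := by
      have := Helper24.charDegree_spec hψc
      rw [Pi.sub_apply, hπ1, hidx] at this
      have h2 : ((d:ℕ):ℂ) = (charDegree (indFun H (fun _ => (1:ℂ)) - fun _ => (1:ℂ)) : ℂ) := by
        rw [← this]; push_cast; ring
      exact_mod_cast h2.symm
    have hGH : derivedSeries G i ≤ H := by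
      intro y hy
      apply mem_of_indFun_one_eq H y
      have h3 : (indFun H (fun _ => (1:ℂ)) - fun _ => (1:ℂ) : G → ℂ) y =
          (indFun H (fun _ => (1:ℂ)) - fun _ => (1:ℂ) : G → ℂ) 1 := by
        apply char_eq_of_constituents hψc
        intro φ hφ hne
        apply hi φ hφ _ y hy
        have := charDegree_le_of_constituent hψc hφ hne
        omega
      simp only [Pi.sub_apply] at h3
      exact sub_left_injective h3
    have hker : ∀ y ∈ derivedSeries G (i+1), ∃ hy : y ∈ H, lam ⟨y, hy⟩ = 1 := by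
      intro y hy
      rw [derivedSeries_succ] at hy
      have h4 := (Subgroup.commutator_mono hGH hGH).trans (lam_commutator H lam) hy
      obtain ⟨z, hz, rfl⟩ := h4
      exact ⟨z.2, hz⟩
    rw [hχ1, hlam, indFun_apply]
    have hterm : ∀ g : G, extendByZero H (fun h => (lam h : ℂ)) (g⁻¹ * x * g) = 1 := by
      intro g
      have hn : g⁻¹ * x * g ∈ derivedSeries G (i+1) := by
        have hnorm : (derivedSeries G (i+1)).Normal := derivedSeries_normal G (i+1)
        have := hnorm.conj_mem x hx g⁻¹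
        simpa using this
      obtain ⟨hy, hl⟩ := hker _ hn
      rw [extendByZero_apply_mem H _ hy, hl]; simp
    rw [Finset.sum_congr rfl (fun g _ => hterm g), Finset.sum_const, Finset.card_univ,
      nsmul_eq_mul, mul_one, ← Nat.card_eq_fintype_card, ← Subgroup.index_mul_card H]
    have hH0 : (Nat.card H : ℂ) ≠ 0 := by exact_mod_cast Nat.card_pos.ne'
    push_cast
    field_simp

/-- Taketa's Theorem on M-groups: if every irreducible complex character of a finite group is induced from a linear character (a homomorphism to ℂˣ) of some subgroup, the group is solvable. -/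
theorem result {G : Type*} [Group G] [Fintype G] (hM : ∀ χ : G → ℂ, Cfsg.IsIrrCharacter G χ → ∃ (H : Subgroup G) (lam : H →* ℂˣ), χ = Cfsg.indFun H (fun h => (lam h : ℂ))) : Group.IsSolvable G := by
  classical
  obtain ⟨i, hi⟩ := taketa_aux hM (Nat.card G)
  rw [Group.isSolvable_def]
  refine ⟨i, ?_⟩
  rw [eq_bot_iff]
  intro x hx
  have : IsConj x 1 := by
    apply Helper24.isConj_of_irr_eq
    intro χ
    apply hi χ χ.2 _ x hx
    exact Nat.le_of_dvd Nat.card_pos (irr_degree_dvd_card χ.2)
  rw [isConj_one_left] at this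
  exact this

end Cfsg.Agent.S0175
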