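import Cfsg.Agent.Helper2.IndFun
import Cfsg.Agent.Helper2.CharInner
import Cfsg.Agent.Helper2.CharDecomp
import Cfsg.Agent.Helper2.CharConstituent
import Cfsg.Agent.Helper10.IndLemmas
import Cfsg.Agent.Helper24.LinearChar
import Cfsg.Agent.Helper24.CharBasic
import Cfsg.Statements.S0177
-- import your own Cfsg.Agent.* helpers here

set_option autoImplicit false
open Cfsg

namespace Cfsg.Agent.S0177

open Cfsg.Agent.Helper2 Cfsg.Agent

/-- Integral combinations of functions induced from linear characters of cyclic subgroups. -/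
def ArtinSpan {G : Type*} [Group G] [Fintype G] (f : G → ℂ) : Prop :=
  ∃ l : List ((A : Subgroup G) × ((A →* ℂˣ) × ℤ)), (∀ t ∈ l, IsCyclic t.1) ∧
    f = (l.map fun t => (t.2.2 : ℂ) • Cfsg.indFun t.1 (fun a => (t.2.1 a : ℂ))).sum

section

variable {G : Type*} [Group G] [Fintype G]

theorem artinSpan_zero : ArtinSpan (0 : G → ℂ) := ⟨[], by simp, by simp⟩

theorem ArtinSpan.add {f g : G → ℂ} (hf : ArtinSpan f) (hg : ArtinSpan g) :
    ArtinSpan (f + g) := by
  obtain ⟨l1, h1, e1⟩ := hf
  obtain ⟨l2, h2, e2⟩ := hg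
  refine ⟨l1 ++ l2, ?_, ?_⟩
  · intro t ht
    rcases List.mem_append.1 ht with h | h
    · exact h1 t h
    · exact h2 t h
  · rw [List.map_append, List.sum_append, ← e1, ← e2]

theorem ArtinSpan.zsmul {f : G → ℂ} (hf : ArtinSpan f) (n : ℤ) : ArtinSpan ((n : ℂ) • f) := by
  obtain ⟨l, h, e⟩ := hf
  refine ⟨l.map (fun t => ⟨t.1, t.2.1, n * t.2.2⟩), ?_, ?_⟩
  · intro t ht
    obtain ⟨s, hs, rfl⟩ := List.mem_map.1 ht
    exact h s hs
  · rw [e, List.smul_sum, List.map_map, List.map_map]
    congr 1
    apply List.map_congr_left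
    intro t _
    simp only [Function.comp_apply]
    push_cast
    rw [mul_smul]

theorem ArtinSpan.sub {f g : G → ℂ} (hf : ArtinSpan f) (hg : ArtinSpan g) :
    ArtinSpan (f - g) := by
  have h := hf.add (hg.zsmul (-1))
  have e : f + (((-1 : ℤ) : ℂ)) • g = f - g := by
    push_cast
    rw [neg_one_smul, sub_eq_add_neg]
  rwa [e] at h

theorem artinSpan_sum {ι : Type*} (s : Finset ι) (F : ι → G → ℂ)
    (h : ∀ i ∈ s, ArtinSpan (F i)) : ArtinSpan (∑ i ∈ s, F i) :=
  Finset.sum_induction F ArtinSpan (fun _ _ ha hb => ha.add hb) artinSpan_zero h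

theorem artinSpan_ind (A : Subgroup G) (hA : IsCyclic A) (lam : A →* ℂˣ) :
    ArtinSpan (Cfsg.indFun A (fun a => (lam a : ℂ))) :=
  ⟨[⟨A, lam, 1⟩], by intro t ht; rw [List.mem_singleton] at ht; subst ht; exact hA, by simp⟩

open Classical in
/-- Sum over conjugates generating exactly `B`. -/
noncomputable def artinK (B : Subgroup G) (f : G → ℂ) : G → ℂ :=
  fun g => ∑ x : G, if Subgroup.zpowers (x⁻¹ * g * x) = B then f (x⁻¹ * g * x) else 0

open Classical in
/-- Sum over conjugates lying in `A`. -/
noncomputable def artinJ (A : Subgroup G) (f : G → ℂ) : G → ℂ :=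
  fun g => ∑ x : G, if x⁻¹ * g * x ∈ A then f (x⁻¹ * g * x) else 0

open Classical in
theorem artinJ_eq_sum [Fintype (Subgroup G)] (A : Subgroup G) (f : G → ℂ) :
    artinJ A f = ∑ B ∈ Finset.univ.filter (fun B : Subgroup G => B ≤ A), artinK B f := by
  funext g
  rw [Finset.sum_apply]
  simp only [artinJ, artinK]
  rw [Finset.sum_comm]
  apply Finset.sum_congr rfl
  intro x _
  rw [Finset.sum_ite_eq]
  simp only [Finset.mem_filter, Finset.mem_univ, true_and, Subgroup.zpowers_le]

open Classical in
theorem sum_artinK [Fintype (Subgroup G)] (f : G → ℂ) (hf : IsClassFunction G f) :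
    ∑ B : Subgroup G, artinK B f = (Nat.card G : ℂ) • f := by
  funext g
  rw [Finset.sum_apply]
  simp only [artinK]
  rw [Finset.sum_comm]
  have h1 : ∀ x : G, ∑ B : Subgroup G,
      (if Subgroup.zpowers (x⁻¹ * g * x) = B then f (x⁻¹ * g * x) else 0) = f g := by
    intro x
    rw [Finset.sum_ite_eq]
    simp only [Finset.mem_univ, if_true]
    have h2 := hf g x⁻¹
    rwa [inv_inv] at h2
  rw [Finset.sum_congr rfl (fun x _ => h1 x), Finset.sum_const, Finset.card_univ, Pi.smul_apply,
    Nat.card_eq_fintype_card, nsmul_eq_mul, smul_eq_mul]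

open Classical in
theorem artinK_eq_zero (B : Subgroup G) (hB : ¬ IsCyclic B) (f : G → ℂ) : artinK B f = 0 := by
  funext g
  simp only [artinK, Pi.zero_apply]
  apply Finset.sum_eq_zero
  intro x _
  rw [if_neg]
  intro h
  apply hB
  rw [← h]
  infer_instance

open Classical in
theorem artinJ_eq_ind (A : Subgroup G) (f : G → ℂ) :
    artinJ A f = (Nat.card A : ℂ) • Cfsg.indFun A (fun a => f a) := by
  funext g
  have hA0 : (Nat.card A : ℂ) ≠ 0 := by exact_mod_cast Nat.card_pos.ne'
  rw [Pi.smul_apply, indFun_apply, smul_eq_mul, ← mul_assoc, mul_inv_cancel₀ hA0, one_mul]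
  simp only [artinJ]
  apply Finset.sum_congr rfl
  intro x _
  rw [extendByZero_apply]
  split_ifs <;> rfl

theorem artinSpan_J (A : Subgroup G) (hA : IsCyclic A) (χ : G → ℂ) (hχ : IsCharacter G χ) :
    ArtinSpan (artinJ A χ) := by
  have hFA : Fintype A := Fintype.ofFinite A
  rw [artinJ_eq_ind]
  have hres : IsCharacter A (fun a : A => χ a) := Helper24.isCharacter_restrict A hχ
  obtain ⟨l, hl, el⟩ := IsCharacter.exists_list hres
  have hcomm : ∀ a b : A, a * b = b * a := by
    intro a b
    have hc : IsMulCommutative A := IsCyclic.isMulCommutative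
    exact hc.is_comm.comm a b
  rw [el]
  have key : ∀ l : List (A → ℂ), (∀ φ ∈ l, IsIrrCharacter A φ) →
      ArtinSpan (Cfsg.indFun A l.sum) := by
    intro l
    induction l with
    | nil =>
      intro _
      rw [List.sum_nil, Helper10.indFun_zero]
      exact artinSpan_zero
    | cons φ l ih =>
      intro h
      rw [List.sum_cons, Helper10.indFun_add]
      refine ArtinSpan.add ?_ (ih (fun ψ hψ => h ψ (List.mem_cons_of_mem _ hψ)))
      have hφ := h φ List.mem_cons_self
      have h1 : φ 1 = 1 := irr_abelian_linear hcomm hφ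
      have hφc : IsCharacter A φ := Helper24.isCharacter_of_irr hφ
      have hmul := Helper24.linear_char_mul hφc h1
      have e : φ = fun a => ((MonoidHom.toHomUnits ⟨⟨φ, h1⟩, hmul⟩ : A →* ℂˣ) a : ℂ) := by
        funext a; rfl
      rw [e]
      exact artinSpan_ind A hA _
  have h3 := (key l hl).zsmul (Nat.card A : ℤ)
  simpa using h3

theorem artinSpan_K [Fintype (Subgroup G)] (χ : G → ℂ) (hχ : IsCharacter G χ) :
    ∀ n : ℕ, ∀ A : Subgroup G, Nat.card A = n → ArtinSpan (artinK A χ) := by
  classical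
  intro n
  induction n using Nat.strong_induction_on with
  | _ n ih =>
    intro A hA
    by_cases hc : IsCyclic A
    · have h1 := artinJ_eq_sum A χ
      have hAmem : A ∈ Finset.univ.filter (fun B : Subgroup G => B ≤ A) := by simp
      rw [← Finset.add_sum_erase _ _ hAmem] at h1
      have h2 : artinK A χ = artinJ A χ -
          ∑ B ∈ (Finset.univ.filter (fun B : Subgroup G => B ≤ A)).erase A, artinK B χ := by
        rw [h1, add_sub_cancel_right]
      rw [h2]
      refine (artinSpan_J A hc χ hχ).sub (artinSpan_sum _ _ ?_)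
      intro B hB
      rw [Finset.mem_erase, Finset.mem_filter] at hB
      have hlt : Nat.card B < n := by
        rw [← hA]
        by_contra hge
        exact hB.1 (Subgroup.eq_of_le_of_card_ge hB.2.2 (not_lt.mp hge))
      exact ih _ hlt B rfl
    · rw [artinK_eq_zero A hc]
      exact artinSpan_zero

end

/-- The Artin induction Theorem: for a character χ of a finite group, |G| • χ is a ℤ-linear combination of functions induced from homomorphisms of cyclic subgroups into ℂˣ. -/
theorem result {G : Type*} [Group G] [Fintype G] (χ : G → ℂ) (hχ : Cfsg.IsCharacter G χ) : ∃ l : List ((A : Subgroup G) × ((A →* ℂˣ) × ℤ)), (∀ t ∈ l, IsCyclic t.1) ∧ (Nat.card G : ℂ) • χ = (l.map fun t => (t.2.2 : ℂ) • Cfsg.indFun t.1 (fun a => (t.2.1 a : ℂ))).sum := by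
  classical
  have hfin : Finite (Subgroup G) :=
    Finite.of_injective (fun H : Subgroup G => (H : Set G)) SetLike.coe_injective
  have := Fintype.ofFinite (Subgroup G)
  have hcf : IsClassFunction G χ := IsCharacter.isClassFunction hχ
  have h1 := sum_artinK χ hcf
  have h2 : ArtinSpan (∑ B : Subgroup G, artinK B χ) :=
    artinSpan_sum _ _ (fun B _ => artinSpan_K χ hχ _ B rfl)
  rw [h1] at h2
  exact h2

end Cfsg.Agent.S0177
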