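import Cfsg.Agent.Helper2.CharConstituent
import Cfsg.Statements.S0178
-- import your own Cfsg.Agent.* helpers here

set_option autoImplicit false
open Cfsg

namespace Cfsg.Agent.S0178

/-- The degree of an irreducible complex representation of a finite group is at most the index of any abelian subgroup. -/
theorem result {G : Type*} [Group G] [Finite G] {V : Type*} [AddCommGroup V] [Module ℂ V] [FiniteDimensional ℂ V] (ρ : Representation ℂ G V) [ρ.IsIrreducible] (A : Subgroup G) (hA : ∀ a ∈ A, ∀ b ∈ A, a * b = b * a) : Module.finrank ℂ V ≤ A.index := by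
  classical
  have := Fintype.ofFinite G
  have := Fintype.ofFinite A
  have hirr := Helper2.isIrrCharacter_of_rep ρ
  have hch := Helper24.isCharacter_of_irr hirr
  have hnt : Nontrivial V := by
    by_contra hn
    rw [not_nontrivial_iff_subsingleton] at hn
    have : (⊥ : Subrepresentation ρ) = ⊤ := by
      apply Subrepresentation.toSubmodule_injective
      exact Subsingleton.elim _ _
    exact bot_ne_top this
  have hd0 : (Module.finrank ℂ V : ℂ) ≠ 0 := by
    exact_mod_cast (Module.finrank_pos (R := ℂ) (M := V)).ne'
  have h1 : ρ.character 1 = (Module.finrank ℂ V : ℂ) := by rw [Representation.char_one]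
  have hresch := Helper24.isCharacter_restrict A hch
  have hres0 : (fun a : A => ρ.character a) ≠ 0 := by
    intro h
    have := congrFun h 1
    simp only [Pi.zero_apply] at this
    exact hd0 (h1 ▸ this)
  obtain ⟨φ, hφ, hφne⟩ := Helper2.exists_irr_constituent
    (Helper2.IsCharacter.isClassFunction hresch) hres0
  have hφ1 : φ 1 = 1 := Helper2.irr_abelian_linear
    (fun a b => Subtype.ext (hA a a.2 b b.2)) hφ
  have hindch := Helper2.isCharacter_indFun A (Helper24.isCharacter_of_irr hφ) (G := G)
  have hfr : classInner (indFun A φ) ρ.character ≠ 0 := by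
    rw [Helper2.frobenius_reciprocity A φ _ (Helper2.IsCharacter.isClassFunction hch),
      ← Helper2.classInner_conj_symm]
    simpa using hφne
  have hle := Helper2.charDegree_le_of_constituent hindch hirr hfr
  have e1 : (charDegree ρ.character : ℂ) = (Module.finrank ℂ V : ℂ) := by
    rw [← Helper24.charDegree_spec hch, h1]
  have e2 : (charDegree (indFun A φ) : ℂ) = (A.index : ℂ) := by
    rw [← Helper24.charDegree_spec hindch, Helper2.indFun_apply_one, hφ1, mul_one]
  have e1' : charDegree ρ.character = Module.finrank ℂ V := by exact_mod_cast e1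
  have e2' : charDegree (indFun A φ) = A.index := by exact_mod_cast e2
  rw [e1', e2'] at hle
  exact hle

end Cfsg.Agent.S0178
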