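import Cfsg.Agent.Helper2.CharCenter
import Cfsg.Statements.S0179
-- import your own Cfsg.Agent.* helpers here

set_option autoImplicit false
open Cfsg

namespace Cfsg.Agent.S0179

/-- The degree of an irreducible complex representation of a finite group divides the index of the centre. -/
theorem result {G : Type*} [Group G] [Finite G] {V : Type*} [AddCommGroup V] [Module ℂ V] [FiniteDimensional ℂ V] (ρ : Representation ℂ G V) [ρ.IsIrreducible] : Module.finrank ℂ V ∣ (Subgroup.center G).index := by
  classical
  have := Fintype.ofFinite G
  exact Helper2.finrank_dvd_index_center ρ

end Cfsg.Agent.S0179
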