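import Cfsg.Agent.Helper2.CharGalois
import Cfsg.Agent.Helper2.CharInner
import Cfsg.Agent.Helper24.ClassSum
import Cfsg.Statements.S0180
-- import your own Cfsg.Agent.* helpers here

set_option autoImplicit false
open Cfsg

namespace Cfsg.Agent.S0180

open Cfsg.Agent.Helper2 Cfsg.Agent Polynomial

/-- Every irreducible complex character of a finite group takes only rational values if and only if g is conjugate to g ^ m for every element g and every m coprime to the group order. -/
theorem result {G : Type*} [Group G] [Finite G] : (∀ χ : Cfsg.IrrCharacter G, ∀ g : G, ∃ q : ℚ, (χ : G → ℂ) g = (q : ℂ)) ↔ ∀ m : ℕ, m.Coprime (Nat.card G) → ∀ g : G, IsConj g (g ^ m) := by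
  classical
  have hN : 0 < Nat.card G := Nat.card_pos
  have : NeZero (Nat.card G) := ⟨hN.ne'⟩
  obtain ⟨ζ, hζ⟩ : ∃ ζ : ℂ, IsPrimitiveRoot ζ (Nat.card G) :=
    ⟨_, Complex.isPrimitiveRoot_exp _ hN.ne'⟩
  have hgN : ∀ g : G, g ^ Nat.card G = 1 := fun g => pow_card_eq_one'
  constructor
  · intro h m hm g
    apply Helper24.isConj_of_irr_eq
    intro χ
    obtain ⟨P, hP⟩ := Helper24.char_poly (Helper24.isCharacter_of_irr χ.2) g (Nat.card G) hN
      (hgN g) ζ hζ
    obtain ⟨q, hq⟩ := h χ g
    have hint : IsIntegral ℤ (q : ℂ) := by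
      rw [← hq]; exact IsCharacter.isIntegral (Helper24.isCharacter_of_irr χ.2) g
    obtain ⟨z, hz⟩ := int_of_isIntegral_rat hint
    have hqz : (χ : G → ℂ) g = (z : ℂ) := by rw [hq, hz]; simp
    have h1 : aeval ζ (P - C z) = 0 := by
      have := hP 1
      rw [pow_one, pow_one] at this
      rw [map_sub, ← this, hqz, aeval_C]; simp
    have h2 := Helper24.aeval_primitive_transfer hN hζ (hζ.pow_of_coprime m hm) (P - C z) h1
    have h3 := hP m
    rw [map_sub, aeval_C, sub_eq_zero] at h2
    rw [h3, h2, hqz]; simp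
  · intro h χ g
    obtain ⟨P, hP⟩ := Helper24.char_poly (Helper24.isCharacter_of_irr χ.2) g (Nat.card G) hN
      (hgN g) ζ hζ
    have hval : ∀ η ∈ primitiveRoots (Nat.card G) ℂ, aeval η P = (χ : G → ℂ) g := by
      intro η hη
      rw [mem_primitiveRoots hN] at hη
      obtain ⟨m, hmlt, hmc, rfl⟩ := (hζ.isPrimitiveRoot_iff).mp hη
      rw [← hP m]
      exact (IsClassFunction.apply_eq_of_isConj (IsIrrCharacter.isClassFunction χ.2) (h m hmc g)).symm
    have hmon : (cyclotomic (Nat.card G) ℤ).Monic := cyclotomic.monic _ ℤ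
    have hdeg : (cyclotomic (Nat.card G) ℤ).natDegree = Nat.totient (Nat.card G) :=
      natDegree_cyclotomic _ ℤ
    have hne1 : cyclotomic (Nat.card G) ℤ ≠ 1 := by
      intro h1
      rw [h1, natDegree_one] at hdeg
      have := Nat.totient_pos.mpr hN
      omega
    have hRval : ∀ η ∈ primitiveRoots (Nat.card G) ℂ,
        aeval η (P %ₘ cyclotomic (Nat.card G) ℤ) = (χ : G → ℂ) g := by
      intro η hη
      have h0 : aeval η (cyclotomic (Nat.card G) ℤ) = 0 := by
        have hN0 : NeZero ((Nat.card G : ℕ) : ℂ) := ⟨by exact_mod_cast hN.ne'⟩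
        rw [aeval_def, eval₂_eq_eval_map, map_cyclotomic]
        exact (isRoot_cyclotomic_iff.mpr ((mem_primitiveRoots hN).mp hη))
      have h1 := congrArg (aeval η) (modByMonic_add_div P (cyclotomic (Nat.card G) ℤ))
      rw [map_add, map_mul, h0, zero_mul, add_zero] at h1
      rw [h1]; exact hval η hη
    have hS : (P %ₘ cyclotomic (Nat.card G) ℤ).map (Int.castRingHom ℂ) - C ((χ : G → ℂ) g) = 0 := by
      apply eq_zero_of_natDegree_lt_card_of_eval_eq_zero' _ (primitiveRoots (Nat.card G) ℂ)
      · intro η hη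
        have := hRval η hη
        rw [aeval_def, eval₂_eq_eval_map] at this
        rw [eval_sub, eval_C]
        exact sub_eq_zero.mpr this
      · rw [IsPrimitiveRoot.card_primitiveRoots hζ]
        have h1 := natDegree_modByMonic_lt P hmon hne1
        have h2 := natDegree_sub_le ((P %ₘ cyclotomic (Nat.card G) ℤ).map (Int.castRingHom ℂ))
          (C ((χ : G → ℂ) g))
        have h3 := natDegree_map_le (f := Int.castRingHom ℂ) (p := P %ₘ cyclotomic (Nat.card G) ℤ)
        rw [natDegree_C] at h2
        have h4 := Nat.totient_pos.mpr hN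
        rw [hdeg] at h1
        omega
    refine ⟨((P %ₘ cyclotomic (Nat.card G) ℤ).coeff 0 : ℤ), ?_⟩
    have h5 := congrArg (fun p => p.coeff 0) hS
    simp only [coeff_sub, coeff_map, coeff_C_zero, coeff_zero, eq_intCast] at h5
    rw [sub_eq_zero] at h5
    rw [← h5]
    simp

end Cfsg.Agent.S0180
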