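import Cfsg.Agent.Helper2.CharOrtho
import Cfsg.Agent.Helper24.Schur
import Cfsg.Statements.S0181
-- import your own Cfsg.Agent.* helpers here

set_option autoImplicit false
open Cfsg

namespace Cfsg.Agent.S0181

/-- Let H be a normal subgroup of a finite group G and ρ an irreducible complex representation whose kernel does not contain H. If g commutes with no non-identity element of H, then the character of ρ vanishes at g. -/
theorem result {G : Type*} [Group G] [Finite G] {V : Type*} [AddCommGroup V] [Module ℂ V] [FiniteDimensional ℂ V] (ρ : Representation ℂ G V) [ρ.IsIrreducible] (H : Subgroup G) [H.Normal] (hker : ∃ h ∈ H, ρ h ≠ LinearMap.id) (g : G) (hg : ∀ h ∈ H, h * g = g * h → h = 1) : ρ.character g = 0 := by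
  classical
  have := Fintype.ofFinite G
  have := Fintype.ofFinite H
  have hN : H.Normal := inferInstance
  have hcomm : ∀ x : G, (∑ h : H, ρ (h : G)) * ρ x = ρ x * (∑ h : H, ρ (h : G)) := by
    intro x
    simp only [Finset.sum_mul, Finset.mul_sum, ← map_mul]
    rw [← Equiv.sum_comp (MulAut.conjNormal x : H ≃* H).toEquiv]
    refine Finset.sum_congr rfl fun h _ => ?_
    congr 1
    simp
  let T : Representation.IntertwiningMap ρ ρ :=
    { toLinearMap := ∑ h : H, ρ (h : G)
      isIntertwining' := fun x => hcomm x }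
  obtain ⟨c, hc⟩ := Helper24.schur_scalar ρ T
  have hS : (∑ h : H, ρ (h : G)) = c • LinearMap.id := hc
  have hc0 : c = 0 := by
    by_contra hne
    obtain ⟨h', hh', hne'⟩ := hker
    apply hne'
    have h1 : ρ h' * (∑ h : H, ρ (h : G)) = ∑ h : H, ρ (h : G) := by
      simp only [Finset.mul_sum, ← map_mul]
      exact Equiv.sum_comp (Equiv.mulLeft (⟨h', hh'⟩ : H)) (fun h : H => ρ (h : G))
    rw [hS] at h1
    have h2 : c • ρ h' = c • LinearMap.id := by
      rw [← h1]
      ext v
      simp
    exact smul_right_injective _ hne h2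
  have hS0 : (∑ h : H, ρ (h : G)) = 0 := by rw [hS, hc0, zero_smul]
  have hcf := Helper2.IsCharacter.isClassFunction (Helper2.isCharacter_of_rep ρ)
  let F : H → H := fun k => ⟨g⁻¹ * k * g * k⁻¹,
    H.mul_mem (by simpa [mul_assoc] using hN.conj_mem k k.2 g⁻¹) (H.inv_mem k.2)⟩
  have hF : Function.Injective F := by
    intro k k' hkk
    have h1 : g⁻¹ * (k : G) * g * (k : G)⁻¹ = g⁻¹ * (k' : G) * g * (k' : G)⁻¹ :=
      congrArg Subtype.val hkk
    have h2 : ((k' : G)⁻¹ * (k : G)) * g = g * ((k' : G)⁻¹ * (k : G)) := by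
      have : (k : G) * g * (k : G)⁻¹ = (k' : G) * g * (k' : G)⁻¹ := by
        have := congrArg (fun z => g * z) h1
        simpa [mul_assoc] using this
      calc ((k' : G)⁻¹ * (k : G)) * g = (k' : G)⁻¹ * ((k : G) * g * (k : G)⁻¹) * (k : G) := by group
        _ = (k' : G)⁻¹ * ((k' : G) * g * (k' : G)⁻¹) * (k : G) := by rw [this]
        _ = g * ((k' : G)⁻¹ * (k : G)) := by group
    have h3 := hg _ (H.mul_mem (H.inv_mem k'.2) k.2) h2
    have h4 : (k : G) = (k' : G) := by
      have := congrArg (fun z => (k' : G) * z) h3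
      simpa using this
    exact Subtype.ext h4
  have hFb : Function.Bijective F := hF.bijective_of_finite
  have h1 : ∑ h : H, ρ.character (g * (h : G)) = (Nat.card H : ℂ) * ρ.character g := by
    rw [← Equiv.sum_comp (Equiv.ofBijective F hFb)]
    have : ∀ k : H, ρ.character (g * ((Equiv.ofBijective F hFb k : H) : G)) = ρ.character g := by
      intro k
      have e : g * ((Equiv.ofBijective F hFb k : H) : G) = (k : G) * g * (k : G)⁻¹ := by
        show g * (g⁻¹ * (k : G) * g * (k : G)⁻¹) = _
        group
      rw [e]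
      exact hcf g k
    rw [Finset.sum_congr rfl fun k _ => this k]
    simp [Nat.card_eq_fintype_card]
  have h2 : ∑ h : H, ρ.character (g * (h : G)) = 0 := by
    have : ∀ h : H, ρ.character (g * (h : G)) = LinearMap.trace ℂ V (ρ g * ρ (h : G)) := by
      intro h
      show LinearMap.trace ℂ V (ρ (g * (h : G))) = _
      rw [map_mul]
    rw [Finset.sum_congr rfl fun h _ => this h, ← map_sum, ← Finset.mul_sum, hS0, mul_zero, map_zero]
  rw [h2] at h1
  have hH0 : (Nat.card H : ℂ) ≠ 0 := by exact_mod_cast Nat.card_pos.ne'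
  rcases mul_eq_zero.1 h1.symm with h | h
  · exact absurd h hH0
  · exact h

end Cfsg.Agent.S0181
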