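import Cfsg.Agent.Helper2.CharLinear
import Cfsg.Agent.Helper24.ClassSum
import Cfsg.Agent.Helper24.Schur
import Cfsg.Agent.Helper24.NormalCenter
import Cfsg.Statements.S0184
-- import your own Cfsg.Agent.* helpers here

set_option autoImplicit false
open Cfsg

namespace Cfsg.Agent.S0184

open Cfsg.Agent.Helper2 Cfsg.Agent

theorem nontrivial_of_irr {G V : Type*} [Group G] [AddCommGroup V] [Module ℂ V]
    (ρ : Representation ℂ G V) [ρ.IsIrreducible] : Nontrivial V := by
  by_contra hn
  rw [not_nontrivial_iff_subsingleton] at hn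
  have : (⊥ : Subrepresentation ρ) = ⊤ := by
    apply Subrepresentation.toSubmodule_injective
    exact Subsingleton.elim _ _
  exact bot_ne_top this

theorem center_cyclic_of_faithful_irr {G V : Type*} [Group G] [Finite G] [AddCommGroup V]
    [Module ℂ V] [FiniteDimensional ℂ V] (ρ : Representation ℂ G V) [ρ.IsIrreducible]
    (hinj : Function.Injective ρ) : IsCyclic (Subgroup.center G) := by
  classical
  have hnt := nontrivial_of_irr ρ
  obtain ⟨v, hv⟩ := exists_ne (0 : V)
  have hsc : ∀ c c' : ℂ, c • (LinearMap.id : V →ₗ[ℂ] V) = c' • LinearMap.id → c = c' := by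
    intro c c' h
    have := congrArg (fun f => f v) h
    simp only [LinearMap.smul_apply, LinearMap.id_apply] at this
    exact smul_left_injective ℂ hv this
  have hex : ∀ z : Subgroup.center G, ∃ c : ℂ, ρ (z : G) = c • LinearMap.id :=
    fun z => Helper24.schur_central ρ z z.2
  choose F hF using hex
  have hone : F 1 = 1 := by
    apply hsc
    rw [← hF 1, one_smul]
    simp
    rfl
  have hmul : ∀ a b, F (a * b) = F a * F b := by
    intro a b
    apply hsc
    rw [← hF (a * b), Subgroup.coe_mul, map_mul, hF a, hF b]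
    apply LinearMap.ext
    intro w
    simp [mul_smul]
    exact smul_comm _ _ _
  let f : Subgroup.center G →* ℂ :=
    { toFun := F
      map_one' := hone
      map_mul' := hmul }
  apply isCyclic_of_injective_ringHom f
  intro a b hab
  apply Subtype.ext
  apply hinj
  have hab' : F a = F b := hab
  rw [hF a, hF b, hab']

theorem exists_faithful_irr {G : Type*} [Group G] [Finite G] (p : ℕ) [Fact p.Prime]
    (hG : IsPGroup p G) (hc : IsCyclic (Subgroup.center G)) :
    ∃ (n : ℕ) (ρ : Representation ℂ G (Fin n → ℂ)), ρ.IsIrreducible ∧ Function.Injective ρ := by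
  classical
  have hp : p.Prime := Fact.out
  rcases subsingleton_or_nontrivial G with hs | hnt
  · obtain ⟨n, ρ, hρ, _⟩ := (isIrrCharacter_one_fun (G := G))
    exact ⟨n, ρ, hρ, fun a b _ => Subsingleton.elim a b⟩
  · have hZnt := hG.center_nontrivial
    have hZp : IsPGroup p (Subgroup.center G) := hG.to_subgroup _
    have hdvd : p ∣ Nat.card (Subgroup.center G) := by
      obtain ⟨k, hk0, hk⟩ := (IsPGroup.nontrivial_iff_card hZp).mp hZnt
      rw [hk]
      exact dvd_pow_self p hk0.ne'
    obtain ⟨z₀, hz₀⟩ := exists_prime_orderOf_dvd_card' p hdvd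
    have hfin := Fintype.ofFinite (Subgroup.center G)
    have hall : ∀ w : Subgroup.center G, w ^ p = 1 → w ∈ Subgroup.zpowers z₀ := by
      intro w hw
      have hcard : (Finset.univ.filter (fun a : Subgroup.center G => a ^ p = 1)).card ≤ p :=
        IsCyclic.card_pow_eq_one_le hp.pos
      have hsub : (Finset.univ.filter (fun a : Subgroup.center G => a ∈ Subgroup.zpowers z₀)) ⊆
          Finset.univ.filter (fun a : Subgroup.center G => a ^ p = 1) := by
        intro a ha
        rw [Finset.mem_filter] at ha ⊢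
        refine ⟨Finset.mem_univ _, ?_⟩
        obtain ⟨k, rfl⟩ := ha.2
        have h1 : z₀ ^ p = 1 := by rw [← hz₀]; exact pow_orderOf_eq_one z₀
        rw [← zpow_natCast, ← zpow_mul, mul_comm, zpow_mul, zpow_natCast, h1, one_zpow]
      have hcz : (Finset.univ.filter
          (fun a : Subgroup.center G => a ∈ Subgroup.zpowers z₀)).card = p := by
        have h1 : Nat.card (Subgroup.zpowers z₀) = p := by rw [Nat.card_zpowers, hz₀]
        rw [← h1, Nat.card_eq_fintype_card, Fintype.card_subtype]
      have heq := Finset.eq_of_subset_of_card_le hsub (by rw [hcz]; exact hcard)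
      have hw' : w ∈ Finset.univ.filter (fun a : Subgroup.center G => a ^ p = 1) := by
        simp [hw]
      rw [← heq] at hw'
      exact (Finset.mem_filter.mp hw').2
    have hnil : Group.IsNilpotent G := hG.isNilpotent
    have hN : ∀ N : Subgroup G, N.Normal → N ≠ ⊥ → (z₀ : G) ∈ N := by
      intro N hNn hNb
      obtain ⟨x, hxN, hx1, hxc⟩ := Helper24.exists_mem_center_of_normal N hNb
      have hex : ∃ k, x ^ p ^ k = 1 := hG x
      have hk : x ^ p ^ (Nat.find hex) = 1 := Nat.find_spec hex
      have hk0 : Nat.find hex ≠ 0 := by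
        intro h0
        rw [h0] at hk
        simp at hk
        exact hx1 hk
      obtain ⟨j, hj⟩ := Nat.exists_eq_succ_of_ne_zero hk0
      have hj' : x ^ p ^ j ≠ 1 := Nat.find_min hex (by omega)
      let y : Subgroup.center G := ⟨x ^ p ^ j, Subgroup.pow_mem _ hxc _⟩
      have hyp : y ^ p = 1 := by
        apply Subtype.ext
        show (x ^ p ^ j) ^ p = 1
        rw [← pow_mul, ← pow_succ, ← Nat.succ_eq_add_one, ← hj]
        exact hk
      have hy1 : y ≠ 1 := fun h => hj' (congrArg Subtype.val h)
      have hyz := hall y hyp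
      have hcardZ₀ : Nat.card (Subgroup.zpowers z₀) = p := by rw [Nat.card_zpowers, hz₀]
      have hy1' : (⟨y, hyz⟩ : Subgroup.zpowers z₀) ≠ 1 := by
        intro h
        exact hy1 (congrArg Subtype.val h)
      have hmem : (⟨z₀, Subgroup.mem_zpowers z₀⟩ : Subgroup.zpowers z₀) ∈
          Subgroup.zpowers (⟨y, hyz⟩ : Subgroup.zpowers z₀) :=
        mem_zpowers_of_prime_card hcardZ₀ hy1'
      obtain ⟨m, hm⟩ := hmem
      have hm' : (x ^ p ^ j) ^ m = (z₀ : G) := by
        have := congrArg (fun t : Subgroup.zpowers z₀ => ((t : Subgroup.center G) : G)) hm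
        simpa [y] using this
      rw [← hm']
      exact Subgroup.zpow_mem _ (Subgroup.pow_mem _ hxN _) _
    have hz₀1 : (z₀ : G) ≠ 1 := by
      intro h
      have h1 : z₀ = 1 := Subtype.ext h
      rw [h1, orderOf_one] at hz₀
      exact hp.one_lt.ne hz₀
    have hexχ : ∃ χ : IrrCharacter G, (χ : G → ℂ) (z₀ : G) ≠ (χ : G → ℂ) 1 := by
      by_contra hcon
      push Not at hcon
      have := Helper24.isConj_of_irr_eq (z₀ : G) 1 hcon
      rw [isConj_one_left] at this
      exact hz₀1 this
    obtain ⟨⟨χ, n, ρ, hρ, hχ⟩, hne⟩ := hexχ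
    refine ⟨n, ρ, hρ, ?_⟩
    rw [← MonoidHom.ker_eq_bot_iff]
    by_contra hker
    have h1 := hN (MonoidHom.ker ρ) (MonoidHom.normal_ker ρ) hker
    rw [MonoidHom.mem_ker] at h1
    apply hne
    show χ ↑z₀ = χ 1
    rw [← hχ]
    show LinearMap.trace ℂ _ (ρ z₀) = LinearMap.trace ℂ _ (ρ 1)
    rw [h1, map_one ρ]

/-- A finite p-group admits a faithful irreducible complex representation if and only if its centre is cyclic. -/
theorem result {G : Type*} [Group G] [Finite G] (p : ℕ) [Fact p.Prime] (hG : IsPGroup p G) : (∃ (n : ℕ) (ρ : Representation ℂ G (Fin n → ℂ)), ρ.IsIrreducible ∧ Function.Injective ρ) ↔ IsCyclic (Subgroup.center G) := by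
  constructor
  · rintro ⟨n, ρ, hρ, hinj⟩
    exact center_cyclic_of_faithful_irr ρ hinj
  · intro hc
    exact exists_faithful_irr p hG hc

end Cfsg.Agent.S0184
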