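import Cfsg.Agent.Helper2.CharOrtho
import Cfsg.Agent.Helper24.LinearChar
import Cfsg.Agent.S0168
import Cfsg.Statements.S0185
-- import your own Cfsg.Agent.* helpers here

set_option autoImplicit false
open Cfsg

namespace Cfsg.Agent.S0185

theorem list_sum_apply {G : Type*} (l : List (G → ℂ)) (x : G) :
    l.sum x = (l.map (fun φ => φ x)).sum := by
  induction l with
  | nil => simp
  | cons a l ih => simp [ih]

/-- If a finite group has a faithful complex representation of degree less than the smallest prime dividing its order, the group is abelian. -/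
theorem result {G : Type*} [Group G] [Finite G] {V : Type*} [AddCommGroup V] [Module ℂ V] [FiniteDimensional ℂ V] (ρ : Representation ℂ G V) (hfaithful : Function.Injective ρ) (hdeg : ∀ p : ℕ, p.Prime → p ∣ Nat.card G → Module.finrank ℂ V < p) (a b : G) : a * b = b * a := by
  classical
  have := Fintype.ofFinite G
  obtain ⟨l, hl, hsum⟩ := Helper2.character_rep_eq_list_sum ρ
  have hdeg1 : ∀ φ ∈ l, φ 1 = (charDegree φ : ℂ) := fun φ hφ =>
    Helper24.charDegree_spec (Helper24.isCharacter_of_irr (hl φ hφ))
  have hfr : Module.finrank ℂ V = (l.map charDegree).sum := by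
    have h1 : ρ.character 1 = (Module.finrank ℂ V : ℂ) := by rw [Representation.char_one]
    rw [hsum, list_sum_apply] at h1
    have h2 : l.map (fun φ => φ 1) = l.map (fun φ => ((charDegree φ : ℕ) : ℂ)) :=
      List.map_congr_left hdeg1
    rw [h2] at h1
    have h3 : (l.map (fun φ : G → ℂ => ((charDegree φ : ℕ) : ℂ))).sum
        = (((l.map charDegree).sum : ℕ) : ℂ) := by
      rw [Nat.cast_list_sum, List.map_map]
      rfl
    rw [h3] at h1
    exact (Nat.cast_injective h1).symm
  have hlin : ∀ φ ∈ l, φ 1 = 1 := by
    intro φ hφ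
    rw [hdeg1 φ hφ]
    have hpos := Helper24.irr_degree_pos (hl φ hφ)
    have hle : charDegree φ ≤ Module.finrank ℂ V := by
      rw [hfr]
      exact List.single_le_sum (fun _ _ => Nat.zero_le _) _ (List.mem_map_of_mem hφ)
    have hdvd := Helper2.irr_degree_dvd_card (hl φ hφ)
    by_contra hne
    have hne1 : charDegree φ ≠ 1 := fun h => hne (by rw [h]; simp)
    have hp := Nat.minFac_prime hne1
    have h1 := hdeg _ hp ((Nat.minFac_dvd _).trans hdvd)
    have h2 := Nat.minFac_le hpos
    omega
  have hc : ρ.character (a * b * (b * a)⁻¹) = ρ.character 1 := by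
    rw [hsum, list_sum_apply, list_sum_apply]
    congr 1
    apply List.map_congr_left
    intro φ hφ
    have hch := Helper24.isCharacter_of_irr (hl φ hφ)
    have h1 := hlin φ hφ
    have hm := Helper24.linear_char_mul hch h1
    have h2 : φ (b * a) * φ ((b * a)⁻¹) = 1 := by rw [← hm, mul_inv_cancel, h1]
    rw [hm, hm a b, h1, mul_comm (φ a) (φ b), ← hm b a, h2]
  have h1 := S0168.eq_one_of_char_eq ρ hfaithful _ hc
  have h2 : a * b = a * b * (b * a)⁻¹ * (b * a) := by group
  rw [h2, h1, one_mul]

end Cfsg.Agent.S0185
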