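import Cfsg.Agent.Helper2.CharConstituent
import Cfsg.Agent.Helper2.CharReg
import Cfsg.Agent.Helper2.CharLinear
import Cfsg.Agent.Helper24.LinearChar
import Cfsg.Agent.S0143
import Cfsg.Agent.S0168
import Cfsg.Agent.S0175
import Cfsg.Statements.S0186
-- import your own Cfsg.Agent.* helpers here

set_option autoImplicit false
open Cfsg

namespace Cfsg.Agent.S0186

open Cfsg.Agent.Helper2 Cfsg.Agent

theorem count_aux {ι : Type*} (s : Finset ι) (d : ι → ℕ) (p : ℕ)
    (hs : ∀ i ∈ s, p ≤ d i) (N : ℕ) (hN : N = 1 + ∑ i ∈ s, d i ^ 2) (hdiv : p ^ 2 ∣ N) :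
    p ^ 2 * (s.card + 1) ≤ N := by
  classical
  have hsplit := Finset.sum_filter_add_sum_filter_not s (fun i => p ∣ d i) (fun i => d i ^ 2)
  have hcard := Finset.card_filter_add_card_filter_not (s := s) (fun i => p ∣ d i)
  have hB : p ^ 2 ∣ ∑ i ∈ s.filter (fun i => p ∣ d i), d i ^ 2 := by
    apply Finset.dvd_sum
    intro i hi
    exact pow_dvd_pow_of_dvd (Finset.mem_filter.mp hi).2 2
  have hBge : (s.filter (fun i => p ∣ d i)).card * p ^ 2 ≤
      ∑ i ∈ s.filter (fun i => p ∣ d i), d i ^ 2 := by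
    rw [← smul_eq_mul]
    apply Finset.card_nsmul_le_sum
    intro i hi
    exact Nat.pow_le_pow_left (hs i (Finset.mem_filter.mp hi).1) 2
  have hCge : (s.filter (fun i => ¬ p ∣ d i)).card * (p ^ 2 + 1) ≤
      ∑ i ∈ s.filter (fun i => ¬ p ∣ d i), d i ^ 2 := by
    rw [← smul_eq_mul]
    apply Finset.card_nsmul_le_sum
    intro i hi
    have h1 := hs i (Finset.mem_filter.mp hi).1
    have h2 : d i ≠ p := fun h => (Finset.mem_filter.mp hi).2 (by rw [h])
    have h3 : p + 1 ≤ d i := by omega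
    calc p ^ 2 + 1 ≤ (p + 1) ^ 2 := by nlinarith
      _ ≤ d i ^ 2 := Nat.pow_le_pow_left h3 2
  have hC : p ^ 2 ∣ 1 + ∑ i ∈ s.filter (fun i => ¬ p ∣ d i), d i ^ 2 := by
    have h1 : N = (∑ i ∈ s.filter (fun i => p ∣ d i), d i ^ 2) +
        (1 + ∑ i ∈ s.filter (fun i => ¬ p ∣ d i), d i ^ 2) := by rw [hN, ← hsplit]; ring
    rw [h1] at hdiv
    exact (Nat.dvd_add_right hB).mp hdiv
  obtain ⟨c, hc⟩ := hC
  have hcC : (s.filter (fun i => ¬ p ∣ d i)).card + 1 ≤ c := by
    by_contra hlt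
    push Not at hlt
    have h1 : c ≤ (s.filter (fun i => ¬ p ∣ d i)).card := by omega
    have h2 : p ^ 2 * c ≤ p ^ 2 * (s.filter (fun i => ¬ p ∣ d i)).card :=
      Nat.mul_le_mul_left _ h1
    nlinarith
  have h3 := Nat.mul_le_mul_left (p ^ 2) hcC
  rw [hN, ← hsplit, ← hcard]
  nlinarith

/-- Let G be a finite simple group of order n and p a prime dividing n. If G has more than n / p^2 conjugacy classes, then every Sylow p-subgroup of G is abelian. -/
theorem result {G : Type*} [Group G] [Finite G] [IsSimpleGroup G] (p : ℕ) [Fact p.Prime] (hp : p ∣ Nat.card G) (hmany : Nat.card G < p ^ 2 * Nat.card (ConjClasses G)) (P : Sylow p G) (a b : G) (ha : a ∈ P) (hb : b ∈ P) : a * b = b * a := by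
  classical
  by_contra hab
  have hp' : p.Prime := Fact.out
  have := Fintype.ofFinite G
  have := Helper24.finite_irrCharacter (G := G)
  have := Fintype.ofFinite (IrrCharacter G)
  have hc1 : a * b * a⁻¹ * b⁻¹ ≠ 1 := by
    intro h
    apply hab
    calc a * b = (a * b * a⁻¹ * b⁻¹) * (b * a) := by group
      _ = b * a := by rw [h, one_mul]
  have hcP : a * b * a⁻¹ * b⁻¹ ∈ (P : Subgroup G) :=
    mul_mem (mul_mem (mul_mem ha hb) (inv_mem ha)) (inv_mem hb)
  have hdeg : ∀ χ : IrrCharacter G, (χ : G → ℂ) ≠ (fun _ => 1) →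
      p ≤ charDegree (χ : G → ℂ) := by
    rintro ⟨χ, hχ⟩ hne
    by_contra hlt
    push Not at hlt
    obtain ⟨n, ρ, hρ, rfl⟩ := hχ
    have hinj := S0143.irr_injective_of_simple ρ hne
    apply hc1
    apply S0168.eq_one_of_char_eq ρ hinj
    have hresP : IsCharacter (P : Subgroup G) (fun x : (P : Subgroup G) => ρ.character x) :=
      Helper24.isCharacter_restrict (P : Subgroup G) (isCharacter_of_rep ρ)
    have hdegres : charDegree (fun x : (P : Subgroup G) => ρ.character x) =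
        charDegree ρ.character := rfl
    refine S0175.char_eq_of_constituents hresP ⟨a * b * a⁻¹ * b⁻¹, hcP⟩ ?_
    intro φ hφ hne'
    have h1 := charDegree_le_of_constituent hresP hφ hne'
    have h3 := irr_degree_dvd_card hφ
    obtain ⟨k, hk⟩ := IsPGroup.iff_card.mp P.isPGroup'
    rw [hk] at h3
    obtain ⟨j, hj, hj'⟩ := (Nat.dvd_prime_pow hp').mp h3
    have hj0 : j = 0 := by
      by_contra hj0
      have : p ≤ p ^ j := Nat.le_self_pow hj0 p
      have h4 : charDegree ρ.character < p := hlt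
      omega
    have hφ1 : φ 1 = 1 := by
      rw [Helper24.charDegree_spec (Helper24.isCharacter_of_irr hφ), hj', hj0]; simp
    have hmul := Helper24.linear_char_mul (Helper24.isCharacter_of_irr hφ) hφ1
    have hc' : (⟨a * b * a⁻¹ * b⁻¹, hcP⟩ : (P : Subgroup G)) =
        ⟨a, ha⟩ * ⟨b, hb⟩ * (⟨a, ha⟩ : (P : Subgroup G))⁻¹ * (⟨b, hb⟩ : (P : Subgroup G))⁻¹ := rfl
    rw [hc', hmul, hmul, hmul, hφ1]
    have e1 : φ ⟨a, ha⟩ * φ ((⟨a, ha⟩ : (P : Subgroup G))⁻¹) = 1 := by
      rw [← hmul, mul_inv_cancel, hφ1]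
    have e2 : φ ⟨b, hb⟩ * φ ((⟨b, hb⟩ : (P : Subgroup G))⁻¹) = 1 := by
      rw [← hmul, mul_inv_cancel, hφ1]
    calc φ ⟨a, ha⟩ * φ ⟨b, hb⟩ * φ ((⟨a, ha⟩ : (P : Subgroup G))⁻¹) *
          φ ((⟨b, hb⟩ : (P : Subgroup G))⁻¹)
        = (φ ⟨a, ha⟩ * φ ((⟨a, ha⟩ : (P : Subgroup G))⁻¹)) *
          (φ ⟨b, hb⟩ * φ ((⟨b, hb⟩ : (P : Subgroup G))⁻¹)) := by ring
      _ = 1 := by rw [e1, e2, one_mul]
  -- p^2 divides |G|
  have hp2 : p ^ 2 ∣ Nat.card G := by
    obtain ⟨k, hk⟩ := IsPGroup.iff_card.mp P.isPGroup'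
    have hk2 : 2 ≤ k := by
      by_contra hk2
      push Not at hk2
      have hcyc : IsCyclic (P : Subgroup G) := by
        have hk' : k = 0 ∨ k = 1 := by omega
        rcases hk' with rfl | rfl
        · rw [pow_zero] at hk
          have : Subsingleton (P : Subgroup G) := (Nat.card_eq_one_iff_unique.mp hk).1
          infer_instance
        · rw [pow_one] at hk
          exact isCyclic_of_prime_card hk
      have hcomm := (IsCyclic.commGroup (α := (P : Subgroup G))).mul_comm ⟨a, ha⟩ ⟨b, hb⟩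
      exact hab (congrArg Subtype.val hcomm)
    have h1 : p ^ 2 ∣ p ^ k := pow_dvd_pow p hk2
    rw [← hk] at h1
    exact h1.trans (Subgroup.card_subgroup_dvd_card _)
  -- counting
  have hsum := sum_degree_sq (G := G)
  have hsumN : Nat.card G = ∑ χ : IrrCharacter G, charDegree (χ : G → ℂ) ^ 2 := by
    have h1 : (Nat.card G : ℂ) = ((∑ χ : IrrCharacter G, charDegree (χ : G → ℂ) ^ 2 : ℕ) : ℂ) := by
      rw [← hsum]
      push_cast
      apply Finset.sum_congr rfl
      intro χ _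
      rw [Helper24.charDegree_spec (Helper24.isCharacter_of_irr χ.2)]
      ring
    exact_mod_cast h1
  have htriv : IsIrrCharacter G (fun _ => (1 : ℂ)) := isIrrCharacter_one_fun
  have hsplit := Finset.add_sum_erase Finset.univ (fun χ : IrrCharacter G => charDegree (χ : G → ℂ) ^ 2)
    (Finset.mem_univ (⟨_, htriv⟩ : IrrCharacter G))
  have hd1 : charDegree (fun _ : G => (1 : ℂ)) = 1 := by
    have h1 := Helper24.charDegree_spec (Helper24.isCharacter_of_irr htriv)
    exact_mod_cast h1.symm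
  have hN : Nat.card G = 1 + ∑ χ ∈ Finset.univ.erase (⟨_, htriv⟩ : IrrCharacter G),
      charDegree (χ : G → ℂ) ^ 2 := by
    rw [hsumN, ← hsplit]
    show charDegree (fun _ : G => (1 : ℂ)) ^ 2 + _ = _
    rw [hd1, one_pow]
  have hcount := count_aux (Finset.univ.erase (⟨_, htriv⟩ : IrrCharacter G))
    (fun χ => charDegree (χ : G → ℂ)) p (by
      intro χ hχ
      apply hdeg χ
      intro h
      exact (Finset.mem_erase.mp hχ).1 (Subtype.ext h)) (Nat.card G) hN hp2
  rw [Finset.card_erase_of_mem (Finset.mem_univ _), Finset.card_univ] at hcount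
  have hk : Fintype.card (IrrCharacter G) - 1 + 1 = Nat.card (ConjClasses G) := by
    rw [← card_irrCharacter, Nat.card_eq_fintype_card]
    have : 0 < Fintype.card (IrrCharacter G) := Fintype.card_pos_iff.mpr ⟨⟨_, htriv⟩⟩
    omega
  rw [hk] at hcount
  omega

end Cfsg.Agent.S0186
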