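import Cfsg.Agent.Helper2.CharReg
import Cfsg.Statements.S0187
-- import your own Cfsg.Agent.* helpers here

set_option autoImplicit false
open Cfsg

namespace Cfsg.Agent.S0187

/-- A finite group is commutative if and only if every irreducible complex character has degree 1. -/
theorem result {G : Type*} [Group G] [Finite G] : (∀ a b : G, a * b = b * a) ↔ ∀ χ : Cfsg.IrrCharacter G, (χ : G → ℂ) 1 = 1 := by
  classical
  have := Fintype.ofFinite G
  have := Helper24.finite_irrCharacter (G := G)
  have := Fintype.ofFinite (IrrCharacter G)
  constructor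
  · intro h χ
    obtain ⟨χ, n, ρ, hρ, rfl⟩ := χ
    have : IsMulCommutative G := ⟨⟨h⟩⟩
    have := hρ
    have h1 := Representation.IsIrreducible.finrank_eq_one_of_isMulCommutative ρ
    show ρ.character 1 = 1
    rw [Representation.char_one, h1]
    simp
  · intro h
    have h1 := Helper2.sum_degree_sq (G := G)
    have h2 : ∑ χ : IrrCharacter G, (χ : G → ℂ) 1 * (χ : G → ℂ) 1 = (Nat.card (IrrCharacter G) : ℂ) := by
      rw [Finset.sum_congr rfl (fun χ _ => by rw [h χ, mul_one])]
      simp [Nat.card_eq_fintype_card]
    rw [h2, Helper2.card_irrCharacter] at h1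
    have h3 : Nat.card (ConjClasses G) = Nat.card G := by exact_mod_cast h1
    have hinj : Function.Injective (ConjClasses.mk : G → ConjClasses G) := by
      have hb : Function.Bijective (ConjClasses.mk : G → ConjClasses G) := by
        rw [Nat.bijective_iff_surjective_and_card]
        exact ⟨ConjClasses.mk_surjective, h3.symm⟩
      exact hb.1
    intro a b
    have h4 : ConjClasses.mk (a * b * a⁻¹) = ConjClasses.mk b := by
      rw [ConjClasses.mk_eq_mk_iff_isConj]
      exact (isConj_iff.2 ⟨a, rfl⟩).symm
    have h5 := hinj h4
    calc a * b = a * b * a⁻¹ * a := by group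
      _ = b * a := by rw [h5]

end Cfsg.Agent.S0187
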