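import Cfsg.Agent.Helper2.CharOrtho
import Cfsg.Agent.Helper24.ClassSum
import Cfsg.Statements.S0188
-- import your own Cfsg.Agent.* helpers here

set_option autoImplicit false
open Cfsg

namespace Cfsg.Agent.S0188

open scoped ComplexConjugate

theorem classInner_prod {G : Type*} [Group G] [Fintype G] {H : Type*} [Group H] [Fintype H]
    (θ : G × H → ℂ) (φ : G → ℂ) (ψ : H → ℂ) :
    classInner θ (fun x => φ x.1 * ψ x.2) =
      classInner (fun h => classInner (fun g => θ (g, h)) φ) ψ := by
  unfold classInner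
  rw [Fintype.sum_prod_type, Finset.sum_comm, Nat.card_prod]
  push_cast
  rw [Finset.mul_sum, Finset.mul_sum]
  refine Finset.sum_congr rfl fun h _ => ?_
  rw [Finset.mul_sum, Finset.mul_sum, Finset.sum_mul, Finset.mul_sum]
  refine Finset.sum_congr rfl fun g _ => ?_
  rw [map_mul]
  ring

theorem isIrrCharacter_prod {G : Type*} [Group G] [Fintype G] {H : Type*} [Group H] [Fintype H]
    {φ : G → ℂ} {ψ : H → ℂ} (hφ : IsIrrCharacter G φ) (hψ : IsIrrCharacter H ψ) :
    IsIrrCharacter (G × H) (fun x => φ x.1 * ψ x.2) := by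
  have h1 : IsCharacter (G × H) (φ ∘ (MonoidHom.fst G H)) :=
    Helper2.isCharacter_comp_hom (MonoidHom.fst G H) (Helper24.isCharacter_of_irr hφ)
  have h2 : IsCharacter (G × H) (ψ ∘ (MonoidHom.snd G H)) :=
    Helper2.isCharacter_comp_hom (MonoidHom.snd G H) (Helper24.isCharacter_of_irr hψ)
  have h3 := Helper2.IsCharacter.mul h1 h2
  apply Helper2.isIrrCharacter_of_norm_one h3
  have e : (φ ∘ (MonoidHom.fst G H)) * (ψ ∘ (MonoidHom.snd G H)) = fun x : G × H => φ x.1 * ψ x.2 := rfl
  rw [e, classInner_prod]
  have h4 : (fun h : H => classInner (fun g : G => φ g * ψ h) φ) = ψ := by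
    funext h
    have : (fun g : G => φ g * ψ h) = ψ h • φ := by
      funext g
      simp [mul_comm]
    rw [this, Helper2.classInner_smul_left, Helper2.classInner_irr hφ hφ, if_pos rfl, mul_one]
  rw [h4, Helper2.classInner_irr hψ hψ, if_pos rfl]

/-- The irreducible complex characters of G × H are precisely the functions (g, h) ↦ φ g * ψ h with φ, ψ irreducible characters of G and H. -/
theorem result {G : Type*} [Group G] [Finite G] {H : Type*} [Group H] [Finite H] (θ : G × H → ℂ) : Cfsg.IsIrrCharacter (G × H) θ ↔ ∃ (φ : G → ℂ) (ψ : H → ℂ), Cfsg.IsIrrCharacter G φ ∧ Cfsg.IsIrrCharacter H ψ ∧ θ = fun x => φ x.1 * ψ x.2 := by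
  classical
  have := Fintype.ofFinite G
  have := Fintype.ofFinite H
  constructor
  · intro hθ
    by_contra hcon
    push Not at hcon
    have hθc : IsClassFunction (G × H) θ := Helper2.IsIrrCharacter.isClassFunction hθ
    have hA : ∀ (φ : G → ℂ) (ψ : H → ℂ), IsIrrCharacter G φ → IsIrrCharacter H ψ →
        classInner θ (fun x => φ x.1 * ψ x.2) = 0 := by
      intro φ ψ hφ hψ
      rw [Helper2.classInner_irr hθ (isIrrCharacter_prod hφ hψ), if_neg (hcon φ ψ hφ hψ)]
    have hB : ∀ φ : G → ℂ, IsIrrCharacter G φ →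
        (fun h : H => classInner (fun g : G => θ (g, h)) φ) = 0 := by
      intro φ hφ
      apply Helper2.class_fn_eq_zero_of_classInner
      · intro h y
        show classInner (fun g : G => θ (g, y * h * y⁻¹)) φ = classInner (fun g : G => θ (g, h)) φ
        congr 1
        funext g
        have := hθc (g, h) (1, y)
        simpa using this
      · intro ψ hψ
        rw [← classInner_prod]
        exact hA φ ψ hφ hψ
    have hC : (fun g : G => θ (g, 1)) = 0 := by
      apply Helper2.class_fn_eq_zero_of_classInner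
      · intro g y
        have := hθc (g, 1) (y, 1)
        simpa using this
      · intro φ hφ
        exact congrFun (hB φ hφ) 1
    exact Helper24.irr_one_ne_zero hθ (congrFun hC 1)
  · rintro ⟨φ, ψ, hφ, hψ, rfl⟩
    exact isIrrCharacter_prod hφ hψ

end Cfsg.Agent.S0188
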