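import Cfsg.Agent.Helper2.CharNat
import Cfsg.Agent.Helper24.CharBasic
import Cfsg.Statements.S0189
-- import your own Cfsg.Agent.* helpers here

set_option autoImplicit false
open Cfsg

namespace Cfsg.Agent.S0189

/-- If a complex character of a finite group vanishes at every non-identity element of a Sylow p-subgroup P, then |P| divides its degree. -/
theorem result {G : Type*} [Group G] [Finite G] (p : ℕ) [Fact p.Prime] (P : Sylow p G) (χ : G → ℂ) (hχ : Cfsg.IsCharacter G χ) (hvan : ∀ g : G, g ∈ P → g ≠ 1 → χ g = 0) : ∃ k : ℕ, χ 1 = (Nat.card P : ℂ) * k := by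
  classical
  have := Fintype.ofFinite (P : Subgroup G)
  obtain ⟨m, hm⟩ := Helper2.classInner_char_nat
    (Helper24.isCharacter_restrict (P : Subgroup G) hχ)
    (Helper2.isCharacter_one (G := (P : Subgroup G)))
  refine ⟨m, ?_⟩
  unfold classInner at hm
  have hP0 : (Nat.card (P : Subgroup G) : ℂ) ≠ 0 := by exact_mod_cast Nat.card_pos.ne'
  rw [Finset.sum_eq_single (1 : (P : Subgroup G))] at hm
  · rw [inv_mul_eq_iff_eq_mul₀ hP0] at hm
    simpa using hm
  · intro x _ hx
    have : χ (x : G) = 0 := hvan x x.2 (fun h => hx (Subtype.ext h))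
    show χ (x : G) * _ = 0
    rw [this, zero_mul]
  · intro h
    exact absurd (Finset.mem_univ _) h

end Cfsg.Agent.S0189
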