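import Cfsg.Statements.S0191
import Cfsg.Agent.Helper25.CharZeros
import Cfsg.Agent.Helper2.CharRep
open Cfsg.Agent.Helper25 Cfsg.Agent.Helper24

set_option autoImplicit false
open Cfsg

namespace Cfsg.Agent.S0191

/-- An irreducible complex representation of a finite group of degree greater than 1 has a character that vanishes somewhere. -/
theorem result {G : Type*} [Group G] [Finite G] {V : Type*} [AddCommGroup V] [Module ℂ V] [FiniteDimensional ℂ V] (ρ : Representation ℂ G V) [ρ.IsIrreducible] (hdeg : 1 < Module.finrank ℂ V) : ∃ g : G, ρ.character g = 0 := by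
  classical
  have := Fintype.ofFinite G
  have hirr := Cfsg.Agent.Helper2.isIrrCharacter_of_rep ρ
  have hchar := isCharacter_of_irr hirr
  by_contra hcon
  push Not at hcon
  have hφ : 0 ≤ ∑ g : G, (if g ≠ 1 then ‖ρ.character g‖ ^ 2 - 1 else 0) := by
    apply char_sum_normSq_sub_one_nonneg hchar {g : G | g ≠ 1}
    · intro g k hk
      have h1 := pow_coprime_mem_iff (⊥ : Subgroup G) g k hk
      simp only [Subgroup.mem_bot] at h1
      simp only [Set.mem_ofPred_eq, ne_eq, h1]
    · intro g hg _
      have hg' : g ≠ 1 := hg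
      rw [if_pos hg']
    · intro g hg
      have hg' : ¬ g ≠ 1 := fun h => hg ⟨h, hcon g⟩
      rw [if_neg hg']
  have hsum := irr_norm_sum hirr
  have hcard : (Nat.card G : ℝ) = ∑ _g : G, (1 : ℝ) := by
    rw [Finset.sum_const, Finset.card_univ, Nat.card_eq_fintype_card]
    simp
  have hpt : ∀ g : G, (if g ≠ 1 then ‖ρ.character g‖ ^ 2 - 1 else 0)
      = (‖ρ.character g‖ ^ 2 - 1) - (if g = 1 then ‖ρ.character 1‖ ^ 2 - 1 else 0) := by
    intro g
    by_cases hg : g = 1
    · subst hg; simp
    · simp [hg]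
  rw [Finset.sum_congr rfl (fun g _ => hpt g), Finset.sum_sub_distrib, Finset.sum_sub_distrib,
    hsum, ← hcard, Finset.sum_ite_eq', if_pos (Finset.mem_univ _)] at hφ
  have h1 : ρ.character 1 = (Module.finrank ℂ V : ℂ) := Representation.char_one ρ
  rw [h1, Complex.norm_natCast] at hφ
  have h2 : (2 : ℝ) ≤ Module.finrank ℂ V := by exact_mod_cast hdeg
  nlinarith

end Cfsg.Agent.S0191
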