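import Cfsg.Agent.Helper2.CharInvariants
import Cfsg.Agent.S0143
import Cfsg.Statements.S0192
-- import your own Cfsg.Agent.* helpers here

set_option autoImplicit false
open Cfsg

namespace Cfsg.Agent.S0192

/-- Brauer's generation criterion. Let G be a finite simple group, H₁ and H₂ subgroups, and χ a non-principal irreducible character. If the multiplicity of the principal character in χ restricted to H₁ ⊓ H₂ is less than the sum of the corresponding multiplicities for H₁ and H₂, then H₁ and H₂ do not generate G. -/
theorem result {G : Type*} [Group G] [Fintype G] [IsSimpleGroup G] (H₁ H₂ : Subgroup G) [Fintype H₁] [Fintype H₂] [Fintype ↥(H₁ ⊓ H₂)] (χ : G → ℂ) (hχ : Cfsg.IsIrrCharacter G χ) (hχ1 : χ ≠ fun _ => 1) (hlt : (Cfsg.classInner (fun x : ↥(H₁ ⊓ H₂) => χ x) (fun _ => 1)).re < (Cfsg.classInner (fun x : H₁ => χ x) (fun _ => 1)).re + (Cfsg.classInner (fun x : H₂ => χ x) (fun _ => 1)).re) : H₁ ⊔ H₂ ≠ ⊤ := by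
  classical
  intro htop
  obtain ⟨n, ρ, hρ, rfl⟩ := hχ
  have := hρ
  have hinj := S0143.irr_injective_of_simple ρ hχ1
  have hmem : ∀ (H : Subgroup G) (v : Fin n → ℂ), v ∈ (Helper2.resRep ρ H).invariants ↔
      ∀ h ∈ H, ρ h v = v := by
    intro H v
    exact Helper2.mem_invariants_resRep ρ H v
  -- the G-invariants are trivial
  have hbot : (Helper2.resRep ρ H₁).invariants ⊓ (Helper2.resRep ρ H₂).invariants = ⊥ := by
    rw [eq_bot_iff]
    intro v hv
    rw [Submodule.mem_inf, hmem, hmem] at hv
    have hall : ∀ g : G, ρ g v = v := by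
      let K : Subgroup G :=
        { carrier := {g | ρ g v = v}
          mul_mem' := fun {x y} hx hy => by
            show ρ (x * y) v = v
            rw [map_mul, Module.End.mul_apply, hy, hx]
          one_mem' := by
            show ρ 1 v = v
            rw [map_one, Module.End.one_apply]
          inv_mem' := fun {x} hx => by
            show ρ x⁻¹ v = v
            have : ρ x⁻¹ (ρ x v) = v := by
              rw [← Module.End.mul_apply, ← map_mul, inv_mul_cancel, map_one, Module.End.one_apply]
            rw [hx] at this
            exact this }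
      have hK : H₁ ⊔ H₂ ≤ K := sup_le (fun x hx => hv.1 x hx) (fun x hx => hv.2 x hx)
      intro g
      exact hK (by rw [htop]; trivial)
    let σ : Subrepresentation ρ :=
      { toSubmodule := ρ.invariants
        apply_mem_toSubmodule := fun g w hw h => by
          rw [hw g, hw h] }
    rcases eq_bot_or_eq_top σ with h | h
    · have : v ∈ σ.toSubmodule := hall
      rw [h] at this
      exact this
    · exfalso
      have hall' : ∀ (g : G) (w : Fin n → ℂ), ρ g w = w := by
        intro g w
        have : w ∈ σ.toSubmodule := by rw [h]; trivial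
        exact this g
      obtain ⟨g, hg⟩ := exists_ne (1 : G)
      apply hg
      apply hinj
      refine LinearMap.ext fun w => ?_
      rw [hall' g, hall' 1]
  have hle : (Helper2.resRep ρ H₁).invariants ⊔ (Helper2.resRep ρ H₂).invariants ≤
      (Helper2.resRep ρ (H₁ ⊓ H₂)).invariants := by
    apply sup_le
    · intro v hv
      rw [hmem] at hv ⊢
      exact fun h hh => hv h hh.1
    · intro v hv
      rw [hmem] at hv ⊢
      exact fun h hh => hv h hh.2
  have hdim := Submodule.finrank_sup_add_finrank_inf_eq
    (Helper2.resRep ρ H₁).invariants (Helper2.resRep ρ H₂).invariants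
  rw [hbot, finrank_bot, add_zero] at hdim
  have hle' := Submodule.finrank_mono hle
  rw [Helper2.classInner_restrict_one_eq_finrank ρ H₁,
    Helper2.classInner_restrict_one_eq_finrank ρ H₂,
    Helper2.classInner_restrict_one_eq_finrank ρ (H₁ ⊓ H₂)] at hlt
  simp only [Complex.natCast_re] at hlt
  have : (Module.finrank ℂ (Helper2.resRep ρ H₁).invariants : ℝ) +
      (Module.finrank ℂ (Helper2.resRep ρ H₂).invariants : ℝ) ≤
      (Module.finrank ℂ (Helper2.resRep ρ (H₁ ⊓ H₂)).invariants : ℝ) := by
    rw [hdim] at hle'
    exact_mod_cast hle'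
  linarith

end Cfsg.Agent.S0192
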