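import Cfsg.Statements.S1486
import Cfsg.Agent.Helper10.CharConj

set_option autoImplicit false
open Cfsg

namespace Cfsg.Agent.S1486

open scoped ComplexConjugate

theorem ext_conj {G : Type*} [Group G] (H : Subgroup G) [hN : H.Normal] (θ : H → ℂ) (g z : G) :
    extendByZero H (fun h : H => θ ⟨g * h * g⁻¹, hN.conj_mem h h.2 g⟩) z
      = extendByZero H θ (g * z * g⁻¹) := by
  by_cases hz : z ∈ H
  · rw [Helper2.extendByZero_apply_mem H _ hz, Helper2.extendByZero_apply_mem H θ
      (hN.conj_mem z hz g)]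
  · have hz' : g * z * g⁻¹ ∉ H := by
      intro h
      apply hz
      have := hN.conj_mem _ h g⁻¹
      simpa [mul_assoc] using this
    rw [Helper2.extendByZero_apply_not_mem H _ hz, Helper2.extendByZero_apply_not_mem H θ hz']

theorem res_ind {G : Type*} [Group G] [Fintype G] (H : Subgroup G) [hN : H.Normal] (θ : H → ℂ) :
    (fun h : H => indFun H θ h) = (Nat.card H : ℂ)⁻¹ •
      ∑ x : G, (fun h : H => θ ⟨x * h * x⁻¹, hN.conj_mem h h.2 x⟩) := by
  funext h
  rw [Helper2.indFun_apply, Pi.smul_apply, smul_eq_mul, Finset.sum_apply]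
  congr 1
  rw [← Equiv.sum_comp (Equiv.inv G)]
  refine Finset.sum_congr rfl fun x _ => ?_
  have hm : x * (h : G) * x⁻¹ ∈ H := hN.conj_mem h h.2 x
  simp only [Equiv.inv_apply, inv_inv]
  rw [Helper2.extendByZero_apply_mem H θ hm]

theorem result {G : Type*} [Group G] [Fintype G] (H : Subgroup G) [hN : H.Normal] (θ φ : H → ℂ) (hθ : Cfsg.IsIrrCharacter H θ) (hφ : Cfsg.IsIrrCharacter H φ) : ((∃ g : G, φ = fun h : H => θ ⟨g * h * g⁻¹, hN.conj_mem h h.2 g⟩) → Cfsg.indFun H φ = Cfsg.indFun H θ) ∧ ((¬ ∃ g : G, φ = fun h : H => θ ⟨g * h * g⁻¹, hN.conj_mem h h.2 g⟩) → Cfsg.classInner (Cfsg.indFun H φ) (Cfsg.indFun H θ) = 0) := by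
  classical
  have := Fintype.ofFinite H
  constructor
  · rintro ⟨g, rfl⟩
    funext x
    rw [Helper2.indFun_apply, Helper2.indFun_apply]
    congr 1
    rw [← Equiv.sum_comp (Equiv.mulRight g⁻¹) (fun y => extendByZero H θ (y⁻¹ * x * y))]
    refine Finset.sum_congr rfl fun y _ => ?_
    rw [ext_conj]
    congr 1
    simp only [Equiv.coe_mulRight]
    group
  · intro hnot
    rw [Helper2.frobenius_reciprocity H φ (indFun H θ) (Helper2.isClassFunction_indFun H θ),
      res_ind, Helper2.classInner_smul_right, Helper2.classInner_sum_right]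
    have : ∀ x ∈ (Finset.univ : Finset G),
        classInner φ (fun h : H => θ ⟨x * h * x⁻¹, hN.conj_mem h h.2 x⟩) = 0 := by
      intro x _
      rw [Helper2.classInner_irr hφ (Helper10.isIrr_conj H hθ x)]
      rw [if_neg]
      intro h
      exact hnot ⟨x, h⟩
    rw [Finset.sum_eq_zero this, mul_zero]

end Cfsg.Agent.S1486
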