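import Cfsg.Agent.Helper2.CharOrtho
import Cfsg.Agent.Helper2.IndFun
import Cfsg.Agent.S1486
import Cfsg.Agent.S0161
import Cfsg.Statements.S0194
-- import your own Cfsg.Agent.* helpers here

set_option autoImplicit false
open scoped ComplexConjugate
open Cfsg

namespace Cfsg.Agent.S0194

/-- Let G have odd order, H be a normal subgroup and θ a non-principal irreducible character of H. Then the function induced from θ is orthogonal to its complex conjugate. -/
theorem result {G : Type*} [Group G] [Fintype G] (hodd : Odd (Nat.card G)) (H : Subgroup G) [H.Normal] (θ : H → ℂ) (hθ : Cfsg.IsIrrCharacter H θ) (hθ1 : θ ≠ fun _ => 1) : Cfsg.classInner (fun g => conj (Cfsg.indFun H θ g)) (Cfsg.indFun H θ) = 0 := by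
  classical
  have := Fintype.ofFinite H
  have hN : H.Normal := inferInstance
  have hconj : (fun g => conj (indFun H θ g)) = indFun H (fun h => conj (θ h)) := by
    funext g
    rw [Helper2.indFun_apply, Helper2.indFun_apply, map_mul, map_inv₀, Complex.conj_natCast,
      map_sum]
    congr 1
    refine Finset.sum_congr rfl fun x _ => ?_
    by_cases hx : x⁻¹ * g * x ∈ H
    · rw [Helper2.extendByZero_apply_mem H _ hx, Helper2.extendByZero_apply_mem H _ hx]
    · rw [Helper2.extendByZero_apply_not_mem H _ hx, Helper2.extendByZero_apply_not_mem H _ hx,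
        map_zero]
  rw [hconj]
  apply (S1486.result H θ (fun h => conj (θ h)) hθ (Helper2.isIrrCharacter_conj hθ)).2
  rintro ⟨g, hg⟩
  have hg' : ∀ h : H, θ (MulAut.conjNormal g h) = conj (θ h) := fun h => (congrFun hg h).symm
  have h2 : ∀ h : H, θ (MulAut.conjNormal (g * g) h) = θ h := by
    intro h
    rw [map_mul, MulAut.mul_apply, hg', hg', Complex.conj_conj]
  have hpow : ∀ k : ℕ, ∀ h : H, θ (MulAut.conjNormal ((g * g) ^ k) h) = θ h := by
    intro k
    induction k with
    | zero => intro h; simp
    | succ k ih => intro h; rw [pow_succ, map_mul, MulAut.mul_apply, ih, h2]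
  have hodd' : Odd (orderOf g) := Odd.of_dvd_nat hodd (orderOf_dvd_natCard g)
  obtain ⟨k, hk⟩ := hodd'
  have hgk : (g * g) ^ (k + 1) = g := by
    rw [← pow_two, ← pow_mul, show 2 * (k + 1) = (2 * k + 1) + 1 by ring, ← hk, pow_succ,
      pow_orderOf_eq_one, one_mul]
  have hfix : ∀ h : H, θ (MulAut.conjNormal g h) = θ h := by
    intro h
    have := hpow (k + 1) h
    rwa [hgk] at this
  have hreal : ∀ h : H, (θ h).im = 0 := by
    intro h
    have := (hg' h).symm.trans (hfix h)
    exact Complex.conj_eq_iff_im.1 this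
  have hoddH : Odd (Nat.card H) := Odd.of_dvd_nat hodd (Subgroup.card_subgroup_dvd_card H)
  exact hθ1 (S0161.result hoddH ⟨θ, hθ⟩ hreal)

end Cfsg.Agent.S0194
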