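import Mathlib
import Cfsg.Statements.S0196
-- import your own Cfsg.Agent.* helpers here

set_option autoImplicit false
open Cfsg

namespace Cfsg.Agent.S0196

/-- Conjugation action of the normalizer of `A` on the non-identity elements of `A`. -/
def normConjAction {G : Type*} [Group G] (A : Subgroup G) :
    MulAction (Subgroup.normalizer (A : Set G)) {a : A // a ≠ 1} where
  smul n a := ⟨⟨(n : G) * (a.1 : G) * (n : G)⁻¹,
    (Subgroup.mem_normalizer_iff.1 n.2 _).1 a.1.2⟩, fun h => a.2 (by
      have h' : (n : G) * (a.1 : G) * (n : G)⁻¹ = 1 := congrArg Subtype.val h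
      apply Subtype.ext
      have : (a.1 : G) = (n : G)⁻¹ * ((n : G) * (a.1 : G) * (n : G)⁻¹) * n := by group
      rw [this, h']
      simp)⟩
  one_smul a := by
    apply Subtype.ext
    apply Subtype.ext
    show ((1 : Subgroup.normalizer (A : Set G)) : G) * (a.1 : G) *
      ((1 : Subgroup.normalizer (A : Set G)) : G)⁻¹ = a.1
    simp
  mul_smul m n a := by
    apply Subtype.ext
    apply Subtype.ext
    show ((m * n : Subgroup.normalizer (A : Set G)) : G) * (a.1 : G) *
      ((m * n : Subgroup.normalizer (A : Set G)) : G)⁻¹ =
      (m : G) * ((n : G) * (a.1 : G) * (n : G)⁻¹) * (m : G)⁻¹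
    simp [mul_assoc]

theorem normConjAction_smul_coe {G : Type*} [Group G] (A : Subgroup G)
    (n : Subgroup.normalizer (A : Set G)) (a : {a : A // a ≠ 1}) :
    (((normConjAction A).smul n a).1 : G) = (n : G) * (a.1 : G) * (n : G)⁻¹ := rfl

/-- Let A be a subgroup of a finite group G that equals the centralizer of each of its non-identity elements, and let N be its normalizer. Then the index of A in N divides |A| − 1 (N/A permutes the non-identity elements of A in orbits of full length). -/
theorem result {G : Type*} [Group G] [Finite G] (A : Subgroup G) (hA : ∀ x ∈ A, x ≠ 1 → Subgroup.centralizer ({x} : Set G) = A) : (A.subgroupOf (Subgroup.normalizer (A : Set G))).index ∣ Nat.card A - 1 := by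
  classical
  let _inst := normConjAction A
  have hAN : A ≤ Subgroup.normalizer (A : Set G) := Subgroup.le_normalizer
  have hstab : ∀ a : {a : A // a ≠ 1},
      MulAction.stabilizer (Subgroup.normalizer (A : Set G)) a =
        A.subgroupOf (Subgroup.normalizer (A : Set G)) := by
    intro a
    have ha1 : (a.1 : G) ≠ 1 := fun h => a.2 (Subtype.ext h)
    have hcent := hA a.1 a.1.2 ha1
    ext n
    have hiff : (n : G) ∈ A ↔ (n : G) ∈ Subgroup.centralizer {(a.1 : G)} := by rw [hcent]
    rw [MulAction.mem_stabilizer_iff, Subgroup.mem_subgroupOf, hiff,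
      Subgroup.mem_centralizer_iff]
    constructor
    · intro h y hy
      rw [Set.mem_singleton_iff] at hy
      subst hy
      have h' : (n : G) * (a.1 : G) * (n : G)⁻¹ = a.1 :=
        congrArg (fun x : {a : A // a ≠ 1} => ((x.1 : A) : G)) h
      calc (a.1 : G) * n = ((n : G) * (a.1 : G) * (n : G)⁻¹) * n := by rw [h']
        _ = n * a.1 := by group
    · intro h
      apply Subtype.ext
      apply Subtype.ext
      show (n : G) * (a.1 : G) * (n : G)⁻¹ = a.1
      have := h (a.1 : G) (Set.mem_singleton _)
      rw [← this]
      group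
  have hcardX : Nat.card {a : A // a ≠ 1} = Nat.card A - 1 := by
    have := Fintype.ofFinite A
    rw [Nat.card_eq_fintype_card, Fintype.card_subtype_compl, Fintype.card_subtype_eq,
      Nat.card_eq_fintype_card]
  rw [← hcardX]
  have e := MulAction.selfEquivSigmaOrbitsQuotientStabilizer
    (Subgroup.normalizer (A : Set G)) {a : A // a ≠ 1}
  have := Fintype.ofFinite (Quotient (MulAction.orbitRel (Subgroup.normalizer (A : Set G))
    {a : A // a ≠ 1}))
  rw [Nat.card_congr e, Nat.card_sigma]
  apply Finset.dvd_sum
  intro ω _
  rw [← Subgroup.index_eq_card, hstab]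

end Cfsg.Agent.S0196
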