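import Cfsg.Statements.S0199
import Cfsg.Agent.Helper21.BaerSuzuki

set_option autoImplicit false
open Cfsg

namespace Cfsg.Agent.S0199

/-- Baer–Suzuki Theorem: a p-subgroup X of a finite group such that X and any of its conjugates generate a p-group is contained in a normal p-subgroup. -/
theorem result {G : Type*} [Group G] [Finite G] {p : ℕ} [Fact p.Prime] (X : Subgroup G) (hX : IsPGroup p X) (h : ∀ g : G, IsPGroup p ↥(X ⊔ X.map (MulAut.conj g).toMonoidHom)) : ∃ N : Subgroup G, N.Normal ∧ IsPGroup p N ∧ X ≤ N := by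
  classical
  have hXn : ∀ g x, x ∈ {y : G | ∃ g : G, ∃ x ∈ X, y = g * x * g⁻¹} →
      g * x * g⁻¹ ∈ {y : G | ∃ g : G, ∃ x ∈ X, y = g * x * g⁻¹} := by
    rintro g _ ⟨c, x, hx, rfl⟩
    exact ⟨g * c, x, hx, by group⟩
  have hXp : ∀ x ∈ {y : G | ∃ g : G, ∃ x ∈ X, y = g * x * g⁻¹},
      ∀ y ∈ {y : G | ∃ g : G, ∃ x ∈ X, y = g * x * g⁻¹},
      IsPGroup p (Subgroup.closure ({x, y} : Set G)) := by
    rintro _ ⟨a, x, hx, rfl⟩ _ ⟨b, y, hy, rfl⟩
    have h1 := (h (a⁻¹ * b)).map (MulAut.conj a).toMonoidHom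
    apply h1.to_le
    rw [Subgroup.closure_le]
    intro z hz
    rcases hz with hz | hz
    · rw [hz]
      exact Subgroup.mem_map.2 ⟨x, (le_sup_left : X ≤ _) hx, rfl⟩
    · rw [Set.mem_singleton_iff] at hz
      rw [hz]
      refine Subgroup.mem_map.2 ⟨(a⁻¹ * b) * y * (a⁻¹ * b)⁻¹,
        (le_sup_right : X.map (MulAut.conj (a⁻¹ * b)).toMonoidHom ≤ _)
          (Subgroup.mem_map.2 ⟨y, hy, rfl⟩), ?_⟩
      show a * ((a⁻¹ * b) * y * (a⁻¹ * b)⁻¹) * a⁻¹ = b * y * b⁻¹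
      group
  obtain ⟨N, hNn, hNp, hXN⟩ := Cfsg.Agent.Helper21.baer_suzuki_normal _ hXn hXp
  exact ⟨N, hNn, hNp, fun x hx => hXN x ⟨1, x, hx, by group⟩⟩

end Cfsg.Agent.S0199
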