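import Cfsg.Agent.Helper2.KleinSylow
import Cfsg.Statements.S0203
-- import your own Cfsg.Agent.* helpers here

set_option autoImplicit false
open Cfsg

namespace Cfsg.Agent.S0203

open Cfsg.Agent.Helper2 Cfsg.Agent

/-- If a Sylow 2-subgroup P of a finite group G is a Klein four-group, then G has three classes of involutions if and only if P has a normal complement in G. -/
theorem result {G : Type*} [Group G] [Finite G] (P : Sylow 2 G) (hP : IsKleinFour (P : Subgroup G)) : Nat.card {C : ConjClasses G // ∃ t : G, orderOf t = 2 ∧ ConjClasses.mk t = C} = 3 ↔ ∃ N : Subgroup G, N.Normal ∧ Subgroup.IsComplement' N (P : Subgroup G) := by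
  have : IsKleinFour (P : Subgroup G) := hP
  obtain ⟨x, y, hx, hy, hx1, hy1, hxy⟩ := klein_exists_pair P
  obtain ⟨h1, h3⟩ := klein_card_classes P x y hx hy hx1 hy1 hxy
  constructor
  · intro hcard
    have hnc : ¬ IsConj x y := by
      intro hc
      rw [h1 hc] at hcard
      omega
    have hall : ∀ u v : G, u ∈ P → v ∈ P → IsConj u v → u = v := by
      intro u v hu hv hcon
      by_contra huv
      by_cases hu1 : u = 1
      · subst hu1
        exact huv (isConj_one_right.mp hcon).symm
      by_cases hv1 : v = 1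
      · subst hv1
        exact huv (isConj_one_left.mp hcon)
      exact hnc (klein_all_conj P u v hu hv hu1 hv1 huv hcon x y hx hy hx1 hy1)
    have hNC : Subgroup.normalizer ((P : Subgroup G) : Set G) ≤
        Subgroup.centralizer ((P : Subgroup G) : Set G) := by
      intro n hn
      rw [Subgroup.mem_centralizer_iff]
      intro w hw
      have hw' : n * w * n⁻¹ ∈ (P : Subgroup G) := (Subgroup.mem_normalizer_iff.mp hn w).mp hw
      have h5 := hall w (n * w * n⁻¹) hw hw' (isConj_iff.mpr ⟨n, rfl⟩)
      calc w * n = (n * w * n⁻¹) * n := by rw [← h5]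
        _ = n * w := by group
    exact ⟨(MonoidHom.transferSylow P hNC).ker, inferInstance,
      MonoidHom.ker_transferSylow_isComplement' P hNC⟩
  · rintro ⟨N, hN, hcompl⟩
    apply h3
    intro hc
    obtain ⟨c, hc⟩ := isConj_iff.mp hc
    obtain ⟨⟨n, p⟩, hnp, -⟩ := (Subgroup.isComplement'_def.mp hcompl).existsUnique c
    have hnp' : (n : G) * (p : G) = c := hnp
    have hpP : (p : G) ∈ (P : Subgroup G) := p.2
    have hpx : (p : G) * x * (p : G)⁻¹ = x := by
      rw [klein_comm P p x hpP hx]
      group
    have hy' : y = (n : G) * x * (n : G)⁻¹ := by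
      rw [← hc, ← hnp']
      calc ((n : G) * (p : G)) * x * ((n : G) * (p : G))⁻¹
          = (n : G) * ((p : G) * x * (p : G)⁻¹) * (n : G)⁻¹ := by group
        _ = (n : G) * x * (n : G)⁻¹ := by rw [hpx]
    have hmem : y * x⁻¹ ∈ N ⊓ (P : Subgroup G) := by
      rw [Subgroup.mem_inf]
      refine ⟨?_, (P : Subgroup G).mul_mem hy ((P : Subgroup G).inv_mem hx)⟩
      rw [hy']
      have h6 : (n : G) * x * (n : G)⁻¹ * x⁻¹ = n * (x * (n : G)⁻¹ * x⁻¹) := by group
      rw [h6]
      have hnN : (n : G) ∈ N := n.2
      exact N.mul_mem hnN (hN.conj_mem _ (N.inv_mem hnN) x)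
    rw [hcompl.disjoint.eq_bot, Subgroup.mem_bot] at hmem
    exact hxy (mul_inv_eq_one.mp hmem).symm

end Cfsg.Agent.S0203
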