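import Cfsg.Agent.Helper2.Dihedral
import Cfsg.Statements.S0207
-- import your own Cfsg.Agent.* helpers here

set_option autoImplicit false
open Cfsg

namespace Cfsg.Agent.S0207

/-- If x, y are distinct involutions, every element of the subgroup they generate that lies outside the cyclic subgroup generated by xy is an involution. -/
theorem result {G : Type*} [Group G] [Finite G] (x y : G) (hx : orderOf x = 2) (hy : orderOf y = 2) (hxy : x ≠ y) (d : G) (hd : d ∈ Subgroup.closure ({x, y} : Set G)) (hd' : d ∉ Subgroup.zpowers (x * y)) : orderOf d = 2 := by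
  have hx2 := Helper2.sq_of_orderOf_two hx
  have hy2 := Helper2.sq_of_orderOf_two hy
  obtain ⟨k, rfl | rfl⟩ := (Helper2.mem_closure_pair_iff hx2 hy2 d).1 hd
  · exact absurd (Subgroup.zpow_mem_zpowers _ k) hd'
  · apply Helper2.orderOf_two_of_sq
    · intro h
      apply hd'
      rw [h]
      exact one_mem _
    · rw [mul_assoc, ← mul_assoc x, Helper2.inv_mul_zpow hx2 hy2, mul_assoc, hx2, mul_one, ← zpow_add]
      simp

end Cfsg.Agent.S0207
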