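import Cfsg.Agent.Helper2.Dihedral
import Cfsg.Statements.S0208
-- import your own Cfsg.Agent.* helpers here

set_option autoImplicit false
open Cfsg

namespace Cfsg.Agent.S0208

/-- If x, y are involutions and xy has odd order, then some element of the subgroup generated by x and y conjugates x to y. -/
theorem result {G : Type*} [Group G] [Finite G] (x y : G) (hx : orderOf x = 2) (hy : orderOf y = 2) (hodd : Odd (orderOf (x * y))) : ∃ d ∈ Subgroup.closure ({x, y} : Set G), d * x * d⁻¹ = y := by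
  have hx2 := Helper2.sq_of_orderOf_two hx
  have hy2 := Helper2.sq_of_orderOf_two hy
  obtain ⟨k, hk⟩ := hodd
  have hxm : x ∈ Subgroup.closure ({x, y} : Set G) := Subgroup.subset_closure (by simp)
  have hym : y ∈ Subgroup.closure ({x, y} : Set G) := Subgroup.subset_closure (by simp)
  refine ⟨(x * y) ^ (k : ℤ), Subgroup.zpow_mem _ (Subgroup.mul_mem _ hxm hym) _, ?_⟩
  rw [Helper2.conj_zpow hx2 hy2]
  have h1 : (x * y) ^ (2 * (k : ℤ)) = (x * y)⁻¹ := by
    have h2 : (x * y) ^ (((2 * k + 1 : ℕ)) : ℤ) = 1 := by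
      rw [zpow_natCast, ← hk, pow_orderOf_eq_one]
    have h3 : (2 * (k : ℤ)) = ((2 * k + 1 : ℕ) : ℤ) + (-1) := by push_cast; ring
    rw [h3, zpow_add, h2, one_mul, zpow_neg_one]
  rw [h1, mul_inv_rev, mul_assoc, inv_mul_cancel, mul_one, Helper2.inv_of_orderOf_two hy]

end Cfsg.Agent.S0208
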