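import Cfsg.Agent.Helper2.Dihedral
import Cfsg.Statements.S0209
-- import your own Cfsg.Agent.* helpers here

set_option autoImplicit false
open Cfsg

namespace Cfsg.Agent.S0209

/-- If x, y are involutions whose product has even order n, the element (xy)^(n/2) is an involution that commutes with x and with y. -/
theorem result {G : Type*} [Group G] [Finite G] (x y : G) (hx : orderOf x = 2) (hy : orderOf y = 2) (heven : Even (orderOf (x * y))) : orderOf ((x * y) ^ (orderOf (x * y) / 2)) = 2 ∧ Commute ((x * y) ^ (orderOf (x * y) / 2)) x ∧ Commute ((x * y) ^ (orderOf (x * y) / 2)) y := by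
  have hx2 := Helper2.sq_of_orderOf_two hx
  have hy2 := Helper2.sq_of_orderOf_two hy
  have hz : orderOf ((x * y) ^ (orderOf (x * y) / 2)) = 2 :=
    orderOf_pow_orderOf_div (orderOf_pos (x * y)).ne' heven.two_dvd
  have hz2 := Helper2.sq_of_orderOf_two hz
  have hzi := Helper2.inv_of_orderOf_two hz
  have hcx : Commute ((x * y) ^ (orderOf (x * y) / 2)) x := by
    show (x * y) ^ (orderOf (x * y) / 2) * x = x * (x * y) ^ (orderOf (x * y) / 2)
    have := Helper2.mul_inv_zpow hx2 hy2 ((orderOf (x * y) / 2 : ℕ) : ℤ)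
    rw [zpow_neg, zpow_natCast, hzi] at this
    exact this
  refine ⟨hz, hcx, ?_⟩
  have hy' : y = x * (x * y) := by rw [← mul_assoc, hx2, one_mul]
  have hca : Commute ((x * y) ^ (orderOf (x * y) / 2)) (x * y) := (Commute.refl (x * y)).pow_left _
  have := hcx.mul_right hca
  rwa [← hy'] at this

end Cfsg.Agent.S0209
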