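import Cfsg.Agent.Helper2.Dihedral
import Cfsg.Statements.S0210
-- import your own Cfsg.Agent.* helpers here

set_option autoImplicit false
open Cfsg

namespace Cfsg.Agent.S0210

/-- If x, y are involutions whose product has even order, no element of the subgroup generated by x and y conjugates x to y. -/
theorem result {G : Type*} [Group G] [Finite G] (x y : G) (hx : orderOf x = 2) (hy : orderOf y = 2) (heven : Even (orderOf (x * y))) (d : G) (hd : d ∈ Subgroup.closure ({x, y} : Set G)) : d * x * d⁻¹ ≠ y := by
  have hx2 := Helper2.sq_of_orderOf_two hx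
  have hy2 := Helper2.sq_of_orderOf_two hy
  obtain ⟨k, hk⟩ := Helper2.conj_by_closure_pair hx2 hy2 d hd
  intro h
  rw [hk] at h
  have h1 : (x * y) ^ (2 * k + 1) = 1 := by
    rw [zpow_add, zpow_one, ← mul_assoc, h, hy2]
  rw [← orderOf_dvd_iff_zpow_eq_one] at h1
  obtain ⟨c, hc⟩ := heven
  obtain ⟨e, he⟩ := h1
  rw [hc] at he
  push_cast at he
  have : 2 * k + 1 = 2 * ((c : ℤ) * e) := by rw [he]; ring
  omega

end Cfsg.Agent.S0210
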