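import Cfsg.Agent.Helper2.Dihedral
import Cfsg.Statements.S0211
-- import your own Cfsg.Agent.* helpers here

set_option autoImplicit false
open Cfsg

namespace Cfsg.Agent.S0211

/-- Let x, y be involutions with xy of even order n and z = (xy)^(n/2). Then xz is conjugate to x by an element of the subgroup generated by x, y if and only if 4 divides n. -/
theorem result {G : Type*} [Group G] [Finite G] (x y : G) (hx : orderOf x = 2) (hy : orderOf y = 2) (heven : Even (orderOf (x * y))) : (∃ d ∈ Subgroup.closure ({x, y} : Set G), d * x * d⁻¹ = x * (x * y) ^ (orderOf (x * y) / 2)) ↔ 4 ∣ orderOf (x * y) := by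
  have hx2 := Helper2.sq_of_orderOf_two hx
  have hy2 := Helper2.sq_of_orderOf_two hy
  have hxm : x ∈ Subgroup.closure ({x, y} : Set G) := Subgroup.subset_closure (by simp)
  have hym : y ∈ Subgroup.closure ({x, y} : Set G) := Subgroup.subset_closure (by simp)
  obtain ⟨c, hc⟩ := heven
  have hc2 : orderOf (x * y) / 2 = c := by omega
  rw [hc2]
  have hrhs : x * (x * y) ^ c = (x * y) ^ (-(c : ℤ)) * x := by
    rw [← zpow_natCast, Helper2.inv_mul_zpow hx2 hy2]
  rw [hrhs]
  constructor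
  · rintro ⟨d, hd, h⟩
    obtain ⟨k, hk⟩ := Helper2.conj_by_closure_pair hx2 hy2 d hd
    rw [hk] at h
    have h0 : (x * y) ^ (2 * k) = (x * y) ^ (-(c : ℤ)) := mul_right_cancel h
    have h1 : (x * y) ^ (2 * k + c) = 1 := by
      rw [zpow_add, h0, ← zpow_add]; simp
    rw [← orderOf_dvd_iff_zpow_eq_one] at h1
    obtain ⟨e, he⟩ := h1
    rw [hc] at he
    push_cast at he
    have h2 : (c : ℤ) = 2 * ((c : ℤ) * e - k) := by linarith
    have h3 : (2 : ℤ) ∣ (c : ℤ) := ⟨_, h2⟩
    have h4 : 2 ∣ c := by exact_mod_cast h3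
    rw [hc]
    omega
  · rintro ⟨e, he⟩
    have hce : c = 2 * e := by omega
    refine ⟨(x * y) ^ (e : ℤ), Subgroup.zpow_mem _ (Subgroup.mul_mem _ hxm hym) _, ?_⟩
    rw [Helper2.conj_zpow hx2 hy2]
    congr 1
    have h1 : (x * y) ^ ((4 * e : ℕ) : ℤ) = 1 := by
      rw [zpow_natCast, ← he, pow_orderOf_eq_one]
    have h2 : (2 * (e : ℤ)) = ((4 * e : ℕ) : ℤ) + (-(c : ℤ)) := by
      rw [hce]; push_cast; ring
    rw [h2, zpow_add, h1, one_mul]

end Cfsg.Agent.S0211
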