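import Cfsg.Agent.Helper2.BrauerFowler
import Cfsg.Agent.Helper2.ConjClass
import Cfsg.Statements.S0212
-- import your own Cfsg.Agent.* helpers here

set_option autoImplicit false
open Cfsg

namespace Cfsg.Agent.S0212

open Cfsg.Agent.Helper2 Cfsg.Agent

/-- A simple group embeds in the symmetric group on the cosets of a proper subgroup. -/
theorem card_le_factorial_index {G : Type*} [Group G] [Finite G] [IsSimpleGroup G]
    (H : Subgroup G) (hH : H ≠ ⊤) : Nat.card G ≤ Nat.factorial H.index := by
  have hker : (MulAction.toPermHom G (G ⧸ H)).ker = ⊥ := by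
    rcases IsSimpleGroup.eq_bot_or_eq_top_of_normal (MulAction.toPermHom G (G ⧸ H)).ker
      inferInstance with h | h
    · exact h
    · exfalso
      apply hH
      rw [eq_top_iff, ← h, ← Subgroup.normalCore_eq_ker]
      exact Subgroup.normalCore_le H
  have hinj : Function.Injective (MulAction.toPermHom G (G ⧸ H)) :=
    (MonoidHom.ker_eq_bot_iff _).mp hker
  have h1 := Nat.card_le_card_of_injective _ hinj
  rw [Nat.card_perm, ← Subgroup.index_eq_card] at h1
  exact h1

/-- The Brauer–Fowler bound: if G is a finite simple group and t an involution of G whose centralizer has order n, then |G| ≤ (2n^2)!. -/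
theorem result {G : Type*} [Group G] [Finite G] [IsSimpleGroup G] (t : G) (ht : orderOf t = 2) : Nat.card G ≤ Nat.factorial (2 * (Nat.card (Subgroup.centralizer ({t} : Set G))) ^ 2) := by
  classical
  have ht1 := ne_one_of_orderOf_two ht
  have hcpos : 0 < Nat.card (Subgroup.centralizer ({t} : Set G)) := Nat.card_pos
  have hbig : 2 ≤ Nat.factorial (2 * (Nat.card (Subgroup.centralizer ({t} : Set G))) ^ 2) := by
    have h1 : 2 ≤ 2 * (Nat.card (Subgroup.centralizer ({t} : Set G))) ^ 2 := by
      have : 1 ≤ (Nat.card (Subgroup.centralizer ({t} : Set G))) ^ 2 := Nat.one_le_pow _ _ hcpos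
      omega
    exact h1.trans (Nat.self_le_factorial _)
  by_cases hidx : ∃ H : Subgroup G, H.index = 2
  · obtain ⟨H, hH⟩ := hidx
    have hn := Subgroup.normal_of_index_eq_two hH
    rcases IsSimpleGroup.eq_bot_or_eq_top_of_normal H hn with h | h
    · rw [h, Subgroup.index_bot] at hH
      rw [hH]
      exact hbig
    · rw [h, Subgroup.index_top] at hH
      omega
  · push Not at hidx
    have hbt : (⊥ : Subgroup G) ≠ ⊤ := by
      intro h
      have : t ∈ (⊥ : Subgroup G) := by rw [h]; trivial
      exact ht1 (Subgroup.mem_bot.mp this)
    have hZ : Odd (Nat.card (Subgroup.center G)) := by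
      rcases IsSimpleGroup.eq_bot_or_eq_top_of_normal (Subgroup.center G) inferInstance with h | h
      · rw [h, Subgroup.card_bot]
        exact odd_one
      · exfalso
        have hcomm : ∀ a b : G, a * b = b * a := by
          intro a b
          have : b ∈ Subgroup.center G := by rw [h]; trivial
          rw [Subgroup.mem_center_iff] at this
          exact this a
        let _ : CommGroup G := { (inferInstance : Group G) with mul_comm := hcomm }
        have hprime : (Nat.card G).Prime := IsSimpleGroup.prime_card
        have h2 : 2 ∣ Nat.card G := by rw [← ht]; exact orderOf_dvd_natCard t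
        have h3 : Nat.card G = 2 := ((Nat.prime_dvd_prime_iff_eq Nat.prime_two hprime).mp h2).symm
        apply hidx ⊥
        rw [Subgroup.index_bot, h3]
    have hex : ∃ k : ℕ, ∃ H : Subgroup G, H ≠ ⊤ ∧ H.index = k := ⟨_, ⊥, hbt, rfl⟩
    obtain ⟨H, hH, hk⟩ := Nat.find_spec hex
    have hcore := brauer_fowler_core hZ hidx (Nat.find hex)
      (fun K hK => Nat.find_min' hex ⟨K, hK, rfl⟩)
    have hemb := card_le_factorial_index H hH
    rw [hk] at hemb
    refine hemb.trans (Nat.factorial_le ?_)
    -- class of t inside involutions
    have hord : ∀ y : G, IsConj y t → orderOf y = 2 := by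
      intro y hy
      obtain ⟨c, hc⟩ := isConj_iff.mp hy
      have h1 : t = (MulAut.conj c).toMonoidHom y := hc.symm
      rw [← ht, h1]
      exact (orderOf_injective _ (MulAut.conj c).injective _).symm
    have hcl : Nat.card {x : G // IsConj x t} ≤ Nat.card {x : G // orderOf x = 2} := by
      apply Nat.card_le_card_of_injective
        (fun x : {x : G // IsConj x t} => (⟨x.1, hord x.1 x.2⟩ : {x : G // orderOf x = 2}))
      intro a b hab
      exact Subtype.ext (congrArg (fun y : {x : G // orderOf x = 2} => y.1) hab)
    clear hord
    have hcc := card_conj_mul_card_centralizer t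
    generalize Nat.card {x : G // IsConj x t} = k at *
    generalize Nat.card {x : G // orderOf x = 2} = m at *
    generalize Nat.card (Subgroup.centralizer ({t} : Set G)) = c at *
    generalize Nat.card G = N at *
    generalize Nat.find hex = h at *
    subst hcc
    by_contra hcon
    push Not at hcon
    have hm : 0 < m := by
      rcases Nat.eq_zero_or_pos m with h0 | h0
      · subst h0
        have : k = 0 := by omega
        subst this
        simp at hcore
      · exact h0
    have h1 : k * c ≤ m * c := Nat.mul_le_mul_right c hcl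
    have h2 : k * c * (k * c + m) ≤ (m * c) * (m * c + m) :=
      Nat.mul_le_mul h1 (by omega)
    have h3 : 2 * h * m ^ 2 < (m * c) * (m * c + m) := lt_of_lt_of_le hcore h2
    have h4 : (m * c) * (m * c + m) = (c ^ 2 + c) * m ^ 2 := by ring
    rw [h4] at h3
    have h5 : 2 * h < c ^ 2 + c := by
      by_contra h5
      push Not at h5
      have : (c ^ 2 + c) * m ^ 2 ≤ 2 * h * m ^ 2 := Nat.mul_le_mul_right _ h5
      omega
    have h6 : c ≤ c ^ 2 := by
      rw [pow_two]
      exact Nat.le_mul_of_pos_left c hcpos
    omega

end Cfsg.Agent.S0212
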