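import Cfsg.Agent.S0219
import Cfsg.Statements.S0220
-- import your own Cfsg.Agent.* helpers here

set_option autoImplicit false
open Cfsg

namespace Cfsg.Agent.S0220

theorem cyclic_unique_involution {A : Type*} [Group A] [Finite A] [IsCyclic A] (a b : A)
    (ha : orderOf a = 2) (hb : orderOf b = 2) : a = b := by
  classical
  have := Fintype.ofFinite A
  have hd : 2 ∣ Fintype.card A := by
    rw [← ha, ← Nat.card_eq_fintype_card]; exact orderOf_dvd_natCard a
  have h := IsCyclic.card_orderOf_eq_totient hd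
  rw [Nat.totient_two, Finset.card_eq_one] at h
  obtain ⟨c, hc⟩ := h
  have ha' : a ∈ ({c} : Finset A) := by rw [← hc]; simp [ha]
  have hb' : b ∈ ({c} : Finset A) := by rw [← hc]; simp [hb]
  rw [Finset.mem_singleton] at ha' hb'
  rw [ha', hb']

/-- If x is an involution of a finite group G and a Sylow 2-subgroup of the centralizer of x is cyclic, then G has a subgroup of index 2; in particular G is not simple unless it has order 2. -/
theorem result {G : Type*} [Group G] [Finite G] (x : G) (hx : orderOf x = 2) (S : Sylow 2 ↥(Subgroup.centralizer ({x} : Set G))) (hS : IsCyclic (S : Subgroup ↥(Subgroup.centralizer ({x} : Set G)))) : ∃ H : Subgroup G, H.index = 2 := by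
  have : Fact (Nat.Prime 2) := ⟨Nat.prime_two⟩
  have hx1 := Helper2.ne_one_of_orderOf_two hx
  have heven : Even (Nat.card G) := by
    rw [even_iff_two_dvd, ← hx]; exact orderOf_dvd_natCard x
  have hzp : IsPGroup 2 (Subgroup.zpowers x) := by
    apply IsPGroup.of_card (n := 1)
    rw [Nat.card_zpowers, hx]; rfl
  obtain ⟨T, hT⟩ := hzp.exists_le_sylow
  have hxT : x ∈ T := hT (Subgroup.mem_zpowers x)
  have hcyc : ∀ D : Subgroup (Subgroup.centralizer ({x} : Set G)), IsPGroup 2 D → IsCyclic D := by
    intro D hD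
    obtain ⟨S', hS'⟩ := hD.exists_le_sylow
    obtain ⟨c, hc⟩ := MulAction.exists_smul_eq (Subgroup.centralizer ({x} : Set G)) S S'
    have h1 : IsCyclic (S' : Subgroup (Subgroup.centralizer ({x} : Set G))) := by
      rw [← hc]
      exact isCyclic_of_surjective (S.equivSMul c) (S.equivSMul c).surjective
    have h2 : IsCyclic (D.subgroupOf S') := Subgroup.isCyclic _
    exact isCyclic_of_surjective (Subgroup.subgroupOfEquivOfLe hS') (MulEquiv.surjective _)
  have hD : IsPGroup 2 ((T : Subgroup G).subgroupOf (Subgroup.centralizer ({x} : Set G))) :=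
    T.2.comap_subtype
  have hDc := hcyc _ hD
  have hTnt : Nontrivial (T : Subgroup G) := ⟨⟨⟨x, hxT⟩, 1, fun h => hx1 (congrArg Subtype.val h)⟩⟩
  have hZnt : Nontrivial (Subgroup.center (T : Subgroup G)) := T.2.center_nontrivial
  have hZp : IsPGroup 2 (Subgroup.center (T : Subgroup G)) := IsPGroup.to_subgroup T.2 _
  obtain ⟨k, hk⟩ := hZp.exists_card_eq
  have hk1 : 2 ∣ Nat.card (Subgroup.center (T : Subgroup G)) := by
    rcases k with _ | k
    · rw [pow_zero] at hk
      have := Finite.one_lt_card_iff_nontrivial.2 hZnt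
      omega
    · rw [hk]; exact Dvd.intro_left _ rfl
  obtain ⟨z, hz⟩ := exists_prime_orderOf_dvd_card' 2 hk1
  have hz' : orderOf ((z : (T : Subgroup G)) : G) = 2 := by
    rw [Subgroup.orderOf_coe, Subgroup.orderOf_coe]; exact hz
  have hzx : ((z : (T : Subgroup G)) : G) * x = x * ((z : (T : Subgroup G)) : G) := by
    have := Subgroup.mem_center_iff.1 z.2 ⟨x, hxT⟩
    have h := congrArg Subtype.val this
    exact h.symm
  have hxC : x ∈ Subgroup.centralizer ({x} : Set G) := by
    rw [Subgroup.mem_centralizer_iff]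
    intro y hy
    rw [Set.mem_singleton_iff] at hy
    rw [hy]
  have hzC : ((z : (T : Subgroup G)) : G) ∈ Subgroup.centralizer ({x} : Set G) := by
    rw [Subgroup.mem_centralizer_iff]
    intro y hy
    rw [Set.mem_singleton_iff] at hy
    rw [hy]
    exact hzx.symm
  have hxD : (⟨x, hxC⟩ : Subgroup.centralizer ({x} : Set G)) ∈ (T : Subgroup G).subgroupOf (Subgroup.centralizer ({x} : Set G)) :=
    Subgroup.mem_subgroupOf.2 hxT
  have hzD : (⟨((z : (T : Subgroup G)) : G), hzC⟩ : Subgroup.centralizer ({x} : Set G)) ∈ (T : Subgroup G).subgroupOf (Subgroup.centralizer ({x} : Set G)) :=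
    Subgroup.mem_subgroupOf.2 (z : (T : Subgroup G)).2
  have heq := cyclic_unique_involution
    (⟨⟨x, hxC⟩, hxD⟩ : (T : Subgroup G).subgroupOf (Subgroup.centralizer ({x} : Set G)))
    ⟨⟨((z : (T : Subgroup G)) : G), hzC⟩, hzD⟩
    (by rw [Subgroup.orderOf_mk, Subgroup.orderOf_mk]; exact hx)
    (by rw [Subgroup.orderOf_mk, Subgroup.orderOf_mk]; exact hz')
  have heq' : x = ((z : (T : Subgroup G)) : G) := congrArg (fun d : (T : Subgroup G).subgroupOf (Subgroup.centralizer ({x} : Set G)) => ((d : Subgroup.centralizer ({x} : Set G)) : G)) heq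
  have hTC : (T : Subgroup G) ≤ Subgroup.centralizer ({x} : Set G) := by
    intro t ht
    rw [Subgroup.mem_centralizer_iff]
    intro y hy
    rw [Set.mem_singleton_iff] at hy
    rw [hy, heq']
    have := Subgroup.mem_center_iff.1 z.2 ⟨t, ht⟩
    have h := congrArg Subtype.val this
    exact h.symm
  have hTcyc : IsCyclic (T : Subgroup G) :=
    isCyclic_of_surjective (Subgroup.subgroupOfEquivOfLe hTC) (MulEquiv.surjective _)
  exact S0219.result heven T hTcyc

end Cfsg.Agent.S0220
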