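import Cfsg.Agent.Helper2.Dihedral
import Cfsg.Agent.Helper2.ConjClass
import Cfsg.Agent.S0208
import Cfsg.Agent.S0209
import Cfsg.Agent.S0220
import Cfsg.Statements.S0213
-- import your own Cfsg.Agent.* helpers here

set_option autoImplicit false
open Cfsg

namespace Cfsg.Agent.S0213

open Cfsg.Agent.Helper2 Cfsg.Agent

theorem invol_unique_zpowers {G : Type*} [Group G] [Finite G] (g w₁ w₂ : G)
    (h₁ : w₁ ∈ Subgroup.zpowers g) (h₂ : w₂ ∈ Subgroup.zpowers g) (o₁ : orderOf w₁ = 2)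
    (o₂ : orderOf w₂ = 2) : w₁ = w₂ := by
  have := S0220.cyclic_unique_involution (A := Subgroup.zpowers g) ⟨w₁, h₁⟩ ⟨w₂, h₂⟩
    (by rw [Subgroup.orderOf_mk]; exact o₁) (by rw [Subgroup.orderOf_mk]; exact o₂)
  exact congrArg Subtype.val this

theorem orderOf_of_isConj {G : Type*} [Group G] {a b : G} (h : IsConj a b) :
    orderOf b = orderOf a := by
  obtain ⟨c, hc⟩ := isConj_iff.mp h
  have h1 : b = (MulAut.conj c).toMonoidHom a := hc.symm
  rw [h1]
  exact orderOf_injective _ (MulAut.conj c).injective _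

/-- Thompson Order Formula, two-class case: if every involution of the finite group G is conjugate to exactly one of the non-conjugate involutions x₁, x₂, and nᵢ is the number of pairs (u, v) with u conjugate to x₁, v conjugate to x₂ and xᵢ in the cyclic group generated by uv, then |G| = |C(x₂)| n₁ + |C(x₁)| n₂. -/
theorem result {G : Type*} [Group G] [Finite G] (x₁ x₂ : G) (h₁ : orderOf x₁ = 2) (h₂ : orderOf x₂ = 2) (hnc : ¬ IsConj x₁ x₂) (hall : ∀ t : G, orderOf t = 2 → IsConj x₁ t ∨ IsConj x₂ t) : Nat.card G = Nat.card (Subgroup.centralizer ({x₂} : Set G)) * Nat.card {p : G × G // IsConj x₁ p.1 ∧ IsConj x₂ p.2 ∧ x₁ ∈ Subgroup.zpowers (p.1 * p.2)} + Nat.card (Subgroup.centralizer ({x₁} : Set G)) * Nat.card {p : G × G // IsConj x₁ p.1 ∧ IsConj x₂ p.2 ∧ x₂ ∈ Subgroup.zpowers (p.1 * p.2)} := by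
  classical
  have := Fintype.ofFinite G
  -- fibers
  have hF : ∀ w : G, Nat.card {p : G × G // IsConj x₁ p.1 ∧ IsConj x₂ p.2 ∧
      w ∈ Subgroup.zpowers (p.1 * p.2)} =
      (Finset.univ.filter (fun p : G × G => IsConj x₁ p.1 ∧ IsConj x₂ p.2 ∧
        w ∈ Subgroup.zpowers (p.1 * p.2))).card := by
    intro w
    rw [Nat.card_eq_fintype_card, Fintype.card_subtype]
  -- conjugation invariance of the fibre size
  have hconj : ∀ (w g : G), Nat.card {p : G × G // IsConj x₁ p.1 ∧ IsConj x₂ p.2 ∧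
      g * w * g⁻¹ ∈ Subgroup.zpowers (p.1 * p.2)} =
      Nat.card {p : G × G // IsConj x₁ p.1 ∧ IsConj x₂ p.2 ∧
      w ∈ Subgroup.zpowers (p.1 * p.2)} := by
    intro w g
    apply Nat.card_congr
    refine
      { toFun := fun p => ⟨(g⁻¹ * p.1.1 * g, g⁻¹ * p.1.2 * g), ?_, ?_, ?_⟩
        invFun := fun p => ⟨(g * p.1.1 * g⁻¹, g * p.1.2 * g⁻¹), ?_, ?_, ?_⟩
        left_inv := ?_
        right_inv := ?_ }
    · exact p.2.1.trans (isConj_iff.mpr ⟨g⁻¹, by group⟩)
    · exact p.2.2.1.trans (isConj_iff.mpr ⟨g⁻¹, by group⟩)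
    · obtain ⟨k, hk⟩ := p.2.2.2
      refine ⟨k, ?_⟩
      show (g⁻¹ * p.1.1 * g * (g⁻¹ * p.1.2 * g)) ^ k = w
      have h1 : g⁻¹ * p.1.1 * g * (g⁻¹ * p.1.2 * g) = g⁻¹ * (p.1.1 * p.1.2) * g⁻¹⁻¹ := by group
      have hk' : (p.1.1 * p.1.2) ^ k = g * w * g⁻¹ := hk
      rw [h1, _root_.conj_zpow, hk']
      group
    · exact p.2.1.trans (isConj_iff.mpr ⟨g, rfl⟩)
    · exact p.2.2.1.trans (isConj_iff.mpr ⟨g, rfl⟩)
    · obtain ⟨k, hk⟩ := p.2.2.2
      refine ⟨k, ?_⟩
      show (g * p.1.1 * g⁻¹ * (g * p.1.2 * g⁻¹)) ^ k = g * w * g⁻¹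
      have h1 : g * p.1.1 * g⁻¹ * (g * p.1.2 * g⁻¹) = g * (p.1.1 * p.1.2) * g⁻¹ := by group
      have hk' : (p.1.1 * p.1.2) ^ k = w := hk
      rw [h1, _root_.conj_zpow, hk']
    · rintro ⟨⟨u, v⟩, h⟩
      apply Subtype.ext
      show (g * (g⁻¹ * u * g) * g⁻¹, g * (g⁻¹ * v * g) * g⁻¹) = (u, v)
      congr 1 <;> group
    · rintro ⟨⟨u, v⟩, h⟩
      apply Subtype.ext
      show (g⁻¹ * (g * u * g⁻¹) * g, g⁻¹ * (g * v * g⁻¹) * g) = (u, v)
      congr 1 <;> group
  -- total count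
  have hT : (Finset.univ.filter (fun p : G × G => IsConj x₁ p.1 ∧ IsConj x₂ p.2)).card =
      (Finset.univ.filter (fun u : G => IsConj x₁ u)).card *
        (Finset.univ.filter (fun v : G => IsConj x₂ v)).card := by
    rw [← Finset.card_product]
    congr 1
    ext ⟨u, v⟩
    simp
  -- partition of the pairs by the involution in the cyclic group
  have hpart : Finset.univ.filter (fun p : G × G => IsConj x₁ p.1 ∧ IsConj x₂ p.2) =
      (Finset.univ.filter (fun w : G => orderOf w = 2)).biUnion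
        (fun w => Finset.univ.filter (fun p : G × G => IsConj x₁ p.1 ∧ IsConj x₂ p.2 ∧
          w ∈ Subgroup.zpowers (p.1 * p.2))) := by
    ext ⟨u, v⟩
    rw [Finset.mem_filter, Finset.mem_biUnion]
    constructor
    · rintro ⟨-, hu, hv⟩
      have hu2 : orderOf u = 2 := by rw [orderOf_of_isConj hu, h₁]
      have hv2 : orderOf v = 2 := by rw [orderOf_of_isConj hv, h₂]
      have heven : Even (orderOf (u * v)) := by
        by_contra hodd
        rw [Nat.not_even_iff_odd] at hodd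
        obtain ⟨d, -, hd⟩ := S0208.result u v hu2 hv2 hodd
        have h1 : IsConj u v := isConj_iff.mpr ⟨d, hd⟩
        exact hnc ((hu.trans h1).trans hv.symm)
      obtain ⟨hz, -, -⟩ := S0209.result u v hu2 hv2 heven
      refine ⟨(u * v) ^ (orderOf (u * v) / 2), ?_, ?_⟩
      · rw [Finset.mem_filter]; exact ⟨Finset.mem_univ _, hz⟩
      · rw [Finset.mem_filter]
        exact ⟨Finset.mem_univ _, hu, hv, Subgroup.pow_mem _ (Subgroup.mem_zpowers _) _⟩
    · rintro ⟨w, -, hw⟩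
      rw [Finset.mem_filter] at hw
      exact ⟨Finset.mem_univ _, hw.2.1, hw.2.2.1⟩
  have hdisj : ∀ w ∈ Finset.univ.filter (fun w : G => orderOf w = 2),
      ∀ w' ∈ Finset.univ.filter (fun w : G => orderOf w = 2), w ≠ w' →
      Disjoint (Finset.univ.filter (fun p : G × G => IsConj x₁ p.1 ∧ IsConj x₂ p.2 ∧
          w ∈ Subgroup.zpowers (p.1 * p.2)))
        (Finset.univ.filter (fun p : G × G => IsConj x₁ p.1 ∧ IsConj x₂ p.2 ∧
          w' ∈ Subgroup.zpowers (p.1 * p.2))) := by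
    intro w hw w' hw' hne
    rw [Finset.mem_filter] at hw hw'
    rw [Finset.disjoint_left]
    intro p hp hp'
    rw [Finset.mem_filter] at hp hp'
    exact hne (invol_unique_zpowers _ w w' hp.2.2.2 hp'.2.2.2 hw.2 hw'.2)
  have hsumI := Finset.card_biUnion hdisj
  rw [← hpart, hT] at hsumI
  -- split the involutions into the two classes
  have hI : Finset.univ.filter (fun w : G => orderOf w = 2) =
      Finset.univ.filter (fun u : G => IsConj x₁ u) ∪ Finset.univ.filter (fun v : G => IsConj x₂ v) := by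
    ext w
    rw [Finset.mem_filter, Finset.mem_union, Finset.mem_filter, Finset.mem_filter]
    constructor
    · rintro ⟨-, hw⟩
      rcases hall w hw with h | h
      · exact Or.inl ⟨Finset.mem_univ _, h⟩
      · exact Or.inr ⟨Finset.mem_univ _, h⟩
    · rintro (⟨-, h⟩ | ⟨-, h⟩)
      · exact ⟨Finset.mem_univ _, by rw [orderOf_of_isConj h, h₁]⟩
      · exact ⟨Finset.mem_univ _, by rw [orderOf_of_isConj h, h₂]⟩
  have hdisjK : Disjoint (Finset.univ.filter (fun u : G => IsConj x₁ u))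
      (Finset.univ.filter (fun v : G => IsConj x₂ v)) := by
    rw [Finset.disjoint_left]
    intro w h1 h2
    rw [Finset.mem_filter] at h1 h2
    exact hnc (h1.2.trans h2.2.symm)
  rw [hI, Finset.sum_union hdisjK] at hsumI
  have hs1 : ∑ w ∈ Finset.univ.filter (fun u : G => IsConj x₁ u),
      (Finset.univ.filter (fun p : G × G => IsConj x₁ p.1 ∧ IsConj x₂ p.2 ∧
          w ∈ Subgroup.zpowers (p.1 * p.2))).card =
      (Finset.univ.filter (fun u : G => IsConj x₁ u)).card *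
        Nat.card {p : G × G // IsConj x₁ p.1 ∧ IsConj x₂ p.2 ∧
          x₁ ∈ Subgroup.zpowers (p.1 * p.2)} := by
    rw [← smul_eq_mul, ← Finset.sum_const]
    apply Finset.sum_congr rfl
    intro w hw
    rw [Finset.mem_filter] at hw
    obtain ⟨g, hg⟩ := isConj_iff.mp hw.2
    rw [← hF, ← hg, hconj]
  have hs2 : ∑ w ∈ Finset.univ.filter (fun u : G => IsConj x₂ u),
      (Finset.univ.filter (fun p : G × G => IsConj x₁ p.1 ∧ IsConj x₂ p.2 ∧
          w ∈ Subgroup.zpowers (p.1 * p.2))).card =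
      (Finset.univ.filter (fun u : G => IsConj x₂ u)).card *
        Nat.card {p : G × G // IsConj x₁ p.1 ∧ IsConj x₂ p.2 ∧
          x₂ ∈ Subgroup.zpowers (p.1 * p.2)} := by
    rw [← smul_eq_mul, ← Finset.sum_const]
    apply Finset.sum_congr rfl
    intro w hw
    rw [Finset.mem_filter] at hw
    obtain ⟨g, hg⟩ := isConj_iff.mp hw.2
    rw [← hF, ← hg, hconj]
  rw [hs1, hs2] at hsumI
  -- class sizes
  have hk : ∀ x : G, (Finset.univ.filter (fun u : G => IsConj x u)).card *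
      Nat.card (Subgroup.centralizer ({x} : Set G)) = Nat.card G := by
    intro x
    rw [← card_conj_mul_card_centralizer x, Nat.card_eq_fintype_card (α := {y : G // IsConj y x}),
      Fintype.card_subtype]
    congr 2
    ext u
    rw [Finset.mem_filter, Finset.mem_filter]
    exact ⟨fun h => ⟨h.1, h.2.symm⟩, fun h => ⟨h.1, h.2.symm⟩⟩
  have hk1 := hk x₁
  have hk2 := hk x₂
  have hNpos : 0 < Nat.card G := Nat.card_pos
  generalize (Finset.univ.filter (fun u : G => IsConj x₁ u)).card = k₁ at *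
  generalize (Finset.univ.filter (fun u : G => IsConj x₂ u)).card = k₂ at *
  generalize Nat.card (Subgroup.centralizer ({x₁} : Set G)) = c₁ at *
  generalize Nat.card (Subgroup.centralizer ({x₂} : Set G)) = c₂ at *
  generalize Nat.card {p : G × G // IsConj x₁ p.1 ∧ IsConj x₂ p.2 ∧
          x₁ ∈ Subgroup.zpowers (p.1 * p.2)} = a₁ at *
  generalize Nat.card {p : G × G // IsConj x₁ p.1 ∧ IsConj x₂ p.2 ∧
          x₂ ∈ Subgroup.zpowers (p.1 * p.2)} = a₂ at *
  generalize Nat.card G = N at *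
  apply Nat.eq_of_mul_eq_mul_left hNpos
  calc N * N = (k₁ * c₁) * (k₂ * c₂) := by rw [hk1, hk2]
    _ = (k₁ * k₂) * (c₁ * c₂) := by ring
    _ = (k₁ * a₁ + k₂ * a₂) * (c₁ * c₂) := by rw [hsumI]
    _ = (k₁ * c₁) * (c₂ * a₁) + (k₂ * c₂) * (c₁ * a₂) := by ring
    _ = N * (c₂ * a₁ + c₁ * a₂) := by rw [hk1, hk2]; ring

end Cfsg.Agent.S0213
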