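import Cfsg.Agent.Helper2.Isolated
import Cfsg.Agent.S0209
import Cfsg.Statements.S0216
-- import your own Cfsg.Agent.* helpers here

set_option autoImplicit false
open Cfsg

namespace Cfsg.Agent.S0216

open Cfsg.Agent.Helper2 Cfsg.Agent

/-- For an involution u in a Sylow 2-subgroup P of a finite group G, the following are equivalent: no G-conjugate of u other than u lies in P; every commutator of u with an element of G has odd order. -/
theorem result {G : Type*} [Group G] [Finite G] (P : Sylow 2 G) (u : G) (hu : orderOf u = 2) (huP : u ∈ P) : (∀ g : G, g * u * g⁻¹ ∈ P → g * u * g⁻¹ = u) ↔ (∀ g : G, Odd (orderOf (u * g * u⁻¹ * g⁻¹))) := by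
  classical
  have hu2 := sq_of_orderOf_two hu
  have hui := inv_of_orderOf_two hu
  have hu1 := ne_one_of_orderOf_two hu
  have hcomm_eq : ∀ g : G, u * g * u⁻¹ * g⁻¹ = u * (g * u * g⁻¹) := by
    intro g
    rw [hui]
    group
  have hv2 : ∀ g : G, (g * u * g⁻¹) * (g * u * g⁻¹) = 1 := by
    intro g
    calc (g * u * g⁻¹) * (g * u * g⁻¹) = g * (u * u) * g⁻¹ := by group
      _ = 1 := by rw [hu2]; group
  have hv1 : ∀ g : G, g * u * g⁻¹ ≠ 1 := by
    intro g h
    apply hu1
    have : u = g⁻¹ * (g * u * g⁻¹) * g := by group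
    rw [this, h]
    group
  constructor
  · intro hiso g
    rw [hcomm_eq]
    by_contra hodd
    rw [Nat.not_odd_iff_even] at hodd
    have hv := orderOf_two_of_sq (hv1 g) (hv2 g)
    obtain ⟨hz, hzu, hzv⟩ := S0209.result u (g * u * g⁻¹) hu hv hodd
    have hkey : ∀ h : G, h * u * h⁻¹ = u * (u * (g * u * g⁻¹)) ^ (orderOf (u * (g * u * g⁻¹)) / 2) →
        False := by
      intro h hh
      have hcomm : u * (h * u * h⁻¹) = (h * u * h⁻¹) * u := by
        rw [hh, mul_assoc u _ u, hzu.eq]
      have h5 := isolated_eq_of_commute P u hu hiso h hcomm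
      rw [hh] at h5
      have hz1 : (u * (g * u * g⁻¹)) ^ (orderOf (u * (g * u * g⁻¹)) / 2) = 1 :=
        mul_eq_left.mp h5
      rw [hz1, orderOf_one] at hz
      omega
    rcases exists_conj_mul_pow hu2 (hv2 g) (orderOf (u * (g * u * g⁻¹)) / 2) with ⟨d, hd⟩ | ⟨d, hd⟩
    · exact hkey d hd
    · apply hkey (d * g)
      rw [← hd]
      group
  · intro hodd g hg
    have h1 := hodd g
    rw [hcomm_eq] at h1
    have hmem : u * (g * u * g⁻¹) ∈ (P : Subgroup G) := mul_mem huP hg
    obtain ⟨k, hk⟩ := P.isPGroup' ⟨u * (g * u * g⁻¹), hmem⟩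
    have hk' : (u * (g * u * g⁻¹)) ^ 2 ^ k = 1 := congrArg Subtype.val hk
    have hdvd := orderOf_dvd_of_pow_eq_one hk'
    obtain ⟨j, -, hj⟩ := (Nat.dvd_prime_pow Nat.prime_two).mp hdvd
    have hj0 : j = 0 := by
      by_contra hj0
      rw [hj] at h1
      have : Even (2 ^ j) := (Nat.even_pow' hj0).mpr even_two
      exact (Nat.not_odd_iff_even.mpr this) h1
    rw [hj0, pow_zero, orderOf_eq_one_iff] at hj
    have : g * u * g⁻¹ = u⁻¹ := (inv_eq_of_mul_eq_one_right hj).symm
    rw [this, hui]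

end Cfsg.Agent.S0216
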