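import Mathlib
import Cfsg.Statements.S0218
-- import your own Cfsg.Agent.* helpers here

set_option autoImplicit false
open Cfsg

namespace Cfsg.Agent.S0218

theorem quat_unique (m : ℕ) [NeZero m] (x : QuaternionGroup m) (hx : orderOf x = 2) : x = QuaternionGroup.a (m : ZMod (2 * m)) := by
  have hm : 0 < m := Nat.pos_of_ne_zero (NeZero.ne m)
  rcases x with i | i
  · rw [QuaternionGroup.orderOf_a] at hx
    have h2 : Nat.gcd (2 * m) i.val ∣ 2 * m := Nat.gcd_dvd_left _ _
    have hg : Nat.gcd (2 * m) i.val = m := by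
      have h3 := Nat.div_mul_cancel h2
      rw [hx] at h3
      omega
    have hdvd : m ∣ i.val := by
      have := Nat.gcd_dvd_right (2 * m) i.val
      rwa [hg] at this
    have hlt : i.val < 2 * m := ZMod.val_lt i
    obtain ⟨c, hc⟩ := hdvd
    have hc1 : c = 1 := by
      rcases c with _ | _ | c
      · simp at hc
        rw [hc] at hg
        simp at hg
        omega
      · rfl
      · exfalso
        have : m * 2 ≤ m * (c + 1 + 1) := Nat.mul_le_mul_left m (by omega)
        omega
    subst hc1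
    congr 1
    have : ((i.val : ℕ) : ZMod (2 * m)) = i := ZMod.natCast_zmod_val i
    rw [← this, hc]; simp
  · rw [QuaternionGroup.orderOf_xa] at hx
    omega

/-- The generalized quaternion group of order 2^(n+3) contains exactly one element of order 2. -/
theorem result (n : ℕ) : Nat.card {x : QuaternionGroup (2 ^ (n + 1)) // orderOf x = 2} = 1 := by
  have : NeZero (2 ^ (n + 1)) := ⟨by positivity⟩
  rw [Nat.card_eq_one_iff_unique]
  refine ⟨⟨?_⟩, ⟨⟨QuaternionGroup.a ((2 ^ (n + 1) : ℕ) : ZMod (2 * 2 ^ (n + 1))), ?_⟩⟩⟩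
  · rintro ⟨x, hx⟩ ⟨y, hy⟩
    rw [Subtype.mk.injEq, quat_unique _ x hx, quat_unique _ y hy]
  · rw [QuaternionGroup.orderOf_a]
    have h1 : (((2 ^ (n + 1) : ℕ) : ZMod (2 * 2 ^ (n + 1)))).val = 2 ^ (n + 1) := by
      apply ZMod.val_natCast_of_lt
      have : 0 < 2 ^ (n + 1) := by positivity
      omega
    rw [h1]
    have h2 : Nat.gcd (2 * 2 ^ (n + 1)) (2 ^ (n + 1)) = 2 ^ (n + 1) := Nat.gcd_eq_right (Dvd.intro_left 2 rfl)
    rw [h2]
    exact Nat.mul_div_cancel _ (by positivity)

end Cfsg.Agent.S0218
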