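import Cfsg.Agent.Helper2.Dihedral
import Cfsg.Statements.S0219
-- import your own Cfsg.Agent.* helpers here

set_option autoImplicit false
open Cfsg

namespace Cfsg.Agent.S0219

/-- If a finite group has even order and a cyclic Sylow 2-subgroup, then it has a subgroup of index 2 (consider the parity of permutations in the regular representation). -/
theorem result {G : Type*} [Group G] [Finite G] (heven : Even (Nat.card G)) (T : Sylow 2 G) (hT : IsCyclic (T : Subgroup G)) : ∃ H : Subgroup G, H.index = 2 := by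
  have hp : (Nat.card G).minFac = 2 := (Nat.minFac_eq_two_iff _).2 heven.two_dvd
  have hc := IsCyclic.isComplement' hp hT
  have hnorm : (MonoidHom.transferSylow T (hT.normalizer_le_centralizer hp)).ker.Normal := inferInstance
  obtain ⟨N, hN, hNn⟩ : ∃ N : Subgroup G, N = (MonoidHom.transferSylow T (hT.normalizer_le_centralizer hp)).ker ∧ N.Normal := ⟨_, rfl, hnorm⟩
  rw [← hN] at hc
  have hidx : N.index = Nat.card T := hc.symm.index_eq_card
  have : Fact (Nat.Prime 2) := ⟨Nat.prime_two⟩
  have h2T : 2 ∣ Nat.card T := T.dvd_card_of_dvd_card heven.two_dvd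
  obtain ⟨k, hk⟩ := T.2.exists_card_eq
  have hk1 : 1 ≤ k := by
    rcases k with _ | k
    · rw [hk] at h2T; simp at h2T
    · omega
  have hq : Nat.card (G ⧸ N) = 2 ^ k := by rw [← Subgroup.index_eq_card, hidx, hk]
  obtain ⟨K, hK⟩ := Sylow.exists_subgroup_card_pow_prime 2 (G := G ⧸ N) (n := k - 1)
    (by rw [hq]; exact pow_dvd_pow 2 (by omega))
  refine ⟨K.comap (QuotientGroup.mk' N), ?_⟩
  rw [Subgroup.index_comap_of_surjective _ (QuotientGroup.mk'_surjective N)]
  have h3 := K.index_mul_card
  rw [hK, hq] at h3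
  have h4 : (2 : ℕ) ^ k = 2 * 2 ^ (k - 1) := by
    rw [← pow_succ']; congr 1; omega
  rw [h4] at h3
  exact Nat.eq_of_mul_eq_mul_right (by positivity) h3

end Cfsg.Agent.S0219
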