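import Cfsg.Agent.Helper2.NormalFour
import Cfsg.Agent.Helper17.Basic
import Cfsg.Agent.S0111
import Cfsg.Statements.S0221
-- import your own Cfsg.Agent.* helpers here

set_option autoImplicit false
open Cfsg

namespace Cfsg.Agent.S0221

/-- Let G be a finite group with no subgroup of index 2 whose 2-rank is at least 3 (it contains an elementary abelian subgroup of order 8). Then the centralizer of every involution of G also contains an elementary abelian subgroup of order 8. -/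
theorem result {G : Type*} [Group G] [Finite G] (hno : ∀ H : Subgroup G, H.index ≠ 2) (hrank : ∃ E : Subgroup G, Nat.card E = 8 ∧ ∀ e ∈ E, e ^ 2 = 1) (x : G) (hx : orderOf x = 2) : ∃ E : Subgroup G, E ≤ Subgroup.centralizer ({x} : Set G) ∧ Nat.card E = 8 ∧ ∀ e ∈ E, e ^ 2 = 1 := by
  classical
  haveI : Fact (Nat.Prime 2) := ⟨Nat.prime_two⟩
  obtain ⟨E₀, hE₀card, hE₀exp⟩ := hrank
  have hx2 : x ^ 2 = 1 := by rw [← hx]; exact pow_orderOf_eq_one x
  have hxp : IsPGroup 2 (Subgroup.zpowers x) := by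
    apply IsPGroup.of_card (n := 1)
    rw [Nat.card_zpowers, hx, pow_one]
  obtain ⟨S, hxS⟩ := hxp.exists_le_sylow
  have hxS' : x ∈ (S : Subgroup G) := hxS (Subgroup.mem_zpowers x)
  have hE₀p : IsPGroup 2 E₀ := IsPGroup.of_card (n := 3) (by rw [hE₀card]; norm_num)
  obtain ⟨g₀, hE₁S⟩ := Cfsg.Agent.Helper17.exists_conj_le_sylow S E₀ hE₀p
  obtain ⟨E₁, hE₁⟩ : ∃ E₁ : Subgroup G, E₁ = E₀.map (MulAut.conj g₀).toMonoidHom := ⟨_, rfl⟩
  rw [← hE₁] at hE₁S
  have hE₁card : Nat.card E₁ = 8 := by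
    rw [hE₁, Subgroup.card_map_of_injective (MulAut.conj g₀).injective]
    exact hE₀card
  have hE₁exp : ∀ e ∈ E₁, e ^ 2 = 1 := by
    rw [hE₁]
    rintro _ ⟨e, he, rfl⟩
    show ((MulAut.conj g₀) e) ^ 2 = 1
    rw [← map_pow, hE₀exp e he, map_one]
  have hE'card : Nat.card (E₁.subgroupOf (S : Subgroup G)) = 8 := by
    rw [Nat.card_congr (Subgroup.subgroupOfEquivOfLe hE₁S).toEquiv]; exact hE₁card
  have hE'exp : ∀ e ∈ E₁.subgroupOf (S : Subgroup G), e ^ 2 = 1 := by
    intro e he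
    apply Subtype.ext
    rw [Subgroup.coe_pow]
    exact hE₁exp _ (Subgroup.mem_subgroupOf.mp he)
  obtain ⟨z', u', hzc', hz2', hz1', hu2', huz', hconj'⟩ :=
    Cfsg.Agent.Helper2.nf_exists_zu S.isPGroup' _ hE'card hE'exp
  obtain ⟨z, hz⟩ : ∃ z : G, z = (z' : G) := ⟨_, rfl⟩
  obtain ⟨u, hu⟩ : ∃ u : G, u = (u' : G) := ⟨_, rfl⟩
  have hzS : z ∈ (S : Subgroup G) := hz ▸ z'.2
  have huS : u ∈ (S : Subgroup G) := hu ▸ u'.2
  have hzc : ∀ s ∈ (S : Subgroup G), s * z = z * s := by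
    intro s hs
    have h1 := congrArg Subtype.val (hzc' ⟨s, hs⟩)
    rw [hz]; exact h1
  have hz2 : z ^ 2 = 1 := by
    have h1 := congrArg Subtype.val hz2'
    rw [hz]; simpa using h1
  have hz1 : z ≠ 1 := by
    rw [hz]; intro h; exact hz1' (Subtype.ext h)
  have hu2 : u ^ 2 = 1 := by
    have h1 := congrArg Subtype.val hu2'
    rw [hu]; simpa using h1
  have huZ : u ∉ Subgroup.zpowers z := by
    intro h
    apply huz'
    obtain ⟨j, hj⟩ := Subgroup.mem_zpowers_iff.mp h
    rw [Subgroup.mem_zpowers_iff]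
    refine ⟨j, Subtype.ext ?_⟩
    rw [Subgroup.coe_zpow, ← hz, hj, hu]
  have hconj : ∀ s ∈ (S : Subgroup G), s * u * s⁻¹ = u ∨ s * u * s⁻¹ = z * u := by
    intro s hs
    rcases hconj' ⟨s, hs⟩ with h | h
    · left
      have h1 := congrArg Subtype.val h
      rw [hu]; simpa using h1
    · right
      have h1 := congrArg Subtype.val h
      rw [hu, hz]; simpa using h1
  have huz_comm : u * z = z * u := hzc u huS
  have hZexp : ∀ a ∈ Subgroup.zpowers z, a ^ 2 = 1 := by
    intro a ha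
    rcases Cfsg.Agent.Helper2.nf_mem_zpowers_invol z hz2 a ha with rfl | rfl
    · exact one_pow 2
    · exact hz2
  have hucZ : ∀ a ∈ Subgroup.zpowers z, u * a = a * u := by
    intro a ha
    rcases Cfsg.Agent.Helper2.nf_mem_zpowers_invol z hz2 a ha with rfl | rfl
    · rw [mul_one, one_mul]
    · exact huz_comm
  obtain ⟨U, hU⟩ : ∃ U : Subgroup G, U = Subgroup.zpowers u ⊔ Subgroup.zpowers z := ⟨_, rfl⟩
  have hUexp : ∀ w ∈ U, w ^ 2 = 1 := by
    rw [hU]; exact Cfsg.Agent.Helper2.nf_sup_exp _ u hZexp hu2 hucZ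
  have hUcard : Nat.card U = 4 := by
    rw [hU, Cfsg.Agent.Helper2.nf_sup_card _ u hu2 hucZ huZ, Nat.card_zpowers,
      orderOf_eq_prime hz2 hz1]
  have hcu : ∀ s : G, s ∈ Subgroup.centralizer ({u} : Set G) ↔ s * u = u * s := by
    intro s
    rw [Subgroup.mem_centralizer_iff]
    constructor
    · intro h2; exact (h2 u rfl).symm
    · intro h2 h hh
      rw [Set.mem_singleton_iff] at hh
      rw [hh]; exact h2.symm
  have key : ∀ t ∈ (S : Subgroup G), t ^ 2 = 1 → t * u = u * t → t ∉ U →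
      ∀ y ∈ Subgroup.zpowers t ⊔ U, ∃ E : Subgroup G,
        E ≤ Subgroup.centralizer ({y} : Set G) ∧ Nat.card E = 8 ∧ ∀ e ∈ E, e ^ 2 = 1 := by
    intro t htS ht2 htu htU y hy
    have htcU : ∀ a ∈ U, t * a = a * t := by
      rw [hU]
      exact Cfsg.Agent.Helper2.nf_sup_comm (Subgroup.zpowers z) u t htu (fun a ha => by
        rcases Cfsg.Agent.Helper2.nf_mem_zpowers_invol z hz2 a ha with rfl | rfl
        · rw [mul_one, one_mul]
        · exact hzc t htS)
    have hWexp := Cfsg.Agent.Helper2.nf_sup_exp U t hUexp ht2 htcU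
    refine ⟨Subgroup.zpowers t ⊔ U, ?_, ?_, hWexp⟩
    · intro w hw
      rw [Subgroup.mem_centralizer_iff]
      intro h hh
      rw [Set.mem_singleton_iff] at hh
      rw [hh]
      exact Cfsg.Agent.Helper2.nf_comm_of_sq y w (hWexp y hy) (hWexp w hw)
        (hWexp _ (Subgroup.mul_mem _ hy hw))
    · rw [Cfsg.Agent.Helper2.nf_sup_card U t ht2 htcU htU, hUcard]
  have idx2 : ∀ D : Subgroup G, D ≤ (S : Subgroup G) → ∀ d₀ ∈ D, ¬ d₀ * u = u * d₀ →
      ((D ⊓ Subgroup.centralizer ({u} : Set G)).subgroupOf D).index = 2 := by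
    intro D hDS d₀ hd₀ hd₀u
    rw [Subgroup.index_eq_two_iff]
    refine ⟨⟨d₀, hd₀⟩, fun b => ?_⟩
    simp only [Subgroup.mem_subgroupOf, Subgroup.coe_mul, Subgroup.mem_inf]
    rw [hcu, hcu]
    by_cases hb : (b : G) * u = u * (b : G)
    · refine Or.inr ⟨⟨b.2, hb⟩, fun hbx => hd₀u ?_⟩
      have h1 := hbx.2
      calc d₀ * u = (b : G)⁻¹ * ((b : G) * d₀ * u) := by group
        _ = (b : G)⁻¹ * (u * ((b : G) * d₀)) := by rw [h1]
        _ = (b : G)⁻¹ * (u * (b : G)) * d₀ := by group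
        _ = (b : G)⁻¹ * ((b : G) * u) * d₀ := by rw [hb]
        _ = u * d₀ := by group
    · refine Or.inl ⟨⟨D.mul_mem b.2 hd₀, ?_⟩, fun h => hb h.2⟩
      have hbz : (b : G) * u * (b : G)⁻¹ = z * u := by
        rcases hconj b (hDS b.2) with h | h
        · exfalso; apply hb
          calc (b : G) * u = ((b : G) * u * (b : G)⁻¹) * b := by group
            _ = u * b := by rw [h]
        · exact h
      have hdz : d₀ * u * d₀⁻¹ = z * u := by
        rcases hconj d₀ (hDS hd₀) with h | h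
        · exfalso; apply hd₀u
          calc d₀ * u = (d₀ * u * d₀⁻¹) * d₀ := by group
            _ = u * d₀ := by rw [h]
        · exact h
      calc (b : G) * d₀ * u = (b : G) * (d₀ * u * d₀⁻¹) * d₀ := by group
        _ = (b : G) * (z * u) * d₀ := by rw [hdz]
        _ = ((b : G) * z) * u * d₀ := by group
        _ = (z * (b : G)) * u * d₀ := by rw [hzc b (hDS b.2)]
        _ = z * ((b : G) * u * (b : G)⁻¹) * (b : G) * d₀ := by group
        _ = z * (z * u) * (b : G) * d₀ := by rw [hbz]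
        _ = (z ^ 2) * u * (b : G) * d₀ := by rw [pow_two]; group
        _ = u * ((b : G) * d₀) := by rw [hz2, one_mul, mul_assoc]
  have caseM : ∀ y ∈ (S : Subgroup G), y ^ 2 = 1 → y * u = u * y →
      ∃ E : Subgroup G, E ≤ Subgroup.centralizer ({y} : Set G) ∧ Nat.card E = 8 ∧
        ∀ e ∈ E, e ^ 2 = 1 := by
    intro y hyS hy2 hyu
    by_cases hyU : y ∈ U
    · by_cases hex : ∃ t ∈ E₁, t * u = u * t ∧ t ∉ U
      · obtain ⟨t, htE, htu, htU⟩ := hex
        exact key t (hE₁S htE) (hE₁exp t htE) htu htU y (Subgroup.mem_sup_right hyU)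
      · push Not at hex
        have hUE : U ≤ E₁ := by
          have hFU : E₁ ⊓ Subgroup.centralizer ({u} : Set G) ≤ U := by
            intro t ht
            exact hex t ht.1 ((hcu t).mp ht.2)
          have hne : ¬ E₁ ≤ Subgroup.centralizer ({u} : Set G) := by
            intro hle
            have h1 : E₁ ≤ U := fun t ht => hFU ⟨ht, hle ht⟩
            have h2 := Subgroup.card_le_of_le h1
            omega
          obtain ⟨e₀, he₀E, he₀c⟩ := SetLike.not_le_iff_exists.mp hne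
          have he₀u : ¬ e₀ * u = u * e₀ := fun h => he₀c ((hcu e₀).mpr h)
          have hidxF := idx2 E₁ hE₁S e₀ he₀E he₀u
          have hc1 := ((E₁ ⊓ Subgroup.centralizer ({u} : Set G)).subgroupOf E₁).index_mul_card
          rw [hidxF, hE₁card,
            Nat.card_congr (Subgroup.subgroupOfEquivOfLe (inf_le_left :
              E₁ ⊓ Subgroup.centralizer ({u} : Set G) ≤ E₁)).toEquiv] at hc1
          have hFeq : E₁ ⊓ Subgroup.centralizer ({u} : Set G) = U :=
            Subgroup.eq_of_le_of_card_ge hFU (by rw [hUcard]; omega)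
          rw [← hFeq]; exact inf_le_left
        refine ⟨E₁, ?_, hE₁card, hE₁exp⟩
        intro w hw
        rw [Subgroup.mem_centralizer_iff]
        intro h hh
        rw [Set.mem_singleton_iff] at hh
        rw [hh]
        exact Cfsg.Agent.Helper2.nf_comm_of_sq y w (hE₁exp y (hUE hyU)) (hE₁exp w hw)
          (hE₁exp _ (E₁.mul_mem (hUE hyU) hw))
    · exact key y hyS hy2 hyu hyU y (Subgroup.mem_sup_left (Subgroup.mem_zpowers y))
  by_cases hxu : x * u = u * x
  · exact caseM x hxS' hx2 hxu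
  · have hxM : x ∉ (S : Subgroup G) ⊓ Subgroup.centralizer ({u} : Set G) :=
      fun h => hxu ((hcu x).mp h.2)
    have hidx : ((S : Subgroup G) ⊓ Subgroup.centralizer ({u} : Set G)).relIndex
        (S : Subgroup G) = 2 := idx2 (S : Subgroup G) le_rfl x hxS' hxu
    rcases Cfsg.Agent.S0111.result S _ inf_le_left hidx x hx hxS' hxM with
      ⟨N, hNn, hNi, -⟩ | ⟨g, hg⟩
    · exact absurd hNi (hno N)
    · have hy2 : (g * x * g⁻¹) ^ 2 = 1 := by rw [conj_pow, hx2, mul_one, mul_inv_cancel]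
      obtain ⟨E, hEc, hEcard, hEexp⟩ := caseM _ hg.1 hy2 ((hcu _).mp hg.2)
      refine ⟨E.map (MulAut.conj g⁻¹).toMonoidHom, ?_, ?_, ?_⟩
      · rintro _ ⟨e, he, rfl⟩
        rw [Subgroup.mem_centralizer_iff]
        intro h hh
        rw [Set.mem_singleton_iff] at hh
        rw [hh]
        have h1 := Subgroup.mem_centralizer_iff.mp (hEc he) (g * x * g⁻¹) rfl
        show x * (g⁻¹ * e * g⁻¹⁻¹) = (g⁻¹ * e * g⁻¹⁻¹) * x
        calc x * (g⁻¹ * e * g⁻¹⁻¹) = g⁻¹ * (g * x * g⁻¹ * e) * g := by group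
          _ = g⁻¹ * (e * (g * x * g⁻¹)) * g := by rw [h1]
          _ = (g⁻¹ * e * g⁻¹⁻¹) * x := by group
      · rw [Subgroup.card_map_of_injective (MulAut.conj g⁻¹).injective]; exact hEcard
      · rintro _ ⟨e, he, rfl⟩
        show ((MulAut.conj g⁻¹) e) ^ 2 = 1
        rw [← map_pow, hEexp e he, map_one]

end Cfsg.Agent.S0221
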