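import Cfsg.Statements.S0225
import Cfsg.Agent.Helper8.BSRank
import Cfsg.Agent.Helper24.FourConn

set_option autoImplicit false
open Cfsg

namespace Cfsg.Agent.S0225

open Cfsg.Agent.Helper8 in
/-- If a finite group G has even order but contains no Klein four-subgroup (2-rank 1), then some involution z of G is central modulo a normal subgroup of odd order: there is a normal subgroup N of odd order containing every commutator z g z⁻¹ g⁻¹. -/
theorem result {G : Type*} [Group G] [Finite G] (heven : Even (Nat.card G)) (hrank : ∀ E : Subgroup G, ¬ IsKleinFour E) : ∃ z : G, orderOf z = 2 ∧ ∃ N : Subgroup G, N.Normal ∧ Odd (Nat.card N) ∧ ∀ g : G, z * g * z⁻¹ * g⁻¹ ∈ N := by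
  have hR : ∀ a b : G, orderOf a = 2 → orderOf b = 2 → Commute a b → a = b := by
    intro a b ha hb hc
    by_contra hab
    have ha2 : a * a = 1 := by rw [← pow_two, ← ha]; exact pow_orderOf_eq_one a
    have hb2 : b * b = 1 := by rw [← pow_two, ← hb]; exact pow_orderOf_eq_one b
    have ha1 : a ≠ 1 := by rintro rfl; rw [orderOf_one] at ha; omega
    have hb1 : b ≠ 1 := by rintro rfl; rw [orderOf_one] at hb; omega
    exact hrank _ (Cfsg.Agent.Helper24.fourSub_isKleinFour ha2 hb2 hc.eq ha1 hb1 hab)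
  obtain ⟨N, hN, hNodd, hNab⟩ := bs_rank_one G hR
  haveI : Fact (Nat.Prime 2) := ⟨Nat.prime_two⟩
  obtain ⟨z, hz⟩ := exists_prime_orderOf_dvd_card' (G := G) 2 heven.two_dvd
  refine ⟨z, hz, N, hN, hNodd, ?_⟩
  intro g
  have hz2 : z * z = 1 := by rw [← pow_two, ← hz]; exact pow_orderOf_eq_one z
  have hzinv : z⁻¹ = z := inv_eq_of_mul_eq_one_left hz2
  have h1 : orderOf (g * z * g⁻¹) = 2 := by
    have := (MulAut.conj g).orderOf_eq z
    rw [MulAut.conj_apply] at this
    rw [this, hz]
  have h2 := hNab z (g * z * g⁻¹) hz h1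
  have h3 : z * g * z⁻¹ * g⁻¹ = z * (g * z * g⁻¹) := by rw [hzinv]; group
  rw [h3]
  exact h2

end Cfsg.Agent.S0225
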