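import Cfsg.Agent.Helper2.Dihedral
import Cfsg.Statements.S0226
-- import your own Cfsg.Agent.* helpers here

set_option autoImplicit false
open Cfsg

namespace Cfsg.Agent.S0226

/-- A finite group of even order has an odd number of involutions. -/
theorem result {G : Type*} [Group G] [Finite G] (heven : Even (Nat.card G)) : Odd (Nat.card {t : G // orderOf t = 2}) := by
  classical
  have := Fintype.ofFinite G
  let σ : Function.End G := fun x => x⁻¹
  have hσ : σ ^ 2 ^ 1 = 1 := by
    rw [pow_one, pow_two]
    funext x
    show (x⁻¹)⁻¹ = x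
    simp
  have : Fact (Nat.Prime 2) := ⟨Nat.prime_two⟩
  have h := Equiv.Perm.card_fixedPoints_modEq (p := 2) (n := 1) hσ
  have hfix : Function.fixedPoints σ = insert (1 : G) {t : G | orderOf t = 2} := by
    ext x
    simp only [Set.mem_insert_iff, Set.mem_ofPred_eq]
    show x⁻¹ = x ↔ _
    constructor
    · intro hx
      by_cases h1 : x = 1
      · exact Or.inl h1
      · right
        apply Helper2.orderOf_two_of_sq h1
        calc x * x = x⁻¹ * x := by rw [hx]
          _ = 1 := inv_mul_cancel x
    · rintro (rfl | hx)
      · simp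
      · exact Helper2.inv_of_orderOf_two hx
  have hcard : Nat.card (Function.fixedPoints σ) = Nat.card {t : G // orderOf t = 2} + 1 := by
    rw [hfix, Nat.card_coe_set_eq, Set.ncard_insert_of_notMem, ← Nat.card_coe_set_eq]
    · rfl
    · simp
  rw [← Nat.card_eq_fintype_card, ← Nat.card_eq_fintype_card, hcard] at h
  have h2 : (Nat.card {t : G // orderOf t = 2} + 1) % 2 = 0 := by
    rw [← (show Nat.card G % 2 = _ from h)]
    exact Nat.even_iff.mp heven
  rw [Nat.odd_iff]
  omega

end Cfsg.Agent.S0226
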