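import Cfsg.Agent.Helper2.Isolated
import Cfsg.Agent.S0208
import Cfsg.Agent.S0209
import Cfsg.Agent.S0211
import Cfsg.Statements.S0229
-- import your own Cfsg.Agent.* helpers here

set_option autoImplicit false
open Cfsg

namespace Cfsg.Agent.S0229

open Cfsg.Agent.Helper2 Cfsg.Agent

/-- Let t be an involution of a Sylow 2-subgroup S of a finite group G, conjugate in G to no other element of S, and let s be an involution of G not conjugate to t. Then the order of st is twice an odd number. -/
theorem result {G : Type*} [Group G] [Finite G] (S : Sylow 2 G) (t : G) (ht : orderOf t = 2) (htS : t ∈ S) (hiso : ∀ g : G, g * t * g⁻¹ ∈ S → g * t * g⁻¹ = t) (s : G) (hs : orderOf s = 2) (hns : ¬ IsConj s t) : orderOf (s * t) % 4 = 2 := by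
  classical
  have hs2 := sq_of_orderOf_two hs
  have ht2 := sq_of_orderOf_two ht
  have heven : Even (orderOf (t * s)) := by
    by_contra hodd
    rw [Nat.not_even_iff_odd] at hodd
    obtain ⟨d, -, hd⟩ := S0208.result t s ht hs hodd
    apply hns
    rw [isConj_iff]
    exact ⟨d⁻¹, by rw [← hd]; group⟩
  have hord : orderOf (s * t) = orderOf (t * s) := by
    have h1 : s * t = (MulAut.conj s).toMonoidHom (t * s) := by
      show s * t = s * (t * s) * s⁻¹
      group
    rw [h1]
    exact orderOf_injective _ (MulAut.conj s).injective _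
  obtain ⟨hz, hzt, hzs⟩ := S0209.result t s ht hs heven
  have h4 : ¬ 4 ∣ orderOf (t * s) := by
    intro h4
    obtain ⟨d, -, hd⟩ := (S0211.result t s ht hs heven).mpr h4
    have hcomm : t * (d * t * d⁻¹) = (d * t * d⁻¹) * t := by
      rw [hd, mul_assoc t _ t, hzt.eq]
    have h5 := isolated_eq_of_commute S t ht hiso d hcomm
    rw [hd] at h5
    have hz1 : (t * s) ^ (orderOf (t * s) / 2) = 1 := mul_eq_left.mp h5
    rw [hz1, orderOf_one] at hz
    omega
  rw [hord]
  obtain ⟨c, hc⟩ := heven
  omega

end Cfsg.Agent.S0229
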