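import Cfsg.Agent.Helper2.Isolated
import Cfsg.Agent.Helper2.ConjClass
import Cfsg.Agent.S0208
import Cfsg.Agent.S0209
import Cfsg.Statements.S0230
-- import your own Cfsg.Agent.* helpers here

set_option autoImplicit false
open Cfsg

namespace Cfsg.Agent.S0230

open Cfsg.Agent.Helper2 Cfsg.Agent

/-- Let G be a finite group with two non-conjugate involutions, and let t be an involution whose centralizer has maximal order among centralizers of involutions. Then |G| < |C_G(t)|^3. -/
theorem result {G : Type*} [Group G] [Finite G] (s t : G) (hs : orderOf s = 2) (ht : orderOf t = 2) (hnc : ¬ IsConj s t) (hmax : ∀ u : G, orderOf u = 2 → Nat.card (Subgroup.centralizer ({u} : Set G)) ≤ Nat.card (Subgroup.centralizer ({t} : Set G))) : Nat.card G < Nat.card (Subgroup.centralizer ({t} : Set G)) ^ 3 := by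
  classical
  have := Fintype.ofFinite G
  have hcardC : ∀ z : G, Nat.card (Subgroup.centralizer ({z} : Set G)) =
      (Finset.univ.filter (fun x : G => x ∈ Subgroup.centralizer ({z} : Set G))).card := by
    intro z
    rw [Nat.card_eq_fintype_card, Fintype.card_subtype]
  have hcardA : Nat.card {x : G // IsConj x t} =
      (Finset.univ.filter (fun x : G => IsConj x t)).card := by
    rw [Nat.card_eq_fintype_card, Fintype.card_subtype]
  have hsub : Finset.univ.filter (fun x : G => IsConj x t) ⊆
      (Finset.univ.filter (fun z : G => orderOf z = 2 ∧ z ∈ Subgroup.centralizer ({s} : Set G))).biUnion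
        (fun z => Finset.univ.filter (fun x : G => x ∈ Subgroup.centralizer ({z} : Set G))) := by
    intro b hb
    rw [Finset.mem_filter] at hb
    have hbt : IsConj b t := hb.2
    obtain ⟨c, hc⟩ := isConj_iff.mp hbt
    have hb2 : orderOf b = 2 := by
      have h1 : t = (MulAut.conj c).toMonoidHom b := hc.symm
      rw [← ht, h1]
      exact (orderOf_injective _ (MulAut.conj c).injective _).symm
    have heven : Even (orderOf (s * b)) := by
      by_contra hodd
      rw [Nat.not_even_iff_odd] at hodd
      obtain ⟨d, -, hd⟩ := S0208.result s b hs hb2 hodd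
      apply hnc
      have h1 : IsConj s b := isConj_iff.mpr ⟨d, hd⟩
      exact h1.trans hbt
    obtain ⟨hz, hzs, hzb⟩ := S0209.result s b hs hb2 heven
    rw [Finset.mem_biUnion]
    refine ⟨(s * b) ^ (orderOf (s * b) / 2), ?_, ?_⟩
    · rw [Finset.mem_filter]
      refine ⟨Finset.mem_univ _, hz, ?_⟩
      rw [Subgroup.mem_centralizer_singleton_iff]
      exact hzs.eq
    · rw [Finset.mem_filter]
      refine ⟨Finset.mem_univ _, ?_⟩
      rw [Subgroup.mem_centralizer_singleton_iff]
      exact hzb.eq.symm
  have h1 := Finset.card_le_card hsub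
  have h2 := Finset.card_biUnion_le
    (s := Finset.univ.filter (fun z : G => orderOf z = 2 ∧ z ∈ Subgroup.centralizer ({s} : Set G)))
    (t := fun z => Finset.univ.filter (fun x : G => x ∈ Subgroup.centralizer ({z} : Set G)))
  have h3 : ∑ z ∈ Finset.univ.filter (fun z : G => orderOf z = 2 ∧
      z ∈ Subgroup.centralizer ({s} : Set G)),
      (Finset.univ.filter (fun x : G => x ∈ Subgroup.centralizer ({z} : Set G))).card ≤
      ∑ z ∈ Finset.univ.filter (fun z : G => orderOf z = 2 ∧
      z ∈ Subgroup.centralizer ({s} : Set G)), Nat.card (Subgroup.centralizer ({t} : Set G)) := by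
    apply Finset.sum_le_sum
    intro z hz
    rw [Finset.mem_filter] at hz
    rw [← hcardC]
    exact hmax z hz.2.1
  rw [Finset.sum_const, smul_eq_mul] at h3
  have h4 : (Finset.univ.filter (fun z : G => orderOf z = 2 ∧
      z ∈ Subgroup.centralizer ({s} : Set G))).card ≤
      Nat.card (Subgroup.centralizer ({s} : Set G)) - 1 := by
    rw [hcardC s, ← Finset.card_erase_of_mem (a := (1 : G))
      (by rw [Finset.mem_filter]; exact ⟨Finset.mem_univ _, one_mem _⟩)]
    apply Finset.card_le_card
    intro z hz
    rw [Finset.mem_filter] at hz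
    rw [Finset.mem_erase, Finset.mem_filter]
    exact ⟨ne_one_of_orderOf_two hz.2.1, Finset.mem_univ _, hz.2.2⟩
  have h5 := hmax s hs
  have h6 := card_conj_mul_card_centralizer t
  rw [hcardA] at h6
  have hpos : 0 < Nat.card (Subgroup.centralizer ({t} : Set G)) := Nat.card_pos
  have h7 : (Finset.univ.filter (fun x : G => IsConj x t)).card ≤
      (Nat.card (Subgroup.centralizer ({t} : Set G)) - 1) *
        Nat.card (Subgroup.centralizer ({t} : Set G)) := by
    calc (Finset.univ.filter (fun x : G => IsConj x t)).card
        ≤ (Finset.univ.filter (fun z : G => orderOf z = 2 ∧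
            z ∈ Subgroup.centralizer ({s} : Set G))).card *
            Nat.card (Subgroup.centralizer ({t} : Set G)) := (h1.trans h2).trans h3
      _ ≤ (Nat.card (Subgroup.centralizer ({t} : Set G)) - 1) *
            Nat.card (Subgroup.centralizer ({t} : Set G)) := by
          apply Nat.mul_le_mul_right
          omega
  rw [← h6]
  generalize Nat.card (Subgroup.centralizer ({t} : Set G)) = c at *
  generalize (Finset.univ.filter (fun x : G => IsConj x t)).card = a at *
  have h8 : a * c ≤ (c - 1) * c * c := Nat.mul_le_mul_right c h7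
  have h9 : (c - 1) * c * c < c ^ 3 := by
    have : c - 1 < c := by omega
    have hc2 : 0 < c * c := Nat.mul_pos hpos hpos
    calc (c - 1) * c * c = (c - 1) * (c * c) := by ring
      _ < c * (c * c) := Nat.mul_lt_mul_of_pos_right this hc2
      _ = c ^ 3 := by ring
  omega

end Cfsg.Agent.S0230
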