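import Cfsg.Agent.Helper2.Isolated
import Cfsg.Agent.S0208
import Cfsg.Agent.S0209
import Cfsg.Statements.S0231
-- import your own Cfsg.Agent.* helpers here

set_option autoImplicit false
open scoped Pointwise
open Cfsg

namespace Cfsg.Agent.S0231

open Cfsg.Agent.Helper2 Cfsg.Agent
open scoped Pointwise

/-- Let T be a Sylow 2-subgroup of the finite group G which is not normal and which intersects every other Sylow 2-subgroup trivially. Then G has a single conjugacy class of involutions. -/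
theorem result {G : Type*} [Group G] [Finite G] (T : Sylow 2 G) (hnn : ¬ (T : Subgroup G).Normal) (hTI : ∀ g : G, MulAut.conj g • (T : Subgroup G) ≠ T → MulAut.conj g • (T : Subgroup G) ⊓ T = ⊥) (s t : G) (hs : orderOf s = 2) (ht : orderOf t = 2) : IsConj s t := by
  classical
  have hTI' : ∀ Q₁ Q₂ : Sylow 2 G, ∀ x : G, x ≠ 1 → x ∈ Q₁ → x ∈ Q₂ → Q₁ = Q₂ := by
    intro Q₁ Q₂ x hx1 hx₁ hx₂
    obtain ⟨a, rfl⟩ := MulAction.exists_smul_eq G T Q₁
    obtain ⟨b, rfl⟩ := MulAction.exists_smul_eq G T Q₂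
    rw [mem_sylow_smul_iff] at hx₁ hx₂
    by_contra hne
    have h1 : MulAut.conj (a⁻¹ * b) • (T : Subgroup G) ≠ T := by
      intro h
      apply hne
      have h2 : (a⁻¹ * b) • T = T := Sylow.ext h
      calc a • T = a • ((a⁻¹ * b) • T) := by rw [h2]
        _ = b • T := by rw [smul_smul, mul_inv_cancel_left]
    have h3 := hTI (a⁻¹ * b) h1
    have h4 : a⁻¹ * x * a ∈ MulAut.conj (a⁻¹ * b) • (T : Subgroup G) ⊓ T := by
      refine ⟨?_, hx₁⟩
      have h5 : a⁻¹ * x * a ∈ (a⁻¹ * b) • T := by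
        rw [mem_sylow_smul_iff]
        have : (a⁻¹ * b)⁻¹ * (a⁻¹ * x * a) * (a⁻¹ * b) = b⁻¹ * x * b := by group
        rw [this]
        exact hx₂
      exact h5
    rw [h3, Subgroup.mem_bot] at h4
    apply hx1
    have : x = a * (a⁻¹ * x * a) * a⁻¹ := by group
    rw [this, h4]
    group
  have hex : ∀ x : G, orderOf x = 2 → ∃ Q : Sylow 2 G, x ∈ Q := by
    intro x hx
    have hzp : IsPGroup 2 (Subgroup.zpowers x) := by
      apply IsPGroup.of_card (n := 1)
      rw [Nat.card_zpowers, hx]; rfl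
    obtain ⟨Q, hQ⟩ := hzp.exists_le_sylow
    exact ⟨Q, hQ (Subgroup.mem_zpowers x)⟩
  have hB : ∀ a b : G, orderOf a = 2 → orderOf b = 2 → ¬ IsConj a b →
      ∀ Qa Qb : Sylow 2 G, a ∈ Qa → b ∈ Qb → Qa = Qb := by
    intro a b ha hb hnc Qa Qb haQ hbQ
    have heven : Even (orderOf (a * b)) := by
      by_contra hodd
      rw [Nat.not_even_iff_odd] at hodd
      obtain ⟨d, -, hd⟩ := S0208.result a b ha hb hodd
      exact hnc (isConj_iff.mpr ⟨d, hd⟩)
    obtain ⟨hz, hza, hzb⟩ := S0209.result a b ha hb heven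
    have hzQ : ∀ c : G, orderOf c = 2 → Commute ((a * b) ^ (orderOf (a * b) / 2)) c →
        ∀ Q : Sylow 2 G, c ∈ Q → (a * b) ^ (orderOf (a * b) / 2) ∈ Q := by
      intro c hc hcomm Q hcQ
      have hp := isPGroup_closure_pair (sq_of_orderOf_two hc) (sq_of_orderOf_two hz)
        hcomm.eq.symm
      obtain ⟨Q₁, hQ₁⟩ := hp.exists_le_sylow
      have hc₁ : c ∈ Q₁ := hQ₁ (Subgroup.subset_closure (by simp))
      have hz₁ : (a * b) ^ (orderOf (a * b) / 2) ∈ Q₁ := hQ₁ (Subgroup.subset_closure (by simp))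
      have := hTI' Q₁ Q c (ne_one_of_orderOf_two hc) hc₁ hcQ
      rw [← this]
      exact hz₁
    exact hTI' Qa Qb _ (ne_one_of_orderOf_two hz) (hzQ a ha hza Qa haQ) (hzQ b hb hzb Qb hbQ)
  by_contra hnc
  obtain ⟨Qs, hsQ⟩ := hex s hs
  obtain ⟨Qt, htQ⟩ := hex t ht
  have hQ := hB s t hs ht hnc Qs Qt hsQ htQ
  subst hQ
  have hex2 : ∃ Q₂ : Sylow 2 G, Q₂ ≠ Qs := by
    by_contra hall
    push Not at hall
    apply hnn
    have : Subsingleton (Sylow 2 G) := ⟨fun P Q => (hall P).trans (hall Q).symm⟩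
    exact Sylow.normal_of_subsingleton T
  obtain ⟨Q₂, hQ₂⟩ := hex2
  have hr : ∃ r : G, orderOf r = 2 ∧ r ∈ Q₂ := by
    obtain ⟨g, rfl⟩ := MulAction.exists_smul_eq G Qs Q₂
    refine ⟨g * s * g⁻¹, ?_, ?_⟩
    · have h1 : g * s * g⁻¹ = (MulAut.conj g).toMonoidHom s := rfl
      rw [h1, orderOf_injective _ (MulAut.conj g).injective _, hs]
    · rw [mem_sylow_smul_iff]
      have : g⁻¹ * (g * s * g⁻¹) * g = s := by group
      rw [this]
      exact hsQ
  obtain ⟨r, hr2, hrQ⟩ := hr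
  have h1 : IsConj r s := by
    by_contra h
    exact hQ₂ (hB r s hr2 hs h Q₂ Qs hrQ hsQ)
  have h2 : IsConj r t := by
    by_contra h
    exact hQ₂ (hB r t hr2 ht h Q₂ Qs hrQ htQ)
  exact hnc (h1.symm.trans h2)

end Cfsg.Agent.S0231
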