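import Cfsg.Agent.Helper2.BrauerFowler
import Cfsg.Agent.Helper2.ConjClass
import Cfsg.Agent.S0219
import Cfsg.Statements.S0232
-- import your own Cfsg.Agent.* helpers here

set_option autoImplicit false
open Cfsg

namespace Cfsg.Agent.S0232

open Cfsg.Agent.Helper2 Cfsg.Agent

universe u

theorem aux : ∀ (n : ℕ) (G : Type u) [Group G] [Finite G], Nat.card G = n → Even n → 2 < n →
    ∃ H : Subgroup G, H ≠ ⊤ ∧ n < Nat.card H ^ 3 := by
  intro n
  induction n using Nat.strong_induction_on with
  | _ n ih =>
    intro G _ _ hn heven hgt
    classical
    by_cases hidx : ∃ H : Subgroup G, H.index = 2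
    · obtain ⟨H, hH⟩ := hidx
      refine ⟨H, ?_, ?_⟩
      · rintro rfl
        rw [Subgroup.index_top] at hH
        omega
      · have h1 := Subgroup.card_mul_index H
        rw [hH, hn] at h1
        have h2 : 2 ≤ Nat.card H := by omega
        have h3 : Nat.card H * 4 ≤ Nat.card H ^ 3 := by
          have : 4 ≤ Nat.card H ^ 2 := by nlinarith
          calc Nat.card H * 4 ≤ Nat.card H * Nat.card H ^ 2 := Nat.mul_le_mul_left _ this
            _ = Nat.card H ^ 3 := by ring
        omega
    · push Not at hidx
      have h2dvd : 2 ∣ Nat.card G := by rw [hn]; exact heven.two_dvd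
      by_cases hZ : Odd (Nat.card (Subgroup.center G))
      · obtain ⟨t, ht⟩ := exists_prime_orderOf_dvd_card' 2 h2dvd
        have ht1 := ne_one_of_orderOf_two ht
        have hcenter := (odd_card_iff_no_involution (Subgroup.center G)).mp hZ
        have hCne : Subgroup.centralizer ({t} : Set G) ≠ ⊤ := by
          intro htop
          apply hcenter t _ ht
          rw [Subgroup.mem_center_iff]
          intro g
          have : g ∈ Subgroup.centralizer ({t} : Set G) := by rw [htop]; trivial
          rw [Subgroup.mem_centralizer_singleton_iff] at this
          exact this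
        by_cases hc3 : n < Nat.card (Subgroup.centralizer ({t} : Set G)) ^ 3
        · exact ⟨_, hCne, hc3⟩
        · push Not at hc3
          have hbt : (⊥ : Subgroup G) ≠ ⊤ := by
            intro h
            have : t ∈ (⊥ : Subgroup G) := by rw [h]; trivial
            exact ht1 (Subgroup.mem_bot.mp this)
          have hex : ∃ k : ℕ, ∃ H : Subgroup G, H ≠ ⊤ ∧ H.index = k := ⟨_, ⊥, hbt, rfl⟩
          obtain ⟨H, hH, hk⟩ := Nat.find_spec hex
          have hcore := brauer_fowler_core hZ hidx (Nat.find hex)
            (fun K hK => Nat.find_min' hex ⟨K, hK, rfl⟩)
          refine ⟨H, hH, ?_⟩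
          have hord : ∀ y : G, IsConj y t → orderOf y = 2 := by
            intro y hy
            obtain ⟨c, hc⟩ := isConj_iff.mp hy
            have h1 : t = (MulAut.conj c).toMonoidHom y := hc.symm
            rw [← ht, h1]
            exact (orderOf_injective _ (MulAut.conj c).injective _).symm
          have hcl : Nat.card {x : G // IsConj x t} ≤ Nat.card {x : G // orderOf x = 2} := by
            apply Nat.card_le_card_of_injective
              (fun x : {x : G // IsConj x t} => (⟨x.1, hord x.1 x.2⟩ : {x : G // orderOf x = 2}))
            intro a b hab
            exact Subtype.ext (congrArg (fun y : {x : G // orderOf x = 2} => y.1) hab)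
          clear hord
          have hcc := card_conj_mul_card_centralizer t
          have hHc := Subgroup.card_mul_index H
          rw [hk] at hHc
          have hcpos : 0 < Nat.card (Subgroup.centralizer ({t} : Set G)) := Nat.card_pos
          have hapos : 0 < Nat.card H := Nat.card_pos
          rw [hn] at hcc hHc hcore
          generalize Nat.card {x : G // IsConj x t} = k at *
          generalize Nat.card {x : G // orderOf x = 2} = m at *
          generalize Nat.card (Subgroup.centralizer ({t} : Set G)) = c at *
          generalize Nat.card H = a at *
          generalize Nat.find hex = h at *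
          subst hcc
          have hm : 0 < m := by
            rcases Nat.eq_zero_or_pos m with h0 | h0
            · subst h0
              have : k = 0 := by omega
              subst this
              simp at hcore
            · exact h0
          have h1 : k * c ≤ m * c := Nat.mul_le_mul_right c hcl
          have h2 : k * c * (k * c + m) ≤ (m * c) * (m * c + m) :=
            Nat.mul_le_mul h1 (by omega)
          have h3 : 2 * h * m ^ 2 < (m * c) * (m * c + m) := lt_of_lt_of_le hcore h2
          have h4 : (m * c) * (m * c + m) = (c ^ 2 + c) * m ^ 2 := by ring
          rw [h4] at h3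
          have h5 : 2 * h < c ^ 2 + c := by
            by_contra h5
            push Not at h5
            have : (c ^ 2 + c) * m ^ 2 ≤ 2 * h * m ^ 2 := Nat.mul_le_mul_right _ h5
            omega
          have h6 : c ≤ c ^ 2 := by
            rw [pow_two]
            exact Nat.le_mul_of_pos_left c hcpos
          have h7 : h < c ^ 2 := by omega
          have h8 : c < a := by
            by_contra h8
            push Not at h8
            have e1 : a * h ≤ c * h := Nat.mul_le_mul_right h h8
            have e2 : c * h < c * c ^ 2 := Nat.mul_lt_mul_of_pos_left h7 hcpos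
            have e3 : c * c ^ 2 = c ^ 3 := by ring
            omega
          have h9 : c ^ 2 < a ^ 2 := Nat.pow_lt_pow_left h8 (by norm_num)
          have h10 : a * h < a * a ^ 2 := Nat.mul_lt_mul_of_pos_left (by omega) hapos
          have h11 : a * a ^ 2 = a ^ 3 := by ring
          omega
      · rw [Nat.not_odd_iff_even] at hZ
        obtain ⟨z, hz⟩ := exists_prime_orderOf_dvd_card' 2 hZ.two_dvd
        have hzG : orderOf (z : G) = 2 := by rw [Subgroup.orderOf_coe]; exact hz
        have hZ₀le : Subgroup.zpowers (z : G) ≤ Subgroup.center G := by
          rw [Subgroup.zpowers_le]; exact z.2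
        have hZ₀n : (Subgroup.zpowers (z : G)).Normal := by
          constructor
          intro x hx g
          have h1 := hZ₀le hx
          rw [Subgroup.mem_center_iff] at h1
          have e : g * x * g⁻¹ = x := by rw [h1 g]; group
          rw [e]
          exact hx
        have hZ₀card : Nat.card (Subgroup.zpowers (z : G)) = 2 := by rw [Nat.card_zpowers, hzG]
        have hQ : Nat.card (G ⧸ Subgroup.zpowers (z : G)) * 2 = n := by
          rw [← hn, ← hZ₀card]
          exact (Subgroup.card_eq_card_quotient_mul_card_subgroup _).symm
        have hidxZ : (Subgroup.zpowers (z : G)).index = Nat.card (G ⧸ Subgroup.zpowers (z : G)) :=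
          Subgroup.index_eq_card _
        have hq2 : Nat.card (G ⧸ Subgroup.zpowers (z : G)) ≠ 2 := by
          rw [← hidxZ]; exact hidx _
        have hqeven : Even (Nat.card (G ⧸ Subgroup.zpowers (z : G))) := by
          by_contra hodd
          rw [Nat.not_even_iff_odd] at hodd
          obtain ⟨T⟩ : Nonempty (Sylow 2 G) := inferInstance
          obtain ⟨k, hk⟩ := IsPGroup.iff_card.mp T.isPGroup'
          have hdvd : 2 ^ k ∣ n := by
            rw [← hk, ← hn]; exact Subgroup.card_subgroup_dvd_card _
          have hk1 : k ≤ 1 := by
            by_contra hk1
            push Not at hk1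
            have h4 : 2 ^ 2 ∣ n := (pow_dvd_pow 2 hk1).trans hdvd
            obtain ⟨r, hr⟩ := hodd
            omega
          have hcyc : IsCyclic (T : Subgroup G) := by
            interval_cases k
            · have h1 : Nat.card (T : Subgroup G) = 1 := by simpa using hk
              have : Subsingleton (T : Subgroup G) := (Nat.card_eq_one_iff_unique.mp h1).1
              infer_instance
            · have h1 : Nat.card (T : Subgroup G) = 2 := by simpa using hk
              exact isCyclic_of_prime_card (p := 2) h1
          obtain ⟨H, hH⟩ := S0219.result (by rw [hn]; exact heven) T hcyc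
          exact hidx H hH
        have hqgt : 2 < Nat.card (G ⧸ Subgroup.zpowers (z : G)) := by
          obtain ⟨r, hr⟩ := hqeven
          omega
        have hqlt : Nat.card (G ⧸ Subgroup.zpowers (z : G)) < n := by omega
        obtain ⟨Hbar, hHbar, hlt⟩ := ih _ hqlt (G ⧸ Subgroup.zpowers (z : G)) rfl hqeven hqgt
        have hsurj := QuotientGroup.mk'_surjective (Subgroup.zpowers (z : G))
        refine ⟨Hbar.comap (QuotientGroup.mk' (Subgroup.zpowers (z : G))), ?_, ?_⟩
        · intro htop
          apply hHbar
          apply Subgroup.comap_injective hsurj
          rw [htop, Subgroup.comap_top]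
        · have hi := Subgroup.index_comap_of_surjective Hbar hsurj
          have h1 := Subgroup.card_mul_index (Hbar.comap (QuotientGroup.mk' (Subgroup.zpowers (z : G))))
          have h2 := Subgroup.card_mul_index Hbar
          rw [hi, hn] at h1
          have hidxpos : 0 < Hbar.index := Nat.pos_of_ne_zero Subgroup.index_ne_zero_of_finite
          have h3 : Nat.card (Hbar.comap (QuotientGroup.mk' (Subgroup.zpowers (z : G)))) =
              2 * Nat.card Hbar := by
            apply Nat.eq_of_mul_eq_mul_right hidxpos
            rw [h1, ← hQ, ← h2]
            ring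
          rw [h3]
          have h4 : (2 * Nat.card Hbar) ^ 3 = 8 * Nat.card Hbar ^ 3 := by ring
          omega

/-- A finite group G of even order greater than 2 has a proper subgroup H with |G| < |H|^3. -/
theorem result {G : Type*} [Group G] [Finite G] (heven : Even (Nat.card G)) (hgt : 2 < Nat.card G) : ∃ H : Subgroup G, H ≠ ⊤ ∧ Nat.card G < (Nat.card H) ^ 3 := by
  exact aux _ G rfl heven hgt

end Cfsg.Agent.S0232
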