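import Cfsg.Agent.Helper2.BrauerFowler
import Cfsg.Statements.S0233
-- import your own Cfsg.Agent.* helpers here

set_option autoImplicit false
open Cfsg

namespace Cfsg.Agent.S0233

open Cfsg.Agent.Helper2 Cfsg.Agent

/-- Let G be a finite group of even order with exactly n involutions whose centre has odd order, and put a = |G|/n. Then G has a proper subgroup H with |G : H| = 2 or |G : H| < a(a+1)/2; over ℕ the latter reads 2·|G:H|·n² < |G|·(|G| + n). -/
theorem result {G : Type*} [Group G] [Finite G] (heven : Even (Nat.card G)) (hZ : Odd (Nat.card (Subgroup.center G))) : ∃ H : Subgroup G, H ≠ ⊤ ∧ (H.index = 2 ∨ 2 * H.index * (Nat.card {t : G // orderOf t = 2}) ^ 2 < Nat.card G * (Nat.card G + Nat.card {t : G // orderOf t = 2})) := by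
  classical
  by_cases hidx : ∃ H : Subgroup G, H.index = 2
  · obtain ⟨H, hH⟩ := hidx
    refine ⟨H, ?_, Or.inl hH⟩
    rintro rfl
    rw [Subgroup.index_top] at hH
    omega
  · push Not at hidx
    have hex : ∃ k : ℕ, ∃ H : Subgroup G, H ≠ ⊤ ∧ H.index = k := by
      refine ⟨_, ⊥, ?_, rfl⟩
      intro h
      have h1 : Nat.card G = 1 := by
        rw [← Subgroup.card_top (G := G), ← h, Subgroup.card_bot]
      rw [h1] at heven
      exact absurd heven (by decide)
    obtain ⟨H, hH, hk⟩ := Nat.find_spec hex
    refine ⟨H, hH, Or.inr ?_⟩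
    rw [hk]
    apply brauer_fowler_core hZ hidx
    intro K hK
    exact Nat.find_min' hex ⟨K, hK, rfl⟩

end Cfsg.Agent.S0233
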