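import Cfsg.Agent.Helper2.CharConstituent
import Cfsg.Agent.Helper2.CharReg
import Cfsg.Agent.Helper2.CharLinear
import Cfsg.Agent.Helper2.Dihedral
import Cfsg.Agent.Helper24.LinearChar
import Cfsg.Agent.Helper25.FSIndicator
import Cfsg.Agent.S0143
import Cfsg.Agent.S0168
import Cfsg.Statements.S0234
-- import your own Cfsg.Agent.* helpers here

set_option autoImplicit false
open Cfsg

namespace Cfsg.Agent.S0234

open Cfsg.Agent.Helper2 Cfsg.Agent

theorem mat2_eq_neg_one (A : Matrix (Fin 2) (Fin 2) ℂ) (h2 : A * A = 1) (hd : A.det = 1)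
    (h1 : A ≠ 1) : A = -1 := by
  have e00 := congrFun (congrFun h2 0) 0
  have e01 := congrFun (congrFun h2 0) 1
  have e10 := congrFun (congrFun h2 1) 0
  have e11 := congrFun (congrFun h2 1) 1
  simp only [Matrix.mul_apply, Fin.sum_univ_two, Matrix.one_apply_eq, Matrix.one_apply_ne,
    ne_eq, Fin.zero_eq_one_iff, Fin.one_eq_zero_iff, OfNat.ofNat_ne_one, not_false_eq_true,
    Nat.succ_ne_self] at e00 e01 e10 e11
  rw [Matrix.det_fin_two] at hd
  have hs : A 0 0 * (A 0 0 + A 1 1) = 2 := by linear_combination e00 + hd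
  have hs0 : A 0 0 + A 1 1 ≠ 0 := by
    intro h
    rw [h, mul_zero] at hs
    norm_num at hs
  have hb : A 0 1 = 0 := by
    have : A 0 1 * (A 0 0 + A 1 1) = 0 := by linear_combination e01
    exact (mul_eq_zero.mp this).resolve_right hs0
  have hc : A 1 0 = 0 := by
    have : A 1 0 * (A 0 0 + A 1 1) = 0 := by linear_combination e10
    exact (mul_eq_zero.mp this).resolve_right hs0
  rw [hb, hc] at hd
  rw [hb] at e00
  have e00' : A 0 0 * A 0 0 = 1 := by linear_combination e00
  have hd' : A 0 0 * A 1 1 = 1 := by linear_combination hd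
  have ha0 : A 0 0 ≠ 0 := by
    intro h
    rw [h] at e00'
    simp at e00'
  have had : A 0 0 = A 1 1 := by
    have : A 0 0 * (A 0 0 - A 1 1) = 0 := by linear_combination e00' - hd'
    exact sub_eq_zero.mp ((mul_eq_zero.mp this).resolve_left ha0)
  have ha : A 0 0 = 1 ∨ A 0 0 = -1 := by
    have : (A 0 0 - 1) * (A 0 0 + 1) = 0 := by linear_combination e00'
    rcases mul_eq_zero.mp this with h | h
    · left; exact sub_eq_zero.mp h
    · right; exact eq_neg_of_add_eq_zero_left h
  rcases ha with ha | ha
  · exfalso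
    apply h1
    ext i j
    fin_cases i <;> fin_cases j <;> simp [ha, hb, hc, ← had]
  · ext i j
    fin_cases i <;> fin_cases j <;> simp [ha, hb, hc, ← had]

theorem degree_ge_three {G : Type*} [Group G] [Finite G] [IsSimpleGroup G]
    (heven : Even (Nat.card G)) (hnab : ∃ a b : G, a * b ≠ b * a) {n : ℕ}
    (ρ : Representation ℂ G (Fin n → ℂ)) [ρ.IsIrreducible] (hne : ρ.character ≠ fun _ => 1) :
    3 ≤ n := by
  classical
  have hinj := S0143.irr_injective_of_simple ρ hne
  obtain ⟨a, b, hab⟩ := hnab
  have hχ1 : ρ.character 1 = (n : ℂ) := by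
    rw [Representation.char_one]; simp
  have hpos : 0 < n := by
    have h1 := Helper24.irr_degree_pos (isIrrCharacter_of_rep ρ)
    have h2 := Helper24.charDegree_spec (isCharacter_of_rep ρ)
    rw [hχ1] at h2
    have : n = charDegree ρ.character := by exact_mod_cast h2
    omega
  by_contra hlt
  have hn : n = 1 ∨ n = 2 := by omega
  rcases hn with rfl | rfl
  · have h1 : ρ.character 1 = 1 := by rw [hχ1]; simp
    have hmul := Helper24.linear_char_mul (isCharacter_of_rep ρ) h1
    apply hab
    have hc : a * b * a⁻¹ * b⁻¹ = 1 := by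
      apply S0168.eq_one_of_char_eq ρ hinj
      rw [hmul, hmul, hmul, h1]
      have e1 : ρ.character a * ρ.character a⁻¹ = 1 := by rw [← hmul, mul_inv_cancel, h1]
      have e2 : ρ.character b * ρ.character b⁻¹ = 1 := by rw [← hmul, mul_inv_cancel, h1]
      calc ρ.character a * ρ.character b * ρ.character a⁻¹ * ρ.character b⁻¹
          = (ρ.character a * ρ.character a⁻¹) * (ρ.character b * ρ.character b⁻¹) := by ring
        _ = 1 := by rw [e1, e2, one_mul]
    calc a * b = (a * b * a⁻¹ * b⁻¹) * (b * a) := by group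
      _ = b * a := by rw [hc, one_mul]
  · have hM_mul : ∀ g h : G, LinearMap.toMatrix' (ρ (g * h)) =
        LinearMap.toMatrix' (ρ g) * LinearMap.toMatrix' (ρ h) := by
      intro g h
      rw [map_mul]
      exact LinearMap.toMatrix'_mul _ _
    have hM_one : LinearMap.toMatrix' (ρ 1) = 1 := by
      rw [map_one]
      exact LinearMap.toMatrix'_one
    have hM_inj : ∀ g h : G, LinearMap.toMatrix' (ρ g) = LinearMap.toMatrix' (ρ h) → g = h := by
      intro g h hgh
      exact hinj (LinearMap.toMatrix'.injective hgh)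
    have hdet_mul : ∀ g h : G, (LinearMap.toMatrix' (ρ (g * h))).det =
        (LinearMap.toMatrix' (ρ g)).det * (LinearMap.toMatrix' (ρ h)).det := by
      intro g h
      rw [hM_mul, Matrix.det_mul]
    have hdet_one : (LinearMap.toMatrix' (ρ 1)).det = 1 := by rw [hM_one, Matrix.det_one]
    have hdet_inv : ∀ g : G, (LinearMap.toMatrix' (ρ g)).det *
        (LinearMap.toMatrix' (ρ g⁻¹)).det = 1 := by
      intro g
      rw [← hdet_mul, mul_inv_cancel, hdet_one]
    let K : Subgroup G :=
      { carrier := {g | (LinearMap.toMatrix' (ρ g)).det = 1}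
        one_mem' := hdet_one
        mul_mem' := by
          intro x y hx hy
          show (LinearMap.toMatrix' (ρ (x * y))).det = 1
          rw [hdet_mul, show (LinearMap.toMatrix' (ρ x)).det = 1 from hx,
            show (LinearMap.toMatrix' (ρ y)).det = 1 from hy, one_mul]
        inv_mem' := by
          intro x hx
          show (LinearMap.toMatrix' (ρ x⁻¹)).det = 1
          have := hdet_inv x
          rw [show (LinearMap.toMatrix' (ρ x)).det = 1 from hx, one_mul] at this
          exact this }
    have hKn : K.Normal := by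
      constructor
      intro x hx g
      show (LinearMap.toMatrix' (ρ (g * x * g⁻¹))).det = 1
      rw [hdet_mul, hdet_mul, show (LinearMap.toMatrix' (ρ x)).det = 1 from hx, mul_one, hdet_inv]
    rcases IsSimpleGroup.eq_bot_or_eq_top_of_normal K hKn with hK | hK
    · apply hab
      have hc : a * b * a⁻¹ * b⁻¹ ∈ K := by
        show (LinearMap.toMatrix' (ρ (a * b * a⁻¹ * b⁻¹))).det = 1
        rw [hdet_mul, hdet_mul, hdet_mul]
        have e1 := hdet_inv a
        have e2 := hdet_inv b
        calc (LinearMap.toMatrix' (ρ a)).det * (LinearMap.toMatrix' (ρ b)).det *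
              (LinearMap.toMatrix' (ρ a⁻¹)).det * (LinearMap.toMatrix' (ρ b⁻¹)).det
            = ((LinearMap.toMatrix' (ρ a)).det * (LinearMap.toMatrix' (ρ a⁻¹)).det) *
              ((LinearMap.toMatrix' (ρ b)).det * (LinearMap.toMatrix' (ρ b⁻¹)).det) := by ring
          _ = 1 := by rw [e1, e2, one_mul]
      rw [hK, Subgroup.mem_bot] at hc
      calc a * b = (a * b * a⁻¹ * b⁻¹) * (b * a) := by group
        _ = b * a := by rw [hc, one_mul]
    · have hdet : ∀ g : G, (LinearMap.toMatrix' (ρ g)).det = 1 := by
        intro g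
        have : g ∈ K := by rw [hK]; trivial
        exact this
      obtain ⟨t, ht⟩ := exists_prime_orderOf_dvd_card' 2 heven.two_dvd
      have ht2 := sq_of_orderOf_two ht
      have hA2 : LinearMap.toMatrix' (ρ t) * LinearMap.toMatrix' (ρ t) = 1 := by
        rw [← hM_mul, ht2, hM_one]
      have hA1 : LinearMap.toMatrix' (ρ t) ≠ 1 := by
        intro h
        rw [← hM_one] at h
        exact ne_one_of_orderOf_two ht (hM_inj _ _ h)
      have hA := mat2_eq_neg_one _ hA2 (hdet t) hA1
      have hcen : ∀ g : G, t * g = g * t := by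
        intro g
        apply hM_inj
        rw [hM_mul, hM_mul, hA]
        simp
      have hZ : Subgroup.center G = ⊤ := by
        rcases IsSimpleGroup.eq_bot_or_eq_top_of_normal (Subgroup.center G) inferInstance with h | h
        · exfalso
          have : t ∈ Subgroup.center G := by
            rw [Subgroup.mem_center_iff]
            intro g
            exact (hcen g).symm
          rw [h, Subgroup.mem_bot] at this
          exact ne_one_of_orderOf_two ht this
        · exact h
      apply hab
      have : b ∈ Subgroup.center G := by rw [hZ]; trivial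
      rw [Subgroup.mem_center_iff] at this
      exact this a

/-- In a finite simple group G of even order greater than 2, the number n of involutions satisfies 3n < |G|. -/
theorem result {G : Type*} [Group G] [Finite G] [IsSimpleGroup G] (heven : Even (Nat.card G)) (hgt : 2 < Nat.card G) : 3 * Nat.card {t : G // orderOf t = 2} < Nat.card G := by
  classical
  have := Fintype.ofFinite G
  have := Helper24.finite_irrCharacter (G := G)
  have := Fintype.ofFinite (IrrCharacter G)
  -- G is not abelian
  have hnab : ∃ a b : G, a * b ≠ b * a := by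
    by_contra hcon
    push Not at hcon
    let _ : CommGroup G := { (inferInstance : Group G) with mul_comm := hcon }
    have hprime : (Nat.card G).Prime := IsSimpleGroup.prime_card
    have h2 : Nat.card G = 2 := (Nat.Prime.even_iff hprime).mp heven
    omega
  -- degrees
  have hdeg : ∀ χ : IrrCharacter G, (χ : G → ℂ) ≠ (fun _ => 1) →
      3 ≤ charDegree (χ : G → ℂ) := by
    rintro ⟨χ, hχ⟩ hne
    obtain ⟨n, ρ, hρ, rfl⟩ := hχ
    have h3 := degree_ge_three heven hnab ρ hne
    have h2 := Helper24.charDegree_spec (isCharacter_of_rep ρ)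
    have hχ1 : ρ.character 1 = (n : ℂ) := by
      rw [Representation.char_one]; simp
    rw [hχ1] at h2
    have : n = charDegree ρ.character := by exact_mod_cast h2
    show 3 ≤ charDegree ρ.character
    omega
  have hsum := sum_degree_sq (G := G)
  have hsumN : Nat.card G = ∑ χ : IrrCharacter G, charDegree (χ : G → ℂ) ^ 2 := by
    have h1 : (Nat.card G : ℂ) = ((∑ χ : IrrCharacter G, charDegree (χ : G → ℂ) ^ 2 : ℕ) : ℂ) := by
      rw [← hsum]
      push_cast
      apply Finset.sum_congr rfl
      intro χ _
      rw [Helper24.charDegree_spec (Helper24.isCharacter_of_irr χ.2)]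
      ring
    exact_mod_cast h1
  have htriv : IsIrrCharacter G (fun _ => (1 : ℂ)) := isIrrCharacter_one_fun
  have hsplit := Finset.add_sum_erase Finset.univ
    (fun χ : IrrCharacter G => charDegree (χ : G → ℂ) ^ 2)
    (Finset.mem_univ (⟨_, htriv⟩ : IrrCharacter G))
  have hsplit1 := Finset.add_sum_erase Finset.univ
    (fun χ : IrrCharacter G => charDegree (χ : G → ℂ))
    (Finset.mem_univ (⟨_, htriv⟩ : IrrCharacter G))
  have hd1 : charDegree (fun _ : G => (1 : ℂ)) = 1 := by
    have h1 := Helper24.charDegree_spec (Helper24.isCharacter_of_irr htriv)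
    exact_mod_cast h1.symm
  have hd1' : charDegree ((⟨_, htriv⟩ : IrrCharacter G) : G → ℂ) = 1 := hd1
  rw [hd1'] at hsplit hsplit1
  have hsplit' : 1 + ∑ χ ∈ Finset.univ.erase (⟨_, htriv⟩ : IrrCharacter G),
      charDegree (χ : G → ℂ) ^ 2 = ∑ χ : IrrCharacter G, charDegree (χ : G → ℂ) ^ 2 := by
    rw [one_pow] at hsplit
    exact hsplit
  have hsplit1' : 1 + ∑ χ ∈ Finset.univ.erase (⟨_, htriv⟩ : IrrCharacter G),
      charDegree (χ : G → ℂ) = ∑ χ : IrrCharacter G, charDegree (χ : G → ℂ) := hsplit1
  clear hsplit hsplit1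
  have h3le : 3 * ∑ χ ∈ Finset.univ.erase (⟨_, htriv⟩ : IrrCharacter G), charDegree (χ : G → ℂ) ≤
      ∑ χ ∈ Finset.univ.erase (⟨_, htriv⟩ : IrrCharacter G), charDegree (χ : G → ℂ) ^ 2 := by
    rw [Finset.mul_sum]
    apply Finset.sum_le_sum
    intro χ hχ
    have h3 := hdeg χ (fun h => (Finset.mem_erase.mp hχ).1 (Subtype.ext h))
    nlinarith
  -- Frobenius–Schur count
  have hfs := Helper25.sqrt_count (G := G) 1
  have hterm : ∀ χ : IrrCharacter G,
      (((Nat.card G : ℂ)⁻¹ * ∑ s : G, (χ : G → ℂ) (s * s)) * (χ : G → ℂ) 1).re ≤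
        (charDegree (χ : G → ℂ) : ℝ) := by
    intro χ
    have hspec := Helper24.charDegree_spec (Helper24.isCharacter_of_irr χ.2)
    obtain ⟨h1, h2⟩ := Helper25.fs_indicator χ.2
    rw [hspec]
    by_cases hreal : ∀ s : G, ((χ : G → ℂ) s).im = 0
    · rcases h1 hreal with h | h
      · rw [h]; simp
      · rw [h]; simp
    · push Not at hreal
      rw [h2 hreal]; simp
  have hcount : (Nat.card {s : G // s * s = 1} : ℝ) ≤
      ∑ χ : IrrCharacter G, (charDegree (χ : G → ℂ) : ℝ) := by
    have h1 := congrArg Complex.re hfs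
    rw [Complex.natCast_re, Complex.re_sum] at h1
    rw [h1]
    exact Finset.sum_le_sum fun χ _ => hterm χ
  have hcountN : Nat.card {s : G // s * s = 1} ≤ ∑ χ : IrrCharacter G, charDegree (χ : G → ℂ) := by
    have : (Nat.card {s : G // s * s = 1} : ℝ) ≤
        ((∑ χ : IrrCharacter G, charDegree (χ : G → ℂ) : ℕ) : ℝ) := by
      push_cast
      exact hcount
    exact_mod_cast this
  -- square roots of one = involutions plus identity
  have hsq : Nat.card {s : G // s * s = 1} = Nat.card {t : G // orderOf t = 2} + 1 := by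
    rw [Nat.card_eq_fintype_card, Nat.card_eq_fintype_card, Fintype.card_subtype,
      Fintype.card_subtype]
    have : Finset.univ.filter (fun s : G => s * s = 1) =
        insert 1 (Finset.univ.filter (fun s : G => orderOf s = 2)) := by
      ext s
      rw [Finset.mem_filter, Finset.mem_insert, Finset.mem_filter]
      constructor
      · intro h
        by_cases hs1 : s = 1
        · exact Or.inl hs1
        · exact Or.inr ⟨Finset.mem_univ _, orderOf_two_of_sq hs1 h.2⟩
      · rintro (rfl | h)
        · exact ⟨Finset.mem_univ _, mul_one 1⟩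
        · exact ⟨Finset.mem_univ _, sq_of_orderOf_two h.2⟩
    rw [this, Finset.card_insert_of_notMem]
    rw [Finset.mem_filter]
    intro h
    simp at h
  omega

end Cfsg.Agent.S0234
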