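import Cfsg.Agent.Helper2.Dihedral
import Cfsg.Statements.S0235
-- import your own Cfsg.Agent.* helpers here

set_option autoImplicit false
open Cfsg

namespace Cfsg.Agent.S0235

/-- If x² ≠ 1, the ordered pairs (u, v) of involutions with uv = x correspond bijectively to the involutions t with t x t⁻¹ = x⁻¹ (via (u, v) ↦ u), so the two counts agree. -/
theorem result {G : Type*} [Group G] [Finite G] (x : G) (hx : x ^ 2 ≠ 1) : Nat.card {p : G × G // orderOf p.1 = 2 ∧ orderOf p.2 = 2 ∧ p.1 * p.2 = x} = Nat.card {t : G // orderOf t = 2 ∧ t * x * t⁻¹ = x⁻¹} := by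
  apply Nat.card_congr
  refine
    { toFun := fun p => ⟨p.1.1, p.2.1, ?_⟩
      invFun := fun t => ⟨(t.1, t.1 * x), t.2.1, ?_, ?_⟩
      left_inv := ?_
      right_inv := ?_ }
  · obtain ⟨⟨u, v⟩, hu, hv, rfl⟩ := p
    have hu2 := Helper2.sq_of_orderOf_two hu
    have hv2 := Helper2.sq_of_orderOf_two hv
    have hui := Helper2.inv_of_orderOf_two hu
    have hvi := Helper2.inv_of_orderOf_two hv
    show u * (u * v) * u⁻¹ = (u * v)⁻¹
    rw [← mul_assoc, hu2, one_mul, mul_inv_rev, hui, hvi]
  · obtain ⟨t, ht, htx⟩ := t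
    have ht2 := Helper2.sq_of_orderOf_two ht
    have hti := Helper2.inv_of_orderOf_two ht
    show orderOf (t * x) = 2
    apply Helper2.orderOf_two_of_sq
    · intro h
      apply hx
      have : x = t⁻¹ := eq_inv_of_mul_eq_one_right h
      rw [this, hti, pow_two, ht2]
    · rw [hti] at htx
      calc t * x * (t * x) = (t * x * t) * x := by group
        _ = 1 := by rw [htx, inv_mul_cancel]
  · obtain ⟨t, ht, htx⟩ := t
    have ht2 := Helper2.sq_of_orderOf_two ht
    show t * (t * x) = x
    rw [← mul_assoc, ht2, one_mul]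
  · rintro ⟨⟨u, v⟩, hu, hv, rfl⟩
    have hu2 := Helper2.sq_of_orderOf_two hu
    apply Subtype.ext
    show (u, u * (u * v)) = (u, v)
    rw [← mul_assoc, hu2, one_mul]
  · rintro ⟨t, ht, htx⟩
    rfl

end Cfsg.Agent.S0235
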