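import Cfsg.Agent.Helper2.Dihedral
import Cfsg.Statements.S0236
-- import your own Cfsg.Agent.* helpers here

set_option autoImplicit false
open Cfsg

namespace Cfsg.Agent.S0236

theorem commute_of_prod_sq {G : Type*} [Group G] (u v : G) (hu : u * u = 1) (hv : v * v = 1)
    (huv : (u * v) * (u * v) = 1) : Commute u (u * v) := by
  have h1 : (u * v)⁻¹ = u * v := inv_eq_of_mul_eq_one_left huv
  have h2 : (u * v)⁻¹ = v * u := by
    rw [mul_inv_rev, inv_eq_of_mul_eq_one_left hu, inv_eq_of_mul_eq_one_left hv]
  show u * (u * v) = u * v * u
  rw [mul_assoc u v u, ← h2, h1]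

/-- If x is an involution, the number of ordered pairs (u, v) of involutions with uv = x, plus one, equals the number of involutions in the centralizer of x. -/
theorem result {G : Type*} [Group G] [Finite G] (x : G) (hx : orderOf x = 2) : Nat.card {p : G × G // orderOf p.1 = 2 ∧ orderOf p.2 = 2 ∧ p.1 * p.2 = x} + 1 = Nat.card {t : G // orderOf t = 2 ∧ Commute t x} := by
  classical
  have hx2 := Helper2.sq_of_orderOf_two hx
  have hxi := Helper2.inv_of_orderOf_two hx
  have hx1 := Helper2.ne_one_of_orderOf_two hx
  have e : {p : G × G // orderOf p.1 = 2 ∧ orderOf p.2 = 2 ∧ p.1 * p.2 = x} ≃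
      {t : {t : G // orderOf t = 2 ∧ Commute t x} // t ≠ ⟨x, hx, Commute.refl x⟩} :=
    { toFun := fun p => ⟨⟨p.1.1, p.2.1, by
          have h := commute_of_prod_sq p.1.1 p.1.2 (Helper2.sq_of_orderOf_two p.2.1)
            (Helper2.sq_of_orderOf_two p.2.2.1) (by rw [p.2.2.2]; exact hx2)
          rw [p.2.2.2] at h
          exact h⟩, by
          intro h
          have h' : p.1.1 = x := congrArg Subtype.val h
          have h3 : p.1.1 * p.1.2 = x := p.2.2.2
          rw [h'] at h3
          have : p.1.2 = 1 := by
            have : x * p.1.2 = x * 1 := by rw [mul_one]; exact h3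
            exact mul_left_cancel this
          exact Helper2.ne_one_of_orderOf_two p.2.2.1 this⟩
      invFun := fun t => ⟨(t.1.1, t.1.1 * x), t.1.2.1, by
          obtain ⟨⟨t, ht, htx⟩, hne⟩ := t
          have ht2 := Helper2.sq_of_orderOf_two ht
          have hti := Helper2.inv_of_orderOf_two ht
          show orderOf (t * x) = 2
          apply Helper2.orderOf_two_of_sq
          · intro h
            apply hne
            apply Subtype.ext
            show t = x
            have : t = x⁻¹ := eq_inv_of_mul_eq_one_left h
            rw [this, hxi]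
          · have hc : t * x = x * t := htx
            calc t * x * (t * x) = t * x * (x * t) := by rw [hc]
              _ = 1 := by rw [mul_assoc, ← mul_assoc x, hx2, one_mul, ht2], by
          obtain ⟨⟨t, ht, htx⟩, hne⟩ := t
          have ht2 := Helper2.sq_of_orderOf_two ht
          show t * (t * x) = x
          rw [← mul_assoc, ht2, one_mul]⟩
      left_inv := by
        rintro ⟨⟨u, v⟩, hu, hv, huv⟩
        have hu2 := Helper2.sq_of_orderOf_two hu
        apply Subtype.ext
        show (u, u * x) = (u, v)
        rw [← huv]
        show (u, u * (u * v)) = (u, v)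
        rw [← mul_assoc, hu2, one_mul]
      right_inv := by
        rintro ⟨⟨t, ht, htx⟩, hne⟩
        rfl }
  rw [Nat.card_congr e, ← Finite.card_option]
  exact Nat.card_congr (Equiv.optionSubtypeNe _)

end Cfsg.Agent.S0236
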