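import Cfsg.Agent.Helper2.Invol
import Cfsg.Statements.S0239
-- import your own Cfsg.Agent.* helpers here

set_option autoImplicit false
open Cfsg

namespace Cfsg.Agent.S0239

/-- If some nontrivial element x of a finite group G is conjugate to x⁻¹, then |G| is even. -/
theorem result {G : Type*} [Group G] [Finite G] (x : G) (hx : x ≠ 1) (hreal : IsConj x x⁻¹) : Even (Nat.card G) := by
  obtain ⟨g, hg⟩ := isConj_iff.1 hreal
  by_contra hodd
  rw [Nat.not_even_iff_odd] at hodd
  obtain ⟨k, hk⟩ := hodd
  have h1 := (Helper2.conj_pow_of_inverts x g hg k).2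
  rw [← hk, pow_card_eq_one'] at h1
  have h2 : x = x⁻¹ := by simpa using h1
  have h3 : x * x = 1 := by
    calc x * x = x * x⁻¹ := by rw [← h2]
      _ = 1 := mul_inv_cancel x
  have h4 := Helper2.orderOf_two_of_sq hx h3
  have h5 : 2 ∣ Nat.card G := by
    rw [← h4]; exact orderOf_dvd_natCard x
  omega

end Cfsg.Agent.S0239
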