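import Cfsg.Agent.Helper2.Dihedral
import Cfsg.Statements.S0240
-- import your own Cfsg.Agent.* helpers here

set_option autoImplicit false
open Cfsg

namespace Cfsg.Agent.S0240

/-- Let G be a finite group with n involutions and H a subgroup with |H|·(n+1) > |G|. Then some nontrivial h ∈ H is strongly real in G: an involution t of G satisfies t h t⁻¹ = h⁻¹. -/
theorem result {G : Type*} [Group G] [Finite G] (H : Subgroup G) (hH : Nat.card G < Nat.card H * (Nat.card {t : G // orderOf t = 2} + 1)) : ∃ h : G, h ∈ H ∧ h ≠ 1 ∧ ∃ t : G, orderOf t = 2 ∧ t * h * t⁻¹ = h⁻¹ := by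
  have hcard : Nat.card (G ⧸ H) < Nat.card (Option {t : G // orderOf t = 2}) := by
    rw [Finite.card_option]
    have h1 := Subgroup.card_eq_card_quotient_mul_card_subgroup H
    rw [h1, mul_comm] at hH
    exact lt_of_mul_lt_mul_left hH (Nat.zero_le _)
  let φ : Option {t : G // orderOf t = 2} → G ⧸ H := fun o =>
    match o with
    | none => ((1 : G) : G ⧸ H)
    | some t => ((t.1 : G) : G ⧸ H)
  have hni : ¬ Function.Injective φ := fun hi =>
    absurd (Nat.card_le_card_of_injective φ hi) (not_le.2 hcard)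
  obtain ⟨a, b, hφ, hab⟩ := Function.not_injective_iff.1 hni
  have key : ∀ t : {t : G // orderOf t = 2}, ((1 : G) : G ⧸ H) = ((t.1 : G) : G ⧸ H) →
      ∃ h : G, h ∈ H ∧ h ≠ 1 ∧ ∃ t : G, orderOf t = 2 ∧ t * h * t⁻¹ = h⁻¹ := by
    rintro ⟨t, ht⟩ h
    rw [QuotientGroup.eq] at h
    simp only [inv_one, one_mul] at h
    refine ⟨t, h, Helper2.ne_one_of_orderOf_two ht, t, ht, ?_⟩
    rw [mul_inv_cancel_right, Helper2.inv_of_orderOf_two ht]
  rcases a with _ | s <;> rcases b with _ | t
  · exact absurd rfl hab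
  · exact key t hφ
  · exact key s hφ.symm
  · obtain ⟨s, hs⟩ := s
    obtain ⟨t, ht⟩ := t
    have h : ((s : G) : G ⧸ H) = ((t : G) : G ⧸ H) := hφ
    rw [QuotientGroup.eq] at h
    have hs2 := Helper2.sq_of_orderOf_two hs
    have hsi := Helper2.inv_of_orderOf_two hs
    have hti := Helper2.inv_of_orderOf_two ht
    rw [hsi] at h
    refine ⟨s * t, h, ?_, s, hs, ?_⟩
    · intro h1
      apply hab
      have : s = t⁻¹ := eq_inv_of_mul_eq_one_left h1
      rw [hti] at this
      subst this
      rfl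
    · rw [← mul_assoc, hs2, one_mul, mul_inv_rev, hsi, hti]

end Cfsg.Agent.S0240
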