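import Cfsg.Agent.Helper2.Invol
import Cfsg.Statements.S0241
-- import your own Cfsg.Agent.* helpers here

set_option autoImplicit false
open Cfsg

namespace Cfsg.Agent.S0241

/-- If x ≠ 1 is conjugate to x⁻¹ in a finite group G and |C_G(x)| is odd, then some involution t satisfies t x t⁻¹ = x⁻¹. -/
theorem result {G : Type*} [Group G] [Finite G] (x : G) (hx : x ≠ 1) (hreal : IsConj x x⁻¹) (hodd : Odd (Nat.card (Subgroup.centralizer ({x} : Set G)))) : ∃ t : G, orderOf t = 2 ∧ t * x * t⁻¹ = x⁻¹ := by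
  obtain ⟨g, hg⟩ := isConj_iff.1 hreal
  obtain ⟨k, hk⟩ := hodd
  have h1 := (Helper2.conj_pow_of_inverts x g hg k).2
  have hxx : x ≠ x⁻¹ := by
    intro h2
    have h3 : x * x = 1 := by
      calc x * x = x * x⁻¹ := by rw [← h2]
        _ = 1 := mul_inv_cancel x
    have h4 := Helper2.orderOf_two_of_sq hx h3
    have hxm : x ∈ Subgroup.centralizer ({x} : Set G) := by
      rw [Subgroup.mem_centralizer_iff]
      intro y hy
      rw [Set.mem_singleton_iff] at hy
      rw [hy]
    have h5 : orderOf (⟨x, hxm⟩ : Subgroup.centralizer ({x} : Set G)) = 2 := by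
      rw [← h4]
      exact (Subgroup.orderOf_mk x hxm)
    have h6 : 2 ∣ Nat.card (Subgroup.centralizer ({x} : Set G)) := by
      rw [← h5]; exact orderOf_dvd_natCard _
    omega
  refine ⟨g ^ (2 * k + 1), ?_, h1⟩
  apply Helper2.orderOf_two_of_sq
  · intro h
    rw [h] at h1
    apply hxx
    simpa using h1
  · have hg2 : g ^ 2 ∈ Subgroup.centralizer ({x} : Set G) := by
      rw [Subgroup.mem_centralizer_iff]
      intro y hy
      rw [Set.mem_singleton_iff] at hy
      subst hy
      have h2 := (Helper2.conj_pow_of_inverts y g hg 1).1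
      rw [mul_one] at h2
      calc y * g ^ 2 = (g ^ 2 * y * (g ^ 2)⁻¹) * g ^ 2 := by rw [h2]
        _ = g ^ 2 * y := by group
    have h3 : (⟨g ^ 2, hg2⟩ : Subgroup.centralizer ({x} : Set G)) ^ (2 * k + 1) = 1 := by
      rw [← hk]; exact pow_card_eq_one'
    have h4 : (g ^ 2) ^ (2 * k + 1) = 1 := by
      have := congrArg Subtype.val h3
      simpa using this
    rw [← pow_two, ← pow_mul, mul_comm, pow_mul]
    exact h4

end Cfsg.Agent.S0241
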