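import Mathlib
import Cfsg.Statements.S0244
-- import your own Cfsg.Agent.* helpers here

set_option autoImplicit false
open Cfsg

namespace Cfsg.Agent.S0244

/-- Sp_2 = SL_2: a matrix on Fin 1 ⊕ Fin 1 lies in Mathlib's symplectic group iff its determinant is 1. -/
theorem result {R : Type*} [CommRing R] (A : Matrix (Fin 1 ⊕ Fin 1) (Fin 1 ⊕ Fin 1) R) : A ∈ Matrix.symplecticGroup (Fin 1) R ↔ A.det = 1 := by
  refine ⟨fun h => SymplecticGroup.det_eq_one h, fun h => ?_⟩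
  have hdet : A (Sum.inl 0) (Sum.inl 0) * A (Sum.inr 0) (Sum.inr 0) - A (Sum.inl 0) (Sum.inr 0) * A (Sum.inr 0) (Sum.inl 0) = 1 := by
    rw [← h, ← Matrix.det_reindex_self (finSumFinEquiv (m := 1) (n := 1)) A, Matrix.det_fin_two]
    simp [Matrix.reindex_apply, Matrix.submatrix_apply]
    rfl
  obtain ⟨a, b, c, d, rfl⟩ : ∃ a b c d : Matrix (Fin 1) (Fin 1) R, A = Matrix.fromBlocks a b c d :=
    ⟨A.toBlocks₁₁, A.toBlocks₁₂, A.toBlocks₂₁, A.toBlocks₂₂, (Matrix.fromBlocks_toBlocks A).symm⟩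
  rw [SymplecticGroup.fromBlocks_mem_iff]
  simp only [Matrix.fromBlocks_apply₁₁, Matrix.fromBlocks_apply₁₂, Matrix.fromBlocks_apply₂₁, Matrix.fromBlocks_apply₂₂] at hdet
  refine ⟨?_, ?_, ?_⟩
  · ext i j
    fin_cases i; fin_cases j
    simp [Matrix.mul_apply, mul_comm]
  · ext i j
    fin_cases i; fin_cases j
    simp [Matrix.mul_apply, mul_comm]
  · ext i j
    fin_cases i; fin_cases j
    simp [Matrix.mul_apply]
    linear_combination hdet

end Cfsg.Agent.S0244
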