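import Cfsg.Statements.S0247
-- import your own Cfsg.Agent.* helpers here
import Mathlib
import Cfsg.Agent.Helper5.SymSp
import Cfsg.Agent.Helper5.SpTransfer
import Cfsg.Agent.Helper5.FieldTransfer
import Cfsg.Agent.S0245

set_option autoImplicit false
open Cfsg

namespace Cfsg.Agent.S0247

/-- Sp_4(2) is isomorphic to the symmetric group S_6. -/
theorem result {F : Type*} [Field F] [Fintype F] (hF : Fintype.card F = 2) : Nonempty (Matrix.symplecticGroup (Fin 2) F ≃* Equiv.Perm (Fin 6)) := by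
  classical
  obtain ⟨f, hf⟩ : ∃ f : Equiv.Perm (Fin 6) →* Matrix.symplecticGroup (Fin 2) (ZMod 2),
      Function.Injective f := Cfsg.Agent.Helper5.sym_sp_embed 3 le_rfl
  obtain ⟨Φ, hΦ⟩ := Cfsg.Agent.Helper5.sp_transfer (l := Fin 2)
    ((ZMod.ringEquivOfPrime F Nat.prime_two hF : ZMod 2 ≃+* F) : ZMod 2 →+* F)
    (ZMod.ringEquivOfPrime F Nat.prime_two hF).injective
  refine Cfsg.Agent.Helper5.mulEquiv_of_injective_of_card (Φ.comp f) (hΦ.comp hf) ?_
  rw [Cfsg.Agent.S0245.result hF 2, Nat.card_eq_fintype_card, Fintype.card_perm,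
    Fintype.card_fin]
  norm_num [Finset.prod_range_succ, Nat.factorial]

end Cfsg.Agent.S0247
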