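import Cfsg.Agent.Helper2.SLGen
import Cfsg.Statements.S0248
-- import your own Cfsg.Agent.* helpers here

set_option autoImplicit false
open Cfsg

namespace Cfsg.Agent.S0248

open Cfsg.Agent.Helper2

/-- SL_n(F) is perfect for n at least 3, over any field F. -/
theorem result {F : Type*} [Field F] (n : ℕ) (hn : 3 ≤ n) : commutator (Matrix.SpecialLinearGroup (Fin n) F) = ⊤ := by
  exact SL_commutator_eq_top (by rw [Fintype.card_fin]; exact hn)

end Cfsg.Agent.S0248
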