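import Cfsg.Agent.Helper2.SLGen
import Cfsg.Statements.S0249
-- import your own Cfsg.Agent.* helpers here

set_option autoImplicit false
open Cfsg

namespace Cfsg.Agent.S0249

open Cfsg.Agent.Helper2

/-- PSL_n(F) is simple for n at least 3, over any field F. -/
theorem result {F : Type*} [Field F] (n : ℕ) (hn : 3 ≤ n) : IsSimpleGroup (Matrix.ProjectiveSpecialLinearGroup (Fin n) F) := by
  exact PSL_simple_of_three_le (by rw [Fintype.card_fin]; exact hn)

end Cfsg.Agent.S0249
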