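import Cfsg.Agent.Helper2.PSLPerm
import Cfsg.Statements.S0250
-- import your own Cfsg.Agent.* helpers here

set_option autoImplicit false
open Cfsg

namespace Cfsg.Agent.S0250

open Cfsg.Agent.Helper2
open scoped LinearAlgebra.Projectivization

/-- SL_2(2) is isomorphic to S_3. -/
theorem result {F : Type*} [Field F] [Fintype F] (hF : Fintype.card F = 2) : Nonempty (Matrix.SpecialLinearGroup (Fin 2) F ≃* Equiv.Perm (Fin 3)) := by
  classical
  have hfin : Finite (ℙ F (Fin 2 → F)) := by
    apply Nat.finite_of_card_ne_zero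
    rw [card_proj_line]; omega
  have := Fintype.ofFinite (ℙ F (Fin 2 → F))
  have hX : Fintype.card (ℙ F (Fin 2 → F)) = 3 := by
    rw [← Nat.card_eq_fintype_card, card_proj_line, hF]
  have hker : (MulAction.toPermHom (Matrix.SpecialLinearGroup (Fin 2) F) (ℙ F (Fin 2 → F))).ker = ⊥ := by
    rw [Projectivization.SL_mulAction_ker]
    apply Subgroup.eq_bot_of_card_eq
    rw [card_center_SL F 2 (by norm_num), hF]
    norm_num
  have hinj : Function.Injective
      (MulAction.toPermHom (Matrix.SpecialLinearGroup (Fin 2) F) (ℙ F (Fin 2 → F))) :=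
    (MonoidHom.ker_eq_bot_iff _).mp hker
  have hSL : Nat.card (Matrix.SpecialLinearGroup (Fin 2) F) = 6 := by
    have h1 := card_SL2 F
    rw [hF] at h1
    have e1 : (2 ^ 2 - 1) * (2 ^ 2 - 2) = 6 := by norm_num
    have e2 : 2 - 1 = 1 := by norm_num
    rw [e1, e2] at h1
    omega
  have hbij : Function.Bijective
      (MulAction.toPermHom (Matrix.SpecialLinearGroup (Fin 2) F) (ℙ F (Fin 2 → F))) :=
    (Nat.bijective_iff_injective_and_card _).mpr
      ⟨hinj, by rw [hSL, Nat.card_eq_fintype_card, Fintype.card_perm, hX]; rfl⟩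
  exact ⟨(MulEquiv.ofBijective _ hbij).trans (Fintype.equivFinOfCardEq hX).permCongrHom⟩

end Cfsg.Agent.S0250
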