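import Cfsg.Agent.Helper2.PSLPerm
import Cfsg.Agent.Helper2.Simple60
import Cfsg.Statements.S0253
-- import your own Cfsg.Agent.* helpers here

set_option autoImplicit false
open Cfsg

namespace Cfsg.Agent.S0253

open Cfsg.Agent.Helper2

/-- PSL_2(5) is isomorphic to A_5. -/
theorem result {F : Type*} [Field F] [Fintype F] (hF : Fintype.card F = 5) : Nonempty (Matrix.ProjectiveSpecialLinearGroup (Fin 2) F ≃* alternatingGroup (Fin 5)) := by
  have hsimple : IsSimpleGroup (Matrix.ProjectiveSpecialLinearGroup (Fin 2) F) :=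
    Matrix.ProjectiveSpecialLinearGroup.rank_two_simple
      (by rw [Nat.card_eq_fintype_card, hF]; norm_num)
  apply simple_order_sixty
  have h1 := card_SL2 F
  have h2 := card_PSL_mul F 2 (by norm_num)
  rw [hF] at h1 h2
  have hg : Nat.gcd 2 (5 - 1) = 2 := by norm_num
  rw [hg] at h2
  have e1 : (5 ^ 2 - 1) * (5 ^ 2 - 5) = 480 := by norm_num
  have e2 : 5 - 1 = 4 := by norm_num
  rw [e1, e2] at h1
  omega

end Cfsg.Agent.S0253
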