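import Mathlib
import Cfsg.Agent.Helper2.ExcIso
import Cfsg.Statements.S0254
-- import your own Cfsg.Agent.* helpers here

set_option autoImplicit false
open Cfsg

namespace Cfsg.Agent.S0254

open Matrix Cfsg.Agent.Helper2
open scoped LinearAlgebra.Projectivization MatrixGroups

instance fact_nonsquare : Fact (∀ r : ZMod 3, r ^ 2 ≠ 2 + 0 * r) := ⟨by decide⟩

/-- The field with nine elements, `𝔽₃[i]`. -/
abbrev K9 : Type := QuadraticAlgebra (ZMod 3) 2 0

instance fintypeK9 : Fintype K9 :=
  Fintype.ofEquiv (ZMod 3 × ZMod 3) (QuadraticAlgebra.equivProd 2 0).symm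

theorem card_K9 : Fintype.card K9 = 9 := by
  rw [Fintype.card_congr (QuadraticAlgebra.equivProd 2 0), Fintype.card_prod, ZMod.card]

/-- The imaginary unit. -/
def iK9 : K9 := ⟨0, 1⟩

/-- The bisection of six points attached to a point of the projective line over `𝔽₉`, given by
the side containing `0`. -/
def side : Option K9 → Fin 6 → Bool
  | none => ![true, true, true, false, false, false]
  | some z => (![![![true, true, false, true, false, false], ![true, true, false, false, true, false],
        ![true, true, false, false, false, true]],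
      ![![true, false, true, true, false, false], ![true, false, true, false, true, false],
        ![true, false, true, false, false, true]],
      ![![true, false, false, false, true, true], ![true, false, false, true, false, true],
        ![true, false, false, true, true, false]]] : Fin 3 → Fin 3 → Fin 6 → Bool) z.im z.re

/-- The bisection as a relation. -/
def bis (z : Option K9) : Fin 6 → Fin 6 → Bool := fun a b => side z a == side z b

def sU : Equiv.Perm (Fin 6) := ⟨![0, 1, 2, 4, 5, 3], ![0, 1, 2, 5, 3, 4], by decide, by decide⟩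
def sI : Equiv.Perm (Fin 6) := ⟨![2, 0, 1, 3, 4, 5], ![1, 2, 0, 3, 4, 5], by decide, by decide⟩
def sW : Equiv.Perm (Fin 6) := ⟨![0, 1, 3, 2, 5, 4], ![0, 1, 3, 2, 5, 4], by decide, by decide⟩

theorem sU_mem : sU ∈ alternatingGroup (Fin 6) := by
  rw [Equiv.Perm.mem_alternatingGroup]; decide
theorem sI_mem : sI ∈ alternatingGroup (Fin 6) := by
  rw [Equiv.Perm.mem_alternatingGroup]; decide
theorem sW_mem : sW ∈ alternatingGroup (Fin 6) := by
  rw [Equiv.Perm.mem_alternatingGroup]; decide

/-- Action of a permutation on relations. -/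
def actR (σ : Equiv.Perm (Fin 6)) (r : Fin 6 → Fin 6 → Bool) : Fin 6 → Fin 6 → Bool :=
  fun a b => r (σ⁻¹ a) (σ⁻¹ b)

def ninv (z : K9) : K9 := -(z ^ 7)

theorem hninv : ∀ z : K9, z ≠ 0 → z * ninv z = -1 := by decide

theorem checkU : ∀ z : Option K9, bis (z.map (· + 1)) = actR sU (bis z) := by decide

theorem checkI : ∀ z : Option K9, bis (z.map (· + iK9)) = actR sI (bis z) := by decide

theorem checkW : ∀ z : Option K9, bis (mobW ninv z) = actR sW (bis z) := by decide

theorem check_nt : bis (some (0 + 1)) ≠ bis (some 0) := by decide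

theorem hspan : ∀ z : K9, ∃ m n : Fin 3, z = m.val • (1 : K9) + n.val • iK9 := by decide

theorem card_alt6 : Nat.card (alternatingGroup (Fin 6)) = 360 := by
  rw [nat_card_alternatingGroup, Nat.card_eq_fintype_card, Fintype.card_fin]
  decide

theorem card_psl2 : Nat.card (Matrix.ProjectiveSpecialLinearGroup (Fin 2) K9) = 360 := by
  have h := card_SL_mul K9 2 (by norm_num)
  have h2 := card_PSL_mul K9 2 (by norm_num)
  rw [card_K9, Fin.prod_univ_two] at h
  rw [card_K9] at h2
  have hg : Nat.gcd 2 (9 - 1) = 2 := by decide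
  rw [hg] at h2
  simp only [Fin.val_zero, Fin.val_one, pow_zero, pow_one] at h
  have h3 : Nat.card (SL(2, K9)) * 8 = 5760 := h
  omega

theorem main : Nonempty (Matrix.ProjectiveSpecialLinearGroup (Fin 2) K9 ≃*
    alternatingGroup (Fin 6)) := by
  have : IsSimpleGroup (Matrix.ProjectiveSpecialLinearGroup (Fin 2) K9) :=
    Matrix.ProjectiveSpecialLinearGroup.rank_two_simple
      (by rw [Nat.card_eq_fintype_card, card_K9]; norm_num)
  refine iso_of_graph
    (X := ℙ K9 (Fin 2 → K9)) (Y := Fin 6 → Fin 6 → Bool)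
    (by rw [card_alt6, card_psl2])
    (fun g p => g • p) (fun σ r => actR (σ : Equiv.Perm (Fin 6)) r) ?_ ?_ ?_ ?_
    (fun p => bis (p1coord p))
    ((fun t => (QuotientGroup.mk (sl2U t) :
      Matrix.ProjectiveSpecialLinearGroup (Fin 2) K9)) '' {1, iK9} ∪ {QuotientGroup.mk sl2W})
    (psl2_closure_eq_top {1, iK9} ?_) ?_ ?_
  · intro g h p
    simp only [mul_smul]
  · intro p
    simp only [one_smul]
  · intro σ τ r
    funext a b
    simp only [actR, Subgroup.coe_mul, _root_.mul_inv_rev, Equiv.Perm.mul_apply]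
  · intro r
    funext a b
    simp only [actR, Subgroup.coe_one, inv_one, Equiv.Perm.one_apply]
  · rw [eq_top_iff]
    intro z _
    obtain ⟨m, n, rfl⟩ := hspan z
    refine AddSubgroup.add_mem _ (AddSubgroup.nsmul_mem _ (AddSubgroup.subset_closure ?_) _)
      (AddSubgroup.nsmul_mem _ (AddSubgroup.subset_closure ?_) _)
    · exact Or.inl rfl
    · exact Or.inr rfl
  · rintro g (⟨t, ht, rfl⟩ | rfl)
    · rcases ht with rfl | rfl
      · refine ⟨⟨sU, sU_mem⟩, fun p => ?_⟩
        simp only
        rw [p1coord_U]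
        exact checkU _
      · refine ⟨⟨sI, sI_mem⟩, fun p => ?_⟩
        simp only
        rw [p1coord_U]
        exact checkI _
    · refine ⟨⟨sW, sW_mem⟩, fun p => ?_⟩
      simp only
      rw [p1coord_W ninv hninv]
      exact checkW _
  · refine ⟨QuotientGroup.mk (sl2U 1), pt1 _, ?_⟩
    show bis (p1coord ((QuotientGroup.mk (sl2U 1) :
      Matrix.ProjectiveSpecialLinearGroup (Fin 2) K9) • pt1 K9)) ≠ bis (p1coord (pt1 K9))
    rw [p1coord_U]
    have h1 : p1coord (pt1 K9) = some 0 := by rw [pt1, p1coord_mk]; simp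
    rw [h1]
    exact check_nt

/-- PSL_2(9) is isomorphic to A_6. -/
theorem result {F : Type*} [Field F] [Fintype F] (hF : Fintype.card F = 9) : Nonempty (Matrix.ProjectiveSpecialLinearGroup (Fin 2) F ≃* alternatingGroup (Fin 6)) := by
  have e9 : F ≃+* K9 := FiniteField.ringEquivOfCardEq (by rw [hF, card_K9])
  obtain ⟨m⟩ := main
  exact ⟨(pslCongr e9).trans m⟩

end Cfsg.Agent.S0254
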