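import Mathlib
import Cfsg.Agent.Helper2.ExcIso
import Cfsg.Statements.S0255
-- import your own Cfsg.Agent.* helpers here

set_option autoImplicit false
open Cfsg

namespace Cfsg.Agent.S0255

open Matrix Cfsg.Agent.Helper2
open scoped LinearAlgebra.Projectivization MatrixGroups

instance fact_prime_seven : Fact (Nat.Prime 7) := ⟨by norm_num⟩

/-- Affine coordinates on the projective line over `𝔽₇`, making `PSL₂(7)` act by affine maps. -/
def kap : Option (ZMod 7) → Fin 3 → ZMod 2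
  | none => ![0, 0, 0]
  | some z => (![![1, 1, 1], ![0, 1, 1], ![0, 0, 1], ![1, 0, 0], ![0, 1, 0], ![1, 0, 1],
      ![1, 1, 0]] : Fin 7 → Fin 3 → ZMod 2) z

def linU (v : Fin 3 → ZMod 2) : Fin 3 → ZMod 2 := ![v 1 + v 2, v 0, v 1]

def linW (v : Fin 3 → ZMod 2) : Fin 3 → ZMod 2 := ![v 0, v 0 + v 1 + v 2, v 2]

def ninv (z : ZMod 7) : ZMod 7 := -(z ^ 5)

theorem hninv : ∀ z : ZMod 7, z ≠ 0 → z * ninv z = -1 := by decide

theorem checkU : ∀ z z' : Option (ZMod 7),
    kap (z.map (· + 1)) + kap (z'.map (· + 1)) = linU (kap z + kap z') := by decide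

theorem checkW : ∀ z z' : Option (ZMod 7),
    kap (mobW ninv z) + kap (mobW ninv z') = linW (kap z + kap z') := by decide

noncomputable def matU : SL(3, ZMod 2) :=
  ⟨!![0, 1, 1; 1, 0, 0; 0, 1, 0], by rw [Matrix.det_fin_three]; decide⟩

noncomputable def matW : SL(3, ZMod 2) :=
  ⟨!![1, 0, 0; 1, 1, 1; 0, 0, 1], by rw [Matrix.det_fin_three]; decide⟩

theorem matU_mulVec (v : Fin 3 → ZMod 2) : matU.1 *ᵥ v = linU v := by
  ext i
  fin_cases i <;> simp [matU, linU, Matrix.mulVec, dotProduct, Fin.sum_univ_three]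

theorem matW_mulVec (v : Fin 3 → ZMod 2) : matW.1 *ᵥ v = linW v := by
  ext i
  fin_cases i <;> simp [matW, linW, Matrix.mulVec, dotProduct, Fin.sum_univ_three, add_assoc]

theorem card_sl3 : Nat.card (SL(3, ZMod 2)) = 168 := by
  have h := card_SL_mul (ZMod 2) 3 (by norm_num)
  rw [ZMod.card, Fin.prod_univ_three] at h
  simpa using h

theorem card_psl2 : Nat.card (Matrix.ProjectiveSpecialLinearGroup (Fin 2) (ZMod 7)) = 168 := by
  have h := card_SL_mul (ZMod 7) 2 (by norm_num)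
  have h2 := card_PSL_mul (ZMod 7) 2 (by norm_num)
  rw [ZMod.card, Fin.prod_univ_two] at h
  rw [ZMod.card] at h2
  have hg : Nat.gcd 2 (7 - 1) = 2 := by decide
  rw [hg] at h2
  simp only [Fin.val_zero, Fin.val_one, pow_zero, pow_one] at h
  have h3 : Nat.card (SL(2, ZMod 7)) * 6 = 2016 := h
  omega

theorem main : Nonempty (Matrix.ProjectiveSpecialLinearGroup (Fin 2) (ZMod 7) ≃* SL(3, ZMod 2)) := by
  haveI : IsSimpleGroup (Matrix.ProjectiveSpecialLinearGroup (Fin 2) (ZMod 7)) :=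
    Matrix.ProjectiveSpecialLinearGroup.rank_two_simple
      (by rw [Nat.card_eq_fintype_card, ZMod.card]; norm_num)
  refine iso_of_graph
    (X := ℙ (ZMod 7) (Fin 2 → ZMod 7) × ℙ (ZMod 7) (Fin 2 → ZMod 7)) (Y := Fin 3 → ZMod 2)
    (by rw [card_sl3, card_psl2])
    (fun g p => (g • p.1, g • p.2)) (fun A v => A.1 *ᵥ v) ?_ ?_ ?_ ?_
    (fun p => kap (p1coord p.1) + kap (p1coord p.2))
    ((fun t => (QuotientGroup.mk (sl2U t) :
      Matrix.ProjectiveSpecialLinearGroup (Fin 2) (ZMod 7))) '' {1} ∪ {QuotientGroup.mk sl2W})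
    (psl2_closure_eq_top {1} ?_) ?_ ?_
  · intro g h p
    simp only [mul_smul]
  · intro p
    simp only [one_smul]
  · intro A B v
    simp only [Matrix.SpecialLinearGroup.coe_mul, Matrix.mulVec_mulVec]
  · intro v
    simp only [Matrix.SpecialLinearGroup.coe_one, Matrix.one_mulVec]
  · rw [eq_top_iff]
    intro t _
    rw [AddSubgroup.mem_closure_singleton]
    exact ⟨t.val, by simp⟩
  · rintro g (⟨t, rfl, rfl⟩ | rfl)
    · refine ⟨matU, fun p => ?_⟩
      simp only
      rw [p1coord_U, p1coord_U, matU_mulVec]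
      exact checkU _ _
    · refine ⟨matW, fun p => ?_⟩
      simp only
      rw [p1coord_W ninv hninv, p1coord_W ninv hninv, matW_mulVec]
      exact checkW _ _
  · refine ⟨QuotientGroup.mk (sl2U 1), (pt0 _, pt1 _), ?_⟩
    simp only
    rw [p1coord_U, p1coord_U]
    have h0 : p1coord (pt0 (ZMod 7)) = none := by rw [pt0, p1coord_mk]; simp
    have h1 : p1coord (pt1 (ZMod 7)) = some 0 := by rw [pt1, p1coord_mk]; simp
    rw [h0, h1]
    decide

/-- PSL_2(7) is isomorphic to PSL_3(2). -/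
theorem result {F K : Type*} [Field F] [Fintype F] [Field K] [Fintype K] (hF : Fintype.card F = 7) (hK : Fintype.card K = 2) : Nonempty (Matrix.ProjectiveSpecialLinearGroup (Fin 2) F ≃* Matrix.ProjectiveSpecialLinearGroup (Fin 3) K) := by
  have e7 : F ≃+* ZMod 7 := (ZMod.ringEquivOfPrime F (by norm_num) hF).symm
  have e2 : K ≃+* ZMod 2 := (ZMod.ringEquivOfPrime K Nat.prime_two hK).symm
  have hc : Subgroup.center (SL(3, ZMod 2)) = ⊥ := by
    rw [← Subgroup.card_eq_one, card_center_SL (ZMod 2) 3 (by norm_num), ZMod.card]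
    rfl
  obtain ⟨m⟩ := main
  exact ⟨((pslCongr e7).trans m).trans ((pslEquivSL hc).symm.trans (pslCongr e2.symm))⟩

end Cfsg.Agent.S0255
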