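import Cfsg.Agent.Helper2.SL2Sylow
import Cfsg.Agent.Helper2.LinGroups2
import Cfsg.Agent.Helper1.QuatSL
import Cfsg.Statements.S0257
-- import your own Cfsg.Agent.* helpers here

set_option autoImplicit false
open Cfsg

namespace Cfsg.Agent.S0257

open Cfsg.Agent.Helper2 Matrix
open scoped MatrixGroups

/-- SL_2(3) has a normal subgroup of index 3 isomorphic to the quaternion group of order 8, and its centre has order 2. -/
theorem result {F : Type*} [Field F] [Fintype F] (hF : Fintype.card F = 3) : (∃ Q : Subgroup (Matrix.SpecialLinearGroup (Fin 2) F), Q.Normal ∧ Q.index = 3 ∧ Nonempty (Q ≃* QuaternionGroup 2)) ∧ Nat.card (Subgroup.center (Matrix.SpecialLinearGroup (Fin 2) F)) = 2 := by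
  classical
  have h3 : Fact (Nat.Prime 3) := ⟨Nat.prime_three⟩
  have h2 : Fact (Nat.Prime 2) := ⟨Nat.prime_two⟩
  have hchar : CharP F 3 := by
    obtain ⟨p, hp⟩ := CharP.exists F
    obtain ⟨n, hpr, hn⟩ := FiniteField.card F p
    rw [hF] at hn
    have hp3 : p = 3 := by
      have hdvd : p ∣ 3 := by rw [hn]; exact dvd_pow_self p n.ne_zero
      exact (Nat.prime_dvd_prime_iff_eq hpr Nat.prime_three).mp hdvd
    subst hp3
    exact hp
  constructor
  · have hcardG : Nat.card SL(2, F) = 24 := by
      have h1 := card_SL2 F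
      rw [hF] at h1
      have e1 : (3 ^ 2 - 1) * (3 ^ 2 - 3) = 48 := by norm_num
      have e2 : 3 - 1 = 2 := by norm_num
      rw [e1, e2] at h1
      omega
    have hUcoe : ((sl2USylow (F := F) 3 : Sylow 3 SL(2, F)) : Subgroup SL(2, F)) = sl2Unip :=
      sl2USylow_coe 3
    have hUcard : Nat.card ((sl2USylow (F := F) 3 : Sylow 3 SL(2, F)) : Subgroup SL(2, F)) = 3 := by
      rw [hUcoe, card_sl2Unip, hF]
    have hNC : Subgroup.normalizer
        (((sl2USylow (F := F) 3 : Sylow 3 SL(2, F)) : Subgroup SL(2, F)) : Set SL(2, F)) ≤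
        Subgroup.centralizer
          (((sl2USylow (F := F) 3 : Sylow 3 SL(2, F)) : Subgroup SL(2, F)) : Set SL(2, F)) := by
      intro g hg
      rw [hUcoe] at hg ⊢
      have h1 := (Subgroup.mem_normalizer_iff.mp hg (sl2U 1)).mp (sl2U_mem 1)
      obtain ⟨b', hb'⟩ := (mem_sl2Unip_iff _).mp h1
      have h2' : g * sl2U 1 = sl2U b' * g := by rw [hb']; group
      have h3' := congrArg (fun x : SL(2, F) => (x : Matrix (Fin 2) (Fin 2) F) 1 1) h2'
      simp only [sl2_mul_U, sl2_U_mul] at h3'
      have h10 : g.1 1 0 = 0 := by simpa using h3'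
      have hdet := sl2_det g
      rw [h10, mul_zero, sub_zero] at hdet
      have h00 : g.1 0 0 ≠ 0 := left_ne_zero_of_mul_eq_one hdet
      have hsq : g.1 0 0 ^ 2 = 1 := by
        have h4 := FiniteField.pow_card_sub_one_eq_one (g.1 0 0) h00
        rwa [hF] at h4
      have h11 : g.1 1 1 = g.1 0 0 := by
        have h5 : g.1 0 0 * g.1 1 1 = g.1 0 0 * g.1 0 0 := by rw [hdet, ← sq, hsq]
        exact mul_left_cancel₀ h00 h5
      rw [Subgroup.mem_centralizer_iff]
      intro x hx
      obtain ⟨b, rfl⟩ := (mem_sl2Unip_iff _).mp hx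
      apply Subtype.ext
      rw [sl2_U_mul, sl2_mul_U]
      ext i j
      fin_cases i <;> fin_cases j
      · simp [h10]
      · simp [h10, h11]
        ring
      · simp [h10]
      · simp [h10]
    have hcompl := MonoidHom.ker_transferSylow_isComplement' _ hNC
    have hcm := hcompl.card_mul_card
    rw [hUcard, hcardG] at hcm
    have hKcard : Nat.card (MonoidHom.transferSylow _ hNC).ker = 8 := by omega
    have hKidx : (MonoidHom.transferSylow _ hNC).ker.index = 3 := by
      have h6 := Subgroup.index_mul_card (MonoidHom.transferSylow _ hNC).ker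
      rw [hKcard, hcardG] at h6
      omega
    refine ⟨(MonoidHom.transferSylow _ hNC).ker, inferInstance, hKidx, ?_⟩
    have hK2 : IsPGroup 2 (MonoidHom.transferSylow _ hNC).ker :=
      IsPGroup.of_card (n := 3) (by rw [hKcard]; norm_num)
    have hidx : ¬ 2 ∣ (MonoidHom.transferSylow _ hNC).ker.index := by
      rw [hKidx]; norm_num
    obtain ⟨k, hk1, ⟨e⟩⟩ := Cfsg.Agent.Helper1.sl2_sylow_two_quat (F := F)
      (by rw [hF]; decide) (hK2.toSylow hidx)
    have e' : (MonoidHom.transferSylow _ hNC).ker ≃* QuaternionGroup (2 ^ k) :=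
      (MulEquiv.subgroupCongr (IsPGroup.toSylow_coe hK2 hidx).symm).trans e
    have hk : k = 1 := by
      have hc := Nat.card_congr e'.toEquiv
      rw [hKcard, Nat.card_eq_fintype_card, QuaternionGroup.card] at hc
      have h7 : 2 ^ k = 2 ^ 1 := by omega
      exact Nat.pow_right_injective (le_refl 2) h7
    subst hk
    exact ⟨e'⟩
  · rw [card_center_SL F 2 (by norm_num), hF]
    norm_num

end Cfsg.Agent.S0257
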