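import Cfsg.Agent.Helper2.SL2Cyclic
import Cfsg.Statements.S0262
-- import your own Cfsg.Agent.* helpers here

set_option autoImplicit false
open Cfsg

namespace Cfsg.Agent.S0262

open Cfsg.Agent.Helper2

/-- For an odd prime r different from the characteristic, the Sylow r-subgroups of SL_2(q) are cyclic. -/
theorem result {F : Type*} [Field F] [Fintype F] (p : ℕ) [Fact p.Prime] [CharP F p] (r : ℕ) [Fact r.Prime] (hr : r ≠ 2) (hrp : r ≠ p) (R : Sylow r (Matrix.SpecialLinearGroup (Fin 2) F)) : IsCyclic (R : Subgroup (Matrix.SpecialLinearGroup (Fin 2) F)) := by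
  have hchar : CharP (AlgebraicClosure F) p :=
    charP_of_injective_algebraMap (algebraMap F (AlgebraicClosure F)).injective p
  have hinj : Function.Injective
      ((Matrix.SpecialLinearGroup.map (n := Fin 2) (algebraMap F (AlgebraicClosure F))).comp
        (R : Subgroup (Matrix.SpecialLinearGroup (Fin 2) F)).subtype) := by
    intro a b hab
    apply Subtype.ext
    apply Matrix.SpecialLinearGroup.ext
    intro i j
    have h1 := congrArg (fun M : Matrix.SpecialLinearGroup (Fin 2) (AlgebraicClosure F) => M.1 i j) hab
    simp only [MonoidHom.comp_apply, Subgroup.coe_subtype, Matrix.SpecialLinearGroup.map_apply_coe,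
      RingHom.mapMatrix_apply, Matrix.map_apply] at h1
    exact (algebraMap F (AlgebraicClosure F)).injective h1
  exact cyclic_of_pgroup_SL2 p r hr hrp R.isPGroup' _ hinj

end Cfsg.Agent.S0262
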