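import Mathlib
import Cfsg.Statements.S0263
-- import your own Cfsg.Agent.* helpers here

set_option autoImplicit false
open Cfsg

namespace Cfsg.Agent.S0263

theorem prod_GL_factor (q n : ℕ) (hq : 1 ≤ q) :
    ∏ i : Fin n, (q ^ n - q ^ (i : ℕ)) =
      q ^ (n * (n - 1) / 2) * ∏ i : Fin n, (q ^ (n - (i : ℕ)) - 1) := by
  have h1 : ∀ i : Fin n, q ^ n - q ^ (i : ℕ) = q ^ (i : ℕ) * (q ^ (n - (i : ℕ)) - 1) := by
    intro i
    have hi : (i : ℕ) ≤ n := i.2.le
    rw [Nat.mul_sub, mul_one, ← pow_add, Nat.add_sub_cancel' hi]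
  rw [Finset.prod_congr rfl (fun i _ => h1 i), Finset.prod_mul_distrib, Finset.prod_pow_eq_pow_sum]
  congr 2
  rw [Fin.sum_univ_eq_sum_range (fun i => i) n, Finset.sum_range_id]

/-- A Sylow p-subgroup of GL_n(q), p the characteristic, has order q^(n(n-1)/2). -/
theorem result {F : Type*} [Field F] [Fintype F] {q : ℕ} (hF : Fintype.card F = q) (p : ℕ) [Fact p.Prime] [CharP F p] (n : ℕ) (P : Sylow p (Matrix.GeneralLinearGroup (Fin n) F)) : Nat.card P = q ^ (n * (n - 1) / 2) := by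
  classical
  have hp : p.Prime := Fact.out
  obtain ⟨f, -, hq⟩ := FiniteField.card F p
  rw [hF] at hq
  have hq1 : 1 ≤ q := by rw [hq]; exact Nat.one_le_pow _ _ hp.pos
  have hcard := Matrix.card_GL_field (𝔽 := F) (n := n)
  rw [hF, prod_GL_factor q n hq1] at hcard
  have hm : ¬ p ∣ ∏ i : Fin n, (q ^ (n - (i : ℕ)) - 1) := by
    intro hdvd
    rw [Prime.dvd_finset_prod_iff hp.prime] at hdvd
    obtain ⟨i, -, hi⟩ := hdvd
    have h1 : p ∣ q ^ (n - (i : ℕ)) := by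
      rw [hq, ← pow_mul]
      apply dvd_pow_self
      have : 0 < n - (i : ℕ) := Nat.sub_pos_of_lt i.2
      have hf : 0 < (f : ℕ) := f.pos
      exact (Nat.mul_pos hf this).ne'
    have h2 : 1 ≤ q ^ (n - (i : ℕ)) := Nat.one_le_pow _ _ hq1
    have h3 : p ∣ 1 := by
      have := (Nat.dvd_sub h1 hi)
      rwa [Nat.sub_sub_self h2] at this
    exact hp.one_lt.ne' (Nat.dvd_one.mp h3)
  have hm0 : (∏ i : Fin n, (q ^ (n - (i : ℕ)) - 1)) ≠ 0 := fun h => hm (h ▸ dvd_zero p)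
  have hqN0 : q ^ (n * (n - 1) / 2) ≠ 0 := pow_ne_zero _ (by omega)
  rw [Sylow.card_eq_multiplicity, hcard, Nat.factorization_mul hqN0 hm0, Finsupp.add_apply,
    Nat.factorization_eq_zero_of_not_dvd hm, add_zero, hq, ← pow_mul,
    Nat.Prime.factorization_pow hp, Finsupp.single_eq_same]

end Cfsg.Agent.S0263
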