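import Mathlib
import Cfsg.Agent.Helper2.Proj3
import Cfsg.Statements.S0266
-- import your own Cfsg.Agent.* helpers here

set_option autoImplicit false
open scoped MatrixGroups
open Cfsg

namespace Cfsg.Agent.S0266

open Matrix Projectivization Cfsg.Agent.Helper2

/-- PGL_2(F) is sharply 3-transitive on the projective line: it is 3-transitive and the stabiliser of three distinct points is trivial. -/
theorem result {F : Type*} [Field F] : MulAction.IsMultiplyPretransitive (Matrix.ProjGenLinGroup (Fin 2) F) (Projectivization F (Fin 2 → F)) 3 ∧ ∀ (g : Matrix.ProjGenLinGroup (Fin 2) F) (a b c : Projectivization F (Fin 2 → F)), a ≠ b → a ≠ c → b ≠ c → g • a = a → g • b = b → g • c = c → g = 1 := by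
  constructor
  · rw [is_three_pretransitive_iff]
    intro a b c a' b' c' hab hac hbc hab' hac' hbc'
    obtain ⟨g, h0, h1, h2⟩ := gl2_three_transitive a b c a' b' c' hab hac hbc hab' hac' hbc'
    exact ⟨Matrix.ProjGenLinGroup.mk g, h0, h1, h2⟩
  · intro g a b c hab hac hbc ha hb hc
    induction g using Matrix.ProjGenLinGroup.induction_on with | mk g =>
    rw [pgl_mk_smul] at ha hb hc
    obtain ⟨h, h0, h1, h2⟩ := exists_gl2_of_triple a b c hab hac hbc
    have hk : h⁻¹ * g * h ∈ Subgroup.center (GL (Fin 2) F) := by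
      apply gl2_fix_three
      · rw [mul_smul, mul_smul, h0, ha, ← h0, inv_smul_smul]
      · rw [mul_smul, mul_smul, h1, hb, ← h1, inv_smul_smul]
      · rw [mul_smul, mul_smul, h2, hc, ← h2, inv_smul_smul]
    rw [Matrix.ProjGenLinGroup.mk_eq_one]
    have e : g = h * (h⁻¹ * g * h) * h⁻¹ := by group
    rw [e]
    exact Subgroup.Normal.conj_mem inferInstance _ hk h

end Cfsg.Agent.S0266
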