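import Mathlib
import Cfsg.Agent.Helper2.Proj3
import Cfsg.Statements.S0267
-- import your own Cfsg.Agent.* helpers here

set_option autoImplicit false
open Cfsg

namespace Cfsg.Agent.S0267

open Matrix Projectivization Cfsg.Agent.Helper2

theorem exists_sl2_of_triple {F : Type*} [Field F] (hsq : ∀ x : F, IsSquare x)
    (a b c : Projectivization F (Fin 2 → F)) (hab : a ≠ b) (hac : a ≠ c) (hbc : b ≠ c) :
    ∃ g : Matrix.SpecialLinearGroup (Fin 2) F, g • pt0 F = a ∧ g • pt1 F = b ∧ g • pt01 F = c := by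
  obtain ⟨M, u, v, w, hu, hv, hw, α, β, γ, hdet, rfl, rfl, rfl, h0, h1, h01⟩ :=
    exists_matrix_of_triple a b c hab hac hbc
  obtain ⟨ε, hε⟩ := hsq M.det
  have hε0 : ε ≠ 0 := by
    rintro rfl
    rw [mul_zero] at hε
    exact hdet hε
  have hdet' : (ε⁻¹ • M).det = 1 := by
    rw [Matrix.det_smul, Fintype.card_fin, hε]
    field_simp
  refine ⟨⟨ε⁻¹ • M, hdet'⟩, ?_, ?_, ?_⟩
  · apply sl2_smul_mk _ _ _ _ _ (ε⁻¹ * α)
    show (ε⁻¹ • M) *ᵥ ![1, 0] = _
    rw [Matrix.smul_mulVec, h0, smul_smul]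
  · apply sl2_smul_mk _ _ _ _ _ (ε⁻¹ * β)
    show (ε⁻¹ • M) *ᵥ ![0, 1] = _
    rw [Matrix.smul_mulVec, h1, smul_smul]
  · apply sl2_smul_mk _ _ _ _ _ (ε⁻¹ * γ)
    show (ε⁻¹ • M) *ᵥ ![1, 1] = _
    rw [Matrix.smul_mulVec, h01, smul_smul]

/-- SL_2(q) is 3-transitive on the q+1 points of the projective line if and only if q is even. -/
theorem result {F : Type*} [Field F] [Fintype F] : MulAction.IsMultiplyPretransitive (Matrix.SpecialLinearGroup (Fin 2) F) (Projectivization F (Fin 2 → F)) 3 ↔ ringChar F = 2 := by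
  constructor
  · intro h3
    by_contra hchar
    obtain ⟨δ, hδ⟩ := FiniteField.exists_nonsquare hchar
    have hδ0 : δ ≠ 0 := by
      rintro rfl
      exact hδ (IsSquare.zero)
    have hne : (![1, δ] : Fin 2 → F) ≠ 0 := by
      intro h
      have := congrFun h 0
      simp at this
    rw [is_three_pretransitive_iff] at h3
    have h01 : pt0 F ≠ pt1 F := by
      intro h
      have := (proj2_mk_eq_iff _ _ _ _).mp h
      simp at this
    have h02 : pt0 F ≠ pt01 F := by
      intro h
      have := (proj2_mk_eq_iff _ _ _ _).mp h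
      simp at this
    have h12 : pt1 F ≠ pt01 F := by
      intro h
      have := (proj2_mk_eq_iff _ _ _ _).mp h
      simp at this
    have h03 : pt0 F ≠ Projectivization.mk F ![1, δ] hne := by
      intro h
      have := (proj2_mk_eq_iff _ _ _ _).mp h
      simp at this
      exact hδ0 this
    have h13 : pt1 F ≠ Projectivization.mk F ![1, δ] hne := by
      intro h
      have := (proj2_mk_eq_iff _ _ _ _).mp h
      simp at this
    obtain ⟨g, hg0, hg1, hg2⟩ := h3 (pt0 F) (pt1 F) (pt01 F) (pt0 F) (pt1 F)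
      (Projectivization.mk F ![1, δ] hne) h01 h02 h12 h01 h03 h13
    obtain ⟨c0, hc0⟩ := (sl2_smul_mk_iff g _ _ _ _).mp hg0
    obtain ⟨c1, hc1⟩ := (sl2_smul_mk_iff g _ _ _ _).mp hg1
    obtain ⟨c2, hc2⟩ := (sl2_smul_mk_iff g _ _ _ _).mp hg2
    have e00 : g.1 0 0 = c0 := by
      have := congrFun hc0 0
      simpa [Matrix.mulVec, dotProduct, Fin.sum_univ_two] using this
    have e10 : g.1 1 0 = 0 := by
      have := congrFun hc0 1
      simpa [Matrix.mulVec, dotProduct, Fin.sum_univ_two] using this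
    have e01 : g.1 0 1 = 0 := by
      have := congrFun hc1 0
      simpa [Matrix.mulVec, dotProduct, Fin.sum_univ_two] using this
    have e11 : g.1 1 1 = c1 := by
      have := congrFun hc1 1
      simpa [Matrix.mulVec, dotProduct, Fin.sum_univ_two] using this
    have e2a : g.1 0 0 + g.1 0 1 = c2 := by
      have := congrFun hc2 0
      simpa [Matrix.mulVec, dotProduct, Fin.sum_univ_two] using this
    have e2b : g.1 1 0 + g.1 1 1 = c2 * δ := by
      have := congrFun hc2 1
      simpa [Matrix.mulVec, dotProduct, Fin.sum_univ_two] using this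
    have hdet : g.1 0 0 * g.1 1 1 - g.1 0 1 * g.1 1 0 = 1 := by
      rw [← Matrix.det_fin_two]; exact g.2
    rw [e01, add_zero] at e2a
    rw [e10, zero_add] at e2b
    rw [e2a, e2b, e01, zero_mul, sub_zero] at hdet
    have hc20 : c2 ≠ 0 := by
      rintro rfl
      simp at hdet
    apply hδ
    refine ⟨c2⁻¹, ?_⟩
    field_simp
    rw [← hdet]; ring
  · intro hchar
    have hsq : ∀ x : F, IsSquare x := FiniteField.isSquare_of_char_two hchar
    rw [is_three_pretransitive_iff]
    intro a b c a' b' c' hab hac hbc hab' hac' hbc'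
    obtain ⟨g, h0, h1, h2⟩ := exists_sl2_of_triple hsq a b c hab hac hbc
    obtain ⟨g', h0', h1', h2'⟩ := exists_sl2_of_triple hsq a' b' c' hab' hac' hbc'
    refine ⟨g' * g⁻¹, ?_, ?_, ?_⟩
    · rw [← h0, mul_smul, inv_smul_smul, h0']
    · rw [← h1, mul_smul, inv_smul_smul, h1']
    · rw [← h2, mul_smul, inv_smul_smul, h2']

end Cfsg.Agent.S0267
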