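import Mathlib
import Cfsg.Statements.S0268
-- import your own Cfsg.Agent.* helpers here

set_option autoImplicit false
open Cfsg

namespace Cfsg.Agent.S0268

/-- For q odd, -1 is the unique involution of SL_2(q). -/
theorem result {F : Type*} [Field F] [Fintype F] (hF : Odd (Fintype.card F)) (g : Matrix.SpecialLinearGroup (Fin 2) F) (h1 : g ≠ 1) (h2 : g * g = 1) : (g : Matrix (Fin 2) (Fin 2) F) = -1 := by
  have h2ne : (2 : F) ≠ 0 := by
    apply Ring.two_ne_zero
    intro h
    have := (FiniteField.even_card_iff_char_two (F := F)).1 h
    rw [Nat.odd_iff] at hF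
    omega
  have hdet := g.det_coe
  rw [Matrix.det_fin_two] at hdet
  have hmul : (g : Matrix (Fin 2) (Fin 2) F) * (g : Matrix (Fin 2) (Fin 2) F) = 1 := by
    rw [← Matrix.SpecialLinearGroup.coe_mul, h2, Matrix.SpecialLinearGroup.coe_one]
  have e00 := congrFun (congrFun hmul 0) 0
  have e01 := congrFun (congrFun hmul 0) 1
  have e10 := congrFun (congrFun hmul 1) 0
  have e11 := congrFun (congrFun hmul 1) 1
  simp only [Matrix.mul_apply, Fin.sum_univ_two, Matrix.one_apply_eq, Matrix.one_apply_ne,
    ne_eq, Fin.isValue, zero_ne_one, one_ne_zero, not_false_eq_true] at e00 e01 e10 e11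
  set a := (g : Matrix (Fin 2) (Fin 2) F) 0 0
  set b := (g : Matrix (Fin 2) (Fin 2) F) 0 1
  set c := (g : Matrix (Fin 2) (Fin 2) F) 1 0
  set d := (g : Matrix (Fin 2) (Fin 2) F) 1 1
  have hs : a * (a + d) = 2 := by linear_combination e00 + hdet
  have hs0 : a + d ≠ 0 := by
    intro h
    rw [h, mul_zero] at hs
    exact h2ne hs.symm
  have hb : b = 0 := by
    have : b * (a + d) = 0 := by linear_combination e01
    rcases mul_eq_zero.1 this with h | h
    · exact h
    · exact absurd h hs0
  have hc : c = 0 := by
    have : c * (a + d) = 0 := by linear_combination e10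
    rcases mul_eq_zero.1 this with h | h
    · exact h
    · exact absurd h hs0
  have had : a = d := by
    have h1 : a * d = 1 := by rw [hb] at hdet; linear_combination hdet
    have h2' : a * a = 1 := by rw [hb] at e00; linear_combination e00
    have ha0 : a ≠ 0 := by
      intro h
      rw [h, zero_mul] at h1
      exact zero_ne_one h1
    exact mul_left_cancel₀ ha0 (h2'.trans h1.symm)
  have ha : a = 1 ∨ a = -1 := by
    have h2' : a * a = 1 := by rw [hb] at e00; linear_combination e00
    have : (a - 1) * (a + 1) = 0 := by linear_combination h2'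
    rcases mul_eq_zero.1 this with h | h
    · left; linear_combination h
    · right; linear_combination h
  rcases ha with ha | ha
  · exfalso
    apply h1
    ext i j
    fin_cases i <;> fin_cases j
    · simpa using ha
    · simpa using hb
    · simpa using hc
    · simpa using (had.symm.trans ha)
  · ext i j
    fin_cases i <;> fin_cases j
    · simpa using ha
    · simpa using hb
    · simpa using hc
    · simpa using (had.symm.trans ha)

end Cfsg.Agent.S0268
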