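import Cfsg.Statements.S0776
-- import your own Cfsg.Agent.* helpers here
import Mathlib
import Cfsg.Agent.Helper5.StabProd
import Cfsg.Agent.Helper5.SympGen
import Cfsg.Agent.Helper15.SympBasis

set_option autoImplicit false
open Cfsg

namespace Cfsg.Agent.S0776

open Matrix in
theorem sp_char {F : Type*} [Field F] (m : ℕ) (M : Matrix (Fin m ⊕ Fin m) (Fin m ⊕ Fin m) F) :
    (∃ h : Matrix.symplecticGroup (Fin m) F, Cfsg.spToMat m F h = M) ↔
      (IsUnit M ∧ ∀ u v, Cfsg.sympForm m F (M *ᵥ u) (M *ᵥ v) = Cfsg.sympForm m F u v) := by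
  constructor
  · rintro ⟨h, rfl⟩
    refine ⟨(Matrix.isUnit_iff_isUnit_det _).2 (SymplecticGroup.symplectic_det h.2),
      fun u v => ?_⟩
    rw [← Cfsg.Agent.Helper5.sB_apply, ← Cfsg.Agent.Helper5.sB_apply]
    exact Cfsg.Agent.Helper5.sp_preserves m h.1 h.2 u v
  · rintro ⟨-, hp⟩
    refine ⟨⟨M, ?_⟩, rfl⟩
    rw [SymplecticGroup.mem_iff']
    have h1 : (Matrix.toBilin' (Matrix.J (Fin m) F)).comp (Matrix.toLin' M) (Matrix.toLin' M)
        = Matrix.toBilin' (Matrix.J (Fin m) F) := by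
      refine LinearMap.ext₂ fun u v => ?_
      rw [LinearMap.BilinForm.comp_apply, Matrix.toLin'_apply, Matrix.toLin'_apply,
        Matrix.toBilin'_apply', Matrix.toBilin'_apply']
      exact hp u v
    rw [Matrix.toBilin'_comp] at h1
    exact Matrix.toBilin'.injective h1

/-- If W ≤ F^(2m) is a 2k-dimensional subspace on which the symplectic form is non-degenerate, then the stabiliser of W in Sp_2m(F) is isomorphic to Sp_2k(F) × Sp_(2m−2k)(F). -/
theorem result {F : Type*} [Field F] (m k : ℕ) (hk : k ≤ m) (W : Submodule F (Fin m ⊕ Fin m → F)) (hWk : Module.finrank F W = 2 * k) (hW : ∀ u ∈ W, (∀ v ∈ W, Cfsg.sympForm m F u v = 0) → u = 0) : Nonempty (↥(Cfsg.stabilizing (Cfsg.spToMat m F) (W : Set (Fin m ⊕ Fin m → F))) ≃* Matrix.symplecticGroup (Fin k) F × Matrix.symplecticGroup (Fin (m - k)) F) := by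
  classical
  obtain ⟨ω, hω⟩ : ∃ ω : LinearMap.BilinForm F (Fin m ⊕ Fin m → F),
      ω = Cfsg.Agent.Helper5.sB m := ⟨_, rfl⟩
  have hωs : ∀ u v, ω u v = Cfsg.sympForm m F u v := by
    intro u v
    rw [hω]
    exact Cfsg.Agent.Helper5.sB_apply m u v
  have halt : ∀ x, ω x x = 0 := by
    rw [hω]
    exact Cfsg.Agent.Helper5.sB_alt m
  have hnd : ω.Nondegenerate := by
    rw [hω]
    exact Cfsg.Agent.Helper5.sB_nondeg m
  have hskew : ∀ x y, ω y x = -ω x y := by
    intro x y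
    have h1 := halt (x + y)
    simp only [map_add, LinearMap.add_apply, halt, zero_add, add_zero] at h1
    linear_combination h1
  obtain ⟨Wp, hWp⟩ : ∃ Wp : Submodule F (Fin m ⊕ Fin m → F), Wp = ω.orthogonal W := ⟨_, rfl⟩
  have hWpmem : ∀ x, x ∈ Wp ↔ ∀ n ∈ W, ω n x = 0 := by
    intro x
    rw [hWp]
    exact LinearMap.BilinForm.mem_orthogonal_iff
  have hinf : W ⊓ Wp = ⊥ := by
    rw [eq_bot_iff]
    rintro x ⟨hxW, hxWp⟩
    have h0 : x = 0 := hW x hxW (fun v hv => by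
      rw [← hωs, hskew, (hWpmem x).1 hxWp v hv, neg_zero])
    rw [h0]
    exact Submodule.zero_mem _
  have hV : Module.finrank F (Fin m ⊕ Fin m → F) = 2 * m := by
    rw [Module.finrank_fintype_fun_eq_card, Fintype.card_sum, Fintype.card_fin]
    omega
  have hWpdim : Module.finrank F Wp = 2 * (m - k) := by
    rw [hWp, LinearMap.BilinForm.finrank_orthogonal hnd W, hV, hWk]
    omega
  have hsup : W ⊔ Wp = ⊤ := by
    apply Submodule.eq_top_of_finrank_eq
    have h1 := Submodule.finrank_sup_add_finrank_inf_eq W Wp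
    rw [hinf, finrank_bot, hWk, hWpdim] at h1
    rw [hV]
    omega
  have hc : IsCompl W Wp := IsCompl.of_eq hinf hsup
  obtain ⟨e₁, he₁⟩ := Cfsg.Agent.Helper15.exists_symp_equiv (n := k) (ω.restrict W)
    (fun x => halt x) (fun x hx => by
      have h1 := hW x x.2 (fun v hv => by
        rw [← hωs]
        exact hx ⟨v, hv⟩)
      exact Subtype.ext h1) hWk
  obtain ⟨e₂, he₂⟩ := Cfsg.Agent.Helper15.exists_symp_equiv (n := m - k) (ω.restrict Wp)
    (fun x => halt x) (fun x hx => by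
      apply Subtype.ext
      apply hnd.1
      intro y
      have hy : y ∈ W ⊔ Wp := by
        rw [hsup]
        exact Submodule.mem_top
      obtain ⟨a, ha, b, hb, rfl⟩ := Submodule.mem_sup.1 hy
      rw [map_add, hskew a, (hWpmem x).1 x.2 a ha, neg_zero, zero_add]
      exact hx ⟨b, hb⟩) hWpdim
  obtain ⟨T, hTdef⟩ : ∃ T : ((Fin k ⊕ Fin k → F) × (Fin (m - k) ⊕ Fin (m - k) → F))
      ≃ₗ[F] (Fin m ⊕ Fin m → F),
      ∀ x, T x = (e₁.symm x.1 : Fin m ⊕ Fin m → F) + (e₂.symm x.2 : Fin m ⊕ Fin m → F) :=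
    ⟨(e₁.symm.prodCongr e₂.symm).trans (Submodule.prodEquivOfIsCompl W Wp hc), fun x => by simp⟩
  have hT : ∀ x y, Cfsg.sympForm m F (T x) (T y)
      = Cfsg.sympForm k F x.1 y.1 + Cfsg.sympForm (m - k) F x.2 y.2 := by
    intro x y
    rw [← hωs, hTdef, hTdef]
    have h1 : ω (e₁.symm x.1 : Fin m ⊕ Fin m → F) (e₁.symm y.1 : Fin m ⊕ Fin m → F)
        = Cfsg.sympForm k F x.1 y.1 := by
      have h := he₁ (e₁.symm x.1) (e₁.symm y.1)
      rw [LinearEquiv.apply_symm_apply, LinearEquiv.apply_symm_apply] at h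
      exact h
    have h2 : ω (e₂.symm x.2 : Fin m ⊕ Fin m → F) (e₂.symm y.2 : Fin m ⊕ Fin m → F)
        = Cfsg.sympForm (m - k) F x.2 y.2 := by
      have h := he₂ (e₂.symm x.2) (e₂.symm y.2)
      rw [LinearEquiv.apply_symm_apply, LinearEquiv.apply_symm_apply] at h
      exact h
    have h3 : ω (e₁.symm x.1 : Fin m ⊕ Fin m → F) (e₂.symm y.2 : Fin m ⊕ Fin m → F) = 0 :=
      (hWpmem _).1 (e₂.symm y.2).2 _ (e₁.symm x.1).2
    have h4 : ω (e₂.symm x.2 : Fin m ⊕ Fin m → F) (e₁.symm y.1 : Fin m ⊕ Fin m → F) = 0 := by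
      rw [hskew, (hWpmem _).1 (e₂.symm x.2).2 _ (e₁.symm y.1).2, neg_zero]
    rw [map_add, map_add, LinearMap.add_apply, LinearMap.add_apply, h1, h2, h3, h4]
    ring
  have hW' : ∀ v, v ∈ (W : Set (Fin m ⊕ Fin m → F)) ↔ (T.symm v).2 = 0 := by
    intro v
    constructor
    · intro hv
      have h1 : T (e₁ ⟨v, hv⟩, 0) = v := by
        rw [hTdef]
        simp
      have h2 : T.symm v = (e₁ ⟨v, hv⟩, 0) := by
        rw [LinearEquiv.symm_apply_eq]
        exact h1.symm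
      simp [h2]
    · intro h
      have h1 : v = T (T.symm v) := (LinearEquiv.apply_symm_apply T v).symm
      rw [hTdef, h, map_zero] at h1
      rw [h1]
      simp
  have hf₁0 : ∀ x, Cfsg.sympForm k F x 0 = 0 := by
    intro x
    simp [Cfsg.sympForm]
  have hf₂0 : ∀ x, Cfsg.sympForm (m - k) F 0 x = 0 := by
    intro x
    simp [Cfsg.sympForm]
  have hnd' : ∀ x, (∀ y, Cfsg.sympForm k F y x = 0) → x = 0 := fun x h =>
    (Cfsg.Agent.Helper5.sB_nondeg k).2 x (fun y => by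
      rw [Cfsg.Agent.Helper5.sB_apply]
      exact h y)
  exact Cfsg.Agent.Helper5.stab_prod (Cfsg.spToMat m F) (Cfsg.spToMat k F)
    (Cfsg.spToMat (m - k) F) (Cfsg.sympForm m F) (Cfsg.sympForm k F) (Cfsg.sympForm (m - k) F)
    (fun a b h => Subtype.ext h) (fun a b h => Subtype.ext h) (fun a b h => Subtype.ext h)
    (sp_char m) (sp_char k) (sp_char (m - k)) T hT hf₁0 hf₂0 hnd' (W : Set _) hW'

end Cfsg.Agent.S0776
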