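import Cfsg.Statements.S0270
-- import your own Cfsg.Agent.* helpers here
import Mathlib
import Cfsg.Agent.Helper5.SympGen
import Cfsg.Agent.Helper5.Scalar
import Cfsg.Agent.S0765
import Cfsg.Agent.S0269
import Cfsg.Agent.S0768
import Cfsg.Agent.S0776

set_option autoImplicit false
open Cfsg

namespace Cfsg.Agent.S0270

/-- The inclusion of `Sp` into `GL`. -/
noncomputable def spGLhom {F : Type*} [Field F] (m : ℕ) :
    Matrix.symplecticGroup (Fin m) F →* Matrix.GeneralLinearGroup (Fin m ⊕ Fin m) F :=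
  (Units.map (Matrix.symplecticGroup (Fin m) F).subtype).comp
    (toUnits (G := Matrix.symplecticGroup (Fin m) F)).toMonoidHom

theorem spGLhom_val {F : Type*} [Field F] (m : ℕ) (g : Matrix.symplecticGroup (Fin m) F) :
    ((spGLhom m g : Matrix.GeneralLinearGroup (Fin m ⊕ Fin m) F) :
      Matrix (Fin m ⊕ Fin m) (Fin m ⊕ Fin m) F) = g.val := rfl

/-- The action of `Sp` on projective space. -/
noncomputable instance spActP {F : Type*} [Field F] (m : ℕ) :
    MulAction (Matrix.symplecticGroup (Fin m) F) (Projectivization F (Fin m ⊕ Fin m → F)) :=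
  MulAction.compHom _ (spGLhom m)

theorem spAct_mk {F : Type*} [Field F] (m : ℕ) (g : Matrix.symplecticGroup (Fin m) F)
    (v : Fin m ⊕ Fin m → F) (hv : v ≠ 0) :
    ∃ hgv : (g : Matrix (Fin m ⊕ Fin m) (Fin m ⊕ Fin m) F).mulVec v ≠ 0,
      g • Projectivization.mk F v hv
        = Projectivization.mk F ((g : Matrix (Fin m ⊕ Fin m) (Fin m ⊕ Fin m) F).mulVec v) hgv :=
  ⟨(smul_ne_zero_iff_ne (spGLhom m g)).mpr hv, Projectivization.smul_mk (spGLhom m g) hv⟩

theorem sp_preprimitive {F : Type*} [Field F] [Finite F] (m : ℕ) (hm : 1 ≤ m) :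
    MulAction.IsPreprimitive (Matrix.symplecticGroup (Fin m) F)
      (Projectivization F (Fin m ⊕ Fin m → F)) := by
  have := Cfsg.Agent.S0768.result (F := F) m hm
  have hφ : ∀ s : ↥(Cfsg.spGL m F), ∃ g : Matrix.symplecticGroup (Fin m) F,
      spGLhom m g = (s : Matrix.GeneralLinearGroup (Fin m ⊕ Fin m) F) := by
    intro s
    obtain ⟨h, hh⟩ := (Cfsg.Agent.S0776.sp_char m
      ((s : Matrix.GeneralLinearGroup (Fin m ⊕ Fin m) F) :
        Matrix (Fin m ⊕ Fin m) (Fin m ⊕ Fin m) F)).2 ⟨Units.isUnit _, fun u v => s.2 u v⟩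
    exact ⟨h, Units.ext hh⟩
  choose φ hφ using hφ
  let f : Projectivization F (Fin m ⊕ Fin m → F) →ₑ[φ] Projectivization F (Fin m ⊕ Fin m → F) :=
    { toFun := id
      map_smul' := fun s p => by
        show (s : Matrix.GeneralLinearGroup (Fin m ⊕ Fin m) F) • p = spGLhom m (φ s) • p
        rw [hφ s] }
  exact MulAction.IsPreprimitive.of_surjective (f := f) Function.surjective_id

theorem transv_scale {F : Type*} [Field F] (m : ℕ) (a : F) (v : Fin m ⊕ Fin m → F) (c : F) :
    Cfsg.sympTransvection m (a • v) c = Cfsg.sympTransvection m v (a * a * c) := by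
  unfold Cfsg.sympTransvection
  rw [Matrix.mulVec_smul, Matrix.smul_vecMulVec, Matrix.vecMulVec_smul, smul_smul, smul_smul]
  congr 2
  ring

/-- The transvection subgroup at a point. -/
noncomputable def spT {F : Type*} [Field F] (m : ℕ)
    (p : Projectivization F (Fin m ⊕ Fin m → F)) :
    Subgroup (Matrix.symplecticGroup (Fin m) F) where
  carrier := {g | ∃ c : F, (g : Matrix (Fin m ⊕ Fin m) (Fin m ⊕ Fin m) F)
    = Cfsg.sympTransvection m p.rep c}
  mul_mem' := by
    rintro a b ⟨c, hc⟩ ⟨d, hd⟩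
    refine ⟨c + d, ?_⟩
    show (a : Matrix (Fin m ⊕ Fin m) (Fin m ⊕ Fin m) F)
      * (b : Matrix (Fin m ⊕ Fin m) (Fin m ⊕ Fin m) F) = _
    rw [hc, hd, Cfsg.Agent.Helper6.sympTransvection_mul]
  one_mem' := ⟨0, by
    show (1 : Matrix (Fin m ⊕ Fin m) (Fin m ⊕ Fin m) F) = _
    simp [Cfsg.sympTransvection]⟩
  inv_mem' := by
    rintro a ⟨c, hc⟩
    refine ⟨-c, ?_⟩
    have h1 : a * ⟨Cfsg.sympTransvection m p.rep (-c),
        Cfsg.Agent.Helper6.sympTransvection_mem m p.rep (-c)⟩ = 1 := by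
      apply Subtype.ext
      show (a : Matrix (Fin m ⊕ Fin m) (Fin m ⊕ Fin m) F)
        * Cfsg.sympTransvection m p.rep (-c) = 1
      rw [hc, Cfsg.Agent.Helper6.sympTransvection_mul, add_neg_cancel]
      simp [Cfsg.sympTransvection]
    rw [inv_eq_of_mul_eq_one_right h1]

open scoped Pointwise in
theorem spT_conj {F : Type*} [Field F] (m : ℕ) (g : Matrix.symplecticGroup (Fin m) F)
    (p : Projectivization F (Fin m ⊕ Fin m → F)) :
    spT m (g • p) = MulAut.conj g • spT m p := by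
  obtain ⟨a, ha0, ha⟩ : ∃ a : F, a ≠ 0 ∧ (g • p).rep
      = a • (g : Matrix (Fin m ⊕ Fin m) (Fin m ⊕ Fin m) F).mulVec p.rep := by
    obtain ⟨hgv, h1⟩ := spAct_mk m g p.rep p.rep_nonzero
    rw [Projectivization.mk_rep] at h1
    have h2 : Projectivization.mk F (g • p).rep (g • p).rep_nonzero
        = Projectivization.mk F
          ((g : Matrix (Fin m ⊕ Fin m) (Fin m ⊕ Fin m) F).mulVec p.rep) hgv := by
      rw [Projectivization.mk_rep]
      exact h1
    obtain ⟨a, ha⟩ := (Projectivization.mk_eq_mk_iff' F _ _ _ _).1 h2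
    refine ⟨a, ?_, ha.symm⟩
    rintro rfl
    rw [zero_smul] at ha
    exact (g • p).rep_nonzero ha.symm
  ext h
  rw [Subgroup.mem_smul_pointwise_iff_exists]
  constructor
  · rintro ⟨c, hc⟩
    refine ⟨⟨Cfsg.sympTransvection m p.rep (a * a * c),
      Cfsg.Agent.Helper6.sympTransvection_mem m p.rep (a * a * c)⟩, ⟨a * a * c, rfl⟩, ?_⟩
    rw [MulAut.smul_def, MulAut.conj_apply, mul_inv_eq_iff_eq_mul]
    apply Subtype.ext
    show (g : Matrix (Fin m ⊕ Fin m) (Fin m ⊕ Fin m) F)
        * Cfsg.sympTransvection m p.rep (a * a * c)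
      = (h : Matrix (Fin m ⊕ Fin m) (Fin m ⊕ Fin m) F)
        * (g : Matrix (Fin m ⊕ Fin m) (Fin m ⊕ Fin m) F)
    rw [Cfsg.Agent.S0269.transv_conj_mat m g.1 g.2, hc, ha, transv_scale]
  · rintro ⟨s, ⟨c, hc⟩, hs⟩
    rw [MulAut.smul_def, MulAut.conj_apply, mul_inv_eq_iff_eq_mul] at hs
    have hs' : (g : Matrix (Fin m ⊕ Fin m) (Fin m ⊕ Fin m) F)
        * (s : Matrix (Fin m ⊕ Fin m) (Fin m ⊕ Fin m) F)
        = (h : Matrix (Fin m ⊕ Fin m) (Fin m ⊕ Fin m) F)
          * (g : Matrix (Fin m ⊕ Fin m) (Fin m ⊕ Fin m) F) := congrArg Subtype.val hs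
    rw [hc, Cfsg.Agent.S0269.transv_conj_mat m g.1 g.2] at hs'
    have hh : (h : Matrix (Fin m ⊕ Fin m) (Fin m ⊕ Fin m) F)
        = Cfsg.sympTransvection m
          ((g : Matrix (Fin m ⊕ Fin m) (Fin m ⊕ Fin m) F).mulVec p.rep) c := by
      have h3 : (⟨Cfsg.sympTransvection m
          ((g : Matrix (Fin m ⊕ Fin m) (Fin m ⊕ Fin m) F).mulVec p.rep) c,
          Cfsg.Agent.Helper6.sympTransvection_mem m _ c⟩ :
          Matrix.symplecticGroup (Fin m) F) * g = h * g := Subtype.ext hs'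
      exact (congrArg Subtype.val (mul_right_cancel h3)).symm
    refine ⟨c / (a * a), ?_⟩
    rw [hh, ha, transv_scale]
    congr 1
    field_simp

theorem spT_gen {F : Type*} [Field F] (m : ℕ) : iSup (spT (F := F) m) = ⊤ := by
  rw [eq_top_iff, ← Cfsg.Agent.S0765.result m, Subgroup.closure_le]
  rintro A ⟨w, c, hA⟩
  show A ∈ iSup (spT (F := F) m)
  by_cases hw : w = 0
  · have hA1 : A = 1 := Subtype.ext (by
      rw [hA, hw]
      simp [Cfsg.sympTransvection])
    rw [hA1]
    exact Subgroup.one_mem _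
  · apply Subgroup.mem_iSup_of_mem (Projectivization.mk F w hw)
    obtain ⟨a, ha⟩ := (Projectivization.mk_eq_mk_iff' F _ _ _ _).1
      (Projectivization.mk_rep (Projectivization.mk F w hw))
    have ha0 : a ≠ 0 := by
      rintro rfl
      rw [zero_smul] at ha
      exact (Projectivization.mk F w hw).rep_nonzero ha.symm
    refine ⟨c / (a * a), ?_⟩
    rw [hA, ← ha, transv_scale]
    congr 1
    field_simp

/-- The Iwasawa structure of `Sp` acting on points. -/
noncomputable def spIwasawa {F : Type*} [Field F] (m : ℕ) :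
    MulAction.IwasawaStructure (Matrix.symplecticGroup (Fin m) F)
      (Projectivization F (Fin m ⊕ Fin m → F)) where
  T := spT m
  is_comm := fun p => isMulCommutative_iff.2 (by
    rintro ⟨a, c, hc⟩ ⟨b, d, hd⟩
    apply Subtype.ext
    apply Subtype.ext
    show (a : Matrix (Fin m ⊕ Fin m) (Fin m ⊕ Fin m) F)
        * (b : Matrix (Fin m ⊕ Fin m) (Fin m ⊕ Fin m) F)
      = (b : Matrix (Fin m ⊕ Fin m) (Fin m ⊕ Fin m) F)
        * (a : Matrix (Fin m ⊕ Fin m) (Fin m ⊕ Fin m) F)
    rw [hc, hd, Cfsg.Agent.Helper6.sympTransvection_mul,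
      Cfsg.Agent.Helper6.sympTransvection_mul, add_comm])
  is_conj := spT_conj m
  is_generator := spT_gen m

/-- A normal subgroup of a perfect `Sp_{2m}(F)` is central or everything. -/
theorem sp_normal {F : Type*} [Field F] [Finite F] (m : ℕ) (hm : 1 ≤ m)
    (hperf : commutator (Matrix.symplecticGroup (Fin m) F) = ⊤)
    (N : Subgroup (Matrix.symplecticGroup (Fin m) F)) [N.Normal] :
    N ≤ Subgroup.center (Matrix.symplecticGroup (Fin m) F) ∨ N = ⊤ := by
  have := sp_preprimitive (F := F) m hm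
  by_cases hfix : MulAction.fixedPoints N (Projectivization F (Fin m ⊕ Fin m → F)) = Set.univ
  · left
    intro n hn
    have h1 : ∀ p : Projectivization F (Fin m ⊕ Fin m → F), n • p = p := fun p =>
      (Set.eq_univ_iff_forall.1 hfix p) ⟨n, hn⟩
    obtain ⟨a, ha⟩ := Cfsg.Agent.Helper5.scalar_of_eigen
      (n : Matrix (Fin m ⊕ Fin m) (Fin m ⊕ Fin m) F) (fun v => by
        by_cases hv : v = 0
        · exact ⟨0, by rw [hv, Matrix.mulVec_zero, smul_zero]⟩
        · obtain ⟨hgv, h2⟩ := spAct_mk m n v hv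
          rw [h1] at h2
          obtain ⟨b, hb⟩ := (Projectivization.mk_eq_mk_iff' F _ _ _ _).1 h2.symm
          exact ⟨b, hb.symm⟩)
    rw [Subgroup.mem_center_iff]
    intro g
    apply Subtype.ext
    show (g : Matrix (Fin m ⊕ Fin m) (Fin m ⊕ Fin m) F)
        * (n : Matrix (Fin m ⊕ Fin m) (Fin m ⊕ Fin m) F)
      = (n : Matrix (Fin m ⊕ Fin m) (Fin m ⊕ Fin m) F)
        * (g : Matrix (Fin m ⊕ Fin m) (Fin m ⊕ Fin m) F)
    rw [ha, Matrix.mul_smul, Matrix.smul_mul, Matrix.mul_one, Matrix.one_mul]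
  · right
    have h1 := (spIwasawa (F := F) m).commutator_le N hfix
    rw [hperf] at h1
    exact top_le_iff.1 h1

/-- PSp_{2m}(q) is simple for m at least 2 and (m, q) other than (2, 2). -/
theorem result {F : Type*} [Field F] [Fintype F] (m : ℕ) (hm : 2 ≤ m) (h : m = 2 → 3 ≤ Fintype.card F) : IsSimpleGroup (Cfsg.PSp m F) := by
  classical
  have hm1 : 1 ≤ m := by omega
  have hperf : commutator (Matrix.symplecticGroup (Fin m) F) = ⊤ := by
    apply Cfsg.Agent.S0269.result m
    by_cases h2 : m = 2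
    · exact Or.inr (Or.inl ⟨h2, h h2⟩)
    · exact Or.inl (by omega)
  have hnt : Nontrivial (Cfsg.PSp m F) := by
    by_contra hcon
    rw [not_nontrivial_iff_subsingleton] at hcon
    have hZ := QuotientGroup.subgroup_eq_top_of_subsingleton _ hcon
    have hb := (commutator_eq_bot_iff_center_eq_top (Matrix.symplecticGroup (Fin m) F)).2 hZ
    rw [hperf] at hb
    have ht : (⟨Cfsg.sympTransvection m (Pi.single (Sum.inl ⟨0, hm1⟩) 1) 1,
        Cfsg.Agent.Helper6.sympTransvection_mem m _ 1⟩ : Matrix.symplecticGroup (Fin m) F)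
        ∈ (⊤ : Subgroup (Matrix.symplecticGroup (Fin m) F)) := Subgroup.mem_top _
    rw [hb, Subgroup.mem_bot] at ht
    have h3 : Cfsg.sympTransvection m (Pi.single (Sum.inl ⟨0, hm1⟩) 1) 1
        = (1 : Matrix (Fin m ⊕ Fin m) (Fin m ⊕ Fin m) F) := congrArg Subtype.val ht
    rw [Cfsg.Agent.S0269.transv_e0] at h3
    have h4 := congrFun (congrFun h3 (Sum.inl ⟨0, hm1⟩)) (Sum.inr ⟨0, hm1⟩)
    rw [Matrix.fromBlocks_apply₁₂, Matrix.single_apply_same,
      Matrix.one_apply_ne Sum.inl_ne_inr] at h4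
    exact one_ne_zero h4
  apply IsSimpleGroup.mk
  intro H hH
  have hN : (H.comap (QuotientGroup.mk'
      (Subgroup.center (Matrix.symplecticGroup (Fin m) F)))).Normal := hH.comap _
  rcases sp_normal m hm1 hperf (H.comap (QuotientGroup.mk'
      (Subgroup.center (Matrix.symplecticGroup (Fin m) F)))) with h1 | h1
  · left
    rw [eq_bot_iff]
    intro x hx
    obtain ⟨g, rfl⟩ := QuotientGroup.mk_surjective x
    have hg : g ∈ H.comap (QuotientGroup.mk'
      (Subgroup.center (Matrix.symplecticGroup (Fin m) F))) := hx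
    rw [Subgroup.mem_bot]
    exact (QuotientGroup.eq_one_iff g).2 (h1 hg)
  · right
    rw [eq_top_iff]
    intro x _
    obtain ⟨g, rfl⟩ := QuotientGroup.mk_surjective x
    have hg : g ∈ H.comap (QuotientGroup.mk'
        (Subgroup.center (Matrix.symplecticGroup (Fin m) F))) := by
      rw [h1]
      exact Subgroup.mem_top g
    exact hg

end Cfsg.Agent.S0270
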