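import Mathlib
import Cfsg.Statements.S0275
import Cfsg.Agent.S0274
import Cfsg.Agent.Helper1.QuatSL

set_option autoImplicit false
open Cfsg

namespace Cfsg.Agent.S0275

/-- If p is odd and H is a subgroup of SL_2(q), q a power of p, with more than one Sylow p-subgroup, then the Sylow 2-subgroups of H are generalised quaternion. -/
theorem result {F : Type*} [Field F] [Fintype F] (p : ℕ) [Fact p.Prime] [CharP F p] (hp : p ≠ 2) (H : Subgroup (Matrix.SpecialLinearGroup (Fin 2) F)) (hH : 1 < Nat.card (Sylow p H)) (S : Sylow 2 H) : ∃ k : ℕ, 1 ≤ k ∧ Nonempty ((S : Subgroup H) ≃* QuaternionGroup (2 ^ k)) := by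
  classical
  have hpp : p.Prime := Fact.out
  have hpodd : Odd p := hpp.odd_of_ne_two hp
  have h2 : (2 : F) ≠ 0 := by
    intro h
    have h' : ((2 : ℕ) : F) = 0 := by exact_mod_cast h
    have hd := (CharP.cast_eq_zero_iff F p 2).mp h'
    exact hp ((Nat.prime_dvd_prime_iff_eq hpp Nat.prime_two).mp hd)
  obtain ⟨K, hKH, ⟨e⟩⟩ := Cfsg.Agent.S0274.result p hp H hH
  have hZodd : Odd (Fintype.card (ZMod p)) := by
    rw [ZMod.card]
    exact hpodd
  obtain ⟨i0, j0, hi4, hi2, hj2, hji⟩ := Cfsg.Agent.Helper1.sl2_quat_pair (F := ZMod p) hZodd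
  obtain ⟨ψ, hψ⟩ : ∃ ψ : Matrix.SpecialLinearGroup (Fin 2) (ZMod p) →* H,
      ψ = (Subgroup.inclusion hKH).comp e.symm.toMonoidHom := ⟨_, rfl⟩
  have hψinj : Function.Injective ψ := by
    rw [hψ]
    exact (Subgroup.inclusion_injective hKH).comp e.symm.injective
  obtain ⟨i, hi⟩ : ∃ i : H, i = ψ i0 := ⟨_, rfl⟩
  obtain ⟨j, hj⟩ : ∃ j : H, j = ψ j0 := ⟨_, rfl⟩
  have hi4' : i ^ 4 = 1 := by rw [hi, ← map_pow, hi4, map_one]
  have hi2' : i ^ 2 ≠ 1 := by
    rw [hi, ← map_pow]
    intro h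
    apply hi2
    apply hψinj
    rw [h, map_one]
  have hj2' : j ^ 2 = i ^ 2 := by rw [hi, hj, ← map_pow, ← map_pow, hj2]
  have hji' : j * i * j⁻¹ = i⁻¹ := by
    rw [hi, hj, ← map_inv, ← map_mul, ← map_mul, hji, map_inv]
  obtain ⟨Fh, hFa, hFxa⟩ := Cfsg.Agent.Helper1.quat_hom 2 i j
    (by rw [show 2 * 2 = 4 by norm_num]; exact hi4') hji' hj2'
  have hQ : IsPGroup 2 (QuaternionGroup 2) := IsPGroup.of_card (n := 3) (by
    rw [Nat.card_eq_fintype_card, QuaternionGroup.card]
    norm_num)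
  have hR : IsPGroup 2 Fh.range := hQ.of_surjective Fh.rangeRestrict Fh.rangeRestrict_surjective
  obtain ⟨P', hP'⟩ := hR.exists_le_sylow
  have hiP : i ∈ (P' : Subgroup H) := by
    apply hP'
    refine ⟨QuaternionGroup.a 1, ?_⟩
    rw [hFa]
    have h1 : ((1 : ZMod (2 * 2))).val = 1 := rfl
    rw [h1, pow_one]
  have hjP : j ∈ (P' : Subgroup H) := by
    apply hP'
    refine ⟨QuaternionGroup.xa 0, ?_⟩
    rw [hFxa, ZMod.val_zero, pow_zero, mul_one]
  have hncomm : i * j ≠ j * i := by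
    intro h
    apply hi2'
    have h1 : j * i * j⁻¹ = i := by
      rw [← h]
      group
    rw [hji'] at h1
    rw [pow_two]
    calc i * i = i⁻¹ * i := by rw [h1]
      _ = 1 := inv_mul_cancel i
  have hinvH : ∀ g h : H, g ^ 2 = 1 → g ≠ 1 → h ^ 2 = 1 → h ≠ 1 → g = h := by
    intro g h hg hg1 hh hh1
    apply Subtype.ext
    apply Cfsg.Agent.Helper1.sl2_invol_eq h2
    · have := congrArg Subtype.val hg
      simpa using this
    · intro hc
      apply hg1
      apply Subtype.ext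
      simpa using hc
    · have := congrArg Subtype.val hh
      simpa using this
    · intro hc
      apply hh1
      apply Subtype.ext
      simpa using hc
  have huniq := Cfsg.Agent.Helper1.unique_sub 2 (Cfsg.Agent.Helper1.unique_two_of_invol hinvH)
    (P' : Subgroup H)
  haveI : Finite (P' : Subgroup H) := inferInstance
  rcases Cfsg.Agent.Helper1.pgroup_unique_cyclic_or_quat 2 P'.isPGroup' huniq with hc | ⟨-, n, ⟨e'⟩⟩
  · exfalso
    haveI := hc
    have h1 := (IsCyclic.commGroup (α := ↥(P' : Subgroup H))).mul_comm ⟨i, hiP⟩ ⟨j, hjP⟩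
    exact hncomm (congrArg Subtype.val h1)
  · rcases Nat.eq_zero_or_pos n with hn | hn
    · exfalso
      subst hn
      haveI : IsCyclic (QuaternionGroup (2 ^ 0)) := QuaternionGroup.quaternionGroup_one_isCyclic
      haveI : IsCyclic ↥(P' : Subgroup H) :=
        isCyclic_of_surjective e'.symm e'.symm.surjective
      have h1 := (IsCyclic.commGroup (α := ↥(P' : Subgroup H))).mul_comm ⟨i, hiP⟩ ⟨j, hjP⟩
      exact hncomm (congrArg Subtype.val h1)
    · exact ⟨n, hn, ⟨(Sylow.equiv S P').trans e'⟩⟩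

end Cfsg.Agent.S0275
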