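import Cfsg.Statements.S0276
-- import your own Cfsg.Agent.* helpers here
import Cfsg.Agent.Helper13.PSL2Sylow

set_option autoImplicit false
open Cfsg

namespace Cfsg.Agent.S0276

/-- For q = 3 or 5 mod 8 the Sylow 2-subgroups of PSL_2(q) are elementary abelian of order 4. -/
theorem result {F : Type*} [Field F] [Fintype F] {q : ℕ} (hF : Fintype.card F = q) (hq : q % 8 = 3 ∨ q % 8 = 5) (P : Sylow 2 (Matrix.ProjectiveSpecialLinearGroup (Fin 2) F)) : IsKleinFour (P : Subgroup (Matrix.ProjectiveSpecialLinearGroup (Fin 2) F)) := by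
  classical
  have h2 : ¬ IsSquare (2 : F) := by
    rw [FiniteField.isSquare_two_iff, hF]
    omega
  obtain ⟨k, hk, hcard⟩ := Helper13.card_PSL2_four_mul_odd (F := F) (by rw [hF]; exact hq)
  have hP := Helper13.sylow_two_card_four k hk hcard P
  exact Helper13.isKleinFour_of_card_four_of_sq _ hP
    (fun x hx => Helper13.psl_sq_eq_one_of_pow_four h2 x hx)

end Cfsg.Agent.S0276
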