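import Cfsg.Statements.S0292
-- import your own Cfsg.Agent.* helpers here
import Mathlib
import Cfsg.Agent.Helper5.OmegaCharK
import Cfsg.Agent.Helper5.OddCenter
import Cfsg.Agent.S0286

set_option autoImplicit false
open Cfsg

namespace Cfsg.Agent.S0292

/-- 2 |PΩ_{2m+1}(q)| = q^(m^2) prod_{i=1}^{m} (q^(2i) - 1), for q odd and m at least 3 (type B_m). -/
theorem result {F : Type*} [Field F] [Fintype F] {q : ℕ} (hF : Fintype.card F = q) (hodd : Odd q) (m : ℕ) (hm : 3 ≤ m) : 2 * Nat.card (Cfsg.POmega F (Cfsg.quadFormOdd m F)) = q ^ (m ^ 2) * ∏ i ∈ Finset.range m, (q ^ (2 * (i + 1)) - 1) := by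
  subst hF
  have h2 : (2 : F) ≠ 0 := Cfsg.Agent.Helper5.two_ne_zero_of_odd hodd
  obtain ⟨𝒬, h𝒬, hnd⟩ := Cfsg.Agent.S0286.odd_model F h2 m
  have hQeq : Cfsg.quadFormOdd m F = ⇑𝒬 := funext (fun v => (h𝒬 v).symm)
  have hO := Cfsg.Agent.S0286.result (F := F) rfl hodd m
  rw [hQeq] at hO ⊢
  obtain ⟨Ψ, hΨs, hΨk⟩ := Cfsg.Agent.Helper5.omega_charK h2
    (Sum.inl () : Unit ⊕ (Fin m ⊕ Fin m)) (Sum.inr (Sum.inl ⟨0, by omega⟩)) (by simp) 𝒬 hnd
  have hidx : (commutator ↥(Cfsg.isometryGroup F ⇑𝒬)).index = 4 := by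
    rw [← hΨk, Subgroup.index_ker, MonoidHom.range_eq_top.2 hΨs, Subgroup.card_top,
      Nat.card_prod, Nat.card_eq_fintype_card, Fintype.card_units_int]
  have hcen : Nat.card ↥(Subgroup.center (commutator ↥(Cfsg.isometryGroup F ⇑𝒬))) = 1 := by
    have hbot : Subgroup.center (commutator ↥(Cfsg.isometryGroup F ⇑𝒬)) = ⊥ := by
      rw [Subgroup.eq_bot_iff_forall]
      intro z hz
      exact Cfsg.Agent.Helper5.odd_center_trivial h2 (by omega) 𝒬 h𝒬 hnd z hz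
    rw [hbot]
    exact Subgroup.card_bot
  have h1 := Subgroup.card_mul_index (commutator ↥(Cfsg.isometryGroup F ⇑𝒬))
  have h3 := Subgroup.card_eq_card_quotient_mul_card_subgroup
    (Subgroup.center (commutator ↥(Cfsg.isometryGroup F ⇑𝒬)))
  rw [hcen, mul_one] at h3
  rw [hidx, hO, mul_assoc] at h1
  change 2 * Nat.card (↥(commutator ↥(Cfsg.isometryGroup F ⇑𝒬)) ⧸
    Subgroup.center (commutator ↥(Cfsg.isometryGroup F ⇑𝒬))) = _
  rw [← h3]
  generalize Fintype.card F ^ m ^ 2 * ∏ i ∈ Finset.range m, (Fintype.card F ^ (2 * (i + 1)) - 1) = W at h1 ⊢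
  omega

end Cfsg.Agent.S0292
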