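import Cfsg.Statements.S0293
-- import your own Cfsg.Agent.* helpers here
import Mathlib
import Cfsg.Agent.Helper5.EvenCenter
import Cfsg.Agent.Helper5.PlusDiag
import Cfsg.Agent.S0287
import Cfsg.Agent.S0790

set_option autoImplicit false
open Cfsg

namespace Cfsg.Agent.S0293

/-- gcd(4, q^m - 1) |PΩ^+_{2m}(q)| = q^(m(m-1)) (q^m - 1) prod_{i=1}^{m-1} (q^(2i) - 1), m at least 4 (type D_m). -/
theorem result {F : Type*} [Field F] [Fintype F] {q : ℕ} (hF : Fintype.card F = q) (m : ℕ) (hm : 4 ≤ m) : Nat.gcd 4 (q ^ m - 1) * Nat.card (Cfsg.POmega F (Cfsg.quadFormPlus m F)) = q ^ (m * (m - 1)) * (q ^ m - 1) * ∏ i ∈ Finset.range (m - 1), (q ^ (2 * (i + 1)) - 1) := by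
  subst hF
  have hO := Cfsg.Agent.S0287.result (F := F) rfl m (by omega)
  obtain ⟨𝒬, h𝒬, hnd⟩ := Cfsg.Agent.S0287.plus_model F m
  have hQeq : Cfsg.quadFormPlus m F = ⇑𝒬 := funext (fun v => (h𝒬 v).symm)
  have hneg : Odd (Fintype.card F) → ((∃ g : ↥(Cfsg.isometryGroup F ⇑𝒬),
      g ∈ commutator ↥(Cfsg.isometryGroup F ⇑𝒬) ∧
      ((g : Matrix.GeneralLinearGroup (Fin m ⊕ Fin m) F) :
        Matrix (Fin m ⊕ Fin m) (Fin m ⊕ Fin m) F) = -1) ↔ Fintype.card F ^ m % 4 = 1) := by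
    intro hodd
    have h5 := Cfsg.Agent.S0790.result (F := F) rfl hodd m (by omega)
    rw [hQeq] at h5
    exact h5
  rw [hQeq] at hO ⊢
  have h' : Fintype.card F ≠ 2 ∨ Fintype.card (Fin m ⊕ Fin m) ≠ 4 :=
    Or.inr (by rw [Fintype.card_sum, Fintype.card_fin]; omega)
  have hH : ∀ i j : Fin m, i ≠ j → Cfsg.Agent.Helper5.HypPairs 𝒬 (Pi.single (Sum.inl i) 1)
      (Pi.single (Sum.inr i) 1) (Pi.single (Sum.inl j) 1) (Pi.single (Sum.inr j) 1) := by
    intro i j hij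
    obtain ⟨qa, qb, pa, pb⟩ := Cfsg.Agent.Helper5.plus_pair 𝒬 h𝒬 i
    obtain ⟨qc, qd, pc, pd⟩ := Cfsg.Agent.Helper5.plus_pair 𝒬 h𝒬 j
    exact Cfsg.Agent.Helper5.hyp_of_single 𝒬 _ _ _ _ (by simp [hij]) (by simp) (by simp)
      (by simp [hij]) qa qb qc qd pa pb pc
  have hsc := Cfsg.Agent.Helper5.center_scalar 𝒬 hnd h' (Sum.inl : Fin m → Fin m ⊕ Fin m)
    Sum.inr hH ⟨0, by omega⟩ ⟨1, by omega⟩ (by simp [Fin.ext_iff]) (fun k => Or.inl (by
      rcases k with i | i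
      · exact ⟨i, Or.inl rfl⟩
      · exact ⟨i, Or.inr rfl⟩))
  have hcc := Cfsg.Agent.Helper5.center_card_of_scalar ⇑𝒬
    (Sum.inl ⟨0, by omega⟩ : Fin m ⊕ Fin m) hsc
  have h1 := Subgroup.card_mul_index (commutator ↥(Cfsg.isometryGroup F ⇑𝒬))
  have h3 := Subgroup.card_eq_card_quotient_mul_card_subgroup
    (Subgroup.center (commutator ↥(Cfsg.isometryGroup F ⇑𝒬)))
  change Nat.gcd 4 (Fintype.card F ^ m - 1) * Nat.card (↥(commutator ↥(Cfsg.isometryGroup F ⇑𝒬)) ⧸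
    Subgroup.center (commutator ↥(Cfsg.isometryGroup F ⇑𝒬))) = _
  have hO' : Nat.card ↥(Cfsg.isometryGroup F ⇑𝒬) = 2 * (Fintype.card F ^ (m * (m - 1))
      * (Fintype.card F ^ m - 1)
      * ∏ i ∈ Finset.range (m - 1), (Fintype.card F ^ (2 * (i + 1)) - 1)) := by
    rw [hO]
    ring
  have hqpos : 0 < Fintype.card F ^ m := Nat.pow_pos Fintype.card_pos
  by_cases h2 : (2 : F) = 0
  · have hidx := Cfsg.Agent.Helper5.omega2_index h2 𝒬 hnd h'
      (Sum.inl ⟨0, by omega⟩ : Fin m ⊕ Fin m)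
    have hZ := hcc.1 (Or.inl h2)
    have hqe : Fintype.card F % 2 = 0 := FiniteField.even_card_of_char_two
      (CharP.ringChar_of_prime_eq_zero Nat.prime_two (by exact_mod_cast h2))
    have hpe : Even (Fintype.card F ^ m) := Nat.even_pow.2 ⟨Nat.even_iff.2 hqe, by omega⟩
    have hgcd : Nat.gcd 4 (Fintype.card F ^ m - 1) = 1 := by
      have e := Nat.gcd_rec 4 (Fintype.card F ^ m - 1)
      obtain ⟨t, ht⟩ := hpe
      have h5 : (Fintype.card F ^ m - 1) % 4 = 1 ∨ (Fintype.card F ^ m - 1) % 4 = 3 := by omega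
      rcases h5 with h5 | h5
      · rw [h5] at e
        exact e.trans (by norm_num)
      · rw [h5] at e
        exact e.trans (by norm_num)
    rw [hidx, hO'] at h1
    rw [hZ, mul_one] at h3
    rw [hgcd, one_mul, ← h3]
    generalize Fintype.card F ^ (m * (m - 1)) * (Fintype.card F ^ m - 1)
      * ∏ i ∈ Finset.range (m - 1), (Fintype.card F ^ (2 * (i + 1)) - 1) = W at h1 ⊢
    omega
  · have hodd : Odd (Fintype.card F) := by
      rw [Nat.odd_iff]
      by_contra hne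
      have hqe : Fintype.card F % 2 = 0 := by omega
      have hr := FiniteField.even_card_iff_char_two.2 hqe
      apply h2
      have h3' := CharP.cast_eq_zero F (ringChar F)
      rw [hr] at h3'
      exact_mod_cast h3'
    obtain ⟨Ψ, hΨs, hΨk⟩ := Cfsg.Agent.Helper5.omega_charK h2
      (Sum.inl ⟨0, by omega⟩ : Fin m ⊕ Fin m) (Sum.inr ⟨0, by omega⟩) (by simp) 𝒬 hnd
    have hidx : (commutator ↥(Cfsg.isometryGroup F ⇑𝒬)).index = 4 := by
      rw [← hΨk, Subgroup.index_ker, MonoidHom.range_eq_top.2 hΨs, Subgroup.card_top,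
        Nat.card_prod, Nat.card_eq_fintype_card, Fintype.card_units_int]
    have hpo : Odd (Fintype.card F ^ m) := hodd.pow
    rw [hidx, hO'] at h1
    have hq4 : Fintype.card F ^ m % 4 = 1 ∨ Fintype.card F ^ m % 4 = 3 := by
      obtain ⟨t, ht⟩ := hpo
      omega
    rcases hq4 with hq4 | hq4
    · have hZ := hcc.2 h2 ((hneg hodd).2 hq4)
      have hgcd : Nat.gcd 4 (Fintype.card F ^ m - 1) = 4 :=
        Nat.gcd_eq_left (Nat.dvd_of_mod_eq_zero (by omega))
      rw [hZ] at h3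
      rw [hgcd]
      generalize Fintype.card F ^ (m * (m - 1)) * (Fintype.card F ^ m - 1)
        * ∏ i ∈ Finset.range (m - 1), (Fintype.card F ^ (2 * (i + 1)) - 1) = W at h1 ⊢
      omega
    · have hZ := hcc.1 (Or.inr (fun hex => by
        have h5 := (hneg hodd).1 hex
        omega))
      have hgcd : Nat.gcd 4 (Fintype.card F ^ m - 1) = 2 := by
        have e := Nat.gcd_rec 4 (Fintype.card F ^ m - 1)
        have h5 : (Fintype.card F ^ m - 1) % 4 = 2 := by omega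
        rw [h5] at e
        exact e.trans (by norm_num)
      rw [hZ, mul_one] at h3
      rw [hgcd, ← h3]
      generalize Fintype.card F ^ (m * (m - 1)) * (Fintype.card F ^ m - 1)
        * ∏ i ∈ Finset.range (m - 1), (Fintype.card F ^ (2 * (i + 1)) - 1) = W at h1 ⊢
      omega

end Cfsg.Agent.S0293
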