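import Cfsg.Statements.S0295
-- import your own Cfsg.Agent.* helpers here
import Mathlib
import Cfsg.Agent.Helper5.OmegaSimple
import Cfsg.Agent.S0286

set_option autoImplicit false
open Cfsg

namespace Cfsg.Agent.S0295

/-- PΩ_{2m+1}(q) is simple for q odd and m at least 3. -/
theorem result {F : Type*} [Field F] [Fintype F] (hodd : Odd (Fintype.card F)) (m : ℕ) (hm : 3 ≤ m) : IsSimpleGroup (Cfsg.POmega F (Cfsg.quadFormOdd m F)) := by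
  have h2 : (2 : F) ≠ 0 := Cfsg.Agent.Helper5.two_ne_zero_of_odd hodd
  obtain ⟨𝒬, h𝒬, hnd⟩ := Cfsg.Agent.S0286.odd_model F h2 m
  have hQeq : Cfsg.quadFormOdd m F = ⇑𝒬 := funext (fun v => (h𝒬 v).symm)
  rw [hQeq]
  have h' : Fintype.card F ≠ 2 ∨ Fintype.card (Unit ⊕ (Fin m ⊕ Fin m)) ≠ 4 :=
    Or.inr (by rw [Fintype.card_sum, Fintype.card_sum, Fintype.card_fin, Fintype.card_unit]; omega)
  exact Cfsg.Agent.Helper5.pomega_simple 𝒬 hnd h'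
    (Sum.inl () : Unit ⊕ (Fin m ⊕ Fin m)) (Sum.inr (Sum.inl ⟨0, by omega⟩)) (by simp)
    _ _ _ _ _ _
    (Cfsg.Agent.Helper5.odd_hyp 𝒬 h𝒬 ⟨0, by omega⟩ ⟨1, by omega⟩ (by simp [Fin.ext_iff]))
    (Cfsg.Agent.Helper5.odd_hyp 𝒬 h𝒬 ⟨0, by omega⟩ ⟨2, by omega⟩ (by simp [Fin.ext_iff]))
    (Cfsg.Agent.Helper5.odd_hyp 𝒬 h𝒬 ⟨1, by omega⟩ ⟨2, by omega⟩ (by simp [Fin.ext_iff]))

end Cfsg.Agent.S0295
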