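import Cfsg.Statements.S0296
-- import your own Cfsg.Agent.* helpers here
import Mathlib
import Cfsg.Agent.Helper5.OmegaSimple
import Cfsg.Agent.Helper5.PlusDiag
import Cfsg.Agent.S0287

set_option autoImplicit false
open Cfsg

namespace Cfsg.Agent.S0296

/-- PΩ^+_{2m}(q) is simple for m at least 4. -/
theorem result {F : Type*} [Field F] [Fintype F] (m : ℕ) (hm : 4 ≤ m) : IsSimpleGroup (Cfsg.POmega F (Cfsg.quadFormPlus m F)) := by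
  obtain ⟨𝒬, h𝒬, hnd⟩ := Cfsg.Agent.S0287.plus_model F m
  have hQeq : Cfsg.quadFormPlus m F = ⇑𝒬 := funext (fun v => (h𝒬 v).symm)
  rw [hQeq]
  have h' : Fintype.card F ≠ 2 ∨ Fintype.card (Fin m ⊕ Fin m) ≠ 4 :=
    Or.inr (by rw [Fintype.card_sum, Fintype.card_fin]; omega)
  have hH : ∀ i j : Fin m, i ≠ j → Cfsg.Agent.Helper5.HypPairs 𝒬 (Pi.single (Sum.inl i) 1)
      (Pi.single (Sum.inr i) 1) (Pi.single (Sum.inl j) 1) (Pi.single (Sum.inr j) 1) := by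
    intro i j hij
    obtain ⟨qa, qb, pa, pb⟩ := Cfsg.Agent.Helper5.plus_pair 𝒬 h𝒬 i
    obtain ⟨qc, qd, pc, pd⟩ := Cfsg.Agent.Helper5.plus_pair 𝒬 h𝒬 j
    exact Cfsg.Agent.Helper5.hyp_of_single 𝒬 _ _ _ _ (by simp [hij]) (by simp) (by simp)
      (by simp [hij]) qa qb qc qd pa pb pc
  exact Cfsg.Agent.Helper5.pomega_simple 𝒬 hnd h'
    (Sum.inl ⟨0, by omega⟩ : Fin m ⊕ Fin m) (Sum.inr ⟨0, by omega⟩) (by simp)
    _ _ _ _ _ _
    (hH ⟨0, by omega⟩ ⟨1, by omega⟩ (by simp [Fin.ext_iff]))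
    (hH ⟨0, by omega⟩ ⟨2, by omega⟩ (by simp [Fin.ext_iff]))
    (hH ⟨1, by omega⟩ ⟨2, by omega⟩ (by simp [Fin.ext_iff]))

end Cfsg.Agent.S0296
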