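import Cfsg.Statements.S0297
-- import your own Cfsg.Agent.* helpers here
import Mathlib
import Cfsg.Agent.Helper5.OmegaSimple
import Cfsg.Agent.Helper5.MinusPair
import Cfsg.Agent.S0288

set_option autoImplicit false
open Cfsg

namespace Cfsg.Agent.S0297

/-- PΩ^-_{2m}(q) is simple for m at least 4 (the form is quadFormMinus (m-1) with anisotropic binary part). -/
theorem result {F : Type*} [Field F] [Fintype F] (m : ℕ) (hm : 4 ≤ m) (a b : F) (hab : ∀ z₁ z₂ : F, z₁ ^ 2 + a * z₁ * z₂ + b * z₂ ^ 2 = 0 → z₁ = 0 ∧ z₂ = 0) : IsSimpleGroup (Cfsg.POmega F (Cfsg.quadFormMinus (m - 1) F a b)) := by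
  obtain ⟨𝒬, h𝒬, hnd⟩ := Cfsg.Agent.S0288.minus_model F a b hab (m - 1)
  have hQeq : Cfsg.quadFormMinus (m - 1) F a b = ⇑𝒬 := funext (fun v => (h𝒬 v).symm)
  rw [hQeq]
  have h' : Fintype.card F ≠ 2 ∨ Fintype.card ((Fin (m - 1) ⊕ Fin (m - 1)) ⊕ Fin 2) ≠ 4 :=
    Or.inr (by rw [Fintype.card_sum, Fintype.card_sum, Fintype.card_fin, Fintype.card_fin]; omega)
  have hH : ∀ i j : Fin (m - 1), i ≠ j → Cfsg.Agent.Helper5.HypPairs 𝒬
      (Pi.single (Sum.inl (Sum.inl i)) 1) (Pi.single (Sum.inl (Sum.inr i)) 1)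
      (Pi.single (Sum.inl (Sum.inl j)) 1) (Pi.single (Sum.inl (Sum.inr j)) 1) := by
    intro i j hij
    obtain ⟨qa, qb, pa, pb⟩ := Cfsg.Agent.Helper5.minus_pair a b 𝒬 h𝒬 i
    obtain ⟨qc, qd, pc, pd⟩ := Cfsg.Agent.Helper5.minus_pair a b 𝒬 h𝒬 j
    exact Cfsg.Agent.Helper5.hyp_of_single 𝒬 _ _ _ _ (by simp [hij]) (by simp) (by simp)
      (by simp [hij]) qa qb qc qd pa pb pc
  exact Cfsg.Agent.Helper5.pomega_simple 𝒬 hnd h'
    (Sum.inr 0 : (Fin (m - 1) ⊕ Fin (m - 1)) ⊕ Fin 2) (Sum.inr 1) (by simp)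
    _ _ _ _ _ _
    (hH ⟨0, by omega⟩ ⟨1, by omega⟩ (by simp [Fin.ext_iff]))
    (hH ⟨0, by omega⟩ ⟨2, by omega⟩ (by simp [Fin.ext_iff]))
    (hH ⟨1, by omega⟩ ⟨2, by omega⟩ (by simp [Fin.ext_iff]))

end Cfsg.Agent.S0297
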