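import Cfsg.Statements.S0298
-- import your own Cfsg.Agent.* helpers here
import Mathlib
import Cfsg.Agent.Helper5.AdjSL2

set_option autoImplicit false
open Cfsg

namespace Cfsg.Agent.S0298

/-- PΩ_3(q) is isomorphic to PSL_2(q) for q odd. -/
theorem result {F : Type*} [Field F] [Fintype F] (hodd : Odd (Fintype.card F)) : Nonempty (Cfsg.POmega F (Cfsg.quadFormOdd 1 F) ≃* Matrix.ProjectiveSpecialLinearGroup (Fin 2) F) := by
  have h2 : (2 : F) ≠ 0 := Cfsg.Agent.Helper5.two_ne_zero_of_odd hodd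
  obtain ⟨𝒬, h𝒬, hnd⟩ := Cfsg.Agent.S0286.odd_model F h2 1
  have hQeq : Cfsg.quadFormOdd 1 F = ⇑𝒬 := funext (fun v => (h𝒬 v).symm)
  rw [hQeq]
  exact Cfsg.Agent.Helper5.pomega3_iso hodd 𝒬 h𝒬 hnd

end Cfsg.Agent.S0298
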