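import Cfsg.Statements.S0302
-- import your own Cfsg.Agent.* helpers here
import Mathlib
import Cfsg.Agent.Helper5.KleinSL4

set_option autoImplicit false
open Cfsg

namespace Cfsg.Agent.S0302

/-- PΩ^+_6(q) is isomorphic to PSL_4(q). -/
theorem result {F : Type*} [Field F] [Fintype F] : Nonempty (Cfsg.POmega F (Cfsg.quadFormPlus 3 F) ≃* Matrix.ProjectiveSpecialLinearGroup (Fin 4) F) := by
  obtain ⟨𝒬, h𝒬, hnd⟩ := Cfsg.Agent.S0287.plus_model F 3
  have hQeq : Cfsg.quadFormPlus 3 F = ⇑𝒬 := funext (fun v => (h𝒬 v).symm)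
  rw [hQeq]
  exact Cfsg.Agent.Helper5.pomega6_iso 𝒬 h𝒬 hnd

end Cfsg.Agent.S0302
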