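import Cfsg.Statements.S0305
-- import your own Cfsg.Agent.* helpers here
import Mathlib
import Cfsg.Agent.Helper5.OrthPlusDih
import Cfsg.Agent.S0287

set_option autoImplicit false
open Cfsg

namespace Cfsg.Agent.S0305

/-- GO^+_2(q) is dihedral of order 2(q-1). -/
theorem result {F : Type*} [Field F] [Fintype F] {q : ℕ} (hF : Fintype.card F = q) : Nonempty (Cfsg.isometryGroup F (Cfsg.quadFormPlus 1 F) ≃* DihedralGroup (q - 1)) := by
  subst hF
  obtain ⟨e1⟩ := Cfsg.Agent.Helper5.iso_reindex_mulEquiv Cfsg.Agent.Helper5.plusE1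
    (Cfsg.Agent.Helper5.hypForm2 (F := F)) (Cfsg.quadFormPlus 1 F)
    Cfsg.Agent.Helper5.plus_one_eq
  have hc1 : Nat.card (Cfsg.isometryGroup F (Cfsg.quadFormPlus 1 F))
      = 2 * (Fintype.card F - 1) := by
    rw [Cfsg.Agent.S0287.result rfl 1 le_rfl]
    simp
  have hc2 : Nat.card (Cfsg.isometryGroup F (Cfsg.Agent.Helper5.hypForm2 (F := F)))
      = 2 * (Fintype.card F - 1) := by
    rw [Nat.card_congr e1.toEquiv, hc1]
  by_cases hq : 3 ≤ Fintype.card F
  · obtain ⟨e2⟩ := Cfsg.Agent.Helper5.dihedral_hypForm2 hq hc2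
    exact ⟨e1.symm.trans e2⟩
  · have hq2 : Fintype.card F = 2 := by
      have h1 := Fintype.one_lt_card (α := F)
      omega
    rw [hq2] at hc1 ⊢
    have hp : Fact (Nat.Prime 2) := ⟨Nat.prime_two⟩
    exact ⟨mulEquivOfPrimeCardEq (p := 2) (by rw [hc1]) (by rw [DihedralGroup.nat_card])⟩

end Cfsg.Agent.S0305
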