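import Cfsg.Statements.S0306
-- import your own Cfsg.Agent.* helpers here
import Mathlib
import Cfsg.Agent.Helper5.OrthMinusDih

set_option autoImplicit false
open Cfsg

namespace Cfsg.Agent.S0306

/-- GO^-_2(q) is dihedral of order 2(q+1). -/
theorem result {F : Type*} [Field F] [Fintype F] {q : ℕ} (hF : Fintype.card F = q) (a b : F) (hab : ∀ z₁ z₂ : F, z₁ ^ 2 + a * z₁ * z₂ + b * z₂ ^ 2 = 0 → z₁ = 0 ∧ z₂ = 0) : Nonempty (Cfsg.isometryGroup F (Cfsg.quadFormMinus 0 F a b) ≃* DihedralGroup (q + 1)) := by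
  subst hF
  obtain ⟨e1⟩ := Cfsg.Agent.Helper5.iso_reindex_mulEquiv Cfsg.Agent.Helper5.minusE0
    (Cfsg.Agent.Helper5.binForm a b) (Cfsg.quadFormMinus 0 F a b)
    (Cfsg.Agent.Helper5.minus_zero_eq a b)
  obtain ⟨e2⟩ := Cfsg.Agent.Helper5.dihedral_binForm a b hab
  exact ⟨e1.symm.trans e2⟩

end Cfsg.Agent.S0306
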