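import Cfsg.Statements.S0310
import Cfsg.Agent.Helper3.BN2

set_option autoImplicit false
open Cfsg

namespace Cfsg.Agent.S0310

/-- For a set `J` of distinguished generators, the subgroup generated by `B` and `J` is exactly the union of
the double cosets `B n B` with `n` in the subgroup generated by `J` (so `B W_J B` is a subgroup). -/
theorem result {G : Type*} [Group G] (P : Cfsg.BNPair G) {J : Set G}
    (hJ : J ⊆ P.S) (g : G) :
    g ∈ P.parabolic J ↔ ∃ n ∈ Subgroup.closure J, g ∈ DoubleCoset.doubleCoset n (P.B : Set G) P.B := by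
  rw [Cfsg.Agent.Helper3.mem_parabolic_iff P hJ g]
  constructor
  · rintro ⟨n, hn, h⟩
    exact ⟨n, hn, (Cfsg.Agent.Helper3.dc_iff P).2 h⟩
  · rintro ⟨n, hn, h⟩
    exact ⟨n, hn, (Cfsg.Agent.Helper3.dc_iff P).1 h⟩

end Cfsg.Agent.S0310
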