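import Cfsg.Statements.S0313
import Cfsg.Agent.Helper3.BN2

set_option autoImplicit false
open Cfsg

namespace Cfsg.Agent.S0313

/-- Two standard parabolic subgroups of a group with a (B,N)-pair which are conjugate in `G` coincide. -/
theorem result {G : Type*} [Group G] (P : Cfsg.BNPair G) {J K : Set G}
    (hJ : J ⊆ P.S) (hK : K ⊆ P.S) (g : G)
    (h : (P.parabolic J).map (MulAut.conj g).toMonoidHom = P.parabolic K) :
    P.parabolic J = P.parabolic K := by
  obtain ⟨n, hn, b, hb, b', hb', hg⟩ := Cfsg.Agent.Helper3.bruhat P g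
  have hBJ := Cfsg.Agent.Helper3.B_le_parabolic P J
  have hBK := Cfsg.Agent.Helper3.B_le_parabolic P K
  have hmap : ∀ x ∈ P.parabolic J, g * x * g⁻¹ ∈ P.parabolic K := by
    intro x hx
    rw [← h]
    exact Subgroup.mem_map.2 ⟨x, hx, rfl⟩
  have hconj : ∀ b0 ∈ P.B, n * b0 * n⁻¹ ∈ P.parabolic K := by
    intro b0 hb0
    have h1 := hmap (b'⁻¹ * b0 * b')
      (hBJ (P.B.mul_mem (P.B.mul_mem (P.B.inv_mem hb') hb0) hb'))
    have h2 := Subgroup.mul_mem _ (Subgroup.mul_mem _ (hBK (P.B.inv_mem hb)) h1) (hBK hb)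
    have e : b⁻¹ * (g * (b'⁻¹ * b0 * b') * g⁻¹) * b = n * b0 * n⁻¹ := by
      rw [hg]; group
    rw [e] at h2; exact h2
  have hnK := Cfsg.Agent.Helper3.mem_of_conj_le P hn hBK hconj
  have hgK : g ∈ P.parabolic K := by
    rw [hg]
    exact Subgroup.mul_mem _ (Subgroup.mul_mem _ (hBK hb) hnK) (hBK hb')
  apply le_antisymm
  · intro x hx
    have h1 := hmap x hx
    have h2 := Subgroup.mul_mem _ (Subgroup.mul_mem _ (Subgroup.inv_mem _ hgK) h1) hgK
    have e : g⁻¹ * (g * x * g⁻¹) * g = x := by group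
    rw [e] at h2; exact h2
  · intro y hy
    have h1 : g * y * g⁻¹ ∈ P.parabolic K :=
      Subgroup.mul_mem _ (Subgroup.mul_mem _ hgK hy) (Subgroup.inv_mem _ hgK)
    rw [← h] at h1
    obtain ⟨x, hx, hxe⟩ := Subgroup.mem_map.1 h1
    have hxe' : g * x * g⁻¹ = g * y * g⁻¹ := hxe
    have : x = y := by
      have h3 := congrArg (fun z => g⁻¹ * z * g) hxe'
      simpa [mul_assoc] using h3
    rw [← this]; exact hx

end Cfsg.Agent.S0313
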