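import Cfsg.Statements.S0321
import Cfsg.Agent.Helper3.BN3

set_option autoImplicit false
open Cfsg

namespace Cfsg.Agent.S0321

/-- For `n ∈ N` not in `B`, the union `B ∪ B n B` is (the underlying set of) a subgroup exactly when `n` agrees
modulo `B ⊓ N` with one of the distinguished representatives; thus the distinguished involutions are
determined by `B` and `N`. -/
theorem result {G : Type*} [Group G] (P : Cfsg.BNPair G) {n : G}
    (hn : n ∈ P.N) (hnB : n ∉ P.B) :
    (∃ H : Subgroup G, (H : Set G) = (P.B : Set G) ∪ DoubleCoset.doubleCoset n (P.B : Set G) P.B) ↔ ∃ s ∈ P.S, s⁻¹ * n ∈ P.B := by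
  constructor
  · rintro ⟨H, hH⟩
    have hBH : P.B ≤ H := by
      intro b hb
      have : b ∈ (H : Set G) := by rw [hH]; left; exact hb
      exact this
    have hnH : n ∈ H := by
      have : n ∈ (H : Set G) := by
        rw [hH]; right; exact DoubleCoset.mem_doubleCoset_self P.B P.B n
      exact this
    have hnP := Cfsg.Agent.Helper3.mem_parabolic_of_mem P hBH hn hnH
    by_cases hJ : ∃ s, s ∈ P.S ∧ s ∈ H
    · obtain ⟨s, hs, hsH⟩ := hJ
      have hsH' : s ∈ (H : Set G) := hsH
      rw [hH] at hsH'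
      rcases hsH' with hsB | hsD
      · exact absurd hsB (Cfsg.Agent.Helper3.S_not_mem_B P hs)
      · have hdc := (Cfsg.Agent.Helper3.dc_iff P).1 hsD
        have hc := Cfsg.Agent.Helper3.unique P hn (P.subset hs) hdc
        exact ⟨s, hs, (Cfsg.Agent.Helper3.cg_symm P hc).1⟩
    · exfalso
      have hJ0 : {s | s ∈ P.S ∧ s ∈ H} = (∅ : Set G) := by
        ext s
        constructor
        · intro hs; exact hJ ⟨s, hs⟩
        · intro hs; exact absurd hs (Set.notMem_empty s)
      rw [hJ0] at hnP
      unfold Cfsg.BNPair.parabolic at hnP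
      rw [Subgroup.closure_empty, sup_bot_eq] at hnP
      exact hnB hnP
  · rintro ⟨s, hs, hsn⟩
    have hc : Cfsg.Agent.Helper3.Cg P s n :=
      ⟨hsn, P.N.mul_mem (P.N.inv_mem (P.subset hs)) hn⟩
    have hJ : ({s} : Set G) ⊆ P.S := by
      intro x hx; rw [Set.mem_singleton_iff] at hx; rw [hx]; exact hs
    refine ⟨P.parabolic {s}, ?_⟩
    ext g
    constructor
    · intro hg
      obtain ⟨m, hm, hdc⟩ := (Cfsg.Agent.Helper3.mem_parabolic_iff P hJ g).1 hg
      rcases Cfsg.Agent.Helper3.closure_singleton_cases P hs hm with hmB | hmc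
      · left
        exact Cfsg.Agent.Helper3.dc_of_mem_B P hmB hdc
      · right
        rw [Cfsg.Agent.Helper3.dc_iff]
        exact Cfsg.Agent.Helper3.dc_trans P
          (Cfsg.Agent.Helper3.dc_symm P (Cfsg.Agent.Helper3.cg_dc P hc))
          (Cfsg.Agent.Helper3.dc_trans P (Cfsg.Agent.Helper3.cg_dc P hmc) hdc)
    · rintro (hg | hg)
      · exact Cfsg.Agent.Helper3.B_le_parabolic P _ hg
      · have hdc := (Cfsg.Agent.Helper3.dc_iff P).1 hg
        exact (Cfsg.Agent.Helper3.mem_parabolic_iff P hJ g).2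
          ⟨s, Subgroup.subset_closure rfl,
            Cfsg.Agent.Helper3.dc_trans P (Cfsg.Agent.Helper3.cg_dc P hc) hdc⟩

end Cfsg.Agent.S0321
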