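import Cfsg.Statements.S0322
import Cfsg.Agent.Helper3.BN3

set_option autoImplicit false
open Cfsg

namespace Cfsg.Agent.S0322

/-- A group with a (B,N)-pair of rank one acts doubly transitively on the left cosets of `B`. -/
theorem result {G : Type*} [Group G] (P : Cfsg.BNPair G) (h : P.rank = 1) : MulAction.IsMultiplyPretransitive G (G ⧸ P.B) 2 := by
  have hcard := h
  unfold Cfsg.BNPair.rank at hcard
  obtain ⟨⟨s, hs⟩, huniq⟩ := Nat.card_eq_one_iff_exists.1 hcard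
  have hS : P.S = {s} := by
    ext x
    constructor
    · intro hx
      have := huniq ⟨x, hx⟩
      exact congrArg Subtype.val this
    · intro hx
      rw [Set.mem_singleton_iff] at hx
      rw [hx]; exact hs
  rw [MulAction.is_two_pretransitive_iff]
  intro a b c d hab hcd
  obtain ⟨x, rfl⟩ := QuotientGroup.mk_surjective a
  obtain ⟨y, rfl⟩ := QuotientGroup.mk_surjective b
  obtain ⟨z, rfl⟩ := QuotientGroup.mk_surjective c
  obtain ⟨w, rfl⟩ := QuotientGroup.mk_surjective d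
  have h1 : x⁻¹ * y ∉ P.B := fun hh => hab (QuotientGroup.eq.2 hh)
  have h2 : z⁻¹ * w ∉ P.B := fun hh => hcd (QuotientGroup.eq.2 hh)
  obtain ⟨b1, hb1, b2, hb2, e1⟩ := Cfsg.Agent.Helper3.rank_one_dc P hS h1
  obtain ⟨b3, hb3, b4, hb4, e2⟩ := Cfsg.Agent.Helper3.rank_one_dc P hS h2
  refine ⟨z * b3 * b1⁻¹ * x⁻¹, ?_, ?_⟩
  · rw [MulAction.Quotient.smul_mk, smul_eq_mul, QuotientGroup.eq]
    have e : (z * b3 * b1⁻¹ * x⁻¹ * x)⁻¹ * z = b1 * b3⁻¹ := by group
    rw [e]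
    exact P.B.mul_mem hb1 (P.B.inv_mem hb3)
  · rw [MulAction.Quotient.smul_mk, smul_eq_mul, QuotientGroup.eq]
    have e : (z * b3 * b1⁻¹ * x⁻¹ * y)⁻¹ * w = (x⁻¹ * y)⁻¹ * b1 * b3⁻¹ * (z⁻¹ * w) := by group
    rw [e, e1, e2]
    have e' : (b1 * s * b2)⁻¹ * b1 * b3⁻¹ * (b3 * s * b4) = b2⁻¹ * b4 := by group
    rw [e']
    exact P.B.mul_mem (P.B.inv_mem hb2) hb4

end Cfsg.Agent.S0322
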