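import Cfsg.Statements.S0323

set_option autoImplicit false
open scoped Pointwise
open Cfsg

namespace Cfsg.Agent.S0323

theorem mem_pair_stab {G Ω : Type*} [Group G] [MulAction G Ω] {x y : Ω} {n : G} :
    n ∈ MulAction.stabilizer G ({x, y} : Set Ω) ↔
      (n • x = x ∧ n • y = y) ∨ (n • x = y ∧ n • y = x) := by
  rw [MulAction.mem_stabilizer_iff, Set.smul_set_insert, Set.smul_set_singleton,
    Set.pair_eq_pair_iff]

/-- A doubly transitive action on a set with at least three points yields a (B,N)-pair of rank one: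
`B` is the stabiliser of a point `x`, `N` the setwise stabiliser of a pair `{x, y}`. -/
theorem result {G Ω : Type*} [Group G] [MulAction G Ω]
    (h2 : MulAction.IsMultiplyPretransitive G Ω 2) {x y z : Ω} (hxy : x ≠ y) (hyz : y ≠ z) (hxz : x ≠ z) :
    ∃ P : Cfsg.BNPair G, P.B = MulAction.stabilizer G x ∧
      P.N = MulAction.stabilizer G ({x, y} : Set Ω) ∧ P.rank = 1 := by
  rw [MulAction.is_two_pretransitive_iff] at h2
  obtain ⟨s, hsx, hsy⟩ := h2 hxy hxy.symm
  have hsN : s ∈ MulAction.stabilizer G ({x, y} : Set Ω) := mem_pair_stab.2 (Or.inr ⟨hsx, hsy⟩)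
  have hsinv : s⁻¹ • y = x := by rw [← hsx, inv_smul_smul]
  have K : ∀ g : G, g • x ≠ x → ∃ b ∈ MulAction.stabilizer G x, ∃ b' ∈ MulAction.stabilizer G x,
      g = b * s * b' := by
    intro g hg
    obtain ⟨b1, hb1x, hb1w⟩ := h2 (Ne.symm hg) hxy
    refine ⟨b1⁻¹, Subgroup.inv_mem _ (MulAction.mem_stabilizer_iff.2 hb1x), s⁻¹ * b1 * g, ?_, by group⟩
    rw [MulAction.mem_stabilizer_iff, mul_smul, mul_smul, hb1w, hsinv]
  have hNfix : ∀ t : G, t ∈ MulAction.stabilizer G ({x, y} : Set Ω) → t • x = x → t • y = y := by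
    intro t ht htx
    rcases mem_pair_stab.1 ht with h | h
    · exact h.2
    · exact absurd (htx.symm.trans h.1) hxy
  refine ⟨
    { B := MulAction.stabilizer G x
      N := MulAction.stabilizer G ({x, y} : Set Ω)
      S := {s}
      sup_eq_top := ?_
      conj_mem := ?_
      subset := ?_
      sq_mem := ?_
      inj := ?_
      closure_sup := ?_
      mul_mem_union := ?_
      conj_ne := ?_ }, rfl, rfl, ?_⟩
  · rw [eq_top_iff]
    intro g _
    by_cases hg : g • x = x
    · exact (le_sup_left : MulAction.stabilizer G x ≤ _) (MulAction.mem_stabilizer_iff.2 hg)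
    · obtain ⟨b, hb, b', hb', rfl⟩ := K g hg
      exact Subgroup.mul_mem _ (Subgroup.mul_mem _ ((le_sup_left : MulAction.stabilizer G x ≤ _) hb)
        ((le_sup_right : MulAction.stabilizer G ({x, y} : Set Ω) ≤ _) hsN))
        ((le_sup_left : MulAction.stabilizer G x ≤ _) hb')
  · rintro n hn t ⟨htB, htN⟩
    have htx : t • x = x := MulAction.mem_stabilizer_iff.1 htB
    have hty : t • y = y := hNfix t htN htx
    rw [MulAction.mem_stabilizer_iff, mul_smul, mul_smul]
    rcases mem_pair_stab.1 hn with h | h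
    · have : n⁻¹ • x = x := by rw [inv_smul_eq_iff, h.1]
      rw [this, htx, h.1]
    · have : n⁻¹ • x = y := by rw [inv_smul_eq_iff, h.2]
      rw [this, hty, h.2]
  · intro s' hs'
    rw [Set.mem_singleton_iff] at hs'
    rw [hs']; exact hsN
  · intro s' hs'
    rw [Set.mem_singleton_iff] at hs'
    rw [hs', MulAction.mem_stabilizer_iff, mul_smul, hsx, hsy]
  · intro a ha b hb _
    rw [Set.mem_singleton_iff] at ha hb
    rw [ha, hb]
  · apply le_antisymm
    · apply sup_le
      · rw [Subgroup.closure_le]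
        intro a ha
        rw [Set.mem_singleton_iff] at ha
        rw [ha]; exact hsN
      · exact inf_le_right
    · intro n hn
      rcases mem_pair_stab.1 hn with h | h
      · exact (le_sup_right : MulAction.stabilizer G x ⊓ MulAction.stabilizer G ({x, y} : Set Ω) ≤ _)
          ⟨MulAction.mem_stabilizer_iff.2 h.1, hn⟩
      · have h1 : s⁻¹ * n ∈ MulAction.stabilizer G x ⊓ MulAction.stabilizer G ({x, y} : Set Ω) := by
          refine Subgroup.mem_inf.2 ⟨?_, Subgroup.mul_mem _ (Subgroup.inv_mem _ hsN) hn⟩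
          rw [MulAction.mem_stabilizer_iff, mul_smul, h.1, hsinv]
        have e : n = s * (s⁻¹ * n) := by group
        rw [e]
        exact Subgroup.mul_mem _
          ((le_sup_left : Subgroup.closure {s} ≤ _) (Subgroup.subset_closure rfl))
          ((le_sup_right : MulAction.stabilizer G x ⊓ MulAction.stabilizer G ({x, y} : Set Ω) ≤ _) h1)
  · intro s' hs' n hn b hb
    rw [Set.mem_singleton_iff] at hs'
    subst hs'
    have hbx : b • x = x := MulAction.mem_stabilizer_iff.1 hb
    rcases mem_pair_stab.1 hn with h | h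
    · left
      have hg : (s' * b * n) • x ≠ x := by
        rw [mul_smul, mul_smul, h.1, hbx, hsx]; exact hxy.symm
      obtain ⟨b1, hb1, b2, hb2, e⟩ := K _ hg
      rw [DoubleCoset.mem_doubleCoset]
      refine ⟨b1, hb1, n⁻¹ * b2, Subgroup.mul_mem _
        (Subgroup.inv_mem _ (MulAction.mem_stabilizer_iff.2 h.1)) hb2, ?_⟩
      rw [e]; group
    · by_cases hg : (s' * b * n) • x = x
      · left
        rw [DoubleCoset.mem_doubleCoset]
        have hsn : s' * n ∈ MulAction.stabilizer G x := by
          rw [MulAction.mem_stabilizer_iff, mul_smul, h.1, hsy]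
        refine ⟨s' * b * n * (s' * n)⁻¹, Subgroup.mul_mem _ (MulAction.mem_stabilizer_iff.2 hg)
          (Subgroup.inv_mem _ hsn), 1, Subgroup.one_mem _, by group⟩
      · right
        obtain ⟨b1, hb1, b2, hb2, e⟩ := K _ hg
        rw [DoubleCoset.mem_doubleCoset]
        have hsn : s'⁻¹ * n ∈ MulAction.stabilizer G x := by
          rw [MulAction.mem_stabilizer_iff, mul_smul, h.1, hsinv]
        refine ⟨b1, hb1, (s'⁻¹ * n)⁻¹ * b2, Subgroup.mul_mem _ (Subgroup.inv_mem _ hsn) hb2, ?_⟩
        rw [e]; group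
  · intro s' hs' himg
    rw [Set.mem_singleton_iff] at hs'
    subst hs'
    obtain ⟨b, hbx, hby⟩ := h2 hxy hxz
    have hb : b ∈ ((MulAction.stabilizer G x : Subgroup G) : Set G) := MulAction.mem_stabilizer_iff.2 hbx
    have h1 : s' * b * s' ∈ ((MulAction.stabilizer G x : Subgroup G) : Set G) := by
      rw [← himg]; exact ⟨b, hb, rfl⟩
    have h2' : (s' * b * s') • x = x := MulAction.mem_stabilizer_iff.1 h1
    rw [mul_smul, mul_smul, hsx, hby] at h2'
    have : z = y := by
      have h3 := congrArg (fun w => s'⁻¹ • w) h2'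
      simp only [inv_smul_smul] at h3
      rw [h3, ← hsy, inv_smul_smul]
    exact hyz this.symm
  · show Nat.card ({s} : Set G) = 1
    simp

end Cfsg.Agent.S0323
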