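import Cfsg.Statements.S0326
-- import your own Cfsg.Agent.* helpers here
import Mathlib

set_option autoImplicit false
open Cfsg

namespace Cfsg.Agent.S0326

/-- The Suzuki–Tits ovoid over a finite field with `q` elements has `q² + 1` points. -/
theorem result {F : Type*} [Field F] [Fintype F] (m : ℕ) :
    Nat.card (Cfsg.suzukiOvoid F m) = Fintype.card F ^ 2 + 1 := by
  classical
  have h1 : (![1, 0, 0, 0] : Fin 4 → F) ≠ 0 := by
    intro h
    have h0 := congrFun h 0
    simp at h0
  have h2 : ∀ x y : F, (![x * y + x ^ (2 ^ (m + 1) + 2) + y ^ (2 ^ (m + 1)), y, x, 1] : Fin 4 → F) ≠ 0 := by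
    intro x y h
    have h0 := congrFun h 3
    simp at h0
  let φ : Option (F × F) → Cfsg.suzukiOvoid F m := fun o =>
    match o with
    | none => ⟨Projectivization.mk F ![1, 0, 0, 0] h1, ⟨_, h1, rfl, Or.inl rfl⟩⟩
    | some (x, y) => ⟨Projectivization.mk F ![x * y + x ^ (2 ^ (m + 1) + 2) + y ^ (2 ^ (m + 1)), y, x, 1] (h2 x y),
        ⟨_, h2 x y, rfl, Or.inr ⟨x, y, rfl⟩⟩⟩
  have hinj : Function.Injective φ := by
    rintro (_ | ⟨x, y⟩) (_ | ⟨x', y'⟩) h
    · rfl
    · exfalso
      have h3 : Projectivization.mk F (![1, 0, 0, 0] : Fin 4 → F) h1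
          = Projectivization.mk F ![x' * y' + x' ^ (2 ^ (m + 1) + 2) + y' ^ (2 ^ (m + 1)), y', x', 1] (h2 x' y') := congrArg Subtype.val h
      obtain ⟨a, ha⟩ := (Projectivization.mk_eq_mk_iff' F _ _ _ _).1 h3
      have e3 := congrFun ha 3
      have e0 := congrFun ha 0
      simp at e3 e0
      rw [e3] at e0
      simp at e0
    · exfalso
      have h3 : Projectivization.mk F ![x * y + x ^ (2 ^ (m + 1) + 2) + y ^ (2 ^ (m + 1)), y, x, 1] (h2 x y)
          = Projectivization.mk F (![1, 0, 0, 0] : Fin 4 → F) h1 := congrArg Subtype.val h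
      obtain ⟨a, ha⟩ := (Projectivization.mk_eq_mk_iff' F _ _ _ _).1 h3.symm
      have e3 := congrFun ha 3
      have e0 := congrFun ha 0
      simp at e3 e0
      rw [e3] at e0
      simp at e0
    · have h3 : Projectivization.mk F ![x * y + x ^ (2 ^ (m + 1) + 2) + y ^ (2 ^ (m + 1)), y, x, 1] (h2 x y)
          = Projectivization.mk F ![x' * y' + x' ^ (2 ^ (m + 1) + 2) + y' ^ (2 ^ (m + 1)), y', x', 1] (h2 x' y') := congrArg Subtype.val h
      obtain ⟨a, ha⟩ := (Projectivization.mk_eq_mk_iff' F _ _ _ _).1 h3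
      have e3 := congrFun ha 3
      have e1 := congrFun ha 1
      have e2 := congrFun ha 2
      simp at e3 e1 e2
      rw [e3, one_mul] at e1 e2
      rw [e1, e2]
  have hsurj : Function.Surjective φ := by
    rintro ⟨p, v, hv, rfl, hv' | ⟨x, y, hv'⟩⟩
    · subst hv'
      exact ⟨none, rfl⟩
    · subst hv'
      exact ⟨some (x, y), rfl⟩
  rw [← Nat.card_congr (Equiv.ofBijective φ ⟨hinj, hsurj⟩), Nat.card_eq_fintype_card,
    Fintype.card_option, Fintype.card_prod, sq]

end Cfsg.Agent.S0326
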