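import Cfsg.Statements.S0376
import Cfsg.Agent.Helper3.Golay.M24Trans

set_option autoImplicit false
open Cfsg

namespace Cfsg.Agent.S0376

/-- A point stabiliser in the group of the length-24 code has order 10200960 = 2^7·3^2·5·7·11·23. -/
theorem result (p : Cfsg.GolayPt) : Nat.card (MulAction.stabilizer Cfsg.M24 p) = 10200960 := by
  exact Cfsg.Agent.Helper3.M24_stab_card p

end Cfsg.Agent.S0376
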