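import Cfsg.Statements.S0393
import Cfsg.Agent.Helper28.Leech
import Cfsg.Agent.Helper28.LeechIdx2

set_option autoImplicit false
open Cfsg

namespace Cfsg.Agent.S0393

/-- The lattice has index 2^36 in ℤ^24 (unimodular at scale 1/8). -/
theorem result : Cfsg.leechLattice.index = 2 ^ 36 := by
  rw [Cfsg.Agent.Helper28.leechLattice_eq]
  have h := Cfsg.Agent.Helper28.index_leechSub golayCode Cfsg.Agent.Helper28.golayLike
    Cfsg.Agent.Helper28.one_mem_golay none
  rw [Cfsg.Agent.Helper3.golayCode_natCard] at h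
  exact Nat.eq_of_mul_eq_mul_left (by norm_num : 0 < 4096)
    (h.trans (by norm_num : (4 : ℕ) ^ 24 = 4096 * 2 ^ 36))

end Cfsg.Agent.S0393
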