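import Cfsg.Statements.S0394
import Cfsg.Agent.Helper28.LeechMin
import Cfsg.Agent.Helper28.Leech
import Cfsg.Agent.Helper28.GolayConc
import Cfsg.Agent.Helper3.Golay.Weights

set_option autoImplicit false
open Cfsg

namespace Cfsg.Agent.S0394

/-- Exactly 196560 lattice vectors have sum of squares 32. -/
theorem result : {x : Cfsg.GolayPt → ℤ | x ∈ Cfsg.leechLattice ∧ Cfsg.sqNorm x = 32}.ncard = 196560 := by
  have hset : {x : Cfsg.GolayPt → ℤ | x ∈ Cfsg.leechLattice ∧ Cfsg.sqNorm x = 32} =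
      {x : Cfsg.GolayPt → ℤ | x ∈ Cfsg.Agent.Helper28.leechSetOf Cfsg.golayCode ∧
        ∑ i, x i ^ 2 = 32} := by
    ext x
    simp only [Set.mem_setOf_eq]
    rw [Cfsg.Agent.Helper28.mem_leechLattice, Cfsg.Agent.Helper28.leechSet_eq]
    rfl
  rw [hset, Cfsg.Agent.Helper28.count_min Cfsg.golayCode Cfsg.Agent.Helper28.golayLike
    Cfsg.Agent.Helper28.one_mem_golay, ← Cfsg.Agent.Helper28.octads_eq_Oct,
    Cfsg.Agent.Helper3.octads_ncard, Cfsg.Agent.Helper3.golayCode_natCard]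

end Cfsg.Agent.S0394
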