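import Cfsg.Statements.S0400
import Cfsg.Agent.Helper28.Co0Trans

set_option autoImplicit false
open Cfsg

namespace Cfsg.Agent.S0400

/-- Automorphisms of the lattice act transitively on vectors of sum of squares 32. -/
theorem result (v w : Cfsg.leechLattice) (hv : Cfsg.sqNorm (v : Cfsg.GolayPt → ℤ) = 32) (hw : Cfsg.sqNorm (w : Cfsg.GolayPt → ℤ) = 32) : ∃ g : Cfsg.Co0, g • v = w := by
  obtain ⟨hx, g, hg⟩ := Cfsg.Agent.Helper28.min_trans (v : Cfsg.GolayPt → ℤ)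
    (w : Cfsg.GolayPt → ℤ) v.2 hv w.2 hw
  exact ⟨g, Subtype.ext hg⟩

end Cfsg.Agent.S0400
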