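import Cfsg.Statements.S0403
import Cfsg.Agent.Helper28.Co3Simple

set_option autoImplicit false
open Cfsg

namespace Cfsg.Agent.S0403

/-- Stabiliser of a vector of sum of squares 48 is simple of order 495766656000. -/
theorem result (v : Cfsg.leechLattice) (hv : Cfsg.sqNorm (v : Cfsg.GolayPt → ℤ) = 48) : Cfsg.IsCo3 (MulAction.stabilizer Cfsg.Co0 v) := by
  have hmap : (MulAction.stabilizer Cfsg.Co0 v).map Cfsg.Co0.subtype = Cfsg.Agent.Helper28.co3K v :=
    Cfsg.Agent.Helper3.map_subtype_stabilizer Cfsg.Co0 v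
  refine ⟨?_, ?_⟩
  · apply Cfsg.Agent.Helper3.isSimpleGroup_of_simpleIn_map Cfsg.Co0
    rw [hmap]
    exact Cfsg.Agent.Helper28.co3_simpleIn v hv
  · rw [← Cfsg.Agent.Helper28.co3K_card v hv, ← hmap]
    exact Nat.card_congr
      (Subgroup.equivMapOfInjective _ Cfsg.Co0.subtype Cfsg.Co0.subtype_injective).toEquiv

end Cfsg.Agent.S0403
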