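import Cfsg.Statements.S0404
import Cfsg.Agent.Helper28.McLSimple

set_option autoImplicit false
open Cfsg

namespace Cfsg.Agent.S0404

/-- Joint stabiliser of two minimal vectors with coordinate dot product −8 is simple of order 898128000. -/
theorem result (v w : Cfsg.leechLattice) (hv : Cfsg.sqNorm (v : Cfsg.GolayPt → ℤ) = 32) (hw : Cfsg.sqNorm (w : Cfsg.GolayPt → ℤ) = 32) (hvw : Cfsg.dotInt (v : Cfsg.GolayPt → ℤ) (w : Cfsg.GolayPt → ℤ) = -8) : Cfsg.IsMcL ↥(MulAction.stabilizer Cfsg.Co0 v ⊓ MulAction.stabilizer Cfsg.Co0 w) := by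
  have hmap : (MulAction.stabilizer Cfsg.Co0 v ⊓ MulAction.stabilizer Cfsg.Co0 w).map
      Cfsg.Co0.subtype = Cfsg.Agent.Helper28.hsK v w :=
    Cfsg.Agent.Helper3.map_subtype_stabilizer2 Cfsg.Co0 v w
  refine ⟨?_, ?_⟩
  · apply Cfsg.Agent.Helper3.isSimpleGroup_of_simpleIn_map Cfsg.Co0
    rw [hmap]
    exact Cfsg.Agent.Helper28.mcl_simpleIn v w hv hw hvw
  · rw [← Cfsg.Agent.Helper28.mclK_card v w hv hw hvw, ← hmap]
    exact Nat.card_congr
      (Subgroup.equivMapOfInjective _ Cfsg.Co0.subtype Cfsg.Co0.subtype_injective).toEquiv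

end Cfsg.Agent.S0404
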