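import Cfsg.Statements.S0418
import Mathlib
import Cfsg.Agent.Helper18.SharpTrans

set_option autoImplicit false
open Cfsg

namespace Cfsg.Agent.S0418

open Equiv Cfsg.Agent.Helper18.WittExt Cfsg.Agent.Helper18.SharpTrans

/-- A sharply 4-transitive group of degree 11 is simple of order 7920. -/
theorem result {α : Type*} [Fintype α] [DecidableEq α] (hα : Fintype.card α = 11) (G : Subgroup (Equiv.Perm α)) [MulAction.IsMultiplyPretransitive G α 4] (hsharp : ∀ x : Fin 4 ↪ α, MulAction.stabilizer G x = ⊥) : Cfsg.IsM11 G := by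
  have hcard : Nat.card G = 7920 := by
    rw [card_of_sharp G 4 hsharp (by omega), hα]; rfl
  have hT2 : ∀ b c b' c' : α, b ≠ c → b' ≠ c' → ∃ g ∈ G, g b = b' ∧ g c = c' := by
    intro b c b' c' hbc hbc'
    obtain ⟨g, hg, h⟩ := ptrans G 4 (by omega) 2 (by norm_num) ![b, c] ![b', c']
      (inj2 hbc) (inj2 hbc')
    exact ⟨g, hg, h 0, h 1⟩
  have hT3 : ∀ a b c b' c' : α, a ≠ b → a ≠ c → b ≠ c → a ≠ b' → a ≠ c' → b' ≠ c' →
      ∃ g ∈ G, g a = a ∧ g b = b' ∧ g c = c' := by
    intro a b c b' c' hab hac hbc hab' hac' hbc'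
    obtain ⟨g, hg, h⟩ := ptrans G 4 (by omega) 3 (by norm_num) ![a, b, c] ![a, b', c']
      (inj3 hab hac hbc) (inj3 hab' hac' hbc')
    exact ⟨g, hg, h 0, h 1, h 2⟩
  have hnt : Nontrivial G := Finite.one_lt_card_iff_nontrivial.mp (by rw [hcard]; norm_num)
  have hprime : Fact (Nat.Prime 11) := ⟨by norm_num⟩
  have hcent : ∀ c : G, orderOf c = 11 → ∀ z : G, Commute z c → z ∈ Subgroup.zpowers c := by
    intro c hc z hz
    have h1 := cent_of_prime_cycle (c : Perm α) 11 (by norm_num)
      (by rw [Subgroup.orderOf_coe]; exact hc) (by omega) (z : Perm α)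
      (by
        have := congrArg Subtype.val hz.eq
        exact this)
    obtain ⟨i, hi⟩ := Subgroup.mem_zpowers_iff.mp h1
    exact Subgroup.mem_zpowers_iff.mpr ⟨i, Subtype.ext (by simpa using hi)⟩
  refine ⟨{ toNontrivial := hnt, eq_bot_or_eq_top_of_normal := ?_ }, hcard⟩
  intro N hN
  by_cases hbot : N = ⊥
  · exact Or.inl hbot
  right
  obtain ⟨hN'G, hN'norm, hN'card, hN'ne⟩ := map_normal G N
  have hN'ne := hN'ne hbot
  set N' := N.map G.subtype with hN'
  obtain ⟨a⟩ : Nonempty α := Fintype.card_pos_iff.mp (by omega)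
  -- level 0
  have hinf0 : N' ⊓ G = N' := inf_of_le_left hN'G
  have hP0 := normal_level N' G Finset.univ hN'norm
    (fun g _ x hx => absurd (Finset.mem_univ x) hx)
    (fun b _ c _ hbc b' _ c' _ hbc' => hT2 b c b' c' hbc hbc')
    (by rw [hinf0]; exact hN'ne) a (Finset.mem_univ a)
  have hc0 := hP0.card
  rw [hinf0, Finset.card_univ, hα, hN'card] at hc0
  -- level 1
  set S₁ := G ⊓ MulAction.stabilizer (Perm α) a with hS₁
  have hM₁ : N' ⊓ MulAction.stabilizer (Perm α) a = N' ⊓ S₁ := by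
    rw [hS₁, ← inf_assoc, hinf0]
  rw [hM₁] at hc0
  have hN11 : 11 ∣ Nat.card N := ⟨_, hc0⟩
  have hlevel1 : Nat.card N = 11 ∨ 110 ∣ Nat.card N := by
    by_cases hne1 : N' ⊓ S₁ = ⊥
    · left
      rw [hc0, hne1, Subgroup.card_bot]
    · right
      obtain ⟨b, hb⟩ : ∃ b, b ≠ a := by
        by_contra h
        push Not at h
        have : Fintype.card α ≤ 1 := Fintype.card_le_one_iff.mpr (fun x y => by rw [h x, h y])
        omega
      have hP1 := normal_level N' S₁ (Finset.univ.erase a)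
        (fun g hg n hn => hN'norm g hg.1 n hn)
        (fun g hg x hx => by
          have hxa : x = a := by
            by_contra hxa
            exact hx (Finset.mem_erase.mpr ⟨hxa, Finset.mem_univ x⟩)
          rw [hxa]
          exact hg.2)
        (fun b hb c hc hbc b' hb' c' hc' hbc' => by
          obtain ⟨g, hg, h1, h2, h3⟩ := hT3 a b c b' c' (Finset.ne_of_mem_erase hb).symm
            (Finset.ne_of_mem_erase hc).symm hbc (Finset.ne_of_mem_erase hb').symm
            (Finset.ne_of_mem_erase hc').symm hbc'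
          exact ⟨g, ⟨hg, h1⟩, h2, h3⟩)
        hne1 b (Finset.mem_erase.mpr ⟨hb, Finset.mem_univ b⟩)
      have hc1 := hP1.card
      rw [Finset.card_erase_of_mem (Finset.mem_univ a), Finset.card_univ, hα] at hc1
      rw [hc0, hc1]
      exact ⟨_, by ring⟩
  -- Sylow counting
  obtain ⟨k, d, hk, hKdvd, hsyl, hpd, hdk, heq⟩ := sylow_frattini_count (Γ := G) 11 hcent
    (by rw [hcard]; norm_num) N hN11
  rw [hcard] at hKdvd hsyl heq
  have hk10 : k ≤ 10 := Nat.le_of_dvd (by norm_num) hk
  have hk0 : 0 < k := Nat.pos_of_dvd_of_pos hk (by norm_num)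
  have hk5 : k = 5 := by
    interval_cases k <;> first | rfl | (exfalso; revert hk hsyl; decide)
  subst hk5
  obtain ⟨e, rfl⟩ := hpd
  have he : e ∣ 5 := by
    have : 11 * e ∣ 11 * 5 := hdk
    exact Nat.dvd_of_mul_dvd_mul_left (by norm_num) this
  have hNcard : Nat.card N = 1584 ∨ Nat.card N = 7920 := by
    rcases (Nat.dvd_prime (by norm_num : Nat.Prime 5)).mp he with rfl | rfl
    · left; omega
    · right; omega
  apply (Subgroup.card_eq_iff_eq_top N).mp
  rw [hcard]
  rcases hlevel1 with h | ⟨t, ht⟩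
  · omega
  · omega

end Cfsg.Agent.S0418
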