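import Cfsg.Statements.S0419
import Mathlib
import Cfsg.Agent.Helper18.SharpTrans

set_option autoImplicit false
open Cfsg

namespace Cfsg.Agent.S0419

open Equiv Cfsg.Agent.Helper18.WittExt Cfsg.Agent.Helper18.SharpTrans

/-- A sharply 5-transitive group of degree 12 is simple of order 95040. -/
theorem result {α : Type*} [Fintype α] [DecidableEq α] (hα : Fintype.card α = 12) (G : Subgroup (Equiv.Perm α)) [MulAction.IsMultiplyPretransitive G α 5] (hsharp : ∀ x : Fin 5 ↪ α, MulAction.stabilizer G x = ⊥) : Cfsg.IsM12 G := by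
  have hcard : Nat.card G = 95040 := by
    rw [card_of_sharp G 5 hsharp (by omega), hα]; rfl
  have hT2 : ∀ b c b' c' : α, b ≠ c → b' ≠ c' → ∃ g ∈ G, g b = b' ∧ g c = c' := by
    intro b c b' c' hbc hbc'
    obtain ⟨g, hg, h⟩ := ptrans G 5 (by omega) 2 (by norm_num) ![b, c] ![b', c']
      (inj2 hbc) (inj2 hbc')
    exact ⟨g, hg, h 0, h 1⟩
  have hT3 : ∀ a b c b' c' : α, a ≠ b → a ≠ c → b ≠ c → a ≠ b' → a ≠ c' → b' ≠ c' →
      ∃ g ∈ G, g a = a ∧ g b = b' ∧ g c = c' := by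
    intro a b c b' c' hab hac hbc hab' hac' hbc'
    obtain ⟨g, hg, h⟩ := ptrans G 5 (by omega) 3 (by norm_num) ![a, b, c] ![a, b', c']
      (inj3 hab hac hbc) (inj3 hab' hac' hbc')
    exact ⟨g, hg, h 0, h 1, h 2⟩
  have hT4 : ∀ a₁ a₂ b c b' c' : α, a₁ ≠ a₂ → a₁ ≠ b → a₁ ≠ c → a₂ ≠ b → a₂ ≠ c → b ≠ c →
      a₁ ≠ b' → a₁ ≠ c' → a₂ ≠ b' → a₂ ≠ c' → b' ≠ c' →
      ∃ g ∈ G, g a₁ = a₁ ∧ g a₂ = a₂ ∧ g b = b' ∧ g c = c' := by
    intro a₁ a₂ b c b' c' h12 h1b h1c h2b h2c hbc h1b' h1c' h2b' h2c' hbc'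
    obtain ⟨g, hg, h⟩ := ptrans G 5 (by omega) 4 (by norm_num) ![a₁, a₂, b, c] ![a₁, a₂, b', c']
      (inj4 h12 h1b h1c h2b h2c hbc) (inj4 h12 h1b' h1c' h2b' h2c' hbc')
    exact ⟨g, hg, h 0, h 1, h 2, h 3⟩
  have hnt : Nontrivial G := Finite.one_lt_card_iff_nontrivial.mp (by rw [hcard]; norm_num)
  have hprime : Fact (Nat.Prime 11) := ⟨by norm_num⟩
  have hcent : ∀ c : G, orderOf c = 11 → ∀ z : G, Commute z c → z ∈ Subgroup.zpowers c := by
    intro c hc z hz
    have h1 := cent_of_prime_cycle (c : Perm α) 11 (by norm_num)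
      (by rw [Subgroup.orderOf_coe]; exact hc) (by omega) (z : Perm α)
      (by
        have := congrArg Subtype.val hz.eq
        exact this)
    obtain ⟨i, hi⟩ := Subgroup.mem_zpowers_iff.mp h1
    exact Subgroup.mem_zpowers_iff.mpr ⟨i, Subtype.ext (by simpa using hi)⟩
  refine ⟨{ toNontrivial := hnt, eq_bot_or_eq_top_of_normal := ?_ }, hcard⟩
  intro N hN
  by_cases hbot : N = ⊥
  · exact Or.inl hbot
  right
  obtain ⟨hN'G, hN'norm, hN'card, hN'ne⟩ := map_normal G N
  have hN'ne := hN'ne hbot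
  set N' := N.map G.subtype with hN'
  obtain ⟨a⟩ : Nonempty α := Fintype.card_pos_iff.mp (by omega)
  -- level 0
  have hinf0 : N' ⊓ G = N' := inf_of_le_left hN'G
  have hP0 := normal_level N' G Finset.univ hN'norm
    (fun g _ x hx => absurd (Finset.mem_univ x) hx)
    (fun b _ c _ hbc b' _ c' _ hbc' => hT2 b c b' c' hbc hbc')
    (by rw [hinf0]; exact hN'ne) a (Finset.mem_univ a)
  have hc0 := hP0.card
  rw [hinf0, Finset.card_univ, hα, hN'card] at hc0
  -- level 1
  set S₁ := G ⊓ MulAction.stabilizer (Perm α) a with hS₁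
  have hM₁ : N' ⊓ MulAction.stabilizer (Perm α) a = N' ⊓ S₁ := by
    rw [hS₁, ← inf_assoc, hinf0]
  rw [hM₁] at hc0
  obtain ⟨b, hb⟩ : ∃ b, b ≠ a := by
    by_contra h
    push Not at h
    have : Fintype.card α ≤ 1 := Fintype.card_le_one_iff.mpr (fun x y => by rw [h x, h y])
    omega
  by_cases hne1 : N' ⊓ S₁ = ⊥
  · -- the regular case
    exfalso
    have hc12 : Nat.card N' = 12 := by
      rw [hN'card, hc0, hne1, Subgroup.card_bot]
    have hprime2 : Fact (Nat.Prime 2) := ⟨by norm_num⟩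
    have hprime3 : Fact (Nat.Prime 3) := ⟨by norm_num⟩
    obtain ⟨n₂, hn₂⟩ := exists_prime_orderOf_dvd_card' (G := N') 2 (by rw [hc12]; norm_num)
    obtain ⟨n₃, hn₃⟩ := exists_prime_orderOf_dvd_card' (G := N') 3 (by rw [hc12]; norm_num)
    have hmove : ∀ n : N', n ≠ 1 → (n : Perm α) a ≠ a := by
      intro n hn h
      have h1 : (n : Perm α) ∈ N' ⊓ S₁ := ⟨n.2, hN'G n.2, h⟩
      rw [hne1, Subgroup.mem_bot] at h1
      exact hn (Subtype.ext h1)
    have hn₂1 : n₂ ≠ 1 := by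
      intro h; rw [h, orderOf_one] at hn₂; omega
    have hn₃1 : n₃ ≠ 1 := by
      intro h; rw [h, orderOf_one] at hn₃; omega
    obtain ⟨g, hg, hga, hg2⟩ := hT2 a ((n₂ : Perm α) a) a ((n₃ : Perm α) a)
      (hmove n₂ hn₂1).symm (hmove n₃ hn₃1).symm
    have hconj : g * (n₂ : Perm α) * g⁻¹ ∈ N' := hN'norm g hg _ n₂.2
    have hm : (n₃ : Perm α)⁻¹ * (g * (n₂ : Perm α) * g⁻¹) ∈ N' ⊓ S₁ := by
      refine ⟨N'.mul_mem (N'.inv_mem n₃.2) hconj, G.mul_mem (G.inv_mem (hN'G n₃.2)) (hN'G hconj),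
        ?_⟩
      show ((n₃ : Perm α)⁻¹ * (g * (n₂ : Perm α) * g⁻¹)) a = a
      have hginv : g⁻¹ a = a := by
        rw [Perm.inv_eq_iff_eq]; exact hga.symm
      rw [Perm.mul_apply, Perm.mul_apply, Perm.mul_apply, hginv, hg2]
      simp
    rw [hne1, Subgroup.mem_bot] at hm
    have heq : g * (n₂ : Perm α) * g⁻¹ = (n₃ : Perm α) := by
      have := congrArg (fun t => (n₃ : Perm α) * t) hm
      simpa using this
    have ho : orderOf (g * (n₂ : Perm α) * g⁻¹) = orderOf (n₂ : Perm α) :=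
      (MulAut.conj g).orderOf_eq (n₂ : Perm α)
    rw [heq, Subgroup.orderOf_coe, Subgroup.orderOf_coe, hn₂, hn₃] at ho
    omega
  -- the non-regular case
  have hP1 := normal_level N' S₁ (Finset.univ.erase a)
    (fun g hg n hn => hN'norm g hg.1 n hn)
    (fun g hg x hx => by
      have hxa : x = a := by
        by_contra hxa
        exact hx (Finset.mem_erase.mpr ⟨hxa, Finset.mem_univ x⟩)
      rw [hxa]
      exact hg.2)
    (fun b hb c hc hbc b' hb' c' hc' hbc' => by
      obtain ⟨g, hg, h1, h2, h3⟩ := hT3 a b c b' c' (Finset.ne_of_mem_erase hb).symm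
        (Finset.ne_of_mem_erase hc).symm hbc (Finset.ne_of_mem_erase hb').symm
        (Finset.ne_of_mem_erase hc').symm hbc'
      exact ⟨g, ⟨hg, h1⟩, h2, h3⟩)
    hne1 b (Finset.mem_erase.mpr ⟨hb, Finset.mem_univ b⟩)
  have hc1 := hP1.card
  rw [Finset.card_erase_of_mem (Finset.mem_univ a), Finset.card_univ, hα] at hc1
  have hN11 : 11 ∣ Nat.card N := by
    rw [hc0, hc1]
    exact ⟨12 * Nat.card ↥(N' ⊓ S₁ ⊓ MulAction.stabilizer (Perm α) b), by ring⟩
  -- level 2
  set S₂ := S₁ ⊓ MulAction.stabilizer (Perm α) b with hS₂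
  have hM₂ : N' ⊓ S₁ ⊓ MulAction.stabilizer (Perm α) b = N' ⊓ S₂ := by
    rw [hS₂, inf_assoc]
  rw [hM₂] at hc1
  have hlevel2 : Nat.card N = 132 ∨ 1320 ∣ Nat.card N := by
    by_cases hne2 : N' ⊓ S₂ = ⊥
    · left
      rw [hc0, hc1, hne2, Subgroup.card_bot]
    · right
      obtain ⟨c, hca, hcb⟩ : ∃ c, c ≠ a ∧ c ≠ b := by
        by_contra h
        push Not at h
        have h1 : (Finset.univ : Finset α) ⊆ {a, b} := by
          intro x _
          by_cases hx : x = a
          · simp [hx]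
          · simp [h x hx]
        have h2 := Finset.card_le_card h1
        have h3 : ({a, b} : Finset α).card ≤ 2 := Finset.card_le_two
        rw [Finset.card_univ, hα] at h2
        omega
      have hP2 := normal_level N' S₂ ((Finset.univ.erase a).erase b)
        (fun g hg n hn => hN'norm g hg.1.1 n hn)
        (fun g hg x hx => by
          by_cases hxb : x = b
          · rw [hxb]; exact hg.2
          · have hxa : x = a := by
              by_contra hxa
              exact hx (Finset.mem_erase.mpr ⟨hxb, Finset.mem_erase.mpr ⟨hxa, Finset.mem_univ x⟩⟩)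
            rw [hxa]
            exact hg.1.2)
        (fun y hy z hz hyz y' hy' z' hz' hyz' => by
          have e1 := Finset.ne_of_mem_erase hy
          have e2 := Finset.ne_of_mem_erase (Finset.mem_of_mem_erase hy)
          have e3 := Finset.ne_of_mem_erase hz
          have e4 := Finset.ne_of_mem_erase (Finset.mem_of_mem_erase hz)
          have e5 := Finset.ne_of_mem_erase hy'
          have e6 := Finset.ne_of_mem_erase (Finset.mem_of_mem_erase hy')
          have e7 := Finset.ne_of_mem_erase hz'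
          have e8 := Finset.ne_of_mem_erase (Finset.mem_of_mem_erase hz')
          obtain ⟨g, hg, h1, h2, h3, h4⟩ := hT4 a b y z y' z' hb.symm e2.symm e4.symm e1.symm
            e3.symm hyz e6.symm e8.symm e5.symm e7.symm hyz'
          exact ⟨g, ⟨⟨hg, h1⟩, h2⟩, h3, h4⟩)
        hne2 c (Finset.mem_erase.mpr ⟨hcb, Finset.mem_erase.mpr ⟨hca, Finset.mem_univ c⟩⟩)
      have hc2 := hP2.card
      rw [Finset.card_erase_of_mem (Finset.mem_erase.mpr ⟨hb, Finset.mem_univ b⟩),
        Finset.card_erase_of_mem (Finset.mem_univ a), Finset.card_univ, hα] at hc2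
      rw [hc0, hc1, hc2]
      exact ⟨_, by ring⟩
  -- Sylow counting
  obtain ⟨k, d, hk, hKdvd, hsyl, hpd, hdk, heq⟩ := sylow_frattini_count (Γ := G) 11 hcent
    (by rw [hcard]; norm_num) N hN11
  rw [hcard] at hKdvd hsyl heq
  have hk10 : k ≤ 10 := Nat.le_of_dvd (by norm_num) hk
  have hk0 : 0 < k := Nat.pos_of_dvd_of_pos hk (by norm_num)
  have hk5 : k = 5 := by
    interval_cases k <;> first | rfl | (exfalso; revert hk hsyl; decide)
  subst hk5
  obtain ⟨e, rfl⟩ := hpd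
  have he : e ∣ 5 := by
    have : 11 * e ∣ 11 * 5 := hdk
    exact Nat.dvd_of_mul_dvd_mul_left (by norm_num) this
  have hNcard : Nat.card N = 19008 ∨ Nat.card N = 95040 := by
    rcases (Nat.dvd_prime (by norm_num : Nat.Prime 5)).mp he with rfl | rfl
    · left; omega
    · right; omega
  apply (Subgroup.card_eq_iff_eq_top N).mp
  rw [hcard]
  rcases hlevel2 with h | ⟨t, ht⟩
  · omega
  · omega

end Cfsg.Agent.S0419
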