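import Cfsg.Statements.S0427
import Cfsg.Agent.Helper29.Steiner

set_option autoImplicit false
open Cfsg

namespace Cfsg.Agent.S0427

/-- The block graph (adjacent = disjoint) of an S(3, 6, 22) is strongly regular with parameters (77, 16, 0, 4). -/
theorem result {α : Type*} [Fintype α] (hα : Fintype.card α = 22) {B : Set (Finset α)} (hB : Cfsg.IsSteinerSystem 3 6 B) [Fintype B] [DecidableRel (Cfsg.blockGraph B).Adj] : (Cfsg.blockGraph B).IsSRGWith 77 16 0 4 := by
  classical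
set Bf : Finset (Finset α) := Finset.univ.filter (fun b => b ∈ B) with hBf
have hmem : ∀ b, b ∈ Bf ↔ b ∈ B := by
  intro b
  simp [hBf]
have h6 : ∀ b ∈ Bf, b.card = 6 := fun b hb => hB.1 b ((hmem b).mp hb)
have h3 : ∀ s : Finset α, s.card = 3 → ∃! b, b ∈ Bf ∧ s ⊆ b := by
  intro s hs
  obtain ⟨b, hb, hu⟩ := hB.2 s hs
  exact ⟨b, ⟨(hmem b).mpr hb.1, hb.2⟩, fun c hc => hu c ⟨(hmem c).mp hc.1, hc.2⟩⟩
have hadj : ∀ v w : B, (Cfsg.blockGraph B).Adj v w ↔
    (w : Finset α) ≠ v ∧ Disjoint (v : Finset α) w := by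
  intro v w
  unfold Cfsg.blockGraph
  rw [SimpleGraph.fromRel_adj]
  constructor
  · rintro ⟨hne, h | h⟩
    · exact ⟨fun h' => hne (Subtype.ext h'.symm), h⟩
    · exact ⟨fun h' => hne (Subtype.ext h'.symm), h.symm⟩
  · rintro ⟨hne, h⟩
    exact ⟨fun h' => hne (congrArg Subtype.val h').symm, Or.inl h⟩
have hcount : ∀ (p : Finset α → Prop),
    Nat.card {w : B // p (w : Finset α)} = (Bf.filter p).card := by
  intro p
  have e : {w : B // p (w : Finset α)} ≃ {d // d ∈ Bf.filter p} :=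
    { toFun := fun w => ⟨w.1.1, Finset.mem_filter.mpr ⟨(hmem _).mpr w.1.2, w.2⟩⟩
      invFun := fun d => ⟨⟨d.1, (hmem _).mp (Finset.mem_filter.mp d.2).1⟩,
        (Finset.mem_filter.mp d.2).2⟩
      left_inv := fun w => rfl
      right_inv := fun d => rfl }
  rw [Nat.card_congr e, Nat.card_eq_fintype_card, Fintype.card_coe]
have hcn : ∀ v w : B, (v : Finset α) ≠ w →
    Nat.card ((Cfsg.blockGraph B).commonNeighbors v w) = 2 * ((v : Finset α) ∩ w).card := by
  intro v w hne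
  have e : ((Cfsg.blockGraph B).commonNeighbors v w) ≃
      {u : B // ((u : Finset α) ≠ v ∧ Disjoint (v : Finset α) u) ∧
        ((u : Finset α) ≠ w ∧ Disjoint (w : Finset α) u)} :=
    Equiv.subtypeEquivRight (fun u => by
      rw [SimpleGraph.mem_commonNeighbors, hadj, hadj])
  rw [Nat.card_congr e, hcount (fun d => (d ≠ (v : Finset α) ∧ Disjoint (v : Finset α) d) ∧
    (d ≠ (w : Finset α) ∧ Disjoint (w : Finset α) d))]
  convert Cfsg.Agent.Helper29.Steiner.st_common Bf h6 h3 hα ((hmem _).mpr v.2)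
    ((hmem _).mpr w.2) hne
refine ⟨?_, ?_, ?_, ?_⟩
· rw [Fintype.card_of_subtype Bf hmem]
  exact Cfsg.Agent.Helper29.Steiner.st_card Bf h6 h3 hα
· intro v
  rw [← SimpleGraph.card_neighborSet_eq_degree, Fintype.card_eq_nat_card]
  have e : ((Cfsg.blockGraph B).neighborSet v) ≃
      {u : B // (u : Finset α) ≠ v ∧ Disjoint (v : Finset α) u} :=
    Equiv.subtypeEquivRight (fun u => by
      rw [SimpleGraph.mem_neighborSet, hadj])
  rw [Nat.card_congr e, hcount (fun d => d ≠ (v : Finset α) ∧ Disjoint (v : Finset α) d)]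
  convert Cfsg.Agent.Helper29.Steiner.st_deg Bf h6 h3 hα ((hmem _).mpr v.2)
· intro v w hvw
  rw [Fintype.card_eq_nat_card]
  have h := (hadj v w).mp hvw
  rw [hcn v w (fun h' => h.1 h'.symm)]
  have : (v : Finset α) ∩ w = ∅ := Finset.disjoint_iff_inter_eq_empty.mp h.2
  rw [this]
  rfl
· intro v w hvw hnadj
  rw [Fintype.card_eq_nat_card]
  have hne : (v : Finset α) ≠ w := fun h' => hvw (Subtype.ext h')
  rw [hcn v w hne]
  have hnd : ¬ Disjoint (v : Finset α) w := by
    intro hd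
    exact hnadj ((hadj v w).mpr ⟨fun h' => hne h'.symm, hd⟩)
  rcases Cfsg.Agent.Helper29.Steiner.st_zero_or_two Bf h6 h3 hα ((hmem _).mpr w.2)
    ((hmem _).mpr v.2) hne with h0 | h2
  · exact absurd (Finset.disjoint_iff_inter_eq_empty.mpr (Finset.card_eq_zero.mp h0)) hnd
  · rw [h2]

end Cfsg.Agent.S0427
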