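import Cfsg.Statements.S0428
import Cfsg.Agent.Helper29.Steiner

set_option autoImplicit false
open Cfsg

namespace Cfsg.Agent.S0428

/-- The point-block graph of an S(3, 6, 22) is strongly regular with parameters (100, 22, 0, 6). -/
theorem result {α : Type*} [Fintype α] (hα : Fintype.card α = 22) {B : Set (Finset α)} (hB : Cfsg.IsSteinerSystem 3 6 B) [Fintype B] [DecidableRel (Cfsg.pointBlockGraph B).Adj] : (Cfsg.pointBlockGraph B).IsSRGWith 100 22 0 6 := by
  classical
set Bf : Finset (Finset α) := Finset.univ.filter (fun b => b ∈ B) with hBf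
have hmem : ∀ b, b ∈ Bf ↔ b ∈ B := by
  intro b
  simp [hBf]
have h6 : ∀ b ∈ Bf, b.card = 6 := fun b hb => hB.1 b ((hmem b).mp hb)
have h3 : ∀ s : Finset α, s.card = 3 → ∃! b, b ∈ Bf ∧ s ⊆ b := by
  intro s hs
  obtain ⟨b, hb, hu⟩ := hB.2 s hs
  exact ⟨b, ⟨(hmem b).mpr hb.1, hb.2⟩, fun c hc => hu c ⟨(hmem c).mp hc.1, hc.2⟩⟩
have hcount : ∀ (p : Finset α → Prop),
    Nat.card {w : B // p (w : Finset α)} = (Bf.filter p).card := by
  intro p
  have e : {w : B // p (w : Finset α)} ≃ {d // d ∈ Bf.filter p} :=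
    { toFun := fun w => ⟨w.1.1, Finset.mem_filter.mpr ⟨(hmem _).mpr w.1.2, w.2⟩⟩
      invFun := fun d => ⟨⟨d.1, (hmem _).mp (Finset.mem_filter.mp d.2).1⟩,
        (Finset.mem_filter.mp d.2).2⟩
      left_inv := fun w => rfl
      right_inv := fun d => rfl }
  rw [Nat.card_congr e, Nat.card_eq_fintype_card, Fintype.card_coe]
have hpt : ∀ s : Finset α, Nat.card {a : α // a ∈ s} = s.card := by
  intro s
  rw [Nat.card_eq_fintype_card, Fintype.card_coe]
have hBmem : ∀ b : B, (b : Finset α) ∈ Bf := fun b => (hmem _).mpr b.2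
have A_np : ∀ a : α, (Cfsg.pointBlockGraph B).Adj none (some (Sum.inl a)) := by
  intro a
  unfold Cfsg.pointBlockGraph
  rw [SimpleGraph.fromRel_adj]
  simp [Cfsg.pointBlockRel]
have A_pn : ∀ a : α, (Cfsg.pointBlockGraph B).Adj (some (Sum.inl a)) none := fun a => (A_np a).symm
have A_nb : ∀ b : B, ¬ (Cfsg.pointBlockGraph B).Adj none (some (Sum.inr b)) := by
  intro b
  unfold Cfsg.pointBlockGraph
  rw [SimpleGraph.fromRel_adj]
  simp [Cfsg.pointBlockRel]
have A_bn : ∀ b : B, ¬ (Cfsg.pointBlockGraph B).Adj (some (Sum.inr b)) none := fun b h => A_nb b h.symm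
have A_nn : ¬ (Cfsg.pointBlockGraph B).Adj none none := (Cfsg.pointBlockGraph B).loopless.irrefl _
have A_pp : ∀ a a' : α, ¬ (Cfsg.pointBlockGraph B).Adj (some (Sum.inl a)) (some (Sum.inl a')) := by
  intro a a'
  unfold Cfsg.pointBlockGraph
  rw [SimpleGraph.fromRel_adj]
  simp [Cfsg.pointBlockRel]
have A_pb : ∀ (a : α) (b : B), (Cfsg.pointBlockGraph B).Adj (some (Sum.inl a)) (some (Sum.inr b)) ↔
    a ∈ (b : Finset α) := by
  intro a b
  unfold Cfsg.pointBlockGraph
  rw [SimpleGraph.fromRel_adj]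
  simp [Cfsg.pointBlockRel]
have A_bp : ∀ (b : B) (a : α), (Cfsg.pointBlockGraph B).Adj (some (Sum.inr b)) (some (Sum.inl a)) ↔
    a ∈ (b : Finset α) := fun b a => ((Cfsg.pointBlockGraph B).adj_comm _ _).trans (A_pb a b)
have A_bb : ∀ b c : B, (Cfsg.pointBlockGraph B).Adj (some (Sum.inr b)) (some (Sum.inr c)) ↔
    (c : Finset α) ≠ b ∧ Disjoint (b : Finset α) c := by
  intro b c
  unfold Cfsg.pointBlockGraph
  rw [SimpleGraph.fromRel_adj]
  simp only [Cfsg.pointBlockRel]
  constructor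
  · rintro ⟨hne, h | h⟩
    · exact ⟨fun h' => hne (by rw [Subtype.ext h']), h⟩
    · exact ⟨fun h' => hne (by rw [Subtype.ext h']), h.symm⟩
  · rintro ⟨hne, h⟩
    refine ⟨fun h' => hne ?_, Or.inl h⟩
    simp only [Option.some.injEq, Sum.inr.injEq] at h'
    rw [h']
have hPKK : ∀ (a : α) (b c : B), a ∈ (b : Finset α) → a ∈ (c : Finset α) →
    ¬ Disjoint (b : Finset α) c := fun a b c hb hc hd => Finset.disjoint_left.mp hd hb hc
have hKKK : ∀ b c d : B, (Cfsg.pointBlockGraph B).Adj (some (Sum.inr b)) (some (Sum.inr c)) →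
    (Cfsg.pointBlockGraph B).Adj (some (Sum.inr b)) (some (Sum.inr d)) → (Cfsg.pointBlockGraph B).Adj (some (Sum.inr c)) (some (Sum.inr d)) →
    False := by
  intro b c d hbc hbd hcd
  rw [A_bb] at hbc hbd hcd
  have hcn := Cfsg.Agent.Helper29.Steiner.st_common Bf h6 h3 hα (hBmem b) (hBmem c)
    (fun h' => hbc.1 h'.symm)
  rw [Finset.disjoint_iff_inter_eq_empty.mp hbc.2, Finset.card_empty, mul_zero,
    Finset.card_eq_zero] at hcn
  have : (d : Finset α) ∈ Bf.filter (fun d => (d ≠ (b : Finset α) ∧ Disjoint (b : Finset α) d) ∧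
      (d ≠ (c : Finset α) ∧ Disjoint (c : Finset α) d)) :=
    Finset.mem_filter.mpr ⟨hBmem d, hbd, hcd⟩
  rw [hcn] at this
  exact absurd this (Finset.notMem_empty _)
refine ⟨?_, ?_, ?_, ?_⟩
· have hB77 : Fintype.card B = 77 := by
    rw [Fintype.card_of_subtype Bf hmem]
    exact Cfsg.Agent.Helper29.Steiner.st_card Bf h6 h3 hα
  rw [Fintype.card_option, Fintype.card_sum, hα, hB77]
· intro v
  rw [← SimpleGraph.card_neighborSet_eq_degree, Fintype.card_eq_nat_card]
  change Nat.card {u // (Cfsg.pointBlockGraph B).Adj v u} = 22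
  rw [Cfsg.Agent.Helper29.Steiner.st_card_option_sum]
  rcases v with _ | (a | b)
  · rw [Cfsg.Agent.Helper29.Steiner.st_card_unit_false _ A_nn,
      Cfsg.Agent.Helper29.Steiner.st_card_sub_true _ _ A_np,
      Cfsg.Agent.Helper29.Steiner.st_card_sub_false _ A_nb, Nat.card_eq_fintype_card, hα]
  · have t3 : Nat.card {c : B // (Cfsg.pointBlockGraph B).Adj (some (Sum.inl a)) (some (Sum.inr c))} = 21 := by
      rw [Cfsg.Agent.Helper29.Steiner.st_card_sub_congr _ _ (A_pb a), hcount (fun d => a ∈ d)]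
      convert Cfsg.Agent.Helper29.Steiner.st_point Bf h6 h3 hα a
    rw [Cfsg.Agent.Helper29.Steiner.st_card_unit_true _ (A_pn a),
      Cfsg.Agent.Helper29.Steiner.st_card_sub_false _ (A_pp a), t3]
  · have t2 : Nat.card {a : α // (Cfsg.pointBlockGraph B).Adj (some (Sum.inr b)) (some (Sum.inl a))} = 6 := by
      rw [Cfsg.Agent.Helper29.Steiner.st_card_sub_congr _ _ (A_bp b), hpt, h6 _ (hBmem b)]
    have t3 : Nat.card {c : B // (Cfsg.pointBlockGraph B).Adj (some (Sum.inr b)) (some (Sum.inr c))} = 16 := by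
      rw [Cfsg.Agent.Helper29.Steiner.st_card_sub_congr _ _ (A_bb b),
        hcount (fun d => d ≠ (b : Finset α) ∧ Disjoint (b : Finset α) d)]
      convert Cfsg.Agent.Helper29.Steiner.st_deg Bf h6 h3 hα (hBmem b)
    rw [Cfsg.Agent.Helper29.Steiner.st_card_unit_false _ (A_bn b), t2, t3]
· intro v w hvw
  rw [Fintype.card_eq_nat_card]
  change Nat.card {u // (Cfsg.pointBlockGraph B).Adj v u ∧ (Cfsg.pointBlockGraph B).Adj w u} = 0
  apply Cfsg.Agent.Helper29.Steiner.st_card_sub_false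
  rintro u ⟨h1, h2⟩
  rcases v with _ | (a | b) <;> rcases w with _ | (a' | b') <;> rcases u with _ | (a'' | b'') <;>
  first
  | exact A_nn hvw | exact A_nn h1 | exact A_nn h2
  | exact A_nb _ hvw | exact A_nb _ h1 | exact A_nb _ h2
  | exact A_bn _ hvw | exact A_bn _ h1 | exact A_bn _ h2
  | exact A_pp _ _ hvw | exact A_pp _ _ h1 | exact A_pp _ _ h2
  | exact hPKK _ _ _ ((A_pb _ _).mp hvw) ((A_pb _ _).mp h1) ((A_bb _ _).mp h2).2
  | exact hPKK _ _ _ ((A_bp _ _).mp hvw) ((A_pb _ _).mp h2) ((A_bb _ _).mp h1).2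
  | exact hPKK _ _ _ ((A_bp _ _).mp h1) ((A_bp _ _).mp h2) ((A_bb _ _).mp hvw).2
  | exact hKKK _ _ _ hvw h1 h2
· intro v w hne hnadj
  rw [Fintype.card_eq_nat_card]
  change Nat.card {u // (Cfsg.pointBlockGraph B).Adj v u ∧ (Cfsg.pointBlockGraph B).Adj w u} = 6
  rw [Cfsg.Agent.Helper29.Steiner.st_card_option_sum]
  rcases v with _ | (a | b) <;> rcases w with _ | (a' | b')
  · exact absurd rfl hne
  · exact absurd (A_np a') hnadj
  · have t1 : Nat.card {x : Unit // (Cfsg.pointBlockGraph B).Adj none none ∧ (Cfsg.pointBlockGraph B).Adj (some (Sum.inr b')) none} = 0 :=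
      Cfsg.Agent.Helper29.Steiner.st_card_unit_false _ (fun h => A_nn h.1)
    have t2 : Nat.card {a : α // (Cfsg.pointBlockGraph B).Adj none (some (Sum.inl a)) ∧
        (Cfsg.pointBlockGraph B).Adj (some (Sum.inr b')) (some (Sum.inl a))} = 6 := by
      rw [Cfsg.Agent.Helper29.Steiner.st_card_sub_congr _ (fun a => a ∈ (b' : Finset α))
        (fun a => ⟨fun h => (A_bp b' a).mp h.2, fun h => ⟨A_np a, (A_bp b' a).mpr h⟩⟩), hpt,
        h6 _ (hBmem b')]
    have t3 : Nat.card {c : B // (Cfsg.pointBlockGraph B).Adj none (some (Sum.inr c)) ∧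
        (Cfsg.pointBlockGraph B).Adj (some (Sum.inr b')) (some (Sum.inr c))} = 0 :=
      Cfsg.Agent.Helper29.Steiner.st_card_sub_false _ (fun c h => A_nb c h.1)
    rw [t1, t2, t3]
  · exact absurd (A_pn a) hnadj
  · have haa' : a ≠ a' := fun h => hne (by rw [h])
    have t1 : Nat.card {x : Unit // (Cfsg.pointBlockGraph B).Adj (some (Sum.inl a)) none ∧
        (Cfsg.pointBlockGraph B).Adj (some (Sum.inl a')) none} = 1 :=
      Cfsg.Agent.Helper29.Steiner.st_card_unit_true _ ⟨A_pn a, A_pn a'⟩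
    have t2 : Nat.card {x : α // (Cfsg.pointBlockGraph B).Adj (some (Sum.inl a)) (some (Sum.inl x)) ∧
        (Cfsg.pointBlockGraph B).Adj (some (Sum.inl a')) (some (Sum.inl x))} = 0 :=
      Cfsg.Agent.Helper29.Steiner.st_card_sub_false _ (fun x h => A_pp a x h.1)
    have t3 : Nat.card {c : B // (Cfsg.pointBlockGraph B).Adj (some (Sum.inl a)) (some (Sum.inr c)) ∧
        (Cfsg.pointBlockGraph B).Adj (some (Sum.inl a')) (some (Sum.inr c))} = 5 := by
      rw [Cfsg.Agent.Helper29.Steiner.st_card_sub_congr _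
        (fun c : B => a ∈ (c : Finset α) ∧ a' ∈ (c : Finset α))
        (fun c => and_congr (A_pb a c) (A_pb a' c)), hcount (fun d => a ∈ d ∧ a' ∈ d)]
      convert Cfsg.Agent.Helper29.Steiner.st_pair Bf h6 h3 hα a a' haa'
    rw [t1, t2, t3]
  · have ha : a ∉ (b' : Finset α) := fun h => hnadj ((A_pb a b').mpr h)
    have t1 : Nat.card {x : Unit // (Cfsg.pointBlockGraph B).Adj (some (Sum.inl a)) none ∧
        (Cfsg.pointBlockGraph B).Adj (some (Sum.inr b')) none} = 0 :=
      Cfsg.Agent.Helper29.Steiner.st_card_unit_false _ (fun h => A_bn b' h.2)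
    have t2 : Nat.card {x : α // (Cfsg.pointBlockGraph B).Adj (some (Sum.inl a)) (some (Sum.inl x)) ∧
        (Cfsg.pointBlockGraph B).Adj (some (Sum.inr b')) (some (Sum.inl x))} = 0 :=
      Cfsg.Agent.Helper29.Steiner.st_card_sub_false _ (fun x h => A_pp a x h.1)
    have t3 : Nat.card {c : B // (Cfsg.pointBlockGraph B).Adj (some (Sum.inl a)) (some (Sum.inr c)) ∧
        (Cfsg.pointBlockGraph B).Adj (some (Sum.inr b')) (some (Sum.inr c))} = 6 := by
      rw [Cfsg.Agent.Helper29.Steiner.st_card_sub_congr _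
        (fun c : B => a ∈ (c : Finset α) ∧ Disjoint (b' : Finset α) c)
        (fun c => by
          rw [A_pb, A_bb]
          constructor
          · rintro ⟨h1, -, h2⟩
            exact ⟨h1, h2⟩
          · rintro ⟨h1, h2⟩
            exact ⟨h1, fun h' => ha (h' ▸ h1), h2⟩),
        hcount (fun d => a ∈ d ∧ Disjoint (b' : Finset α) d)]
      convert Cfsg.Agent.Helper29.Steiner.st_point_block Bf h6 h3 hα (hBmem b') a ha
    rw [t1, t2, t3]
  · have t1 : Nat.card {x : Unit // (Cfsg.pointBlockGraph B).Adj (some (Sum.inr b)) none ∧ (Cfsg.pointBlockGraph B).Adj none none} = 0 :=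
      Cfsg.Agent.Helper29.Steiner.st_card_unit_false _ (fun h => A_nn h.2)
    have t2 : Nat.card {a : α // (Cfsg.pointBlockGraph B).Adj (some (Sum.inr b)) (some (Sum.inl a)) ∧
        (Cfsg.pointBlockGraph B).Adj none (some (Sum.inl a))} = 6 := by
      rw [Cfsg.Agent.Helper29.Steiner.st_card_sub_congr _ (fun a => a ∈ (b : Finset α))
        (fun a => ⟨fun h => (A_bp b a).mp h.1, fun h => ⟨(A_bp b a).mpr h, A_np a⟩⟩), hpt,
        h6 _ (hBmem b)]
    have t3 : Nat.card {c : B // (Cfsg.pointBlockGraph B).Adj (some (Sum.inr b)) (some (Sum.inr c)) ∧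
        (Cfsg.pointBlockGraph B).Adj none (some (Sum.inr c))} = 0 :=
      Cfsg.Agent.Helper29.Steiner.st_card_sub_false _ (fun c h => A_nb c h.2)
    rw [t1, t2, t3]
  · have ha : a' ∉ (b : Finset α) := fun h => hnadj ((A_bp b a').mpr h)
    have t1 : Nat.card {x : Unit // (Cfsg.pointBlockGraph B).Adj (some (Sum.inr b)) none ∧
        (Cfsg.pointBlockGraph B).Adj (some (Sum.inl a')) none} = 0 :=
      Cfsg.Agent.Helper29.Steiner.st_card_unit_false _ (fun h => A_bn b h.1)
    have t2 : Nat.card {x : α // (Cfsg.pointBlockGraph B).Adj (some (Sum.inr b)) (some (Sum.inl x)) ∧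
        (Cfsg.pointBlockGraph B).Adj (some (Sum.inl a')) (some (Sum.inl x))} = 0 :=
      Cfsg.Agent.Helper29.Steiner.st_card_sub_false _ (fun x h => A_pp a' x h.2)
    have t3 : Nat.card {c : B // (Cfsg.pointBlockGraph B).Adj (some (Sum.inr b)) (some (Sum.inr c)) ∧
        (Cfsg.pointBlockGraph B).Adj (some (Sum.inl a')) (some (Sum.inr c))} = 6 := by
      rw [Cfsg.Agent.Helper29.Steiner.st_card_sub_congr _
        (fun c : B => a' ∈ (c : Finset α) ∧ Disjoint (b : Finset α) c)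
        (fun c => by
          rw [A_pb, A_bb]
          constructor
          · rintro ⟨⟨-, h2⟩, h1⟩
            exact ⟨h1, h2⟩
          · rintro ⟨h1, h2⟩
            exact ⟨⟨fun h' => ha (h' ▸ h1), h2⟩, h1⟩),
        hcount (fun d => a' ∈ d ∧ Disjoint (b : Finset α) d)]
      convert Cfsg.Agent.Helper29.Steiner.st_point_block Bf h6 h3 hα (hBmem b) a' ha
    rw [t1, t2, t3]
  · have hne' : (b : Finset α) ≠ b' := fun h => hne (by rw [Subtype.ext h])
    have hnd : ¬ Disjoint (b : Finset α) b' := fun hd =>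
      hnadj ((A_bb b b').mpr ⟨fun h' => hne' h'.symm, hd⟩)
    have hk : ((b : Finset α) ∩ b').card = 2 := by
      rcases Cfsg.Agent.Helper29.Steiner.st_zero_or_two Bf h6 h3 hα (hBmem b') (hBmem b) hne'
        with h0 | h2
      · exact absurd (Finset.disjoint_iff_inter_eq_empty.mpr (Finset.card_eq_zero.mp h0)) hnd
      · exact h2
    have t1 : Nat.card {x : Unit // (Cfsg.pointBlockGraph B).Adj (some (Sum.inr b)) none ∧
        (Cfsg.pointBlockGraph B).Adj (some (Sum.inr b')) none} = 0 :=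
      Cfsg.Agent.Helper29.Steiner.st_card_unit_false _ (fun h => A_bn b h.1)
    have t2 : Nat.card {x : α // (Cfsg.pointBlockGraph B).Adj (some (Sum.inr b)) (some (Sum.inl x)) ∧
        (Cfsg.pointBlockGraph B).Adj (some (Sum.inr b')) (some (Sum.inl x))} = 2 := by
      rw [Cfsg.Agent.Helper29.Steiner.st_card_sub_congr _
        (fun x => x ∈ (b : Finset α) ∩ b')
        (fun x => by rw [A_bp, A_bp, Finset.mem_inter]), hpt, hk]
    have t3 : Nat.card {c : B // (Cfsg.pointBlockGraph B).Adj (some (Sum.inr b)) (some (Sum.inr c)) ∧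
        (Cfsg.pointBlockGraph B).Adj (some (Sum.inr b')) (some (Sum.inr c))} = 4 := by
      rw [Cfsg.Agent.Helper29.Steiner.st_card_sub_congr _
        (fun c : B => ((c : Finset α) ≠ b ∧ Disjoint (b : Finset α) c) ∧
          ((c : Finset α) ≠ b' ∧ Disjoint (b' : Finset α) c))
        (fun c => and_congr (A_bb b c) (A_bb b' c)),
        hcount (fun d => (d ≠ (b : Finset α) ∧ Disjoint (b : Finset α) d) ∧
          (d ≠ (b' : Finset α) ∧ Disjoint (b' : Finset α) d))]
      have hcn := Cfsg.Agent.Helper29.Steiner.st_common Bf h6 h3 hα (hBmem b) (hBmem b') hne'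
      rw [hk] at hcn
      convert hcn
    rw [t1, t2, t3]

end Cfsg.Agent.S0428
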