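import Cfsg.Statements.S0439
-- import your own Cfsg.Agent.* helpers here

set_option autoImplicit false
open Cfsg

namespace Cfsg.Agent.S0439

/-- In the symmetric group of degree n ≥ 2, the set of transpositions is a conjugacy class of 3-transpositions which generates the group. -/
theorem result (n : ℕ) (hn : 2 ≤ n) : Cfsg.IsThreeTranspositionClass {σ : Equiv.Perm (Fin n) | σ.IsSwap} := by
  refine ⟨⟨?_, ?_⟩, ?_, ?_⟩
  · intro d hd
    exact Equiv.Perm.IsSwap.orderOf hd
  · intro d hd e he
    obtain ⟨a, b, hab, rfl⟩ := hd
    obtain ⟨c, d', hcd, rfl⟩ := he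
    have three : ∀ x y z : Fin n, x ≠ y → x ≠ z → y ≠ z →
        (Equiv.swap x y * Equiv.swap x z) ^ 3 = 1 := by
      intro x y z h1 h2 h3
      have := (Equiv.Perm.isThreeCycle_swap_mul_swap_same h1 h2 h3).orderOf
      rw [← this]; exact pow_orderOf_eq_one _
    by_cases hca : c = a
    · subst hca
      by_cases hdb : d' = b
      · subst hdb
        left; simp
      · right; exact three c b d' hab hcd (Ne.symm hdb)
    · by_cases hcb : c = b
      · subst hcb
        rw [Equiv.swap_comm a c]
        by_cases hda : d' = a
        · subst hda; left; simp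
        · right; exact three c a d' (Ne.symm hab) hcd (Ne.symm hda)
      · by_cases hda : d' = a
        · subst hda
          rw [Equiv.swap_comm c d']
          right; exact three d' b c hab (Ne.symm hca) (Ne.symm hcb)
        · by_cases hdb : d' = b
          · subst hdb
            rw [Equiv.swap_comm c d', Equiv.swap_comm a d']
            right; exact three d' a c (Ne.symm hab) (Ne.symm hcb) (Ne.symm hca)
          · left
            have hdis : Equiv.Perm.Disjoint (Equiv.swap a b) (Equiv.swap c d') :=
              Equiv.Perm.disjoint_swap_swap (by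
                simp only [List.nodup_cons, List.mem_cons, List.not_mem_nil, or_false,
                  not_or, List.nodup_nil, and_true, not_false_eq_true]
                exact ⟨⟨hab, Ne.symm hca, Ne.symm hda⟩, ⟨Ne.symm hcb, Ne.symm hdb⟩, hcd⟩)
            rw [hdis.commute.mul_pow, pow_two, pow_two, Equiv.swap_mul_self, Equiv.swap_mul_self, one_mul]
  · have h01 : (⟨0, by omega⟩ : Fin n) ≠ ⟨1, by omega⟩ := by
      intro h
      exact absurd (congrArg Fin.val h) (by norm_num)
    refine ⟨Equiv.swap (⟨0, by omega⟩ : Fin n) ⟨1, by omega⟩, ⟨_, _, h01, rfl⟩, ?_⟩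
    ext σ
    constructor
    · rintro ⟨x, y, hxy, rfl⟩
      exact Equiv.Perm.isConj_swap h01 hxy
    · intro hconj
      have hconj' : IsConj (Equiv.swap (⟨0, by omega⟩ : Fin n) ⟨1, by omega⟩) σ := hconj
      obtain ⟨c, hc⟩ := isConj_iff.mp hconj'
      rw [← hc, ← Equiv.swap_apply_apply]
      exact ⟨_, _, fun h => h01 (c.injective h), rfl⟩
  · exact Equiv.Perm.closure_isSwap

end Cfsg.Agent.S0439
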