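import Cfsg.Statements.S0440
-- import your own Cfsg.Agent.* helpers here
import Mathlib
import Cfsg.Agent.S0269
import Cfsg.Agent.S0765
import Cfsg.Agent.Helper15.SpCard
import Cfsg.Agent.Helper5.SympGen
import Cfsg.Agent.Helper5.StabProd
import Cfsg.Agent.Helper5.Transp

set_option autoImplicit false
open Cfsg

namespace Cfsg.Agent.S0440

open Matrix Cfsg.Agent.Helper5

/-- The transvection in the vector `w` as an element of the symplectic group over `ZMod 2`. -/
noncomputable def tv (n : ℕ) (w : Fin n ⊕ Fin n → ZMod 2) :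
    Matrix.symplecticGroup (Fin n) (ZMod 2) :=
  ⟨Cfsg.sympTransvection n w 1, Cfsg.Agent.Helper6.sympTransvection_mem n w 1⟩

theorem tv_mulVec (n : ℕ) (w x : Fin n ⊕ Fin n → ZMod 2) :
    (tv n w : Matrix (Fin n ⊕ Fin n) (Fin n ⊕ Fin n) (ZMod 2)) *ᵥ x = x + sB n x w • w := by
  change Cfsg.sympTransvection n w 1 *ᵥ x = _
  rw [transv_mulVec]
  change x + (1 * sB n x w) • w = _
  rw [one_mul]

theorem sB_symm (n : ℕ) (x y : Fin n ⊕ Fin n → ZMod 2) : sB n x y = sB n y x := by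
  have hneg : ∀ p : ZMod 2, -p = p := by decide
  exact (hneg _).symm.trans (LinearMap.BilinForm.IsAlt.neg_eq (sB_alt n) x y)

theorem tv_sq (n : ℕ) (w : Fin n ⊕ Fin n → ZMod 2) : tv n w * tv n w = 1 := by
  apply Subtype.ext
  apply mat_ext
  intro x
  change ((tv n w : Matrix (Fin n ⊕ Fin n) (Fin n ⊕ Fin n) (ZMod 2))
    * (tv n w : Matrix (Fin n ⊕ Fin n) (Fin n ⊕ Fin n) (ZMod 2))) *ᵥ x
      = (1 : Matrix (Fin n ⊕ Fin n) (Fin n ⊕ Fin n) (ZMod 2)) *ᵥ x
  rw [← Matrix.mulVec_mulVec, tv_mulVec, tv_mulVec, Matrix.one_mulVec, map_add,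
    LinearMap.add_apply, map_smul, LinearMap.smul_apply, sB_alt n w, smul_zero, add_zero,
    add_assoc, ← add_smul, CharTwo.add_self_eq_zero, zero_smul, add_zero]

theorem tv_conj (n : ℕ) (g : Matrix.symplecticGroup (Fin n) (ZMod 2))
    (w : Fin n ⊕ Fin n → ZMod 2) :
    g * tv n w * g⁻¹
      = tv n ((g : Matrix (Fin n ⊕ Fin n) (Fin n ⊕ Fin n) (ZMod 2)) *ᵥ w) := by
  have h : g * tv n w
      = tv n ((g : Matrix (Fin n ⊕ Fin n) (Fin n ⊕ Fin n) (ZMod 2)) *ᵥ w) * g :=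
    Subtype.ext (Cfsg.Agent.S0269.transv_conj_mat n g.1 g.2 w 1)
  rw [h, mul_assoc, mul_inv_cancel, mul_one]

theorem tv_ne_one (n : ℕ) (w : Fin n ⊕ Fin n → ZMod 2) (hw : w ≠ 0) : tv n w ≠ 1 := by
  intro h
  obtain ⟨x, hx⟩ : ∃ x, sB n x w ≠ 0 := by
    by_contra hcon
    push Not at hcon
    exact hw ((sB_nondeg n).2 w hcon)
  have h1 := tv_mulVec n w x
  rw [h] at h1
  change (1 : Matrix (Fin n ⊕ Fin n) (Fin n ⊕ Fin n) (ZMod 2)) *ᵥ x = _ at h1
  rw [Matrix.one_mulVec] at h1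
  have h2 : sB n x w • w = 0 := left_eq_add.1 h1
  rcases smul_eq_zero.1 h2 with h3 | h3
  · exact hx h3
  · exact hw h3

theorem tv_rank (n : ℕ) (w : Fin n ⊕ Fin n → ZMod 2) (hw : w ≠ 0) :
    ((tv n w : Matrix (Fin n ⊕ Fin n) (Fin n ⊕ Fin n) (ZMod 2)) - 1).rank = 1 := by
  have h : (tv n w : Matrix (Fin n ⊕ Fin n) (Fin n ⊕ Fin n) (ZMod 2)) - 1
      = Matrix.vecMulVec w (Matrix.J (Fin n) (ZMod 2) *ᵥ w) := by
    change Cfsg.sympTransvection n w 1 - 1 = _
    unfold Cfsg.sympTransvection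
    rw [one_smul, add_sub_cancel_left]
  rw [h]
  apply rank_vecMulVec_one _ _ hw
  intro h0
  apply hw
  apply (sB_nondeg n).2 w
  intro x
  rw [sB_apply]
  unfold Cfsg.sympForm
  rw [h0, dotProduct_zero]

theorem mem_D_iff (n : ℕ) (g : Matrix.symplecticGroup (Fin n) (ZMod 2)) :
    ((g : Matrix (Fin n ⊕ Fin n) (Fin n ⊕ Fin n) (ZMod 2)) - 1).rank = 1
      ↔ ∃ w, w ≠ 0 ∧ g = tv n w := by
  constructor
  · intro hr
    obtain ⟨a, b, ha, hb, hN⟩ := Cfsg.Agent.Helper15.rank_one_decomp_gen _ hr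
    have hg : (g : Matrix (Fin n ⊕ Fin n) (Fin n ⊕ Fin n) (ZMod 2))
        = 1 + Matrix.vecMulVec a b := by
      rw [← hN]
      abel
    have hgx : ∀ x, (g : Matrix (Fin n ⊕ Fin n) (Fin n ⊕ Fin n) (ZMod 2)) *ᵥ x
        = x + (b ⬝ᵥ x) • a := by
      intro x
      rw [hg, Matrix.add_mulVec, Matrix.one_mulVec, Matrix.vecMulVec_mulVec, op_smul_eq_smul]
    have hkey : ∀ x y, (b ⬝ᵥ y) * sB n x a + (b ⬝ᵥ x) * sB n a y = 0 := by
      intro x y
      have h := sp_preserves n g.1 g.2 x y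
      rw [hgx, hgx] at h
      simp only [map_add, map_smul, LinearMap.add_apply, LinearMap.smul_apply, smul_eq_mul,
        sB_alt n a] at h
      linear_combination h
    obtain ⟨j, hj⟩ := Function.ne_iff.1 hb
    have hone : ∀ p : ZMod 2, p ≠ 0 → p = 1 := by decide
    have hz2 : ∀ p q : ZMod 2, p + q = 0 → p = q := by decide
    have hy0 : b ⬝ᵥ (Pi.single j 1) = 1 := by
      rw [dotProduct_single_one]
      exact hone _ hj
    have hform : ∀ x, sB n x a = (b ⬝ᵥ x) * sB n a (Pi.single j 1) := by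
      intro x
      have h := hkey x (Pi.single j 1)
      rw [hy0, one_mul] at h
      exact hz2 _ _ h
    have hc1 : sB n a (Pi.single j 1) = 1 := by
      apply hone
      intro h0
      apply ha
      apply (sB_nondeg n).2 a
      intro x
      rw [hform, h0, mul_zero]
    refine ⟨a, ha, ?_⟩
    apply Subtype.ext
    apply mat_ext
    intro x
    rw [hgx, tv_mulVec, hform, hc1, mul_one]
  · rintro ⟨w, hw, rfl⟩
    exact tv_rank n w hw

theorem tv_three (n : ℕ) (u v : Fin n ⊕ Fin n → ZMod 2) :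
    (tv n u * tv n v) ^ 2 = 1 ∨ (tv n u * tv n v) ^ 3 = 1 := by
  have hcases : ∀ p : ZMod 2, p = 0 ∨ p = 1 := by decide
  rcases hcases (sB n u v) with h | h
  · left
    apply (three_transp_aux (tv n u) (tv n v) (tv n v) (tv_sq n u) (tv_sq n v) (tv_sq n v)).1
    rw [tv_conj, tv_mulVec, sB_symm n v u, h, zero_smul, add_zero]
  · right
    apply (three_transp_aux (tv n u) (tv n v) (tv n (u + v)) (tv_sq n u) (tv_sq n v)
      (tv_sq n _)).2
    · rw [tv_conj, tv_mulVec, sB_symm n v u, h, one_smul, add_comm]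
    · rw [tv_conj, tv_mulVec, h, one_smul]

theorem single_ne (m : ℕ) :
    (Pi.single (Sum.inr 0) 1 : Fin (m + 1) ⊕ Fin (m + 1) → ZMod 2) ≠ 0 := by
  intro h
  have h1 := congrFun h (Sum.inr 0)
  simp at h1

/-- In the symplectic group in dimension 2n ≥ 2 over the field with two elements, the elements g for which g - 1 has rank one (the symplectic transvections) form a conjugacy class of 3-transpositions generating the group. -/
theorem result (n : ℕ) (hn : 1 ≤ n) : Cfsg.IsThreeTranspositionClass {g : Matrix.symplecticGroup (Fin n) (ZMod 2) | ((g : Matrix (Fin n ⊕ Fin n) (Fin n ⊕ Fin n) (ZMod 2)) - 1).rank = 1} := by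
  obtain ⟨m, rfl⟩ : ∃ m, n = m + 1 := ⟨n - 1, by omega⟩
  have hD := mem_D_iff (m + 1)
  refine ⟨⟨?_, ?_⟩, ?_, ?_⟩
  · intro d hd
    obtain ⟨w, hw, rfl⟩ := (hD d).1 hd
    exact orderOf_eq_prime (by rw [pow_two]; exact tv_sq _ w) (tv_ne_one _ w hw)
  · intro d hd e he
    obtain ⟨u, hu, rfl⟩ := (hD d).1 hd
    obtain ⟨v, hv, rfl⟩ := (hD e).1 he
    exact tv_three (m + 1) u v
  · refine ⟨tv (m + 1) (Pi.single (Sum.inr 0) 1), (hD _).2 ⟨_, single_ne m, rfl⟩, ?_⟩
    ext g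
    rw [Set.mem_ofPred_eq, hD]
    change _ ↔ IsConj _ g
    rw [isConj_iff]
    constructor
    · rintro ⟨w, hw, rfl⟩
      obtain ⟨c, hc⟩ := Cfsg.Agent.Helper15.sp_exists_mulVec_eq m w hw
      exact ⟨c, by rw [tv_conj, hc]⟩
    · rintro ⟨c, rfl⟩
      rw [tv_conj]
      refine ⟨_, ?_, rfl⟩
      intro h0
      have h1 : ((c⁻¹ * c : Matrix.symplecticGroup (Fin (m + 1)) (ZMod 2)) :
          Matrix (Fin (m + 1) ⊕ Fin (m + 1)) (Fin (m + 1) ⊕ Fin (m + 1)) (ZMod 2))
            *ᵥ (Pi.single (Sum.inr 0) 1) = Pi.single (Sum.inr 0) 1 := by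
        rw [inv_mul_cancel]
        exact Matrix.one_mulVec _
      rw [Submonoid.coe_mul, ← Matrix.mulVec_mulVec, h0, Matrix.mulVec_zero] at h1
      exact single_ne m h1.symm
  · rw [eq_top_iff, ← Cfsg.Agent.S0765.result (m + 1)]
    apply (Subgroup.closure_le _).2
    rintro A ⟨w, c, hA⟩
    have hcases : ∀ p : ZMod 2, p = 0 ∨ p = 1 := by decide
    rcases hcases c with rfl | rfl
    · have hA1 : A = 1 := by
        apply Subtype.ext
        rw [hA]
        unfold Cfsg.sympTransvection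
        rw [zero_smul, add_zero]
        rfl
      rw [hA1]
      exact Subgroup.one_mem _
    · by_cases hw : w = 0
      · have hA1 : A = 1 := by
          apply Subtype.ext
          rw [hA, hw]
          unfold Cfsg.sympTransvection
          rw [Matrix.zero_vecMulVec, smul_zero, add_zero]
          rfl
        rw [hA1]
        exact Subgroup.one_mem _
      · apply Subgroup.subset_closure
        exact (hD A).2 ⟨w, hw, Subtype.ext hA⟩

end Cfsg.Agent.S0440
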