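import Cfsg.Statements.S0442
import Mathlib.Tactic

set_option autoImplicit false
open Cfsg

namespace Cfsg.Agent.S0442

/-- A standard trick for producing elements of an involution centraliser: for an involution a and an element g, let b be the conjugate g⁻¹ * a * g. If a * b has odd order 2m + 1 then g * (a * b) ^ m commutes with a; if a * b has even order 2m then (a * b) ^ m and (a * (g * a * g⁻¹)) ^ m commute with a. -/
theorem result {G : Type*} [Group G] (a g : G) (ha : orderOf a = 2) : (∀ m : ℕ, orderOf (a * (g⁻¹ * a * g)) = 2 * m + 1 → Commute (g * (a * (g⁻¹ * a * g)) ^ m) a) ∧ (∀ m : ℕ, orderOf (a * (g⁻¹ * a * g)) = 2 * m → Commute ((a * (g⁻¹ * a * g)) ^ m) a ∧ Commute ((a * (g * a * g⁻¹)) ^ m) a) := by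
  have ha2 : a * a = 1 := by rw [← pow_two, ← ha, pow_orderOf_eq_one]
  have hai : a⁻¹ = a := inv_eq_of_mul_eq_one_left ha2
  have key : ∀ (b : G), b * b = 1 → ∀ m : ℕ, a * (a * b) ^ m * a⁻¹ = ((a * b) ^ m)⁻¹ := by
    intro b hb m
    rw [← conj_pow, ← inv_pow]
    congr 1
    rw [mul_inv_rev, hai, inv_eq_of_mul_eq_one_left hb, ← mul_assoc, ha2, one_mul]
  have comm_of : ∀ y : G, a * y * a⁻¹ = y → Commute y a := by
    intro y hy
    exact (mul_inv_eq_iff_eq_mul.mp hy).symm
  have hb : (g⁻¹ * a * g) * (g⁻¹ * a * g) = 1 := by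
    calc (g⁻¹ * a * g) * (g⁻¹ * a * g) = g⁻¹ * (a * a) * g := by group
      _ = 1 := by rw [ha2]; group
  have hb' : (g * a * g⁻¹) * (g * a * g⁻¹) = 1 := by
    calc (g * a * g⁻¹) * (g * a * g⁻¹) = g * (a * a) * g⁻¹ := by group
      _ = 1 := by rw [ha2]; group
  constructor
  · intro m hm
    have h1 : (a * (g⁻¹ * a * g)) ^ (2 * m + 1) = 1 := by rw [← hm]; exact pow_orderOf_eq_one _
    have h2 : ((a * (g⁻¹ * a * g)) ^ m)⁻¹ = (a * (g⁻¹ * a * g)) ^ (m + 1) := by
      apply inv_eq_of_mul_eq_one_right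
      rw [← pow_add]
      have : m + (m + 1) = 2 * m + 1 := by ring
      rw [this]; exact h1
    have h3 := key _ hb m
    rw [h2, hai] at h3
    have h4 : (a * (g⁻¹ * a * g)) ^ m * a = a * (a * (g⁻¹ * a * g)) ^ (m + 1) := by
      rw [← h3]
      generalize (a * (g⁻¹ * a * g)) ^ m = y
      calc y * a = (a * a) * y * a := by rw [ha2, one_mul]
        _ = a * (a * y * a) := by group
    show g * (a * (g⁻¹ * a * g)) ^ m * a = a * (g * (a * (g⁻¹ * a * g)) ^ m)
    rw [mul_assoc, h4, pow_succ']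
    generalize (a * (g⁻¹ * a * g)) ^ m = y
    calc g * (a * (a * (g⁻¹ * a * g) * y)) = g * (a * a) * g⁻¹ * a * g * y := by group
      _ = a * (g * y) := by rw [ha2]; group
  · intro m hm
    have h1 : (a * (g⁻¹ * a * g)) ^ (2 * m) = 1 := by rw [← hm]; exact pow_orderOf_eq_one _
    constructor
    · have h2 : ((a * (g⁻¹ * a * g)) ^ m)⁻¹ = (a * (g⁻¹ * a * g)) ^ m := by
        apply inv_eq_of_mul_eq_one_right
        rw [← pow_add, ← two_mul]; exact h1
      have h3 := key _ hb m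
      rw [h2] at h3
      exact comm_of _ h3
    · have hc' : a * (g * a * g⁻¹) = g * (a * (g⁻¹ * a * g))⁻¹ * g⁻¹ := by
        rw [mul_inv_rev, mul_inv_rev, mul_inv_rev, inv_inv, hai]; group
      have h1' : (a * (g * a * g⁻¹)) ^ (2 * m) = 1 := by
        rw [hc', conj_pow, inv_pow, h1]; group
      have h2 : ((a * (g * a * g⁻¹)) ^ m)⁻¹ = (a * (g * a * g⁻¹)) ^ m := by
        apply inv_eq_of_mul_eq_one_right
        rw [← pow_add, ← two_mul]; exact h1'
      have h3 := key _ hb' m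
      rw [h2] at h3
      exact comm_of _ h3

end Cfsg.Agent.S0442
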