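import Cfsg.Statements.S0443
import Cfsg.Agent.Helper4.Basic

set_option autoImplicit false
open Cfsg

namespace Cfsg.Agent.S0443

/-- Two definitions of a 2-central involution agree: an element t of order 2 of a finite group lies in the centre of some Sylow 2-subgroup if and only if its centraliser contains some Sylow 2-subgroup. -/
theorem result {G : Type*} [Group G] [Finite G] (t : G) (ht : orderOf t = 2) : Cfsg.IsTwoCentralInvolution t ↔ ∃ P : Sylow 2 G, (P : Subgroup G) ≤ Subgroup.centralizer ({t} : Set G) := by
  constructor
  · rintro ⟨_, P, _, hcomm⟩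
    refine ⟨P, fun x hx => ?_⟩
    rw [Subgroup.mem_centralizer_iff]
    intro h hh
    rw [Set.mem_singleton_iff] at hh
    rw [hh]
    exact (hcomm x hx).symm
  · rintro ⟨P, hP⟩
    have hc : ∀ x ∈ (P : Subgroup G), x * t = t * x := by
      intro x hx
      have := hP hx
      rw [Subgroup.mem_centralizer_iff] at this
      exact (this t (Set.mem_singleton t)).symm
    refine ⟨ht, P, ?_, hc⟩
    exact Cfsg.Agent.Helper4.mem_sylow_of_centralizes P t
      (Cfsg.Agent.Helper4.isPGroup_zpowers_of_orderOf t ht) hc

end Cfsg.Agent.S0443
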