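import Cfsg.Statements.S0444
import Cfsg.Agent.Helper4.ThreeTranspBasic
import Cfsg.Agent.Helper4.Dih

set_option autoImplicit false
open Cfsg

namespace Cfsg.Agent.S0444

/-- Two members of a set of 3-transpositions which do not commute generate a subgroup isomorphic to the symmetric group on three letters. -/
theorem result {G : Type*} [Group G] {E : Set G} (hE : Cfsg.IsThreeTranspositionSet E) {d e : G} (hd : d ∈ E) (he : e ∈ E) (h : ¬ Commute d e) : Nonempty (Subgroup.closure ({d, e} : Set G) ≃* Equiv.Perm (Fin 3)) := by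
  have hd2 := Cfsg.Agent.Helper4.TTB.tt_mul_self hE hd
  have he2 := Cfsg.Agent.Helper4.TTB.tt_mul_self hE he
  have hdi := Cfsg.Agent.Helper4.TTB.tt_inv hE hd
  have hei := Cfsg.Agent.Helper4.TTB.tt_inv hE he
  have hd1 := Cfsg.Agent.Helper4.TTB.tt_ne_one hE hd
  have he1 := Cfsg.Agent.Helper4.TTB.tt_ne_one hE he
  have hne : d ≠ e := by
    intro h'
    apply h
    rw [h']
  have hbr : d * e * d = e * d * e := Cfsg.Agent.Helper4.TTB.tt_braid hE hd he h
  have h3 : (d * e) ^ 3 = 1 := by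
    have : (d * e) ^ 3 = d * e * d * (e * d * e) := by
      simp [pow_succ, mul_assoc]
    rw [this, ← hbr]
    calc d * e * d * (d * e * d) = d * e * (d * d) * e * d := by group
      _ = d * (e * e) * d := by rw [hd2]; group
      _ = 1 := by rw [he2, mul_one, hd2]
  have hde1 : d * e ≠ 1 := by
    intro h'
    apply hne
    have : d = e⁻¹ := eq_inv_of_mul_eq_one_left h'
    rw [this, hei]
  have hord : orderOf (d * e) = 3 := by
    haveI : Fact (Nat.Prime 3) := ⟨Nat.prime_three⟩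
    exact orderOf_eq_prime h3 hde1
  obtain ⟨φ⟩ := Cfsg.Agent.Helper4.closure_pair_mulEquiv_dihedral d e hd2 he2 hd1 he1 hne
  rw [hord] at φ
  -- the same in the symmetric group
  have h01 : (0 : Fin 3) ≠ 1 := by decide
  have h12 : (1 : Fin 3) ≠ 2 := by decide
  have h02 : (0 : Fin 3) ≠ 2 := by decide
  have hx2 : Equiv.swap (1 : Fin 3) 0 * Equiv.swap (1 : Fin 3) 0 = 1 := Equiv.swap_mul_self _ _
  have hy2 : Equiv.swap (1 : Fin 3) 2 * Equiv.swap (1 : Fin 3) 2 = 1 := Equiv.swap_mul_self _ _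
  have hx1 : Equiv.swap (1 : Fin 3) 0 ≠ 1 := by decide
  have hy1 : Equiv.swap (1 : Fin 3) 2 ≠ 1 := by decide
  have hxy : Equiv.swap (1 : Fin 3) 0 ≠ Equiv.swap (1 : Fin 3) 2 := by decide
  have hord' : orderOf (Equiv.swap (1 : Fin 3) 0 * Equiv.swap (1 : Fin 3) 2) = 3 :=
    (Equiv.Perm.isThreeCycle_swap_mul_swap_same h01.symm h12 h02).orderOf
  obtain ⟨ψ⟩ := Cfsg.Agent.Helper4.closure_pair_mulEquiv_dihedral
    (Equiv.swap (1 : Fin 3) 0) (Equiv.swap (1 : Fin 3) 2) hx2 hy2 hx1 hy1 hxy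
  rw [hord'] at ψ
  have htop : Subgroup.closure ({Equiv.swap (1 : Fin 3) 0, Equiv.swap (1 : Fin 3) 2} :
      Set (Equiv.Perm (Fin 3))) = ⊤ := by
    apply Subgroup.eq_top_of_card_eq
    rw [Nat.card_congr ψ.toEquiv, DihedralGroup.nat_card, Nat.card_eq_fintype_card,
      Fintype.card_perm, Fintype.card_fin]
    rfl
  exact ⟨φ.trans (ψ.symm.trans ((MulEquiv.subgroupCongr htop).trans Subgroup.topEquiv))⟩

end Cfsg.Agent.S0444
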