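import Cfsg.Statements.S0481
import Cfsg.Agent.Helper4.Basic

set_option autoImplicit false
open Cfsg

namespace Cfsg.Agent.S0481

/-- Large extraspecial subgroups: let z be an involution of a finite group G whose centraliser C contains a normal 2-subgroup Q with centre of order 2 and all squares central, such that every element of G centralising Q lies in Q. Then C contains a Sylow 2-subgroup of G, and any involution of G whose centraliser contains a Sylow 2-subgroup of G is conjugate to z. -/
theorem result {G : Type*} [Group G] [Finite G] (z : G) (hz : orderOf z = 2) (Q : Subgroup G) (hQC : Q ≤ Subgroup.centralizer ({z} : Set G)) (hQn : ∀ g ∈ Subgroup.centralizer ({z} : Set G), ∀ q ∈ Q, g * q * g⁻¹ ∈ Q) (hQ2 : IsPGroup 2 Q) (hZ : Nat.card (Subgroup.center Q) = 2) (hsq : ∀ x : Q, x ^ 2 ∈ Subgroup.center Q) (hlarge : Subgroup.centralizer (Q : Set G) ≤ Q) : (∃ P : Sylow 2 G, (P : Subgroup G) ≤ Subgroup.centralizer ({z} : Set G)) ∧ ∀ u : G, orderOf u = 2 → (∃ P : Sylow 2 G, (P : Subgroup G) ≤ Subgroup.centralizer ({u} :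 Set G)) → IsConj z u := by
  haveI : Fact (Nat.Prime 2) := ⟨Nat.prime_two⟩
  have hz1 : z ≠ 1 := by
    intro h
    rw [h, orderOf_one] at hz
    omega
  have hzc : z ∈ Subgroup.centralizer (Q : Set G) := by
    rw [Subgroup.mem_centralizer_iff]
    intro q hq
    have := hQC hq
    rw [Subgroup.mem_centralizer_iff] at this
    exact (this z (Set.mem_singleton z)).symm
  have hzQ : z ∈ Q := hlarge hzc
  have key : ∀ x : G, x ∈ Subgroup.centralizer (Q : Set G) → x ≠ 1 → x = z := by
    intro x hx hx1
    have hxQ : x ∈ Q := hlarge hx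
    have m1 : (⟨x, hxQ⟩ : Q) ∈ Subgroup.center Q := by
      rw [Subgroup.mem_center_iff]
      intro q
      rw [Subgroup.mem_centralizer_iff] at hx
      exact Subtype.ext (hx q q.2)
    have m2 : (⟨z, hzQ⟩ : Q) ∈ Subgroup.center Q := by
      rw [Subgroup.mem_center_iff]
      intro q
      rw [Subgroup.mem_centralizer_iff] at hzc
      exact Subtype.ext (hzc q q.2)
    have e := Cfsg.Agent.Helper4.eq_of_card_two hZ
      (a := (⟨⟨x, hxQ⟩, m1⟩ : Subgroup.center Q)) (b := ⟨⟨z, hzQ⟩, m2⟩)
      (by intro h; apply hx1; exact congrArg (fun t : Subgroup.center Q => ((t : Q) : G)) h)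
      (by intro h; apply hz1; exact congrArg (fun t : Subgroup.center Q => ((t : Q) : G)) h)
    exact congrArg (fun t : Subgroup.center Q => ((t : Q) : G)) e
  obtain ⟨S, hQS⟩ := hQ2.exists_le_sylow
  have hS : IsPGroup 2 (S : Subgroup G) := S.isPGroup'
  have hzS : z ∈ (S : Subgroup G) := hQS hzQ
  haveI : Nontrivial (S : Subgroup G) := ⟨⟨⟨z, hzS⟩, 1, by
    intro h; exact hz1 (congrArg Subtype.val h)⟩⟩
  haveI : Nontrivial (Subgroup.center (S : Subgroup G)) := hS.center_nontrivial
  obtain ⟨w, hw⟩ := exists_ne (1 : Subgroup.center (S : Subgroup G))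
  have hwc : ∀ s ∈ (S : Subgroup G), s * ((w : (S : Subgroup G)) : G) = ((w : (S : Subgroup G)) : G) * s := by
    intro s hs
    have := (Subgroup.mem_center_iff.mp w.2) ⟨s, hs⟩
    exact congrArg Subtype.val this
  have hwz : ((w : (S : Subgroup G)) : G) = z := by
    apply key
    · rw [Subgroup.mem_centralizer_iff]
      intro q hq
      exact hwc q (hQS hq)
    · intro h
      apply hw
      exact Subtype.ext (Subtype.ext h)
  rw [hwz] at hwc
  have hSc : ∀ s ∈ (S : Subgroup G), s * z = z * s := hwc
  constructor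
  · refine ⟨S, fun s hs => ?_⟩
    rw [Subgroup.mem_centralizer_iff]
    intro h hh
    rw [Set.mem_singleton_iff] at hh
    rw [hh]
    exact (hSc s hs).symm
  · intro u hu ⟨P, hP⟩
    have hu1 : u ≠ 1 := by
      intro h
      rw [h, orderOf_one] at hu
      omega
    have hc : ∀ x ∈ (P : Subgroup G), x * u = u * x := by
      intro x hx
      have := hP hx
      rw [Subgroup.mem_centralizer_iff] at this
      exact (this u (Set.mem_singleton u)).symm
    have huP : u ∈ (P : Subgroup G) := Cfsg.Agent.Helper4.mem_sylow_of_centralizes P u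
      (Cfsg.Agent.Helper4.isPGroup_zpowers_of_orderOf u hu) hc
    obtain ⟨g, hg⟩ := Cfsg.Agent.Helper4.sylow_conj_mem S P
    have hu' : g⁻¹ * u * g ∈ (S : Subgroup G) := (hg u).mp huP
    have hu'z : g⁻¹ * u * g = z := by
      apply key
      · rw [Subgroup.mem_centralizer_iff]
        intro q hq
        have hqP : g * q * g⁻¹ ∈ (P : Subgroup G) := by
          rw [hg]
          have : g⁻¹ * (g * q * g⁻¹) * g = q := by group
          rw [this]
          exact hQS hq
        have h1 := hc _ hqP
        calc q * (g⁻¹ * u * g) = g⁻¹ * ((g * q * g⁻¹) * u) * g := by group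
          _ = g⁻¹ * (u * (g * q * g⁻¹)) * g := by rw [h1]
          _ = g⁻¹ * u * g * q := by group
      · intro h
        apply hu1
        calc u = g * (g⁻¹ * u * g) * g⁻¹ := by group
          _ = 1 := by rw [h]; group
    rw [isConj_iff]
    refine ⟨g, ?_⟩
    rw [← hu'z]; group

end Cfsg.Agent.S0481
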