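import Cfsg.Statements.S0502
-- import your own Cfsg.Agent.* helpers here
import Cfsg.Agent.Helper24.FourConn

set_option autoImplicit false
open Cfsg

namespace Cfsg.Agent.S0502

open Cfsg.Agent.Helper24

/-- If a finite 2-group has a normal elementary abelian subgroup of order at least 8, then any two of its Klein
four-subgroups are joined by a chain of Klein four-subgroups with consecutive members commuting elementwise. -/
theorem result {P : Type*} [Group P] [Finite P] (hP : IsPGroup 2 P)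
    (E : Subgroup P) [E.Normal] (hE : IsMulCommutative E) (hE2 : ∀ e ∈ E, e ^ 2 = 1) (hE8 : 8 ≤ Nat.card E) :
    Cfsg.IsFourConnected P := by
  classical
  have hEc : ∀ x ∈ E, ∀ y ∈ E, x * y = y * x := fun x hx y hy =>
    congrArg Subtype.val (hE.is_comm.comm (⟨x, hx⟩ : ↥E) ⟨y, hy⟩)
  have hEsq : ∀ e ∈ E, e * e = 1 := fun e he => by rw [← pow_two]; exact hE2 e he
  have hE1 : E ≠ ⊥ := by
    intro h
    rw [h, Subgroup.card_bot] at hE8
    omega
  haveI : Fact (Nat.Prime 2) := ⟨Nat.prime_two⟩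
  obtain ⟨z, hzE, hzc, hz1⟩ := pgroup_normal_inf_center hP E hE1
  have hzz : z * z = 1 := hEsq z hzE
  have hzcomm : ∀ g : P, g * z = z * g := fun g => Subgroup.mem_center_iff.mp hzc g
  have key : ∀ U : Subgroup P, IsKleinFour U → ∃ V : Subgroup P, V ≤ E ∧ IsKleinFour V ∧
      Relation.ReflTransGen (fun A B : Subgroup P => IsKleinFour A ∧ IsKleinFour B ∧ ∀ a ∈ A, ∀ b ∈ B, a * b = b * a) U V := by
    intro U hU
    haveI := hU
    have hUc : ∀ x ∈ U, ∀ y ∈ U, x * y = y * x := fun x hx y hy =>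
      congrArg Subtype.val
        ((IsKleinFour.isMulCommutative (G := ↥U)).is_comm.comm (⟨x, hx⟩ : ↥U) ⟨y, hy⟩)
    have hUsq : ∀ x ∈ U, x * x = 1 := fun x hx =>
      congrArg Subtype.val (IsKleinFour.mul_self (⟨x, hx⟩ : ↥U))
    obtain ⟨a, haU, ha⟩ := exists_mem_notMem_finset U {1, z}
      (lt_of_le_of_lt Finset.card_le_two (by rw [hU.card_four]; norm_num))
    simp only [Finset.mem_insert, Finset.mem_singleton, not_or] at ha
    obtain ⟨ha1, haz⟩ := ha
    have haa : a * a = 1 := hUsq a haU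
    obtain ⟨w, hwE, hw1, hwz, haw⟩ := exists_centralizing_elt E hEc hEsq hE8 z hzE a haa
    have hww : w * w = 1 := hEsq w hwE
    have hzw : z * w = w * z := (hzcomm w).symm
    have hU1 : IsKleinFour (fourSub a z haa hzz (hzcomm a)) :=
      fourSub_isKleinFour haa hzz (hzcomm a) ha1 hz1 haz
    have hV : IsKleinFour (fourSub z w hzz hww hzw) :=
      fourSub_isKleinFour hzz hww hzw hz1 hw1 (Ne.symm hwz)
    refine ⟨fourSub z w hzz hww hzw, ?_, hV, ?_⟩
    · intro x hx
      rcases hx with hx | hx | hx | hx <;> rw [hx]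
      · exact E.one_mem
      · exact hzE
      · exact hwE
      · exact E.mul_mem hzE hwE
    · refine Relation.ReflTransGen.trans (Relation.ReflTransGen.single ⟨hU, hU1, ?_⟩)
        (Relation.ReflTransGen.single ⟨hU1, hV, ?_⟩)
      · intro x hx y hy
        exact fourSub_comm haa hzz (hzcomm a) (hUc x hx a haU) (hzcomm x) y hy
      · intro x hx y hy
        have hya : y * a = a * y := (fourSub_comm hzz hww hzw (hzcomm a) haw y hy).symm
        have hyz : y * z = z * y := hzcomm y
        exact (fourSub_comm haa hzz (hzcomm a) hya hyz x hx).symm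
  intro U V hU hV
  obtain ⟨U', hU'E, hU'4, hUU'⟩ := key U hU
  obtain ⟨V', hV'E, hV'4, hVV'⟩ := key V hV
  have hsymm : ∀ A B : Subgroup P, (fun A B : Subgroup P => IsKleinFour A ∧ IsKleinFour B ∧ ∀ a ∈ A, ∀ b ∈ B, a * b = b * a) A B → (fun A B : Subgroup P => IsKleinFour A ∧ IsKleinFour B ∧ ∀ a ∈ A, ∀ b ∈ B, a * b = b * a) B A := by
    intro A B h
    exact ⟨h.2.1, h.1, fun b hb a ha => (h.2.2 a ha b hb).symm⟩
  have hmid : Relation.ReflTransGen (fun A B : Subgroup P => IsKleinFour A ∧ IsKleinFour B ∧ ∀ a ∈ A, ∀ b ∈ B, a * b = b * a) U' V' :=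
    Relation.ReflTransGen.single ⟨hU'4, hV'4, fun a ha b hb => hEc a (hU'E ha) b (hV'E hb)⟩
  exact (hUU'.trans hmid).trans (reflTransGen_symm_of_symm hsymm hVV')

end Cfsg.Agent.S0502
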