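import Cfsg.Statements.S0538
import Cfsg.Agent.Helper4.Wielandt

set_option autoImplicit false
open Cfsg

namespace Cfsg.Agent.S0538

/-- The join of two subnormal subgroups of a finite group is subnormal. -/
theorem result {G : Type*} [Group G] [Finite G] (A B : Subgroup G) (hA : A.IsSubnormal) (hB : B.IsSubnormal) : (A ⊔ B).IsSubnormal := by
  exact Cfsg.Agent.Helper4.isSubnormal_sup A B hA hB

end Cfsg.Agent.S0538
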