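import Cfsg.Statements.S0540
import Cfsg.Agent.Helper4.Zipper

set_option autoImplicit false
open Pointwise
open Cfsg

namespace Cfsg.Agent.S0540

/-- A uniqueness lemma of zipper type. Let A be a subgroup of a finite group G and U a nonempty family of subgroups. For V in U write S(V) for the set of conjugates of A that lie in V and are subnormal in V. Assume: A belongs to S(V) for every V in U; a member of some S(W) that lies in V belongs to S(V); and for all V, W in U the normalizer of the join of S(V) ∩ S(W) lies in some member of U. Then U has a greatest element. -/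
theorem result {G : Type*} [Group G] [Finite G] (A : Subgroup G) (U : Set (Subgroup G)) (hU : U.Nonempty) (S : Subgroup G → Set (Subgroup G)) (hS : ∀ V B : Subgroup G, B ∈ S V ↔ (∃ g : G, B = MulAut.conj g • A) ∧ B ≤ V ∧ (B.subgroupOf V).IsSubnormal) (h1 : ∀ V ∈ U, A ∈ S V) (h2 : ∀ V ∈ U, ∀ W ∈ U, ∀ B ∈ S W, B ≤ V → B ∈ S V) (h3 : ∀ V ∈ U, ∀ W ∈ U, ∃ X ∈ U, Subgroup.normalizer ((sSup (S V ∩ S W) : Subgroup G) : Set G) ≤ X) : ∃ M ∈ U, ∀ V ∈ U, V ≤ M := by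
  classical
  have hmaxex : ∀ V ∈ U, ∃ M ∈ U, V ≤ M ∧ ∀ Y ∈ U, M ≤ Y → Y = M := by
    intro V hV
    obtain ⟨M, hM⟩ := exists_maximal_of_wellFoundedGT (fun Y : Subgroup G => Y ∈ U ∧ V ≤ Y)
      ⟨V, hV, le_rfl⟩
    refine ⟨M, hM.prop.1, hM.prop.2, ?_⟩
    intro Y hY hMY
    exact le_antisymm (hM.le_of_ge ⟨hY, hM.prop.2.trans hMY⟩ hMY) hMY
  by_contra hcon
  push_neg at hcon
  obtain ⟨V₀, hV₀⟩ := hU
  obtain ⟨M₁, hM₁U, -, hM₁max⟩ := hmaxex V₀ hV₀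
  obtain ⟨V₁, hV₁U, hV₁M₁⟩ := hcon M₁ hM₁U
  obtain ⟨M₂, hM₂U, hV₁M₂, hM₂max⟩ := hmaxex V₁ hV₁U
  have hne : M₁ ≠ M₂ := by rintro rfl; exact hV₁M₁ hV₁M₂
  have hex : ∃ p : Subgroup G × Subgroup G,
      (p.1 ∈ U ∧ p.2 ∈ U ∧ (∀ Y ∈ U, p.1 ≤ Y → Y = p.1) ∧ (∀ Y ∈ U, p.2 ≤ Y → Y = p.2) ∧
        p.1 ≠ p.2) ∧
      ∀ q : Subgroup G × Subgroup G,
        (q.1 ∈ U ∧ q.2 ∈ U ∧ (∀ Y ∈ U, q.1 ≤ Y → Y = q.1) ∧ (∀ Y ∈ U, q.2 ≤ Y → Y = q.2) ∧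
          q.1 ≠ q.2) → (S q.1 ∩ S q.2).ncard ≤ (S p.1 ∩ S p.2).ncard := by
    have hne' : {p : Subgroup G × Subgroup G | p.1 ∈ U ∧ p.2 ∈ U ∧
        (∀ Y ∈ U, p.1 ≤ Y → Y = p.1) ∧ (∀ Y ∈ U, p.2 ≤ Y → Y = p.2) ∧ p.1 ≠ p.2}.Nonempty :=
      ⟨(M₁, M₂), hM₁U, hM₂U, hM₁max, hM₂max, hne⟩
    obtain ⟨p, hp, hpmax⟩ := Set.exists_max_image _
      (fun p : Subgroup G × Subgroup G => (S p.1 ∩ S p.2).ncard) (Set.toFinite _) hne'
    exact ⟨p, hp, fun q hq => hpmax q hq⟩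
  obtain ⟨⟨V, W⟩, ⟨hVU, hWU, hVmax, hWmax, hVW⟩, hbest⟩ := hex
  obtain ⟨X, hXU, hNX⟩ := h3 V hVU W hWU
  obtain ⟨M, hMU, hXM, hMmax⟩ := hmaxex X hXU
  have e1 : V = M := Cfsg.Agent.Helper4.zipper_aux A U S hS h2 V W M hVU hMU hVmax
    (hNX.trans hXM) (fun hne' => hbest (V, M) ⟨hVU, hMU, hVmax, hMmax, fun h => hne' h.symm⟩)
  have e2 : W = M := Cfsg.Agent.Helper4.zipper_aux A U S hS h2 W V M hWU hMU hWmax
    (by rw [Set.inter_comm]; exact hNX.trans hXM)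
    (fun hne' => by
      have := hbest (M, W) ⟨hMU, hWU, hMmax, hWmax, hne'⟩
      rw [Set.inter_comm (S W) (S M), Set.inter_comm (S W) (S V)]
      exact this)
  exact hVW (e1.trans e2.symm)

end Cfsg.Agent.S0540
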