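import Cfsg.Statements.S0541
import Cfsg.Agent.Helper4.Matsuyama

set_option autoImplicit false
open Pointwise
open Cfsg

namespace Cfsg.Agent.S0541

/-- Let Z and Y be subgroups of a finite group G and p a prime. Suppose that for every g in G the subgroup generated by the conjugates of g Z g⁻¹ under Y is a p-group. Then there is a Sylow p-subgroup P of G such that Y normalizes the subgroup generated by all conjugates of Z contained in P. -/
theorem result {G : Type*} [Group G] [Finite G] (p : ℕ) [Fact p.Prime] (Z Y : Subgroup G) (h : ∀ g : G, IsPGroup p ↥(⨆ y ∈ Y, MulAut.conj (y * g) • Z)) : ∃ P : Sylow p G, Y ≤ Subgroup.normalizer ((⨆ g ∈ {g : G | MulAut.conj g • Z ≤ (P : Subgroup G)}, MulAut.conj g • Z : Subgroup G) : Set G) := by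
  obtain ⟨P, T, hTP, hTY, hPT⟩ := Cfsg.Agent.Helper4.matsuyama_aux p Z Y h
  refine ⟨P, ?_⟩
  rw [Subgroup.le_normalizer_iff]
  intro y hy k hk
  have hle : (⨆ g ∈ {g : G | MulAut.conj g • Z ≤ (P : Subgroup G)}, MulAut.conj g • Z : Subgroup G)
      ≤ (⨆ g ∈ {g : G | MulAut.conj g • Z ≤ (P : Subgroup G)},
        MulAut.conj g • Z : Subgroup G).comap (MulAut.conj y).toMonoidHom := by
    apply iSup₂_le
    intro g hg u hu
    rw [Subgroup.mem_comap]
    have h1 : MulAut.conj y • (MulAut.conj g • Z) ∈ T := hTY _ (hPT g hg) y hy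
    have h2 : MulAut.conj (y * g) • Z ≤ (P : Subgroup G) := by
      rw [map_mul, mul_smul]; exact hTP _ h1
    have h4 : (MulAut.conj y).toMonoidHom u ∈ MulAut.conj (y * g) • Z := by
      rw [map_mul, mul_smul]; exact ⟨u, hu, rfl⟩
    exact (le_iSup₂ (f := fun g (_ : g ∈ {g : G | MulAut.conj g • Z ≤ (P : Subgroup G)}) =>
      MulAut.conj g • Z) (y * g) h2) h4
  have := hle hk
  rw [Subgroup.mem_comap] at this
  simpa using this

end Cfsg.Agent.S0541
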