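import Cfsg.Statements.S0547
import Cfsg.Agent.Helper4.SolvPrim

set_option autoImplicit false
open Cfsg

namespace Cfsg.Agent.S0547

/-- Let a finite solvable group G act faithfully and primitively on a set, and let M be a minimal normal subgroup of G. Then M is transitive with trivial point stabilizers, and the number of points equals the order of M, which is a prime power p ^ d with d ≥ 1. -/
theorem result {G : Type*} [Group G] [Finite G] [Group.IsSolvable G] {Ω : Type*} [Nonempty Ω] [MulAction G Ω] [FaithfulSMul G Ω] (hprim : MulAction.IsPreprimitive G Ω) (M : Subgroup G) [M.Normal] (hM : M ≠ ⊥) (hmin : ∀ K : Subgroup G, K.Normal → K ≤ M → K = ⊥ ∨ K = M) : MulAction.IsPretransitive M Ω ∧ (∀ ω : Ω, MulAction.stabilizer M ω = ⊥) ∧ ∃ p d : ℕ, p.Prime ∧ 0 < d ∧ Nat.card Ω = p ^ d ∧ Nat.card M = p ^ d := by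
  obtain ⟨q, hq, hab, hexp⟩ := Cfsg.Agent.Helper4.minNormal_elemAbelian M hM hmin
  haveI htr : MulAction.IsPretransitive M Ω :=
    Cfsg.Agent.Helper4.isPretransitive_of_normal_of_prim hprim M hM
  have hreg : ∀ ω : Ω, MulAction.stabilizer M ω = ⊥ := fun ω =>
    Cfsg.Agent.Helper4.stabilizer_eq_bot_of_abelian_transitive M hab ω
  refine ⟨htr, hreg, ?_⟩
  haveI : Fact q.Prime := ⟨hq⟩
  have hp : IsPGroup q M := by
    intro a
    refine ⟨1, ?_⟩
    apply Subtype.ext
    simpa using hexp a a.2
  obtain ⟨d, hd⟩ := IsPGroup.iff_card.mp hp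
  obtain ⟨ω⟩ := ‹Nonempty Ω›
  have hcard : Nat.card Ω = Nat.card M := by
    have := MulAction.index_stabilizer_of_transitive M ω
    rw [hreg ω, Subgroup.index_bot] at this
    exact this.symm
  refine ⟨q, d, hq, ?_, by rw [hcard, hd], hd⟩
  rcases Nat.eq_zero_or_pos d with rfl | h
  · exfalso
    rw [pow_zero] at hd
    exact hM (Subgroup.eq_bot_of_card_eq M hd)
  · exact h

end Cfsg.Agent.S0547
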