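import Cfsg.Statements.S0548
import Cfsg.Agent.Helper4.SolvPrim

set_option autoImplicit false
open Cfsg

namespace Cfsg.Agent.S0548

/-- Let a finite solvable group G act faithfully and primitively on a set, let M be a minimal normal subgroup and H the stabilizer of a point. Then H is a complement to M, no non-identity element of H centralizes M, and the only subgroups of M normalized by H are the trivial subgroup and M. -/
theorem result {G : Type*} [Group G] [Finite G] [Group.IsSolvable G] {Ω : Type*} [MulAction G Ω] [FaithfulSMul G Ω] (hprim : MulAction.IsPreprimitive G Ω) (M : Subgroup G) [M.Normal] (hM : M ≠ ⊥) (hmin : ∀ K : Subgroup G, K.Normal → K ≤ M → K = ⊥ ∨ K = M) (ω : Ω) : Subgroup.IsComplement' M (MulAction.stabilizer G ω) ∧ MulAction.stabilizer G ω ⊓ Subgroup.centralizer (M : Set G) = ⊥ ∧ ∀ K : Subgroup G, K ≤ M → MulAction.stabilizer G ω ≤ Subgroup.normalizer (K : Set G) → K = ⊥ ∨ K = M := by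
  obtain ⟨q, hq, hab, hexp⟩ := Cfsg.Agent.Helper4.minNormal_elemAbelian M hM hmin
  haveI htr : MulAction.IsPretransitive M Ω :=
    Cfsg.Agent.Helper4.isPretransitive_of_normal_of_prim hprim M hM
  have hreg : MulAction.stabilizer M ω = ⊥ :=
    Cfsg.Agent.Helper4.stabilizer_eq_bot_of_abelian_transitive M hab ω
  have hc := Cfsg.Agent.Helper4.isComplement'_stabilizer_of_regular M ω hreg
  refine ⟨hc, Cfsg.Agent.Helper4.stabilizer_inf_centralizer_eq_bot M ω, ?_⟩
  intro K hK hH
  exact Cfsg.Agent.Helper4.eq_bot_or_eq_of_le_of_complement_normalizes M hab hmin _ hc K hK hH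

end Cfsg.Agent.S0548
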