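import Cfsg.Statements.S0552
import Cfsg.Agent.S1264
import Cfsg.Agent.Helper9.Fitting

set_option autoImplicit false
open Cfsg

namespace Cfsg.Agent.S0552

/-- Let σ be an automorphism of a finite solvable group G fixing every element of the Fitting subgroup. If σ is not the identity then the order of σ and the order of G have a common prime factor. -/
theorem result {G : Type*} [Group G] [Finite G] [Group.IsSolvable G] (σ : G ≃* G) (hσ : ∀ x ∈ Cfsg.fittingSubgroup G, σ x = x) (hne : σ ≠ MulEquiv.refl G) : ¬ (orderOf σ).Coprime (Nat.card G) := by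
  intro hcop
  apply hne
  haveI hFn : (Cfsg.fittingSubgroup G).Normal := Cfsg.Agent.Helper9.fitting_normal
  have hCF : Subgroup.centralizer (Cfsg.fittingSubgroup G : Set G) ≤ Cfsg.fittingSubgroup G := by
    have h1 := Cfsg.Agent.S1264.result (Subgroup.centralizer (Cfsg.fittingSubgroup G : Set G))
      le_rfl Subgroup.le_normalizer inferInstance
    exact h1.trans (Subgroup.map_subtype_le _)
  ext g
  show σ g = g
  obtain ⟨z, hz⟩ : ∃ z, z = g⁻¹ * σ g := ⟨_, rfl⟩
  have hzC : z ∈ Subgroup.centralizer (Cfsg.fittingSubgroup G : Set G) := by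
    rw [Subgroup.mem_centralizer_iff]
    intro x hx
    have hy : g * x * g⁻¹ ∈ Cfsg.fittingSubgroup G := hFn.conj_mem x hx g
    have h1 := hσ _ hy
    rw [map_mul, map_mul, map_inv, hσ x hx] at h1
    rw [hz]
    calc x * (g⁻¹ * σ g) = g⁻¹ * (g * x * g⁻¹) * σ g := by group
      _ = g⁻¹ * (σ g * x * (σ g)⁻¹) * σ g := by rw [h1]
      _ = g⁻¹ * σ g * x := by group
  have hzF : z ∈ Cfsg.fittingSubgroup G := hCF hzC
  have hσz : σ z = z := hσ z hzF
  have hσg : σ g = g * z := by rw [hz]; group
  have key : ∀ k : ℕ, (σ ^ k) g = g * z ^ k := by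
    intro k
    induction k with
    | zero => simp
    | succ k ih =>
      rw [pow_succ' σ k, MulAut.mul_apply, ih, map_mul, map_pow, hσz, hσg, pow_succ' z k]
      group
  have h1 := key (orderOf σ)
  rw [pow_orderOf_eq_one, MulAut.one_apply] at h1
  have hzn : z ^ orderOf σ = 1 := by
    have : g * z ^ orderOf σ = g * 1 := by rw [mul_one]; exact h1.symm
    exact mul_left_cancel this
  have hzc : z ^ Nat.card G = 1 := pow_card_eq_one'
  have hz1 : z = 1 := by
    have hd : orderOf z ∣ Nat.gcd (orderOf σ) (Nat.card G) :=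
      Nat.dvd_gcd (orderOf_dvd_of_pow_eq_one hzn) (orderOf_dvd_of_pow_eq_one hzc)
    rw [hcop.gcd_eq_one, Nat.dvd_one] at hd
    exact orderOf_eq_one_iff.mp hd
  rw [hσg, hz1, mul_one]

end Cfsg.Agent.S0552
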