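import Cfsg.Statements.S0562
import Mathlib

set_option autoImplicit false
open Cfsg

namespace Cfsg.Agent.S0562

/-- Let the finite group G be the product HK of subgroups, A normal in H, B normal in K, and L the normalizer of the subgroup generated by A and B. Then every element of L is a product of an element of L ∩ H and an element of L ∩ K. -/
theorem result {G : Type*} [Group G] [Finite G] (H K A B : Subgroup G) (hHK : ∀ g : G, ∃ h ∈ H, ∃ k ∈ K, g = h * k) (hA : A ≤ H) (hAn : (A.subgroupOf H).Normal) (hB : B ≤ K) (hBn : (B.subgroupOf K).Normal) : ∀ g ∈ Subgroup.normalizer ((A ⊔ B : Subgroup G) : Set G), ∃ h ∈ Subgroup.normalizer ((A ⊔ B : Subgroup G) : Set G) ⊓ H, ∃ k ∈ Subgroup.normalizer ((A ⊔ B : Subgroup G) : Set G) ⊓ K, g = h * k := by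
  intro g hg
  obtain ⟨h, hh, k, hk, rfl⟩ := hHK g
  have hHA : H ≤ Subgroup.normalizer (A : Set G) :=
    (Subgroup.normal_subgroupOf_iff_le_normalizer hA).mp hAn
  have hKB : K ≤ Subgroup.normalizer (B : Set G) :=
    (Subgroup.normal_subgroupOf_iff_le_normalizer hB).mp hBn
  have cA : ∀ x ∈ H, A.map (MulAut.conj x : G →* G) = A := fun x hx =>
    Subgroup.mem_normalizer_iff_map_conj_eq.mp (hHA hx)
  have cB : ∀ x ∈ K, B.map (MulAut.conj x : G →* G) = B := fun x hx =>
    Subgroup.mem_normalizer_iff_map_conj_eq.mp (hKB hx)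
  have hW : (A ⊔ B).map (MulAut.conj (h * k) : G →* G) = A ⊔ B :=
    Subgroup.mem_normalizer_iff_map_conj_eq.mp hg
  have e1 : (A ⊔ B).map (MulAut.conj h⁻¹ : G →* G) = A ⊔ B.map (MulAut.conj h⁻¹ : G →* G) := by
    rw [Subgroup.map_sup, cA h⁻¹ (H.inv_mem hh)]
  have e2 : (A ⊔ B).map (MulAut.conj h⁻¹ : G →* G) = A.map (MulAut.conj k : G →* G) ⊔ B := by
    have hcomp : ((MulAut.conj h⁻¹ : G →* G)).comp (MulAut.conj (h * k) : G →* G)
        = (MulAut.conj k : G →* G) := by
      ext x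
      show h⁻¹ * ((h * k) * x * (h * k)⁻¹) * h⁻¹⁻¹ = k * x * k⁻¹
      group
    calc (A ⊔ B).map (MulAut.conj h⁻¹ : G →* G)
        = ((A ⊔ B).map (MulAut.conj (h * k) : G →* G)).map (MulAut.conj h⁻¹ : G →* G) := by
          rw [hW]
      _ = (A ⊔ B).map (MulAut.conj k : G →* G) := by rw [Subgroup.map_map, hcomp]
      _ = A.map (MulAut.conj k : G →* G) ⊔ B := by rw [Subgroup.map_sup, cB k hk]
  have hle : A ⊔ B ≤ (A ⊔ B).map (MulAut.conj h⁻¹ : G →* G) := by
    apply sup_le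
    · rw [e1]; exact le_sup_left
    · rw [e2]; exact le_sup_right
  have hcard : Nat.card ((A ⊔ B).map (MulAut.conj h⁻¹ : G →* G))
      ≤ Nat.card (A ⊔ B : Subgroup G) := by
    rw [Subgroup.card_map_of_injective (f := (MulAut.conj h⁻¹ : G →* G)) (MulAut.conj h⁻¹).injective]
  have heq := Subgroup.eq_of_le_of_card_ge hle hcard
  have hh' : h⁻¹ ∈ Subgroup.normalizer ((A ⊔ B : Subgroup G) : Set G) :=
    Subgroup.mem_normalizer_iff_map_conj_eq.mpr heq.symm
  have hhN : h ∈ Subgroup.normalizer ((A ⊔ B : Subgroup G) : Set G) := by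
    have := Subgroup.inv_mem _ hh'
    rwa [inv_inv] at this
  have hkN : k ∈ Subgroup.normalizer ((A ⊔ B : Subgroup G) : Set G) := by
    have : k = h⁻¹ * (h * k) := by group
    rw [this]; exact Subgroup.mul_mem _ hh' hg
  exact ⟨h, Subgroup.mem_inf.mpr ⟨hhN, hh⟩, k, Subgroup.mem_inf.mpr ⟨hkN, hk⟩, rfl⟩

end Cfsg.Agent.S0562
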