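import Cfsg.Statements.S0576
-- import your own Cfsg.Agent.* helpers here

set_option autoImplicit false
open Cfsg

namespace Cfsg.Agent.S0576

/-- Let H be a normal subgroup of a finite group G with H contained in the Frattini subgroup of G. Then the group of inner automorphisms of H is contained in the Frattini subgroup of the automorphism group of H. -/
theorem result {G : Type*} [Group G] [Finite G] (H : Subgroup G) [H.Normal] (hH : H ≤ frattini G) : (MulAut.conj : ↥H →* MulAut ↥H).range ≤ frattini (MulAut ↥H) := by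
  rw [frattini, Order.radical]
  refine le_iInf₂ (fun M hM => ?_)
  have hM : IsCoatom M := hM
  by_contra hnot
  have hsup : (MulAut.conj : ↥H →* MulAut ↥H).range ⊔ M = ⊤ := by
    by_contra hne
    have h1 : M < (MulAut.conj : ↥H →* MulAut ↥H).range ⊔ M :=
      lt_of_le_of_ne le_sup_right (fun h' => hnot (by rw [h']; exact le_sup_left))
    exact hne (hM.2 _ h1)
  have hrn : ((MulAut.conj : ↥H →* MulAut ↥H).range).Normal := by
    constructor
    rintro _ ⟨n, rfl⟩ φ
    refine ⟨φ n, ?_⟩
    ext x
    simp
  have hconj : ∀ n : ↥H, (MulAut.conjNormal (n : G) : MulAut ↥H) = MulAut.conj n := by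
    intro n
    ext x
    simp
  have hU : H ⊔ M.comap (MulAut.conjNormal (H := H)) = ⊤ := by
    rw [eq_top_iff]
    intro g _
    have hg : (MulAut.conjNormal g : MulAut ↥H) ∈ (MulAut.conj : ↥H →* MulAut ↥H).range ⊔ M := by
      rw [hsup]; exact Subgroup.mem_top _
    haveI := hrn
    obtain ⟨_, ⟨n, rfl⟩, m, hm, hnm⟩ := Subgroup.mem_sup_of_normal_left.mp hg
    have hmem : (n : G)⁻¹ * g ∈ M.comap (MulAut.conjNormal (H := H)) := by
      rw [Subgroup.mem_comap, map_mul, map_inv, hconj n, ← hnm, inv_mul_cancel_left]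
      exact hm
    have e : g = (n : G) * ((n : G)⁻¹ * g) := by group
    rw [e]
    exact Subgroup.mul_mem_sup n.2 hmem
  have hUtop : M.comap (MulAut.conjNormal (H := H)) = ⊤ := by
    apply frattini_nongenerating
    rw [eq_top_iff, ← hU]
    exact sup_le (le_sup_of_le_right hH) le_sup_left
  apply hnot
  rintro _ ⟨n, rfl⟩
  have h1 : (n : G) ∈ M.comap (MulAut.conjNormal (H := H)) := by
    rw [hUtop]; exact Subgroup.mem_top _
  rw [Subgroup.mem_comap, hconj n] at h1
  exact h1

end Cfsg.Agent.S0576
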