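import Cfsg.Statements.S0578
import Cfsg.Agent.Helper4.Burnside
import Cfsg.Agent.Helper4.ElemAb
import Cfsg.Agent.Helper4.MaxPrimeIndex

set_option autoImplicit false
open Cfsg

namespace Cfsg.Agent.S0578

/-- If in a finite group the normalizer of each abelian subgroup coincides with its centralizer, then the group is abelian. -/
theorem result {G : Type*} [Group G] [Finite G] (h : ∀ A : Subgroup G, IsMulCommutative A → Subgroup.normalizer (A : Set G) = Subgroup.centralizer (A : Set G)) : IsMulCommutative G := by
  have hab : ∀ (p : ℕ) [Fact p.Prime] (P : Sylow p G), IsMulCommutative (P : Subgroup G) := by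
    intro p _ P
    have hfin : {A : Subgroup G | A ≤ (P : Subgroup G) ∧ IsMulCommutative A}.Finite :=
      Set.toFinite _
    obtain ⟨A, ⟨hAP, hAc⟩, hmax⟩ := Set.exists_max_image _ (fun A : Subgroup G => Nat.card A)
      hfin ⟨⊥, bot_le, inferInstance⟩
    by_cases hAeq : A = (P : Subgroup G)
    · rw [← hAeq]; exact hAc
    · exfalso
      have hlt : A.subgroupOf (P : Subgroup G) < ⊤ := by
        rw [lt_top_iff_ne_top]
        intro htop
        exact hAeq (le_antisymm hAP (Subgroup.subgroupOf_eq_top.mp htop))
      haveI : Group.IsNilpotent (P : Subgroup G) := P.isPGroup'.isNilpotent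
      have hnc := Group.normalizerCondition_of_isNilpotent (G := (P : Subgroup G)) _ hlt
      obtain ⟨x, hxN, hxA⟩ := SetLike.exists_of_lt hnc
      rw [Cfsg.Agent.Helper4.normalizer_subgroupOf_eq _ _ hAP, Subgroup.mem_subgroupOf] at hxN
      rw [Subgroup.mem_subgroupOf] at hxA
      rw [h A hAc] at hxN
      have hz : Subgroup.zpowers (x : G) ≤ Subgroup.centralizer (A : Set G) := by
        rw [Subgroup.zpowers_le]; exact hxN
      have hc := Cfsg.Agent.Helper4.isMulCommutative_sup hAc
        (inferInstance : IsMulCommutative (Subgroup.zpowers (x : G))) hz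
      have hle : A ⊔ Subgroup.zpowers (x : G) ≤ (P : Subgroup G) :=
        sup_le hAP (by rw [Subgroup.zpowers_le]; exact x.2)
      have hcard := hmax _ ⟨hle, hc⟩
      have heq := Subgroup.eq_of_le_of_card_ge
        (le_sup_left : A ≤ A ⊔ Subgroup.zpowers (x : G)) hcard
      apply hxA
      rw [heq]
      exact Subgroup.mem_sup_right (Subgroup.mem_zpowers _)
  have hcomm : commutator G = ⊥ := by
    rw [eq_bot_iff]
    intro g hg
    rw [Subgroup.mem_bot]
    by_contra hg1
    have hord : orderOf g ≠ 1 := by rwa [Ne, orderOf_eq_one_iff]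
    obtain ⟨p, hp, hpd⟩ := Nat.exists_prime_and_dvd hord
    haveI : Fact p.Prime := ⟨hp⟩
    obtain ⟨P⟩ : Nonempty (Sylow p G) := inferInstance
    have hPc := hab p P
    have hNC : Subgroup.normalizer ((P : Subgroup G) : Set G)
        ≤ Subgroup.centralizer ((P : Subgroup G) : Set G) := (h P hPc).le
    obtain ⟨K, hKn, hKc, hpK, hcK⟩ := Cfsg.Agent.Helper4.burnside_complement P hNC
    have hgK : g ∈ K := hcK hg
    have hdvd : orderOf g ∣ Nat.card K := by
      have := orderOf_dvd_natCard (⟨g, hgK⟩ : K)
      rwa [Subgroup.orderOf_mk] at this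
    exact hpK (hpd.trans hdvd)
  exact Cfsg.Agent.Helper4.commute_of_commutator_eq_bot hcomm

end Cfsg.Agent.S0578
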