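import Cfsg.Statements.S0588
import Mathlib

set_option autoImplicit false
open Cfsg

namespace Cfsg.Agent.S0588

/-- If a subgroup H of a finite group G contains the centralizer of every non-identity element of H, then the order of H is coprime to its index. -/
theorem result {G : Type*} [Group G] [Finite G] (H : Subgroup G) (h : ∀ x ∈ H, x ≠ 1 → Subgroup.centralizer ({x} : Set G) ≤ H) : (Nat.card H).Coprime H.index := by
  by_contra hnc
  obtain ⟨p, hp, hpH, hpI⟩ := Nat.Prime.not_coprime_iff_dvd.mp hnc
  haveI : Fact p.Prime := ⟨hp⟩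
  obtain ⟨x, hx⟩ := exists_prime_orderOf_dvd_card' p hpH
  have hx1 : (x : G) ≠ 1 := by
    intro h1
    have : orderOf (x : G) = p := by rw [Subgroup.orderOf_coe]; exact hx
    rw [h1, orderOf_one] at this
    exact hp.one_lt.ne this
  have hxp : IsPGroup p (Subgroup.zpowers (x : G)) := by
    apply IsPGroup.of_card (n := 1)
    rw [Nat.card_zpowers, Subgroup.orderOf_coe, hx, pow_one]
  obtain ⟨S, hS⟩ := hxp.exists_le_sylow
  have hxS : (x : G) ∈ (S : Subgroup G) := hS (Subgroup.mem_zpowers _)
  haveI : Nontrivial (S : Subgroup G) := ⟨⟨⟨x, hxS⟩, 1, by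
    intro h1; exact hx1 (congrArg Subtype.val h1)⟩⟩
  haveI : Nontrivial (Subgroup.center (S : Subgroup G)) := S.isPGroup'.center_nontrivial
  obtain ⟨w, hw⟩ := exists_ne (1 : Subgroup.center (S : Subgroup G))
  have hzc : ∀ s ∈ (S : Subgroup G), s * ((w : (S : Subgroup G)) : G) = ((w : (S : Subgroup G)) : G) * s := by
    intro s hs
    have := (Subgroup.mem_center_iff.mp w.2) ⟨s, hs⟩
    exact congrArg Subtype.val this
  have hz1 : ((w : (S : Subgroup G)) : G) ≠ 1 := by
    intro h1
    apply hw
    exact Subtype.ext (Subtype.ext h1)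
  have hzH : ((w : (S : Subgroup G)) : G) ∈ H := by
    apply h x x.2 hx1
    rw [Subgroup.mem_centralizer_iff]
    intro y hy
    rw [Set.mem_singleton_iff] at hy
    rw [hy]
    exact hzc x hxS
  have hSH : (S : Subgroup G) ≤ H := by
    intro s hs
    apply h _ hzH hz1
    rw [Subgroup.mem_centralizer_iff]
    intro y hy
    rw [Set.mem_singleton_iff] at hy
    rw [hy]
    exact (hzc s hs).symm
  have hdvd := Subgroup.index_dvd_of_le hSH
  exact S.not_dvd_index (hpI.trans hdvd)

end Cfsg.Agent.S0588
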