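import Cfsg.Statements.S0590
import Mathlib.Tactic

set_option autoImplicit false
open Cfsg

namespace Cfsg.Agent.S0590

/-- Quadratic action on an elementary abelian p-group forces the acting group modulo the kernel of the action to be elementary abelian. -/
theorem result {G : Type*} [Group G] [Finite G] {p : ℕ} [Fact p.Prime] (V H : Subgroup G) (hV : Cfsg.IsElementaryAbelian p V) (hHV : H ≤ Subgroup.normalizer (V : Set G)) (hq : ⁅⁅V, H⁆, H⁆ = ⊥) : ⁅H, H⁆ ≤ Subgroup.centralizer (V : Set G) ∧ ∀ a ∈ H, a ^ p ∈ Subgroup.centralizer (V : Set G) := by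
  obtain ⟨hVc, hVp⟩ := hV
  have hsub : ⁅V, H⁆ ≤ V := by
    rw [Subgroup.commutator_le]
    intro v hv h hh
    have hn := hHV hh
    rw [Subgroup.mem_normalizer_iff] at hn
    have h1 : h * v⁻¹ * h⁻¹ ∈ V := (hn v⁻¹).mp (V.inv_mem hv)
    have h2 : v * h * v⁻¹ * h⁻¹ = v * (h * v⁻¹ * h⁻¹) := by group
    show v * h * v⁻¹ * h⁻¹ ∈ V
    rw [h2]
    exact V.mul_mem hv h1
  have hcen : ∀ d ∈ ⁅V, H⁆, ∀ h ∈ H, h * d = d * h := by
    intro d hd h hh
    have h1 : d * h * d⁻¹ * h⁻¹ ∈ ⁅⁅V, H⁆, H⁆ := Subgroup.commutator_mem_commutator hd hh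
    rw [hq, Subgroup.mem_bot] at h1
    have h2 : d * h = h * d := by
      calc d * h = (d * h * d⁻¹ * h⁻¹) * (h * d) := by group
        _ = h * d := by rw [h1, one_mul]
    exact h2.symm
  have hA : ∀ a ∈ H, ∀ v ∈ V, ∃ d ∈ ⁅V, H⁆, a * v * a⁻¹ = d * v := by
    intro a ha v hv
    refine ⟨a * v * a⁻¹ * v⁻¹, ?_, by group⟩
    have h1 : v * a * v⁻¹ * a⁻¹ ∈ ⁅V, H⁆ := Subgroup.commutator_mem_commutator hv ha
    have h2 : a * v * a⁻¹ * v⁻¹ = (v * a * v⁻¹ * a⁻¹)⁻¹ := by group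
    rw [h2]
    exact (⁅V, H⁆).inv_mem h1
  have hVcomm : ∀ x ∈ V, ∀ y ∈ V, x * y = y * x := fun x hx y hy =>
    setLike_mul_comm hx hy
  have hB : ∀ a ∈ H, ∀ b ∈ H, ∀ v ∈ V,
      a * (b * v * b⁻¹) * a⁻¹ = b * (a * v * a⁻¹) * b⁻¹ := by
    intro a ha b hb v hv
    obtain ⟨da, hda, ea⟩ := hA a ha v hv
    obtain ⟨db, hdb, eb⟩ := hA b hb v hv
    rw [ea, eb]
    calc a * (db * v) * a⁻¹ = (a * db) * a⁻¹ * (a * v * a⁻¹) := by group
      _ = (db * a) * a⁻¹ * (da * v) := by rw [hcen db hdb a ha, ea]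
      _ = (db * da) * v := by group
      _ = (da * db) * v := by rw [hVcomm db (hsub hdb) da (hsub hda)]
      _ = (da * b) * b⁻¹ * (db * v) := by group
      _ = (b * da) * b⁻¹ * (b * v * b⁻¹) := by rw [hcen da hda b hb, eb]
      _ = b * (da * v) * b⁻¹ := by group
  constructor
  · rw [Subgroup.commutator_le]
    intro a ha b hb
    rw [Subgroup.mem_centralizer_iff]
    intro v hv
    have key := hB a⁻¹ (H.inv_mem ha) b⁻¹ (H.inv_mem hb) v hv
    show v * (a * b * a⁻¹ * b⁻¹) = a * b * a⁻¹ * b⁻¹ * v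
    calc v * (a * b * a⁻¹ * b⁻¹)
        = a * b * (b⁻¹ * (a⁻¹ * v * a⁻¹⁻¹) * b⁻¹⁻¹) * a⁻¹ * b⁻¹ := by group
      _ = a * b * (a⁻¹ * (b⁻¹ * v * b⁻¹⁻¹) * a⁻¹⁻¹) * a⁻¹ * b⁻¹ := by rw [key]
      _ = a * b * a⁻¹ * b⁻¹ * v := by group
  · intro a ha
    rw [Subgroup.mem_centralizer_iff]
    intro v hv
    obtain ⟨d, hd, e⟩ := hA a ha v hv
    have hC : ∀ n : ℕ, a ^ n * v * (a ^ n)⁻¹ = d ^ n * v := by
      intro n
      induction n with
      | zero => simp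
      | succ n ih =>
        calc a ^ (n + 1) * v * (a ^ (n + 1))⁻¹ = a * (a ^ n * v * (a ^ n)⁻¹) * a⁻¹ := by
              rw [pow_succ']; group
          _ = a * (d ^ n * v) * a⁻¹ := by rw [ih]
          _ = (a * d ^ n) * a⁻¹ * (a * v * a⁻¹) := by group
          _ = (d ^ n * a) * a⁻¹ * (d * v) := by rw [hcen (d ^ n) (pow_mem hd n) a ha, e]
          _ = d ^ (n + 1) * v := by rw [pow_succ]; group
    have h1 := hC p
    rw [hVp d (hsub hd), one_mul] at h1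
    exact (mul_inv_eq_iff_eq_mul.mp h1).symm

end Cfsg.Agent.S0590
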