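import Cfsg.Statements.S0591
import Mathlib.Tactic

set_option autoImplicit false
open Cfsg

namespace Cfsg.Agent.S0591

/-- For a quadratically acting element a on an elementary abelian p-group V, the fixed points C_V(a) have order at least the square root of the order of V. -/
theorem result {G : Type*} [Group G] [Finite G] {p : ℕ} [Fact p.Prime] (V : Subgroup G) (hV : Cfsg.IsElementaryAbelian p V) (a : G) (ha : a ∈ Subgroup.normalizer (V : Set G)) (hq : ⁅⁅V, Subgroup.zpowers a⁆, Subgroup.zpowers a⁆ = ⊥) : Nat.card V ≤ Nat.card ↥(V ⊓ Subgroup.centralizer (Subgroup.zpowers a : Set G)) ^ 2 := by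
  obtain ⟨hVc, hVp⟩ := hV
  have hVcomm : ∀ x ∈ V, ∀ y ∈ V, x * y = y * x := fun x hx y hy => setLike_mul_comm hx hy
  have hconj : ∀ v ∈ V, a * v * a⁻¹ ∈ V := fun v hv =>
    ((Subgroup.mem_normalizer_iff.mp ha) v).mp hv
  have hcen : ⁅V, Subgroup.zpowers a⁆ ≤ Subgroup.centralizer (Subgroup.zpowers a : Set G) :=
    Subgroup.commutator_eq_bot_iff_le_centralizer.mp hq
  have hd : ∀ v ∈ V, a * v * a⁻¹ * v⁻¹ ∈ ⁅V, Subgroup.zpowers a⁆ := by
    intro v hv
    have h1 : v * a * v⁻¹ * a⁻¹ ∈ ⁅V, Subgroup.zpowers a⁆ :=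
      Subgroup.commutator_mem_commutator hv (Subgroup.mem_zpowers a)
    have h2 : a * v * a⁻¹ * v⁻¹ = (v * a * v⁻¹ * a⁻¹)⁻¹ := by group
    rw [h2]
    exact Subgroup.inv_mem _ h1
  have hmemV : ∀ v ∈ V, a * v * a⁻¹ * v⁻¹ ∈ V := fun v hv =>
    V.mul_mem (hconj v hv) (V.inv_mem hv)
  let φ : V →* V := MonoidHom.mk' (fun v => ⟨a * (v : G) * a⁻¹ * (v : G)⁻¹, hmemV v v.2⟩) (by
    intro v w
    apply Subtype.ext
    show a * ((v : G) * (w : G)) * a⁻¹ * ((v : G) * (w : G))⁻¹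
      = (a * (v : G) * a⁻¹ * (v : G)⁻¹) * (a * (w : G) * a⁻¹ * (w : G)⁻¹)
    have hc := hVcomm _ (hmemV w w.2) _ (V.inv_mem v.2)
    calc a * ((v : G) * (w : G)) * a⁻¹ * ((v : G) * (w : G))⁻¹
        = (a * (v : G) * a⁻¹) * ((a * (w : G) * a⁻¹ * (w : G)⁻¹) * (v : G)⁻¹) := by group
      _ = (a * (v : G) * a⁻¹) * ((v : G)⁻¹ * (a * (w : G) * a⁻¹ * (w : G)⁻¹)) := by rw [hc]
      _ = (a * (v : G) * a⁻¹ * (v : G)⁻¹) * (a * (w : G) * a⁻¹ * (w : G)⁻¹) := by group)
  have hφ : ∀ v : V, ((φ v : V) : G) = a * (v : G) * a⁻¹ * (v : G)⁻¹ := fun v => rfl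
  have hrange : ∀ x : φ.range, ((x : V) : G) ∈ V ⊓ Subgroup.centralizer (Subgroup.zpowers a : Set G) := by
    rintro ⟨x, v, rfl⟩
    rw [Subgroup.mem_inf]
    refine ⟨(φ v).2, ?_⟩
    rw [hφ]
    exact hcen (hd v v.2)
  have hker : ∀ x : φ.ker, ((x : V) : G) ∈ V ⊓ Subgroup.centralizer (Subgroup.zpowers a : Set G) := by
    rintro ⟨v, hv⟩
    rw [Subgroup.mem_inf]
    refine ⟨v.2, ?_⟩
    rw [MonoidHom.mem_ker] at hv
    have h1 : a * (v : G) * a⁻¹ * (v : G)⁻¹ = 1 := by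
      rw [← hφ, hv]; rfl
    have h2 : Commute a (v : G) := by
      show a * (v : G) = (v : G) * a
      calc a * (v : G) = (a * (v : G) * a⁻¹ * (v : G)⁻¹) * ((v : G) * a) := by group
        _ = (v : G) * a := by rw [h1, one_mul]
    rw [Subgroup.mem_centralizer_iff]
    intro h hh
    obtain ⟨k, rfl⟩ := Subgroup.mem_zpowers_iff.mp hh
    exact (h2.zpow_left k).eq
  have c1 : Nat.card φ.range ≤ Nat.card ↥(V ⊓ Subgroup.centralizer (Subgroup.zpowers a : Set G)) := by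
    apply Nat.card_le_card_of_injective (fun x : φ.range => (⟨((x : V) : G), hrange x⟩ :
      ↥(V ⊓ Subgroup.centralizer (Subgroup.zpowers a : Set G))))
    intro x y hxy
    apply Subtype.ext
    apply Subtype.ext
    exact congrArg (fun z : ↥(V ⊓ Subgroup.centralizer (Subgroup.zpowers a : Set G)) => (z : G)) hxy
  have c2 : Nat.card φ.ker ≤ Nat.card ↥(V ⊓ Subgroup.centralizer (Subgroup.zpowers a : Set G)) := by
    apply Nat.card_le_card_of_injective (fun x : φ.ker => (⟨((x : V) : G), hker x⟩ :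
      ↥(V ⊓ Subgroup.centralizer (Subgroup.zpowers a : Set G))))
    intro x y hxy
    apply Subtype.ext
    apply Subtype.ext
    exact congrArg (fun z : ↥(V ⊓ Subgroup.centralizer (Subgroup.zpowers a : Set G)) => (z : G)) hxy
  have c3 : Nat.card V = Nat.card (V ⧸ φ.ker) * Nat.card φ.ker :=
    Subgroup.card_eq_card_quotient_mul_card_subgroup φ.ker
  have c4 : Nat.card (V ⧸ φ.ker) = Nat.card φ.range :=
    Nat.card_congr (QuotientGroup.quotientKerEquivRange φ).toEquiv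
  rw [c3, c4, pow_two]
  exact Nat.mul_le_mul c1 c2

end Cfsg.Agent.S0591
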