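import Cfsg.Statements.S0592
import Cfsg.Agent.Helper10.QuadSL2
-- import your own Cfsg.Agent.* helpers here

set_option autoImplicit false
open Cfsg

namespace Cfsg.Agent.S0592



/-- Two quadratically acting generators of a linear group that is not a p-group, with the p'-part of the order of their product dividing q - 1, give a homomorphism onto a subgroup of SL(2, q) that is not a p-group. -/
theorem result {K : Type*} [Field K] [Fintype K] {p : ℕ} [Fact p.Prime] [CharP K p] {W : Type*} [AddCommGroup W] [Module K W] [FiniteDimensional K W] [Finite W] [Nontrivial W] (H : Subgroup (W ≃ₗ[K] W)) (a b : W ≃ₗ[K] W) (hH : H = Subgroup.closure {a, b}) (ha : ∀ w : W, a (a w - w) = a w - w) (hb : ∀ w : W, b (b w - w) = b w - w) (hnp : ¬ IsPGroup p H) (hk : ∃ e k : ℕ, orderOf (a * b) = p ^ e * k ∧ k ∣ Fintype.card K - 1) : ∃ φ : H →* Matrix.SpecialLinearGroup (Fin 2) K, ¬ IsPGroup p φ.range := by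
  classical
  haveI : Finite (W ≃ₗ[K] W) :=
    Finite.of_injective (fun e => (e : W → W)) DFunLike.coe_injective
  subst hH
  obtain ⟨e, k, hord, hkd⟩ := hk
  have haK : a ∈ Subgroup.closure ({a, b} : Set (W ≃ₗ[K] W)) :=
    Subgroup.subset_closure (by simp)
  have hbK : b ∈ Subgroup.closure ({a, b} : Set (W ≃ₗ[K] W)) :=
    Subgroup.subset_closure (by simp)
  have hgen : Subgroup.closure ({⟨a, haK⟩, ⟨b, hbK⟩} :
      Set (Subgroup.closure ({a, b} : Set (W ≃ₗ[K] W)))) = ⊤ := by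
    have h1 := Subgroup.closure_closure_coe_preimage (k := ({a, b} : Set (W ≃ₗ[K] W)))
    have h2 : ((↑) : Subgroup.closure ({a, b} : Set (W ≃ₗ[K] W)) → (W ≃ₗ[K] W)) ⁻¹'
        ({a, b} : Set (W ≃ₗ[K] W)) =
        ({⟨a, haK⟩, ⟨b, hbK⟩} : Set (Subgroup.closure ({a, b} : Set (W ≃ₗ[K] W)))) := by
      ext z
      simp [Subtype.ext_iff]
    rw [h2] at h1
    exact h1
  have hT : ((⟨a, haK⟩ : Subgroup.closure ({a, b} : Set (W ≃ₗ[K] W))) * ⟨b, hbK⟩) ^
      (p ^ e * (Fintype.card K - 1)) = 1 := by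
    apply Subtype.ext
    show (a * b) ^ (p ^ e * (Fintype.card K - 1)) = 1
    apply orderOf_dvd_iff_pow_eq_one.1
    rw [hord]
    exact Nat.mul_dvd_mul_left _ hkd
  obtain ⟨ρ, hρ⟩ : ∃ ρ : Subgroup.closure ({a, b} : Set (W ≃ₗ[K] W)) →* Module.End K W,
      ∀ g w, ρ g w = (g : W ≃ₗ[K] W) w :=
    ⟨{ toFun := fun g => ((g : W ≃ₗ[K] W) : W →ₗ[K] W), map_one' := rfl,
       map_mul' := fun _ _ => rfl }, fun _ _ => rfl⟩
  refine Cfsg.Agent.Helper10.quad_sl2_gen p ⟨a, haK⟩ ⟨b, hbK⟩ hgen e hT (Module.finrank K W) W ρ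
    le_rfl ?_ ?_ ?_
  · intro m
    rw [hρ, hρ]
    exact ha m
  · intro m
    rw [hρ, hρ]
    exact hb m
  · intro hall
    apply hnp
    intro g
    obtain ⟨j, hj⟩ := hall g
    refine ⟨j, ?_⟩
    apply Subtype.ext
    apply LinearEquiv.ext
    intro w
    have h1 := congrArg (fun f => f w) hj
    simp only [hρ] at h1
    exact h1

end Cfsg.Agent.S0592
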