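import Cfsg.Statements.S0593
import Cfsg.Agent.Helper10.QuadAb
-- import your own Cfsg.Agent.* helpers here

set_option autoImplicit false
open Cfsg

namespace Cfsg.Agent.S0593



/-- For odd p, a faithful group on an elementary abelian p-group generated by two quadratically acting elements is a p-group or has non-abelian Sylow 2-subgroups. -/
theorem result {G : Type*} [Group G] [Finite G] {p : ℕ} [Fact p.Prime] (hp : p ≠ 2) (V H : Subgroup G) (hV : Cfsg.IsElementaryAbelian p V) (hHV : H ≤ Subgroup.normalizer (V : Set G)) (hf : H ⊓ Subgroup.centralizer (V : Set G) = ⊥) (a b : G) (hab : H = Subgroup.closure {a, b}) (ha : ⁅⁅V, Subgroup.zpowers a⁆, Subgroup.zpowers a⁆ = ⊥) (hb : ⁅⁅V, Subgroup.zpowers b⁆, Subgroup.zpowers b⁆ = ⊥) (hnp : ¬ IsPGroup p H) (T : Sylow 2 H) : ¬ IsMulCommutative T := by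
  classical
  intro hT
  apply hnp
  have hVp : IsPGroup p V := by
    intro g
    refine ⟨1, ?_⟩
    apply Subtype.ext
    have h1 := hV.2 (g : G) g.2
    simpa using h1
  have hcore : Cfsg.Agent.Helper10.GL2Core H :=
    Cfsg.Agent.Helper10.gl2Core_of_abelian_sylow2
      (Cfsg.Agent.Helper10.abelian_all_sylow2 T hT)
  have key := Cfsg.Agent.Helper10.quad_two_gen p hp V hVp a b H hab hcore hHV
    (Cfsg.Agent.Helper10.quad_of_commutator V (Subgroup.zpowers a) ha a (Subgroup.mem_zpowers a))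
    (Cfsg.Agent.Helper10.quad_of_commutator V (Subgroup.zpowers b) hb b (Subgroup.mem_zpowers b))
  intro h
  obtain ⟨k, hk⟩ := key (h : G) h.2
  refine ⟨k, ?_⟩
  apply Subtype.ext
  have h1 : (h : G) ^ p ^ k ∈ H ⊓ Subgroup.centralizer (V : Set G) :=
    ⟨Subgroup.pow_mem _ h.2 _, hk⟩
  rw [hf, Subgroup.mem_bot] at h1
  simpa using h1

end Cfsg.Agent.S0593
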