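import Cfsg.Statements.S0595
import Cfsg.Agent.Helper10.QuadAb
-- import your own Cfsg.Agent.* helpers here

set_option autoImplicit false
open Cfsg

namespace Cfsg.Agent.S0595



/-- For odd p, a faithful action on an elementary abelian p-group that is not p-stable forces non-abelian Sylow 2-subgroups. -/
theorem result {G : Type*} [Group G] [Finite G] {p : ℕ} [Fact p.Prime] (hp : p ≠ 2) (V H : Subgroup G) (hV : Cfsg.IsElementaryAbelian p V) (hHV : H ≤ Subgroup.normalizer (V : Set G)) (hf : H ⊓ Subgroup.centralizer (V : Set G) = ⊥) (a : G) (haH : a ∈ H) (hq : ⁅⁅V, Subgroup.zpowers a⁆, Subgroup.zpowers a⁆ = ⊥) (hna : a ∉ (Cfsg.pCore p H).map H.subtype) (T : Sylow 2 H) : ¬ IsMulCommutative T := by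
  classical
  intro hT
  apply hna
  have hVp : IsPGroup p V := by
    intro g
    refine ⟨1, ?_⟩
    apply Subtype.ext
    have h1 := hV.2 (g : G) g.2
    simpa using h1
  have hall := Cfsg.Agent.Helper10.abelian_all_sylow2 T hT
  obtain ⟨X, hX⟩ : ∃ X : Set H, X = {q | ∃ g : H, q = g * ⟨a, haH⟩ * g⁻¹} := ⟨_, rfl⟩
  have hXn : ∀ (g x : H), x ∈ X → g * x * g⁻¹ ∈ X := by
    intro g x hx
    rw [hX] at hx ⊢
    obtain ⟨g', rfl⟩ := hx
    exact ⟨g * g', by group⟩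
  have hqa := Cfsg.Agent.Helper10.quad_of_commutator V (Subgroup.zpowers a) hq a
    (Subgroup.mem_zpowers a)
  have hconj : ∀ g ∈ H, ∀ u ∈ V, g⁻¹ * u * g ∈ V := by
    intro g hg u hu
    have h1 := hHV (H.inv_mem hg)
    rw [Subgroup.mem_normalizer_iff] at h1
    have h2 := (h1 u).1 hu
    simpa using h2
  have hXp : ∀ x ∈ X, ∀ y ∈ X, IsPGroup p (Subgroup.closure ({x, y} : Set H)) := by
    intro x hx y hy
    rw [hX] at hx hy
    obtain ⟨g₁, rfl⟩ := hx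
    obtain ⟨g₂, rfl⟩ := hy
    obtain ⟨b₁, hb₁⟩ : ∃ b₁ : G, b₁ = (g₁ : G) * a * (g₁ : G)⁻¹ := ⟨_, rfl⟩
    obtain ⟨b₂, hb₂⟩ : ∃ b₂ : G, b₂ = (g₂ : G) * a * (g₂ : G)⁻¹ := ⟨_, rfl⟩
    obtain ⟨K, hK⟩ : ∃ K : Subgroup G, K = Subgroup.closure ({b₁, b₂} : Set G) := ⟨_, rfl⟩
    have hb₁H : b₁ ∈ H := by
      rw [hb₁]; exact H.mul_mem (H.mul_mem g₁.2 haH) (H.inv_mem g₁.2)
    have hb₂H : b₂ ∈ H := by
      rw [hb₂]; exact H.mul_mem (H.mul_mem g₂.2 haH) (H.inv_mem g₂.2)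
    have hKH : K ≤ H := by
      rw [hK, Subgroup.closure_le]
      rintro z (rfl | rfl)
      exacts [hb₁H, hb₂H]
    have hcore : Cfsg.Agent.Helper10.GL2Core K :=
      Cfsg.Agent.Helper10.gl2Core_of_abelian_sylow2
        (Cfsg.Agent.Helper10.abelian_sylow2_of_injective (Subgroup.inclusion hKH)
          (Subgroup.inclusion_injective hKH) hall)
    have key := Cfsg.Agent.Helper10.quad_two_gen p hp V hVp b₁ b₂ K hK hcore (hKH.trans hHV)
      (by rw [hb₁]; exact Cfsg.Agent.Helper10.quad_conj V a g₁ hqa (hconj g₁ g₁.2))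
      (by rw [hb₂]; exact Cfsg.Agent.Helper10.quad_conj V a g₂ hqa (hconj g₂ g₂.2))
    have hmap : (Subgroup.closure ({g₁ * ⟨a, haH⟩ * g₁⁻¹, g₂ * ⟨a, haH⟩ * g₂⁻¹} :
        Set H)).map H.subtype = K := by
      rw [MonoidHom.map_closure, Set.image_pair, hK, hb₁, hb₂]
      rfl
    intro h
    have hhK : ((h : H) : G) ∈ K := by
      rw [← hmap]
      exact ⟨h, h.2, rfl⟩
    obtain ⟨k, hk⟩ := key _ hhK
    refine ⟨k, ?_⟩
    apply Subtype.ext
    apply Subtype.ext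
    have h1 : ((h : H) : G) ^ p ^ k ∈ H ⊓ Subgroup.centralizer (V : Set G) :=
      ⟨Subgroup.pow_mem _ (h : H).2 _, hk⟩
    rw [hf, Subgroup.mem_bot] at h1
    simpa using h1
  obtain ⟨M, hMn, hMp, hXM⟩ := Cfsg.Agent.Helper21.baer_suzuki_normal X hXn hXp
  refine ⟨⟨a, haH⟩, Cfsg.Agent.Helper27.le_pCore hMn hMp (hXM _ ?_), rfl⟩
  rw [hX]
  exact ⟨1, by simp⟩

end Cfsg.Agent.S0595
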