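import Cfsg.Statements.S0596
import Cfsg.Agent.Helper10.QuadTwoP
-- import your own Cfsg.Agent.* helpers here

set_option autoImplicit false
open Cfsg

namespace Cfsg.Agent.S0596



/-- For odd p, a p-separable group with a faithful action on an elementary abelian p-group that is not p-stable has p = 3 and involves SL(2,3). -/
theorem result {G : Type*} [Group G] [Finite G] {p : ℕ} [Fact p.Prime] (hp : p ≠ 2) (V H : Subgroup G) (hV : Cfsg.IsElementaryAbelian p V) (hHV : H ≤ Subgroup.normalizer (V : Set G)) (hf : H ⊓ Subgroup.centralizer (V : Set G) = ⊥) (hsep : Cfsg.IsPSolvable p H) (a : G) (haH : a ∈ H) (hq : ⁅⁅V, Subgroup.zpowers a⁆, Subgroup.zpowers a⁆ = ⊥) (hna : a ∉ (Cfsg.pCore p H).map H.subtype) : p = 3 ∧ ∃ (K L : Subgroup G) (hL : (L.subgroupOf K).Normal), K ≤ H ∧ Nonempty ((K ⧸ L.subgroupOf K) ≃* Matrix.SpecialLinearGroup (Fin 2) (ZMod 3)) := by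
  classical
  have hpp : p.Prime := Fact.out
  have hVp : IsPGroup p V := by
    intro g
    refine ⟨1, ?_⟩
    apply Subtype.ext
    have h1 := hV.2 (g : G) g.2
    simpa using h1
  by_contra hcon
  apply hna
  apply Cfsg.Agent.Helper10.quad_elt_pcore p hp V H hVp hHV hf a haH
    (Cfsg.Agent.Helper10.quad_of_commutator V (Subgroup.zpowers a) hq a (Subgroup.mem_zpowers a))
  intro K hKH
  apply Cfsg.Agent.Helper12.gl2CoreP_of_not_involves hp
  intro hinv
  by_cases hp5 : 5 ≤ p
  · exact Cfsg.Agent.Helper10.sl2_free_of_psolvable p hp5 hsep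
      (Cfsg.Agent.Helper27.involves_of_injective (Subgroup.inclusion hKH)
        (Subgroup.inclusion_injective hKH) hinv)
  · have hp3 : p = 3 := by
      have h2 := hpp.two_le
      have h4 : p ≠ 4 := by
        rintro rfl
        exact absurd hpp (by norm_num)
      omega
    subst hp3
    exact hcon ⟨rfl, Cfsg.Agent.Helper10.involves_le H K hKH _ hinv⟩

end Cfsg.Agent.S0596
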