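import Cfsg.Statements.S0600
import Mathlib
import Cfsg.Agent.Helper4.Subnormal

set_option autoImplicit false
open Cfsg

namespace Cfsg.Agent.S0600

/-- A normal elementary abelian p-subgroup generated by the fixed points of the Sylow p-subgroups admits no nontrivial normal p-subgroup of G modulo its centralizer. -/
theorem result {G : Type*} [Group G] [Finite G] {p : ℕ} [Fact p.Prime] (V : Subgroup G) [V.Normal] (hV : Cfsg.IsElementaryAbelian p V) (hgen : V = ⨆ S : Sylow p G, V ⊓ Subgroup.centralizer ((S : Subgroup G) : Set G)) : Cfsg.pCore p (G ⧸ Subgroup.centralizer (V : Set G)) = ⊥ := by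
  classical
  show sSup {N : Subgroup (G ⧸ Subgroup.centralizer (V : Set G)) | N.Normal ∧ IsPGroup p N} = ⊥
  rw [sSup_eq_bot]
  rintro Nbar ⟨hNn, hNp⟩
  have hmap : (Nbar.comap (QuotientGroup.mk' (Subgroup.centralizer (V : Set G)))).map
      (QuotientGroup.mk' (Subgroup.centralizer (V : Set G))) = Nbar :=
    Subgroup.map_comap_eq_self_of_surjective (QuotientGroup.mk'_surjective _) Nbar
  generalize hN : Nbar.comap (QuotientGroup.mk' (Subgroup.centralizer (V : Set G))) = N at hmap
  haveI : N.Normal := by rw [← hN]; exact hNn.comap _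
  have key : ∀ S : Sylow p G, N ≤ ((N ⊓ (S : Subgroup G)) ⊔ Subgroup.centralizer (V : Set G)) := by
    intro S
    rw [← Subgroup.relIndex_eq_one]
    have h1 : ((N ⊓ (S : Subgroup G)) ⊔ Subgroup.centralizer (V : Set G)).relIndex N
        ∣ (S : Subgroup G).relIndex N := by
      have := Subgroup.relIndex_dvd_of_le_left N
        (le_sup_left : N ⊓ (S : Subgroup G) ≤ (N ⊓ (S : Subgroup G)) ⊔ Subgroup.centralizer (V : Set G))
      rwa [Subgroup.inf_relIndex_left] at this
    have h2 : ((N ⊓ (S : Subgroup G)) ⊔ Subgroup.centralizer (V : Set G)).relIndex N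
        ∣ (Subgroup.centralizer (V : Set G)).relIndex N :=
      Subgroup.relIndex_dvd_of_le_left N le_sup_right
    have h3 : ¬ p ∣ (S : Subgroup G).relIndex N := fun h =>
      S.not_dvd_index (h.trans (Cfsg.Agent.Helper4.relIndex_dvd_index_of_normal_right _ N))
    have h4 : (Subgroup.centralizer (V : Set G)).relIndex N = Nat.card Nbar := by
      have := Subgroup.relIndex_ker (QuotientGroup.mk' (Subgroup.centralizer (V : Set G))) (K := N)
      rw [QuotientGroup.ker_mk', hmap] at this
      exact this
    obtain ⟨k, hk⟩ := IsPGroup.iff_card.mp hNp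
    rw [h4, hk] at h2
    obtain ⟨j, hj, hj'⟩ := (Nat.dvd_prime_pow (Fact.out)).mp h2
    rw [hj'] at h1 ⊢
    rcases Nat.eq_zero_or_pos j with rfl | hpos
    · simp
    · exact absurd ((dvd_pow_self p hpos.ne').trans h1) h3
  have hcent : N ≤ Subgroup.centralizer (V : Set G) := by
    have h5 : ∀ S : Sylow p G,
        V ⊓ Subgroup.centralizer ((S : Subgroup G) : Set G) ≤ Subgroup.centralizer (N : Set G) := by
      intro S
      rw [Subgroup.le_centralizer_iff]
      refine (key S).trans (sup_le ?_ ?_)
      · refine inf_le_right.trans ?_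
        rw [Subgroup.le_centralizer_iff]
        exact inf_le_right
      · exact Subgroup.centralizer_le (fun x hx => (Subgroup.mem_inf.mp hx).1)
    rw [Subgroup.le_centralizer_iff, hgen]
    exact iSup_le h5
  rw [← hmap, eq_bot_iff]
  refine (Subgroup.map_mono hcent).trans ?_
  rw [Subgroup.map_le_iff_le_comap]
  intro c hc
  rw [Subgroup.mem_comap, Subgroup.mem_bot]
  exact (QuotientGroup.eq_one_iff c).mpr hc

end Cfsg.Agent.S0600
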