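import Cfsg.Statements.S0603
import Cfsg.Agent.Helper4.ElemAb

set_option autoImplicit false
open Cfsg

namespace Cfsg.Agent.S0603

/-- The Thompson subgroup of any subgroup containing J(G) is J(G) itself. -/
theorem result {G : Type*} [Group G] [Finite G] {p : ℕ} [Fact p.Prime] (U : Subgroup G) (hU : Cfsg.thompsonSubgroup p G ≤ U) : Cfsg.thompsonSubgroupOf p U = Cfsg.thompsonSubgroup p G := by
  apply le_antisymm
  · obtain ⟨A, hA⟩ := Cfsg.Agent.Helper4.maxEA_nonempty (G := G) p
    exact Cfsg.Agent.Helper4.thompsonSubgroupOf_le U hA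
      ((Cfsg.Agent.Helper4.maxEA_le_thompson hA).trans hU)
  · show sSup (Cfsg.maxElementaryAbelianSubgroups p G) ≤ _
    apply sSup_le
    intro A hA
    exact Cfsg.Agent.Helper4.le_thompsonSubgroupOf U hA
      ((Cfsg.Agent.Helper4.maxEA_le_thompson hA).trans hU)

end Cfsg.Agent.S0603
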