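import Cfsg.Statements.S0604
import Cfsg.Agent.Helper4.ElemAb

set_option autoImplicit false
open Cfsg

namespace Cfsg.Agent.S0604

/-- The Thompson subgroup of G is the join of the Thompson subgroups of its Sylow p-subgroups. -/
theorem result {G : Type*} [Group G] [Finite G] {p : ℕ} [Fact p.Prime] : Cfsg.thompsonSubgroup p G = ⨆ S : Sylow p G, Cfsg.thompsonSubgroupOf p (S : Subgroup G) := by
  apply le_antisymm
  · show sSup (Cfsg.maxElementaryAbelianSubgroups p G) ≤ _
    apply sSup_le
    intro A hA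
    obtain ⟨S, hAS⟩ := (Cfsg.Agent.Helper4.isPGroup_of_isElementaryAbelian hA.1).exists_le_sylow
    exact (Cfsg.Agent.Helper4.le_thompsonSubgroupOf (S : Subgroup G) hA hAS).trans
      (le_iSup (fun S : Sylow p G => Cfsg.thompsonSubgroupOf p (S : Subgroup G)) S)
  · apply iSup_le
    intro S
    obtain ⟨A₀, hA₀, hA₀S⟩ := Cfsg.Agent.Helper4.exists_maxEA_le_sylow S
    exact Cfsg.Agent.Helper4.thompsonSubgroupOf_le (S : Subgroup G) hA₀ hA₀S

end Cfsg.Agent.S0604
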