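import Cfsg.Statements.S0605
import Cfsg.Agent.Helper4.ElemAb

set_option autoImplicit false
open Cfsg

namespace Cfsg.Agent.S0605

/-- Elements of order p in the centralizer of the Thompson subgroup belong to the Thompson subgroup (so to its centre). -/
theorem result {G : Type*} [Group G] [Finite G] {p : ℕ} [Fact p.Prime] (x : G) (hx : x ∈ Subgroup.centralizer (Cfsg.thompsonSubgroup p G : Set G)) (ho : orderOf x = p) : x ∈ Cfsg.thompsonSubgroup p G := by
  obtain ⟨A, hA⟩ := Cfsg.Agent.Helper4.maxEA_nonempty (G := G) p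
  have hAJ := Cfsg.Agent.Helper4.maxEA_le_thompson hA
  have hxA : x ∈ Subgroup.centralizer (A : Set G) :=
    Subgroup.centralizer_le (show (A : Set G) ⊆ _ from hAJ) hx
  have hz : Subgroup.zpowers x ≤ Subgroup.centralizer (A : Set G) := by
    rw [Subgroup.zpowers_le]; exact hxA
  have hEA := Cfsg.Agent.Helper4.isElementaryAbelian_sup hA.1
    (Cfsg.Agent.Helper4.isElementaryAbelian_zpowers x (by rw [← ho]; exact pow_orderOf_eq_one x)) hz
  have hcard := hA.2 _ hEA
  have heq : A = A ⊔ Subgroup.zpowers x := Subgroup.eq_of_le_of_card_ge le_sup_left hcard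
  apply hAJ
  rw [heq]
  exact (le_sup_right : Subgroup.zpowers x ≤ A ⊔ Subgroup.zpowers x) (Subgroup.mem_zpowers x)

end Cfsg.Agent.S0605
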