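import Cfsg.Statements.S0608
-- import your own Cfsg.Agent.* helpers here
import Mathlib
import Cfsg.Agent.Helper4.ElemAb
import Cfsg.Agent.Helper27.Thompson

set_option autoImplicit false
open Cfsg

namespace Cfsg.Agent.S0608

open Cfsg.Agent.Helper4 Cfsg.Agent.Helper27 in
theorem aux {G : Type*} [Group G] [Finite G] {p : ℕ} [Fact p.Prime]
    (hO : Cfsg.pPrimeCore p G = ⊥) :
    Cfsg.IsThompsonFactorizable p G ↔ Cfsg.thompsonSubgroup p G ≤
      Subgroup.centralizer ((⨆ S : Sylow p G, Cfsg.omegaOne p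
        (((S : Subgroup G)) ⊓ Subgroup.centralizer ((S : Subgroup G) : Set G)) : Subgroup G)
        : Set G) := by
  constructor
  · intro hTF
    have key : ∀ S T : Sylow p G,
        Cfsg.omegaOne p (((T : Subgroup G)) ⊓ Subgroup.centralizer ((T : Subgroup G) : Set G))
          ≤ Subgroup.centralizer (Cfsg.thompsonSubgroupOf p (S : Subgroup G) : Set G) := by
      intro S T
      obtain ⟨g, hg⟩ := MulAction.exists_smul_eq G S T
      obtain ⟨x, hx, c, hc, n, hn, hgcn⟩ := hTF S g⁻¹
      rw [hO, Subgroup.mem_bot] at hx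
      subst hx
      rw [one_mul] at hgcn
      unfold Cfsg.omegaOne
      rw [Subgroup.closure_le]
      rintro z ⟨hz, hzp⟩
      have hzT : z ∈ (T : Subgroup G) := hz.1
      have hzC : z ∈ Subgroup.centralizer ((T : Subgroup G) : Set G) := hz.2
      have hwS : g⁻¹ * z * g ∈ S := by
        rw [← mem_sylow_smul_iff, hg]; exact hzT
      have hwC : g⁻¹ * z * g ∈ Subgroup.centralizer ((S : Subgroup G) : Set G) := by
        rw [Subgroup.mem_centralizer_iff]
        intro s hs
        have hsT : g * s * g⁻¹ ∈ (T : Subgroup G) := by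
          have : g * s * g⁻¹ ∈ g • S := by
            rw [mem_sylow_smul_iff]
            have e : g⁻¹ * (g * s * g⁻¹) * g = s := by group
            rw [e]; exact hs
          rw [hg] at this; exact this
        have h1 := (Subgroup.mem_centralizer_iff.mp hzC) _ hsT
        calc s * (g⁻¹ * z * g) = g⁻¹ * ((g * s * g⁻¹) * z) * g := by group
          _ = g⁻¹ * (z * (g * s * g⁻¹)) * g := by rw [h1]
          _ = g⁻¹ * z * g * s := by group
      have hwp : (g⁻¹ * z * g) ^ p = 1 := by
        have : (g⁻¹ * z * g) ^ p = g⁻¹ * z ^ p * g := by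
          have := conj_pow (a := g⁻¹) (b := z) (i := p)
          simpa using this
        rw [this, hzp]; group
      have hwZ : g⁻¹ * z * g ∈ Cfsg.omegaOne p
          (((S : Subgroup G)) ⊓ Subgroup.centralizer ((S : Subgroup G) : Set G)) :=
        Subgroup.subset_closure ⟨⟨hwS, hwC⟩, hwp⟩
      have hcw := (Subgroup.mem_centralizer_iff.mp hc) _ hwZ
      have hz_eq : z = n⁻¹ * (g⁻¹ * z * g) * n := by
        have hg' : g = n⁻¹ * c⁻¹ := by
          rw [← inv_inv g, hgcn]; group
        have e1 : z = g * (g⁻¹ * z * g) * g⁻¹ := by group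
        have e2 : g * (g⁻¹ * z * g) * g⁻¹ = n⁻¹ * (c⁻¹ * ((g⁻¹ * z * g) * c)) * n := by
          generalize g⁻¹ * z * g = w
          rw [hgcn, hg']; group
        have e3 : n⁻¹ * (c⁻¹ * ((g⁻¹ * z * g) * c)) * n = n⁻¹ * (g⁻¹ * z * g) * n := by
          rw [hcw]; group
        exact e1.trans (e2.trans e3)
      rw [SetLike.mem_coe, Subgroup.mem_centralizer_iff]
      intro j hj
      have hnj : n * j * n⁻¹ ∈ Cfsg.thompsonSubgroupOf p (S : Subgroup G) :=
        (Subgroup.mem_normalizer_iff.mp hn j).mp hj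
      have hJS : Cfsg.thompsonSubgroupOf p (S : Subgroup G) ≤ (S : Subgroup G) := by
        unfold Cfsg.thompsonSubgroupOf
        exact Subgroup.map_subtype_le _
      have h2 := (Subgroup.mem_centralizer_iff.mp hwC) _ (hJS hnj)
      rw [hz_eq]
      calc j * (n⁻¹ * (g⁻¹ * z * g) * n) = n⁻¹ * ((n * j * n⁻¹) * (g⁻¹ * z * g)) * n := by group
        _ = n⁻¹ * ((g⁻¹ * z * g) * (n * j * n⁻¹)) * n := by rw [h2]
        _ = n⁻¹ * (g⁻¹ * z * g) * n * j := by group
    unfold Cfsg.thompsonSubgroup
    apply sSup_le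
    intro A hA
    obtain ⟨S, hAS⟩ := (isPGroup_of_isElementaryAbelian hA.1).exists_le_sylow
    refine (le_thompsonSubgroupOf (S : Subgroup G) hA hAS).trans ?_
    rw [Subgroup.le_centralizer_iff]
    exact iSup_le (fun T => key S T)
  · intro h S g
    refine ⟨1, one_mem _, ?_⟩
    obtain ⟨A₀, hA₀, hA₀S⟩ := exists_maxEA_le_sylow (p := p) S
    obtain ⟨A₁, hA₁, hA₁T⟩ := exists_maxEA_le_sylow (p := p) (g • S)
    have hJS := (thompsonSubgroupOf_le (S : Subgroup G) hA₀ hA₀S).trans h
    have hJT := (thompsonSubgroupOf_le ((g • S : Sylow p G) : Subgroup G) hA₁ hA₁T).trans h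
    have hpS : IsPGroup p (Cfsg.thompsonSubgroupOf p (S : Subgroup G)) := by
      refine S.isPGroup'.to_le ?_
      unfold Cfsg.thompsonSubgroupOf
      exact Subgroup.map_subtype_le _
    have hpT : IsPGroup p (Cfsg.thompsonSubgroupOf p ((g • S : Sylow p G) : Subgroup G)) := by
      refine (g • S).isPGroup'.to_le ?_
      unfold Cfsg.thompsonSubgroupOf
      exact Subgroup.map_subtype_le _
    obtain ⟨c, hc, R, hRp, hRK, hAR, hBR⟩ := exists_conj_le_common_pgroup _ hJS hJT hpS hpT
    rw [thompsonSubgroupOf_eq] at hAR hBR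
    have e1 := sSup_maxElAbIn_eq_of_le S R hRp hAR
    have e2 := sSup_maxElAbIn_eq_of_le (g • S) _ (hRp.map _) hBR
    have e3 := sSup_maxElAbIn_map p (MulAut.conj c) R
    have e4 := sSup_maxElAbIn_map p (MulAut.conj g) (S : Subgroup G)
    have e5 : ((g • S : Sylow p G) : Subgroup G) = (S : Subgroup G).map (MulAut.conj g).toMonoidHom :=
      sylow_smul_eq_map g S
    have key : (Cfsg.thompsonSubgroupOf p (S : Subgroup G)).map (MulAut.conj g).toMonoidHom
        = (Cfsg.thompsonSubgroupOf p (S : Subgroup G)).map (MulAut.conj c).toMonoidHom := by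
      rw [thompsonSubgroupOf_eq, ← e4, ← e5, ← e2, e3, e1]
    have hc' : c ∈ Subgroup.centralizer (Cfsg.omegaOne p
        (((S : Subgroup G)) ⊓ Subgroup.centralizer ((S : Subgroup G) : Set G)) : Set G) := by
      refine Subgroup.centralizer_le ?_ hc
      exact SetLike.coe_subset_coe.mpr (le_iSup (fun S : Sylow p G => Cfsg.omegaOne p
        (((S : Subgroup G)) ⊓ Subgroup.centralizer ((S : Subgroup G) : Set G))) S)
    refine ⟨c, hc', c⁻¹ * g, ?_, by group⟩
    rw [Subgroup.mem_normalizer_iff_map_conj_eq]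
    change Subgroup.map (MulAut.conj (c⁻¹ * g)).toMonoidHom _ = _
    have h1 : (MulAut.conj (c⁻¹ * g)).toMonoidHom
        = (MulAut.conj c⁻¹).toMonoidHom.comp (MulAut.conj g).toMonoidHom := by
      ext x; simp [mul_assoc]
    rw [h1, ← Subgroup.map_map, key, Subgroup.map_map]
    have h2 : (MulAut.conj c⁻¹).toMonoidHom.comp (MulAut.conj c).toMonoidHom = MonoidHom.id G := by
      ext x; simp [mul_assoc]
    rw [h2, Subgroup.map_id]

/-- With trivial p'-core, Thompson factorizability is equivalent to J(G) centralizing the subgroup generated by all Ω₁(Z(S)), S Sylow. -/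
theorem result {G : Type*} [Group G] [Finite G] {p : ℕ} [Fact p.Prime] (hO : Cfsg.pPrimeCore p G = ⊥) : Cfsg.IsThompsonFactorizable p G ↔ Cfsg.thompsonSubgroup p G ≤ Subgroup.centralizer ((⨆ S : Sylow p G, Cfsg.omegaOne p (((S : Subgroup G)) ⊓ Subgroup.centralizer ((S : Subgroup G) : Set G)) : Subgroup G) : Set G) := by
  exact aux hO

end Cfsg.Agent.S0608
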