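import Cfsg.Statements.S0613
import Mathlib
import Cfsg.Agent.Helper1.FFOff

set_option autoImplicit false
open Cfsg

namespace Cfsg.Agent.S0613

/-- A minimal nontrivially-acting best offender and a conjugate of it under a non-centralizing element of the p'-core generate SL(2, p) acting naturally on a plane, and p is 2 or 3. -/
theorem result {G : Type*} [Group G] [Finite G] {p : ℕ} [Fact p.Prime] (V H : Subgroup G) (hV : Cfsg.IsElementaryAbelian p V) (hHV : H ≤ Subgroup.normalizer (V : Set G)) (hf : H ⊓ Subgroup.centralizer (V : Set G) = ⊥) (hS1 : Subgroup.centralizer (Cfsg.pPrimeCore p ↥H : Set ↥H) ≤ Cfsg.pPrimeCore p ↥H) (hS3 : H = ⨆ A : {A : Subgroup G // A ≤ H ∧ Cfsg.IsBestOffenderOn p V A}, (A : Subgroup G)) (hH1 : H ≠ ⊥) (A : Subgroup G) (hAH : A ≤ H) (hA : Cfsg.IsBestOffenderOn p V A) (hAV : ⁅V, A⁆ ≠ ⊥) (hmin : ∀ B : Subgroup G, B ≤ A → Cfsg.IsBestOffenderOn p V B → ⁅V, B⁆ ≠ ⊥ → B = A) (x : G) (hx :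 x ∈ ((Cfsg.pPrimeCore p ↥H).map H.subtype)) (hxA : x ∉ Subgroup.centralizer (A : Set G)) : (p = 2 ∨ p = 3) ∧ Nat.card ↥(⁅V, A ⊔ A.map (MulAut.conj x).toMonoidHom⁆) = p ^ 2 ∧ (A ⊔ A.map (MulAut.conj x).toMonoidHom) ⊓ Subgroup.centralizer ((⁅V, A ⊔ A.map (MulAut.conj x).toMonoidHom⁆ : Subgroup G) : Set G) = ⊥ ∧ Nonempty (↥(A ⊔ A.map (MulAut.conj x).toMonoidHom) ≃* Matrix.SpecialLinearGroup (Fin 2) (ZMod p)) := by
  have hp := (Fact.out : p.Prime)
  obtain ⟨hAc, hUc, -⟩ := Cfsg.Agent.Helper9.min_offender9 V H hV hHV hf hS1 A hAH hA hAV hmin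
  have S := Cfsg.Agent.Helper1.ffset_of V H hV hHV hf hS1
  obtain ⟨a, x₁, T, ha1, hAz, hUz⟩ := Cfsg.Agent.Helper1.tv_of_offender S A hAH hAc hUc
  have hxa : x * a ≠ a * x := by
    intro h
    apply hxA
    rw [Subgroup.mem_centralizer_iff]
    intro c hc
    rw [hAz] at hc
    obtain ⟨n, hn⟩ := Cfsg.Agent.Helper1.ffp_exists_pow hc
    rw [hn]
    exact ((Commute.pow_right (show Commute x a from h) n)).eq.symm
  obtain ⟨b, y, D⟩ := Cfsg.Agent.Helper1.ffp_pair S T ha1 hx hxa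
  have hL : A ⊔ A.map (MulAut.conj x).toMonoidHom = Subgroup.closure ({a, b} : Set G) := by
    have e : (MulAut.conj x).toMonoidHom a = x * a * x⁻¹ := rfl
    rw [D.hcl, hAz, MonoidHom.map_zpowers, Subgroup.zpowers_eq_closure,
      Subgroup.zpowers_eq_closure, ← Subgroup.closure_union, Set.singleton_union, e]
  rw [hL]
  obtain ⟨ψ, -, -, -⟩ := D.P.main D.faith
  refine ⟨Cfsg.Agent.Helper1.PData.p23 S T ha1 D, ?_, ?_, ⟨ψ.symm⟩⟩
  · rw [D.P.comm_eq]; exact D.P.card_W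
  · rw [D.P.comm_eq, eq_bot_iff]
    intro g hg
    obtain ⟨hgL, hgC⟩ := Subgroup.mem_inf.mp hg
    rw [Subgroup.mem_bot]
    have hcx := Subgroup.mem_centralizer_iff.mp hgC x₁
      (Subgroup.subset_closure (Set.mem_insert _ _))
    have hcy := Subgroup.mem_centralizer_iff.mp hgC y
      (Subgroup.subset_closure (Set.mem_insert_of_mem _ (Set.mem_singleton _)))
    apply D.faith g hgL
    · rw [← hcx, mul_inv_cancel_right]
    · rw [← hcy, mul_inv_cancel_right]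

end Cfsg.Agent.S0613
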