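import Cfsg.Statements.S0614
import Mathlib
import Cfsg.Agent.Helper1.FFComm

set_option autoImplicit false
open Cfsg

namespace Cfsg.Agent.S0614

/-- The commutator of the p'-core with a minimal nontrivially-acting best offender is a 3-group (when p = 2) or a non-abelian 2-group (when p = 3). -/
theorem result {G : Type*} [Group G] [Finite G] {p : ℕ} [Fact p.Prime] (V H : Subgroup G) (hV : Cfsg.IsElementaryAbelian p V) (hHV : H ≤ Subgroup.normalizer (V : Set G)) (hf : H ⊓ Subgroup.centralizer (V : Set G) = ⊥) (hS1 : Subgroup.centralizer (Cfsg.pPrimeCore p ↥H : Set ↥H) ≤ Cfsg.pPrimeCore p ↥H) (hS3 : H = ⨆ A : {A : Subgroup G // A ≤ H ∧ Cfsg.IsBestOffenderOn p V A}, (A : Subgroup G)) (hH1 : H ≠ ⊥) (A : Subgroup G) (hAH : A ≤ H) (hA : Cfsg.IsBestOffenderOn p V A) (hAV : ⁅V, A⁆ ≠ ⊥) (hmin : ∀ B : Subgroup G, B ≤ A → Cfsg.IsBestOffenderOn p V B → ⁅V, B⁆ ≠ ⊥ → B = A) : (p = 2 ∧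 IsPGroup 3 ↥(⁅((Cfsg.pPrimeCore p ↥H).map H.subtype), A⁆)) ∨ (p = 3 ∧ IsPGroup 2 ↥(⁅((Cfsg.pPrimeCore p ↥H).map H.subtype), A⁆) ∧ ¬ IsMulCommutative ↥(⁅((Cfsg.pPrimeCore p ↥H).map H.subtype), A⁆)) := by
  obtain ⟨hAc, hUc, -⟩ := Cfsg.Agent.Helper9.min_offender9 V H hV hHV hf hS1 A hAH hA hAV hmin
  have S := Cfsg.Agent.Helper1.ffset_of V H hV hHV hf hS1
  obtain ⟨a, x, T, ha1, hAz, hUz⟩ := Cfsg.Agent.Helper1.tv_of_offender S A hAH hAc hUc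
  have hex : ∃ q ∈ ((Cfsg.pPrimeCore p ↥H).map H.subtype), q * a ≠ a * q := by
    by_contra hcon
    push_neg at hcon
    exact ha1 (S.hQc a T.aH T.ap hcon)
  obtain ⟨q, hq, hqa⟩ := hex
  obtain ⟨b, y, D⟩ := Cfsg.Agent.Helper1.ffp_pair S T ha1 hq hqa
  have hle := Cfsg.Agent.Helper1.ffp_comm_le S T ha1 D hq
  rw [hAz]
  rcases Cfsg.Agent.Helper1.PData.p23 S T ha1 D with h2 | h3
  · left
    subst h2
    refine ⟨rfl, ?_⟩
    intro g
    refine ⟨1, ?_⟩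
    apply Subtype.ext
    rw [pow_one, Subgroup.coe_pow, Subgroup.coe_one]
    have hg := hle g.2
    exact Cfsg.Agent.Helper1.ffp_LQ_pow2 S D g.1 (Subgroup.mem_inf.mp hg).1
      (Subgroup.mem_inf.mp hg).2
  · right
    subst h3
    refine ⟨rfl, ?_, ?_⟩
    · intro g
      refine ⟨3, ?_⟩
      apply Subtype.ext
      rw [Subgroup.coe_pow, Subgroup.coe_one]
      have hg := hle g.2
      exact Cfsg.Agent.Helper1.ffp_LQ_pow3 S D g.1 (Subgroup.mem_inf.mp hg).1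
        (Subgroup.mem_inf.mp hg).2
    · intro hcomm
      obtain ⟨g₁, g₂, hg₁, hg₂, hne⟩ := Cfsg.Agent.Helper1.ffp_noncomm3 S T ha1 D hq
      have h := hcomm.is_comm.comm ⟨g₁, hg₁⟩ ⟨g₂, hg₂⟩
      exact hne (congrArg Subtype.val h)

end Cfsg.Agent.S0614
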