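import Cfsg.Statements.S0615
import Cfsg.Agent.Helper4.StabSeries
import Cfsg.Agent.Helper12.Conj

set_option autoImplicit false
open Cfsg

namespace Cfsg.Agent.S0615

open Cfsg.Agent.Helper12 Cfsg.Agent.Helper4
open scoped commutatorElement

section Conj

variable {G : Type*} [Group G]

-- the conjugate subgroup `g X g⁻¹`
def cj (X : Subgroup G) (g : G) : Subgroup G :=
  X.map (MulAut.conj g).toMonoidHom

theorem mem_cj (X : Subgroup G) (g x : G) : x ∈ cj X g ↔ g⁻¹ * x * g ∈ X :=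
  mem_map_conj_iff X g x

theorem conj_mem_cj (X : Subgroup G) (g : G) {t : G} (ht : t ∈ X) : g * t * g⁻¹ ∈ cj X g :=
  conj_mem_map_conj X g ht

theorem cj_le_iff (X K : Subgroup G) (g : G) : cj X g ≤ K ↔ ∀ t ∈ X, g * t * g⁻¹ ∈ K :=
  map_conj_le_iff X K g

theorem card_cj (X : Subgroup G) (g : G) : Nat.card ↥(cj X g) = Nat.card ↥X :=
  (Nat.card_congr
    (X.equivMapOfInjective (MulAut.conj g).toMonoidHom (MulAut.conj g).injective).toEquiv).symm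

theorem cj_bot (g : G) : cj (⊥ : Subgroup G) g = ⊥ := Subgroup.map_bot _

theorem cj_sup (A B : Subgroup G) (g : G) : cj (A ⊔ B) g = cj A g ⊔ cj B g :=
  Subgroup.map_sup A B _

theorem cj_mul (X : Subgroup G) (g h : G) : cj (cj X h) g = cj X (g * h) := by
  ext x
  rw [mem_cj, mem_cj, mem_cj]
  have e : h⁻¹ * (g⁻¹ * x * g) * h = (g * h)⁻¹ * x * (g * h) := by group
  rw [e]

theorem cj_one (X : Subgroup G) : cj X 1 = X := by
  ext x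
  rw [mem_cj]
  simp

theorem cj_inv_cj (U : Subgroup G) (g : G) : cj (cj U g⁻¹) g = U := by
  rw [cj_mul, mul_inv_cancel, cj_one]

theorem cj_eq_of_conj_le [Finite G] (X : Subgroup G) (g : G)
    (h : ∀ s ∈ X, g * s * g⁻¹ ∈ X) : cj X g = X :=
  Subgroup.eq_of_le_of_card_ge ((cj_le_iff X X g).2 h) (le_of_eq (card_cj X g).symm)

theorem mem_nz_iff (Q : Subgroup G) (g : G) :
    g ∈ Subgroup.normalizer (Q : Set G) ↔ cj Q g = Q := by
  constructor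
  · intro hg
    ext y
    rw [mem_cj]
    have h1 := (Subgroup.mem_normalizer_iff.1 hg) (g⁻¹ * y * g)
    have e : g * (g⁻¹ * y * g) * g⁻¹ = y := by group
    rw [e] at h1
    exact h1
  · intro h
    rw [Subgroup.mem_normalizer_iff]
    intro x
    constructor
    · intro hx
      rw [← h]
      exact conj_mem_cj Q g hx
    · intro hx
      rw [← h, mem_cj] at hx
      have e : g⁻¹ * (g * x * g⁻¹) * g = x := by group
      rwa [e] at hx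

theorem mem_nz_of_conj_le [Finite G] (H : Subgroup G) (u : G)
    (h : ∀ s ∈ H, u * s * u⁻¹ ∈ H) : u ∈ Subgroup.normalizer (H : Set G) :=
  (mem_nz_iff H u).2 (cj_eq_of_conj_le H u h)

theorem nz_conj {U : Subgroup G} {g u : G} (hg : g ∈ Subgroup.normalizer (U : Set G))
    (hu : u ∈ U) : g * u * g⁻¹ ∈ U :=
  (Subgroup.mem_normalizer_iff.1 hg u).1 hu

theorem nz_sup {A B : Subgroup G} {g : G} (hA : g ∈ Subgroup.normalizer (A : Set G))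
    (hB : g ∈ Subgroup.normalizer (B : Set G)) :
    g ∈ Subgroup.normalizer ((A ⊔ B : Subgroup G) : Set G) := by
  rw [mem_nz_iff] at hA hB ⊢
  rw [cj_sup, hA, hB]

theorem cj_le_of_nz {V W : Subgroup G} {y : G} (hW : W ≤ V)
    (hy : y ∈ Subgroup.normalizer (V : Set G)) : cj W y ≤ V := by
  rw [cj_le_iff]
  intro t ht
  exact nz_conj hy (hW ht)

theorem comm_mem {V X : Subgroup G} {x v : G} (hx : x ∈ X) (hv : v ∈ V) :
    x * v * x⁻¹ * v⁻¹ ∈ ⁅V, X⁆ := by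
  rw [Subgroup.commutator_comm]
  have h := Subgroup.commutator_mem_commutator hx hv
  rwa [commutatorElement_def] at h

theorem comm_mem' {V X : Subgroup G} {x v : G} (hx : x ∈ X) (hv : v ∈ V) :
    v⁻¹ * x * v * x⁻¹ ∈ ⁅V, X⁆ := by
  have h := Subgroup.commutator_mem_commutator (V.inv_mem hv) hx
  rwa [commutatorElement_def, inv_inv] at h

theorem comm_le {V X : Subgroup G} (hX : X ≤ Subgroup.normalizer (V : Set G)) : ⁅V, X⁆ ≤ V := by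
  rw [Subgroup.commutator_le]
  intro v hv x hx
  have e : ⁅v, x⁆ = v * (x * v⁻¹ * x⁻¹) := by rw [commutatorElement_def]; group
  rw [e]
  exact V.mul_mem hv (nz_conj (hX hx) (V.inv_mem hv))

theorem nz_comm [Finite G] {V X : Subgroup G} {g : G}
    (hV : g ∈ Subgroup.normalizer (V : Set G)) (hX : g ∈ Subgroup.normalizer (X : Set G)) :
    g ∈ Subgroup.normalizer ((⁅V, X⁆ : Subgroup G) : Set G) :=
  mem_nz_of_conj_le _ g
    (stab_conj_mem_commutator (fun _ ha => nz_conj hV ha) (fun _ hb => nz_conj hX hb))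

theorem comm_conj {V : Subgroup G} (X : Subgroup G) {g : G}
    (hV : g ∈ Subgroup.normalizer (V : Set G)) : ⁅V, cj X g⁆ = cj ⁅V, X⁆ g := by
  have h := Subgroup.map_commutator V X (MulAut.conj g).toMonoidHom
  have hV' : V.map (MulAut.conj g).toMonoidHom = V := (mem_nz_iff V g).1 hV
  rw [hV'] at h
  exact h.symm

theorem comm_sup [Finite G] {V X Y : Subgroup G} (hXV : X ≤ Subgroup.normalizer (V : Set G))
    (hYV : Y ≤ Subgroup.normalizer (V : Set G))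
    (hXY : X ≤ Subgroup.normalizer ((⁅V, Y⁆ : Subgroup G) : Set G))
    (hYX : Y ≤ Subgroup.normalizer ((⁅V, X⁆ : Subgroup G) : Set G)) :
    ⁅V, X ⊔ Y⁆ = ⁅V, X⁆ ⊔ ⁅V, Y⁆ := by
  apply le_antisymm
  · have hXs : X ≤ stabSub V (⁅V, X⁆ ⊔ ⁅V, Y⁆) := by
      intro x hx
      rw [mem_stabSub]
      exact ⟨⟨hXV hx, nz_sup (nz_comm (hXV hx) (Subgroup.le_normalizer hx)) (hXY hx)⟩,
        fun v hv => (le_sup_left : ⁅V, X⁆ ≤ ⁅V, X⁆ ⊔ ⁅V, Y⁆) (comm_mem' hx hv)⟩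
    have hYs : Y ≤ stabSub V (⁅V, X⁆ ⊔ ⁅V, Y⁆) := by
      intro y hy
      rw [mem_stabSub]
      exact ⟨⟨hYV hy, nz_sup (hYX hy) (nz_comm (hYV hy) (Subgroup.le_normalizer hy))⟩,
        fun v hv => (le_sup_right : ⁅V, Y⁆ ≤ ⁅V, X⁆ ⊔ ⁅V, Y⁆) (comm_mem' hy hv)⟩
    rw [Subgroup.commutator_le]
    intro v hv e he
    have h1 := (mem_stabSub.1 (sup_le hXs hYs he)).2 v⁻¹ (V.inv_mem hv)
    rw [inv_inv] at h1
    rwa [commutatorElement_def]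
  · exact sup_le (Subgroup.commutator_mono le_rfl le_sup_left)
      (Subgroup.commutator_mono le_rfl le_sup_right)

-- injectivity of `v ↦ [y, v]` on a subgroup meeting its `y`-conjugate trivially
theorem delta_inj {W : Subgroup G} {y : G} (hW : W ⊓ cj W y = ⊥) {v w : G} (hv : v ∈ W)
    (hw : w ∈ W) (h : y * v * y⁻¹ * v⁻¹ = y * w * y⁻¹ * w⁻¹) : v = w := by
  have e : y * (w⁻¹ * v) * y⁻¹ = (y * w * y⁻¹)⁻¹ * (y * v * y⁻¹ * v⁻¹) * v := by group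
  rw [h] at e
  have e2 : (y * w * y⁻¹)⁻¹ * (y * w * y⁻¹ * w⁻¹) * v = w⁻¹ * v := by group
  rw [e2] at e
  have hu : w⁻¹ * v ∈ W := W.mul_mem (W.inv_mem hw) hv
  have hu2 : w⁻¹ * v ∈ W ⊓ cj W y := by
    refine ⟨hu, ?_⟩
    have := conj_mem_cj W y hu
    rwa [e] at this
  rw [hW] at hu2
  exact (inv_mul_eq_one.1 (Subgroup.mem_bot.1 hu2)).symm

theorem card_le_of_delta [Finite G] {V X W : Subgroup G} {y : G} (hy : y ∈ X) (hWV : W ≤ V)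
    (hW : W ⊓ cj W y = ⊥) : Nat.card ↥W ≤ Nat.card ↥(⁅V, X⁆ : Subgroup G) := by
  have hinj : Function.Injective (fun v : ↥W =>
      (⟨y * (v : G) * y⁻¹ * (v : G)⁻¹, comm_mem hy (hWV v.2)⟩ : ↥(⁅V, X⁆ : Subgroup G))) := by
    intro a b hab
    have := congrArg Subtype.val hab
    exact Subtype.ext (delta_inj hW a.2 b.2 this)
  exact Nat.card_le_card_of_injective _ hinj

theorem delta_surj [Finite G] {V X W : Subgroup G} {y : G} (hy : y ∈ X) (hWV : W ≤ V)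
    (hW : W ⊓ cj W y = ⊥) (hc : Nat.card ↥(⁅V, X⁆ : Subgroup G) ≤ Nat.card ↥W) :
    ∀ w ∈ ⁅V, X⁆, ∃ v ∈ W, y * v * y⁻¹ * v⁻¹ = w := by
  have hinj : Function.Injective (fun v : ↥W =>
      (⟨y * (v : G) * y⁻¹ * (v : G)⁻¹, comm_mem hy (hWV v.2)⟩ : ↥(⁅V, X⁆ : Subgroup G))) := by
    intro a b hab
    have := congrArg Subtype.val hab
    exact Subtype.ext (delta_inj hW a.2 b.2 this)
  have hbij := hinj.bijective_of_nat_card_le hc
  intro w hw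
  obtain ⟨v, hv⟩ := hbij.2 ⟨w, hw⟩
  exact ⟨v, v.2, congrArg Subtype.val hv⟩

end Conj

section Main

variable {G : Type*} [Group G] [Finite G] {p : ℕ} [Fact p.Prime]

structure Ctx (p : ℕ) (V E : Subgroup G) : Prop where
  ea : Cfsg.IsElementaryAbelian p V
  nz : E ≤ Subgroup.normalizer (V : Set G)
  faith : E ⊓ Subgroup.centralizer (V : Set G) = ⊥
  op : Cfsg.pCore p ↥E = ⊥

structure Good (V E X : Subgroup G) : Prop where
  le : X ≤ E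
  sn : (X.subgroupOf E).IsSubnormal
  irr : ∀ U : Subgroup G, U ≤ ⁅V, X⁆ → X ≤ Subgroup.normalizer (U : Set G) → U = ⊥ ∨ U = ⁅V, X⁆
  card : 2 < Nat.card ↥X

theorem Ctx.eq_one {V E : Subgroup G} (hC : Ctx p V E) {e : G} (he : e ∈ E)
    (hc : e ∈ Subgroup.centralizer (V : Set G)) : e = 1 := by
  have h : e ∈ E ⊓ Subgroup.centralizer (V : Set G) := ⟨he, hc⟩
  rw [hC.faith] at h
  exact Subgroup.mem_bot.1 h

theorem Good.nzW {V E X : Subgroup G} (hC : Ctx p V E) (hX : Good V E X) :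
    X ≤ Subgroup.normalizer ((⁅V, X⁆ : Subgroup G) : Set G) :=
  fun _ hx => nz_comm (hC.nz (hX.le hx)) (Subgroup.le_normalizer hx)

-- `X` acts faithfully on `[V, X]`
theorem Good.faithful {V E X : Subgroup G} (hC : Ctx p V E) (hX : Good V E X) :
    X ⊓ Subgroup.centralizer ((⁅V, X⁆ : Subgroup G) : Set G) = ⊥ := by
  obtain ⟨K, hK⟩ : ∃ K : Subgroup G,
      K = X ⊓ Subgroup.centralizer ((⁅V, X⁆ : Subgroup G) : Set G) := ⟨_, rfl⟩
  rw [← hK]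
  have hKX : K ≤ X := by rw [hK]; exact inf_le_left
  have hKE : K ≤ E := hKX.trans hX.le
  have hVX : ⁅V, X⁆ ≤ V := comm_le (hX.le.trans hC.nz)
  have hpow : ∀ z ∈ K, z ^ p = 1 := by
    intro z hz
    have hz' : z ∈ X ⊓ Subgroup.centralizer ((⁅V, X⁆ : Subgroup G) : Set G) := by
      rw [← hK]; exact hz
    have hzX : z ∈ X := hz'.1
    have hzE : z ∈ E := hX.le hzX
    have hst : z ∈ stabSub V ⁅V, X⁆ := by
      rw [mem_stabSub]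
      exact ⟨⟨hC.nz hzE, nz_comm (hC.nz hzE) (Subgroup.le_normalizer hzX)⟩,
        fun v hv => comm_mem' hzX hv⟩
    have h1 := stab_pow_mem_centralizer (p := p) (fun w hw => hC.ea.2 w (hVX hw)) hst hz'.2
    exact hC.eq_one (E.pow_mem hzE p) h1
  have hp : IsPGroup p ↥(K.subgroupOf E) := by
    intro g
    refine ⟨1, ?_⟩
    have h1 : ((g : ↥E) : G) ^ p = 1 := hpow _ (Subgroup.mem_subgroupOf.1 g.2)
    apply Subtype.ext
    apply Subtype.ext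
    simpa using h1
  have hXK : X ≤ Subgroup.normalizer (K : Set G) := by
    intro x hx
    apply mem_nz_of_conj_le
    intro z hz
    rw [hK] at hz ⊢
    exact ⟨X.mul_mem (X.mul_mem hx hz.1) (X.inv_mem hx),
      centralizer_conj_of_normalizer (hX.nzW hC hx) hz.2⟩
  have hle : K.subgroupOf E ≤ X.subgroupOf E := fun e he => hKX he
  have hN : ((K.subgroupOf E).subgroupOf (X.subgroupOf E)).Normal := by
    rw [Subgroup.normal_subgroupOf_iff_le_normalizer hle]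
    intro e he
    rw [Subgroup.mem_normalizer_iff]
    intro h
    have h1 := (Subgroup.mem_normalizer_iff.1 (hXK (Subgroup.mem_subgroupOf.1 he))) (h : G)
    exact h1
  have hsn : (K.subgroupOf E).IsSubnormal := Subgroup.IsSubnormal.step _ _ hle hX.sn hN
  have h2 := Cfsg.Agent.Helper16.isSubnormal_pgroup_le_pCore hsn hp
  rw [hC.op] at h2
  rw [eq_bot_iff]
  intro z hz
  have h3 : (⟨z, hKE hz⟩ : ↥E) ∈ K.subgroupOf E := Subgroup.mem_subgroupOf.2 hz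
  have h4 := Subgroup.mem_bot.1 (h2 h3)
  rw [Subgroup.mem_bot]
  exact congrArg Subtype.val h4

-- no nontrivial fixed points of `X` on `[V, X]`
theorem Good.fix_bot {V E X : Subgroup G} (hC : Ctx p V E) (hX : Good V E X) :
    ⁅V, X⁆ ⊓ Subgroup.centralizer (X : Set G) = ⊥ := by
  have hn : X ≤ Subgroup.normalizer
      ((⁅V, X⁆ ⊓ Subgroup.centralizer (X : Set G) : Subgroup G) : Set G) := by
    intro x hx
    apply mem_nz_of_conj_le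
    intro s hs
    have h1 : x * s = s * x := (Subgroup.mem_centralizer_iff.1 hs.2) x hx
    have e : x * s * x⁻¹ = s := by rw [h1]; group
    rw [e]; exact hs
  rcases hX.irr _ inf_le_left hn with h | h
  · exact h
  · exfalso
    have hle : X ≤ X ⊓ Subgroup.centralizer ((⁅V, X⁆ : Subgroup G) : Set G) := by
      intro x hx
      have hxc : x ∈ Subgroup.centralizer ((⁅V, X⁆ : Subgroup G) : Set G) := by
        rw [Subgroup.mem_centralizer_iff]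
        intro w hw
        exact ((Subgroup.mem_centralizer_iff.1 (h.symm.le hw).2) x hx).symm
      exact ⟨hx, hxc⟩
    rw [hX.faithful hC, le_bot_iff] at hle
    have := hX.card
    rw [hle, Subgroup.card_bot] at this
    omega

theorem Good.conj {V E X : Subgroup G} (hC : Ctx p V E) (hX : Good V E X) {g : G}
    (hg : g ∈ E) : Good V E (cj X g) := by
  have hgV : g ∈ Subgroup.normalizer (V : Set G) := hC.nz hg
  have hle : cj X g ≤ E := (cj_le_iff X E g).2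
    (fun t ht => E.mul_mem (E.mul_mem hg (hX.le ht)) (E.inv_mem hg))
  refine ⟨hle, ?_, ?_, ?_⟩
  · have h1 := hX.sn.comap (MulAut.conj (⟨g, hg⟩ : ↥E)⁻¹).toMonoidHom
    have e : (X.subgroupOf E).comap (MulAut.conj (⟨g, hg⟩ : ↥E)⁻¹).toMonoidHom =
        (cj X g).subgroupOf E := by
      ext e
      rw [Subgroup.mem_comap, Subgroup.mem_subgroupOf, Subgroup.mem_subgroupOf, mem_cj]
      simp
    rwa [e] at h1
  · intro U hU hn
    rw [comm_conj X hgV] at hU ⊢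
    have hU' : cj U g⁻¹ ≤ ⁅V, X⁆ := by
      rw [cj_le_iff]
      intro t ht
      rw [inv_inv]
      exact (mem_cj _ g t).1 (hU ht)
    have hn' : X ≤ Subgroup.normalizer ((cj U g⁻¹ : Subgroup G) : Set G) := by
      intro x hx
      apply mem_nz_of_conj_le
      intro s hs
      rw [mem_cj] at hs ⊢
      have h1 : g * x * g⁻¹ ∈ Subgroup.normalizer (U : Set G) := hn (conj_mem_cj X g hx)
      have h2 := nz_conj h1 hs
      have e : g⁻¹⁻¹ * (x * s * x⁻¹) * g⁻¹ =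
          g * x * g⁻¹ * (g⁻¹⁻¹ * s * g⁻¹) * (g * x * g⁻¹)⁻¹ := by group
      rw [e]; exact h2
    rcases hX.irr _ hU' hn' with h | h
    · left
      calc U = cj (cj U g⁻¹) g := (cj_inv_cj U g).symm
        _ = cj ⊥ g := by rw [h]
        _ = ⊥ := cj_bot g
    · right
      calc U = cj (cj U g⁻¹) g := (cj_inv_cj U g).symm
        _ = cj ⁅V, X⁆ g := by rw [h]
  · rw [card_cj]; exact hX.card

theorem inf_bot_of_nz {V E X Y : Subgroup G} (hC : Ctx p V E) (hY : Good V E Y)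
    (hn : Y ≤ Subgroup.normalizer ((⁅V, X⁆ : Subgroup G) : Set G)) (h : ¬ ⁅V, Y⁆ ≤ ⁅V, X⁆) :
    ⁅V, X⁆ ⊓ ⁅V, Y⁆ = ⊥ := by
  have hn2 : Y ≤ Subgroup.normalizer ((⁅V, X⁆ ⊓ ⁅V, Y⁆ : Subgroup G) : Set G) := by
    intro y hy
    apply mem_nz_of_conj_le
    intro s hs
    exact ⟨nz_conj (hn hy) hs.1, nz_conj (hY.nzW hC hy) hs.2⟩
  rcases hY.irr _ inf_le_right hn2 with h1 | h1
  · exact h1
  · exact absurd (h1.symm.le.trans inf_le_left) h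

theorem nz_of_comm {V E X Y : Subgroup G} (hC : Ctx p V E) (hYE : Y ≤ E) (hc : ⁅X, Y⁆ = ⊥) :
    Y ≤ Subgroup.normalizer ((⁅V, X⁆ : Subgroup G) : Set G) := by
  intro y hy
  apply nz_comm (hC.nz (hYE hy))
  apply mem_nz_of_conj_le
  intro s hs
  have h1 : X ≤ Subgroup.centralizer (Y : Set G) :=
    Subgroup.commutator_eq_bot_iff_le_centralizer.1 hc
  have h2 : y * s = s * y := (Subgroup.mem_centralizer_iff.1 (h1 hs)) y hy
  have e : y * s * y⁻¹ = s := by rw [h2]; group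
  rw [e]; exact hs

theorem case1 {V E X Y : Subgroup G} (hC : Ctx p V E) (hX : Good V E X) (hY : Good V E Y)
    (hn : Y ≤ Subgroup.normalizer ((⁅V, X⁆ : Subgroup G) : Set G)) (h : ¬ ⁅V, Y⁆ ≤ ⁅V, X⁆) :
    ⁅X, Y⁆ = ⊥ := by
  have hinf := inf_bot_of_nz hC hY hn h
  have h3 : ⁅⁅V, X⁆, Y⁆ = ⊥ := by
    rw [eq_bot_iff, ← hinf]
    exact le_inf (comm_le hn) (Subgroup.commutator_mono (comm_le (hX.le.trans hC.nz)) le_rfl)
  have h4 := commutator_subnormal_le_pCore V E hC.ea hC.nz hC.faith X Y hX.le hY.le hX.sn hY.sn h3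
  rw [hC.op, Subgroup.map_bot] at h4
  exact le_bot_iff.1 h4

theorem moving_step {V E X Y : Subgroup G} (hC : Ctx p V E) (hX : Good V E X)
    (hY : Good V E Y) (hXY : ¬ ⁅V, X⁆ ≤ ⁅V, Y⁆)
    (IH : ∀ X' Y' : Subgroup G, Good V E X' → Good V E Y' → ¬ ⁅V, X'⁆ ≤ ⁅V, Y'⁆ →
      ¬ ⁅V, Y'⁆ ≤ ⁅V, X'⁆ → Nat.card ↥(X' ⊔ Y') < Nat.card ↥(X ⊔ Y) → ⁅X', Y'⁆ = ⊥)
    {y : G} (hy : y ∈ X) (hmov : y ∉ Subgroup.normalizer ((⁅V, Y⁆ : Subgroup G) : Set G)) :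
    ⁅Y, cj Y y⁆ = ⊥ ∧ ⁅V, Y⁆ ⊓ cj ⁅V, Y⁆ y = ⊥ := by
  have hyE : y ∈ E := hX.le hy
  have hyV := hC.nz hyE
  have hYy : Good V E (cj Y y) := hY.conj hC hyE
  have hcc : ⁅V, cj Y y⁆ = cj ⁅V, Y⁆ y := comm_conj Y hyV
  have hne : cj ⁅V, Y⁆ y ≠ ⁅V, Y⁆ := fun h => hmov ((mem_nz_iff _ y).2 h)
  have hcard : Nat.card ↥(cj ⁅V, Y⁆ y) = Nat.card ↥(⁅V, Y⁆ : Subgroup G) := card_cj _ y
  have h1 : ¬ ⁅V, Y⁆ ≤ ⁅V, cj Y y⁆ := by
    rw [hcc]
    intro hle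
    exact hne (Subgroup.eq_of_le_of_card_ge hle (le_of_eq hcard)).symm
  have h2 : ¬ ⁅V, cj Y y⁆ ≤ ⁅V, Y⁆ := by
    rw [hcc]
    intro hle
    exact hne (Subgroup.eq_of_le_of_card_ge hle (le_of_eq hcard.symm))
  have hlt : Nat.card ↥(Y ⊔ cj Y y) < Nat.card ↥(X ⊔ Y) := by
    have hE₀ : X ⊔ Y ≤ E := sup_le hX.le hY.le
    have hYE₀ : Y ≤ X ⊔ Y := le_sup_right
    have hyE₀ : y ∈ X ⊔ Y := (le_sup_left : X ≤ X ⊔ Y) hy
    have hsn : (Y.subgroupOf (X ⊔ Y)).IsSubnormal := by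
      have h := hY.sn.comap (Subgroup.inclusion hE₀)
      have e : (Y.subgroupOf E).comap (Subgroup.inclusion hE₀) = Y.subgroupOf (X ⊔ Y) := by
        ext z
        rfl
      rwa [e] at h
    have hnt : Y.subgroupOf (X ⊔ Y) ≠ ⊤ := by
      intro ht
      rw [Subgroup.subgroupOf_eq_top] at ht
      exact hXY (Subgroup.commutator_mono le_rfl (le_sup_left.trans ht))
    obtain ⟨K, hKn, hYK, hKt⟩ := hsn.exists_normal_and_le_and_lt_top_of_ne hnt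
    have hle : Y ⊔ cj Y y ≤ X ⊔ Y := by
      refine sup_le hYE₀ ?_
      rw [cj_le_iff]
      intro t ht
      exact Subgroup.mul_mem _ (Subgroup.mul_mem _ hyE₀ (hYE₀ ht)) (Subgroup.inv_mem _ hyE₀)
    by_contra hcon
    rw [not_lt] at hcon
    have heq : Y ⊔ cj Y y = X ⊔ Y := Subgroup.eq_of_le_of_card_ge hle hcon
    apply hKt.ne
    rw [eq_top_iff]
    intro e _
    have he : (e : G) ∈ Y ⊔ cj Y y := by rw [heq]; exact e.2
    have key : Y ⊔ cj Y y ≤ K.map (X ⊔ Y).subtype := by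
      refine sup_le ?_ ?_
      · intro t ht
        exact ⟨⟨t, hYE₀ ht⟩, hYK (Subgroup.mem_subgroupOf.2 ht), rfl⟩
      · rw [cj_le_iff]
        intro t ht
        exact ⟨⟨y, hyE₀⟩ * ⟨t, hYE₀ ht⟩ * ⟨y, hyE₀⟩⁻¹,
          hKn.conj_mem _ (hYK (Subgroup.mem_subgroupOf.2 ht)) _, rfl⟩
    obtain ⟨k, hk, hke⟩ := key he
    have hk2 : k = e := Subtype.ext hke
    rwa [hk2] at hk
  have hcomm := IH Y (cj Y y) hY hYy h1 h2 hlt
  refine ⟨hcomm, ?_⟩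
  rw [← hcc]
  exact inf_bot_of_nz hC hYy (nz_of_comm hC hYy.le hcomm) h2

theorem case3 {V E X Y : Subgroup G} (hC : Ctx p V E) (hX : Good V E X) (hY : Good V E Y)
    (MX : ∀ y ∈ X, y ∉ Subgroup.normalizer ((⁅V, Y⁆ : Subgroup G) : Set G) →
      ⁅Y, cj Y y⁆ = ⊥ ∧ ⁅V, Y⁆ ⊓ cj ⁅V, Y⁆ y = ⊥)
    (MY : ∀ x ∈ Y, x ∉ Subgroup.normalizer ((⁅V, X⁆ : Subgroup G) : Set G) →
      ⁅X, cj X x⁆ = ⊥ ∧ ⁅V, X⁆ ⊓ cj ⁅V, X⁆ x = ⊥)
    {x₀ y₀ : G} (hx₀ : x₀ ∈ Y)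
    (hx₀m : x₀ ∉ Subgroup.normalizer ((⁅V, X⁆ : Subgroup G) : Set G))
    (hy₀ : y₀ ∈ X) (hy₀m : y₀ ∉ Subgroup.normalizer ((⁅V, Y⁆ : Subgroup G) : Set G)) :
    False := by
  have hXV : X ≤ Subgroup.normalizer (V : Set G) := hX.le.trans hC.nz
  have hYV : Y ≤ Subgroup.normalizer (V : Set G) := hY.le.trans hC.nz
  have hV₁V : ⁅V, X⁆ ≤ V := comm_le hXV
  have hV₂V : ⁅V, Y⁆ ≤ V := comm_le hYV
  have hc1 : Nat.card ↥(⁅V, X⁆ : Subgroup G) ≤ Nat.card ↥(⁅V, Y⁆ : Subgroup G) :=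
    card_le_of_delta hx₀ hV₁V (MY x₀ hx₀ hx₀m).2
  -- surjectivity of `v ↦ [y, v]` from `[V, Y]` onto `[V, X]` for moving `y`
  have S5 : ∀ y ∈ X, y ∉ Subgroup.normalizer ((⁅V, Y⁆ : Subgroup G) : Set G) →
      ∀ w ∈ ⁅V, X⁆, ∃ v ∈ ⁅V, Y⁆, y * v * y⁻¹ * v⁻¹ = w := fun y hy hm =>
    delta_surj hy hV₂V (MX y hy hm).2 hc1
  -- `Y` centralizes the conjugate of `[V, Y]` under a moving `y`
  have S3 : ∀ y ∈ X, y ∉ Subgroup.normalizer ((⁅V, Y⁆ : Subgroup G) : Set G) →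
      ∀ t ∈ Y, ∀ c ∈ cj ⁅V, Y⁆ y, t * c * t⁻¹ = c := by
    intro y hy hm t ht c hc
    obtain ⟨hcomm, hinf⟩ := MX y hy hm
    have hyV := hXV hy
    have ht1 : t ∈ Subgroup.normalizer ((⁅V, cj Y y⁆ : Subgroup G) : Set G) :=
      nz_of_comm hC hY.le (by rw [Subgroup.commutator_comm]; exact hcomm) ht
    rw [comm_conj Y hyV] at ht1
    have hcV : c ∈ V := cj_le_of_nz hV₂V hyV hc
    have h3 : t * c * t⁻¹ * c⁻¹ ∈ ⁅V, Y⁆ ⊓ cj ⁅V, Y⁆ y :=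
      ⟨comm_mem ht hcV, Subgroup.mul_mem _ (nz_conj ht1 hc) (Subgroup.inv_mem _ hc)⟩
    rw [hinf] at h3
    exact mul_inv_eq_one.1 (Subgroup.mem_bot.1 h3)
  have S6 : ⁅V, X⁆ ⊓ ⁅V, Y⁆ = ⊥ := by
    rw [eq_bot_iff]
    intro w hw
    obtain ⟨v, hv, hvw⟩ := S5 y₀ hy₀ hy₀m w hw.1
    have hc : y₀ * v * y₀⁻¹ ∈ ⁅V, Y⁆ ⊓ cj ⁅V, Y⁆ y₀ := by
      refine ⟨?_, conj_mem_cj _ y₀ hv⟩
      have e : y₀ * v * y₀⁻¹ = w * v := by rw [← hvw]; group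
      rw [e]; exact Subgroup.mul_mem _ hw.2 hv
    rw [(MX y₀ hy₀ hy₀m).2] at hc
    have h1 : y₀ * v * y₀⁻¹ = 1 := Subgroup.mem_bot.1 hc
    have hv1 : v = 1 := by
      have e : v = y₀⁻¹ * (y₀ * v * y₀⁻¹) * y₀ := by group
      rw [e, h1]; group
    rw [Subgroup.mem_bot, ← hvw, hv1]; group
  have S7 : ∀ y ∈ X, y ∉ Subgroup.normalizer ((⁅V, Y⁆ : Subgroup G) : Set G) →
      ∀ y' ∈ X, y' ∉ Subgroup.normalizer ((⁅V, Y⁆ : Subgroup G) : Set G) →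
      cj ⁅V, Y⁆ y' ≤ cj ⁅V, Y⁆ y := by
    intro y hy hm y' hy' hm'
    rw [cj_le_iff]
    intro v' hv'
    have hw : y' * v' * y'⁻¹ * v'⁻¹ ∈ ⁅V, X⁆ := comm_mem hy' (hV₂V hv')
    obtain ⟨v, hv, hvw⟩ := S5 y hy hm _ hw
    have hc' : y' * v' * y'⁻¹ ∈ cj ⁅V, Y⁆ y' := conj_mem_cj _ y' hv'
    have hc : y * v * y⁻¹ ∈ cj ⁅V, Y⁆ y := conj_mem_cj _ y hv
    have e : y' * v' * y'⁻¹ = (y * v * y⁻¹) * (v⁻¹ * v') := by
      have e0 : y' * v' * y'⁻¹ = (y' * v' * y'⁻¹ * v'⁻¹) * v' := by group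
      rw [e0, ← hvw]; group
    have e2 : v⁻¹ * v' = (y * v * y⁻¹)⁻¹ * (y' * v' * y'⁻¹) := by rw [e]; group
    have hv₂ : v⁻¹ * v' ∈ ⁅V, Y⁆ ⊓ Subgroup.centralizer (Y : Set G) := by
      have hcen : v⁻¹ * v' ∈ Subgroup.centralizer (Y : Set G) := by
        rw [Subgroup.mem_centralizer_iff]
        intro t ht
        have h1 := S3 y hy hm t ht _ hc
        have h2 := S3 y' hy' hm' t ht _ hc'
        have e3 : t * (v⁻¹ * v') * t⁻¹ = v⁻¹ * v' := by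
          calc t * (v⁻¹ * v') * t⁻¹
              = t * ((y * v * y⁻¹)⁻¹ * (y' * v' * y'⁻¹)) * t⁻¹ := by rw [← e2]
            _ = (t * (y * v * y⁻¹) * t⁻¹)⁻¹ * (t * (y' * v' * y'⁻¹) * t⁻¹) := by group
            _ = (y * v * y⁻¹)⁻¹ * (y' * v' * y'⁻¹) := by rw [h1, h2]
            _ = v⁻¹ * v' := e2.symm
        calc t * (v⁻¹ * v') = t * (v⁻¹ * v') * t⁻¹ * t := by group
          _ = v⁻¹ * v' * t := by rw [e3]
      exact ⟨Subgroup.mul_mem _ (Subgroup.inv_mem _ hv) hv', hcen⟩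
    rw [hY.fix_bot hC] at hv₂
    have h3 : v⁻¹ * v' = 1 := Subgroup.mem_bot.1 hv₂
    rw [e, h3, mul_one]
    exact hc
  have S6' : ⁅V, X⁆ ⊓ cj ⁅V, Y⁆ y₀ = ⊥ := by
    rw [eq_bot_iff]
    intro w hw
    have h1 : y₀⁻¹ * w * y₀ ∈ ⁅V, X⁆ ⊓ ⁅V, Y⁆ := by
      refine ⟨?_, (mem_cj _ y₀ w).1 hw.2⟩
      have h0 := nz_conj (Subgroup.inv_mem _ (hX.nzW hC hy₀)) hw.1
      rwa [inv_inv] at h0
    rw [S6] at h1
    have h2 : y₀⁻¹ * w * y₀ = 1 := Subgroup.mem_bot.1 h1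
    rw [Subgroup.mem_bot]
    have e : w = y₀ * (y₀⁻¹ * w * y₀) * y₀⁻¹ := by group
    rw [e, h2]; group
  -- an element of `X` normalizing `[V, Y]` is trivial
  have S8 : ∀ z ∈ X, z ∈ Subgroup.normalizer ((⁅V, Y⁆ : Subgroup G) : Set G) → z = 1 := by
    intro z hz hzn
    have hzy : z * y₀ ∈ X := X.mul_mem hz hy₀
    have hzym : z * y₀ ∉ Subgroup.normalizer ((⁅V, Y⁆ : Subgroup G) : Set G) := by
      intro h
      apply hy₀m
      have h0 := Subgroup.mul_mem _ (Subgroup.inv_mem _ hzn) h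
      have e : z⁻¹ * (z * y₀) = y₀ := by group
      rwa [e] at h0
    have hzW : ∀ c ∈ cj ⁅V, Y⁆ y₀, z * c * z⁻¹ ∈ cj ⁅V, Y⁆ y₀ := by
      intro c hc
      have h1 : z * c * z⁻¹ ∈ cj (cj ⁅V, Y⁆ y₀) z := conj_mem_cj _ z hc
      rw [cj_mul] at h1
      exact S7 y₀ hy₀ hy₀m (z * y₀) hzy hzym h1
    have hz2 : ∀ v ∈ ⁅V, Y⁆, z * v * z⁻¹ = v := by
      intro v hv
      have h1 : z * v * z⁻¹ * v⁻¹ ∈ ⁅V, X⁆ ⊓ ⁅V, Y⁆ :=
        ⟨comm_mem hz (hV₂V hv), Subgroup.mul_mem _ (nz_conj hzn hv) (Subgroup.inv_mem _ hv)⟩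
      rw [S6] at h1
      exact mul_inv_eq_one.1 (Subgroup.mem_bot.1 h1)
    have hzc : ∀ c ∈ cj ⁅V, Y⁆ y₀, z * c * z⁻¹ = c := by
      intro c hc
      have hcV : c ∈ V := cj_le_of_nz hV₂V (hXV hy₀) hc
      have h1 : z * c * z⁻¹ * c⁻¹ ∈ ⁅V, X⁆ ⊓ cj ⁅V, Y⁆ y₀ :=
        ⟨comm_mem hz hcV, Subgroup.mul_mem _ (hzW c hc) (Subgroup.inv_mem _ hc)⟩
      rw [S6'] at h1
      exact mul_inv_eq_one.1 (Subgroup.mem_bot.1 h1)
    have hzcen : z ∈ Subgroup.centralizer ((⁅V, X⁆ : Subgroup G) : Set G) := by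
      rw [Subgroup.mem_centralizer_iff]
      intro w hw
      obtain ⟨v, hv, hvw⟩ := S5 y₀ hy₀ hy₀m w hw
      have h1 := hzc _ (conj_mem_cj _ y₀ hv)
      have h2 := hz2 v hv
      have e3 : z * w * z⁻¹ = w := by
        rw [← hvw]
        calc z * (y₀ * v * y₀⁻¹ * v⁻¹) * z⁻¹
            = (z * (y₀ * v * y₀⁻¹) * z⁻¹) * (z * v * z⁻¹)⁻¹ := by group
          _ = y₀ * v * y₀⁻¹ * v⁻¹ := by rw [h1, h2]
      calc w * z = (z * w * z⁻¹) * z := by rw [e3]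
        _ = z * w := by group
    have hz1 : z ∈ X ⊓ Subgroup.centralizer ((⁅V, X⁆ : Subgroup G) : Set G) := ⟨hz, hzcen⟩
    rw [hX.faithful hC] at hz1
    exact Subgroup.mem_bot.1 hz1
  have S11 : ∀ y ∈ X, ∀ y' ∈ X, y ≠ 1 → y' ≠ 1 → y = y' := by
    intro y hy y' hy' hy1 hy'1
    have hm : y ∉ Subgroup.normalizer ((⁅V, Y⁆ : Subgroup G) : Set G) :=
      fun h => hy1 (S8 y hy h)
    have hm' : y' ∉ Subgroup.normalizer ((⁅V, Y⁆ : Subgroup G) : Set G) :=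
      fun h => hy'1 (S8 y' hy' h)
    have heq : cj ⁅V, Y⁆ y' = cj ⁅V, Y⁆ y :=
      le_antisymm (S7 y hy hm y' hy' hm') (S7 y' hy' hm' y hy hm)
    have h1 : y⁻¹ * y' ∈ Subgroup.normalizer ((⁅V, Y⁆ : Subgroup G) : Set G) := by
      rw [mem_nz_iff, ← cj_mul, heq, cj_mul, inv_mul_cancel]
      exact cj_one _
    have h2 := S8 _ (X.mul_mem (X.inv_mem hy) hy') h1
    exact inv_mul_eq_one.1 h2
  have hcard : Nat.card ↥X ≤ 2 := by
    classical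
    have hinj : Function.Injective (fun x : ↥X => decide ((x : G) = 1)) := by
      intro a b hab
      have hiff : (a : G) = 1 ↔ (b : G) = 1 := by simpa using hab
      by_cases ha : (a : G) = 1
      · exact Subtype.ext (ha.trans (hiff.1 ha).symm)
      · exact Subtype.ext (S11 a a.2 b b.2 ha (fun hb => ha (hiff.2 hb)))
    have h := Nat.card_le_card_of_injective _ hinj
    simpa using h
  have := hX.card
  omega

theorem comm_bot_aux {V E : Subgroup G} (hC : Ctx p V E) :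
    ∀ n : ℕ, ∀ X Y : Subgroup G, Good V E X → Good V E Y → ¬ ⁅V, X⁆ ≤ ⁅V, Y⁆ →
      ¬ ⁅V, Y⁆ ≤ ⁅V, X⁆ → Nat.card ↥(X ⊔ Y) = n → ⁅X, Y⁆ = ⊥ := by
  intro n
  induction n using Nat.strong_induction_on with
  | _ n ih =>
    intro X Y hX hY hXY hYX hn
    by_cases c1 : Y ≤ Subgroup.normalizer ((⁅V, X⁆ : Subgroup G) : Set G)
    · exact case1 hC hX hY c1 hYX
    by_cases c2 : X ≤ Subgroup.normalizer ((⁅V, Y⁆ : Subgroup G) : Set G)
    · rw [Subgroup.commutator_comm]; exact case1 hC hY hX c2 hXY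
    exfalso
    obtain ⟨x₀, hx₀, hx₀m⟩ := SetLike.not_le_iff_exists.1 c1
    obtain ⟨y₀, hy₀, hy₀m⟩ := SetLike.not_le_iff_exists.1 c2
    have IH1 : ∀ X' Y' : Subgroup G, Good V E X' → Good V E Y' → ¬ ⁅V, X'⁆ ≤ ⁅V, Y'⁆ →
        ¬ ⁅V, Y'⁆ ≤ ⁅V, X'⁆ → Nat.card ↥(X' ⊔ Y') < Nat.card ↥(X ⊔ Y) → ⁅X', Y'⁆ = ⊥ :=
      fun X' Y' hX' hY' h1 h2 hlt => ih _ (hn ▸ hlt) X' Y' hX' hY' h1 h2 rfl
    have IH2 : ∀ X' Y' : Subgroup G, Good V E X' → Good V E Y' → ¬ ⁅V, X'⁆ ≤ ⁅V, Y'⁆ →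
        ¬ ⁅V, Y'⁆ ≤ ⁅V, X'⁆ → Nat.card ↥(X' ⊔ Y') < Nat.card ↥(Y ⊔ X) → ⁅X', Y'⁆ = ⊥ := by
      rw [sup_comm Y X]; exact IH1
    exact case3 hC hX hY (fun y hy hm => moving_step hC hX hY hXY IH1 hy hm)
      (fun x hx hm => moving_step hC hY hX hYX IH2 hx hm) hx₀ hx₀m hy₀ hy₀m

end Main

/-- Two subnormal subgroups acting irreducibly on their incomparable commutator modules, in a faithful group with trivial largest normal p-subgroup, generate their direct product, and the commutator module splits accordingly. -/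
theorem result {G : Type*} [Group G] [Finite G] {p : ℕ} [Fact p.Prime] (V E E₁ E₂ : Subgroup G) (hV : Cfsg.IsElementaryAbelian p V) (hEV : E ≤ Subgroup.normalizer (V : Set G)) (hf : E ⊓ Subgroup.centralizer (V : Set G) = ⊥) (hgen : E = E₁ ⊔ E₂) (hs₁ : (E₁.subgroupOf E).IsSubnormal) (hs₂ : (E₂.subgroupOf E).IsSubnormal) (hOp : Cfsg.pCore p ↥E = ⊥) (hirr₁ : (∀ U : Subgroup G, U ≤ ⁅V, E₁⁆ → E₁ ≤ Subgroup.normalizer (U : Set G) → U = ⊥ ∨ U = ⁅V, E₁⁆)) (hirr₂ : (∀ U : Subgroup G, U ≤ ⁅V, E₂⁆ → E₂ ≤ Subgroup.normalizer (U : Set G) → U = ⊥ ∨ U = ⁅V, E₂⁆)) (h12 : ¬ ⁅V, E₁⁆ ≤ ⁅V, E₂⁆) (h21 : ¬ ⁅V, E₂⁆ ≤ ⁅V, E₁⁆) (hc₁ : 2 < Nat.card E₁) (hc₂ : 2 < Nat.card E₂) : ⁅E₁, E₂⁆ = ⊥ ∧ E₁ ⊓ E₂ = ⊥ ∧ ⁅V, E₁⁆ ⊓ ⁅V, E₂⁆ = ⊥ ∧ ⁅V, E⁆ = ⁅V, E₁⁆ ⊔ ⁅V, E₂⁆ := by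
  have hC : Ctx p V E := ⟨hV, hEV, hf, hOp⟩
  have hX : Good V E E₁ := ⟨by rw [hgen]; exact le_sup_left, hs₁, hirr₁, hc₁⟩
  have hY : Good V E E₂ := ⟨by rw [hgen]; exact le_sup_right, hs₂, hirr₂, hc₂⟩
  have hcomm : ⁅E₁, E₂⁆ = ⊥ := comm_bot_aux hC _ E₁ E₂ hX hY h12 h21 rfl
  have hn2 : E₂ ≤ Subgroup.normalizer ((⁅V, E₁⁆ : Subgroup G) : Set G) :=
    nz_of_comm hC hY.le hcomm
  have hn1 : E₁ ≤ Subgroup.normalizer ((⁅V, E₂⁆ : Subgroup G) : Set G) :=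
    nz_of_comm hC hX.le (by rw [Subgroup.commutator_comm]; exact hcomm)
  have hW : ⁅V, E₁⁆ ⊓ ⁅V, E₂⁆ = ⊥ := inf_bot_of_nz hC hY hn2 h21
  refine ⟨hcomm, ?_, hW, ?_⟩
  · rw [eq_bot_iff]
    intro z hz
    rw [Subgroup.mem_bot]
    apply hC.eq_one (hX.le hz.1)
    rw [Subgroup.mem_centralizer_iff]
    intro v hv
    have h1 : z * v * z⁻¹ * v⁻¹ ∈ ⁅V, E₁⁆ ⊓ ⁅V, E₂⁆ := ⟨comm_mem hz.1 hv, comm_mem hz.2 hv⟩
    rw [hW] at h1
    have h2 : z * v * z⁻¹ = v := mul_inv_eq_one.1 (Subgroup.mem_bot.1 h1)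
    calc v * z = (z * v * z⁻¹) * z := by rw [h2]
      _ = z * v := by group
  · have h3 := comm_sup (hX.le.trans hC.nz) (hY.le.trans hC.nz) hn1 hn2
    rw [hgen]
    exact h3

end Cfsg.Agent.S0615
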