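import Cfsg.Statements.S0616
import Mathlib
import Cfsg.Agent.Helper1.FFStruct

set_option autoImplicit false
open Cfsg

namespace Cfsg.Agent.S0616

/-- Each minimal nontrivially-acting best offender spans, with its commutator on the p'-core, a direct factor E of H isomorphic to SL(2, p) with a 2-dimensional commutator module complementing C_V(E). -/
theorem result {G : Type*} [Group G] [Finite G] {p : ℕ} [Fact p.Prime] (V H : Subgroup G) (hV : Cfsg.IsElementaryAbelian p V) (hHV : H ≤ Subgroup.normalizer (V : Set G)) (hf : H ⊓ Subgroup.centralizer (V : Set G) = ⊥) (hS1 : Subgroup.centralizer (Cfsg.pPrimeCore p ↥H : Set ↥H) ≤ Cfsg.pPrimeCore p ↥H) (hS3 : H = ⨆ A : {A : Subgroup G // A ≤ H ∧ Cfsg.IsBestOffenderOn p V A}, (A : Subgroup G)) (hH1 : H ≠ ⊥) (A : Subgroup G) (hAH : A ≤ H) (hA : Cfsg.IsBestOffenderOn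 p V A) (hAV : ⁅V, A⁆ ≠ ⊥) (hmin : ∀ B : Subgroup G, B ≤ A → Cfsg.IsBestOffenderOn p V B → ⁅V, B⁆ ≠ ⊥ → B = A) : (p = 2 ∨ p = 3) ∧ Nonempty (↥(⁅((Cfsg.pPrimeCore p ↥H).map H.subtype), A⁆ ⊔ A) ≃* Matrix.SpecialLinearGroup (Fin 2) (ZMod p)) ∧ Nat.card ↥(⁅V, ⁅((Cfsg.pPrimeCore p ↥H).map H.subtype), A⁆ ⊔ A⁆) = p ^ 2 ∧ ⁅V, ⁅((Cfsg.pPrimeCore p ↥H).map H.subtype), A⁆ ⊔ A⁆ ⊓ (V ⊓ Subgroup.centralizer ((⁅((Cfsg.pPrimeCore p ↥H).map H.subtype), A⁆ ⊔ A : Subgroup G) : Set G)) = ⊥ ∧ ⁅V, ⁅((Cfsg.pPrimeCore p ↥H).map H.subtype), A⁆ ⊔ A⁆ ⊔ (V ⊓ Subgroup.centralizer ((⁅((Cfsg.pPrimeCore p ↥H).map H.subtype), A⁆ ⊔ A : Subgroup G) : Set G)) = V ∧ ⁅⁅((Cfsg.pPrimeCore p ↥H).map H.subtype), A⁆ ⊔ A, H ⊓ Subgroup.centralizer ((⁅V, ⁅((Cfsg.pPrimeCore p ↥H).map H.subtype), A⁆ ⊔ A⁆ : Subgroup G) : Set G)⁆ = ⊥ ∧ (⁅((Cfsg.pPrimeCore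 p ↥H).map H.subtype), A⁆ ⊔ A) ⊓ (H ⊓ Subgroup.centralizer ((⁅V, ⁅((Cfsg.pPrimeCore p ↥H).map H.subtype), A⁆ ⊔ A⁆ : Subgroup G) : Set G)) = ⊥ ∧ (⁅((Cfsg.pPrimeCore p ↥H).map H.subtype), A⁆ ⊔ A) ⊔ (H ⊓ Subgroup.centralizer ((⁅V, ⁅((Cfsg.pPrimeCore p ↥H).map H.subtype), A⁆ ⊔ A⁆ : Subgroup G) : Set G)) = H ∧ ⁅V, H ⊓ Subgroup.centralizer ((⁅V, ⁅((Cfsg.pPrimeCore p ↥H).map H.subtype), A⁆ ⊔ A⁆ : Subgroup G) : Set G)⁆ ≤ V ⊓ Subgroup.centralizer ((⁅((Cfsg.pPrimeCore p ↥H).map H.subtype), A⁆ ⊔ A : Subgroup G) : Set G) := by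
  obtain ⟨hAc, hUc, -⟩ := Cfsg.Agent.Helper9.min_offender9 V H hV hHV hf hS1 A hAH hA hAV hmin
  have S := Cfsg.Agent.Helper1.ffset_of V H hV hHV hf hS1
  obtain ⟨a, x, T, ha1, hAz, hUz⟩ := Cfsg.Agent.Helper1.tv_of_offender S A hAH hAc hUc
  have hex : ∃ q ∈ ((Cfsg.pPrimeCore p ↥H).map H.subtype), q * a ≠ a * q := by
    by_contra hcon
    push_neg at hcon
    exact ha1 (S.hQc a T.aH T.ap hcon)
  obtain ⟨q, hq, hqa⟩ := hex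
  obtain ⟨b, y, D⟩ := Cfsg.Agent.Helper1.ffp_pair S T ha1 hq hqa
  have hgen := Cfsg.Agent.Helper1.ff_gen V H hV hHV hf hS1 hS3
  have hN := Cfsg.Agent.Helper1.ffp_H_norm S T ha1 D hq hgen
  rw [hAz, Cfsg.Agent.Helper1.ffp_E_eq S T ha1 D hq, D.P.comm_eq]
  obtain ⟨ψ, -, -, -⟩ := D.P.main D.faith
  exact ⟨Cfsg.Agent.Helper1.PData.p23 S T ha1 D, ⟨ψ.symm⟩, D.P.card_W, D.P.W_inf, D.P.W_sup,
    Cfsg.Agent.Helper1.ffp_s6 D hN, Cfsg.Agent.Helper1.ffp_s7 D,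
    Cfsg.Agent.Helper1.ffp_s8 S T ha1 D hq hgen, Cfsg.Agent.Helper1.ffp_s9 S D hN⟩

end Cfsg.Agent.S0616
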