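import Cfsg.Statements.S0618
import Mathlib
import Cfsg.Agent.Helper1.FFTrans
import Cfsg.Agent.Helper1.FFCent
import Cfsg.Agent.S0601
import Cfsg.Agent.S0602
import Cfsg.Agent.S0606
import Cfsg.Agent.S0608

set_option autoImplicit false
open Cfsg

namespace Cfsg.Agent.S0618

/-- A p-separable group with trivial p'-core in which the Thompson factorization fails has p = 2 or 3, and J(G) induces on the normal closure of Ω₁(Z(S)) a group containing a normal SL(2, p). -/
theorem result {G : Type*} [Group G] [Finite G] {p : ℕ} [Fact p.Prime] (hsep : Cfsg.IsPSolvable p G) (hO : Cfsg.pPrimeCore p G = ⊥) (hnf : ¬ Cfsg.IsThompsonFactorizable p G) : (p = 2 ∨ p = 3) ∧ ∃ E : Subgroup G, Subgroup.centralizer ((⨆ S : Sylow p G, Cfsg.omegaOne p ((S : Subgroup G) ⊓ Subgroup.centralizer ((S : Subgroup G) : Set G))) : Set G) ≤ E ∧ E ≤ Cfsg.thompsonSubgroup p G ⊔ Subgroup.centralizer ((⨆ S : Sylow p G, Cfsg.omegaOne p ((S : Subgroup G) ⊓ Subgroup.centralizer ((S : Subgroup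 G) : Set G))) : Set G) ∧ Cfsg.thompsonSubgroup p G ⊔ Subgroup.centralizer ((⨆ S : Sylow p G, Cfsg.omegaOne p ((S : Subgroup G) ⊓ Subgroup.centralizer ((S : Subgroup G) : Set G))) : Set G) ≤ Subgroup.normalizer (E : Set G) ∧ ∃ hn : ((Subgroup.centralizer ((⨆ S : Sylow p G, Cfsg.omegaOne p ((S : Subgroup G) ⊓ Subgroup.centralizer ((S : Subgroup G) : Set G))) : Set G)).subgroupOf E).Normal, Nonempty ((↥E ⧸ (Subgroup.centralizer ((⨆ S : Sylow p G, Cfsg.omegaOne p ((S : Subgroup G) ⊓ Subgroup.centralizer ((S : Subgroup G) : Set G))) : Set G)).subgroupOf E) ≃* Matrix.SpecialLinearGroup (Fin 2) (ZMod p)) := by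
  have hC : Subgroup.centralizer ((⨆ S : Sylow p G, Cfsg.omegaOne p ((S : Subgroup G) ⊓ Subgroup.centralizer ((S : Subgroup G) : Set G))) : Set G) = Subgroup.centralizer ((⨆ S : Sylow p G, Cfsg.omegaOne p ((S : Subgroup G) ⊓ Subgroup.centralizer ((S : Subgroup G) : Set G)) : Subgroup G) : Set G) :=
    Cfsg.Agent.Helper1.cent_iSup_set _
  rw [hC]
  have hc := Cfsg.Agent.Helper20.PLen.centralizer_pCore_le_of_psolvable p hsep hO
  obtain ⟨hVn, hVe, hOp⟩ := Cfsg.Agent.S0601.result (G := G) (p := p) hc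
  have hJC := mt (Cfsg.Agent.S0608.result (G := G) (p := p) hO).mpr hnf
  have hJn : (Cfsg.thompsonSubgroup p G).Normal := by
    haveI := (Cfsg.Agent.S0602.result (G := G) (p := p)).1
    exact Subgroup.normal_of_characteristic _
  haveI := hVn
  exact Cfsg.Agent.Helper1.ff_transport (hJn := hJn) _ hVe (Cfsg.thompsonSubgroup p G)
    (Cfsg.maxElementaryAbelianSubgroups p G) rfl
    (fun A hA => Cfsg.Agent.S0606.result _ hVe A hA) hsep hOp hJC

end Cfsg.Agent.S0618
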