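import Cfsg.Statements.S0619
import Mathlib
import Cfsg.Agent.Helper1.FFW
import Cfsg.Agent.S0602

set_option autoImplicit false
open Cfsg

namespace Cfsg.Agent.S0619

/-- For a p-separable group and a normal elementary abelian p-subgroup V with no nontrivial normal p-subgroup modulo its centralizer C, the Thompson subgroup J(G) moves Ω₁(Z(J(C))) only inside V. -/
theorem result {G : Type*} [Group G] [Finite G] {p : ℕ} [Fact p.Prime] (hsep : Cfsg.IsPSolvable p G) (V : Subgroup G) [V.Normal] (hV : Cfsg.IsElementaryAbelian p V) (hO : Cfsg.pCore p (G ⧸ Subgroup.centralizer (V : Set G)) = ⊥) : ⁅Cfsg.omegaOne p (Cfsg.centerThompsonOf p (Subgroup.centralizer (V : Set G))), Cfsg.thompsonSubgroup p G⁆ ≤ V := by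
  have hOp : ∀ D : Subgroup G, D.Normal → Subgroup.centralizer (V : Set G) ≤ D →
      (∃ k : ℕ, (Subgroup.centralizer (V : Set G)).relIndex D = p ^ k) →
      D = Subgroup.centralizer (V : Set G) := by
    intro D hDn hCD hk
    obtain ⟨k, hk⟩ := hk
    apply le_antisymm _ hCD
    have hDbar_n : (D.map (QuotientGroup.mk' (Subgroup.centralizer (V : Set G)))).Normal :=
      hDn.map _ (QuotientGroup.mk'_surjective _)
    have hcard : Nat.card ↥(D.map (QuotientGroup.mk' (Subgroup.centralizer (V : Set G)))) =
        p ^ k := by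
      rw [← Subgroup.relIndex_ker, QuotientGroup.ker_mk']
      exact hk
    have hpg : IsPGroup p ↥(D.map (QuotientGroup.mk' (Subgroup.centralizer (V : Set G)))) :=
      IsPGroup.of_card hcard
    have hle := Cfsg.Agent.Helper9.le_pCore hDbar_n hpg
    rw [hO] at hle
    have hbot : D.map (QuotientGroup.mk' (Subgroup.centralizer (V : Set G))) = ⊥ :=
      le_bot_iff.mp hle
    have h2 := (Subgroup.map_eq_bot_iff D).mp hbot
    rw [QuotientGroup.ker_mk'] at h2
    exact h2
  have hJn : (Cfsg.thompsonSubgroup p G).Normal := by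
    haveI := (Cfsg.Agent.S0602.result (G := G) (p := p)).1
    exact Subgroup.normal_of_characteristic _
  exact Cfsg.Agent.Helper1.ffw_main V hV hsep hJn _ rfl hOp _ rfl

end Cfsg.Agent.S0619
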