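import Cfsg.Statements.S0620
import Mathlib
import Cfsg.Agent.Helper1.FFX7
import Cfsg.Agent.S0601
import Cfsg.Agent.S0602
import Cfsg.Agent.S0606

set_option autoImplicit false
open Cfsg

namespace Cfsg.Agent.S0620

/-- Under coprime action of an elementary abelian q-group X on a p-separable group K with trivial p'-core, K is generated by the normalizer of J(S), the centralizer of Ω₁(Z(S)) and the fixed points of X. -/
theorem result {G : Type*} [Group G] [Finite G] {p : ℕ} [Fact p.Prime] {q : ℕ} [Fact q.Prime] (K X : Subgroup G) (hXK : X ≤ Subgroup.normalizer (K : Set G)) (hX : Cfsg.IsElementaryAbelian q X) (hq : ¬ q ∣ Nat.card K) (hsep : Cfsg.IsPSolvable p ↥K) (hO : Cfsg.pPrimeCore p ↥K = ⊥) (S : Sylow p ↥K) : (Subgroup.normalizer (Cfsg.thompsonSubgroupOf p (S : Subgroup ↥K) : Set ↥K) ⊔ Subgroup.centralizer (Cfsg.omegaOne p ((S : Subgroup ↥K) ⊓ Subgroup.centralizer ((S : Subgroup ↥K) : Set ↥K)) : Set ↥K) ⊔ (Subgroup.centralizer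 (X : Set G)).subgroupOf K) = ⊤ := by
  have hc := Cfsg.Agent.Helper20.PLen.centralizer_pCore_le_of_psolvable p hsep hO
  obtain ⟨hVn, hVe, hOp⟩ := Cfsg.Agent.S0601.result (G := ↥K) (p := p) hc
  have hJchar : (Cfsg.thompsonSubgroup p ↥K).Characteristic :=
    (Cfsg.Agent.S0602.result (G := ↥K) (p := p)).1
  have hJn : (Cfsg.thompsonSubgroup p ↥K).Normal := by
    haveI := hJchar
    exact Subgroup.normal_of_characteristic _
  haveI := hVn
  have hXq : IsPGroup q ↥X := by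
    intro g
    refine ⟨1, ?_⟩
    apply Subtype.ext
    rw [pow_one, Subgroup.coe_pow, Subgroup.coe_one]
    exact hX.2 g.1 g.2
  have hXK1 : ∀ g ∈ X, ∀ w ∈ K, g * w * g⁻¹ ∈ K := fun g hg w hw =>
    (Subgroup.mem_normalizer_iff.mp (hXK hg) w).mp hw
  obtain ⟨α, hα⟩ := Cfsg.Agent.Helper1.ffp_exists_conj_hom K X hXK1
  obtain ⟨M, hM⟩ : ∃ M : Subgroup ↥K, M = (Subgroup.normalizer (Cfsg.thompsonSubgroupOf p (S : Subgroup ↥K) : Set ↥K) ⊔ Subgroup.centralizer (Cfsg.omegaOne p ((S : Subgroup ↥K) ⊓ Subgroup.centralizer ((S : Subgroup ↥K) : Set ↥K)) : Set ↥K) ⊔ (Subgroup.centralizer (X : Set G)).subgroupOf K) := ⟨_, rfl⟩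
  rw [← hM]
  have hNM : Subgroup.normalizer (Cfsg.thompsonSubgroupOf p (S : Subgroup ↥K) : Set ↥K) ≤ M := by
    rw [hM]; exact le_sup_of_le_left le_sup_left
  have hCM : Subgroup.centralizer (Cfsg.omegaOne p ((S : Subgroup ↥K) ⊓ Subgroup.centralizer ((S : Subgroup ↥K) : Set ↥K)) : Set ↥K) ≤ M := by
    rw [hM]; exact le_sup_of_le_left le_sup_right
  have hXM : (Subgroup.centralizer (X : Set G)).subgroupOf K ≤ M := by
    rw [hM]; exact le_sup_right
  have hSN : (S : Subgroup ↥K) ≤ Subgroup.normalizer (Cfsg.thompsonSubgroupOf p (S : Subgroup ↥K) : Set ↥K) := by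
    haveI : (Cfsg.thompsonSubgroup p ↥(S : Subgroup ↥K)).Characteristic :=
      (Cfsg.Agent.S0602.result (G := ↥(S : Subgroup ↥K)) (p := p)).1
    exact Subgroup.le_normalizer.trans (Cfsg.Agent.Helper9.char_map_normalizer (S : Subgroup ↥K)
      (Cfsg.thompsonSubgroup p ↥(S : Subgroup ↥K)))
  have hJM : Cfsg.thompsonSubgroup p ↥K ≤ M := by
    apply Cfsg.Agent.Helper1.ffx_abs2 (hJn := hJn) _ hVe (Cfsg.thompsonSubgroup p ↥K)
      (Cfsg.maxElementaryAbelianSubgroups p ↥K) rfl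
      (fun A hA => Cfsg.Agent.S0606.result _ hVe A hA) hsep hOp hXq α
      (fun t v hv => Cfsg.Agent.Helper1.ffx_V_char p (α t) v hv)
      (fun t j hj => by
        have h : j ∈ Subgroup.comap (α t).toMonoidHom (Cfsg.thompsonSubgroup p ↥K) := by
          rw [hJchar.fixed]; exact hj
        exact h)
      hq M
    · refine le_trans ?_ hCM
      apply Subgroup.centralizer_le
      exact SetLike.coe_subset_coe.mpr (le_iSup (fun S : Sylow p ↥K => Cfsg.omegaOne p
        ((S : Subgroup ↥K) ⊓ Subgroup.centralizer ((S : Subgroup ↥K) : Set ↥K))) S)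
    · intro k hk
      apply hXM
      rw [Subgroup.mem_subgroupOf, Subgroup.mem_centralizer_iff]
      intro t ht
      have h := congrArg Subtype.val (hk ⟨t, ht⟩)
      rw [hα] at h
      exact ((Cfsg.Agent.Helper1.ffx_conj_iff t (k : G)).mp h).symm
    · intro j hj hjp
      obtain ⟨n, hn⟩ := hjp
      have hzp : IsPGroup p ↥(Subgroup.zpowers j) := by
        rintro ⟨g, hg⟩
        obtain ⟨z, rfl⟩ := Subgroup.mem_zpowers_iff.mp hg
        refine ⟨n, Subtype.ext ?_⟩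
        rw [Subgroup.coe_pow, Subgroup.coe_one]
        show (j ^ z) ^ (p ^ n) = 1
        rw [← zpow_natCast, ← zpow_mul, mul_comm, zpow_mul, zpow_natCast, hn, one_zpow]
      obtain ⟨Q, hQ⟩ := hzp.exists_le_sylow
      obtain ⟨k, hk⟩ := MulAction.exists_smul_eq ↥K Q S
      obtain ⟨c, hcJ, hcN⟩ := Cfsg.Agent.Helper1.ffx_frattini S k⁻¹
      have hkS : k * j * k⁻¹ ∈ (S : Subgroup ↥K) := by
        have h1 : k * j * k⁻¹ ∈ (k • Q : Sylow p ↥K) := by
          rw [Cfsg.Agent.Helper27.mem_sylow_smul_iff]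
          have e : k⁻¹ * (k * j * k⁻¹) * k = j := by group
          rw [e]
          exact hQ (Subgroup.mem_zpowers j)
        rw [hk] at h1
        exact h1
      refine ⟨c⁻¹, (Cfsg.thompsonSubgroup p ↥K).inv_mem hcJ, ?_⟩
      have e : c⁻¹ * j * c⁻¹⁻¹ = (c⁻¹ * k⁻¹) * (k * j * k⁻¹) * (c⁻¹ * k⁻¹)⁻¹ := by group
      rw [e]
      exact M.mul_mem (M.mul_mem (hNM hcN) (hNM (hSN hkS))) (M.inv_mem (hNM hcN))
  rw [eq_top_iff]
  intro g _
  obtain ⟨c, hcJ, hcN⟩ := Cfsg.Agent.Helper1.ffx_frattini S g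
  have e : g = c * (c⁻¹ * g) := by group
  rw [e]
  exact M.mul_mem (hJM hcJ) (hNM hcN)

end Cfsg.Agent.S0620
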