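import Cfsg.Statements.S0621
import Mathlib
import Cfsg.Agent.Helper1.FFX4
import Cfsg.Agent.Helper1.FFX3
import Cfsg.Agent.S0601
import Cfsg.Agent.S0602
import Cfsg.Agent.S0606
import Cfsg.Agent.S0608

set_option autoImplicit false
open Cfsg

namespace Cfsg.Agent.S0621

/-- Let K be p-separable with O_p'(K) = 1, normalized by an elementary abelian q-group X for a prime q not dividing the order of K. If the Thompson factorization fails in K, then p is 2 or 3 and the fixed points of X contain a plane W of order p² and a subgroup inducing SL(2, p) on it. -/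
theorem result {G : Type*} [Group G] [Finite G] {p : ℕ} [Fact p.Prime] {q : ℕ} [Fact q.Prime] (K X : Subgroup G) (hXK : X ≤ Subgroup.normalizer (K : Set G)) (hX : Cfsg.IsElementaryAbelian q X) (hq : ¬ q ∣ Nat.card K) (hsep : Cfsg.IsPSolvable p ↥K) (hO : Cfsg.pPrimeCore p ↥K = ⊥) (hnf : ¬ Cfsg.IsThompsonFactorizable p ↥K) : (p = 2 ∨ p = 3) ∧ ∃ W D : Subgroup G, W ≤ K ⊓ Subgroup.centralizer (X : Set G) ∧ D ≤ K ⊓ Subgroup.centralizer (X : Set G) ∧ Cfsg.IsElementaryAbelian p W ∧ Nat.card W = p ^ 2 ∧ D ≤ Subgroup.normalizer (W : Set G) ∧ ∃ hn : ((Subgroup.centralizer (W : Set G)).subgroupOf D).Normal, Nonempty ((↥D ⧸ (Subgroup.centralizer (W : Set G)).subgroupOf D) ≃* Matrix.SpecialLinearGroup (Fin 2) (ZMod p)) := by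
  have hc := Cfsg.Agent.Helper20.PLen.centralizer_pCore_le_of_psolvable p hsep hO
  obtain ⟨hVn, hVe, hOp⟩ := Cfsg.Agent.S0601.result (G := ↥K) (p := p) hc
  have hJC := mt (Cfsg.Agent.S0608.result (G := ↥K) (p := p) hO).mpr hnf
  have hJchar : (Cfsg.thompsonSubgroup p ↥K).Characteristic :=
    (Cfsg.Agent.S0602.result (G := ↥K) (p := p)).1
  have hJn : (Cfsg.thompsonSubgroup p ↥K).Normal := by
    haveI := hJchar
    exact Subgroup.normal_of_characteristic _
  haveI := hVn
  have hXq : IsPGroup q ↥X := by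
    intro g
    refine ⟨1, ?_⟩
    apply Subtype.ext
    rw [pow_one, Subgroup.coe_pow, Subgroup.coe_one]
    exact hX.2 g.1 g.2
  have hXK1 : ∀ g ∈ X, ∀ w ∈ K, g * w * g⁻¹ ∈ K := fun g hg w hw =>
    (Subgroup.mem_normalizer_iff.mp (hXK hg) w).mp hw
  obtain ⟨α, hα⟩ := Cfsg.Agent.Helper1.ffp_exists_conj_hom K X hXK1
  obtain ⟨hp23, a, b, x, y, hfa, hfb, hfx, hfy, hxy, hxp, hyp, hx1, hax, hay, hbx, hby⟩ :=
    Cfsg.Agent.Helper1.ffx_abs (hJn := hJn) _ hVe (Cfsg.thompsonSubgroup p ↥K)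
      (Cfsg.maxElementaryAbelianSubgroups p ↥K) rfl
      (fun A hA => Cfsg.Agent.S0606.result _ hVe A hA) hsep hOp hJC hXq α
      (fun t v hv => Cfsg.Agent.Helper1.ffx_V_char p (α t) v hv)
      (fun t j hj => by
        have h : j ∈ Subgroup.comap (α t).toMonoidHom (Cfsg.thompsonSubgroup p ↥K) := by
          rw [hJchar.fixed]; exact hj
        exact h)
      hq
  have hcentX : ∀ k : ↥K, (∀ t, α t k = k) →
      (k : G) ∈ K ⊓ Subgroup.centralizer (X : Set G) := by
    intro k hk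
    refine Subgroup.mem_inf.mpr ⟨k.2, Subgroup.mem_centralizer_iff.mpr ?_⟩
    intro t ht
    have h := congrArg Subtype.val (hk ⟨t, ht⟩)
    rw [hα] at h
    exact ((Cfsg.Agent.Helper1.ffx_conj_iff t (k : G)).mp h).symm
  have hxy' : (x : G) * (y : G) = (y : G) * (x : G) := congrArg Subtype.val hxy
  have hxp' : (x : G) ^ p = 1 := by
    have h := congrArg Subtype.val hxp
    rw [Subgroup.coe_pow, Subgroup.coe_one] at h
    exact h
  have hyp' : (y : G) ^ p = 1 := by
    have h := congrArg Subtype.val hyp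
    rw [Subgroup.coe_pow, Subgroup.coe_one] at h
    exact h
  have hx1' : (x : G) ≠ 1 := fun h => hx1 (Subtype.ext (by rw [Subgroup.coe_one]; exact h))
  have hax' : (a : G) * (x : G) * (a : G)⁻¹ = (x : G) := congrArg Subtype.val hax
  have hay' : (a : G) * (y : G) * (a : G)⁻¹ = (y : G) * (x : G) := congrArg Subtype.val hay
  have hbx' : (b : G) * (x : G) * (b : G)⁻¹ = (x : G) * (y : G) := congrArg Subtype.val hbx
  have hby' : (b : G) * (y : G) * (b : G)⁻¹ = (y : G) := congrArg Subtype.val hby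
  obtain ⟨hEA, hcard, hnorm, hn, hiso⟩ := Cfsg.Agent.Helper1.ffx_final (a : G) (b : G) (x : G)
    (y : G) hxy' hxp' hyp' hx1' hax' hay' hbx' hby'
  refine ⟨hp23, Subgroup.closure ({(x : G), (y : G)} : Set G),
    Subgroup.closure ({(a : G), (b : G)} : Set G), ?_, ?_, hEA, hcard, hnorm, hn, hiso⟩
  · rw [Subgroup.closure_le]
    intro c hc'
    rcases hc' with hc' | hc'
    · rw [hc']; exact hcentX x hfx
    · rw [Set.mem_singleton_iff.mp hc']; exact hcentX y hfy
  · rw [Subgroup.closure_le]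
    intro c hc'
    rcases hc' with hc' | hc'
    · rw [hc']; exact hcentX a hfa
    · rw [Set.mem_singleton_iff.mp hc']; exact hcentX b hfb

end Cfsg.Agent.S0621
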