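import Cfsg.Statements.S0625
import Cfsg.Agent.Helper10.PSolvSL2
-- import your own Cfsg.Agent.* helpers here

set_option autoImplicit false
open Cfsg

namespace Cfsg.Agent.S0625



/-- A p-separable group with p at least 5 is p-stable in the action sense. -/
theorem result {G : Type*} [Group G] [Finite G] {p : ℕ} [Fact p.Prime] (hp : 5 ≤ p) (hsep : Cfsg.IsPSolvable p G) : Cfsg.IsActionPStable p G := by
  classical
  have hp2 : p ≠ 2 := by omega
  refine ⟨?_, ?_, ?_⟩
  · intro V hVn hV
    apply Cfsg.Agent.Helper10.isPStableOn_of_coreP p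
      (Cfsg.Agent.Helper10.gl2CoreP_subgroups_of_psolvable p hp hsep) hp2 V
    intro g
    refine ⟨1, ?_⟩
    apply Subtype.ext
    have h1 := hV.2 (g : G) g.2
    simpa using h1
  · apply Cfsg.Agent.Helper10.isPStableOnSection_of_coreP p hp2 _ _
      (Cfsg.Agent.Helper27.pCore_isPGroup p G)
    exact Cfsg.Agent.Helper10.gl2CoreP_subgroups_of_psolvable p hp
      (Cfsg.Agent.Helper20.isPSolvable_quotient p hsep _)
  · intro S V hVn hV
    apply Cfsg.Agent.Helper10.isPStableOn_of_coreP p
      (Cfsg.Agent.Helper10.gl2CoreP_subgroups_of_psolvable p hp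
        (Cfsg.Agent.Helper19.dl_isPSolvable_subgroup p hsep _)) hp2 V
    intro g
    have h1 : ((g : ↥(Subgroup.normalizer (thompsonSubgroupOf p (S : Subgroup G) : Set G))) : G) ∈
        (omegaCenterThompson p ↥(S : Subgroup G)).map (S : Subgroup G).subtype :=
      hV ⟨g, g.2, rfl⟩
    obtain ⟨s, -, hs⟩ := h1
    obtain ⟨k, hk⟩ := S.isPGroup' s
    refine ⟨k, ?_⟩
    apply Subtype.ext
    apply Subtype.ext
    have h2 : ((s : G)) ^ p ^ k = 1 := by
      have := congrArg Subtype.val hk
      simpa using this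
    have h3 : (s : G) = ((g : ↥(Subgroup.normalizer (thompsonSubgroupOf p (S : Subgroup G) :
        Set G))) : G) := hs
    rw [h3] at h2
    simpa using h2

end Cfsg.Agent.S0625
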