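import Cfsg.Statements.S0626
import Cfsg.Agent.Helper10.ActPStab
-- import your own Cfsg.Agent.* helpers here

set_option autoImplicit false
open Cfsg

namespace Cfsg.Agent.S0626



/-- For odd p, groups whose Sylow 2-subgroups are abelian are p-stable in the action sense. -/
theorem result {G : Type*} [Group G] [Finite G] {p : ℕ} [Fact p.Prime] (hp : p ≠ 2) (hab : ∀ T : Sylow 2 G, IsMulCommutative T) : Cfsg.IsActionPStable p G := by
  classical
  refine ⟨?_, ?_, ?_⟩
  · intro V hVn hV
    apply Cfsg.Agent.Helper10.isPStableOn_of_core (Cfsg.Agent.Helper10.gl2Core_subgroups hab) p hp V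
    intro g
    refine ⟨1, ?_⟩
    apply Subtype.ext
    have h1 := hV.2 (g : G) g.2
    simpa using h1
  · apply Cfsg.Agent.Helper10.isPStableOnSection_of_core p hp _ _
      (Cfsg.Agent.Helper27.pCore_isPGroup p G)
    exact Cfsg.Agent.Helper10.gl2Core_subgroups
      (Cfsg.Agent.Helper10.abelian_sylow2_of_surjective (QuotientGroup.mk' _)
        (QuotientGroup.mk'_surjective _) hab)
  · intro S V hVn hV
    apply Cfsg.Agent.Helper10.isPStableOn_of_core (Cfsg.Agent.Helper10.gl2Core_subgroups
      (Cfsg.Agent.Helper10.abelian_sylow2_of_injective (Subgroup.subtype _)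
        (Subgroup.subtype_injective _) hab)) p hp V
    intro g
    have h1 : ((g : ↥(Subgroup.normalizer (thompsonSubgroupOf p (S : Subgroup G) : Set G))) : G) ∈
        (omegaCenterThompson p ↥(S : Subgroup G)).map (S : Subgroup G).subtype :=
      hV ⟨g, g.2, rfl⟩
    obtain ⟨s, -, hs⟩ := h1
    obtain ⟨k, hk⟩ := S.isPGroup' s
    refine ⟨k, ?_⟩
    apply Subtype.ext
    apply Subtype.ext
    have h2 : ((s : G)) ^ p ^ k = 1 := by
      have := congrArg Subtype.val hk
      simpa using this
    have h3 : (s : G) = ((g : ↥(Subgroup.normalizer (thompsonSubgroupOf p (S : Subgroup G) :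
        Set G))) : G) := hs
    rw [h3] at h2
    simpa using h2

end Cfsg.Agent.S0626
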