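import Cfsg.Statements.S0627
import Cfsg.Agent.S0625
import Cfsg.Agent.S0624
import Cfsg.Agent.Helper9.PComp
import Cfsg.Agent.Helper20.HallHigman
import Cfsg.Agent.Helper21.NPC
import Cfsg.Agent.Helper11.StableNC
-- import your own Cfsg.Agent.* helpers here

set_option autoImplicit false
open Cfsg

namespace Cfsg.Agent.S0627



/-- In a p-separable group with p at least 5, the normalizer of W(S) supplements the largest normal subgroup of order prime to p. -/
theorem result {G : Type*} [Group G] [Finite G] {p : ℕ} [Fact p.Prime] (hp : 5 ≤ p) (hsep : Cfsg.IsPSolvable p G) (S : Sylow p G) : Cfsg.pPrimeCore p G ⊔ Subgroup.normalizer (((Cfsg.stableNormalClosure p ↥(S : Subgroup G)).map (S : Subgroup G).subtype) : Set G) = ⊤ := by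
  classical
  obtain ⟨N, hN⟩ : ∃ N : Subgroup G, N = Cfsg.pPrimeCore p G := ⟨_, rfl⟩
  haveI hNn : N.Normal := by rw [hN]; exact Cfsg.pPrimeCore_normal p G
  have hNc : (Nat.card N).Coprime p := by rw [hN]; exact Cfsg.Agent.Helper9.pPrimeCore_coprime p
  have hbot : Cfsg.pPrimeCore p (G ⧸ N) = ⊥ := by
    subst hN
    exact Cfsg.Agent.Helper9.pPrimeCore_quotient_eq_bot p
  rw [← hN]
  obtain ⟨π, hπ⟩ : ∃ π : G →* G ⧸ N, π = QuotientGroup.mk' N := ⟨_, rfl⟩
  have hπs : Function.Surjective π := by rw [hπ]; exact QuotientGroup.mk'_surjective N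
  have hker : π.ker = N := by rw [hπ]; exact QuotientGroup.ker_mk' N
  have hsepQ : Cfsg.IsPSolvable p (G ⧸ N) := Cfsg.Agent.Helper20.isPSolvable_quotient p hsep N
  have hc := Cfsg.Agent.Helper20.PLen.centralizer_pCore_le_of_psolvable p hsepQ hbot
  have hst := Cfsg.Agent.S0625.result hp hsepQ
  obtain ⟨Sb, hSb⟩ : ∃ Sb : Sylow p (G ⧸ N),
      (Sb : Subgroup (G ⧸ N)) = (S : Subgroup G).map π := ⟨S.mapSurjective hπs, rfl⟩
  have hWbn := Cfsg.Agent.S0624.result hst hc Sb
  have hinj : ∀ s : (S : Subgroup G), π (s : G) = 1 → s = 1 := by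
    intro s hs
    have h1 : (s : G) ∈ N := by rw [← hker]; exact hs
    apply Subtype.ext
    exact Cfsg.Agent.Helper21.eq_one_of_mem_pgroup_of_mem_coprime S.isPGroup' hNc s.2 h1
  obtain ⟨f, hf⟩ : ∃ f : (S : Subgroup G) →* (Sb : Subgroup (G ⧸ N)),
      ∀ s, ((f s : (Sb : Subgroup (G ⧸ N))) : G ⧸ N) = π (s : G) :=
    ⟨(π.comp (S : Subgroup G).subtype).codRestrict (Sb : Subgroup (G ⧸ N))
      (fun s => by rw [hSb]; exact ⟨s, s.2, rfl⟩), fun s => rfl⟩
  have hfinj : Function.Injective f := by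
    rw [injective_iff_map_eq_one]
    intro s hs
    apply hinj
    rw [← hf, hs]; rfl
  have hfsurj : Function.Surjective f := by
    intro y
    have hy : (y : G ⧸ N) ∈ (S : Subgroup G).map π := by rw [← hSb]; exact y.2
    obtain ⟨s, hs, hsy⟩ := hy
    exact ⟨⟨s, hs⟩, Subtype.ext (by rw [hf]; exact hsy)⟩
  obtain ⟨η, hη⟩ : ∃ η : (S : Subgroup G) ≃* (Sb : Subgroup (G ⧸ N)), η.toMonoidHom = f :=
    ⟨MulEquiv.ofBijective f ⟨hfinj, hfsurj⟩, MonoidHom.ext (fun _ => rfl)⟩
  obtain ⟨W, hW⟩ : ∃ W : Subgroup G, W =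
      (Cfsg.stableNormalClosure p ↥(S : Subgroup G)).map (S : Subgroup G).subtype := ⟨_, rfl⟩
  rw [← hW]
  have hWS : W ≤ (S : Subgroup G) := by
    rw [hW]
    rintro _ ⟨s, -, rfl⟩
    exact s.2
  have hWmap : W.map π = (Cfsg.stableNormalClosure p ↥(Sb : Subgroup (G ⧸ N))).map
      (Sb : Subgroup (G ⧸ N)).subtype := by
    rw [← Cfsg.Agent.Helper11.snc_map_equiv (p := p) η, hη, hW, Subgroup.map_map,
      Subgroup.map_map]
    congr 1
    exact MonoidHom.ext (fun s => (hf s).symm)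
  have hWbn' : (W.map π).Normal := by rw [hWmap]; exact hWbn
  obtain ⟨X, hX⟩ : ∃ X : Subgroup G, X = (W.map π).comap π := ⟨_, rfl⟩
  haveI hXn : X.Normal := by rw [hX]; exact hWbn'.comap π
  have hXeq : X = W ⊔ N := by rw [hX, Subgroup.comap_map_eq, hker]
  have hWX : W ≤ X := by rw [hXeq]; exact le_sup_left
  have hNX : N ≤ X := by rw [hXeq]; exact le_sup_right
  have hWp : IsPGroup p W := S.isPGroup'.to_le hWS
  obtain ⟨P, hP⟩ := (hWp.comap_subtype (K := X)).exists_le_sylow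
  have hPW : (P : Subgroup X) = W.subgroupOf X := by
    apply le_antisymm _ hP
    intro x hx
    have hx' : (x : G) ∈ W ⊔ N := by rw [← hXeq]; exact x.2
    obtain ⟨w, hw, n, hn, hwn⟩ := Subgroup.mem_sup_of_normal_right.1 hx'
    have hwP : (⟨w, hWX hw⟩ : X) ∈ (P : Subgroup X) := hP (Subgroup.mem_subgroupOf.2 hw)
    have hnP : (⟨n, hNX hn⟩ : X) ∈ (P : Subgroup X) := by
      have e : (⟨n, hNX hn⟩ : X) = (⟨w, hWX hw⟩ : X)⁻¹ * x := by
        apply Subtype.ext
        simp [← hwn]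
      rw [e]; exact (P : Subgroup X).mul_mem ((P : Subgroup X).inv_mem hwP) hx
    have hn1 : n = 1 := by
      have hPG : IsPGroup p ((P : Subgroup X).map X.subtype) := P.isPGroup'.map _
      exact Cfsg.Agent.Helper21.eq_one_of_mem_pgroup_of_mem_coprime hPG hNc
        ⟨⟨n, hNX hn⟩, hnP, rfl⟩ hn
    show (x : G) ∈ W
    rw [← hwn, hn1, mul_one]; exact hw
  have hfr := Sylow.normalizer_sup_eq_top P
  have hPmap : (P : Subgroup X).map X.subtype = W := by
    rw [hPW]; exact Subgroup.map_subgroupOf_eq_of_le hWX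
  rw [hPmap, hXeq] at hfr
  have hWn : W ≤ Subgroup.normalizer (W : Set G) := Subgroup.le_normalizer
  rw [eq_top_iff, ← hfr]
  exact sup_le le_sup_right (sup_le (hWn.trans le_sup_right) le_sup_left)

end Cfsg.Agent.S0627
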