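import Cfsg.Statements.S0629
-- import your own Cfsg.Agent.* helpers here
import Cfsg.Agent.Helper9.PConstr2

set_option autoImplicit false
open Cfsg

namespace Cfsg.Agent.S0629

open Cfsg.Agent.Helper9

/-- A group in which the centralizer of a Sylow p-subgroup of O_{p',p}(G) is p-solvable is p-constrained. -/
theorem result {G : Type*} [Group G] [Finite G] {p : ℕ} [Fact p.Prime] (P : Sylow p ↥(Cfsg.pPrimePCore p G)) (hsol : Cfsg.IsPSolvable p ↥(Subgroup.centralizer (((P : Subgroup ↥(Cfsg.pPrimePCore p G)).map (Cfsg.pPrimePCore p G).subtype : Subgroup G) : Set G))) : Cfsg.IsPConstrained p G := by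
  classical
  rw [pConstrained_iff_pLayer_eq_bot p]
  obtain ⟨P', hP'⟩ : ∃ P' : Subgroup G, P' =
      (P : Subgroup ↥(Cfsg.pPrimePCore p G)).map (Cfsg.pPrimePCore p G).subtype := ⟨_, rfl⟩
  rw [← hP'] at hsol
  have hP'p : IsPGroup p ↥P' := by rw [hP']; exact P.isPGroup'.map _
  have hOX : Cfsg.pPrimeCore p (G ⧸ Cfsg.pPrimeCore p G) = ⊥ := pPrimeCore_quotient_eq_bot p
  have hOc : (Nat.card ↥(Cfsg.pPrimeCore p G)).Coprime p := pPrimeCore_coprime p
  have hmap : P'.map (QuotientGroup.mk' (Cfsg.pPrimeCore p G)) =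
      Cfsg.pCore p (G ⧸ Cfsg.pPrimeCore p G) := by
    rw [hP']; exact sylow_pPrimePCore_map p P
  apply pLayer_eq_bot_of_surj p (QuotientGroup.mk' (Cfsg.pPrimeCore p G))
    (QuotientGroup.mk'_surjective _) (QuotientGroup.ker_mk' _).symm
  by_contra hne
  obtain ⟨C, hC⟩ := exists_component_of_layer_ne_bot hne
  obtain ⟨l, hlC, hlp, hlc⟩ := component_exists_pelt p hOX C hC
  apply hlc
  have hCcent : C ≤ Subgroup.centralizer
      ((P'.map (QuotientGroup.mk' (Cfsg.pPrimeCore p G)) :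
        Subgroup (G ⧸ Cfsg.pPrimeCore p G)) : Set (G ⧸ Cfsg.pPrimeCore p G)) := by
    rw [hmap]
    intro c hc
    rw [Subgroup.mem_centralizer_iff]
    intro y hy
    exact ((comm_eq_bot_iff _ _).mp (component_comm_fitting hC) c hc y
      (pCore_le_fitting p hy)).symm
  have hcent := centralizer_map_le_map_centralizer p (Cfsg.pPrimeCore p G) hOc P' hP'p
  have hrange : C ≤ ((QuotientGroup.mk' (Cfsg.pPrimeCore p G)).comp
      (Subgroup.centralizer (P' : Set G)).subtype).range := by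
    intro c hc
    obtain ⟨x, hx, rfl⟩ := hcent (hCcent hc)
    exact ⟨⟨x, hx⟩, rfl⟩
  exact psolvable_image_pelt_central p hsol _ C hrange hC.2 l hlC hlp

end Cfsg.Agent.S0629
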