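import Cfsg.Statements.S0630
-- import your own Cfsg.Agent.* helpers here
import Cfsg.Agent.Helper9.PConstr2

set_option autoImplicit false
open Cfsg

namespace Cfsg.Agent.S0630

open Cfsg.Agent.Helper9

/-- p-constraint passes to and from the quotient by the largest normal subgroup of order prime to p. -/
theorem result {G : Type*} [Group G] [Finite G] {p : ℕ} [Fact p.Prime] : Cfsg.IsPConstrained p G ↔ Cfsg.IsPConstrained p (G ⧸ Cfsg.pPrimeCore p G) := by
  have hOX : Cfsg.pPrimeCore p (G ⧸ Cfsg.pPrimeCore p G) = ⊥ := pPrimeCore_quotient_eq_bot p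
  rw [pConstrained_iff_pLayer_eq_bot p, pConstrained_iff_pLayer_eq_bot p]
  have hA : Cfsg.pLayer p G = ⊥ ↔ Cfsg.layer (G ⧸ Cfsg.pPrimeCore p G) = ⊥ := by
    constructor
    · intro h
      rw [← pLayer_map_eq p, h, Subgroup.map_bot]
    · intro h
      exact pLayer_eq_bot_of_surj p (QuotientGroup.mk' (Cfsg.pPrimeCore p G))
        (QuotientGroup.mk'_surjective _) (QuotientGroup.ker_mk' _).symm h
  have hB : Cfsg.pLayer p (G ⧸ Cfsg.pPrimeCore p G) = ⊥ ↔
      Cfsg.layer (G ⧸ Cfsg.pPrimeCore p G) = ⊥ := by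
    constructor
    · intro h
      by_contra hne
      obtain ⟨C, hC⟩ := exists_component_of_layer_ne_bot hne
      have hCne : C ≠ ⊥ := (Subgroup.nontrivial_iff_ne_bot C).mp (quasi_nontrivial hC.2)
      rcases component_map_quotient (Cfsg.pPrimeCore p (G ⧸ Cfsg.pPrimeCore p G)) C hC with
        h1 | h1
      · rw [Subgroup.map_eq_bot_iff, QuotientGroup.ker_mk', hOX, le_bot_iff] at h1
        exact hCne h1
      · have h2 := le_layer h1
        rw [← pLayer_map_eq p, h, Subgroup.map_bot, le_bot_iff, Subgroup.map_eq_bot_iff,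
          QuotientGroup.ker_mk', hOX, le_bot_iff] at h2
        exact hCne h2
    · intro h
      exact pLayer_eq_bot_of_surj p (MonoidHom.id _) Function.surjective_id
        (by rw [MonoidHom.ker_id]; exact hOX) h
  rw [hA, hB]

end Cfsg.Agent.S0630
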