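import Cfsg.Statements.S0631
-- import your own Cfsg.Agent.* helpers here
import Cfsg.Agent.Helper9.PConstr2

set_option autoImplicit false
open Cfsg

namespace Cfsg.Agent.S0631

open Cfsg.Agent.Helper9

/-- In a p-constrained group the normalizer and the centralizer of any p-subgroup are again p-constrained. -/
theorem result {G : Type*} [Group G] [Finite G] {p : ℕ} [Fact p.Prime] (hG : Cfsg.IsPConstrained p G) (P : Subgroup G) (hP : IsPGroup p P) : Cfsg.IsPConstrained p ↥(Subgroup.normalizer (P : Set G)) ∧ Cfsg.IsPConstrained p ↥(Subgroup.centralizer (P : Set G)) := by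
  have hL : Cfsg.pLayer p G = ⊥ := (pConstrained_iff_pLayer_eq_bot p).mp hG
  exact ⟨(pConstrained_iff_pLayer_eq_bot p).mpr (normalizer_pLayer_eq_bot p hL P hP).1,
    (pConstrained_iff_pLayer_eq_bot p).mpr (centralizer_pLayer_eq_bot p hL P hP)⟩

end Cfsg.Agent.S0631
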