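import Cfsg.Statements.S0632
-- import your own Cfsg.Agent.* helpers here
import Cfsg.Agent.S0609
import Cfsg.Agent.Helper16.PCore
import Cfsg.Agent.Helper17.PPrimeCore

set_option autoImplicit false
open Cfsg

namespace Cfsg.Agent.S0632

theorem psi_exists {G G' : Type*} [Group G] [Group G'] (π : G →* G') (N C : Subgroup G)
    (N' C' : Subgroup G') [hCn : (C.subgroupOf N).Normal] [hCn' : (C'.subgroupOf N').Normal]
    (hN : ∀ n ∈ N, π n ∈ N') (hC : ∀ n ∈ N, n ∈ C → π n ∈ C') :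
    ∃ ψ : (↥N ⧸ C.subgroupOf N) →* (↥N' ⧸ C'.subgroupOf N'),
      (∀ (a : ↥N) (ha' : π (a : G) ∈ N'),
        ψ (QuotientGroup.mk' (C.subgroupOf N) a)
          = QuotientGroup.mk' (C'.subgroupOf N') ⟨π (a : G), ha'⟩) ∧
      ((∀ n ∈ N, π n ∈ C' → n ∈ C) → Function.Injective ψ) ∧
      ((∀ n' ∈ N', ∃ n ∈ N, π n = n') → Function.Surjective ψ) := by
  obtain ⟨f, hf⟩ : ∃ f : ↥N →* ↥N', ∀ a : ↥N, ((f a : ↥N') : G') = π (a : G) :=
    ⟨(π.comp N.subtype).codRestrict N' (fun n => hN n.1 n.2), fun a => rfl⟩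
  have hle : C.subgroupOf N ≤ (C'.subgroupOf N').comap f := by
    intro a ha
    rw [Subgroup.mem_comap, Subgroup.mem_subgroupOf, hf a]
    exact hC a.1 a.2 (Subgroup.mem_subgroupOf.1 ha)
  refine ⟨QuotientGroup.map (C.subgroupOf N) (C'.subgroupOf N') f hle, ?_, ?_, ?_⟩
  · intro a ha'
    show QuotientGroup.mk' (C'.subgroupOf N') (f a) = _
    have e : f a = ⟨π (a : G), ha'⟩ := Subtype.ext (hf a)
    rw [e]
  · intro hinj
    rw [injective_iff_map_eq_one]
    intro y hy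
    obtain ⟨a, rfl⟩ := QuotientGroup.mk_surjective y
    have h1 : (QuotientGroup.mk (f a) : ↥N' ⧸ C'.subgroupOf N') = 1 := hy
    have h2 : f a ∈ C'.subgroupOf N' := (QuotientGroup.eq_one_iff _).1 h1
    rw [Subgroup.mem_subgroupOf, hf a] at h2
    exact (QuotientGroup.eq_one_iff a).2 (Subgroup.mem_subgroupOf.2 (hinj a.1 a.2 h2))
  · intro hsurj y
    obtain ⟨a', rfl⟩ := QuotientGroup.mk_surjective y
    obtain ⟨n, hn, hna⟩ := hsurj a'.1 a'.2
    refine ⟨QuotientGroup.mk (⟨n, hn⟩ : ↥N), ?_⟩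
    show (QuotientGroup.mk (f ⟨n, hn⟩) : ↥N' ⧸ C'.subgroupOf N') = QuotientGroup.mk a'
    have e : f ⟨n, hn⟩ = a' := Subtype.ext ((hf ⟨n, hn⟩).trans hna)
    rw [e]

theorem map_cent_mem {G : Type*} [Group G] (K : Subgroup G) [K.Normal] (P : Subgroup G) (n : G)
    (hc : n ∈ Subgroup.centralizer (P : Set G)) :
    QuotientGroup.mk' K n ∈ Subgroup.centralizer
      ((P.map (QuotientGroup.mk' K) : Subgroup (G ⧸ K)) : Set (G ⧸ K)) := by
  rw [Subgroup.mem_centralizer_iff]
  intro t ht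
  obtain ⟨u, hu, rfl⟩ := Subgroup.mem_map.1 ht
  rw [← map_mul, ← map_mul, Subgroup.mem_centralizer_iff.1 hc u hu]

theorem cent_of_map_cent {G : Type*} [Group G] [Finite G] {p : ℕ} [Fact p.Prime]
    (K : Subgroup G) [K.Normal] (hKc : (Nat.card K).Coprime p) (P : Subgroup G)
    (hP : IsPGroup p P) (n : G) (hn : n ∈ Subgroup.normalizer (P : Set G))
    (hc : QuotientGroup.mk' K n ∈ Subgroup.centralizer
      ((P.map (QuotientGroup.mk' K) : Subgroup (G ⧸ K)) : Set (G ⧸ K))) :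
    n ∈ Subgroup.centralizer (P : Set G) := by
  rw [Subgroup.mem_centralizer_iff]
  intro x hx
  have h1 : QuotientGroup.mk' K x * QuotientGroup.mk' K n
      = QuotientGroup.mk' K n * QuotientGroup.mk' K x :=
    Subgroup.mem_centralizer_iff.1 hc _ (Subgroup.mem_map_of_mem _ hx)
  have h2 : n⁻¹ * x * n * x⁻¹ ∈ K := by
    apply (QuotientGroup.eq_one_iff _).1
    show QuotientGroup.mk' K (n⁻¹ * x * n * x⁻¹) = 1
    simp only [map_mul, map_inv]
    exact S0609.comm_aux h1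
  have h3 : n⁻¹ * x * n * x⁻¹ ∈ P := by
    have h4 : n⁻¹ * x * n ∈ P := (Subgroup.mem_normalizer_iff''.1 hn x).1 hx
    exact P.mul_mem h4 (P.inv_mem hx)
  have h5 := S0609.eq_one_of_mem_pgroup_of_mem_coprime P K hP hKc h3 h2
  calc x * n = n * (n⁻¹ * x * n * x⁻¹) * x := by group
    _ = n * x := by rw [h5, mul_one]

theorem normalizer_lift {G : Type*} [Group G] [Finite G] {p : ℕ} [hp : Fact p.Prime]
    (K : Subgroup G) [hKn : K.Normal] (hKc : (Nat.card K).Coprime p) (J : Subgroup G)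
    (hJp : IsPGroup p J) (n' : G ⧸ K)
    (hn' : n' ∈ Subgroup.normalizer
      ((J.map (QuotientGroup.mk' K) : Subgroup (G ⧸ K)) : Set (G ⧸ K))) :
    ∃ n ∈ Subgroup.normalizer (J : Set G), QuotientGroup.mk' K n = n' := by
  have hKp : ¬ p ∣ Nat.card K := (Nat.Prime.coprime_iff_not_dvd hp.out).1 hKc.symm
  obtain ⟨n₀, rfl⟩ := QuotientGroup.mk'_surjective K n'
  have hJinj : ∀ a b : ↥J, QuotientGroup.mk' K (a : G) = QuotientGroup.mk' K (b : G) →
      a = b := by
    intro a b hab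
    have h1 : (a : G)⁻¹ * (b : G) ∈ K := by
      apply (QuotientGroup.eq_one_iff _).1
      show QuotientGroup.mk' K ((a : G)⁻¹ * (b : G)) = 1
      rw [map_mul, map_inv, hab, inv_mul_cancel]
    have h2 : (a : G)⁻¹ * (b : G) ∈ J := J.mul_mem (J.inv_mem a.2) b.2
    have h3 := S0609.eq_one_of_mem_pgroup_of_mem_coprime J K hJp hKc h2 h1
    apply Subtype.ext
    calc (a : G) = (a : G) * ((a : G)⁻¹ * (b : G)) := by rw [h3, mul_one]
      _ = (b : G) := by group
  have hex : ∀ u : ↥J, ∃ u' : ↥J, QuotientGroup.mk' K (u' : G)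
      = QuotientGroup.mk' K n₀ * QuotientGroup.mk' K (u : G) * (QuotientGroup.mk' K n₀)⁻¹ := by
    intro u
    have h1 := (Subgroup.mem_normalizer_iff.1 hn' (QuotientGroup.mk' K (u : G))).1
      (Subgroup.mem_map_of_mem _ u.2)
    obtain ⟨u', hu', hu'e⟩ := Subgroup.mem_map.1 h1
    exact ⟨⟨u', hu'⟩, hu'e⟩
  choose β hβ using hex
  have hβmul : ∀ a b : ↥J, β (a * b) = β a * β b := by
    intro a b
    apply hJinj
    rw [hβ (a * b)]
    show _ = QuotientGroup.mk' K ((β a : G) * (β b : G))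
    rw [map_mul, hβ a, hβ b]
    show QuotientGroup.mk' K n₀ * QuotientGroup.mk' K ((a : G) * (b : G))
      * (QuotientGroup.mk' K n₀)⁻¹ = _
    rw [map_mul]
    group
  obtain ⟨k₂, hk₂, hn₂⟩ := S0609.lift_conj_aux K hKp J hJp n₀
    (J.subtype.comp (MonoidHom.mk' β hβmul)) (by
    intro u
    apply (QuotientGroup.eq_one_iff _).1
    show QuotientGroup.mk' K (n₀⁻¹ * ((β u : ↥J) : G) * n₀ * (u : G)⁻¹) = 1
    simp only [map_mul, map_inv]
    rw [hβ u]
    group)
  refine ⟨n₀ * k₂, ?_, ?_⟩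
  · apply S0609.mem_normalizer_of_conj_mem
    intro b hb
    have h1 : (n₀ * k₂) * b * (n₀ * k₂)⁻¹ = ((β ⟨b, hb⟩ : ↥J) : G) := hn₂ ⟨b, hb⟩
    rw [h1]
    exact (β ⟨b, hb⟩).2
  · have hk2 : QuotientGroup.mk' K k₂ = 1 := (QuotientGroup.eq_one_iff k₂).2 hk₂
    rw [map_mul, hk2, mul_one]

theorem pgroup_lift {G : Type*} [Group G] [Finite G] {p : ℕ} [hp : Fact p.Prime]
    (K : Subgroup G) [hKn : K.Normal] (R' : Subgroup (G ⧸ K)) (hR' : IsPGroup p R') :
    ∃ R : Subgroup G, IsPGroup p R ∧ R.map (QuotientGroup.mk' K) = R' := by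
  obtain ⟨f, hf⟩ : ∃ f : ↥(R'.comap (QuotientGroup.mk' K)) →* ↥R',
      ∀ x, ((f x : ↥R') : G ⧸ K) = QuotientGroup.mk' K (x : G) :=
    ⟨(QuotientGroup.mk' K).subgroupComap R', fun x => rfl⟩
  have hfs : Function.Surjective f := by
    intro y
    obtain ⟨x, hx⟩ := QuotientGroup.mk'_surjective K (y : G ⧸ K)
    have hxm : x ∈ R'.comap (QuotientGroup.mk' K) := by
      rw [Subgroup.mem_comap, hx]
      exact y.2
    exact ⟨⟨x, hxm⟩, Subtype.ext ((hf ⟨x, hxm⟩).trans hx)⟩
  have htop : IsPGroup p (⊤ : Subgroup ↥R') := hR'.to_subgroup ⊤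
  have hidx : ¬ p ∣ (⊤ : Subgroup ↥R').index := by
    rw [Subgroup.index_top]
    intro h
    exact hp.out.one_lt.ne' (Nat.dvd_one.1 h)
  obtain ⟨Q, hQ⟩ := Sylow.mapSurjective_surjective hfs p (htop.toSylow hidx)
  have hQ' : (Q : Subgroup ↥(R'.comap (QuotientGroup.mk' K))).map f = ⊤ :=
    congrArg (fun S : Sylow p ↥R' => (S : Subgroup ↥R')) hQ
  refine ⟨(Q : Subgroup ↥(R'.comap (QuotientGroup.mk' K))).map (Subgroup.subtype _),
    Q.isPGroup'.map _, ?_⟩
  ext y
  constructor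
  · intro hy
    obtain ⟨x, hx, rfl⟩ := Subgroup.mem_map.1 hy
    obtain ⟨q, hq, rfl⟩ := Subgroup.mem_map.1 hx
    exact q.2
  · intro hy
    have h1 : (⟨y, hy⟩ : ↥R') ∈ (Q : Subgroup ↥(R'.comap (QuotientGroup.mk' K))).map f := by
      rw [hQ']
      exact Subgroup.mem_top _
    obtain ⟨q, hq, hqy⟩ := Subgroup.mem_map.1 h1
    refine Subgroup.mem_map.2 ⟨(q : G), Subgroup.mem_map.2 ⟨q, hq, rfl⟩, ?_⟩
    have h2 : ((f q : ↥R') : G ⧸ K) = y := congrArg Subtype.val hqy
    exact (hf q).symm.trans h2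

/-- the conclusion of `p`-stability for the pair `A`, `P` -/
abbrev StabCond {G : Type*} [Group G] (p : ℕ) (A P : Subgroup G) : Prop :=
  (A.subgroupOf (Subgroup.normalizer (P : Set G))).map
      (QuotientGroup.mk' ((Subgroup.centralizer (P : Set G)).subgroupOf
        (Subgroup.normalizer (P : Set G))))
    ≤ Cfsg.pCore p _

theorem stable_pull {G : Type*} [Group G] [Finite G] {p : ℕ} [hp : Fact p.Prime]
    (K : Subgroup G) [hKn : K.Normal] (hKc : (Nat.card K).Coprime p) (A P : Subgroup G)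
    (hP : IsPGroup p P)
    (h : StabCond p (A.map (QuotientGroup.mk' K)) (P.map (QuotientGroup.mk' K))) :
    StabCond p A P := by
  unfold StabCond at h ⊢
  obtain ⟨ψ, hψ, hinj, -⟩ := psi_exists (QuotientGroup.mk' K) (Subgroup.normalizer (P : Set G))
    (Subgroup.centralizer (P : Set G))
    (Subgroup.normalizer ((P.map (QuotientGroup.mk' K) : Subgroup (G ⧸ K)) : Set (G ⧸ K)))
    (Subgroup.centralizer ((P.map (QuotientGroup.mk' K) : Subgroup (G ⧸ K)) : Set (G ⧸ K)))
    (fun n hn => Subgroup.le_normalizer_map (QuotientGroup.mk' K) (Subgroup.mem_map_of_mem _ hn))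
    (fun n _ hc => map_cent_mem K P n hc)
  have hψinj : Function.Injective ψ :=
    hinj (fun n hn hc => cent_of_map_cent K hKc P hP n hn hc)
  have hDn : ((Cfsg.pCore p _).comap ψ).Normal :=
    Subgroup.Normal.comap (Helper16.pCore_normal p _) ψ
  have hDp : IsPGroup p ((Cfsg.pCore p _).comap ψ) :=
    (Helper16.pCore_isPGroup p _).comap_of_injective ψ hψinj
  have hD := Helper16.le_pCore hDn hDp
  intro y hy
  obtain ⟨a, ha, rfl⟩ := Subgroup.mem_map.1 hy
  apply hD
  rw [Subgroup.mem_comap]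
  have ha' : QuotientGroup.mk' K (a : G) ∈
      Subgroup.normalizer ((P.map (QuotientGroup.mk' K) : Subgroup (G ⧸ K)) : Set (G ⧸ K)) :=
    Subgroup.le_normalizer_map (QuotientGroup.mk' K) (Subgroup.mem_map_of_mem _ a.2)
  rw [hψ a ha']
  apply h
  refine Subgroup.mem_map.2 ⟨⟨QuotientGroup.mk' K (a : G), ha'⟩, ?_, rfl⟩
  rw [Subgroup.mem_subgroupOf]
  exact Subgroup.mem_map_of_mem _ (Subgroup.mem_subgroupOf.1 ha)

theorem stable_push {G : Type*} [Group G] [Finite G] {p : ℕ} [hp : Fact p.Prime]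
    (K : Subgroup G) [hKn : K.Normal] (hKc : (Nat.card K).Coprime p) (A P : Subgroup G)
    (hP : IsPGroup p P) (hAN : A ≤ Subgroup.normalizer (P : Set G))
    (h : StabCond p A P) :
    StabCond p (A.map (QuotientGroup.mk' K)) (P.map (QuotientGroup.mk' K)) := by
  unfold StabCond at h ⊢
  obtain ⟨ψ, hψ, -, hsurj⟩ := psi_exists (QuotientGroup.mk' K)
    (Subgroup.normalizer (P : Set G)) (Subgroup.centralizer (P : Set G))
    (Subgroup.normalizer ((P.map (QuotientGroup.mk' K) : Subgroup (G ⧸ K)) : Set (G ⧸ K)))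
    (Subgroup.centralizer ((P.map (QuotientGroup.mk' K) : Subgroup (G ⧸ K)) : Set (G ⧸ K)))
    (fun n hn => Subgroup.le_normalizer_map (QuotientGroup.mk' K) (Subgroup.mem_map_of_mem _ hn))
    (fun n _ hc => map_cent_mem K P n hc)
  have hψs : Function.Surjective ψ :=
    hsurj (fun n' hn' => normalizer_lift K hKc P hP n' hn')
  have hMn : ((Cfsg.pCore p _).map ψ).Normal :=
    Subgroup.Normal.map (Helper16.pCore_normal p _) ψ hψs
  have hMp : IsPGroup p ((Cfsg.pCore p _).map ψ) := (Helper16.pCore_isPGroup p _).map ψ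
  have hM := Helper16.le_pCore hMn hMp
  intro y hy
  obtain ⟨a', ha', rfl⟩ := Subgroup.mem_map.1 hy
  obtain ⟨a, ha, hae⟩ := Subgroup.mem_map.1 (Subgroup.mem_subgroupOf.1 ha')
  have hmem := h (Subgroup.mem_map.2 ⟨(⟨a, hAN ha⟩ : ↥(Subgroup.normalizer (P : Set G))),
    Subgroup.mem_subgroupOf.2 ha, rfl⟩)
  have h2 := hM (Subgroup.mem_map_of_mem ψ hmem)
  have ha'' : QuotientGroup.mk' K a ∈
      Subgroup.normalizer ((P.map (QuotientGroup.mk' K) : Subgroup (G ⧸ K)) : Set (G ⧸ K)) := by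
    rw [hae]
    exact a'.2
  rw [hψ ⟨a, hAN ha⟩ ha''] at h2
  have e : (⟨QuotientGroup.mk' K a, ha''⟩ :
      ↥(Subgroup.normalizer ((P.map (QuotientGroup.mk' K) : Subgroup (G ⧸ K)) : Set (G ⧸ K))))
      = a' := Subtype.ext hae
  rw [e] at h2
  exact h2

/-- For a group with a nontrivial normal p-subgroup, p-stability passes to and from the quotient by the largest normal subgroup of order prime to p. -/
theorem result {G : Type*} [Group G] [Finite G] {p : ℕ} [Fact p.Prime] (hO : Cfsg.pCore p G ≠ ⊥) : Cfsg.IsPStable p G ↔ Cfsg.IsPStable p (G ⧸ Cfsg.pPrimeCore p G) := by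
  have hKc : (Nat.card (Cfsg.pPrimeCore p G)).Coprime p := Helper17.pPrimeCore_card_coprime p
  have hbot := S0609.pPrimeCore_quot_eq_bot (G := G) p
  have hKmap : (Cfsg.pPrimeCore p G).map (QuotientGroup.mk' (Cfsg.pPrimeCore p G)) = ⊥ := by
    rw [eq_bot_iff]
    rintro _ ⟨x, hx, rfl⟩
    rw [Subgroup.mem_bot]
    exact (QuotientGroup.eq_one_iff x).2 hx
  have hO' : Cfsg.pCore p (G ⧸ Cfsg.pPrimeCore p G) ≠ ⊥ := by
    intro h0
    apply hO
    rw [eq_bot_iff]
    intro x hx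
    have h1 : QuotientGroup.mk' (Cfsg.pPrimeCore p G) x ∈
        Cfsg.pCore p (G ⧸ Cfsg.pPrimeCore p G) := by
      have hn : ((Cfsg.pCore p G).map (QuotientGroup.mk' (Cfsg.pPrimeCore p G))).Normal :=
        Subgroup.Normal.map (Helper16.pCore_normal p G) _ (QuotientGroup.mk'_surjective _)
      have hpg : IsPGroup p ((Cfsg.pCore p G).map (QuotientGroup.mk' (Cfsg.pPrimeCore p G))) :=
        (Helper16.pCore_isPGroup p G).map _
      exact Helper16.le_pCore hn hpg (Subgroup.mem_map_of_mem _ hx)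
    rw [h0, Subgroup.mem_bot] at h1
    have h2 : x ∈ Cfsg.pPrimeCore p G := (QuotientGroup.eq_one_iff x).1 h1
    rw [Subgroup.mem_bot]
    exact S0609.eq_one_of_mem_pgroup_of_mem_coprime _ _ (Helper16.pCore_isPGroup p G) hKc hx h2
  unfold Cfsg.IsPStable
  constructor
  · rintro ⟨hodd, -, hst⟩
    refine ⟨hodd, hO', ?_⟩
    intro A' P' hA' hP' hnorm hle hnormal hquad
    rw [hbot, bot_sup_eq] at hnormal
    haveI hP'n : P'.Normal := hnormal
    have hR' : IsPGroup p (P' ⊔ A' : Subgroup (G ⧸ Cfsg.pPrimeCore p G)) :=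
      hP'.to_sup_of_normal_left hA'
    obtain ⟨R, hRp, hRmap⟩ := pgroup_lift (Cfsg.pPrimeCore p G) (P' ⊔ A') hR'
    obtain ⟨A, hAdef⟩ : ∃ A : Subgroup G,
        A = R ⊓ A'.comap (QuotientGroup.mk' (Cfsg.pPrimeCore p G)) := ⟨_, rfl⟩
    obtain ⟨P, hPdef⟩ : ∃ P : Subgroup G,
        P = R ⊓ P'.comap (QuotientGroup.mk' (Cfsg.pPrimeCore p G)) := ⟨_, rfl⟩
    have hAR : A ≤ R := by
      rw [hAdef]
      exact inf_le_left
    have hPR : P ≤ R := by
      rw [hPdef]
      exact inf_le_left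
    have hAc : ∀ a ∈ A, QuotientGroup.mk' (Cfsg.pPrimeCore p G) a ∈ A' := by
      intro a ha
      rw [hAdef] at ha
      exact (Subgroup.mem_inf.1 ha).2
    have hPc : ∀ x ∈ P, QuotientGroup.mk' (Cfsg.pPrimeCore p G) x ∈ P' := by
      intro x hx
      rw [hPdef] at hx
      exact (Subgroup.mem_inf.1 hx).2
    have hAmap : A.map (QuotientGroup.mk' (Cfsg.pPrimeCore p G)) = A' := by
      apply le_antisymm
      · rintro _ ⟨a, ha, rfl⟩
        exact hAc a ha
      · intro y hy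
        have h1 : y ∈ R.map (QuotientGroup.mk' (Cfsg.pPrimeCore p G)) := by
          rw [hRmap]
          exact Subgroup.mem_sup_right hy
        obtain ⟨r, hr, rfl⟩ := Subgroup.mem_map.1 h1
        refine Subgroup.mem_map.2 ⟨r, ?_, rfl⟩
        rw [hAdef]
        exact Subgroup.mem_inf.2 ⟨hr, hy⟩
    have hPmap : P.map (QuotientGroup.mk' (Cfsg.pPrimeCore p G)) = P' := by
      apply le_antisymm
      · rintro _ ⟨a, ha, rfl⟩
        exact hPc a ha
      · intro y hy
        have h1 : y ∈ R.map (QuotientGroup.mk' (Cfsg.pPrimeCore p G)) := by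
          rw [hRmap]
          exact Subgroup.mem_sup_left hy
        obtain ⟨r, hr, rfl⟩ := Subgroup.mem_map.1 h1
        refine Subgroup.mem_map.2 ⟨r, ?_, rfl⟩
        rw [hPdef]
        exact Subgroup.mem_inf.2 ⟨hr, hy⟩
    have hAp : IsPGroup p A := hRp.to_le hAR
    have hPp : IsPGroup p P := hRp.to_le hPR
    have hnormAP : ∀ a ∈ A, ∀ x ∈ P, a * x * a⁻¹ ∈ P := by
      intro a ha x hx
      rw [hPdef]
      refine Subgroup.mem_inf.2
        ⟨R.mul_mem (R.mul_mem (hAR ha) (hPR hx)) (R.inv_mem (hAR ha)), ?_⟩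
      rw [Subgroup.mem_comap, map_mul, map_mul, map_inv]
      exact hnorm _ (hAc a ha) _ (hPc x hx)
    have hleP : P ≤ Cfsg.pPrimePCore p G := by
      intro x hx
      have h1 : QuotientGroup.mk' (Cfsg.pPrimeCore p G) x ∈
          Cfsg.pCore p (G ⧸ Cfsg.pPrimeCore p G) :=
        Helper16.le_pCore hP'n hP' (hPc x hx)
      exact h1
    have hnormalP : (Cfsg.pPrimeCore p G ⊔ P).Normal := by
      have e : Cfsg.pPrimeCore p G ⊔ P
          = P'.comap (QuotientGroup.mk' (Cfsg.pPrimeCore p G)) := by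
        apply le_antisymm
        · apply sup_le
          · intro x hx
            have hx1 : QuotientGroup.mk' (Cfsg.pPrimeCore p G) x = 1 :=
              (QuotientGroup.eq_one_iff x).2 hx
            rw [Subgroup.mem_comap, hx1]
            exact P'.one_mem
          · intro x hx
            exact hPc x hx
        · intro x hx
          have h1 : QuotientGroup.mk' (Cfsg.pPrimeCore p G) x ∈
              P.map (QuotientGroup.mk' (Cfsg.pPrimeCore p G)) := by
            rw [hPmap]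
            exact hx
          obtain ⟨y, hy, hyx⟩ := Subgroup.mem_map.1 h1
          have h2 : x * y⁻¹ ∈ Cfsg.pPrimeCore p G := by
            apply (QuotientGroup.eq_one_iff _).1
            show QuotientGroup.mk' (Cfsg.pPrimeCore p G) (x * y⁻¹) = 1
            rw [map_mul, map_inv, hyx, mul_inv_cancel]
          have h3 : x = (x * y⁻¹) * y := by group
          rw [h3]
          exact Subgroup.mul_mem _ (Subgroup.mem_sup_left h2) (Subgroup.mem_sup_right hy)
      rw [e]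
      exact Subgroup.Normal.comap hP'n _
    have hquadP : ⁅⁅P, A⁆, A⁆ = ⊥ := by
      have hR1 : ⁅P, A⁆ ≤ R := by
        rw [Subgroup.commutator_le]
        intro x hx a ha
        rw [commutatorElement_def]
        exact R.mul_mem (R.mul_mem (R.mul_mem (hPR hx) (hAR ha)) (R.inv_mem (hPR hx)))
          (R.inv_mem (hAR ha))
      have hR2 : ⁅⁅P, A⁆, A⁆ ≤ R := by
        rw [Subgroup.commutator_le]
        intro x hx a ha
        rw [commutatorElement_def]
        exact R.mul_mem (R.mul_mem (R.mul_mem (hR1 hx) (hAR ha)) (R.inv_mem (hR1 hx)))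
          (R.inv_mem (hAR ha))
      rw [eq_bot_iff]
      intro x hx
      have h1 : QuotientGroup.mk' (Cfsg.pPrimeCore p G) x ∈
          (⁅⁅P, A⁆, A⁆).map (QuotientGroup.mk' (Cfsg.pPrimeCore p G)) :=
        Subgroup.mem_map_of_mem _ hx
      rw [Subgroup.map_commutator, Subgroup.map_commutator, hPmap, hAmap, hquad,
        Subgroup.mem_bot] at h1
      have h2 : x ∈ Cfsg.pPrimeCore p G := (QuotientGroup.eq_one_iff x).1 h1
      rw [Subgroup.mem_bot]
      exact S0609.eq_one_of_mem_pgroup_of_mem_coprime R _ hRp hKc (hR2 hx) h2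
    have hAN : A ≤ Subgroup.normalizer (P : Set G) :=
      fun a ha => S0609.mem_normalizer_of_conj_mem P a (hnormAP a ha)
    have h3 := stable_push (Cfsg.pPrimeCore p G) hKc A P hPp hAN
      (hst A P hAp hPp hnormAP hleP hnormalP hquadP)
    subst hPmap
    subst hAmap
    exact h3
  · rintro ⟨hodd, -, hst⟩
    refine ⟨hodd, hO, ?_⟩
    intro A P hA hP hnorm hle hnormal hquad
    apply stable_pull (Cfsg.pPrimeCore p G) hKc A P hP
    apply hst (A.map (QuotientGroup.mk' (Cfsg.pPrimeCore p G)))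
      (P.map (QuotientGroup.mk' (Cfsg.pPrimeCore p G))) (hA.map _) (hP.map _)
    · rintro _ ⟨a, ha, rfl⟩ _ ⟨x, hx, rfl⟩
      exact Subgroup.mem_map.2 ⟨a * x * a⁻¹, hnorm a ha x hx, by simp only [map_mul, map_inv]⟩
    · rintro _ ⟨x, hx, rfl⟩
      have h1 : QuotientGroup.mk' (Cfsg.pPrimeCore p G) x ∈
          Cfsg.pCore p (G ⧸ Cfsg.pPrimeCore p G) := hle hx
      have hn : ((Cfsg.pCore p (G ⧸ Cfsg.pPrimeCore p G)).map
          (QuotientGroup.mk' (Cfsg.pPrimeCore p (G ⧸ Cfsg.pPrimeCore p G)))).Normal :=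
        Subgroup.Normal.map (Helper16.pCore_normal p _) _ (QuotientGroup.mk'_surjective _)
      have hpg : IsPGroup p ((Cfsg.pCore p (G ⧸ Cfsg.pPrimeCore p G)).map
          (QuotientGroup.mk' (Cfsg.pPrimeCore p (G ⧸ Cfsg.pPrimeCore p G)))) :=
        (Helper16.pCore_isPGroup p _).map _
      exact Helper16.le_pCore hn hpg (Subgroup.mem_map_of_mem _ h1)
    · have e : Cfsg.pPrimeCore p (G ⧸ Cfsg.pPrimeCore p G) ⊔
          P.map (QuotientGroup.mk' (Cfsg.pPrimeCore p G))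
          = (Cfsg.pPrimeCore p G ⊔ P).map (QuotientGroup.mk' (Cfsg.pPrimeCore p G)) := by
        rw [hbot, Subgroup.map_sup, hKmap]
      rw [e]
      exact Subgroup.Normal.map hnormal _ (QuotientGroup.mk'_surjective _)
    · rw [← Subgroup.map_commutator, ← Subgroup.map_commutator, hquad, Subgroup.map_bot]

end Cfsg.Agent.S0632
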