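import Cfsg.Statements.S0638
-- import your own Cfsg.Agent.* helpers here
import Cfsg.Agent.Helper11.Meta

set_option autoImplicit false
open Cfsg

namespace Cfsg.Agent.S0638

/-- For odd p, in a non-cyclic metacyclic p-group the elements of order dividing p generate an elementary abelian subgroup of order p². -/
theorem result {R : Type*} [Group R] [Finite R] {p : ℕ} [Fact p.Prime] (hp : p ≠ 2) (hR : IsPGroup p R) (hm : Cfsg.IsMetacyclic R) (hnc : ¬ IsCyclic R) : Cfsg.IsElementaryAbelian p (Cfsg.omegaOne p (⊤ : Subgroup R)) ∧ Nat.card ↥(Cfsg.omegaOne p (⊤ : Subgroup R)) = p ^ 2 := by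
  have hpr : p.Prime := Fact.out
  have hcl := Cfsg.Agent.Helper11.meta_closed p hp R hR hm
  have hcm := Cfsg.Agent.Helper11.meta_comm_of_closed hR hm hcl
  have hexp : ∀ a ∈ Cfsg.omegaOne p (⊤ : Subgroup R), a ^ p = 1 := by
    intro a ha
    unfold Cfsg.omegaOne at ha
    induction ha using Subgroup.closure_induction with
    | mem u hu => exact hu.2
    | one => exact one_pow p
    | mul u v _ _ hu hv => exact hcl u v hu hv
    | inv u _ hu => rw [inv_pow, hu, inv_one]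
  have hle : Nat.card ↥(Cfsg.omegaOne p (⊤ : Subgroup R)) ≤ p ^ 2 := by
    obtain ⟨N, hN, hc1, hc2⟩ := hm
    haveI := hN
    haveI := hc1
    haveI := hc2
    exact Cfsg.Agent.Helper11.meta_exp_card_le hpr.pos N _ hexp
  have hEA : Cfsg.IsElementaryAbelian p (Cfsg.omegaOne p (⊤ : Subgroup R)) := by
    unfold Cfsg.IsElementaryAbelian
    exact ⟨⟨⟨fun a b => Subtype.ext (hcm a.1 b.1 (hexp a.1 a.2) (hexp b.1 b.2))⟩⟩, hexp⟩
  refine ⟨hEA, le_antisymm hle ?_⟩
  by_contra hlt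
  have hlt' := Nat.lt_of_not_le hlt
  apply hnc
  apply Cfsg.Agent.Helper1.pgroup_unique_cyclic_odd p hp hR
  intro H K hH hK
  have hsub : ∀ L : Subgroup R, Nat.card L = p → L ≤ Cfsg.omegaOne p (⊤ : Subgroup R) := by
    intro L hL u hu
    apply Subgroup.subset_closure
    refine ⟨Subgroup.mem_top u, ?_⟩
    have h1 := pow_card_eq_one' (G := L) (x := ⟨u, hu⟩)
    rw [hL] at h1
    exact congrArg Subtype.val h1
  obtain ⟨k, hk⟩ := IsPGroup.iff_card.1 (hR.to_subgroup (Cfsg.omegaOne p (⊤ : Subgroup R)))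
  have hk1 : k ≤ 1 := by
    rw [hk] at hlt'
    have h2 := (Nat.pow_lt_pow_iff_right hpr.one_lt).1 hlt'
    omega
  have hΩ : Nat.card ↥(Cfsg.omegaOne p (⊤ : Subgroup R)) ≤ p := by
    rw [hk]
    calc p ^ k ≤ p ^ 1 := Nat.pow_le_pow_right hpr.pos hk1
      _ = p := pow_one p
  have e1 : H = Cfsg.omegaOne p (⊤ : Subgroup R) :=
    Subgroup.eq_of_le_of_card_ge (hsub H hH) (by rw [hH]; exact hΩ)
  have e2 : K = Cfsg.omegaOne p (⊤ : Subgroup R) :=
    Subgroup.eq_of_le_of_card_ge (hsub K hK) (by rw [hK]; exact hΩ)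
  exact e1.trans e2.symm

end Cfsg.Agent.S0638
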