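import Cfsg.Statements.S0641
-- import your own Cfsg.Agent.* helpers here

set_option autoImplicit false
open Cfsg

namespace Cfsg.Agent.S0641

/-- Regularity of a p-group passes to quotient groups. -/
theorem result {G : Type*} [Group G] {p : ℕ} [Fact p.Prime] (hG : Cfsg.IsRegularPGroup p G) (N : Subgroup G) [N.Normal] : Cfsg.IsRegularPGroup p (G ⧸ N) := by
  obtain ⟨hp, hreg⟩ := hG
  refine ⟨hp.to_quotient N, ?_⟩
  intro a b n
  obtain ⟨a, rfl⟩ := QuotientGroup.mk_surjective a
  obtain ⟨b, rfl⟩ := QuotientGroup.mk_surjective b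
  obtain ⟨c, hc, hcab⟩ := hreg a b n
  refine ⟨QuotientGroup.mk' N c, ?_, ?_⟩
  · have h1 : (Cfsg.powerClosure p n ⁅Subgroup.closure ({a, b} : Set G), Subgroup.closure ({a, b} : Set G)⁆).map
        (QuotientGroup.mk' N) ≤
        Cfsg.powerClosure p n ⁅Subgroup.closure ({(QuotientGroup.mk a : G ⧸ N), (QuotientGroup.mk b : G ⧸ N)} : Set (G ⧸ N)),
          Subgroup.closure ({(QuotientGroup.mk a : G ⧸ N), (QuotientGroup.mk b : G ⧸ N)} : Set (G ⧸ N))⁆ := by
      unfold Cfsg.powerClosure
      rw [MonoidHom.map_closure]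
      apply Subgroup.closure_mono
      rintro _ ⟨y, ⟨x, hx, rfl⟩, rfl⟩
      refine ⟨QuotientGroup.mk' N x, ?_, ?_⟩
      · have h2 : (QuotientGroup.mk' N x) ∈ (⁅Subgroup.closure ({a, b} : Set G), Subgroup.closure ({a, b} : Set G)⁆).map
            (QuotientGroup.mk' N) := Subgroup.mem_map_of_mem _ hx
        rw [Subgroup.map_commutator, MonoidHom.map_closure] at h2
        have h3 : (QuotientGroup.mk' N) '' ({a, b} : Set G) =
            ({(QuotientGroup.mk a : G ⧸ N), (QuotientGroup.mk b : G ⧸ N)} : Set (G ⧸ N)) := by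
          rw [Set.image_pair]
          rfl
        rw [h3] at h2
        exact h2
      · exact map_pow (QuotientGroup.mk' N) x (p ^ n)
    exact h1 (Subgroup.mem_map_of_mem _ hc)
  · have := congrArg (QuotientGroup.mk' N) hcab
    simpa using this

end Cfsg.Agent.S0641
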