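import Cfsg.Statements.S0642
-- import your own Cfsg.Agent.* helpers here

set_option autoImplicit false
open Cfsg

namespace Cfsg.Agent.S0642

open scoped commutatorElement

theorem exists_proper_containing_pows {P : Type*} [Group P] [Finite P] [Nontrivial P] {p : ℕ}
    [hp : Fact p.Prime] (hP : IsPGroup p P) : ∃ M : Subgroup P, M ≠ ⊤ ∧ ∀ x : P, x ^ p ∈ M := by
  obtain ⟨n, hn⟩ := IsPGroup.iff_card.mp hP
  have hn0 : n ≠ 0 := by
    rintro rfl
    rw [pow_zero] at hn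
    have := Finite.one_lt_card (α := P)
    omega
  obtain ⟨k, rfl⟩ := Nat.exists_eq_succ_of_ne_zero hn0
  obtain ⟨M, hM⟩ := Sylow.exists_subgroup_card_pow_prime p (G := P) (n := k)
    (by rw [hn]; exact pow_dvd_pow p (Nat.le_succ k))
  have hidx : M.index = p := by
    have h1 := Subgroup.card_mul_index M
    rw [hM, hn, pow_succ] at h1
    exact Nat.eq_of_mul_eq_mul_left (pow_pos hp.out.pos k) h1
  have hnorm : M.Normal := by
    apply Subgroup.normal_of_index_eq_minFac_card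
    rw [hidx, hn, Nat.Prime.pow_minFac hp.out (Nat.succ_ne_zero k)]
  refine ⟨M, ?_, ?_⟩
  · intro htop
    rw [htop, Subgroup.index_top] at hidx
    exact hp.out.one_lt.ne hidx
  · intro x
    have h2 : ((QuotientGroup.mk x : P ⧸ M)) ^ (Nat.card (P ⧸ M)) = 1 := pow_card_eq_one'
    have h3 : Nat.card (P ⧸ M) = p := by rw [← Subgroup.index_eq_card]; exact hidx
    rw [h3, ← QuotientGroup.mk_pow, QuotientGroup.eq_one_iff] at h2
    exact h2

theorem eq_bot_of_le_powerClosure {G : Type*} [Group G] [Finite G] {p : ℕ} [hp : Fact p.Prime]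
    (hG : IsPGroup p G) (D : Subgroup G) (hD : D ≤ Cfsg.powerClosure p 1 D) : D = ⊥ := by
  by_contra hne
  have hnt : Nontrivial D := (Subgroup.nontrivial_iff_ne_bot D).mpr hne
  obtain ⟨M, hM, hpow⟩ := exists_proper_containing_pows (p := p) (P := D) (hG.to_subgroup D)
  apply hM
  have h1 : Cfsg.powerClosure p 1 D ≤ M.map D.subtype := by
    unfold Cfsg.powerClosure
    rw [Subgroup.closure_le]
    rintro y ⟨x, hx, rfl⟩
    refine ⟨⟨x, hx⟩ ^ p, hpow ⟨x, hx⟩, ?_⟩
    simp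
  rw [eq_top_iff]
  intro d _
  obtain ⟨m, hm, hmd⟩ := h1 (hD d.2)
  have : m = d := Subtype.ext hmd
  rw [← this]
  exact hm

/-- Among finite 2-groups the regular ones are exactly the abelian ones. -/
theorem result {G : Type*} [Group G] [Finite G] (hG : IsPGroup 2 G) : Cfsg.IsRegularPGroup 2 G ↔ ∀ a b : G, a * b = b * a := by
  constructor
  · rintro ⟨_, hreg⟩ a b
    set H := Subgroup.closure ({a, b} : Set G) with hH
    have hDH : ⁅H, H⁆ ≤ H := by
      rw [Subgroup.commutator_le]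
      intro g₁ h₁ g₂ h₂
      exact H.mul_mem (H.mul_mem (H.mul_mem h₁ h₂) (H.inv_mem h₁)) (H.inv_mem h₂)
    have hconjD : ∀ y ∈ H, ∀ x ∈ ⁅H, H⁆, y * x * y⁻¹ ∈ ⁅H, H⁆ := by
      intro y hy x hx
      have h1 : ⁅y, x⁆ ∈ ⁅H, H⁆ := Subgroup.commutator_mem_commutator hy (hDH hx)
      have h2 : y * x * y⁻¹ = ⁅y, x⁆ * x := by
        rw [commutatorElement_def]; group
      rw [h2]
      exact Subgroup.mul_mem _ h1 hx
    have hconjK : ∀ y ∈ H, ∀ c ∈ Cfsg.powerClosure 2 1 ⁅H, H⁆, y * c * y⁻¹ ∈ Cfsg.powerClosure 2 1 ⁅H, H⁆ := by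
      intro y hy c hc
      unfold Cfsg.powerClosure at hc ⊢
      induction hc using Subgroup.closure_induction with
      | mem z hz =>
        obtain ⟨x, hx, rfl⟩ := hz
        apply Subgroup.subset_closure
        refine ⟨y * x * y⁻¹, hconjD y hy x hx, ?_⟩
        rw [conj_pow]
      | one =>
        rw [mul_one, mul_inv_cancel]
        exact Subgroup.one_mem _
      | mul c₁ c₂ _ _ ih₁ ih₂ =>
        have : y * (c₁ * c₂) * y⁻¹ = (y * c₁ * y⁻¹) * (y * c₂ * y⁻¹) := by group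
        rw [this]
        exact Subgroup.mul_mem _ ih₁ ih₂
      | inv c _ ih =>
        have : y * c⁻¹ * y⁻¹ = (y * c * y⁻¹)⁻¹ := by group
        rw [this]
        exact Subgroup.inv_mem _ ih
    have hmono : ∀ x ∈ H, ∀ y ∈ H,
        Cfsg.powerClosure 2 1 ⁅Subgroup.closure ({x, y} : Set G), Subgroup.closure ({x, y} : Set G)⁆ ≤
          Cfsg.powerClosure 2 1 ⁅H, H⁆ := by
      intro x hx y hy
      have hle : Subgroup.closure ({x, y} : Set G) ≤ H := by
        rw [Subgroup.closure_le]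
        rintro z (rfl | rfl)
        · exact hx
        · exact hy
      have hle2 := Subgroup.commutator_mono hle hle
      unfold Cfsg.powerClosure
      apply Subgroup.closure_mono
      rintro z ⟨w, hw, rfl⟩
      exact ⟨w, hle2 hw, rfl⟩
    have hDK : ⁅H, H⁆ ≤ Cfsg.powerClosure 2 1 ⁅H, H⁆ := by
      rw [Subgroup.commutator_le]
      intro g₁ h₁ g₂ h₂
      obtain ⟨c, hc, hcab⟩ := hreg g₂⁻¹ g₁⁻¹ 1
      have hc' := hmono _ (H.inv_mem h₂) _ (H.inv_mem h₁) hc
      have h3 : ⁅g₁, g₂⁆ = g₁⁻¹ * c * g₁⁻¹⁻¹ := by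
        have h4 : c = g₁ * g₁ * g₂ * g₂ * (g₂⁻¹ * g₁⁻¹ * (g₂⁻¹ * g₁⁻¹)) := by
          have h5 : (g₂⁻¹ * g₁⁻¹) ^ 2 ^ 1 = g₂⁻¹ * g₁⁻¹ * (g₂⁻¹ * g₁⁻¹) := by
            rw [pow_one, pow_two]
          have h6 : g₂⁻¹ ^ 2 ^ 1 * g₁⁻¹ ^ 2 ^ 1 * c = g₂⁻¹ * g₂⁻¹ * (g₁⁻¹ * g₁⁻¹) * c := by
            rw [pow_one, pow_two, pow_two]
          rw [h5, h6] at hcab
          rw [hcab]; group
        rw [h4, commutatorElement_def]; group
      rw [h3]
      exact hconjK _ (H.inv_mem h₁) c hc'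
    have hbot := eq_bot_of_le_powerClosure hG ⁅H, H⁆ hDK
    have ha : a ∈ H := Subgroup.subset_closure (by simp)
    have hb : b ∈ H := Subgroup.subset_closure (by simp)
    have hab : ⁅a, b⁆ ∈ ⁅H, H⁆ := Subgroup.commutator_mem_commutator ha hb
    rw [hbot, Subgroup.mem_bot] at hab
    exact commutatorElement_eq_one_iff_mul_comm.mp hab
  · intro hcomm
    refine ⟨hG, ?_⟩
    intro a b n
    refine ⟨1, Subgroup.one_mem _, ?_⟩
    rw [mul_one]
    exact (show Commute a b from hcomm a b).mul_pow _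

end Cfsg.Agent.S0642
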