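import Cfsg.Statements.S0643
import Cfsg.Agent.Helper29.Regular2

set_option autoImplicit false
open Cfsg

namespace Cfsg.Agent.S0643

/-- Kemhadze's criterion: a finite p-group is regular exactly when (ab)^p = a^p b^p c^p always holds for some c in the derived subgroup of the subgroup generated by a and b. -/
theorem result {G : Type*} [Group G] [Finite G] {p : ℕ} [Fact p.Prime] (hG : IsPGroup p G) : Cfsg.IsRegularPGroup p G ↔ ∀ a b : G, ∃ c ∈ ⁅Subgroup.closure ({a, b} : Set G), Subgroup.closure ({a, b} : Set G)⁆, (a * b) ^ p = a ^ p * b ^ p * c ^ p := by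
  classical
constructor
· intro hG' a b
  obtain ⟨c', hc', h⟩ := hG'.2 a b 1
  obtain ⟨c, hc, rfl⟩ := Cfsg.Agent.Helper29.regAt_powerClosure
    (Cfsg.Agent.Helper29.regAt_of_regular hG' 1) _ c' hc'
  exact ⟨c, hc, by simpa using h⟩
· intro h
  have h1 : Cfsg.Agent.Helper29.RegAt p 1 G := by
    refine ⟨hG, fun a b => ?_⟩
    obtain ⟨c, hc, h'⟩ := h a b
    exact ⟨c ^ p ^ 1, Subgroup.subset_closure ⟨c, hc, rfl⟩, by simpa using h'⟩
  exact ⟨hG, fun a b n => (Cfsg.Agent.Helper29.regAt_all h1 n).2 a b⟩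

end Cfsg.Agent.S0643
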