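import Cfsg.Statements.S0656
-- import your own Cfsg.Agent.* helpers here
import Cfsg.Agent.Helper12.QuadAct

set_option autoImplicit false
open Cfsg

namespace Cfsg.Agent.S0656

open scoped commutatorElement

/-- For odd p, a faithful group on an elementary abelian p-group with no nontrivial normal p-subgroup in which some nontrivial p-element acts quadratically has a section isomorphic to SL(2, p). -/
theorem result {G : Type*} [Group G] [Finite G] {p : ℕ} [Fact p.Prime] (hp : p ≠ 2) (V H : Subgroup G) (hV : Cfsg.IsElementaryAbelian p V) (hHV : H ≤ Subgroup.normalizer (V : Set G)) (hf : H ⊓ Subgroup.centralizer (V : Set G) = ⊥) (hO : Cfsg.pCore p ↥H = ⊥) (x : G) (hxH : x ∈ H) (hx1 : x ≠ 1) (hxp : ∃ k : ℕ, orderOf x = p ^ k) (hq : ⁅⁅V, Subgroup.zpowers x⁆, Subgroup.zpowers x⁆ = ⊥) : ∃ (K L : Subgroup G) (hL : (L.subgroupOf K).Normal), K ≤ H ∧ Nonempty ((K ⧸ L.subgroupOf K) ≃* Matrix.SpecialLinearGroup (Fin 2) (ZMod p)) :=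 by
  open Cfsg.Agent.Helper12 in
  (
  by_contra hno
  classical
  have hpp : p.Prime := Fact.out
  have hconj : ∀ h ∈ H, ∀ v ∈ V, h * v * h⁻¹ ∈ V := fun h hh v hv =>
    ((Subgroup.mem_normalizer_iff.1 (hHV hh)) v).1 hv
  have hconj' : ∀ h ∈ H, ∀ v ∈ V, h⁻¹ * v * h ∈ V := fun h hh v hv => by
    have := hconj h⁻¹ (inv_mem hh) v hv
    rwa [inv_inv] at this
  obtain ⟨ψ, hψ⟩ : ∃ ψ : ↥H →* MulAut ↥V, ∀ (h : ↥H) (v : ↥V),
      ((ψ h v : ↥V) : G) = (h : G) * (v : G) * (h : G)⁻¹ :=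
    ⟨{ toFun := fun h =>
        { toFun := fun v => ⟨(h : G) * (v : G) * (h : G)⁻¹, hconj h h.2 v v.2⟩
          invFun := fun v => ⟨(h : G)⁻¹ * (v : G) * (h : G), hconj' h h.2 v v.2⟩
          left_inv := fun v => Subtype.ext (by simp [mul_assoc])
          right_inv := fun v => Subtype.ext (by simp [mul_assoc])
          map_mul' := fun v w => Subtype.ext (by simp [mul_assoc]) }
       map_one' := by ext v; simp
       map_mul' := fun h k => by ext v; simp [mul_assoc] }, fun _ _ => rfl⟩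
  have hinj : Function.Injective ψ := by
    rw [injective_iff_map_eq_one]
    intro h hh
    have hmem : (h : G) ∈ H ⊓ Subgroup.centralizer (V : Set G) := by
      refine Subgroup.mem_inf.2 ⟨h.2, ?_⟩
      rw [Subgroup.mem_centralizer_iff]
      intro v hv
      have h1 := congrArg (fun e : MulAut ↥V => ((e ⟨v, hv⟩ : ↥V) : G)) hh
      simp only [hψ] at h1
      have h2 : (h : G) * v * (h : G)⁻¹ = v := h1
      exact (mul_inv_eq_iff_eq_mul.1 h2).symm
    rw [hf, Subgroup.mem_bot] at hmem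
    exact Subtype.ext hmem
  have hVp : IsPGroup p ↥V := by
    intro v
    refine ⟨1, Subtype.ext ?_⟩
    rw [pow_one, Subgroup.coe_pow]
    exact hV.2 v v.2
  have hcore : ∀ H' : Subgroup ↥H, GL2CoreP p ↥H' := fun H' =>
    gl2CoreP_of_not_involves hp (fun hinv => hno (section_le_of_involves H H' hinv))
  have hquad : ∀ u : ↥V, ψ ⟨x, hxH⟩ (ψ ⟨x, hxH⟩ u * u⁻¹) = ψ ⟨x, hxH⟩ u * u⁻¹ := by
    intro u
    apply Subtype.ext
    rw [hψ, Subgroup.coe_mul, hψ, Subgroup.coe_inv]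
    have h1 : ⁅⁅(u : G), x⁆, x⁆ ∈ (⁅⁅V, Subgroup.zpowers x⁆, Subgroup.zpowers x⁆ : Subgroup G) :=
      Subgroup.commutator_mem_commutator
        (Subgroup.commutator_mem_commutator u.2 (Subgroup.mem_zpowers x)) (Subgroup.mem_zpowers x)
    rw [hq, Subgroup.mem_bot] at h1
    have h2 : ((u : G) * x * (u : G)⁻¹ * x⁻¹) * x * ((u : G) * x * (u : G)⁻¹ * x⁻¹)⁻¹ * x⁻¹ = 1 :=
      h1
    calc x * (x * (u : G) * x⁻¹ * (u : G)⁻¹) * x⁻¹
        = (x * (u : G) * x⁻¹ * (u : G)⁻¹) *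
            (((u : G) * x * (u : G)⁻¹ * x⁻¹) * x * ((u : G) * x * (u : G)⁻¹ * x⁻¹)⁻¹ * x⁻¹) := by
          group
      _ = x * (u : G) * x⁻¹ * (u : G)⁻¹ := by rw [h2, mul_one]
  have hmem := pstab_gen_faithful p hcore hp hVp ψ hinj ⟨x, hxH⟩ hquad
  rw [hO, Subgroup.mem_bot] at hmem
  exact hx1 (congrArg Subtype.val hmem)
  )

end Cfsg.Agent.S0656
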