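import Cfsg.Statements.S0657
-- import your own Cfsg.Agent.* helpers here
import Cfsg.Agent.Helper12.QuadAct
import Cfsg.Agent.Helper16.DihInvolved

set_option autoImplicit false
open Cfsg

namespace Cfsg.Agent.S0657

open scoped commutatorElement

/-- For odd p, a group that fails to be p-stable modulo its largest normal subgroup of order prime to p, and whose upper p-series does not stop there, has a section isomorphic to SL(2, p). -/
theorem result {G : Type*} [Group G] [Finite G] {p : ℕ} [Fact p.Prime] (hp : p ≠ 2) (hO : Cfsg.pPrimeCore p G < Cfsg.pPrimePCore p G) (hns : ¬ Cfsg.IsPStable p (G ⧸ Cfsg.pPrimeCore p G)) : ∃ (K L : Subgroup G) (hL : (L.subgroupOf K).Normal), K ≤ ⊤ ∧ Nonempty ((K ⧸ L.subgroupOf K) ≃* Matrix.SpecialLinearGroup (Fin 2) (ZMod p)) := by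
  open Cfsg.Agent.Helper12 in
  (
  by_contra hno
  classical
  have hpp : p.Prime := Fact.out
  have hnoG : ¬ Cfsg.Involves (Matrix.SpecialLinearGroup (Fin 2) (ZMod p)) G := by
    rintro ⟨K, L, hL, e⟩
    exact hno ⟨K, L, hL, le_top, e⟩
  have hnoQ : ¬ Cfsg.Involves (Matrix.SpecialLinearGroup (Fin 2) (ZMod p))
      (G ⧸ Cfsg.pPrimeCore p G) := by
    intro hinv
    exact hnoG (Cfsg.Agent.Helper16.involves_of_section (⊤ : Subgroup G)
      ((QuotientGroup.mk' (Cfsg.pPrimeCore p G)).comp (⊤ : Subgroup G).subtype)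
      ((QuotientGroup.mk'_surjective _).comp (fun x => ⟨⟨x, Subgroup.mem_top x⟩, rfl⟩)) hinv)
  apply hns
  refine ⟨hpp.odd_of_ne_two hp, ?_, ?_⟩
  · intro h0
    apply ne_of_lt hO
    unfold Cfsg.pPrimePCore
    rw [h0, MonoidHom.comap_bot, QuotientGroup.ker_mk']
  · intro A P hA hP hAP hPle hnorm hquad
    rintro _ ⟨a, ha, rfl⟩
    have hcore : ∀ H : Subgroup ↥(Subgroup.normalizer (P : Set (G ⧸ Cfsg.pPrimeCore p G))),
        GL2CoreP p ↥H := fun H =>
      gl2CoreP_of_not_involves hp (fun hinv => hnoQ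
        (Cfsg.Agent.Helper27.involves_of_injective _ (Subgroup.subtype_injective _)
          (Cfsg.Agent.Helper27.involves_of_injective H.subtype H.subtype_injective hinv)))
    have hq : ∀ x ∈ P, (a : G ⧸ Cfsg.pPrimeCore p G) * ((a : G ⧸ Cfsg.pPrimeCore p G) * x *
        (a : G ⧸ Cfsg.pPrimeCore p G)⁻¹ * x⁻¹) * (a : G ⧸ Cfsg.pPrimeCore p G)⁻¹ =
        (a : G ⧸ Cfsg.pPrimeCore p G) * x * (a : G ⧸ Cfsg.pPrimeCore p G)⁻¹ * x⁻¹ := by
      intro x hx
      obtain ⟨g, hg⟩ : ∃ g : G ⧸ Cfsg.pPrimeCore p G, g = (a : G ⧸ Cfsg.pPrimeCore p G) :=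
        ⟨_, rfl⟩
      have hgA : g ∈ A := by rw [hg]; exact ha
      rw [← hg]
      have h1 : ⁅⁅x, g⁆, g⁆ ∈ (⁅⁅P, A⁆, A⁆ : Subgroup (G ⧸ Cfsg.pPrimeCore p G)) :=
        Subgroup.commutator_mem_commutator
          (Subgroup.commutator_mem_commutator hx hgA) hgA
      rw [hquad, Subgroup.mem_bot] at h1
      have h2 : (x * g * x⁻¹ * g⁻¹) * g * (x * g * x⁻¹ * g⁻¹)⁻¹ * g⁻¹ = 1 := h1
      calc g * (g * x * g⁻¹ * x⁻¹) * g⁻¹
          = (g * x * g⁻¹ * x⁻¹) * ((x * g * x⁻¹ * g⁻¹) * g * (x * g * x⁻¹ * g⁻¹)⁻¹ * g⁻¹) := by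
            group
        _ = g * x * g⁻¹ * x⁻¹ := by rw [h2, mul_one]
    apply pstab_gen_normalP p hcore hp
      (P.subgroupOf (Subgroup.normalizer (P : Set (G ⧸ Cfsg.pPrimeCore p G))))
      (IsPGroup.comap_subtype hP)
    · intro g' hg'
      rw [Subgroup.mem_subgroupOf, Subgroup.mem_centralizer_iff]
      intro u hu
      have h1 := hg' ⟨u, Subgroup.le_normalizer hu⟩ hu
      have h2 : (g' : G ⧸ Cfsg.pPrimeCore p G) * u * (g' : G ⧸ Cfsg.pPrimeCore p G)⁻¹ = u :=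
        congrArg Subtype.val h1
      exact (mul_inv_eq_iff_eq_mul.1 h2).symm
    · intro u hu
      apply Subtype.ext
      exact hq (u : G ⧸ Cfsg.pPrimeCore p G) hu
  )

end Cfsg.Agent.S0657
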