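import Cfsg.Statements.S0660
-- import your own Cfsg.Agent.* helpers here
import Cfsg.Agent.Helper5.Maschke

set_option autoImplicit false
open Cfsg

namespace Cfsg.Agent.S0660

open scoped IsMulCommutative in
theorem aux {G : Type*} [Group G] [Finite G] (V A U : Subgroup G) (hVab : IsMulCommutative V)
    (hAV : A ≤ Subgroup.normalizer (V : Set G)) (hcop : (Nat.card A).Coprime (Nat.card V))
    (hUV : U ≤ V) (hAU : A ≤ Subgroup.normalizer (U : Set G)) (W : Subgroup G) (hWV : W ≤ V)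
    (hUW : U ⊓ W = ⊥) (hUWV : U ⊔ W = V) :
    ∃ W' : Subgroup G, W' ≤ V ∧ A ≤ Subgroup.normalizer (W' : Set G) ∧ U ⊓ W' = ⊥ ∧ U ⊔ W' = V := by
  let c : A →* MulAut V := V.normalizerMonoidHom.comp (Subgroup.inclusion hAV)
  have hc : ∀ (a : A) (v : V), ((c a v : V) : G) = (a : G) * (v : G) * (a : G)⁻¹ := fun a v => rfl
  have h1 : U.subgroupOf V ⊓ W.subgroupOf V = ⊥ := by
    rw [eq_bot_iff]
    rintro x ⟨hx1, hx2⟩
    have hx : (x : G) ∈ U ⊓ W := ⟨Subgroup.mem_subgroupOf.mp hx1, Subgroup.mem_subgroupOf.mp hx2⟩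
    rw [hUW, Subgroup.mem_bot] at hx
    rw [Subgroup.mem_bot]
    exact Subtype.ext hx
  have h2 : U.subgroupOf V ⊔ W.subgroupOf V = ⊤ := by
    rw [← Subgroup.subgroupOf_sup hUV hWV, hUWV, Subgroup.subgroupOf_self]
  have h3 : ∀ a : A, ∀ u ∈ U.subgroupOf V, c a u ∈ U.subgroupOf V := by
    intro a u hu
    rw [Subgroup.mem_subgroupOf] at hu ⊢
    rw [hc]
    exact (Subgroup.mem_normalizer_iff.mp (hAU a.2) _).mp hu
  obtain ⟨W', hW'1, hW'2, hW'3⟩ := Cfsg.Agent.Helper5.maschke_abstract c hcop _ _ h1 h2 h3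
  refine ⟨W'.map V.subtype, Subgroup.map_subtype_le W', ?_, ?_, ?_⟩
  · intro b hb
    rw [Subgroup.mem_normalizer_iff]
    intro h
    constructor
    · rintro ⟨v, hv, rfl⟩
      exact ⟨c ⟨b, hb⟩ v, hW'1 ⟨b, hb⟩ v hv, rfl⟩
    · rintro ⟨v, hv, hvh⟩
      refine ⟨c ⟨b⁻¹, A.inv_mem hb⟩ v, hW'1 _ v hv, ?_⟩
      show (c ⟨b⁻¹, A.inv_mem hb⟩ v : G) = h
      rw [hc]
      show b⁻¹ * (v : G) * b⁻¹⁻¹ = h
      have hv' : (v : G) = b * h * b⁻¹ := hvh
      rw [hv']; group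
  · rw [eq_bot_iff]
    rintro x ⟨hxU, ⟨v, hv, rfl⟩⟩
    have hv' : v ∈ U.subgroupOf V ⊓ W' := ⟨Subgroup.mem_subgroupOf.mpr hxU, hv⟩
    rw [hW'2, Subgroup.mem_bot] at hv'
    rw [Subgroup.mem_bot, hv']; rfl
  · apply le_antisymm
    · exact sup_le hUV (Subgroup.map_subtype_le W')
    · intro x hx
      have hx1 : (⟨x, hx⟩ : V) ∈ U.subgroupOf V ⊔ W' := by rw [hW'3]; trivial
      obtain ⟨u, hu, w, hw, huw⟩ := Subgroup.mem_sup.mp hx1
      have hx' : x = (u : G) * (w : G) := (congrArg Subtype.val huw).symm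
      rw [hx']
      exact Subgroup.mul_mem_sup (Subgroup.mem_subgroupOf.mp hu) ⟨w, hw, rfl⟩

/-- Under a coprime action on an abelian group, an invariant subgroup that is complemented admits an invariant complement. -/
theorem result {G : Type*} [Group G] [Finite G] (V A U : Subgroup G) (hVab : IsMulCommutative V) (hAV : A ≤ Subgroup.normalizer (V : Set G)) (hcop : (Nat.card A).Coprime (Nat.card V)) (hUV : U ≤ V) (hAU : A ≤ Subgroup.normalizer (U : Set G)) (W : Subgroup G) (hWV : W ≤ V) (hUW : U ⊓ W = ⊥) (hUWV : U ⊔ W = V) : ∃ W' : Subgroup G, W' ≤ V ∧ A ≤ Subgroup.normalizer (W' : Set G) ∧ U ⊓ W' = ⊥ ∧ U ⊔ W' = V := by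
  exact aux V A U hVab hAV hcop hUV hAU W hWV hUW hUWV

end Cfsg.Agent.S0660
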