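import Cfsg.Statements.S0662
-- import your own Cfsg.Agent.* helpers here
import Cfsg.Agent.Helper11.MaxClass

set_option autoImplicit false
open Cfsg

namespace Cfsg.Agent.S0662

/-- In a p-group of maximal class of order at least p³ the normal subgroups of index at least p² are exactly the terms of the lower central series, and there are exactly p + 1 normal subgroups of index p. -/
theorem result {G : Type*} [Group G] [Finite G] {p : ℕ} [Fact p.Prime] (n : ℕ) (hG : Nat.card G = p ^ n) (hcl : Group.nilpotencyClass G = n - 1) (hn : 3 ≤ n) : (∀ (N : Subgroup G) [N.Normal] (r : ℕ), 2 ≤ r → N.index = p ^ r → N = (⊤ : Subgroup G).lowerCentralSeries (r - 1)) ∧ Nat.card {N : Subgroup G // N.Normal ∧ N.index = p} = p + 1 := by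
  have hpr : p.Prime := Fact.out
  have hP : IsPGroup p G := IsPGroup.of_card hG
  haveI : Group.IsNilpotent G := hP.isNilpotent
  have hbot : (⊤ : Subgroup G).lowerCentralSeries (n - 1) = ⊥ :=
    Subgroup.lowerCentralSeries_eq_bot_iff_nilpotencyClass_le.2 (le_of_eq hcl)
  have hnb : (⊤ : Subgroup G).lowerCentralSeries (n - 2) ≠ ⊥ := by
    intro h
    have h1 := Subgroup.lowerCentralSeries_eq_bot_iff_nilpotencyClass_le.1 h
    omega
  have hcard : ∀ i : ℕ, i + 2 ≤ n →
      Nat.card ((⊤ : Subgroup G).lowerCentralSeries (i + 1)) = p ^ (n - 2 - i) := by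
    intro i hi
    by_cases hlast : i + 2 = n
    · have h1 : i + 1 = n - 1 := by omega
      have h2 : n - 2 - i = 0 := by omega
      rw [h1, hbot, Subgroup.card_bot, h2, pow_zero]
    · have hne : (⊤ : Subgroup G).lowerCentralSeries (i + 1) ≠ ⊥ := by
        intro hb
        have hle : (⊤ : Subgroup G).lowerCentralSeries (n - 2)
            ≤ (⊤ : Subgroup G).lowerCentralSeries (i + 1) :=
          Subgroup.lowerCentralSeries_antitone _ (by omega)
        rw [hb] at hle
        exact hnb (le_bot_iff.1 hle)
      apply le_antisymm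
      · rcases Cfsg.Agent.Helper11.lcs_card_upper hP i with h | h
        · exact absurd h hne
        · rw [hG] at h
          have hsplit : p ^ n = p ^ (n - 2 - i) * p ^ (i + 2) := by
            rw [← pow_add]
            congr 1
            omega
          rw [hsplit] at h
          exact Nat.le_of_mul_le_mul_right h (pow_pos hpr.pos _)
      · have h := Cfsg.Agent.Helper11.lcs_card_lower hP (n - 2) hnb (n - 2 - (i + 1)) (by omega)
        have e1 : n - 2 - (i + 1) + 1 = n - 2 - i := by omega
        have e2 : n - 2 - (n - 2 - (i + 1)) = i + 1 := by omega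
        rw [e1, e2] at h
        exact h
  have hidx2 : (commutator G).index = p ^ 2 := by
    have h1 := Subgroup.card_mul_index (commutator G)
    have hc' : Nat.card (commutator G) = p ^ (n - 2) := hcard 0 (by omega)
    rw [hc', hG] at h1
    have hsplit : p ^ n = p ^ (n - 2) * p ^ 2 := by
      rw [← pow_add]
      congr 1
      omega
    rw [hsplit] at h1
    exact Nat.eq_of_mul_eq_mul_left (pow_pos hpr.pos _) h1
  constructor
  · intro N _ r hr hNr
    have h1 := Subgroup.card_mul_index N
    rw [hNr, hG] at h1
    have hrn : r ≤ n := by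
      by_contra hlt
      have h2 : p ^ n < p ^ r := Nat.pow_lt_pow_right hpr.one_lt (by omega)
      have h3 : p ^ r ≤ Nat.card N * p ^ r := Nat.le_mul_of_pos_left _ Nat.card_pos
      exact absurd (lt_of_lt_of_le h2 (h3.trans (le_of_eq h1))) (lt_irrefl _)
    have hNc : Nat.card N = p ^ (n - r) := by
      have hsplit : p ^ n = p ^ (n - r) * p ^ r := by
        rw [← pow_add]
        congr 1
        omega
      rw [hsplit] at h1
      exact Nat.eq_of_mul_eq_mul_right (pow_pos hpr.pos _) h1
    have hQc : Nat.card (G ⧸ N) = p ^ r := hNr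
    have hQ := Cfsg.Agent.Helper11.lcs_bot_of_card r hr hQc
    have hmap := Subgroup.map_lowerCentralSeries (⊤ : Subgroup G) (QuotientGroup.mk' N) (r - 1)
    rw [Subgroup.map_top_of_surjective _ (QuotientGroup.mk'_surjective N), hQ,
      Subgroup.map_eq_bot_iff, QuotientGroup.ker_mk'] at hmap
    obtain ⟨i, rfl⟩ : ∃ i, r = i + 2 := ⟨r - 2, by omega⟩
    have e : i + 2 - 1 = i + 1 := by omega
    rw [e] at hmap ⊢
    have hc := hcard i hrn
    symm
    apply Subgroup.eq_of_le_of_card_ge hmap
    rw [hNc, hc]
    exact Nat.pow_le_pow_right hpr.pos (by omega)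
  · apply Cfsg.Agent.Helper11.card_normal_index_p hidx2
    intro g
    by_contra hg
    have hA : Nat.card (G ⧸ commutator G) = p ^ 2 := hidx2
    have hx : ((g : G) : G ⧸ commutator G) ^ p ≠ 1 := by
      intro h
      rw [← QuotientGroup.mk_pow] at h
      exact hg ((QuotientGroup.eq_one_iff _).1 h)
    have hdvd : orderOf ((g : G) : G ⧸ commutator G) ∣ p ^ 2 := by
      rw [← hA]
      exact orderOf_dvd_natCard _
    obtain ⟨k, hk2, hk⟩ := (Nat.dvd_prime_pow hpr).1 hdvd
    have hk' : k = 2 := by
      interval_cases k
      · exfalso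
        apply hx
        rw [pow_zero, orderOf_eq_one_iff] at hk
        rw [hk, one_pow]
      · exfalso
        apply hx
        rw [pow_one] at hk
        rw [← hk]
        exact pow_orderOf_eq_one _
      · rfl
    rw [hk'] at hk
    haveI : IsCyclic (G ⧸ commutator G) := isCyclic_of_orderOf_eq_card _ (hk.trans hA.symm)
    have hb := Cfsg.Agent.Helper11.comm_bot_of_cyclic_ab hP inferInstance
    have hc' : Nat.card (commutator G) = p ^ (n - 2) := hcard 0 (by omega)
    rw [hb, Subgroup.card_bot] at hc'
    have h4 : 1 < p ^ (n - 2) := Nat.one_lt_pow (by omega) hpr.one_lt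
    omega

end Cfsg.Agent.S0662
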