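import Cfsg.Statements.S0666
import Mathlib
import Cfsg.Agent.S0035

set_option autoImplicit false
open Cfsg

namespace Cfsg.Agent.S0666

open scoped IsMulCommutative
open Pointwise

/-- conjugation by an element of `F` as an endomorphism of the normalised subgroup `V`. -/
noncomputable def cj {G : Type*} [Group G] (V F : Subgroup G)
    (hFV : F ≤ Subgroup.normalizer (V : Set G)) (f : F) : V →* V where
  toFun v := ⟨(f : G) * v * (f : G)⁻¹, (Subgroup.mem_normalizer_iff.mp (hFV f.2) v).mp v.2⟩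
  map_one' := Subtype.ext (by simp)
  map_mul' x y := Subtype.ext (by simp [mul_assoc])

theorem cj_mul {G : Type*} [Group G] (V F : Subgroup G)
    (hFV : F ≤ Subgroup.normalizer (V : Set G)) (f g : F) (v : V) :
    cj V F hFV (f * g) v = cj V F hFV f (cj V F hFV g v) :=
  Subtype.ext (by simp [cj, mul_assoc])

theorem cj_coe {G : Type*} [Group G] (V F : Subgroup G)
    (hFV : F ≤ Subgroup.normalizer (V : Set G)) (f : F) (v : V) :
    ((cj V F hFV f v : V) : G) = (f : G) * v * (f : G)⁻¹ := rfl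


/-- A Frobenius group acting on a nontrivial abelian group of order prime to that of its kernel, with the kernel acting without nontrivial fixed points, has a complement with a nontrivial fixed point. -/
theorem result {G : Type*} [Group G] [Finite G] (V F : Subgroup G) (hVab : IsMulCommutative V) (hV1 : V ≠ ⊥) (hFV : F ≤ Subgroup.normalizer (V : Set G)) (H : Subgroup ↥F) (hH : Cfsg.IsFrobeniusComplement H) (hcop : (Nat.card V).Coprime (Nat.card (Cfsg.frobeniusKernel H))) (hCK : V ⊓ Subgroup.centralizer (Subtype.val '' Cfsg.frobeniusKernel H : Set G) = ⊥) : V ⊓ Subgroup.centralizer ((H.map F.subtype : Subgroup G) : Set G) ≠ ⊥ := by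
  classical
  intro hcon
  obtain ⟨N, hNK, hNn, hNc⟩ := Cfsg.Agent.S0035.result H hH
  obtain ⟨hH1, hH2, hTI⟩ := hH
  have hNH : N ⊓ H = ⊥ := hNc.disjoint.eq_bot
  have : IsMulCommutative V := hVab
  let _ := Fintype.ofFinite ↥N
  let _ := Fintype.ofFinite ↥H
  -- fixed points of H
  have hb : ∀ v : V, ∏ h : H, cj V F hFV (h : F) v = 1 := by
    intro v
    have hfix : ∀ x : H, cj V F hFV (x : F) (∏ h : H, cj V F hFV (h : F) v)
        = ∏ h : H, cj V F hFV (h : F) v := by
      intro x
      rw [map_prod]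
      simp_rw [← cj_mul]
      exact Fintype.prod_equiv (Equiv.mulLeft x) _ _ (fun h => rfl)
    have hmem : ((∏ h : H, cj V F hFV (h : F) v : V) : G) ∈
        V ⊓ Subgroup.centralizer ((H.map F.subtype : Subgroup G) : Set G) := by
      refine Subgroup.mem_inf.mpr ⟨(∏ h : H, cj V F hFV (h : F) v : V).2, ?_⟩
      rw [Subgroup.mem_centralizer_iff]
      rintro _ ⟨x, hx, rfl⟩
      have h1 := congrArg Subtype.val (hfix ⟨x, hx⟩)
      rw [cj_coe] at h1
      have h2 : ((⟨x, hx⟩ : H) : F) = x := rfl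
      rw [h2] at h1
      show (x : G) * _ = _ * (x : G)
      calc (x : G) * ((∏ h : H, cj V F hFV (h : F) v : V) : G)
          = (x : G) * ((∏ h : H, cj V F hFV (h : F) v : V) : G) * (x : G)⁻¹ * (x : G) := by group
        _ = ((∏ h : H, cj V F hFV (h : F) v : V) : G) * (x : G) := by rw [h1]
    rw [hcon] at hmem
    exact Subtype.ext (Subgroup.mem_bot.mp hmem)
  -- fixed points of N
  have ha : ∀ v : V, ∏ n : N, cj V F hFV (n : F) v = 1 := by
    intro v
    have hfix : ∀ x : N, cj V F hFV (x : F) (∏ n : N, cj V F hFV (n : F) v)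
        = ∏ n : N, cj V F hFV (n : F) v := by
      intro x
      rw [map_prod]
      simp_rw [← cj_mul]
      exact Fintype.prod_equiv (Equiv.mulLeft x) _ _ (fun h => rfl)
    have hmem : ((∏ n : N, cj V F hFV (n : F) v : V) : G) ∈
        V ⊓ Subgroup.centralizer (Subtype.val '' Cfsg.frobeniusKernel H : Set G) := by
      refine Subgroup.mem_inf.mpr ⟨(∏ n : N, cj V F hFV (n : F) v : V).2, ?_⟩
      rw [Subgroup.mem_centralizer_iff]
      rintro _ ⟨x, hx, rfl⟩
      have hxN : x ∈ N := by
        have h0 : x ∈ (N : Set F) := by rw [hNK]; exact hx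
        exact h0
      have h1 := congrArg Subtype.val (hfix ⟨x, hxN⟩)
      rw [cj_coe] at h1
      have h2 : ((⟨x, hxN⟩ : N) : F) = x := rfl
      rw [h2] at h1
      calc (x : G) * ((∏ n : N, cj V F hFV (n : F) v : V) : G)
          = (x : G) * ((∏ n : N, cj V F hFV (n : F) v : V) : G) * (x : G)⁻¹ * (x : G) := by group
        _ = ((∏ n : N, cj V F hFV (n : F) v : V) : G) * (x : G) := by rw [h1]
    rw [hCK] at hmem
    exact Subtype.ext (Subgroup.mem_bot.mp hmem)
  -- the class of h under N is the coset N h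
  have hclass : ∀ h : H, h ≠ 1 → ∀ v : V,
      ∏ c : N, cj V F hFV ((c : F) * (h : F) * (c : F)⁻¹) v = 1 := by
    intro h hh1 v
    have hψmem : ∀ c : N, (c : F) * (h : F) * (c : F)⁻¹ * (h : F)⁻¹ ∈ N := by
      intro c
      have h1 : (h : F) * (c : F)⁻¹ * (h : F)⁻¹ ∈ N := hNn.conj_mem _ (N.inv_mem c.2) _
      have h2 : (c : F) * (h : F) * (c : F)⁻¹ * (h : F)⁻¹
          = (c : F) * ((h : F) * (c : F)⁻¹ * (h : F)⁻¹) := by group
      rw [h2]; exact N.mul_mem c.2 h1
    have hψinj : Function.Injective (fun c : N =>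
        (⟨(c : F) * (h : F) * (c : F)⁻¹ * (h : F)⁻¹, hψmem c⟩ : N)) := by
      intro c c' hcc
      have h1 : (c : F) * (h : F) * (c : F)⁻¹ * (h : F)⁻¹
          = (c' : F) * (h : F) * (c' : F)⁻¹ * (h : F)⁻¹ := congrArg Subtype.val hcc
      have h2 : (c : F) * (h : F) * (c : F)⁻¹ = (c' : F) * (h : F) * (c' : F)⁻¹ :=
        mul_right_cancel h1
      -- d := c'⁻¹ c commutes with h
      have h3 : ((c' : F)⁻¹ * (c : F)) * (h : F) * ((c' : F)⁻¹ * (c : F))⁻¹ = (h : F) := by
        calc ((c' : F)⁻¹ * (c : F)) * (h : F) * ((c' : F)⁻¹ * (c : F))⁻¹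
            = (c' : F)⁻¹ * ((c : F) * (h : F) * (c : F)⁻¹) * (c' : F) := by group
          _ = (c' : F)⁻¹ * ((c' : F) * (h : F) * (c' : F)⁻¹) * (c' : F) := by rw [h2]
          _ = (h : F) := by group
      have hdH : (c' : F)⁻¹ * (c : F) ∈ H := by
        by_contra hd
        have h4 := hTI _ hd
        have h5 : (h : F) ∈ H ⊓ (MulAut.conj ((c' : F)⁻¹ * (c : F)) • H) := by
          refine Subgroup.mem_inf.mpr ⟨h.2, ?_⟩
          have h6 := Subgroup.smul_mem_pointwise_smul (h : F)
            (MulAut.conj ((c' : F)⁻¹ * (c : F))) H h.2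
          have h7 : MulAut.conj ((c' : F)⁻¹ * (c : F)) • (h : F) = (h : F) := h3
          rwa [h7] at h6
        rw [h4, Subgroup.mem_bot] at h5
        exact hh1 (Subtype.ext h5)
      have hd1 : (c' : F)⁻¹ * (c : F) = 1 := by
        have h4 : (c' : F)⁻¹ * (c : F) ∈ N ⊓ H :=
          Subgroup.mem_inf.mpr ⟨N.mul_mem (N.inv_mem c'.2) c.2, hdH⟩
        rw [hNH] at h4
        exact Subgroup.mem_bot.mp h4
      apply Subtype.ext
      have h4 : (c : F) = (c' : F) * ((c' : F)⁻¹ * (c : F)) := by group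
      rw [h4, hd1, mul_one]
    have hψbij := hψinj.bijective_of_finite
    have h1 : ∀ c : N, cj V F hFV ((c : F) * (h : F) * (c : F)⁻¹) v
        = cj V F hFV (((⟨(c : F) * (h : F) * (c : F)⁻¹ * (h : F)⁻¹, hψmem c⟩ : N) : F))
          (cj V F hFV (h : F) v) := by
      intro c
      have e : ((⟨(c : F) * (h : F) * (c : F)⁻¹ * (h : F)⁻¹, hψmem c⟩ : N) : F) * (h : F)
          = (c : F) * (h : F) * (c : F)⁻¹ := by
        show (c : F) * (h : F) * (c : F)⁻¹ * (h : F)⁻¹ * (h : F) = _
        group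
      rw [← cj_mul, e]
    simp_rw [h1]
    rw [hψbij.prod_comp (fun n : N => cj V F hFV (n : F) (cj V F hFV (h : F) v))]
    exact ha _
  -- the double product
  have key : ∀ v : V, v ^ Nat.card N = 1 := by
    intro v
    have hD1 : ∏ c : N, ∏ h : H, cj V F hFV ((c : F) * (h : F) * (c : F)⁻¹) v = 1 := by
      apply Finset.prod_eq_one
      intro c _
      have h1 : ∀ h : H, cj V F hFV ((c : F) * (h : F) * (c : F)⁻¹) v
          = cj V F hFV (c : F) (cj V F hFV (h : F) (cj V F hFV ((c : F)⁻¹) v)) := by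
        intro h
        rw [cj_mul, cj_mul]
      simp_rw [h1]
      rw [← map_prod, hb, map_one]
    have hD2 : ∏ c : N, ∏ h : H, cj V F hFV ((c : F) * (h : F) * (c : F)⁻¹) v
        = v ^ Nat.card N := by
      rw [Finset.prod_comm, Finset.prod_eq_single (1 : H)]
      · have h1 : ∀ c : N, cj V F hFV ((c : F) * ((1 : H) : F) * (c : F)⁻¹) v = v := by
          intro c
          apply Subtype.ext
          rw [cj_coe]
          simp
        simp_rw [h1]
        rw [Finset.prod_const, Finset.card_univ, Nat.card_eq_fintype_card]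
      · intro h _ hne
        exact hclass h hne v
      · intro h
        exact absurd (Finset.mem_univ _) h
    rw [← hD2, hD1]
  apply hV1
  rw [Subgroup.eq_bot_iff_forall]
  intro x hx
  have h1 := key ⟨x, hx⟩
  have h2 : orderOf (⟨x, hx⟩ : V) ∣ Nat.card N := orderOf_dvd_of_pow_eq_one h1
  have h3 : orderOf (⟨x, hx⟩ : V) ∣ Nat.card V := orderOf_dvd_natCard _
  have hcardN : Nat.card N = Nat.card (Cfsg.frobeniusKernel H) := by
    rw [← hNK]; rfl
  rw [hcardN] at h2
  have h4 : orderOf (⟨x, hx⟩ : V) = 1 := Nat.eq_one_of_dvd_coprimes hcop h3 h2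
  have h5 : (⟨x, hx⟩ : V) = 1 := orderOf_eq_one_iff.mp h4
  exact congrArg Subtype.val h5

end Cfsg.Agent.S0666
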