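import Cfsg.Statements.S0668
-- import your own Cfsg.Agent.* helpers here
import Mathlib

set_option autoImplicit false
open Cfsg

namespace Cfsg.Agent.S0668

/-- orbit-constant kernels as equivariant maps -/
noncomputable def Phi (K : Type*) [Field K] (G : Type*) [Group G] (Ω₁ Ω₂ : Type*) [Fintype Ω₁]
    [MulAction G Ω₁] [MulAction G Ω₂] :
    (MulAction.orbitRel.Quotient G (Ω₁ × Ω₂) → K) →ₗ[K] ((Ω₁ → K) →ₗ[K] (Ω₂ → K)) where
  toFun c :=
    { toFun := fun f y => ∑ x, c (Quotient.mk'' (x, y)) * f x
      map_add' := by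
        intro f f'
        funext y
        simp only [Pi.add_apply, mul_add, Finset.sum_add_distrib]
      map_smul' := by
        intro a f
        funext y
        simp only [Pi.smul_apply, smul_eq_mul, RingHom.id_apply, Finset.mul_sum]
        refine Finset.sum_congr rfl fun x _ => ?_
        ring }
  map_add' := by
    intro c c'
    refine LinearMap.ext fun f => funext fun y => ?_
    simp only [LinearMap.coe_mk, AddHom.coe_mk, LinearMap.add_apply, Pi.add_apply, add_mul,
      Finset.sum_add_distrib]
  map_smul' := by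
    intro a c
    refine LinearMap.ext fun f => funext fun y => ?_
    simp only [LinearMap.coe_mk, AddHom.coe_mk, LinearMap.smul_apply, Pi.smul_apply, smul_eq_mul,
      RingHom.id_apply, Finset.mul_sum, mul_assoc]

theorem Phi_apply (K : Type*) [Field K] (G : Type*) [Group G] (Ω₁ Ω₂ : Type*) [Fintype Ω₁]
    [MulAction G Ω₁] [MulAction G Ω₂] (c : MulAction.orbitRel.Quotient G (Ω₁ × Ω₂) → K)
    (f : Ω₁ → K) (y : Ω₂) :
    Phi K G Ω₁ Ω₂ c f y = ∑ x, c (Quotient.mk'' (x, y)) * f x := rfl

theorem Phi_injective (K : Type*) [Field K] (G : Type*) [Group G] (Ω₁ Ω₂ : Type*) [Fintype Ω₁]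
    [MulAction G Ω₁] [MulAction G Ω₂] : Function.Injective (Phi K G Ω₁ Ω₂) := by
  classical
  rw [← LinearMap.ker_eq_bot, LinearMap.ker_eq_bot']
  intro c hc
  funext q
  induction q using Quotient.inductionOn' with
  | h xy =>
    obtain ⟨x, y⟩ := xy
    have h1 := congrFun (congrArg (fun T : (Ω₁ → K) →ₗ[K] (Ω₂ → K) =>
      T (fun j => if x = j then 1 else 0)) hc) y
    simp only [Phi_apply, LinearMap.zero_apply, Pi.zero_apply] at h1
    rw [Finset.sum_eq_single x] at h1
    · simpa using h1
    · intro b _ hb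
      simp [Ne.symm hb]
    · intro h
      exact absurd (Finset.mem_univ x) h

theorem Phi_range (K : Type*) [Field K] (G : Type*) [Group G] (Ω₁ Ω₂ : Type*) [Fintype Ω₁]
    [MulAction G Ω₁] [MulAction G Ω₂] :
    LinearMap.range (Phi K G Ω₁ Ω₂) =
      ((Cfsg.permRep K G Ω₁).linHom (Cfsg.permRep K G Ω₂)).invariants := by
  classical
  apply le_antisymm
  · rintro _ ⟨c, rfl⟩
    rw [Representation.mem_invariants]
    intro g
    rw [Representation.linHom_apply]
    refine LinearMap.ext fun f => funext fun y => ?_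
    show Phi K G Ω₁ Ω₂ c (Cfsg.permRep K G Ω₁ g⁻¹ f) (g⁻¹ • y) = Phi K G Ω₁ Ω₂ c f y
    rw [Phi_apply, Phi_apply]
    refine Fintype.sum_equiv (MulAction.toPerm g⁻¹⁻¹) _ _ (fun x => ?_)
    show c (Quotient.mk'' (x, g⁻¹ • y)) * f (g⁻¹⁻¹ • x) =
      c (Quotient.mk'' (g⁻¹⁻¹ • x, y)) * f (g⁻¹⁻¹ • x)
    congr 2
    apply Quotient.sound'
    exact ⟨g⁻¹, by simp [Prod.smul_mk]⟩
  · intro T hT
    rw [Representation.mem_invariants] at hT
    have hm : ∀ (g : G) (x : Ω₁) (y : Ω₂),
        T (fun j => if g⁻¹ • x = j then 1 else 0) (g⁻¹ • y) =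
          T (fun j => if x = j then 1 else 0) y := by
      intro g x y
      have h0 := hT g
      rw [Representation.linHom_apply] at h0
      have h3 : T ((Cfsg.permRep K G Ω₁ g⁻¹) (fun j => if x = j then 1 else 0)) (g⁻¹ • y) =
          T (fun j => if x = j then 1 else 0) y :=
        congrFun (congrArg (fun S : (Ω₁ → K) →ₗ[K] (Ω₂ → K) =>
          S (fun j => if x = j then 1 else 0)) h0) y
      have h2 : (Cfsg.permRep K G Ω₁ g⁻¹) (fun j => if x = j then 1 else 0) =
          (fun j => if g⁻¹ • x = j then (1 : K) else 0) := by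
        funext z
        show (if x = g⁻¹⁻¹ • z then (1 : K) else 0) = if g⁻¹ • x = z then 1 else 0
        rw [inv_inv]
        by_cases h : x = g • z
        · rw [if_pos h, if_pos (by rw [h, inv_smul_smul])]
        · rw [if_neg h, if_neg (fun h' => h (by rw [← h', smul_inv_smul]))]
      rw [h2] at h3
      exact h3
    refine ⟨Quotient.lift (fun xy : Ω₁ × Ω₂ => T (fun j => if xy.1 = j then 1 else 0) xy.2) ?_,
      ?_⟩
    · intro a b hrel
      have hrel' : a ∈ MulAction.orbit G b := hrel
      obtain ⟨g, hg⟩ := hrel'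
      obtain ⟨x, y⟩ := a
      obtain ⟨x', y'⟩ := b
      have hx : g • x' = x := congrArg Prod.fst hg
      have hy : g • y' = y := congrArg Prod.snd hg
      show T (fun j => if x = j then 1 else 0) y = T (fun j => if x' = j then 1 else 0) y'
      rw [← hx, ← hy]
      have h5 := hm g⁻¹ x' y'
      rw [inv_inv] at h5
      exact h5
    · refine LinearMap.ext fun f => funext fun y => ?_
      rw [Phi_apply]
      conv_rhs => rw [LinearMap.pi_apply_eq_sum_univ T f]
      rw [Finset.sum_apply]
      refine Finset.sum_congr rfl fun x _ => ?_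
      show T (fun j => if x = j then 1 else 0) y * f x =
        (f x • T (fun j => if x = j then 1 else 0)) y
      rw [Pi.smul_apply, smul_eq_mul, mul_comm]

/-- The equivariant linear maps between the permutation modules of two finite `G`-sets form a space whose dimension is the number of `G`-orbits on the product of the two sets. -/
theorem result {G : Type*} [Group G] {K : Type*} [Field K] {Ω₁ Ω₂ : Type*} [Fintype Ω₁] [Fintype Ω₂] [MulAction G Ω₁] [MulAction G Ω₂] : Module.finrank K ((Cfsg.permRep K G Ω₁).linHom (Cfsg.permRep K G Ω₂)).invariants = Nat.card (MulAction.orbitRel.Quotient G (Ω₁ × Ω₂)) := by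
  classical
  have : Fintype (MulAction.orbitRel.Quotient G (Ω₁ × Ω₂)) := Fintype.ofFinite _
  rw [← Phi_range, LinearMap.finrank_range_of_inj (Phi_injective K G Ω₁ Ω₂),
    Module.finrank_fintype_fun_eq_card, Nat.card_eq_fintype_card]

end Cfsg.Agent.S0668
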