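import Cfsg.Statements.S0669
-- import your own Cfsg.Agent.* helpers here

set_option autoImplicit false
open Cfsg

namespace Cfsg.Agent.S0669

/-- The rank of a transitive action: orbits on ordered pairs correspond to orbits of a point stabiliser. -/
theorem result {G : Type*} [Group G] {Ω : Type*} [Finite Ω] [MulAction G Ω] [MulAction.IsPretransitive G Ω] (a : Ω) : Nat.card (MulAction.orbitRel.Quotient G (Ω × Ω)) = Nat.card (MulAction.orbitRel.Quotient (MulAction.stabilizer G a) Ω) := by
  symm
  have hrel : ∀ b b' : Ω, (MulAction.orbitRel (MulAction.stabilizer G a) Ω) b b' →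
      (MulAction.orbitRel G (Ω × Ω)) (a, b) (a, b') := by
    intro b b' h
    rw [MulAction.orbitRel_apply] at h ⊢
    obtain ⟨g, hg⟩ := h
    refine ⟨(g : G), ?_⟩
    have hga : (g : G) • a = a := g.2
    have hgb : (g : G) • b' = b := hg
    show ((g : G) • a, (g : G) • b') = (a, b)
    rw [hga, hgb]
  apply Nat.card_eq_of_bijective (Quotient.map' (fun b => (a, b)) hrel)
  constructor
  · intro q q' hqq
    induction q using Quotient.inductionOn' with
    | h b =>
    induction q' using Quotient.inductionOn' with
    | h b' =>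
    rw [Quotient.map'_mk'', Quotient.map'_mk'', Quotient.eq''] at hqq
    rw [Quotient.eq'']
    rw [MulAction.orbitRel_apply] at hqq ⊢
    obtain ⟨g, hg⟩ := hqq
    have hg' : (g • a, g • b') = (a, b) := hg
    rw [Prod.mk.injEq] at hg'
    exact ⟨⟨g, hg'.1⟩, hg'.2⟩
  · intro q
    induction q using Quotient.inductionOn' with
    | h xy =>
    obtain ⟨x, y⟩ := xy
    obtain ⟨g, hg⟩ := MulAction.exists_smul_eq G x a
    refine ⟨Quotient.mk'' (g • y), ?_⟩
    rw [Quotient.map'_mk'', Quotient.eq'', MulAction.orbitRel_apply]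
    refine ⟨g, ?_⟩
    show (g • x, g • y) = (a, g • y)
    rw [hg]

end Cfsg.Agent.S0669
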