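import Cfsg.Statements.S0671
-- import your own Cfsg.Agent.* helpers here
import Mathlib
import Cfsg.Agent.Helper5.PermMod

set_option autoImplicit false
open Cfsg

namespace Cfsg.Agent.S0671

open Cfsg.Agent.Helper5 in
theorem main {G : Type*} [Group G] [Finite G] {K : Type*} [Field K] {p f : ℕ} [Fact p.Prime]
    [CharP K p] {Ω : Type*} [Fintype Ω] [MulAction G Ω] [MulAction.IsPretransitive G Ω]
    (hf : 1 ≤ f) (hcard : Fintype.card Ω = p ^ f)
    (h : ∀ W W' : Subrepresentation (Cfsg.permRep K G Ω),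
      (Cfsg.permConstants K G Ω).toSubmodule ≤ W.toSubmodule →
      W.toSubmodule < W'.toSubmodule →
      W'.toSubmodule ≤ (Cfsg.permSumZero K G Ω).toSubmodule →
      ∃ g : G, ∃ v ∈ W'.toSubmodule, Cfsg.permRep K G Ω g v - v ∉ W.toSubmodule) :
    MulAction.IsMultiplyPretransitive G Ω 2 := by
  classical
  rw [MulAction.is_two_pretransitive_iff]
  intro a b c d hab hcd
  by_contra hno
  let Δ : Ω → Ω → Prop := fun x y => ∃ g : G, g • a = x ∧ g • b = y
  have hΔinv : ∀ (g : G) (x y : Ω), Δ (g • x) (g • y) ↔ Δ x y := by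
    intro g x y
    constructor
    · rintro ⟨k, hk1, hk2⟩
      exact ⟨g⁻¹ * k, by rw [mul_smul, hk1, inv_smul_smul], by rw [mul_smul, hk2, inv_smul_smul]⟩
    · rintro ⟨k, hk1, hk2⟩
      exact ⟨g * k, by rw [mul_smul, hk1], by rw [mul_smul, hk2]⟩
  have hΔab : Δ a b := ⟨1, one_smul _ _, one_smul _ _⟩
  have hΔcd : ¬ Δ c d := hno
  let φ : (Ω → K) →ₗ[K] (Ω → K) :=
    { toFun := fun f x => ∑ y, if Δ x y then f y else 0
      map_add' := by
        intro f₁ f₂
        funext x
        simp only [Pi.add_apply]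
        rw [← Finset.sum_add_distrib]
        apply Finset.sum_congr rfl
        intro y _
        split_ifs <;> simp
      map_smul' := by
        intro c f
        funext x
        simp only [Pi.smul_apply, smul_eq_mul, RingHom.id_apply]
        rw [Finset.mul_sum]
        apply Finset.sum_congr rfl
        intro y _
        split_ifs <;> simp }
  have hφ_apply : ∀ (f : Ω → K) (x : Ω), φ f x = ∑ y, if Δ x y then f y else 0 := fun _ _ => rfl
  have hφeq : ∀ (g : G) (f : Ω → K),
      φ (Cfsg.permRep K G Ω g f) = Cfsg.permRep K G Ω g (φ f) := by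
    intro g f
    funext x
    rw [hφ_apply, permRep_apply, hφ_apply]
    apply Fintype.sum_equiv (MulAction.toPerm g⁻¹)
    intro y
    simp only [MulAction.toPerm_apply, permRep_apply]
    have h1 := hΔinv g⁻¹ x y
    simp only [h1]
  have hne : Nonempty Ω := ⟨a⟩
  let lam : K := φ (fun _ => 1) a
  have hlam : φ (fun _ => 1) = fun _ => lam := by
    funext x
    obtain ⟨g, hg⟩ := MulAction.exists_smul_eq G x a
    show φ (fun _ => 1) x = φ (fun _ => 1) a
    rw [hφ_apply, hφ_apply]
    apply Fintype.sum_equiv (MulAction.toPerm g)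
    intro y
    simp only [MulAction.toPerm_apply]
    have h1 := hΔinv g x y
    rw [hg] at h1
    simp only [h1]
  let ψ : (Ω → K) →ₗ[K] (Ω → K) := φ - lam • LinearMap.id
  have hψ_apply : ∀ (f : Ω → K), ψ f = φ f - lam • f := fun _ => rfl
  have hψeq : ∀ (g : G) (f : Ω → K),
      ψ (Cfsg.permRep K G Ω g f) = Cfsg.permRep K G Ω g (ψ f) := by
    intro g f
    rw [hψ_apply, hψ_apply, hφeq, map_sub, map_smul]
  have hψ1 : ψ (fun _ => 1) = 0 := by
    rw [hψ_apply, hlam]
    funext x
    simp
  have hφs : ∀ x y : Ω, φ (Pi.single y 1) x = if Δ x y then 1 else 0 := by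
    intro x y
    rw [hφ_apply, Finset.sum_eq_single y]
    · simp
    · intro z _ hz
      simp [Pi.single_apply, hz]
    · intro hh
      exact absurd (Finset.mem_univ _) hh
  have hψs : ∀ x y : Ω, x ≠ y → ψ (Pi.single y 1) x = if Δ x y then 1 else 0 := by
    intro x y hxy
    rw [hψ_apply]
    simp [hφs, Pi.single_apply, hxy]
  -- subrepresentations
  have hCS : (Cfsg.permConstants K G Ω).toSubmodule ≤ (Cfsg.permSumZero K G Ω).toSubmodule := by
    rw [show (Cfsg.permConstants K G Ω).toSubmodule = Submodule.span K {fun _ => 1} from rfl,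
      Submodule.span_singleton_le_iff_mem]
    show ∑ _x : Ω, (1 : K) = 0
    rw [Finset.sum_const, Finset.card_univ, hcard, nsmul_eq_mul, mul_one, Nat.cast_pow,
      CharP.cast_eq_zero K p, zero_pow (by omega)]
  have hIne : (rangeSub ψ hψeq).toSubmodule ≠ ⊤ := by
    intro htop
    have hsurj : Function.Surjective ψ := LinearMap.range_eq_top.mp htop
    have hinj : Function.Injective ψ := LinearMap.injective_iff_surjective.mpr hsurj
    have h1 : (fun _ : Ω => (1 : K)) = 0 := hinj (by rw [hψ1, map_zero])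
    have h2 := congrFun h1 a
    simp at h2
  have hIS := le_sumZero_of_ne_top hcard (rangeSub ψ hψeq) hIne
  have hW'S : ((rangeSub ψ hψeq) ⊔ (Cfsg.permConstants K G Ω)).toSubmodule ≤
      (Cfsg.permSumZero K G Ω).toSubmodule := sup_le hIS hCS
  have hWW' : ((mapSub ψ hψeq (Cfsg.permSumZero K G Ω)) ⊔ (Cfsg.permConstants K G Ω)).toSubmodule ≤
      ((rangeSub ψ hψeq) ⊔ (Cfsg.permConstants K G Ω)).toSubmodule :=
    sup_le_sup_right (LinearMap.map_le_range) _
  have hCW : (Cfsg.permConstants K G Ω).toSubmodule ≤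
      ((mapSub ψ hψeq (Cfsg.permSumZero K G Ω)) ⊔ (Cfsg.permConstants K G Ω)).toSubmodule :=
    le_sup_right
  have htriv : ∀ (g : G), ∀ v ∈ ((rangeSub ψ hψeq) ⊔ (Cfsg.permConstants K G Ω)).toSubmodule,
      Cfsg.permRep K G Ω g v - v ∈
        ((mapSub ψ hψeq (Cfsg.permSumZero K G Ω)) ⊔ (Cfsg.permConstants K G Ω)).toSubmodule := by
    intro g v hv
    obtain ⟨y, hy, z, hz, rfl⟩ := Submodule.mem_sup.mp hv
    obtain ⟨m, rfl⟩ := hy
    obtain ⟨c, rfl⟩ := Submodule.mem_span_singleton.mp hz
    have e : Cfsg.permRep K G Ω g (ψ m + c • fun _ => 1) - (ψ m + c • fun _ => 1)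
        = ψ (Cfsg.permRep K G Ω g m - m) := by
      rw [map_add, map_sub, hψeq]
      have h1 : Cfsg.permRep K G Ω g (c • fun _ => (1 : K)) = c • fun _ => (1 : K) := by
        funext x
        rfl
      rw [h1]
      abel
    rw [e]
    apply Submodule.mem_sup_left
    refine ⟨Cfsg.permRep K G Ω g m - m, ?_, rfl⟩
    show ∑ x, (Cfsg.permRep K G Ω g m - m) x = 0
    simp only [Pi.sub_apply, Finset.sum_sub_distrib]
    rw [sub_eq_zero]
    exact Fintype.sum_equiv (MulAction.toPerm g⁻¹) _ _ (fun x => rfl)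
  have hWeq : ((rangeSub ψ hψeq) ⊔ (Cfsg.permConstants K G Ω)).toSubmodule ≤
      ((mapSub ψ hψeq (Cfsg.permSumZero K G Ω)) ⊔ (Cfsg.permConstants K G Ω)).toSubmodule := by
    by_contra hnle
    have hlt := lt_of_le_not_ge hWW' hnle
    obtain ⟨g, v, hv, hgv⟩ := h _ _ hCW hlt hW'S
    exact hgv (htriv g v hv)
  have hrange : ∀ m : Ω → K, ψ m ∈
      ((mapSub ψ hψeq (Cfsg.permSumZero K G Ω)) ⊔ (Cfsg.permConstants K G Ω)).toSubmodule :=
    fun m => hWeq (Submodule.mem_sup_left ⟨m, rfl⟩)
  by_cases hI₀ : (mapSub ψ hψeq (Cfsg.permSumZero K G Ω)).toSubmodule = ⊥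
  · -- ψ vanishes on sum-zero functions and has constant values
    have hψS : ∀ s ∈ (Cfsg.permSumZero K G Ω).toSubmodule, ψ s = 0 := by
      intro s hs
      have h1 : ψ s ∈ (mapSub ψ hψeq (Cfsg.permSumZero K G Ω)).toSubmodule := ⟨s, hs, rfl⟩
      rw [hI₀] at h1
      exact (Submodule.mem_bot K).mp h1
    have hdiff : ψ (Pi.single b 1) = ψ (Pi.single d 1) := by
      have h1 := hψS (Pi.single b 1 - Pi.single d 1) (by
        show ∑ x, (Pi.single b (1 : K) - Pi.single d (1 : K) : Ω → K) x = 0
        simp [Finset.sum_sub_distrib])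
      rwa [map_sub, sub_eq_zero] at h1
    have hconst : ∃ κ : K, ψ (Pi.single b 1) = κ • fun _ => (1 : K) := by
      have h1 := hrange (Pi.single b 1)
      rw [Subrepresentation.toSubmodule_sup, hI₀, bot_sup_eq] at h1
      obtain ⟨κ, hκ⟩ := Submodule.mem_span_singleton.mp h1
      exact ⟨κ, hκ.symm⟩
    obtain ⟨κ, hκ⟩ := hconst
    have h1 : ψ (Pi.single b 1) a = 1 := by
      rw [hψs a b hab]
      exact if_pos hΔab
    have h2 : ψ (Pi.single d 1) c = 0 := by
      rw [hψs c d hcd]
      exact if_neg hΔcd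
    rw [hκ] at h1
    rw [← hdiff, hκ] at h2
    simp only [Pi.smul_apply, smul_eq_mul, mul_one] at h1 h2
    rw [h1] at h2
    exact one_ne_zero h2
  · have hC := const_mem_of_ne_bot hcard (mapSub ψ hψeq (Cfsg.permSumZero K G Ω)) hI₀
    have hCle : (Cfsg.permConstants K G Ω).toSubmodule ≤
        (mapSub ψ hψeq (Cfsg.permSumZero K G Ω)).toSubmodule := by
      rw [show (Cfsg.permConstants K G Ω).toSubmodule = Submodule.span K {fun _ => 1} from rfl,
        Submodule.span_singleton_le_iff_mem]
      exact hC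
    have hrange' : ∀ m : Ω → K, ∃ s ∈ (Cfsg.permSumZero K G Ω).toSubmodule, ψ s = ψ m := by
      intro m
      have h1 := hrange m
      rw [Subrepresentation.toSubmodule_sup, sup_eq_left.mpr hCle] at h1
      exact h1
    by_cases hN : (kerSub ψ hψeq).toSubmodule = ⊤
    · have h1 : ψ (Pi.single b 1) = 0 := by
        have : (Pi.single b 1 : Ω → K) ∈ (kerSub ψ hψeq).toSubmodule := by rw [hN]; trivial
        exact LinearMap.mem_ker.mp this
      have h2 : ψ (Pi.single b 1) a = 1 := by
        rw [hψs a b hab]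
        exact if_pos hΔab
      rw [h1] at h2
      simp at h2
    · have hNS := le_sumZero_of_ne_top hcard (kerSub ψ hψeq) hN
      obtain ⟨s, hs, hsm⟩ := hrange' (Pi.single a 1)
      have h1 : (Pi.single a 1 - s : Ω → K) ∈ (kerSub ψ hψeq).toSubmodule := by
        show (Pi.single a 1 - s : Ω → K) ∈ LinearMap.ker ψ
        rw [LinearMap.mem_ker, map_sub, hsm, sub_self]
      have h2 := (Cfsg.permSumZero K G Ω).toSubmodule.add_mem (hNS h1) hs
      rw [sub_add_cancel] at h2
      have h3 : ∑ x, (Pi.single a (1 : K) : Ω → K) x = 0 := h2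
      simp at h3

/-- If the heart of the permutation module in characteristic `p` of a transitive action of degree `p ^ f` has no trivial composition factor, the action is doubly transitive. The hypothesis is phrased without composition series: no invariant subspaces `W < W'` between the constants and the sum-zero functions with trivial action on the quotient. -/
theorem result {G : Type*} [Group G] [Finite G] {K : Type*} [Field K] {p f : ℕ} [Fact p.Prime] [CharP K p] {Ω : Type*} [Fintype Ω] [MulAction G Ω] [MulAction.IsPretransitive G Ω] (hf : 1 ≤ f) (hcard : Fintype.card Ω = p ^ f) (h : ∀ W W' : Subrepresentation (Cfsg.permRep K G Ω), (Cfsg.permConstants K G Ω).toSubmodule ≤ W.toSubmodule → W.toSubmodule < W'.toSubmodule → W'.toSubmodule ≤ (Cfsg.permSumZero K G Ω).toSubmodule → ∃ g : G, ∃ v ∈ W'.toSubmodule, Cfsg.permRep K G Ω g v - v ∉ W.toSubmodule) : MulAction.IsMultiplyPretransitive G Ω 2 := by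
  exact main hf hcard h

end Cfsg.Agent.S0671
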