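import Cfsg.Statements.S0672
-- import your own Cfsg.Agent.* helpers here
import Mathlib

set_option autoImplicit false
open Cfsg

namespace Cfsg.Agent.S0672

open scoped Pointwise

universe u v w

/-- The linear map with kernel `m`. -/
noncomputable def kerMap {K : Type v} [Field K] {Ω : Type w} [Fintype Ω] [DecidableEq Ω]
    (m : Ω → Set.powersetCard Ω 2 → K) : (Ω → K) →ₗ[K] (Set.powersetCard Ω 2 → K) where
  toFun φ s := ∑ a, m a s * φ a
  map_add' φ ψ := by
    funext s
    simp [mul_add, Finset.sum_add_distrib]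
  map_smul' c φ := by
    funext s
    simp [Finset.mul_sum, mul_left_comm]

theorem kerMap_equiv {G : Type u} [Group G] {K : Type v} [Field K] {Ω : Type w} [Fintype Ω]
    [DecidableEq Ω] [MulAction G Ω] (m : Ω → Set.powersetCard Ω 2 → K)
    (hm : ∀ (g : G) a s, m (g • a) (g • s) = m a s) (g : G) (φ : Ω → K) :
    kerMap m (Cfsg.permRep K G Ω g φ)
      = Cfsg.permRep K G (Set.powersetCard Ω 2) g (kerMap m φ) := by
  funext s
  change ∑ a, m a s * φ (g⁻¹ • a) = ∑ a, m a (g⁻¹ • s) * φ a
  refine Fintype.sum_equiv (MulAction.toPerm g⁻¹) _ _ (fun a => ?_)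
  change m a s * φ (g⁻¹ • a) = m (g⁻¹ • a) (g⁻¹ • s) * φ (g⁻¹ • a)
  rw [hm]

theorem keyL {G : Type u} [Group G] {K : Type v} [Field K] {Ω : Type w} [Fintype Ω]
    [DecidableEq Ω] [MulAction G Ω]
    (h : ∀ f : Representation.IntertwiningMap (Cfsg.permSumZero K G Ω).toRepresentation
      (Cfsg.permRep K G (Set.powersetCard Ω 2)),
      (∀ v : (Cfsg.permSumZero K G Ω).toSubmodule,
        (v : Ω → K) ∈ (Cfsg.permConstants K G Ω).toSubmodule → f v = 0) → f = 0)
    (m : Ω → Set.powersetCard Ω 2 → K)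
    (hm : ∀ (g : G) a s, m (g • a) (g • s) = m a s) (hsum : ∀ s, ∑ a, m a s = 0)
    (φ : Ω → K) (hφ : ∑ a, φ a = 0) (s : Set.powersetCard Ω 2) :
    ∑ a, m a s * φ a = 0 := by
  let f : Representation.IntertwiningMap (Cfsg.permSumZero K G Ω).toRepresentation
      (Cfsg.permRep K G (Set.powersetCard Ω 2)) :=
    ((kerMap m).comp (Cfsg.permSumZero K G Ω).toSubmodule.subtype).intertwiningMap_of_isIntertwiningMap
      _ _ (fun g v => kerMap_equiv m hm g v)
  have hf : f = 0 := by
    apply h
    intro v hv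
    change (v : Ω → K) ∈ Submodule.span K {fun _ => (1:K)} at hv
    rw [Submodule.mem_span_singleton] at hv
    obtain ⟨c, hc⟩ := hv
    change kerMap m (v : Ω → K) = 0
    rw [← hc]
    funext s
    change ∑ a, m a s * (c • (fun _ => (1:K)) : Ω → K) a = 0
    simp [← Finset.sum_mul, hsum]
  have := congrArg (fun f : Representation.IntertwiningMap
    (Cfsg.permSumZero K G Ω).toRepresentation
      (Cfsg.permRep K G (Set.powersetCard Ω 2)) => f ⟨φ, hφ⟩ s) hf
  exact this

theorem pairAux {G : Type u} [Group G] {K : Type v} [Field K] {Ω : Type w} [Fintype Ω]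
    [DecidableEq Ω] [MulAction G Ω]
    (h2 : MulAction.IsMultiplyPretransitive G Ω 2) (h2K : (2 : K) ≠ 0)
    (KL : ∀ (m : Ω → Set.powersetCard Ω 2 → K),
      (∀ (g : G) a s, m (g • a) (g • s) = m a s) → (∀ s, ∑ a, m a s = 0) →
      ∀ (φ : Ω → K), ∑ a, φ a = 0 → ∀ s, ∑ a, m a s * φ a = 0)
    (s₀ : Set.powersetCard Ω 2) (x y : Ω) (hx : x ∉ (s₀ : Finset Ω))
    (hy : y ∉ (s₀ : Finset Ω)) :
    ∃ g : G, g • x = y ∧ g • s₀ = s₀ := by
  classical
  by_contra hcon
  have hpt : MulAction.IsPretransitive G (Set.powersetCard Ω 2) :=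
    Set.powersetCard.isPretransitive_of_isMultiplyPretransitive _ h2
  obtain ⟨R, hR⟩ : ∃ R : Ω → Set.powersetCard Ω 2 → Prop,
      ∀ a s, R a s ↔ ∃ g : G, g • x = a ∧ g • s₀ = s := ⟨_, fun _ _ => Iff.rfl⟩
  have hRinv : ∀ (g : G) a s, R (g • a) (g • s) ↔ R a s := by
    intro g a s
    rw [hR, hR]
    constructor
    · rintro ⟨g', h1, h2⟩
      refine ⟨g⁻¹ * g', ?_, ?_⟩
      · rw [mul_smul, h1, inv_smul_smul]
      · rw [mul_smul, h2, inv_smul_smul]
    · rintro ⟨g', h1, h2⟩
      refine ⟨g * g', ?_, ?_⟩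
      · rw [mul_smul, h1]
      · rw [mul_smul, h2]
  obtain ⟨k, hk⟩ : ∃ k : K, k = ∑ a, if R a s₀ then (1:K) else 0 := ⟨_, rfl⟩
  have hksum : ∀ s, ∑ a, (if R a s then (1:K) else 0) = k := by
    intro s
    obtain ⟨g₀, hg₀⟩ := MulAction.exists_smul_eq G s s₀
    rw [hk]
    refine Fintype.sum_equiv (MulAction.toPerm g₀) _ _ (fun a => ?_)
    change (if R a s then (1:K) else 0) = if R (g₀ • a) s₀ then (1:K) else 0
    have : R (g₀ • a) s₀ ↔ R a s := by
      rw [← hg₀]
      exact hRinv g₀ a s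
    simp only [this]
  obtain ⟨m, hm⟩ : ∃ m : Ω → Set.powersetCard Ω 2 → K, ∀ a s, m a s =
      k * (if a ∈ (s : Finset Ω) then 1 else 0) - 2 * (if R a s then 1 else 0) :=
    ⟨_, fun _ _ => rfl⟩
  have hminv : ∀ (g : G) a s, m (g • a) (g • s) = m a s := by
    intro g a s
    rw [hm, hm]
    have h1 : g • a ∈ ((g • s : Set.powersetCard Ω 2) : Finset Ω) ↔ a ∈ (s : Finset Ω) := by
      change g • a ∈ g • (s : Finset Ω) ↔ _
      exact Finset.smul_mem_smul_finset_iff g
    simp only [h1, hRinv]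
  have hmsum : ∀ s, ∑ a, m a s = 0 := by
    intro s
    simp only [hm]
    rw [Finset.sum_sub_distrib, ← Finset.mul_sum, ← Finset.mul_sum, hksum s]
    have : ∑ a, (if a ∈ (s : Finset Ω) then (1:K) else 0) = 2 := by
      rw [Finset.sum_ite_mem, Finset.univ_inter]
      simp [Set.powersetCard.card_eq s]
    rw [this]
    ring
  have hφ : ∑ a, (Pi.single x (1:K) - Pi.single y (1:K) : Ω → K) a = 0 := by
    simp [Finset.sum_sub_distrib]
  have key := KL m hminv hmsum _ hφ s₀
  have e1 : ∑ a, m a s₀ * (Pi.single x (1:K) - Pi.single y (1:K) : Ω → K) a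
      = m x s₀ - m y s₀ := by
    simp [mul_sub, Finset.sum_sub_distrib, Pi.single_apply]
  rw [e1, hm, hm, if_neg hx, if_neg hy] at key
  have hRx : R x s₀ := (hR _ _).2 ⟨1, one_smul _ _, one_smul _ _⟩
  have hRy : ¬ R y s₀ := fun hh => hcon ((hR _ _).1 hh)
  rw [if_pos hRx, if_neg hRy] at key
  apply h2K
  linear_combination (-1:K) * key

/-- Let a finite group act faithfully and doubly transitively with point stabilisers of even order, and let `K` have characteristic `p` dividing the degree. If the heart of the permutation module admits no non-zero equivariant map to the permutation module on unordered pairs (phrased: every intertwining map from the sum-zero functions vanishing on the constants is zero), the action is triply transitive. -/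
theorem result {G : Type*} [Group G] [Finite G] {K : Type*} [Field K] {p : ℕ} [Fact p.Prime] [CharP K p] {Ω : Type*} [Fintype Ω] [DecidableEq Ω] [MulAction G Ω] [FaithfulSMul G Ω] (h2 : MulAction.IsMultiplyPretransitive G Ω 2) (hp : p ∣ Fintype.card Ω) (heven : ∀ a : Ω, Even (Nat.card (MulAction.stabilizer G a))) (h : ∀ f : Representation.IntertwiningMap (Cfsg.permSumZero K G Ω).toRepresentation (Cfsg.permRep K G (Set.powersetCard Ω 2)), (∀ v : (Cfsg.permSumZero K G Ω).toSubmodule, (v : Ω → K) ∈ (Cfsg.permConstants K G Ω).toSubmodule → f v = 0) → f = 0) : MulAction.IsMultiplyPretransitive G Ω 3 := by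
  classical
  have hp' : ((p : ℕ) : K) = 0 := CharP.cast_eq_zero K p
  have T2 : ∀ {a b c d : Ω}, a ≠ b → c ≠ d → ∃ g : G, g • a = c ∧ g • b = d :=
    MulAction.is_two_pretransitive_iff.1 h2
  have KL := keyL h
  constructor
  intro e e'
  have e01 : e 0 ≠ e 1 := fun hh => absurd (e.injective hh) (by decide)
  have e02 : e 0 ≠ e 2 := fun hh => absurd (e.injective hh) (by decide)
  have e12 : e 1 ≠ e 2 := fun hh => absurd (e.injective hh) (by decide)
  have e'01 : e' 0 ≠ e' 1 := fun hh => absurd (e'.injective hh) (by decide)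
  have e'02 : e' 0 ≠ e' 2 := fun hh => absurd (e'.injective hh) (by decide)
  have e'12 : e' 1 ≠ e' 2 := fun hh => absurd (e'.injective hh) (by decide)
  have hpair : ∀ b c : Ω, b ≠ c → ∃ s₀ : Set.powersetCard Ω 2, (s₀ : Finset Ω) = {b, c} :=
    fun b c hbc => ⟨⟨{b, c}, Set.powersetCard.mem_iff.2 (Finset.card_pair hbc)⟩, rfl⟩
  by_cases hp2 : p = 2
  · exfalso
    have h2K : (2:K) = 0 := by
      rw [hp2] at hp'
      exact_mod_cast hp'
    obtain ⟨s₀, hs₀⟩ := hpair (e 1) (e 2) e12
    have hinv : ∀ (g : G) (a : Ω) (s : Set.powersetCard Ω 2),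
        (if g • a ∈ ((g • s : Set.powersetCard Ω 2) : Finset Ω) then (1:K) else 0)
          = if a ∈ (s : Finset Ω) then (1:K) else 0 := by
      intro g a s
      have h1 : g • a ∈ ((g • s : Set.powersetCard Ω 2) : Finset Ω) ↔ a ∈ (s : Finset Ω) := by
        change g • a ∈ g • (s : Finset Ω) ↔ _
        exact Finset.smul_mem_smul_finset_iff g
      simp only [h1]
    have hsum : ∀ s : Set.powersetCard Ω 2,
        ∑ a, (if a ∈ (s : Finset Ω) then (1:K) else 0) = 0 := by
      intro s
      rw [Finset.sum_ite_mem, Finset.univ_inter]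
      simp [Set.powersetCard.card_eq s, h2K]
    have hφ : ∑ a, (Pi.single (e 1) (1:K) - Pi.single (e 0) (1:K) : Ω → K) a = 0 := by
      simp [Finset.sum_sub_distrib]
    have key := KL (fun a s => if a ∈ (s : Finset Ω) then (1:K) else 0) hinv hsum _ hφ s₀
    have e1 : ∑ a, (if a ∈ (s₀ : Finset Ω) then (1:K) else 0)
        * (Pi.single (e 1) (1:K) - Pi.single (e 0) (1:K) : Ω → K) a
        = (if e 1 ∈ (s₀ : Finset Ω) then (1:K) else 0)
          - (if e 0 ∈ (s₀ : Finset Ω) then (1:K) else 0) := by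
      simp [mul_sub, Finset.sum_sub_distrib, Pi.single_apply]
    rw [e1, hs₀, if_pos (by simp), if_neg (by simp [e01, e02])] at key
    simp at key
  · have h2K : (2:K) ≠ 0 := by
      intro hh
      have h3 : ((2:ℕ):K) = 0 := by exact_mod_cast hh
      rw [CharP.cast_eq_zero_iff K p 2] at h3
      exact hp2 ((Nat.prime_dvd_prime_iff_eq (Fact.out) Nat.prime_two).1 h3)
    have A : ∀ b c x y : Ω, b ≠ c → x ≠ b → x ≠ c → y ≠ b → y ≠ c →
        ∃ g : G, g • x = y ∧ ((g • b = b ∧ g • c = c) ∨ (g • b = c ∧ g • c = b)) := by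
      intro b c x y hbc hxb hxc hyb hyc
      obtain ⟨s₀, hs₀⟩ := hpair b c hbc
      obtain ⟨g, hgx, hgs⟩ := pairAux h2 h2K KL s₀ x y (by rw [hs₀]; simp [hxb, hxc])
        (by rw [hs₀]; simp [hyb, hyc])
      refine ⟨g, hgx, ?_⟩
      have hgs' : g • ({b, c} : Finset Ω) = {b, c} := by
        have := congrArg (fun s : Set.powersetCard Ω 2 => (s : Finset Ω)) hgs
        change g • (s₀ : Finset Ω) = (s₀ : Finset Ω) at this
        rwa [hs₀] at this
      have hb : g • b ∈ ({b, c} : Finset Ω) := by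
        rw [← hgs']
        exact Finset.smul_mem_smul_finset (by simp)
      have hc : g • c ∈ ({b, c} : Finset Ω) := by
        rw [← hgs']
        exact Finset.smul_mem_smul_finset (by simp)
      rw [Finset.mem_insert, Finset.mem_singleton] at hb hc
      have hne : g • b ≠ g • c := fun hh => hbc (MulAction.injective g hh)
      rcases hb with hb | hb <;> rcases hc with hc | hc
      · exact absurd (hb.trans hc.symm) hne
      · exact Or.inl ⟨hb, hc⟩
      · exact Or.inr ⟨hb, hc⟩
      · exact absurd (hb.trans hc.symm) hne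
    have B : ∀ x b c x' b' c' : Ω, x ≠ b → x ≠ c → b ≠ c → x' ≠ b' → x' ≠ c' → b' ≠ c' →
        ∃ g : G, g • x = x' ∧ ((g • b = b' ∧ g • c = c') ∨ (g • b = c' ∧ g • c = b')) := by
      intro x b c x' b' c' hxb hxc hbc hxb' hxc' hbc'
      obtain ⟨g₁, hg1b, hg1c⟩ := T2 hbc hbc'
      have h1 : g₁ • x ≠ b' := by
        rw [← hg1b]
        exact fun hh => hxb (MulAction.injective g₁ hh)
      have h2' : g₁ • x ≠ c' := by
        rw [← hg1c]
        exact fun hh => hxc (MulAction.injective g₁ hh)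
      obtain ⟨g₂, hg2x, hg2⟩ := A b' c' (g₁ • x) x' hbc' h1 h2' hxb' hxc'
      refine ⟨g₂ * g₁, by rw [mul_smul, hg2x], ?_⟩
      rw [mul_smul, mul_smul, hg1b, hg1c]
      exact hg2
    have C : ∀ x' b' c' : Ω, x' ≠ b' → x' ≠ c' → b' ≠ c' →
        ∃ u : G, u • x' = x' ∧ u • b' = c' ∧ u • c' = b' := by
      intro x' b' c' hxb' hxc' hbc'
      obtain ⟨t, ht⟩ := exists_prime_orderOf_dvd_card' (G := MulAction.stabilizer G x') 2
        (heven x').two_dvd
      have ht1 : (t : G) ≠ 1 := by
        intro hh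
        have : t = 1 := Subtype.ext hh
        rw [this, orderOf_one] at ht
        exact absurd ht (by norm_num)
      have ht2 : (t : G) * (t : G) = 1 := by
        have := pow_orderOf_eq_one t
        rw [ht, pow_two] at this
        exact congrArg Subtype.val this
      have htx : (t : G) • x' = x' := t.2
      obtain ⟨β, hβ⟩ : ∃ β : Ω, (t : G) • β ≠ β := by
        by_contra hh
        push Not at hh
        exact ht1 (FaithfulSMul.eq_of_smul_eq_smul (α := Ω) (fun a => by rw [hh a, one_smul]))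
      have htγ : (t : G) • ((t : G) • β) = β := by rw [← mul_smul, ht2, one_smul]
      have hβx : x' ≠ β := by
        intro hh
        apply hβ
        rw [← hh]
        exact htx
      have hγx : x' ≠ (t : G) • β := by
        intro hh
        apply hβx
        have : (t : G) • x' = (t : G) • ((t : G) • β) := congrArg (fun z => (t : G) • z) hh
        rw [htx, htγ] at this
        exact this
      obtain ⟨h', hh'x, hh'⟩ := B x' β ((t : G) • β) x' b' c' hβx hγx (Ne.symm hβ) hxb' hxc' hbc'
      have hix : h'⁻¹ • x' = x' := by rw [inv_smul_eq_iff, hh'x]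
      refine ⟨h' * (t : G) * h'⁻¹, ?_, ?_⟩
      · rw [mul_smul, mul_smul, hix, htx, hh'x]
      · rcases hh' with ⟨hb, hc⟩ | ⟨hb, hc⟩
        · have ib : h'⁻¹ • b' = β := by rw [inv_smul_eq_iff, hb]
          have ic : h'⁻¹ • c' = (t : G) • β := by rw [inv_smul_eq_iff, hc]
          constructor
          · rw [mul_smul, mul_smul, ib, hc]
          · rw [mul_smul, mul_smul, ic, htγ, hb]
        · have ib : h'⁻¹ • b' = (t : G) • β := by rw [inv_smul_eq_iff, hc]
          have ic : h'⁻¹ • c' = β := by rw [inv_smul_eq_iff, hb]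
          constructor
          · rw [mul_smul, mul_smul, ib, htγ, hb]
          · rw [mul_smul, mul_smul, ic, hc]
    obtain ⟨g, hgx, hg⟩ := B (e 0) (e 1) (e 2) (e' 0) (e' 1) (e' 2) e01 e02 e12 e'01 e'02 e'12
    rcases hg with ⟨hb, hc⟩ | ⟨hb, hc⟩
    · refine ⟨g, ?_⟩
      ext i
      fin_cases i
      · exact hgx
      · exact hb
      · exact hc
    · obtain ⟨u, hux, hub, huc⟩ := C (e' 0) (e' 1) (e' 2) e'01 e'02 e'12
      refine ⟨u * g, ?_⟩
      ext i
      fin_cases i
      · change (u * g) • e 0 = e' 0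
        rw [mul_smul, hgx, hux]
      · change (u * g) • e 1 = e' 1
        rw [mul_smul, hb, huc]
      · change (u * g) • e 2 = e' 2
        rw [mul_smul, hc, hub]

end Cfsg.Agent.S0672
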