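import Cfsg.Statements.S0674
-- import your own Cfsg.Agent.* helpers here
import Mathlib
import Cfsg.Agent.Helper5.ZModFun2

set_option autoImplicit false
open Cfsg

namespace Cfsg.Agent.S0674

open Cfsg.Agent.Helper5 in
theorem main {α : Type*} [Fintype α] [DecidableEq α] {p : ℕ} [Fact p.Prime]
    (hα : Fintype.card α = p) (G : Subgroup (Equiv.Perm α)) [MulAction.IsPretransitive G α]
    (hG : ¬ Group.IsSolvable G) {K : Type*} [Field K] [CharP K p]
    (W : Subrepresentation (Cfsg.permRep K G α))
    (h₁ : (Cfsg.permConstants K G α).toSubmodule ≤ W.toSubmodule)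
    (h₂ : W.toSubmodule ≤ (Cfsg.permSumZero K G α).toSubmodule) :
    W = Cfsg.permConstants K G α ∨ W = Cfsg.permSumZero K G α := by
  have hp : p.Prime := Fact.out
  have hdvd : p ∣ Nat.card G := by
    obtain ⟨x₀⟩ : Nonempty α := by rw [← Fintype.card_pos_iff, hα]; exact hp.pos
    have h := MulAction.index_stabilizer_of_transitive G x₀
    rw [Nat.card_eq_fintype_card, hα] at h
    rw [← h]
    exact Subgroup.index_dvd_card _
  obtain ⟨t, ht⟩ := exists_prime_orderOf_dvd_card' p hdvd
  have ht' : orderOf (t : Equiv.Perm α) = p := (Subgroup.orderOf_coe t).trans ht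
  obtain ⟨e, he⟩ := exists_equiv_zmod hα (t : Equiv.Perm α) ht'
  let L : (ZMod p → K) →ₗ[K] (α → K) := LinearMap.funLeft K K e
  have hL : ∀ f' : ZMod p → K, L f' = f' ∘ e := fun f' => rfl
  obtain ⟨W', hW'def⟩ : ∃ W' : Submodule K (ZMod p → K), W' = W.toSubmodule.comap L :=
    ⟨_, rfl⟩
  have hmem : ∀ f' : ZMod p → K, f' ∈ W' ↔ f' ∘ e ∈ W.toSubmodule := by
    intro f'; rw [hW'def, Submodule.mem_comap, hL]
  have hmem2 : ∀ f : α → K, f ∈ W.toSubmodule ↔ f ∘ e.symm ∈ W' := by
    intro f
    rw [hmem]
    have : (f ∘ e.symm) ∘ e = f := by funext x; simp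
    rw [this]
  have hshift : ∀ f' ∈ W', (fun j => f' (j - 1)) ∈ W' := by
    intro f' hf'
    rw [hmem] at hf' ⊢
    have h := W.apply_mem_toSubmodule t hf'
    have heq : Cfsg.permRep K G α t (f' ∘ e) = (fun j => f' (j - 1)) ∘ e := by
      funext x
      show f' (e ((t⁻¹ : G) • x)) = f' (e x - 1)
      congr 1
      have h1 := he ((t⁻¹ : G) • x)
      have h2 : (t : Equiv.Perm α) ((t⁻¹ : G) • x) = x := by
        show (t : Equiv.Perm α) ((t : Equiv.Perm α)⁻¹ x) = x
        simp
      rw [h2] at h1
      rw [h1]; ring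
    rw [← heq]; exact h
  obtain ⟨hr, hWeq⟩ := shift_invariant_classification W' hshift
  obtain ⟨r, hrdef⟩ : ∃ r, r = Module.finrank K W' := ⟨_, rfl⟩
  rw [← hrdef] at hr hWeq
  have hone : (fun _ => 1 : ZMod p → K) ∈ W' := by
    rw [hmem]
    exact h₁ (Submodule.mem_span_singleton_self _)
  have hWS : W' ≤ zS p K := by
    intro f' hf'
    rw [hmem] at hf'
    have h := h₂ hf'
    have h' : ∑ x, (f' ∘ e) x = 0 := h
    rw [mem_zS]
    exact (Equiv.sum_comp e f').symm.trans h'
  have hr0 : r ≠ 0 := by
    intro h0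
    rw [hWeq, h0] at hone
    have := zD_pow_zM 0 _ hone
    rw [pow_zero, Module.End.one_apply] at this
    have h1 := congrFun this 0
    exact one_ne_zero h1
  have hrp : r ≠ p := by
    intro h
    rw [h, zM_top] at hWeq
    exact zS_ne_top (top_le_iff.1 (hWeq ▸ hWS))
  by_cases hr1 : r = 1
  · left
    apply Subrepresentation.toSubmodule_injective
    apply le_antisymm _ h₁
    intro f hf
    rw [hmem2, hWeq, hr1] at hf
    obtain ⟨P, hP, hfP⟩ := mem_zM.1 hf
    have hP' : P = Polynomial.C (P.coeff 0) := by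
      apply Polynomial.eq_C_of_degree_le_zero
      rw [Nat.cast_one] at hP
      exact Nat.WithBot.lt_one_iff_le_zero.1 hP
    show f ∈ Submodule.span K {fun _ => (1 : K)}
    rw [Submodule.mem_span_singleton]
    refine ⟨P.coeff 0, funext fun x => ?_⟩
    have := hfP (e x)
    simp only [Function.comp_apply, Equiv.symm_apply_apply] at this
    calc (P.coeff 0 • fun _ => (1 : K)) x = P.coeff 0 := by simp
      _ = (Polynomial.C (P.coeff 0)).eval (ZMod.cast (e x) : K) := by simp
      _ = P.eval (ZMod.cast (e x) : K) := by rw [← hP']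
      _ = f x := this.symm
  by_cases hr2 : r = p - 1
  · right
    apply Subrepresentation.toSubmodule_injective
    apply le_antisymm h₂
    intro f hf
    rw [hmem2, hWeq, hr2, zM_pred_eq_zS, mem_zS]
    have hf' : ∑ x, f x = 0 := hf
    exact (Equiv.sum_comp e.symm f).trans hf'
  · exfalso
    apply hG
    have hinv : ∀ γ : G, ∀ f' ∈ zM p K r, f' ∘ (zrho e G γ) ∈ zM p K r := by
      intro γ f' hf'
      rw [← hWeq] at hf' ⊢
      rw [hmem] at hf' ⊢
      have h := W.apply_mem_toSubmodule γ⁻¹ hf'
      have heq : Cfsg.permRep K G α γ⁻¹ (f' ∘ e) = (f' ∘ (zrho e G γ)) ∘ e := by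
        funext x
        show f' (e ((γ⁻¹⁻¹ : G) • x)) = f' (zrho e G γ (e x))
        rw [zrho_apply, inv_inv, Equiv.symm_apply_apply]
        rfl
      rw [← heq]; exact h
    apply isSolvable_of_affine (K := K) (zrho e G) (zrho_injective e G)
    intro γ
    apply affine_of_invariant (r := r) (by omega) (by omega) (zrho e G γ) (hinv γ)
    intro f' hf'
    have := hinv γ⁻¹ f' hf'
    rwa [map_inv] at this

/-- Let `G` be a non-solvable transitive permutation group of prime degree `p` and `K` a field of characteristic `p`. Then the heart of the permutation module is irreducible: an invariant subspace containing the constants and contained in the sum-zero functions is one or the other. -/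
theorem result {α : Type*} [Fintype α] [DecidableEq α] {p : ℕ} [Fact p.Prime] (hα : Fintype.card α = p) (G : Subgroup (Equiv.Perm α)) [MulAction.IsPretransitive G α] (hG : ¬ Group.IsSolvable G) {K : Type*} [Field K] [CharP K p] (W : Subrepresentation (Cfsg.permRep K G α)) (h₁ : (Cfsg.permConstants K G α).toSubmodule ≤ W.toSubmodule) (h₂ : W.toSubmodule ≤ (Cfsg.permSumZero K G α).toSubmodule) : W = Cfsg.permConstants K G α ∨ W = Cfsg.permSumZero K G α := by
  exact main hα G hG W h₁ h₂

end Cfsg.Agent.S0674
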