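import Cfsg.Statements.S0675
-- import your own Cfsg.Agent.* helpers here
import Mathlib
import Cfsg.Agent.Helper5.ZModFun2
import Cfsg.Agent.S0671
import Cfsg.Agent.S0674

set_option autoImplicit false
open Cfsg

namespace Cfsg.Agent.S0675

open Cfsg.Agent.Helper5 in
theorem main {α : Type*} [Fintype α] [DecidableEq α] (hα : (Fintype.card α).Prime)
    (G : Subgroup (Equiv.Perm α)) [MulAction.IsPretransitive G α] :
    Group.IsSolvable G ∨ MulAction.IsMultiplyPretransitive G α 2 := by
  by_cases hG : Group.IsSolvable G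
  · exact Or.inl hG
  right
  obtain ⟨p, hp⟩ : ∃ p, p = Fintype.card α := ⟨_, rfl⟩
  rw [← hp] at hα
  have : Fact p.Prime := ⟨hα⟩
  have e : α ≃ ZMod p := Fintype.equivOfCardEq (by rw [ZMod.card, hp])
  by_cases hp2 : p = 2
  · exfalso
    apply hG
    apply isSolvable_of_affine (K := ZMod p) (zrho e G) (zrho_injective e G)
    intro γ
    apply affine_of_mem_zM_two
    rw [congrArg (zM p (ZMod p)) hp2.symm, zM_top]
    exact Submodule.mem_top
  have hp3 : 3 ≤ p := by
    have := hα.two_le
    omega
  apply Cfsg.Agent.S0671.result (K := ZMod p) (p := p) (f := 1) (le_refl 1)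
    (by rw [pow_one]; exact hp.symm)
  intro W W' hcW hlt hW'S
  have hWW' : W.toSubmodule ≤ W'.toSubmodule := hlt.le
  have hW := Cfsg.Agent.S0674.result hp.symm G hG W hcW (hWW'.trans hW'S)
  have hW'2 := Cfsg.Agent.S0674.result hp.symm G hG W' (hcW.trans hWW') hW'S
  have hWc : W = Cfsg.permConstants (ZMod p) G α := by
    rcases hW with h | h
    · exact h
    · exfalso
      rw [h] at hlt
      exact lt_irrefl _ (lt_of_lt_of_le hlt hW'S)
  have hW's : W' = Cfsg.permSumZero (ZMod p) G α := by
    rcases hW'2 with h | h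
    · exfalso
      rw [h] at hlt
      exact lt_irrefl _ (lt_of_le_of_lt hcW hlt)
    · exact h
  by_contra hcon
  push Not at hcon
  apply hG
  apply isSolvable_of_affine (K := ZMod p) (zrho e G) (zrho_injective e G)
  intro γ
  have hv : (zev p (ZMod p) Polynomial.X) ∘ e ∈ W'.toSubmodule := by
    rw [hW's]
    show ∑ x, ((zev p (ZMod p) Polynomial.X) ∘ e) x = 0
    have h1 : zev p (ZMod p) Polynomial.X ∈ zS p (ZMod p) := by
      rw [← zM_pred_eq_zS]
      apply zev_mem_zM
      rw [Polynomial.degree_X]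
      exact_mod_cast (by omega : 1 < p - 1)
    exact (Equiv.sum_comp e _).trans h1
  have h2 := hcon γ⁻¹ _ hv
  rw [hWc] at h2
  have h2' : (Cfsg.permRep (ZMod p) G α γ⁻¹ ((zev p (ZMod p) Polynomial.X) ∘ e)
      - (zev p (ZMod p) Polynomial.X) ∘ e)
      ∈ Submodule.span (ZMod p) {fun _ : α => (1 : ZMod p)} := h2
  rw [Submodule.mem_span_singleton] at h2'
  obtain ⟨c, hc⟩ := h2'
  refine ⟨1, c, fun j => ?_⟩
  have h3 := congrFun hc (e.symm j)
  have h4 : (ZMod.cast (zrho e G γ j) : ZMod p) - ZMod.cast j = c := by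
    have : (Cfsg.permRep (ZMod p) G α γ⁻¹ ((zev p (ZMod p) Polynomial.X) ∘ e)
        - (zev p (ZMod p) Polynomial.X) ∘ e) (e.symm j)
        = (ZMod.cast (zrho e G γ j) : ZMod p) - ZMod.cast j := by
      show zev p (ZMod p) Polynomial.X (e ((γ⁻¹⁻¹ : G) • e.symm j))
        - zev p (ZMod p) Polynomial.X (e (e.symm j)) = _
      rw [zev_apply, zev_apply, Polynomial.eval_X, Polynomial.eval_X, inv_inv,
        Equiv.apply_symm_apply, zrho_apply]
      rfl
    rw [← this, ← h3]
    simp
  rw [← h4]; ring

/-- Burnside's Theorem on permutation groups of prime degree: a transitive permutation group of prime degree that is not solvable is doubly transitive. -/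
theorem result {α : Type*} [Fintype α] [DecidableEq α] (hα : (Fintype.card α).Prime) (G : Subgroup (Equiv.Perm α)) [MulAction.IsPretransitive G α] : Group.IsSolvable G ∨ MulAction.IsMultiplyPretransitive G α 2 := by
  exact main hα G

end Cfsg.Agent.S0675
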