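import Cfsg.Statements.S0676
import Mathlib
import Cfsg.Agent.S0672
import Cfsg.Agent.S0674
import Cfsg.Agent.S0675

set_option autoImplicit false
open Cfsg

namespace Cfsg.Agent.S0676

open scoped Pointwise

theorem sum_zmod_id {p : ℕ} [Fact p.Prime] (hp2 : p ≠ 2) : ∑ j : ZMod p, j = 0 := by
  have hp : p.Prime := Fact.out
  have h2ne : (2 : ZMod p) ≠ 0 := by
    intro h
    have h' : ((2 : ℕ) : ZMod p) = 0 := by exact_mod_cast h
    rw [ZMod.natCast_eq_zero_iff] at h'
    have := Nat.le_of_dvd (by norm_num) h'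
    have := hp.two_le
    omega
  have h := Equiv.sum_comp (Equiv.neg (ZMod p)) (fun j : ZMod p => j)
  simp only [Equiv.neg_apply] at h
  have h' : ∑ x : ZMod p, -x = -∑ x : ZMod p, x := Finset.sum_neg_distrib (fun j : ZMod p => j)
  rw [h'] at h
  have h2 : (2 : ZMod p) * ∑ j : ZMod p, j = 0 := by linear_combination (-1 : ZMod p) * h
  exact (mul_eq_zero.1 h2).resolve_left h2ne

-- the heart of the permutation module does not map to the module of unordered pairs
theorem intertwining_zero {α : Type*} [Fintype α] [DecidableEq α] {p : ℕ} [Fact p.Prime]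
    (hα : Fintype.card α = p) (G : Subgroup (Equiv.Perm α)) [MulAction.IsPretransitive G α]
    (hG : ¬ Group.IsSolvable G) (hp2 : p ≠ 2) (c t : G) (e : α ≃ ZMod p)
    (he : ∀ x, e ((c : Equiv.Perm α) x) = e x + 1) (b : ZMod p)
    (hT : ∀ x, e ((t : Equiv.Perm α) x) = b - e x) (htt : t * t = 1)
    (f : Representation.IntertwiningMap (Cfsg.permSumZero (ZMod p) G α).toRepresentation
      (Cfsg.permRep (ZMod p) G (Set.powersetCard α 2)))
    (hf : ∀ v : (Cfsg.permSumZero (ZMod p) G α).toSubmodule,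
      (v : α → ZMod p) ∈ (Cfsg.permConstants (ZMod p) G α).toSubmodule → f v = 0) : f = 0 := by
  classical
  have hp : p.Prime := Fact.out
  have h2ne : (2 : ZMod p) ≠ 0 := by
    intro h
    have h' : ((2 : ℕ) : ZMod p) = 0 := by exact_mod_cast h
    rw [ZMod.natCast_eq_zero_iff] at h'
    have := Nat.le_of_dvd (by norm_num) h'
    have := hp.two_le
    omega
  have hCS : (Cfsg.permConstants (ZMod p) G α).toSubmodule ≤
      (Cfsg.permSumZero (ZMod p) G α).toSubmodule := by
    intro v hv
    obtain ⟨a, rfl⟩ := Submodule.mem_span_singleton.1 hv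
    show ∑ x, (a • (fun _ : α => (1 : ZMod p))) x = 0
    simp [hα]
  obtain ⟨W, hW⟩ : ∃ W : Subrepresentation (Cfsg.permRep (ZMod p) G α), W.toSubmodule =
      (LinearMap.ker f.toLinearMap).map (Cfsg.permSumZero (ZMod p) G α).toSubmodule.subtype := by
    refine ⟨⟨_, ?_⟩, rfl⟩
    intro g v hv
    obtain ⟨y, hy, rfl⟩ := Submodule.mem_map.1 hv
    refine Submodule.mem_map.2 ⟨(Cfsg.permSumZero (ZMod p) G α).toRepresentation g y, ?_, rfl⟩
    rw [LinearMap.mem_ker] at hy ⊢
    show f ((Cfsg.permSumZero (ZMod p) G α).toRepresentation g y) = 0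
    rw [f.isIntertwining, show f y = 0 from hy, map_zero]
  have hWmem : ∀ v : α → ZMod p, v ∈ W.toSubmodule ↔
      ∃ h : v ∈ (Cfsg.permSumZero (ZMod p) G α).toSubmodule, f ⟨v, h⟩ = 0 := by
    intro v
    rw [hW]
    constructor
    · intro hv
      obtain ⟨y, hy, rfl⟩ := Submodule.mem_map.1 hv
      exact ⟨y.2, hy⟩
    · rintro ⟨h, hz⟩
      exact Submodule.mem_map.2 ⟨⟨v, h⟩, LinearMap.mem_ker.2 hz, rfl⟩
  have h₁ : (Cfsg.permConstants (ZMod p) G α).toSubmodule ≤ W.toSubmodule :=
    fun v hv => (hWmem v).2 ⟨hCS hv, hf ⟨v, hCS hv⟩ hv⟩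
  have h₂ : W.toSubmodule ≤ (Cfsg.permSumZero (ZMod p) G α).toSubmodule :=
    fun v hv => ((hWmem v).1 hv).1
  rcases Cfsg.Agent.S0674.result hα G hG (K := ZMod p) W h₁ h₂ with hWC | hWS
  · exfalso
    obtain ⟨x₀⟩ : Nonempty α := by rw [← Fintype.card_pos_iff, hα]; exact hp.pos
    -- the coordinate function
    have hv₁S : (fun x => e x : α → ZMod p) ∈ (Cfsg.permSumZero (ZMod p) G α).toSubmodule := by
      show ∑ x, e x = 0
      rw [Equiv.sum_comp e (fun j : ZMod p => j)]
      exact sum_zmod_id hp2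
    have hfeq : ∀ u v : (Cfsg.permSumZero (ZMod p) G α).toSubmodule,
        ((u : α → ZMod p) - (v : α → ZMod p)) ∈ (Cfsg.permConstants (ZMod p) G α).toSubmodule →
        f u = f v := by
      intro u v h
      have h1 := hf (u - v) (by rw [Submodule.coe_sub]; exact h)
      rw [map_sub] at h1
      exact sub_eq_zero.1 h1
    have hcinv : ∀ x : α, e ((c⁻¹ : G) • x) = e x - 1 := by
      intro x
      have h1 := he ((c⁻¹ : G) • x)
      have h2 : (c : Equiv.Perm α) ((c⁻¹ : G) • x) = x := by
        show (c : Equiv.Perm α) ((c : Equiv.Perm α)⁻¹ x) = x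
        simp
      rw [h2] at h1
      rw [h1]; ring
    have htinv_eq : (t⁻¹ : G) = t := inv_eq_of_mul_eq_one_left htt
    have htinv : ∀ x : α, e ((t⁻¹ : G) • x) = b - e x := by
      intro x
      rw [htinv_eq]
      exact hT x
    obtain ⟨v₁, hv₁⟩ : ∃ v₁ : (Cfsg.permSumZero (ZMod p) G α).toSubmodule,
        (v₁ : α → ZMod p) = fun x => e x := ⟨⟨_, hv₁S⟩, rfl⟩
    obtain ⟨w, hw⟩ : ∃ w : ↥(Set.powersetCard α 2) → ZMod p, w = f v₁ := ⟨_, rfl⟩
    have hwc : ∀ s : ↥(Set.powersetCard α 2), w ((c⁻¹ : G) • s) = w s := by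
      intro s
      have h1 := Representation.IntertwiningMap.isIntertwining _ _ f c v₁
      have h2 : f ((Cfsg.permSumZero (ZMod p) G α).toRepresentation c v₁) = f v₁ := by
        apply hfeq
        show _ ∈ Submodule.span (ZMod p) {fun _ : α => (1 : ZMod p)}
        rw [Submodule.mem_span_singleton]
        refine ⟨-1, funext fun x => ?_⟩
        show (-1 : ZMod p) • (1 : ZMod p) = (v₁ : α → ZMod p) ((c⁻¹ : G) • x) - (v₁ : α → ZMod p) x
        rw [hv₁]
        show (-1 : ZMod p) • (1 : ZMod p) = e ((c⁻¹ : G) • x) - e x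
        rw [hcinv]; simp
      rw [h2, ← hw] at h1
      exact (congrFun h1 s).symm
    have hwt : ∀ s : ↥(Set.powersetCard α 2), w ((t⁻¹ : G) • s) = - w s := by
      intro s
      have h1 := Representation.IntertwiningMap.isIntertwining _ _ f t v₁
      have h2 : f ((Cfsg.permSumZero (ZMod p) G α).toRepresentation t v₁) = f (-v₁) := by
        apply hfeq
        show _ ∈ Submodule.span (ZMod p) {fun _ : α => (1 : ZMod p)}
        rw [Submodule.mem_span_singleton]
        refine ⟨b, funext fun x => ?_⟩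
        show b • (1 : ZMod p) =
          (v₁ : α → ZMod p) ((t⁻¹ : G) • x) - (- (v₁ : α → ZMod p) x)
        rw [hv₁]
        show b • (1 : ZMod p) = e ((t⁻¹ : G) • x) - (- e x)
        rw [htinv]; simp
      rw [h2, map_neg, ← hw] at h1
      have h3 := congrFun h1 s
      exact h3.symm
    have hpowc : ∀ (m : ℕ) (s : ↥(Set.powersetCard α 2)), w (((c⁻¹ : G)) ^ m • s) = w s := by
      intro m
      induction m with
      | zero => intro s; rw [pow_zero, one_smul]
      | succ m ih =>
        intro s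
        rw [pow_succ, mul_smul, ih, hwc]
    have hcpow : ∀ (m : ℕ) (z : α), e (((c⁻¹ : G)) ^ m • z) = e z - m := by
      intro m
      induction m with
      | zero => intro z; simp
      | succ m ih =>
        intro z
        rw [pow_succ, mul_smul, ih, hcinv]
        push_cast; ring
    have hts : ∀ s : ↥(Set.powersetCard α 2), ∃ m : ℕ, (t⁻¹ : G) • s = ((c⁻¹ : G)) ^ m • s := by
      intro s
      obtain ⟨x, y, hxy, hs⟩ := Finset.card_eq_two.1 s.2
      obtain ⟨m, hm⟩ : ∃ m : ℕ, (m : ZMod p) = e x + e y - b :=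
        ⟨(e x + e y - b).val, ZMod.natCast_zmod_val _⟩
      have h1 : ((c⁻¹ : G)) ^ m • x = (t⁻¹ : G) • y :=
        e.injective (by rw [hcpow, htinv, hm]; ring)
      have h2 : ((c⁻¹ : G)) ^ m • y = (t⁻¹ : G) • x :=
        e.injective (by rw [hcpow, htinv, hm]; ring)
      refine ⟨m, Subtype.ext ?_⟩
      have hs' : (s : Finset α) = {x, y} := hs
      show ((t⁻¹ : G) : Equiv.Perm α) • (s : Finset α) =
        ((((c⁻¹ : G)) ^ m : G) : Equiv.Perm α) • (s : Finset α)
      rw [hs']
      ext z
      simp only [Finset.mem_smul_finset, Finset.mem_insert, Finset.mem_singleton]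
      constructor
      · rintro ⟨u, hu | hu, rfl⟩
        · exact ⟨y, Or.inr rfl, by rw [hu]; exact h2⟩
        · exact ⟨x, Or.inl rfl, by rw [hu]; exact h1⟩
      · rintro ⟨u, hu | hu, rfl⟩
        · exact ⟨y, Or.inr rfl, by rw [hu]; exact h1.symm⟩
        · exact ⟨x, Or.inl rfl, by rw [hu]; exact h2.symm⟩
    have hw0 : ∀ s : ↥(Set.powersetCard α 2), w s = 0 := by
      intro s
      obtain ⟨m, hm⟩ := hts s
      have h1 := hwt s
      rw [hm, hpowc] at h1
      have h2 : (2 : ZMod p) * w s = 0 := by linear_combination h1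
      exact (mul_eq_zero.1 h2).resolve_left h2ne
    have hv₁W : (fun x => e x : α → ZMod p) ∈ W.toSubmodule := by
      rw [hWmem]
      refine ⟨hv₁S, ?_⟩
      have h3 : (⟨(fun x => e x : α → ZMod p), hv₁S⟩ :
          (Cfsg.permSumZero (ZMod p) G α).toSubmodule) = v₁ := Subtype.ext hv₁.symm
      rw [h3, ← hw]
      exact funext hw0
    rw [hWC] at hv₁W
    obtain ⟨a, ha⟩ := Submodule.mem_span_singleton.1 hv₁W
    have h1 := congrFun ha x₀
    have h2 := congrFun ha ((c : Equiv.Perm α) x₀)
    have h3 : e ((c : Equiv.Perm α) x₀) = e x₀ := h2.symm.trans h1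
    rw [he] at h3
    exact one_ne_zero (α := ZMod p) (by linear_combination h3)
  · apply Representation.IntertwiningMap.ext
    apply LinearMap.ext
    intro v
    have hv : (v : α → ZMod p) ∈ W.toSubmodule := by rw [hWS]; exact v.2
    obtain ⟨h, hz⟩ := (hWmem _).1 hv
    exact hz

/-- A non-solvable transitive permutation group of prime degree `p` whose Sylow `p`-normaliser has even order is triply transitive. -/
theorem result {α : Type*} [Fintype α] [DecidableEq α] {p : ℕ} [Fact p.Prime] (hα : Fintype.card α = p) (G : Subgroup (Equiv.Perm α)) [MulAction.IsPretransitive G α] (hG : ¬ Group.IsSolvable G) (P : Sylow p G) (heven : Even (Nat.card (Subgroup.normalizer ((P : Subgroup G) : Set G)))) : MulAction.IsMultiplyPretransitive G α 3 := by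
  have hp : p.Prime := Fact.out
  obtain ⟨x₀⟩ : Nonempty α := by rw [← Fintype.card_pos_iff, hα]; exact hp.pos
  by_cases hp2' : p = 2
  · refine ⟨fun x y => ?_⟩
    exfalso
    have h := Fintype.card_le_of_embedding x
    rw [Fintype.card_fin, hα, hp2'] at h
    omega
  have hidx : ∀ a : α, (MulAction.stabilizer G a).index = p := by
    intro a
    have h := MulAction.index_stabilizer_of_transitive G a
    rw [Nat.card_eq_fintype_card, hα] at h
    exact h
  have hdvd : p ∣ Nat.card G := by
    rw [← hidx x₀]; exact Subgroup.index_dvd_card _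
  have hGfact : Nat.card G ∣ p.factorial := by
    have h1 : Nat.card G ∣ Nat.card (Equiv.Perm α) := Subgroup.card_subgroup_dvd_card G
    rwa [Nat.card_eq_fintype_card (α := Equiv.Perm α), Fintype.card_perm, hα] at h1
  have hp2 : ¬ p ^ 2 ∣ Nat.card G := by
    intro h
    have h2 : p ^ 2 ∣ p.factorial := h.trans hGfact
    obtain ⟨k, hk⟩ : ∃ k, p = k + 1 := ⟨p - 1, by have := hp.pos; omega⟩
    have h3 : p * p ∣ p * k.factorial := by
      have e : p.factorial = p * k.factorial := by rw [hk, Nat.factorial_succ]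
      rw [← e, ← pow_two]; exact h2
    have h4 : p ∣ k.factorial := Nat.dvd_of_mul_dvd_mul_left hp.pos h3
    have h5 := (hp.dvd_factorial).1 h4
    omega
  have h2t : MulAction.IsMultiplyPretransitive G α 2 := by
    rcases Cfsg.Agent.S0675.result (by rw [hα]; exact hp) G with hsol | h2t
    · exact absurd hsol hG
    · exact h2t
  have h2ne : (2 : ZMod p) ≠ 0 := by
    intro h
    have h' : ((2 : ℕ) : ZMod p) = 0 := by exact_mod_cast h
    rw [ZMod.natCast_eq_zero_iff] at h'
    have := Nat.le_of_dvd (by norm_num) h'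
    have := hp.two_le
    omega
  -- an involution in the normalizer of `P`
  haveI : Fact (Nat.Prime 2) := ⟨Nat.prime_two⟩
  obtain ⟨t₀, ht₀⟩ := exists_prime_orderOf_dvd_card' 2 heven.two_dvd
  obtain ⟨t, ht_def⟩ : ∃ t : G, t = (t₀ : G) := ⟨_, rfl⟩
  have htn : t ∈ Subgroup.normalizer ((P : Subgroup G) : Set G) := by rw [ht_def]; exact t₀.2
  have hto : orderOf t = 2 := by rw [ht_def, Subgroup.orderOf_coe]; exact ht₀
  have htt : t * t = 1 := by rw [← pow_two, ← hto]; exact pow_orderOf_eq_one t
  have ht1 : t ≠ 1 := by intro h; rw [h, orderOf_one] at hto; omega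
  have hPcard : Nat.card (P : Subgroup G) = p := by
    obtain ⟨k, hk⟩ := IsPGroup.iff_card.1 P.isPGroup'
    have hk1 : k ≠ 0 := by
      intro h0
      rw [h0, pow_zero] at hk
      exact (P.ne_bot_of_dvd_card hdvd) (Subgroup.card_eq_one.1 hk)
    have hk2 : k < 2 := by
      by_contra hcon
      rw [not_lt] at hcon
      apply hp2
      have h1 : p ^ k ∣ Nat.card G := hk ▸ Subgroup.card_subgroup_dvd_card (P : Subgroup G)
      exact (pow_dvd_pow p hcon).trans h1
    have hk3 : k = 1 := by omega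
    rw [hk, hk3, pow_one]
  -- a generator of `P` and coordinates
  obtain ⟨c₀, hc₀⟩ := exists_prime_orderOf_dvd_card' (G := ↥(P : Subgroup G)) p
    (by rw [hPcard])
  obtain ⟨c, hc_def⟩ : ∃ c : G, c = (c₀ : G) := ⟨_, rfl⟩
  have hcP : c ∈ (P : Subgroup G) := by rw [hc_def]; exact c₀.2
  have hco : orderOf c = p := by rw [hc_def, Subgroup.orderOf_coe]; exact hc₀
  have hc1 : c ≠ 1 := by
    intro h; rw [h, orderOf_one] at hco; exact hp.one_lt.ne hco
  have hco' : orderOf (c : Equiv.Perm α) = p := by rw [Subgroup.orderOf_coe]; exact hco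
  obtain ⟨e, he⟩ := Cfsg.Agent.Helper5.exists_equiv_zmod hα (c : Equiv.Perm α) hco'
  have hy : t * c * t⁻¹ ∈ (P : Subgroup G) := (Subgroup.mem_normalizer_iff.1 htn c).1 hcP
  obtain ⟨n, hn⟩ : ∃ n : ℕ, c ^ n = t * c * t⁻¹ := by
    have h1 : Subgroup.zpowers (⟨c, hcP⟩ : (P : Subgroup G)) = ⊤ :=
      zpowers_eq_top_of_prime_card hPcard (fun h => hc1 (congrArg Subtype.val h))
    have h2 : (⟨t * c * t⁻¹, hy⟩ : (P : Subgroup G)) ∈
        Submonoid.powers (⟨c, hcP⟩ : (P : Subgroup G)) := by
      rw [mem_powers_iff_mem_zpowers, h1]; trivial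
    obtain ⟨n, hn⟩ := (Submonoid.mem_powers_iff _ _).1 h2
    exact ⟨n, by simpa using congrArg Subtype.val hn⟩
  have hpow : ∀ (m : ℕ) (x : α), e (((c : Equiv.Perm α) ^ m) x) = e x + m := by
    intro m
    induction m with
    | zero => intro x; simp
    | succ m ih =>
      intro x
      rw [pow_succ', Equiv.Perm.mul_apply, he, ih]
      push_cast; ring
  have hcomm : (t : Equiv.Perm α) * (c : Equiv.Perm α) =
      (c : Equiv.Perm α) ^ n * (t : Equiv.Perm α) := by
    have h1 : t * c = c ^ n * t := by rw [hn]; group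
    have h2 := congrArg Subtype.val h1
    simpa using h2
  have hu : ∀ x : α, e ((t : Equiv.Perm α) ((c : Equiv.Perm α) x)) =
      e ((t : Equiv.Perm α) x) + n := by
    intro x
    have h := congrArg (fun σ : Equiv.Perm α => e (σ x)) hcomm
    simp only [Equiv.Perm.mul_apply] at h
    rw [h, hpow]
  have hTT : ∀ x : α, (t : Equiv.Perm α) ((t : Equiv.Perm α) x) = x := by
    intro x
    have h2 := congrArg Subtype.val htt
    have h3 : (t : Equiv.Perm α) * (t : Equiv.Perm α) = 1 := by simpa using h2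
    have h4 := congrArg (fun σ : Equiv.Perm α => σ x) h3
    simpa using h4
  -- `t` is affine in the coordinate
  obtain ⟨b₀, hb₀⟩ : ∃ b₀ : ZMod p, b₀ = e ((t : Equiv.Perm α) (e.symm 0)) := ⟨_, rfl⟩
  have haff : ∀ (m : ℕ) (x : α), e x = (m : ZMod p) →
      e ((t : Equiv.Perm α) x) = b₀ + (n : ZMod p) * m := by
    intro m
    induction m with
    | zero =>
      intro x hx
      have hx' : x = e.symm 0 := by
        rw [Equiv.eq_symm_apply, hx]; simp
      rw [hx', hb₀]; simp
    | succ m ih =>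
      intro x hx
      have h1 : x = (c : Equiv.Perm α) (e.symm (m : ZMod p)) := by
        apply e.injective
        rw [he, Equiv.apply_symm_apply, hx]; push_cast; ring
      rw [h1, hu, ih _ (Equiv.apply_symm_apply e _)]
      push_cast; ring
  have haff' : ∀ x : α, e ((t : Equiv.Perm α) x) = b₀ + (n : ZMod p) * e x := by
    intro x
    have h := haff (e x).val x (ZMod.natCast_zmod_val (e x)).symm
    rw [ZMod.natCast_zmod_val] at h
    exact h
  have hk0 : b₀ + (n : ZMod p) * b₀ = 0 := by
    have h1 := haff' ((t : Equiv.Perm α) (e.symm 0))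
    rw [hTT, haff', Equiv.apply_symm_apply] at h1
    linear_combination -h1
  have hk1 : (n : ZMod p) * (n : ZMod p) = 1 := by
    have h1 := haff' ((t : Equiv.Perm α) (e.symm 1))
    rw [hTT, haff', Equiv.apply_symm_apply] at h1
    linear_combination -h1 - hk0
  have hkk : ((n : ZMod p) - 1) * ((n : ZMod p) + 1) = 0 := by linear_combination hk1
  have hneg : (n : ZMod p) = -1 := by
    rcases mul_eq_zero.1 hkk with h | h
    · exfalso
      have hn1 : (n : ZMod p) = 1 := by linear_combination h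
      rw [hn1] at hk0
      have hb0 : b₀ = 0 := by
        have h2 : (2 : ZMod p) * b₀ = 0 := by linear_combination hk0
        exact (mul_eq_zero.1 h2).resolve_left h2ne
      apply ht1
      apply Subtype.ext
      apply Equiv.ext
      intro x
      apply e.injective
      rw [haff', hn1, hb0]
      simp
    · linear_combination h
  have hT : ∀ x : α, e ((t : Equiv.Perm α) x) = b₀ - e x := by
    intro x
    rw [haff', hneg]; ring
  -- point stabilisers have even order
  have hev : ∀ a : α, Even (Nat.card (MulAction.stabilizer G a)) := by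
    have h2i : (2 : ZMod p)⁻¹ * 2 = 1 := inv_mul_cancel₀ h2ne
    have hfix : (t : Equiv.Perm α) (e.symm (b₀ * 2⁻¹)) = e.symm (b₀ * 2⁻¹) := by
      apply e.injective
      rw [hT, Equiv.apply_symm_apply]
      linear_combination (-b₀) * h2i
    have hmem : t ∈ MulAction.stabilizer G (e.symm (b₀ * 2⁻¹)) :=
      MulAction.mem_stabilizer_iff.2 hfix
    have h1 : 2 ∣ Nat.card (MulAction.stabilizer G (e.symm (b₀ * 2⁻¹))) := by
      rw [← hto]; exact Subgroup.orderOf_dvd_natCard _ hmem
    intro a
    have h3 := (MulAction.stabilizer G a).card_mul_index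
    have h4 := (MulAction.stabilizer G (e.symm (b₀ * 2⁻¹))).card_mul_index
    rw [hidx] at h3 h4
    have h5 : Nat.card (MulAction.stabilizer G a) =
        Nat.card (MulAction.stabilizer G (e.symm (b₀ * 2⁻¹))) :=
      Nat.eq_of_mul_eq_mul_right hp.pos (h3.trans h4.symm)
    rw [h5]
    exact even_iff_two_dvd.2 h1
  exact Cfsg.Agent.S0672.result (K := ZMod p) (p := p) h2t (by rw [hα]) hev
    (fun f hf => intertwining_zero hα G hG hp2' c t e he b₀ hT htt f hf)

end Cfsg.Agent.S0676
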