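import Cfsg.Statements.S3744
import Mathlib
import Cfsg.Agent.Helper20.SylowAux
import Cfsg.Agent.Helper20.PSolvHall

set_option autoImplicit false
open Cfsg

namespace Cfsg.Agent.S3744

/-- A finite p-soluble group has a p-complement, all its p-complements are conjugate, and every subgroup of order prime to p lies in one of them. Here a p-complement is a subgroup of order prime to p whose index is a power of p. -/
theorem result {G : Type*} [Group G] [Finite G] {p : ℕ} [Fact p.Prime] (hG : Cfsg.IsPSolvable p G) : (∃ H : Subgroup G, (Nat.card H).Coprime p ∧ ∃ n : ℕ, H.index = p ^ n) ∧ (∀ H₁ H₂ : Subgroup G, (Nat.card H₁).Coprime p → (∃ n : ℕ, H₁.index = p ^ n) → (Nat.card H₂).Coprime p → (∃ n : ℕ, H₂.index = p ^ n) → ∃ g : G, H₂ = H₁.map (MulAut.conj g).toMonoidHom) ∧ (∀ U : Subgroup G, (Nat.card U).Coprime p → ∃ H : Subgroup G, (Nat.card H).Coprime p ∧ (∃ n : ℕ, H.index = p ^ n) ∧ ∃ g : G, U.map (MulAut.conj g).toMonoidHom ≤ H)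 := by
  have hp := (Fact.out : p.Prime)
  have hN : Nat.card G ≠ 0 := Nat.card_pos.ne'
  obtain ⟨m, hm⟩ : ∃ m, m = Nat.card G / p ^ (Nat.card G).factorization p := ⟨_, rfl⟩
  obtain ⟨k, hk⟩ : ∃ k, k = (Nat.card G).factorization p := ⟨_, rfl⟩
  have hmn : Nat.card G = m * p ^ k := by
    have h := Nat.ordProj_mul_ordCompl_eq_self (Nat.card G) p
    rw [← hm] at h
    rw [hk, mul_comm]
    exact h.symm
  have hmp : m.Coprime p := by
    have h := Nat.coprime_ordCompl hp hN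
    rw [← hm] at h
    exact h.symm
  have hmpos : 0 < m := by
    rcases Nat.eq_zero_or_pos m with h | h
    · rw [h, zero_mul] at hmn; exact absurd hmn hN
    · exact h
  have hchar : ∀ H : Subgroup G, (Nat.card H).Coprime p → (∃ n : ℕ, H.index = p ^ n) →
      Nat.card H = m := by
    intro H hHp ⟨n, hn⟩
    have h1 := Subgroup.card_mul_index H
    rw [hmn, hn] at h1
    have h2 : Nat.card H ∣ m :=
      (Nat.Coprime.pow_right k hHp).dvd_of_dvd_mul_right ⟨p ^ n, h1.symm⟩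
    have h3 : m ∣ Nat.card H :=
      (Nat.Coprime.pow_right n hmp).dvd_of_dvd_mul_right ⟨p ^ k, h1⟩
    exact Nat.dvd_antisymm h2 h3
  have hchar' : ∀ H : Subgroup G, Nat.card H = m →
      (Nat.card H).Coprime p ∧ ∃ n : ℕ, H.index = p ^ n := by
    intro H hH
    refine ⟨hH ▸ hmp, k, ?_⟩
    have h1 := Subgroup.card_mul_index H
    rw [hH, hmn] at h1
    exact Nat.eq_of_mul_eq_mul_left hmpos h1
  refine ⟨?_, ?_, ?_⟩
  · obtain ⟨H, hH, -⟩ := Cfsg.Agent.Helper20.phall_dom_aux p (Nat.card G) G hG rfl m (p ^ k) hmn hmp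
      ⟨k, rfl⟩ ⊥ (by rw [Subgroup.card_bot]; exact Nat.coprime_one_left p)
    exact ⟨H, hchar' H hH⟩
  · intro H₁ H₂ h1 h1' h2 h2'
    obtain ⟨g, hg⟩ := Cfsg.Agent.Helper20.phall_conj_aux p (Nat.card G) G hG rfl m (p ^ k) hmn hmp
      ⟨k, rfl⟩ H₁ H₂ (hchar H₁ h1 h1') (hchar H₂ h2 h2')
    refine ⟨g, ?_⟩
    rw [← hg, Cfsg.Agent.Helper20.conj_smul_eq_map]
  · intro U hU
    obtain ⟨H, hH, hUH⟩ := Cfsg.Agent.Helper20.phall_dom_aux p (Nat.card G) G hG rfl m (p ^ k) hmn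
      hmp ⟨k, rfl⟩ U hU
    refine ⟨H, (hchar' H hH).1, (hchar' H hH).2, 1, ?_⟩
    intro x hx
    obtain ⟨y, hy, rfl⟩ := Subgroup.mem_map.1 hx
    have : (MulAut.conj (1 : G)).toMonoidHom y = y := by simp
    rw [this]
    exact hUH hy

end Cfsg.Agent.S3744
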