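import Cfsg.Statements.S0677
import Mathlib
import Cfsg.Agent.S0675
import Cfsg.Agent.S3744
import Cfsg.Agent.Helper20.SolvPSolv

set_option autoImplicit false
open Cfsg

namespace Cfsg.Agent.S0677

-- an involution normalizing a regular subgroup and commuting with none of its non-identity
-- elements has at most one fixed point
theorem fixed_unique {G X : Type*} [Group G] [MulAction G X] (P : Subgroup G) (t : G)
    (hn : ∀ x ∈ P, t * x * t⁻¹ ∈ P)
    (hfree : ∀ x ∈ P, ∀ ξ : X, x • ξ = ξ → x = 1)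
    (htrans : ∀ ξ η : X, ∃ x ∈ P, x • ξ = η)
    (hnc : ∀ x ∈ P, t * x = x * t → x = 1)
    {ξ η : X} (hξ : t • ξ = ξ) (hη : t • η = η) : ξ = η := by
  obtain ⟨x, hx, rfl⟩ := htrans ξ η
  have h2 : t⁻¹ • ξ = ξ := by
    rw [inv_smul_eq_iff]; exact hξ.symm
  have h1 : (x⁻¹ * (t * x * t⁻¹)) • ξ = ξ := by
    rw [mul_smul, mul_smul, mul_smul, h2, hη, inv_smul_smul]
  have h3 : x⁻¹ * (t * x * t⁻¹) = 1 :=
    hfree _ (P.mul_mem (P.inv_mem hx) (hn x hx)) ξ h1
  have h5 : t * x * t⁻¹ = x := by
    calc t * x * t⁻¹ = x * (x⁻¹ * (t * x * t⁻¹)) := by group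
      _ = x := by rw [h3, mul_one]
  have h4 : t * x = x * t := by
    calc t * x = t * x * t⁻¹ * t := by group
      _ = x * t := by rw [h5]
  rw [hnc x hx h4, one_smul]

theorem exists_fixed_of_odd {G X : Type*} [Group G] [MulAction G X] [Finite X] (t : G)
    (ht : t * t = 1) (hodd : ¬ 2 ∣ Nat.card X) : ∃ ξ : X, t • ξ = ξ := by
  classical
  haveI := Fintype.ofFinite X
  haveI : Fact (Nat.Prime 2) := ⟨Nat.prime_two⟩
  have h1 : (MulAction.toPermHom G X t) ^ 2 ^ 1 = 1 := by
    rw [pow_one, ← map_pow, pow_two, ht, map_one]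
  rw [Nat.card_eq_fintype_card] at hodd
  obtain ⟨a, ha⟩ := Equiv.Perm.exists_fixed_point_of_prime (p := 2) (n := 1) hodd h1
  exact ⟨a, ha⟩

theorem card_dvd_of_trans {G X : Type*} [Group G] [Finite G] [MulAction G X] [Finite X]
    (S : Subgroup G) (a₀ : X) (h : ∀ a : X, ∃ g ∈ S, g • a₀ = a) :
    Nat.card X ∣ Nat.card S := by
  have horb : MulAction.orbit S a₀ = Set.univ := by
    ext a
    simp only [Set.mem_univ, iff_true]
    obtain ⟨g, hg, hga⟩ := h a
    exact ⟨⟨g, hg⟩, hga⟩
  have h1 : (MulAction.stabilizer S a₀).index = Nat.card X := by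
    rw [MulAction.index_stabilizer, horb, Set.ncard_univ]
  rw [← h1]
  exact Subgroup.index_dvd_card _

-- the parity argument on the incidence structure of a 2-transitive group
theorem design_core {G X Y : Type*} [Group G] [MulAction G X] [MulAction G Y] [Finite Y]
    (h2 : ∀ a a' b b' : X, a ≠ a' → b ≠ b' → ∃ g : G, g • a = b ∧ g • a' = b')
    (t : G) (ht : t * t = 1) (a₀ : X) (β₀ : Y)
    (hta : ∀ a : X, t • a = a → a = a₀)
    (htβ₀ : t • β₀ = β₀) (htβ : ∀ β : Y, t • β = β → β = β₀) :
    (∀ g : G, g • β₀ = β₀ → g • a₀ = a₀) ∨ (∀ a : X, ∃ g : G, g • β₀ = β₀ ∧ g • a₀ = a) := by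
  classical
  haveI := Fintype.ofFinite Y
  obtain ⟨C, hC⟩ : ∃ C : X → Finset Y, ∀ a β, β ∈ C a ↔ ∃ g : G, g • a₀ = a ∧ g • β₀ = β :=
    ⟨fun a => Finset.univ.filter (fun β => ∃ g : G, g • a₀ = a ∧ g • β₀ = β), fun a β => by simp⟩
  have D1 : ∀ (g : G) (a : X) (β : Y), β ∈ C a ↔ g • β ∈ C (g • a) := by
    intro g a β
    rw [hC, hC]
    constructor
    · rintro ⟨g', h1, h2'⟩
      exact ⟨g * g', by rw [mul_smul, h1], by rw [mul_smul, h2']⟩
    · rintro ⟨g', h1, h2'⟩
      refine ⟨g⁻¹ * g', ?_, ?_⟩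
      · rw [mul_smul, h1, inv_smul_smul]
      · rw [mul_smul, h2', inv_smul_smul]
  have D2 : ∀ a a' b b' : X, a ≠ a' → b ≠ b' →
      (C a ∩ C a').card = (C b ∩ C b').card := by
    intro a a' b b' h h'
    obtain ⟨g, rfl, rfl⟩ := h2 a a' b b' h h'
    apply Finset.card_bijective (fun β => g • β) (MulAction.bijective g)
    intro β
    rw [Finset.mem_inter, Finset.mem_inter, ← D1, ← D1]
  have htt : ∀ x : X, t • t • x = x := fun x => by rw [smul_smul, ht, one_smul]
  have httY : ∀ x : Y, t • t • x = x := fun x => by rw [smul_smul, ht, one_smul]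
  have D3 : ∀ a : X, (Even (C a ∩ C (t • a)).card ↔ β₀ ∉ C a) := by
    intro a
    have hinv : ∀ β, β ∈ C a ∩ C (t • a) → t • β ∈ C a ∩ C (t • a) := by
      intro β hβ
      rw [Finset.mem_inter] at hβ ⊢
      refine ⟨?_, (D1 t a β).1 hβ.1⟩
      have h := (D1 t (t • a) β).1 hβ.2
      rwa [htt] at h
    have hev : Even ((C a ∩ C (t • a)).erase β₀).card := by
      have hsum : ∑ β ∈ (C a ∩ C (t • a)).erase β₀, (1 : ZMod 2) = 0 := by
        refine Finset.sum_involution (f := fun _ => (1 : ZMod 2)) (fun β _ => t • β) ?_ ?_ ?_ ?_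
        · intro β _; decide
        · intro β hβ _ h
          exact (Finset.mem_erase.1 hβ).1 (htβ β h)
        · intro β hβ
          rw [Finset.mem_erase] at hβ ⊢
          refine ⟨fun h => hβ.1 ?_, hinv β hβ.2⟩
          have e : β = t • (t • β) := (httY β).symm
          rw [e, h, htβ₀]
        · intro β _
          exact httY β
      rw [Finset.sum_const, nsmul_eq_mul, mul_one] at hsum
      exact ZMod.natCast_eq_zero_iff_even.1 hsum
    by_cases hβ : β₀ ∈ C a
    · have hmem : β₀ ∈ C a ∩ C (t • a) := by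
        rw [Finset.mem_inter]
        refine ⟨hβ, ?_⟩
        have h := (D1 t a β₀).1 hβ
        rwa [htβ₀] at h
      have hcard := Finset.card_erase_add_one hmem
      constructor
      · intro he
        exfalso
        rw [← hcard] at he
        exact (Nat.even_add_one.1 he) hev
      · intro h; exact absurd hβ h
    · have hnm : β₀ ∉ C a ∩ C (t • a) := fun h => hβ (Finset.mem_inter.1 h).1
      rw [Finset.erase_eq_of_notMem hnm] at hev
      exact ⟨fun _ => hβ, fun _ => hev⟩
  by_cases hfix : ∀ g : G, g • β₀ = β₀ → g • a₀ = a₀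
  · exact Or.inl hfix
  · right
    rw [not_forall] at hfix
    obtain ⟨h, hh⟩ := hfix
    rw [Classical.not_imp] at hh
    obtain ⟨hhβ, hha⟩ := hh
    have h1 : β₀ ∈ C (h • a₀) := (hC _ _).2 ⟨h, rfl, hhβ⟩
    intro a
    by_cases ha : a = a₀
    · exact ⟨1, one_smul _ _, by rw [one_smul, ha]⟩
    · have hta1 : t • (h • a₀) ≠ h • a₀ := fun e => hha (hta _ e)
      have hta2 : t • a ≠ a := fun e => ha (hta _ e)
      have hcard := D2 (h • a₀) (t • (h • a₀)) a (t • a) (Ne.symm hta1) (Ne.symm hta2)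
      have h3 : ¬ Even (C (h • a₀) ∩ C (t • (h • a₀))).card := by
        rw [D3]; exact fun hn => hn h1
      rw [hcard, D3 a, not_not] at h3
      obtain ⟨g, hg1, hg2⟩ := (hC _ _).1 h3
      exact ⟨g, hg2, hg1⟩

/-- In a transitive permutation group of prime degree `p` whose Sylow `p`-normaliser has even order, the point stabilisers are the only subgroups of index `p`. -/
theorem result {α : Type*} [Fintype α] [DecidableEq α] {p : ℕ} [Fact p.Prime] (hα : Fintype.card α = p) (G : Subgroup (Equiv.Perm α)) [MulAction.IsPretransitive G α] (P : Sylow p G) (heven : Even (Nat.card (Subgroup.normalizer ((P : Subgroup G) : Set G)))) (H : Subgroup G) (hH : H.index = p) : ∃ a : α, H = MulAction.stabilizer G a := by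
  have hp : p.Prime := Fact.out
  obtain ⟨x₀⟩ : Nonempty α := by rw [← Fintype.card_pos_iff, hα]; exact hp.pos
  have hidx : ∀ a : α, (MulAction.stabilizer G a).index = p := by
    intro a
    have h := MulAction.index_stabilizer_of_transitive G a
    rw [Nat.card_eq_fintype_card, hα] at h
    exact h
  have hdvd : p ∣ Nat.card G := by
    rw [← hidx x₀]; exact Subgroup.index_dvd_card _
  have hGfact : Nat.card G ∣ p.factorial := by
    have h1 : Nat.card G ∣ Nat.card (Equiv.Perm α) := Subgroup.card_subgroup_dvd_card G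
    rwa [Nat.card_eq_fintype_card (α := Equiv.Perm α), Fintype.card_perm, hα] at h1
  have hp2 : ¬ p ^ 2 ∣ Nat.card G := by
    intro h
    have h2 : p ^ 2 ∣ p.factorial := h.trans hGfact
    obtain ⟨k, hk⟩ : ∃ k, p = k + 1 := ⟨p - 1, by have := hp.pos; omega⟩
    have h3 : p * p ∣ p * k.factorial := by
      have e : p.factorial = p * k.factorial := by rw [hk, Nat.factorial_succ]
      rw [← e, ← pow_two]; exact h2
    have h4 : p ∣ k.factorial := Nat.dvd_of_mul_dvd_mul_left hp.pos h3
    have h5 := (hp.dvd_factorial).1 h4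
    omega
  have hcop : ∀ K : Subgroup G, K.index = p → (Nat.card K).Coprime p := by
    intro K hK
    rw [Nat.coprime_comm, hp.coprime_iff_not_dvd]
    intro h
    apply hp2
    rw [← K.card_mul_index, hK, pow_two]
    exact Nat.mul_dvd_mul_right h p
  have hfin : ∀ (K : Subgroup G) (a : α), K.index = p → K ≤ MulAction.stabilizer G a →
      K = MulAction.stabilizer G a := by
    intro K a hK hle
    apply Subgroup.eq_of_le_of_card_ge hle
    have h1 := K.card_mul_index
    have h2 := (MulAction.stabilizer G a).card_mul_index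
    rw [hK] at h1; rw [hidx a] at h2
    have h3 : Nat.card K * p = Nat.card (MulAction.stabilizer G a) * p := h1.trans h2.symm
    exact le_of_eq (Nat.eq_of_mul_eq_mul_right hp.pos h3).symm
  by_cases hp2' : p = 2
  · have htriv : ∀ K : Subgroup G, K.index = p → K = ⊥ := by
      intro K hK
      have h1 := K.card_mul_index
      rw [hK, hp2'] at h1
      have h2 : Nat.card G ≤ 2 := by
        have h3 := Nat.le_of_dvd (Nat.factorial_pos p) hGfact
        rw [hp2'] at h3
        exact h3
      have h3 : Nat.card K ≤ 1 := by omega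
      exact Subgroup.eq_bot_of_card_le K h3
    exact ⟨x₀, by rw [htriv H hH, htriv _ (hidx x₀)]⟩
  rcases Cfsg.Agent.S0675.result (by rw [hα]; exact hp) G with hsol | h2t
  · haveI := hsol
    have hps : Cfsg.IsPSolvable p G := Cfsg.Agent.Helper20.PLen.isPSolvable_of_isSolvable p
    obtain ⟨g, hg⟩ := (Cfsg.Agent.S3744.result hps).2.1 (MulAction.stabilizer G x₀) H
      (hcop _ (hidx x₀)) ⟨1, by rw [pow_one]; exact hidx x₀⟩ (hcop H hH)
      ⟨1, by rw [pow_one]; exact hH⟩
    exact ⟨g • x₀, by rw [hg, MulAction.stabilizer_smul_eq_stabilizer_map_conj]⟩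
  · -- an involution in the normalizer of `P`
    haveI : Fact (Nat.Prime 2) := ⟨Nat.prime_two⟩
    obtain ⟨t₀, ht₀⟩ := exists_prime_orderOf_dvd_card' 2 heven.two_dvd
    obtain ⟨t, ht_def⟩ : ∃ t : G, t = (t₀ : G) := ⟨_, rfl⟩
    have htn : t ∈ Subgroup.normalizer ((P : Subgroup G) : Set G) := by rw [ht_def]; exact t₀.2
    have hto : orderOf t = 2 := by rw [ht_def, Subgroup.orderOf_coe]; exact ht₀
    have htt : t * t = 1 := by rw [← pow_two, ← hto]; exact pow_orderOf_eq_one t
    have ht1 : t ≠ 1 := by intro h; rw [h, orderOf_one] at hto; omega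
    have hnorm : ∀ x ∈ (P : Subgroup G), t * x * t⁻¹ ∈ (P : Subgroup G) :=
      fun x hx => (Subgroup.mem_normalizer_iff.1 htn x).1 hx
    have hPcard : Nat.card (P : Subgroup G) = p := by
      obtain ⟨k, hk⟩ := IsPGroup.iff_card.1 P.isPGroup'
      have hk1 : k ≠ 0 := by
        intro h0
        rw [h0, pow_zero] at hk
        exact (P.ne_bot_of_dvd_card hdvd) (Subgroup.card_eq_one.1 hk)
      have hk2 : k < 2 := by
        by_contra hcon
        rw [not_lt] at hcon
        apply hp2
        have h1 : p ^ k ∣ Nat.card G := hk ▸ Subgroup.card_subgroup_dvd_card (P : Subgroup G)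
        exact (pow_dvd_pow p hcon).trans h1
      have hk3 : k = 1 := by omega
      rw [hk, hk3, pow_one]
    have hPord : ∀ x : G, x ∈ (P : Subgroup G) → x ≠ 1 → orderOf x = p := by
      intro x hx hx1
      have h1 : orderOf x ∣ p := by
        have h := orderOf_dvd_natCard (⟨x, hx⟩ : (P : Subgroup G))
        rw [hPcard, Subgroup.orderOf_mk] at h
        exact h
      rcases (Nat.dvd_prime hp).1 h1 with h | h
      · exact absurd (orderOf_eq_one_iff.1 h) hx1
      · exact h
    have hYcard : Nat.card (↥G ⧸ H) = p := hH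
    have hidxY : ∀ β : ↥G ⧸ H, (MulAction.stabilizer G β).index = p := by
      intro β
      rw [MulAction.index_stabilizer_of_transitive G β, hYcard]
    -- freeness of `P` on both sets
    have hfree : ∀ (K : Subgroup G), K.index = p → ∀ x ∈ (P : Subgroup G), x ∈ K → x = 1 := by
      intro K hK x hx hxK
      by_contra hx1
      have h1 : orderOf x ∣ Nat.card K := Subgroup.orderOf_dvd_natCard K hxK
      rw [hPord x hx hx1] at h1
      have h2 := hcop K hK
      rw [Nat.coprime_comm, hp.coprime_iff_not_dvd] at h2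
      exact h2 h1
    have hfreeα : ∀ x ∈ (P : Subgroup G), ∀ a : α, x • a = a → x = 1 :=
      fun x hx a ha => hfree _ (hidx a) x hx (MulAction.mem_stabilizer_iff.2 ha)
    have hfreeY : ∀ x ∈ (P : Subgroup G), ∀ β : ↥G ⧸ H, x • β = β → x = 1 :=
      fun x hx β hβ => hfree _ (hidxY β) x hx (MulAction.mem_stabilizer_iff.2 hβ)
    have htransα : ∀ a b : α, ∃ x ∈ (P : Subgroup G), x • a = b := by
      intro a b
      have hinj : Function.Injective (fun x : (P : Subgroup G) => (x : G) • a) := by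
        intro x y hxy
        have hxy' : (x : G) • a = (y : G) • a := hxy
        have h1 : ((y : G)⁻¹ * (x : G)) • a = a := by
          rw [mul_smul, inv_smul_eq_iff]; exact hxy'
        have h2 := hfreeα _ (Subgroup.mul_mem _ (Subgroup.inv_mem _ y.2) x.2) a h1
        exact Subtype.ext (inv_mul_eq_one.1 h2).symm
      have hbij := hinj.bijective_of_nat_card_le
        (by rw [hPcard, Nat.card_eq_fintype_card, hα])
      obtain ⟨x, hx⟩ := hbij.2 b
      exact ⟨x, x.2, hx⟩
    have htransY : ∀ β η : ↥G ⧸ H, ∃ x ∈ (P : Subgroup G), x • β = η := by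
      intro β η
      have hinj : Function.Injective (fun x : (P : Subgroup G) => (x : G) • β) := by
        intro x y hxy
        have hxy' : (x : G) • β = (y : G) • β := hxy
        have h1 : ((y : G)⁻¹ * (x : G)) • β = β := by
          rw [mul_smul, inv_smul_eq_iff]; exact hxy'
        have h2 := hfreeY _ (Subgroup.mul_mem _ (Subgroup.inv_mem _ y.2) x.2) β h1
        exact Subtype.ext (inv_mul_eq_one.1 h2).symm
      have hbij := hinj.bijective_of_nat_card_le (by rw [hPcard, hYcard])
      obtain ⟨x, hx⟩ := hbij.2 η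
      exact ⟨x, x.2, hx⟩
    have hgen : ∀ x ∈ (P : Subgroup G), x ≠ 1 → ∀ y ∈ (P : Subgroup G), ∃ k : ℤ, x ^ k = y := by
      intro x hx hx1 y hy
      have h1 : Subgroup.zpowers (⟨x, hx⟩ : (P : Subgroup G)) = ⊤ :=
        zpowers_eq_top_of_prime_card hPcard (fun h => hx1 (congrArg Subtype.val h))
      have h2 : (⟨y, hy⟩ : (P : Subgroup G)) ∈ Subgroup.zpowers (⟨x, hx⟩ : (P : Subgroup G)) := by
        rw [h1]; trivial
      obtain ⟨k, hk⟩ := Subgroup.mem_zpowers_iff.1 h2
      exact ⟨k, by simpa using congrArg Subtype.val hk⟩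
    have hodd : ¬ 2 ∣ p := by
      intro h
      rcases (Nat.dvd_prime hp).1 h with h' | h'
      · omega
      · exact hp2' h'.symm
    obtain ⟨a₀, ha₀⟩ := exists_fixed_of_odd (X := α) t htt
      (by rw [Nat.card_eq_fintype_card, hα]; exact hodd)
    obtain ⟨β₀, hβ₀⟩ := exists_fixed_of_odd (X := ↥G ⧸ H) t htt (by rw [hYcard]; exact hodd)
    have hnc : ∀ x ∈ (P : Subgroup G), t * x = x * t → x = 1 := by
      intro x hx hcomm
      by_contra hx1
      apply ht1
      have hall : ∀ b : α, t • b = b := by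
        intro b
        obtain ⟨y, hy, rfl⟩ := htransα a₀ b
        obtain ⟨k, rfl⟩ := hgen x hx hx1 y hy
        have hc : t * x ^ k = x ^ k * t := (Commute.zpow_right (show Commute t x from hcomm) k).eq
        rw [smul_smul, hc, mul_smul, ha₀]
      exact Subtype.ext (Equiv.ext fun b => hall b)
    have hua : ∀ a : α, t • a = a → a = a₀ :=
      fun a ha => fixed_unique (P : Subgroup G) t hnorm hfreeα htransα hnc ha ha₀
    have huβ : ∀ β : ↥G ⧸ H, t • β = β → β = β₀ :=
      fun β hβ => fixed_unique (P : Subgroup G) t hnorm hfreeY htransY hnc hβ hβ₀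
    have h2pair : ∀ a a' b b' : α, a ≠ a' → b ≠ b' → ∃ g : G, g • a = b ∧ g • a' = b' :=
      fun a a' b b' h h' => (MulAction.is_two_pretransitive_iff.1 h2t) h h'
    rcases design_core h2pair t htt a₀ β₀ hua hβ₀ huβ with hfix | htr
    · obtain ⟨g₀, rfl⟩ := QuotientGroup.mk_surjective β₀
      refine ⟨g₀⁻¹ • a₀, hfin H _ hH ?_⟩
      intro h hh
      have h1 : (g₀ * h * g₀⁻¹) • (QuotientGroup.mk g₀ : ↥G ⧸ H) = QuotientGroup.mk g₀ := by
        rw [MulAction.Quotient.smul_mk, QuotientGroup.eq, smul_eq_mul]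
        have e : (g₀ * h * g₀⁻¹ * g₀)⁻¹ * g₀ = h⁻¹ := by group
        rw [e]; exact H.inv_mem hh
      have h2 := hfix _ h1
      rw [MulAction.mem_stabilizer_iff, smul_smul]
      have e : h * g₀⁻¹ = g₀⁻¹ * (g₀ * h * g₀⁻¹) := by group
      rw [e, mul_smul, h2]
    · exfalso
      have h1 : Nat.card α ∣ Nat.card (MulAction.stabilizer G β₀) :=
        card_dvd_of_trans (MulAction.stabilizer G β₀) a₀
          (fun a => by
            obtain ⟨g, hg1, hg2⟩ := htr a
            exact ⟨g, MulAction.mem_stabilizer_iff.2 hg1, hg2⟩)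
      rw [Nat.card_eq_fintype_card, hα] at h1
      have h2 := hcop _ (hidxY β₀)
      rw [Nat.coprime_comm, hp.coprime_iff_not_dvd] at h2
      exact h2 h1

end Cfsg.Agent.S0677
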