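import Cfsg.Statements.S0678
import Mathlib
import Cfsg.Agent.S0675
import Cfsg.Agent.S0676

set_option autoImplicit false
open Cfsg

namespace Cfsg.Agent.S0678

theorem card_dvd_of_trans {G X : Type*} [Group G] [Finite G] [MulAction G X] [Finite X]
    (S : Subgroup G) (a₀ : X) (h : ∀ a : X, ∃ g ∈ S, g • a₀ = a) :
    Nat.card X ∣ Nat.card S := by
  have horb : MulAction.orbit S a₀ = Set.univ := by
    ext a
    simp only [Set.mem_univ, iff_true]
    obtain ⟨g, hg, hga⟩ := h a
    exact ⟨⟨g, hg⟩, hga⟩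
  have h1 : (MulAction.stabilizer S a₀).index = Nat.card X := by
    rw [MulAction.index_stabilizer, horb, Set.ncard_univ]
  rw [← h1]
  exact Subgroup.index_dvd_card _

-- a non-trivial normal subgroup of a 2-transitive group is transitive
theorem normal_trans {α : Type*} (X : Subgroup (Equiv.Perm α))
    (h2 : ∀ a a' b b' : α, a ≠ a' → b ≠ b' → ∃ g : X, g • a = b ∧ g • a' = b')
    (Nn : Subgroup X) (hn : Nn.Normal) (hN : Nn ≠ ⊥) (b b' : α) : ∃ y ∈ Nn, y • b = b' := by
  by_cases hbb : b = b'
  · exact ⟨1, Nn.one_mem, by rw [one_smul, hbb]⟩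
  obtain ⟨⟨x, hx⟩, hx1⟩ := (Subgroup.ne_bot_iff_exists_ne_one).1 hN
  have hx1' : x ≠ 1 := fun h => hx1 (Subtype.ext h)
  obtain ⟨a, ha⟩ : ∃ a : α, x • a ≠ a := by
    by_contra hcon
    rw [not_exists] at hcon
    exact hx1' (Subtype.ext (Equiv.ext fun a => not_not.1 (hcon a)))
  obtain ⟨g, hg1, hg2⟩ := h2 a (x • a) b b' (Ne.symm ha) hbb
  refine ⟨g * x * g⁻¹, hn.conj_mem x hx g, ?_⟩
  rw [mul_smul, mul_smul, inv_smul_eq_iff.2 hg1.symm, hg2]

theorem mult_trans_dvd {α : Type*} [Fintype α] [DecidableEq α] (hα : Fintype.card α = 7)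
    (X : Subgroup (Equiv.Perm α)) (k : ℕ) (hk : k ≤ 7)
    (h : MulAction.IsMultiplyPretransitive X α k) :
    ∃ d, d ∣ Nat.card X ∧ d * (7 - k).factorial = Nat.factorial 7 := by
  obtain ⟨s, -, hs⟩ := Finset.exists_subset_card_eq (s := (Finset.univ : Finset α)) (n := k)
    (by rw [Finset.card_univ, hα]; exact hk)
  have h1 := MulAction.IsMultiplyPretransitive.index_of_fixingSubgroup_mul h
    (s := (s : Set α)) (by rw [Set.ncard_coe_finset, hs])
  rw [Nat.card_eq_fintype_card, hα] at h1
  exact ⟨_, Subgroup.index_dvd_card _, h1⟩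

theorem sign_involution {α : Type*} [Fintype α] [DecidableEq α] (hα : Fintype.card α = 7)
    (σ : Equiv.Perm α) (ho : orderOf σ = 2) (x₁ : α) (h1 : σ x₁ = x₁)
    (h2 : ∀ x, σ x = x → x = x₁) : Equiv.Perm.sign σ = -1 := by
  have hsupp : σ.support = Finset.univ.erase x₁ := by
    ext x
    rw [Equiv.Perm.mem_support, Finset.mem_erase]
    constructor
    · intro h
      exact ⟨fun hx => h (by rw [hx]; exact h1), Finset.mem_univ _⟩
    · rintro ⟨h, -⟩ hx
      exact h (h2 x hx)
  have hcard : σ.support.card = 6 := by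
    rw [hsupp, Finset.card_erase_of_mem (Finset.mem_univ _), Finset.card_univ, hα]
  obtain ⟨n, hn⟩ := Equiv.Perm.cycleType_prime_order (σ := σ) (by rw [ho]; exact Nat.prime_two)
  rw [ho] at hn
  have hsum := Equiv.Perm.sum_cycleType σ
  rw [hn, Multiset.sum_replicate, hcard, smul_eq_mul] at hsum
  have hn2 : n = 2 := by omega
  rw [Equiv.Perm.sign_of_cycleType, hn, Multiset.sum_replicate, Multiset.card_replicate, hn2]
  rfl

-- an involution normalising a Sylow 7-subgroup is an odd permutation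
theorem odd_elt {α : Type*} [Fintype α] [DecidableEq α] (hα : Fintype.card α = 7)
    (X : Subgroup (Equiv.Perm α)) (P : Sylow 7 X) (hPcard : Nat.card (P : Subgroup X) = 7)
    (heven : Even (Nat.card (Subgroup.normalizer ((P : Subgroup X) : Set X)))) :
    ∃ t : X, Equiv.Perm.sign (t : Equiv.Perm α) = -1 := by
  haveI : Fact (Nat.Prime 7) := ⟨by norm_num⟩
  have hp : (7 : ℕ).Prime := by norm_num
  have h2ne : (2 : ZMod 7) ≠ 0 := by
    intro h
    have h' : ((2 : ℕ) : ZMod 7) = 0 := by exact_mod_cast h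
    rw [ZMod.natCast_eq_zero_iff] at h'
    omega
  haveI : Fact (Nat.Prime 2) := ⟨Nat.prime_two⟩
  obtain ⟨t₀, ht₀⟩ := exists_prime_orderOf_dvd_card' 2 heven.two_dvd
  obtain ⟨t, ht_def⟩ : ∃ t : X, t = (t₀ : X) := ⟨_, rfl⟩
  have htn : t ∈ Subgroup.normalizer ((P : Subgroup X) : Set X) := by rw [ht_def]; exact t₀.2
  have hto : orderOf t = 2 := by rw [ht_def, Subgroup.orderOf_coe]; exact ht₀
  have htt : t * t = 1 := by rw [← pow_two, ← hto]; exact pow_orderOf_eq_one t
  have ht1 : t ≠ 1 := by intro h; rw [h, orderOf_one] at hto; omega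
  obtain ⟨c₀, hc₀⟩ := exists_prime_orderOf_dvd_card' (G := ↥(P : Subgroup X)) 7
    (by rw [hPcard])
  obtain ⟨c, hc_def⟩ : ∃ c : X, c = (c₀ : X) := ⟨_, rfl⟩
  have hcP : c ∈ (P : Subgroup X) := by rw [hc_def]; exact c₀.2
  have hco : orderOf c = 7 := by rw [hc_def, Subgroup.orderOf_coe]; exact hc₀
  have hc1 : c ≠ 1 := by
    intro h; rw [h, orderOf_one] at hco; omega
  have hco' : orderOf (c : Equiv.Perm α) = 7 := by rw [Subgroup.orderOf_coe]; exact hco
  obtain ⟨e, he⟩ := Cfsg.Agent.Helper5.exists_equiv_zmod hα (c : Equiv.Perm α) hco'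
  have hy : t * c * t⁻¹ ∈ (P : Subgroup X) := (Subgroup.mem_normalizer_iff.1 htn c).1 hcP
  obtain ⟨n, hn⟩ : ∃ n : ℕ, c ^ n = t * c * t⁻¹ := by
    have h1 : Subgroup.zpowers (⟨c, hcP⟩ : (P : Subgroup X)) = ⊤ :=
      zpowers_eq_top_of_prime_card hPcard (fun h => hc1 (congrArg Subtype.val h))
    have h2 : (⟨t * c * t⁻¹, hy⟩ : (P : Subgroup X)) ∈
        Submonoid.powers (⟨c, hcP⟩ : (P : Subgroup X)) := by
      rw [mem_powers_iff_mem_zpowers, h1]; trivial
    obtain ⟨n, hn⟩ := (Submonoid.mem_powers_iff _ _).1 h2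
    exact ⟨n, by simpa using congrArg Subtype.val hn⟩
  have hpow : ∀ (m : ℕ) (x : α), e (((c : Equiv.Perm α) ^ m) x) = e x + m := by
    intro m
    induction m with
    | zero => intro x; simp
    | succ m ih =>
      intro x
      rw [pow_succ', Equiv.Perm.mul_apply, he, ih]
      push_cast; ring
  have hcomm : (t : Equiv.Perm α) * (c : Equiv.Perm α) =
      (c : Equiv.Perm α) ^ n * (t : Equiv.Perm α) := by
    have h1 : t * c = c ^ n * t := by rw [hn]; group
    have h2 := congrArg Subtype.val h1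
    simpa using h2
  have hu : ∀ x : α, e ((t : Equiv.Perm α) ((c : Equiv.Perm α) x)) =
      e ((t : Equiv.Perm α) x) + n := by
    intro x
    have h := congrArg (fun σ : Equiv.Perm α => e (σ x)) hcomm
    simp only [Equiv.Perm.mul_apply] at h
    rw [h, hpow]
  have hTT : ∀ x : α, (t : Equiv.Perm α) ((t : Equiv.Perm α) x) = x := by
    intro x
    have h2 := congrArg Subtype.val htt
    have h3 : (t : Equiv.Perm α) * (t : Equiv.Perm α) = 1 := by simpa using h2
    have h4 := congrArg (fun σ : Equiv.Perm α => σ x) h3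
    simpa using h4
  obtain ⟨b₀, hb₀⟩ : ∃ b₀ : ZMod 7, b₀ = e ((t : Equiv.Perm α) (e.symm 0)) := ⟨_, rfl⟩
  have haff : ∀ (m : ℕ) (x : α), e x = (m : ZMod 7) →
      e ((t : Equiv.Perm α) x) = b₀ + (n : ZMod 7) * m := by
    intro m
    induction m with
    | zero =>
      intro x hx
      have hx' : x = e.symm 0 := by
        rw [Equiv.eq_symm_apply, hx]; simp
      rw [hx', hb₀]; simp
    | succ m ih =>
      intro x hx
      have h1 : x = (c : Equiv.Perm α) (e.symm (m : ZMod 7)) := by
        apply e.injective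
        rw [he, Equiv.apply_symm_apply, hx]; push_cast; ring
      rw [h1, hu, ih _ (Equiv.apply_symm_apply e _)]
      push_cast; ring
  have haff' : ∀ x : α, e ((t : Equiv.Perm α) x) = b₀ + (n : ZMod 7) * e x := by
    intro x
    have h := haff (e x).val x (ZMod.natCast_zmod_val (e x)).symm
    rw [ZMod.natCast_zmod_val] at h
    exact h
  have hk0 : b₀ + (n : ZMod 7) * b₀ = 0 := by
    have h1 := haff' ((t : Equiv.Perm α) (e.symm 0))
    rw [hTT, haff', Equiv.apply_symm_apply] at h1
    linear_combination -h1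
  have hk1 : (n : ZMod 7) * (n : ZMod 7) = 1 := by
    have h1 := haff' ((t : Equiv.Perm α) (e.symm 1))
    rw [hTT, haff', Equiv.apply_symm_apply] at h1
    linear_combination -h1 - hk0
  have hkk : ((n : ZMod 7) - 1) * ((n : ZMod 7) + 1) = 0 := by linear_combination hk1
  have hneg : (n : ZMod 7) = -1 := by
    rcases mul_eq_zero.1 hkk with h | h
    · exfalso
      have hn1 : (n : ZMod 7) = 1 := by linear_combination h
      rw [hn1] at hk0
      have hb0 : b₀ = 0 := by
        have h2 : (2 : ZMod 7) * b₀ = 0 := by linear_combination hk0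
        exact (mul_eq_zero.1 h2).resolve_left h2ne
      apply ht1
      apply Subtype.ext
      apply Equiv.ext
      intro x
      apply e.injective
      rw [haff', hn1, hb0]
      simp
    · linear_combination h
  have hT : ∀ x : α, e ((t : Equiv.Perm α) x) = b₀ - e x := by
    intro x
    rw [haff', hneg]; ring
  have h2i : (2 : ZMod 7)⁻¹ * 2 = 1 := inv_mul_cancel₀ h2ne
  have hfix : (t : Equiv.Perm α) (e.symm (b₀ * 2⁻¹)) = e.symm (b₀ * 2⁻¹) := by
    apply e.injective
    rw [hT, Equiv.apply_symm_apply]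
    linear_combination (-b₀) * h2i
  have huniq : ∀ x : α, (t : Equiv.Perm α) x = x → x = e.symm (b₀ * 2⁻¹) := by
    intro x hx
    have h1 := hT x
    rw [hx] at h1
    rw [Equiv.eq_symm_apply]
    have h3 : (2 : ZMod 7) * e x = b₀ := by linear_combination h1
    rw [← h3]
    linear_combination (-e x) * h2i
  exact ⟨t, sign_involution hα (t : Equiv.Perm α) (by rw [Subgroup.orderOf_coe]; exact hto)
    _ hfix huniq⟩

theorem sylow_data {α : Type*} [Fintype α] [DecidableEq α] (hα : Fintype.card α = 7)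
    (X : Subgroup (Equiv.Perm α)) [MulAction.IsPretransitive X α] (hX : ¬ Group.IsSolvable X) :
    42 ∣ Nat.card X ∧ ∃ k s : ℕ, Nat.card X = 7 * k * s ∧ k ∣ 6 ∧ k ≠ 1 ∧ s % 7 = 1 ∧
      (∀ Q : Subgroup X, Nat.card Q = 7 →
        Nat.card (Subgroup.normalizer ((Q : Subgroup X) : Set X)) = 7 * k) ∧
      (Even k → 210 ∣ Nat.card X ∧ ∃ t : X, Equiv.Perm.sign (t : Equiv.Perm α) = -1) := by
  haveI : Fact (Nat.Prime 7) := ⟨by norm_num⟩
  have hp : (7 : ℕ).Prime := by norm_num
  obtain ⟨x₀⟩ : Nonempty α := by rw [← Fintype.card_pos_iff, hα]; norm_num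
  have hidx : ∀ a : α, (MulAction.stabilizer X a).index = 7 := by
    intro a
    have h := MulAction.index_stabilizer_of_transitive X a
    rw [Nat.card_eq_fintype_card, hα] at h
    exact h
  have hdvd : 7 ∣ Nat.card X := by
    rw [← hidx x₀]; exact Subgroup.index_dvd_card _
  have hGfact : Nat.card X ∣ Nat.factorial 7 := by
    have h1 : Nat.card X ∣ Nat.card (Equiv.Perm α) := Subgroup.card_subgroup_dvd_card X
    rwa [Nat.card_eq_fintype_card (α := Equiv.Perm α), Fintype.card_perm, hα] at h1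
  have h7f : Nat.factorial 7 = 5040 := by decide
  have hp2 : ¬ 7 ^ 2 ∣ Nat.card X := by
    intro h
    have h2 : 7 ^ 2 ∣ Nat.factorial 7 := h.trans hGfact
    rw [h7f] at h2
    omega
  have h2t : MulAction.IsMultiplyPretransitive X α 2 := by
    rcases Cfsg.Agent.S0675.result (by rw [hα]; exact hp) X with hsol | h2t
    · exact absurd hsol hX
    · exact h2t
  have h42 : 42 ∣ Nat.card X := by
    obtain ⟨d, hd, hd2⟩ := mult_trans_dvd hα X 2 (by norm_num) h2t
    have h5 : (7 - 2).factorial = 120 := by decide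
    rw [h5, h7f] at hd2
    have hd42 : d = 42 := by omega
    rw [← hd42]; exact hd
  have h2pair : ∀ a a' b b' : α, a ≠ a' → b ≠ b' → ∃ g : X, g • a = b ∧ g • a' = b' :=
    fun a a' b b' h h' => (MulAction.is_two_pretransitive_iff.1 h2t) h h'
  have hPcard : ∀ P : Sylow 7 X, Nat.card (P : Subgroup X) = 7 := by
    intro P
    obtain ⟨k, hk⟩ := IsPGroup.iff_card.1 P.isPGroup'
    have hk1 : k ≠ 0 := by
      intro h0
      rw [h0, pow_zero] at hk
      exact (P.ne_bot_of_dvd_card hdvd) (Subgroup.card_eq_one.1 hk)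
    have hk2 : k < 2 := by
      by_contra hcon
      rw [not_lt] at hcon
      apply hp2
      have h1 : 7 ^ k ∣ Nat.card X := hk ▸ Subgroup.card_subgroup_dvd_card (P : Subgroup X)
      exact (pow_dvd_pow 7 hcon).trans h1
    have hk3 : k = 1 := by omega
    rw [hk, hk3, pow_one]
  obtain ⟨P⟩ : Nonempty (Sylow 7 X) := inferInstance
  have hP7 := hPcard P
  obtain ⟨c₀, hc₀⟩ := exists_prime_orderOf_dvd_card' (G := ↥(P : Subgroup X)) 7
    (by rw [hP7])
  obtain ⟨c, hc_def⟩ : ∃ c : X, c = (c₀ : X) := ⟨_, rfl⟩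
  have hcP : c ∈ (P : Subgroup X) := by rw [hc_def]; exact c₀.2
  have hco : orderOf c = 7 := by rw [hc_def, Subgroup.orderOf_coe]; exact hc₀
  have hc1 : c ≠ 1 := by
    intro h; rw [h, orderOf_one] at hco; omega
  have hco' : orderOf (c : Equiv.Perm α) = 7 := by rw [Subgroup.orderOf_coe]; exact hco
  obtain ⟨e, he⟩ := Cfsg.Agent.Helper5.exists_equiv_zmod hα (c : Equiv.Perm α) hco'
  have hpow : ∀ (m : ℕ) (x : α), e (((c : Equiv.Perm α) ^ m) x) = e x + m := by
    intro m
    induction m with
    | zero => intro x; simp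
    | succ m ih =>
      intro x
      rw [pow_succ', Equiv.Perm.mul_apply, he, ih]
      push_cast; ring
  have hgen : ∀ y ∈ (P : Subgroup X), ∃ k : ℤ, c ^ k = y := by
    intro y hy
    have h1 : Subgroup.zpowers (⟨c, hcP⟩ : (P : Subgroup X)) = ⊤ :=
      zpowers_eq_top_of_prime_card hP7 (fun h => hc1 (congrArg Subtype.val h))
    have h2 : (⟨y, hy⟩ : (P : Subgroup X)) ∈ Subgroup.zpowers (⟨c, hcP⟩ : (P : Subgroup X)) := by
      rw [h1]; trivial
    obtain ⟨k, hk⟩ := Subgroup.mem_zpowers_iff.1 h2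
    exact ⟨k, by simpa using congrArg Subtype.val hk⟩
  have hcent : ∀ g : X, g * c = c * g → g ∈ (P : Subgroup X) := by
    intro g hg
    obtain ⟨j, hj⟩ : ∃ j : ℕ, (j : ZMod 7) = e ((g : Equiv.Perm α) (e.symm 0)) :=
      ⟨(e ((g : Equiv.Perm α) (e.symm 0))).val, ZMod.natCast_zmod_val _⟩
    have hgc : ∀ m : ℕ, (g : Equiv.Perm α) * (c : Equiv.Perm α) ^ m =
        (c : Equiv.Perm α) ^ m * (g : Equiv.Perm α) := by
      intro m
      have h1 : (g : Equiv.Perm α) * (c : Equiv.Perm α) =
          (c : Equiv.Perm α) * (g : Equiv.Perm α) := by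
        have h2 := congrArg Subtype.val hg
        simpa using h2
      exact (Commute.pow_right (show Commute (g : Equiv.Perm α) (c : Equiv.Perm α) from h1) m).eq
    have hgx : ∀ x : α, (g : Equiv.Perm α) x = ((c : Equiv.Perm α) ^ j) x := by
      intro x
      obtain ⟨m, hm⟩ : ∃ m : ℕ, (m : ZMod 7) = e x := ⟨(e x).val, ZMod.natCast_zmod_val _⟩
      have hx : x = ((c : Equiv.Perm α) ^ m) (e.symm 0) := by
        apply e.injective
        rw [hpow, Equiv.apply_symm_apply, hm]; ring
      have h2 := congrArg (fun σ : Equiv.Perm α => e (σ (e.symm 0))) (hgc m)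
      simp only [Equiv.Perm.mul_apply] at h2
      rw [hpow, ← hx] at h2
      apply e.injective
      rw [hpow, h2, ← hj, hm]
      ring
    have hgeq : g = c ^ j := Subtype.ext (Equiv.ext fun x => by rw [hgx x]; rfl)
    rw [hgeq]; exact Subgroup.pow_mem _ hcP j
  have hCP : Subgroup.centralizer ((P : Subgroup X) : Set X) = (P : Subgroup X) := by
    apply le_antisymm
    · intro g hg
      exact hcent g ((Subgroup.mem_centralizer_iff.1 hg c hcP).symm)
    · intro g hg
      rw [Subgroup.mem_centralizer_iff]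
      intro h hh
      obtain ⟨a, rfl⟩ := hgen g hg
      obtain ⟨b, rfl⟩ := hgen h hh
      exact zpow_mul_comm c b a
  obtain ⟨N, hN_def⟩ : ∃ N : Subgroup X, N = Subgroup.normalizer ((P : Subgroup X) : Set X) :=
    ⟨_, rfl⟩
  have hPN : (P : Subgroup X) ≤ N := by rw [hN_def]; exact Subgroup.le_normalizer
  obtain ⟨k, hk_def⟩ : ∃ k : ℕ, k = (P : Subgroup X).relIndex N := ⟨_, rfl⟩
  have hNcard : Nat.card N = 7 * k := by
    have h := Subgroup.relIndex_mul_relIndex (⊥ : Subgroup X) (P : Subgroup X) N bot_le hPN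
    rw [Subgroup.relIndex_bot_left, Subgroup.relIndex_bot_left, hP7, ← hk_def] at h
    exact h.symm
  have hk6 : k ∣ 6 := by
    have key := Subgroup.card_dvd_of_injective _
      (QuotientGroup.kerLift_injective (P : Subgroup X).normalizerMonoidHom)
    rw [Subgroup.normalizerMonoidHom_ker, ← Subgroup.index, ← Subgroup.relIndex, hCP, ← hN_def,
      ← hk_def] at key
    haveI : IsCyclic ↥(P : Subgroup X) := isCyclic_of_prime_card hP7
    rw [IsCyclic.card_mulAut, hP7, Nat.totient_prime hp] at key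
    exact key
  obtain ⟨s, hs_def⟩ : ∃ s : ℕ, s = Nat.card (Sylow 7 X) := ⟨_, rfl⟩
  have hsidx : ∀ Q : Sylow 7 X,
      Nat.card (Subgroup.normalizer ((Q : Subgroup X) : Set X)) * s = Nat.card X := by
    intro Q
    rw [hs_def, Sylow.card_eq_index_normalizer Q]
    exact Subgroup.card_mul_index _
  have hs1 : s % 7 = 1 := by
    have h := card_sylow_modEq_one 7 X
    rw [← hs_def] at h
    exact h
  have hcard : Nat.card X = 7 * k * s := by
    have h := hsidx P
    rw [← hN_def, hNcard] at h
    exact h.symm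
  have hspos : 0 < s := by
    rcases Nat.eq_zero_or_pos s with h | h
    · rw [h] at hs1; omega
    · exact h
  have hk1 : k ≠ 1 := by
    intro hk
    have hNC : Subgroup.normalizer ((P : Subgroup X) : Set X) ≤
        Subgroup.centralizer ((P : Subgroup X) : Set X) := by
      rw [hCP, ← hN_def]
      rw [hk_def] at hk
      exact Subgroup.relIndex_eq_one.1 hk
    have hcomp := MonoidHom.ker_transferSylow_isComplement' P hNC
    have hnd := MonoidHom.not_dvd_card_ker_transferSylow P hNC
    have hmul := hcomp.card_mul_card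
    rw [hP7] at hmul
    by_cases hbot : (MonoidHom.transferSylow P hNC).ker = ⊥
    · rw [hbot, Subgroup.card_bot] at hmul
      omega
    · apply hnd
      have h := card_dvd_of_trans (MonoidHom.transferSylow P hNC).ker x₀
        (fun a => normal_trans X h2pair _ (MonoidHom.normal_ker _) hbot x₀ a)
      rw [Nat.card_eq_fintype_card, hα] at h
      exact h
  have hQ : ∀ Q : Subgroup X, Nat.card Q = 7 →
      Nat.card (Subgroup.normalizer ((Q : Subgroup X) : Set X)) = 7 * k := by
    intro Q hQ7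
    have hQp : IsPGroup 7 Q := IsPGroup.of_card (n := 1) (by rw [hQ7, pow_one])
    obtain ⟨Q', hQ'⟩ := hQp.exists_le_sylow
    have hQeq : Q = (Q' : Subgroup X) :=
      Subgroup.eq_of_le_of_card_ge hQ' (by rw [hPcard Q', hQ7])
    have h := hsidx Q'
    rw [← hQeq, hcard] at h
    exact Nat.eq_of_mul_eq_mul_right hspos h
  refine ⟨h42, k, s, hcard, hk6, hk1, hs1, hQ, ?_⟩
  intro hkev
  have heven : Even (Nat.card (Subgroup.normalizer ((P : Subgroup X) : Set X))) := by
    rw [← hN_def, hNcard]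
    exact hkev.mul_left 7
  have h3t := Cfsg.Agent.S0676.result hα X hX P heven
  refine ⟨?_, odd_elt hα X P hP7 heven⟩
  obtain ⟨d, hd, hd2⟩ := mult_trans_dvd hα X 3 (by norm_num) h3t
  have h4 : (7 - 3).factorial = 24 := by decide
  rw [h4, h7f] at hd2
  have hd210 : d = 210 := by omega
  rw [← hd210]; exact hd

/-- A non-solvable transitive permutation group on 7 points that does not contain the alternating group is a simple group of order 168. -/
theorem result {α : Type*} [Fintype α] [DecidableEq α] (hα : Fintype.card α = 7) (G : Subgroup (Equiv.Perm α)) [MulAction.IsPretransitive G α] (hG : ¬ Group.IsSolvable G) (hA : ¬ alternatingGroup α ≤ G) : Nat.card G = 168 ∧ IsSimpleGroup G := by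
  haveI : Fact (Nat.Prime 7) := ⟨by norm_num⟩
  have hp : (7 : ℕ).Prime := by norm_num
  obtain ⟨x₀⟩ : Nonempty α := by rw [← Fintype.card_pos_iff, hα]; norm_num
  haveI : Nontrivial α := by
    rw [← Fintype.one_lt_card_iff_nontrivial, hα]; norm_num
  obtain ⟨h42, k, s, hcard, hk6, hk1, hs1, hQ, hev⟩ := sylow_data hα G hG
  have h2t : MulAction.IsMultiplyPretransitive G α 2 := by
    rcases Cfsg.Agent.S0675.result (by rw [hα]; exact hp) G with hsol | h2t
    · exact absurd hsol hG
    · exact h2t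
  have h2pair : ∀ a a' b b' : α, a ≠ a' → b ≠ b' → ∃ g : G, g • a = b ∧ g • a' = b' :=
    fun a a' b b' h h' => (MulAction.is_two_pretransitive_iff.1 h2t) h h'
  -- the even part
  obtain ⟨sgn, hsgn⟩ : ∃ sgn : G →* ℤˣ, sgn = Equiv.Perm.sign.comp G.subtype := ⟨_, rfl⟩
  have hsgn_apply : ∀ g : G, sgn g = Equiv.Perm.sign (g : Equiv.Perm α) := by
    intro g; rw [hsgn]; rfl
  obtain ⟨K', hK'⟩ : ∃ K' : Subgroup (Equiv.Perm α), K' = sgn.ker.map G.subtype := ⟨_, rfl⟩
  have hK'G : K' ≤ G := by
    rw [hK']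
    exact Subgroup.map_subtype_le _
  have hK'A : K' ≤ alternatingGroup α := by
    rw [hK']
    rintro _ ⟨g, hg, rfl⟩
    rw [Equiv.Perm.mem_alternatingGroup]
    have h1 := MonoidHom.mem_ker.1 hg
    rw [hsgn_apply] at h1
    exact h1
  have hK'card : Nat.card K' = Nat.card sgn.ker := by
    rw [hK']
    exact Subgroup.card_map_of_injective G.subtype_injective
  have hidx : sgn.ker.index = 1 ∨ sgn.ker.index = 2 := by
    have h1 : sgn.ker.index ∣ 2 := by
      rw [Subgroup.index_ker]
      have h2 : Nat.card sgn.range ∣ Nat.card ℤˣ := Subgroup.card_subgroup_dvd_card _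
      rw [Nat.card_eq_fintype_card (α := ℤˣ), Fintype.card_units_int] at h2
      exact h2
    have h3 := Nat.le_of_dvd (by norm_num) h1
    have h4 : 0 < sgn.ker.index := Nat.pos_of_dvd_of_pos h1 (by norm_num)
    omega
  have hGK : Nat.card G = Nat.card K' * sgn.ker.index := by
    rw [hK'card]; exact (Subgroup.card_mul_index _).symm
  have hker_ne : sgn.ker ≠ ⊥ := by
    intro h
    have hc : Nat.card sgn.ker = 1 := by rw [h, Subgroup.card_bot]
    rw [hK'card, hc] at hGK
    rcases hidx with h1 | h1 <;> rw [h1] at hGK <;> omega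
  haveI hK'trans : MulAction.IsPretransitive K' α := by
    refine ⟨fun a b => ?_⟩
    obtain ⟨y, hy, hyab⟩ := normal_trans G h2pair sgn.ker (MonoidHom.normal_ker sgn) hker_ne a b
    refine ⟨⟨(y : Equiv.Perm α), ?_⟩, hyab⟩
    rw [hK']
    exact Subgroup.mem_map_of_mem G.subtype hy
  have hK'ns : ¬ Group.IsSolvable K' := by
    intro hsol
    apply hG
    haveI := hsol
    exact Group.isSolvable_of_ker_le_range (Subgroup.inclusion hK'G) sgn (by
      intro g hg
      refine ⟨⟨(g : Equiv.Perm α), ?_⟩, Subtype.ext rfl⟩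
      rw [hK']
      exact Subgroup.mem_map_of_mem G.subtype hg)
  have h7f : Nat.factorial 7 = 5040 := by decide
  have hA7 : Nat.card (alternatingGroup α) = 2520 := by
    have h := two_mul_nat_card_alternatingGroup (α := α)
    rw [Nat.card_eq_fintype_card (α := Equiv.Perm α), Fintype.card_perm, hα, h7f] at h
    omega
  have hK'dvd : Nat.card K' ∣ 2520 := by
    rw [← hA7]
    exact Subgroup.card_dvd_of_le hK'A
  obtain ⟨h42', k', s', hcard', hk6', hk1', hs1', -, hev'⟩ := sylow_data hα K' hK'ns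
  have hk'odd : ¬ Even k' := by
    intro h
    obtain ⟨-, t, ht⟩ := hev' h
    have h1 : (t : Equiv.Perm α) ∈ alternatingGroup α := hK'A t.2
    rw [Equiv.Perm.mem_alternatingGroup, ht] at h1
    exact absurd h1 (by decide)
  have hk'3 : k' = 3 := by
    have h1 := Nat.le_of_dvd (by norm_num) hk6'
    have h2 : 0 < k' := Nat.pos_of_dvd_of_pos hk6' (by norm_num)
    rw [Nat.even_iff] at hk'odd
    clear hev' hcard'
    interval_cases k' <;> omega
  rw [hk'3] at hcard'
  have hs'ev : 2 ∣ s' := by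
    rw [hcard'] at h42'
    omega
  have hs'dvd : s' ∣ 120 := by
    rw [hcard', show 7 * 3 * s' = 21 * s' by ring, show (2520 : ℕ) = 21 * 120 by norm_num]
      at hK'dvd
    exact Nat.dvd_of_mul_dvd_mul_left (by norm_num) hK'dvd
  have hs'cases : s' = 8 ∨ s' = 120 := by
    have h1 := Nat.le_of_dvd (by norm_num) hs'dvd
    obtain ⟨j, hj⟩ : ∃ j, s' = 7 * j + 1 := ⟨s' / 7, by omega⟩
    have hj17 : j ≤ 17 := by omega
    have key : ∀ j : ℕ, j ≤ 17 → (7 * j + 1) ∣ 120 → 2 ∣ (7 * j + 1) →
        7 * j + 1 = 8 ∨ 7 * j + 1 = 120 := by decide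
    rw [hj] at hs'dvd hs'ev ⊢
    exact key j hj17 hs'dvd hs'ev
  have hK'168 : Nat.card K' = 168 := by
    rcases hs'cases with h | h
    · omega
    · exfalso
      apply hA
      have hKA : K' = alternatingGroup α :=
        Subgroup.eq_of_le_of_card_ge hK'A (by omega)
      rw [← hKA]; exact hK'G
  rw [hK'168] at hGK
  have hk6le := Nat.le_of_dvd (by norm_num) hk6
  have hkpos : 0 < k := Nat.pos_of_dvd_of_pos hk6 (by norm_num)
  have hks7 : 7 * (k * s) = Nat.card G := by rw [hcard, mul_assoc]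
  have hG168 : Nat.card G = 168 := by
    rcases hidx with h1 | h1
    · rw [h1] at hGK; omega
    · exfalso
      rw [h1] at hGK
      have hks : k * s = 48 := by omega
      have hk6' : k = 6 := by
        clear hev hQ hcard hks7
        interval_cases k <;> omega
      have hk_even : Even k := by rw [hk6']; decide
      obtain ⟨h210, -⟩ := hev hk_even
      rw [hGK] at h210
      omega
  have hk3 : k = 3 := by
    have hks : k * s = 24 := by omega
    clear hev hQ hcard hks7
    interval_cases k <;> omega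
  refine ⟨hG168, ?_⟩
  haveI : Nontrivial G := by
    rw [← Finite.one_lt_card_iff_nontrivial, hG168]; norm_num
  refine IsSimpleGroup.mk (fun N hN => ?_)
  by_cases hNbot : N = ⊥
  · exact Or.inl hNbot
  right
  haveI := hN
  have hNtrans : ∀ a : α, ∃ g ∈ N, g • x₀ = a :=
    fun a => normal_trans G h2pair N hN hNbot x₀ a
  have h7N : 7 ∣ Nat.card N := by
    have h := card_dvd_of_trans N x₀ hNtrans
    rwa [Nat.card_eq_fintype_card, hα] at h
  have hNdvd : Nat.card N ∣ 168 := by
    rw [← hG168]; exact Subgroup.card_subgroup_dvd_card N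
  obtain ⟨Q⟩ : Nonempty (Sylow 7 N) := inferInstance
  have hQ7 : Nat.card (Q : Subgroup N) = 7 := by
    obtain ⟨j, hj⟩ := IsPGroup.iff_card.1 Q.isPGroup'
    have hj1 : j ≠ 0 := by
      intro h0
      rw [h0, pow_zero] at hj
      exact (Q.ne_bot_of_dvd_card h7N) (Subgroup.card_eq_one.1 hj)
    have hj2 : j < 2 := by
      by_contra hcon
      rw [not_lt] at hcon
      have h1 : 7 ^ j ∣ Nat.card N := hj ▸ Subgroup.card_subgroup_dvd_card (Q : Subgroup N)
      have h2 : 7 ^ 2 ∣ 168 := ((pow_dvd_pow 7 hcon).trans h1).trans hNdvd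
      omega
    have hj3 : j = 1 := by omega
    rw [hj, hj3, pow_one]
  have hQmap : Nat.card ((Q : Subgroup N).map N.subtype) = 7 := by
    rw [Subgroup.card_map_of_injective N.subtype_injective]; exact hQ7
  have hnorm := hQ _ hQmap
  rw [hk3] at hnorm
  have hfrat := Sylow.normalizer_sup_eq_top Q
  have hidxN : N.index ∣ 21 := by
    have h1 := Subgroup.relIndex_sup_right
      (H := Subgroup.normalizer (((Q : Subgroup N).map N.subtype : Subgroup G) : Set G)) (K := N)
    rw [hfrat, Subgroup.relIndex_top_right] at h1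
    rw [h1]
    have h2 := Subgroup.relIndex_dvd_card (H := N)
      (K := Subgroup.normalizer (((Q : Subgroup N).map N.subtype : Subgroup G) : Set G))
    rw [hnorm] at h2
    exact h2
  have hNmul := N.card_mul_index
  rw [hG168] at hNmul
  have hidx3 : N.index = 1 ∨ N.index = 3 := by
    obtain ⟨m, hm⟩ := h7N
    rw [hm] at hNmul
    have h24 : m * N.index = 24 := by
      have h5 : 7 * (m * N.index) = 168 := by rw [← mul_assoc]; exact hNmul
      omega
    have h3 : N.index ∣ 24 := Dvd.intro_left m h24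
    have h5 : N.index ∣ Nat.gcd 21 24 := Nat.dvd_gcd hidxN h3
    have h6 : Nat.gcd 21 24 = 3 := by decide
    rw [h6] at h5
    rcases (Nat.dvd_prime Nat.prime_three).1 h5 with h | h
    · exact Or.inl h
    · exact Or.inr h
  rcases hidx3 with h | h
  · exact Subgroup.index_eq_one.1 h
  · exfalso
    rw [h] at hNmul
    have hN56 : Nat.card N = 56 := by omega
    have hN'card : Nat.card (N.map G.subtype) = 56 := by
      rw [Subgroup.card_map_of_injective G.subtype_injective]; exact hN56
    haveI : MulAction.IsPretransitive (N.map G.subtype) α := by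
      refine ⟨fun a b => ?_⟩
      obtain ⟨y, hy, hyab⟩ := normal_trans G h2pair N hN hNbot a b
      exact ⟨⟨(y : Equiv.Perm α), Subgroup.mem_map_of_mem G.subtype hy⟩, hyab⟩
    have hN'sol : Group.IsSolvable (N.map G.subtype) := by
      by_contra hns
      obtain ⟨h42N, -⟩ := sylow_data hα (N.map G.subtype) hns
      rw [hN'card] at h42N
      omega
    apply hG
    haveI : Group.IsSolvable N :=
      Group.isSolvable_of_isSolvable_injective
        (f := (Subgroup.equivMapOfInjective N G.subtype G.subtype_injective).toMonoidHom)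
        (MulEquiv.injective _)
    haveI : Group.IsSolvable (G ⧸ N) := by
      have hq : Nat.card (G ⧸ N) = 3 := h
      haveI : Fact (Nat.Prime 3) := ⟨Nat.prime_three⟩
      have hpg : IsPGroup 3 (G ⧸ N) := IsPGroup.of_card (n := 1) (by rw [hq, pow_one])
      haveI := hpg.isNilpotent
      infer_instance
    exact Group.isSolvable_of_ker_le_range N.subtype (QuotientGroup.mk' N)
      (by rw [QuotientGroup.ker_mk', Subgroup.range_subtype])

end Cfsg.Agent.S0678
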