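import Cfsg.Statements.S0680
-- import your own Cfsg.Agent.* helpers here
import Mathlib
import Cfsg.Agent.Helper5.Sharp2

set_option autoImplicit false
open Cfsg

namespace Cfsg.Agent.S0680

/-- A finite sharply doubly transitive permutation group has degree a prime power `p ^ j`; a Sylow `p`-subgroup is normal, elementary abelian and regular, and consists of the identity together with the elements without fixed points. (Frobenius' Theorem is not needed.) -/
theorem result {α : Type*} [Fintype α] [DecidableEq α] (G : Subgroup (Equiv.Perm α)) [MulAction.IsMultiplyPretransitive G α 2] (hsharp : ∀ x : Fin 2 ↪ α, MulAction.stabilizer G x = ⊥) (h2 : 2 ≤ Fintype.card α) : ∃ p j : ℕ, p.Prime ∧ 1 ≤ j ∧ Fintype.card α = p ^ j ∧ ∀ (hp : Fact p.Prime) (P : Sylow p G), (P : Subgroup G).Normal ∧ IsMulCommutative (P : Subgroup G) ∧ (∀ x ∈ (P : Subgroup G), x ^ p = 1) ∧ MulAction.IsPretransitive (P : Subgroup G) α ∧ (∀ a : α, MulAction.stabilizer (P : Subgroup G) a = ⊥) ∧ ∀ g :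 G, g ∈ (P : Subgroup G) ↔ g = 1 ∨ ∀ a : α, g • a ≠ a := by
  classical
  have h := Cfsg.Agent.Helper5.sharp2_of_hyp G hsharp
  obtain ⟨K, p, j, hp, hj, hcard, hKcard, hKn, hKab, hexp, hKmem, hKtr⟩ := h.kernel h2
  refine ⟨p, j, hp, hj, hcard, ?_⟩
  intro hpF P
  have hKp : IsPGroup p K := by
    intro k
    refine ⟨1, ?_⟩
    apply Subtype.ext
    rw [pow_one, Subgroup.coe_pow, hexp _ k.2]; rfl
  have hKP : K ≤ (P : Subgroup G) := by
    haveI := hKn
    exact hKp.le_sylow_of_normal P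
  have hPK : (P : Subgroup G) = K := by
    symm
    apply Subgroup.eq_of_le_of_card_ge hKP
    obtain ⟨m, hm⟩ := IsPGroup.iff_card.mp P.isPGroup'
    have hdvd : Nat.card (P : Subgroup G) ∣ Nat.card G := Subgroup.card_subgroup_dvd_card _
    rw [h.card h2, hcard, hm] at hdvd
    have hcop : Nat.Coprime (p ^ m) (p ^ j - 1) := by
      apply Nat.Coprime.pow_left
      rw [Nat.Prime.coprime_iff_not_dvd hp]
      intro hd
      have h1 : p ∣ p ^ j := dvd_pow_self p (by omega)
      have h3 : p ∣ p ^ j - (p ^ j - 1) := Nat.dvd_sub h1 hd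
      have h4 : p ^ j - (p ^ j - 1) = 1 := by
        have : 1 ≤ p ^ j := Nat.one_le_pow _ _ hp.pos
        omega
      rw [h4] at h3
      exact hp.one_lt.ne' (Nat.dvd_one.mp h3)
    have h5 := hcop.dvd_of_dvd_mul_right hdvd
    rw [hm, hKcard]
    exact Nat.le_of_dvd (pow_pos hp.pos _) h5
  have key : ∀ Q : Subgroup G, Q = K → (Q.Normal ∧ IsMulCommutative Q ∧ (∀ x ∈ Q, x ^ p = 1) ∧
      MulAction.IsPretransitive Q α ∧ (∀ a : α, MulAction.stabilizer Q a = ⊥) ∧
      ∀ g : G, g ∈ Q ↔ g = 1 ∨ ∀ a : α, g • a ≠ a) := by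
    rintro Q rfl
    refine ⟨hKn, hKab, hexp, ?_, ?_, hKmem⟩
    · constructor
      intro a b
      obtain ⟨k, hk, hkab⟩ := hKtr a b
      exact ⟨⟨k, hk⟩, hkab⟩
    · intro a
      rw [eq_bot_iff]
      intro k hk
      rw [MulAction.mem_stabilizer_iff] at hk
      rw [Subgroup.mem_bot]
      rcases (hKmem k.1).mp k.2 with h1 | h1
      · exact Subtype.ext h1
      · exact absurd hk (h1 a)
  exact key _ hPK

end Cfsg.Agent.S0680
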