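import Cfsg.Statements.S0681
-- import your own Cfsg.Agent.* helpers here

set_option autoImplicit false
open Cfsg

namespace Cfsg.Agent.S0681

section helpers

variable {F : Type*} [Cfsg.NearField F]

theorem nf_zero_mul (c : F) : (0 : F) * c = 0 := by
  have h := Cfsg.NearField.right_distrib (0 : F) 0 c
  rw [add_zero] at h
  exact add_eq_left.mp h.symm

theorem nf_neg_mul (a c : F) : (-a) * c = -(a * c) := by
  have h := Cfsg.NearField.right_distrib (-a) a c
  rw [neg_add_cancel, nf_zero_mul] at h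
  exact eq_neg_of_add_eq_zero_left h.symm

theorem nf_sub_mul (a b c : F) : (a - b) * c = a * c - b * c := by
  rw [sub_eq_add_neg, Cfsg.NearField.right_distrib, nf_neg_mul, ← sub_eq_add_neg]

theorem nf_one_ne_zero : (1 : F) ≠ 0 := fun h => Cfsg.NearField.zero_ne_one h.symm

theorem nf_inv_ne_zero {a a' : F} (h1 : a * a' = 1) : a' ≠ 0 := by
  rintro rfl
  rw [Cfsg.NearField.mul_zero] at h1
  exact Cfsg.NearField.zero_ne_one h1

theorem nf_mul_ne_zero {a b : F} (ha : a ≠ 0) (hb : b ≠ 0) : a * b ≠ 0 := by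
  intro hab
  obtain ⟨b', hb1, _⟩ := Cfsg.NearField.exists_inv b hb
  apply ha
  have : a = a * b * b' := by rw [mul_assoc, hb1, mul_one]
  rw [this, hab, nf_zero_mul]

/-- The affine permutation `x ↦ x * a + b`. -/
def affPerm (a a' b : F) (h1 : a * a' = 1) (h2 : a' * a = 1) : Equiv.Perm F where
  toFun x := x * a + b
  invFun y := (y + -b) * a'
  left_inv x := by
    show (x * a + b + -b) * a' = x
    rw [add_neg_cancel_right, mul_assoc, h1, mul_one]
  right_inv y := by
    show (y + -b) * a' * a + b = y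
    rw [mul_assoc, h2, mul_one, neg_add_cancel_right]

/-- The group of affine permutations of a near-field. -/
def affSubgroup (F : Type*) [Cfsg.NearField F] : Subgroup (Equiv.Perm F) where
  carrier := {σ | ∃ a b : F, a ≠ 0 ∧ ∀ x : F, σ x = x * a + b}
  mul_mem' := by
    rintro σ τ ⟨a, b, ha, hσ⟩ ⟨c, d, hc, hτ⟩
    refine ⟨c * a, d * a + b, nf_mul_ne_zero hc ha, fun x => ?_⟩
    rw [Equiv.Perm.mul_apply, hτ, hσ, Cfsg.NearField.right_distrib, mul_assoc, add_assoc]
  one_mem' := ⟨1, 0, nf_one_ne_zero, fun x => by rw [mul_one, add_zero]; rfl⟩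
  inv_mem' := by
    rintro σ ⟨a, b, ha, hσ⟩
    obtain ⟨a', h1, h2⟩ := Cfsg.NearField.exists_inv a ha
    refine ⟨a', -(b * a'), nf_inv_ne_zero h1, fun x => ?_⟩
    apply σ.injective
    rw [Equiv.Perm.inv_def, Equiv.apply_symm_apply, hσ, Cfsg.NearField.right_distrib, mul_assoc, h2,
      mul_one, nf_neg_mul, mul_assoc, h2, mul_one, neg_add_cancel_right]

end helpers

/-- The affine maps `x ↦ x * a + b`, `a ≠ 0`, of a near-field form a sharply doubly transitive permutation group. -/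
theorem result {F : Type*} [Cfsg.NearField F] : ∃ H : Subgroup (Equiv.Perm F), (∀ σ : Equiv.Perm F, σ ∈ H ↔ ∃ a b : F, a ≠ 0 ∧ ∀ x : F, σ x = x * a + b) ∧ MulAction.IsMultiplyPretransitive H F 2 ∧ ∀ x : Fin 2 ↪ F, MulAction.stabilizer H x = ⊥ := by
  refine ⟨affSubgroup F, fun σ => Iff.rfl, ?_, ?_⟩
  · rw [MulAction.is_two_pretransitive_iff]
    intro x y u v hxy huv
    have hd : x - y ≠ 0 := sub_ne_zero.mpr hxy
    obtain ⟨d', hd1, hd2⟩ := Cfsg.NearField.exists_inv (x - y) hd
    have hd' : d' ≠ 0 := nf_inv_ne_zero hd1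
    have huv' : u - v ≠ 0 := sub_ne_zero.mpr huv
    have ha0 : d' * (u - v) ≠ 0 := nf_mul_ne_zero hd' huv'
    obtain ⟨a', ha1, ha2⟩ := Cfsg.NearField.exists_inv _ ha0
    refine ⟨⟨affPerm (d' * (u - v)) a' (-(y * (d' * (u - v))) + v) ha1 ha2, d' * (u - v), _, ha0,
      fun z => rfl⟩, ?_, ?_⟩
    · show x * (d' * (u - v)) + (-(y * (d' * (u - v))) + v) = u
      rw [← add_assoc, ← sub_eq_add_neg, ← nf_sub_mul, ← mul_assoc, hd1, one_mul, sub_add_cancel]
    · show y * (d' * (u - v)) + (-(y * (d' * (u - v))) + v) = v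
      rw [add_neg_cancel_left]
  · intro x
    rw [eq_bot_iff]
    rintro ⟨σ, a, b, ha, hσ⟩ hg
    rw [MulAction.mem_stabilizer_iff] at hg
    rw [Subgroup.mem_bot]
    have h0 : σ (x 0) = x 0 := congrArg (fun f : Fin 2 ↪ F => f 0) hg
    have h1 : σ (x 1) = x 1 := congrArg (fun f : Fin 2 ↪ F => f 1) hg
    rw [hσ] at h0 h1
    have hne : x 0 - x 1 ≠ 0 := sub_ne_zero.mpr (x.injective.ne (by decide))
    have h2 : (x 0 - x 1) * a = x 0 - x 1 := by
      rw [nf_sub_mul]
      have : x 0 * a - x 1 * a = (x 0 * a + b) - (x 1 * a + b) := by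
        rw [add_sub_add_right_eq_sub]
      rw [this, h0, h1]
    obtain ⟨d', hd1, hd2⟩ := Cfsg.NearField.exists_inv _ hne
    have ha1 : a = 1 := by
      have h3 : d' * ((x 0 - x 1) * a) = d' * (x 0 - x 1) := congrArg (fun t => d' * t) h2
      rw [← mul_assoc, hd2, one_mul] at h3
      exact h3
    have hb : b = 0 := by
      rw [ha1, mul_one] at h0
      exact add_eq_left.mp h0
    apply Subtype.ext
    ext z
    show σ z = z
    rw [hσ, ha1, hb, mul_one, add_zero]

end Cfsg.Agent.S0681
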