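import Cfsg.Statements.S0682
-- import your own Cfsg.Agent.* helpers here
import Mathlib.GroupTheory.PGroup
import Mathlib.GroupTheory.Perm.Cycle.Type
import Mathlib.Tactic

set_option autoImplicit false
open Cfsg

namespace Cfsg.Agent.S0682

section helpers

variable {F : Type*} [Cfsg.NearField F]

theorem nf_zero_mul (c : F) : (0 : F) * c = 0 := by
  have h := Cfsg.NearField.right_distrib (0 : F) 0 c
  rw [add_zero] at h
  exact add_eq_left.mp h.symm

theorem nf_nsmul_mul (n : ℕ) (x c : F) : (n • x) * c = n • (x * c) := by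
  induction n with
  | zero => rw [zero_nsmul, zero_nsmul, nf_zero_mul]
  | succ n ih => rw [succ_nsmul, succ_nsmul, Cfsg.NearField.right_distrib, ih]

end helpers

/-- A finite near-field has prime-power order; its additive group is commutative of prime exponent. -/
theorem result {F : Type*} [Cfsg.NearField F] [Finite F] : ∃ p j : ℕ, p.Prime ∧ 1 ≤ j ∧ Nat.card F = p ^ j ∧ (∀ x y : F, x + y = y + x) ∧ ∀ x : F, p • x = 0 := by
  classical
  have hone : (1 : F) ≠ 0 := fun h => Cfsg.NearField.zero_ne_one h.symm
  have hnt : Nontrivial F := ⟨⟨1, 0, hone⟩⟩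
  have hcard2 : 1 < Nat.card F := Finite.one_lt_card
  obtain ⟨p, hp, hpd⟩ := Nat.exists_prime_and_dvd (show Nat.card F ≠ 1 by omega)
  have hpf : Fact p.Prime := ⟨hp⟩
  obtain ⟨x, hx⟩ := exists_prime_addOrderOf_dvd_card' (G := F) p hpd
  have hx0 : x ≠ 0 := by
    rintro rfl
    rw [addOrderOf_zero] at hx
    exact hp.one_lt.ne hx
  have hpx : p • x = 0 := by
    rw [← hx]; exact addOrderOf_nsmul_eq_zero x
  obtain ⟨x', hx1, hx2⟩ := Cfsg.NearField.exists_inv x hx0
  have hall : ∀ y : F, p • y = 0 := by
    intro y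
    have h1 : y = x * (x' * y) := by rw [← mul_assoc, hx1, one_mul]
    rw [h1, ← nf_nsmul_mul, hpx, nf_zero_mul]
  have hpg : IsPGroup p (Multiplicative F) := by
    intro g
    refine ⟨1, ?_⟩
    rw [pow_one]
    exact congrArg Multiplicative.ofAdd (hall (Multiplicative.toAdd g))
  obtain ⟨j, hj⟩ := IsPGroup.iff_card.mp hpg
  have hj' : Nat.card F = p ^ j := hj
  refine ⟨p, j, hp, ?_, hj', ?_, hall⟩
  · by_contra h
    have h0 : j = 0 := by omega
    rw [h0, pow_zero] at hj'
    omega
  · have hntM : Nontrivial (Multiplicative F) := hnt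
    have hcn := hpg.center_nontrivial
    obtain ⟨⟨z, hz⟩, hz1⟩ := exists_ne (1 : Subgroup.center (Multiplicative F))
    have hz0 : Multiplicative.toAdd z ≠ 0 := by
      intro h
      apply hz1
      apply Subtype.ext
      exact h
    have hzc : ∀ g : F, g + Multiplicative.toAdd z = Multiplicative.toAdd z + g := by
      intro g
      exact Subgroup.mem_center_iff.mp hz (Multiplicative.ofAdd g)
    obtain ⟨z', hz'1, hz'2⟩ := Cfsg.NearField.exists_inv _ hz0
    intro u v
    by_cases hu : u = 0
    · rw [hu, zero_add, add_zero]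
    · obtain ⟨u', hu1, hu2⟩ := Cfsg.NearField.exists_inv u hu
      have hu3 : u = Multiplicative.toAdd z * (z' * u) := by rw [← mul_assoc, hz'1, one_mul]
      have hv3 : v = (v * (u' * Multiplicative.toAdd z)) * (z' * u) := by
        rw [mul_assoc, mul_assoc, ← mul_assoc (Multiplicative.toAdd z), hz'1, one_mul, hu2, mul_one]
      calc u + v = Multiplicative.toAdd z * (z' * u) + (v * (u' * Multiplicative.toAdd z)) * (z' * u) := by
            rw [← hu3, ← hv3]
        _ = (Multiplicative.toAdd z + v * (u' * Multiplicative.toAdd z)) * (z' * u) := by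
            rw [Cfsg.NearField.right_distrib]
        _ = (v * (u' * Multiplicative.toAdd z) + Multiplicative.toAdd z) * (z' * u) := by
            rw [hzc]
        _ = (v * (u' * Multiplicative.toAdd z)) * (z' * u) + Multiplicative.toAdd z * (z' * u) := by
            rw [Cfsg.NearField.right_distrib]
        _ = v + u := by rw [← hu3, ← hv3]

end Cfsg.Agent.S0682
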