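import Cfsg.Statements.S0683
-- import your own Cfsg.Agent.* helpers here
import Mathlib
import Cfsg.Agent.Helper5.Sharp2

set_option autoImplicit false
open Cfsg

namespace Cfsg.Agent.S0683

set_option warn.classDefReducibility false in
/-- generic constructor of a near-field from operations and axioms -/
def mkNearField {α : Type*} (add mul : α → α → α) (neg : α → α) (o e : α)
    (h1 : ∀ a b c, add (add a b) c = add a (add b c)) (h2 : ∀ a, add o a = a)
    (h3 : ∀ a, add (neg a) a = o) (h4 : ∀ a b c, mul (mul a b) c = mul a (mul b c))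
    (h5 : ∀ a, mul e a = a) (h6 : ∀ a, mul a e = a)
    (h7 : ∀ a b c, mul (add a b) c = add (mul a c) (mul b c)) (h8 : ∀ a, mul a o = o)
    (h9 : o ≠ e) (h10 : ∀ a, a ≠ o → ∃ b, mul a b = e ∧ mul b a = e) : Cfsg.NearField α :=
  letI : Add α := ⟨add⟩
  letI : Neg α := ⟨neg⟩
  letI : Zero α := ⟨o⟩
  { AddGroup.ofLeftAxioms h1 h2 h3 with
    mul := mul
    one := e
    mul_assoc := h4
    one_mul := h5
    mul_one := h6
    right_distrib := h7
    mul_zero := h8
    zero_ne_one := h9
    exists_inv := h10 }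

/-- A finite sharply doubly transitive permutation group is the affine group of a near-field: the permuted set carries a near-field structure for which the group consists exactly of the maps `x ↦ x * a + b` with `a ≠ 0`. -/
theorem result {α : Type*} [Fintype α] [DecidableEq α] (H : Subgroup (Equiv.Perm α)) [MulAction.IsMultiplyPretransitive H α 2] (hsharp : ∀ x : Fin 2 ↪ α, MulAction.stabilizer H x = ⊥) (h2 : 2 ≤ Fintype.card α) : ∃ _ : Cfsg.NearField α, ∀ σ : Equiv.Perm α, σ ∈ H ↔ ∃ a b : α, a ≠ 0 ∧ ∀ x : α, σ x = x * a + b := by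
  classical
  have h := Cfsg.Agent.Helper5.sharp2_of_hyp H hsharp
  obtain ⟨K, p, j, hp, hj, hcard, hKcard, hKn, hKab, hexp, hKmem, hKtr⟩ := h.kernel h2
  have hne : Nonempty α := Fintype.card_pos_iff.mp (by omega)
  obtain ⟨o⟩ := hne
  obtain ⟨e, heo⟩ := Cfsg.Agent.Helper5.Sharp2.exists_ne h2 o
  -- uniqueness facts
  have hKuniq : ∀ k ∈ K, ∀ k' ∈ K, ∀ c : α, k • c = k' • c → k = k' := by
    intro k hk k' hk' c hc
    have h1 : k'⁻¹ * k ∈ K := K.mul_mem (K.inv_mem hk') hk
    rcases (hKmem _).mp h1 with h2' | h2'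
    · exact (inv_mul_eq_one.mp h2').symm
    · exfalso
      apply h2' c
      rw [mul_smul, hc, inv_smul_smul]
  have hHuniq : ∀ g g' : H, g • o = o → g' • o = o → g • e = g' • e → g = g' := by
    intro g g' hg hg' hge
    have h1 : g'⁻¹ * g = 1 := by
      apply h.sharp _ o e heo.symm
      · rw [mul_smul, hg, inv_smul_eq_iff, hg']
      · rw [mul_smul, hge, inv_smul_smul]
    exact (inv_mul_eq_one.mp h1).symm
  have hτex : ∀ b : α, ∃ k : H, k ∈ K ∧ k • o = b := fun b => by
    obtain ⟨k, hk, hkb⟩ := hKtr o b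
    exact ⟨k, hk, hkb⟩
  choose τ hτK hτo using hτex
  have hμex : ∀ a : α, ∃ g : H, a ≠ o → (g • o = o ∧ g • e = a) := fun a => by
    by_cases ha : a = o
    · exact ⟨1, fun hh => absurd ha hh⟩
    · obtain ⟨g, hg1, hg2⟩ := h.trans o e o a heo.symm (Ne.symm ha)
      exact ⟨g, fun _ => ⟨hg1, hg2⟩⟩
  choose μ hμ using hμex
  have hτeq : ∀ k : H, k ∈ K → τ (k • o) = k := fun k hk =>
    hKuniq _ (hτK _) _ hk o (hτo _)
  have hμeq : ∀ g : H, g • o = o → μ (g • e) = g := by
    intro g hg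
    have hne' : g • e ≠ o := by
      intro hh
      rw [← hg] at hh
      exact heo (MulAction.injective g hh)
    exact hHuniq _ _ (hμ _ hne').1 hg (hμ _ hne').2
  have hτ_o : τ o = 1 := by
    have := hτeq 1 K.one_mem
    rwa [one_smul] at this
  have hμ_e : μ e = 1 := by
    have := hμeq 1 (one_smul _ _)
    rwa [one_smul] at this
  -- the operations
  let add : α → α → α := fun x y => τ y • x
  let neg : α → α := fun y => (τ y)⁻¹ • o
  let mul : α → α → α := fun x a => if a = o then o else μ a • x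
  have hmul_ne : ∀ x a : α, a ≠ o → mul x a = μ a • x := fun x a ha => if_neg ha
  have hmul_o : ∀ x : α, mul x o = o := fun x => if_pos rfl
  have hμo : ∀ a : α, a ≠ o → μ a • o = o := fun a ha => (hμ a ha).1
  have hμe : ∀ a : α, a ≠ o → μ a • e = a := fun a ha => (hμ a ha).2
  have hμne : ∀ a b : α, a ≠ o → b ≠ o → μ a • b ≠ o := by
    intro a b ha hb hh
    rw [← hμo a ha] at hh
    exact hb (MulAction.injective _ hh)
  have h1 : ∀ a b c, add (add a b) c = add a (add b c) := by
    intro a b c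
    show τ c • (τ b • a) = τ (τ c • b) • a
    have : τ (τ c • b) = τ c * τ b := by
      have h3 := hτeq (τ c * τ b) (K.mul_mem (hτK c) (hτK b))
      rw [mul_smul, hτo b] at h3
      exact h3
    rw [this, mul_smul]
  have h2' : ∀ a, add o a = a := fun a => hτo a
  have h3 : ∀ a, add (neg a) a = o := fun a => smul_inv_smul (τ a) o
  have h4 : ∀ a b c, mul (mul a b) c = mul a (mul b c) := by
    intro a b c
    by_cases hc : c = o
    · rw [hc, hmul_o, hmul_o, hmul_o]
    · by_cases hb : b = o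
      · rw [hb, hmul_o, hmul_ne _ _ hc, hμo c hc, hmul_o]
      · rw [hmul_ne _ _ hc, hmul_ne _ _ hb, hmul_ne _ _ hc, hmul_ne _ _ (hμne c b hc hb)]
        have : μ (μ c • b) = μ c * μ b := by
          have h5 := hμeq (μ c * μ b) (by rw [mul_smul, hμo b hb, hμo c hc])
          rw [mul_smul, hμe b hb] at h5
          exact h5
        rw [this, mul_smul]
  have h5 : ∀ a, mul e a = a := by
    intro a
    by_cases ha : a = o
    · rw [ha]
      exact hmul_o e
    · rw [hmul_ne _ _ ha, hμe a ha]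
  have h6 : ∀ a, mul a e = a := by
    intro a
    rw [hmul_ne _ _ heo, hμ_e, one_smul]
  have h7 : ∀ a b c, mul (add a b) c = add (mul a c) (mul b c) := by
    intro a b c
    by_cases hc : c = o
    · rw [hc, hmul_o, hmul_o, hmul_o]
      exact (hτo o).symm
    · rw [hmul_ne _ _ hc, hmul_ne _ _ hc, hmul_ne _ _ hc]
      show μ c • (τ b • a) = τ (μ c • b) • (μ c • a)
      have : τ (μ c • b) = μ c * τ b * (μ c)⁻¹ := by
        have h8 := hτeq (μ c * τ b * (μ c)⁻¹) (hKn.conj_mem _ (hτK b) _)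
        have h9 : (μ c)⁻¹ • o = o := by rw [inv_smul_eq_iff, hμo c hc]
        rw [mul_smul, mul_smul, h9, hτo b] at h8
        exact h8
      rw [this, mul_smul, mul_smul, inv_smul_smul]
  have h10 : ∀ a, a ≠ o → ∃ b, mul a b = e ∧ mul b a = e := by
    intro a ha
    have hinvo : (μ a)⁻¹ • o = o := by rw [inv_smul_eq_iff, hμo a ha]
    have hb : (μ a)⁻¹ • e ≠ o := by
      intro hh
      rw [inv_smul_eq_iff, hμo a ha] at hh
      exact heo hh
    have hμb : μ ((μ a)⁻¹ • e) = (μ a)⁻¹ := hμeq _ hinvo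
    refine ⟨(μ a)⁻¹ • e, ?_, ?_⟩
    · rw [hmul_ne _ _ hb, hμb, inv_smul_eq_iff, hμe a ha]
    · rw [hmul_ne _ _ ha, smul_inv_smul]
  refine ⟨mkNearField add mul neg o e h1 h2' h3 h4 h5 h6 h7 hmul_o heo.symm h10, ?_⟩
  intro σ
  show σ ∈ H ↔ ∃ a b : α, a ≠ o ∧ ∀ x : α, σ x = add (mul x a) b
  constructor
  · intro hσ
    let g : H := ⟨σ, hσ⟩
    have hgo : ((τ (g • o))⁻¹ * g) • o = o := by
      rw [mul_smul, inv_smul_eq_iff, hτo]
    have hane : ((τ (g • o))⁻¹ * g) • e ≠ o := by
      intro hh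
      exact heo (MulAction.injective _ (hh.trans hgo.symm))
    refine ⟨((τ (g • o))⁻¹ * g) • e, g • o, hane, ?_⟩
    intro x
    rw [hmul_ne _ _ hane, hμeq _ hgo]
    show σ x = τ (g • o) • (((τ (g • o))⁻¹ * g) • x)
    rw [mul_smul, smul_inv_smul]
    rfl
  · rintro ⟨a, b, ha, hσ⟩
    have : σ = ((τ b * μ a : H) : Equiv.Perm α) := by
      ext x
      rw [hσ x, hmul_ne _ _ ha]
      rfl
    rw [this]
    exact (τ b * μ a).2

end Cfsg.Agent.S0683
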