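import Cfsg.Statements.S0684
import Mathlib

set_option autoImplicit false
open Cfsg

namespace Cfsg.Agent.S0684

section aux

variable {p : ℕ} [Fact p.Prime] {V : Type*} [AddCommGroup V] [Module (ZMod p) V]

-- the endomorphisms of V induced by the elements of A
def endSet (H : Subgroup (V ≃ₗ[ZMod p] V)) (A : Subgroup H) : Set (Module.End (ZMod p) V) :=
  {x | ∃ a ∈ A, x = ((a : H) : V ≃ₗ[ZMod p] V).toLinearMap}

-- the part of W killed by x
def annSub (W : Submodule (ZMod p) V) (x : Module.End (ZMod p) V) : Submodule (ZMod p) V where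
  carrier := {w | w ∈ W ∧ x w = 0}
  add_mem' := by
    rintro a b ⟨ha, ha0⟩ ⟨hb, hb0⟩
    exact ⟨W.add_mem ha hb, by rw [map_add, ha0, hb0, add_zero]⟩
  zero_mem' := ⟨W.zero_mem, map_zero x⟩
  smul_mem' := by
    rintro c a ⟨ha, ha0⟩
    exact ⟨W.smul_mem c ha, by rw [map_smul, ha0, smul_zero]⟩

theorem mem_annSub (W : Submodule (ZMod p) V) (x : Module.End (ZMod p) V) (w : V) :
    w ∈ annSub W x ↔ w ∈ W ∧ x w = 0 := Iff.rfl

-- the action of A on an invariant subspace
def actW (H : Subgroup (V ≃ₗ[ZMod p] V)) (A : Subgroup H) (W : Submodule (ZMod p) V)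
    (hWinv : ∀ a ∈ A, ∀ v ∈ W, ((a : H) : V ≃ₗ[ZMod p] V) v ∈ W) : MulAction A W where
  smul a w := ⟨((a : H) : V ≃ₗ[ZMod p] V) w, hWinv a a.2 w w.2⟩
  one_smul w := by
    apply Subtype.ext
    show (((1 : A) : H) : V ≃ₗ[ZMod p] V) (w : V) = (w : V)
    simp
  mul_smul a b w := by
    apply Subtype.ext
    show (((a * b : A) : H) : V ≃ₗ[ZMod p] V) (w : V)
      = ((a : H) : V ≃ₗ[ZMod p] V) (((b : H) : V ≃ₗ[ZMod p] V) (w : V))
    simp

theorem card_dvd [Finite V] (H : Subgroup (V ≃ₗ[ZMod p] V)) (A : Subgroup H)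
    (hfree : ∀ h : H, ∀ v : V, v ≠ 0 → (h : V ≃ₗ[ZMod p] V) v = v → h = 1)
    (W : Submodule (ZMod p) V)
    (hWinv : ∀ a ∈ A, ∀ v ∈ W, ((a : H) : V ≃ₗ[ZMod p] V) v ∈ W) :
    Nat.card A ∣ Nat.card W - 1 := by
  classical
  haveI : Finite (V ≃ₗ[ZMod p] V) :=
    Finite.of_injective (fun e : V ≃ₗ[ZMod p] V => (e : V → V)) DFunLike.coe_injective
  letI : Fintype A := Fintype.ofFinite A
  letI : Fintype W := Fintype.ofFinite W
  letI := actW H A W hWinv
  have hsm : ∀ (a : A) (w : W), ((a • w : W) : V) = ((a : H) : V ≃ₗ[ZMod p] V) (w : V) :=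
    fun _ _ => rfl
  have hB := MulAction.sum_card_fixedBy_eq_card_orbits_mul_card_group A W
  have hfix : ∀ g : A, Fintype.card (MulAction.fixedBy W g)
      = 1 + (if g = 1 then Fintype.card W - 1 else 0) := by
    intro g
    by_cases hg : g = 1
    · subst hg
      rw [if_pos rfl]
      have h1 : Fintype.card (MulAction.fixedBy W (1 : A)) = Fintype.card W :=
        Fintype.card_congr (Equiv.subtypeUnivEquiv
          (fun w => by rw [MulAction.mem_fixedBy, one_smul]))
      rw [h1]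
      have h2 : 0 < Fintype.card W := Fintype.card_pos
      omega
    · rw [if_neg hg, add_zero, Fintype.card_eq_one_iff]
      refine ⟨⟨0, by rw [MulAction.mem_fixedBy]; apply Subtype.ext; rw [hsm]; simp⟩, ?_⟩
      rintro ⟨w, hw⟩
      apply Subtype.ext
      rw [MulAction.mem_fixedBy] at hw
      by_contra hw0
      apply hg
      have h1 : ((g : H) : V ≃ₗ[ZMod p] V) (w : V) = (w : V) := by rw [← hsm, hw]
      have h2 := hfree (g : H) (w : V) (fun h => hw0 (Subtype.ext (by simpa using h))) h1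
      exact Subtype.ext h2
  simp only [hfix, Finset.sum_add_distrib, Finset.sum_const, Finset.card_univ, smul_eq_mul,
    mul_one, Finset.sum_ite_eq', Finset.mem_univ, if_true] at hB
  have h5 : Fintype.card A ∣ Fintype.card W - 1 := by
    have h6 : Fintype.card A ∣ Fintype.card A + (Fintype.card W - 1) := by
      rw [hB]; exact dvd_mul_left _ _
    exact (Nat.dvd_add_right dvd_rfl).mp h6
  rwa [Nat.card_eq_fintype_card, Nat.card_eq_fintype_card]

theorem cyclic_of_min [Finite V] (H : Subgroup (V ≃ₗ[ZMod p] V)) (A : Subgroup H)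
    (hfree : ∀ h : H, ∀ v : V, v ≠ 0 → (h : V ≃ₗ[ZMod p] V) v = v → h = 1)
    (hAc : IsMulCommutative A) (W : Submodule (ZMod p) V) (hWne : W ≠ ⊥)
    (hWinv : ∀ a ∈ A, ∀ v ∈ W, ((a : H) : V ≃ₗ[ZMod p] V) v ∈ W)
    (hWmin : ∀ W' : Submodule (ZMod p) V, W' ≤ W →
      (∀ a ∈ A, ∀ v ∈ W', ((a : H) : V ≃ₗ[ZMod p] V) v ∈ W') → W' = ⊥ ∨ W' = W) :
    IsCyclic A := by
  classical
  haveI : Finite (V ≃ₗ[ZMod p] V) :=
    Finite.of_injective (fun e : V ≃ₗ[ZMod p] V => (e : V → V)) DFunLike.coe_injective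
  have hcomm : ∀ x ∈ endSet H A, ∀ y ∈ endSet H A, x * y = y * x := by
    rintro x ⟨a, ha, rfl⟩ y ⟨b, hb, rfl⟩
    have hab : a * b = b * a := congrArg Subtype.val (hAc.is_comm.comm ⟨a, ha⟩ ⟨b, hb⟩)
    ext v
    have h1 := congrArg (fun h : H => ((h : V ≃ₗ[ZMod p] V)) v) hab
    simpa using h1
  letI : CommRing ↥(Subring.closure (endSet H A)) :=
    { (inferInstance : Ring ↥(Subring.closure (endSet H A))) with
      mul_comm := fun x y => (Subring.isMulCommutative_closure hcomm).is_comm.comm x y }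
  have hRW : ∀ x ∈ Subring.closure (endSet H A), ∀ w ∈ W, x w ∈ W := by
    intro x hx
    induction hx using Subring.closure_induction with
    | mem x hx =>
      obtain ⟨a, ha, rfl⟩ := hx
      intro w hw
      exact hWinv a ha w hw
    | zero => intro w hw; simp
    | one => intro w hw; simpa using hw
    | add x y _ _ hx hy => intro w hw; simpa using W.add_mem (hx w hw) (hy w hw)
    | neg x _ hx => intro w hw; simpa using W.neg_mem (hx w hw)
    | mul x y _ _ hx hy => intro w hw; simpa using hx _ (hy w hw)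
  let I : Ideal ↥(Subring.closure (endSet H A)) :=
    { carrier := {x | ∀ w ∈ W, (x : Module.End (ZMod p) V) w = 0}
      add_mem' := by
        intro x y hx hy w hw
        simp [hx w hw, hy w hw]
      zero_mem' := by
        intro w hw
        simp
      smul_mem' := by
        intro c x hx w hw
        simp [hx w hw] }
  have hImem : ∀ x : ↥(Subring.closure (endSet H A)),
      x ∈ I ↔ ∀ w ∈ W, (x : Module.End (ZMod p) V) w = 0 := fun _ => Iff.rfl
  obtain ⟨w₀, hw₀, hw₀0⟩ := Submodule.exists_mem_ne_zero_of_ne_bot hWne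
  have hIprime : I.IsPrime := by
    refine ⟨?_, ?_⟩
    · intro htop
      have h1 : (1 : ↥(Subring.closure (endSet H A))) ∈ I := by rw [htop]; trivial
      have h2 := (hImem _).1 h1 w₀ hw₀
      simp at h2
      exact hw₀0 h2
    · intro x y hxy
      have hKle : annSub W (x : Module.End (ZMod p) V) ≤ W := fun w hw => hw.1
      have hKinv : ∀ a ∈ A, ∀ v ∈ annSub W (x : Module.End (ZMod p) V),
          ((a : H) : V ≃ₗ[ZMod p] V) v ∈ annSub W (x : Module.End (ZMod p) V) := by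
        intro a ha v hv
        rw [mem_annSub] at hv ⊢
        refine ⟨hWinv a ha v hv.1, ?_⟩
        have hcx : x * ⟨((a : H) : V ≃ₗ[ZMod p] V).toLinearMap,
              Subring.subset_closure ⟨a, ha, rfl⟩⟩
            = ⟨((a : H) : V ≃ₗ[ZMod p] V).toLinearMap,
              Subring.subset_closure ⟨a, ha, rfl⟩⟩ * x := mul_comm _ _
        have h2 := congrArg
          (fun z : ↥(Subring.closure (endSet H A)) => (z : Module.End (ZMod p) V) v) hcx
        simp at h2
        rw [h2, hv.2, map_zero]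
      rcases hWmin _ hKle hKinv with h0 | h1
      · right
        rw [hImem]
        intro w hw
        have hyw : (y : Module.End (ZMod p) V) w ∈ W := hRW _ y.2 w hw
        have hxyw := (hImem _).1 hxy w hw
        have h3 : (y : Module.End (ZMod p) V) w ∈ annSub W (x : Module.End (ZMod p) V) :=
          ⟨hyw, by simpa using hxyw⟩
        rw [h0] at h3
        simpa using h3
      · left
        rw [hImem]
        intro w hw
        have h3 : w ∈ annSub W (x : Module.End (ZMod p) V) := by rw [h1]; exact hw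
        exact h3.2
  let f : A →* (↥(Subring.closure (endSet H A)) ⧸ I) :=
    { toFun := fun a => Ideal.Quotient.mk I
        ⟨((a : H) : V ≃ₗ[ZMod p] V).toLinearMap, Subring.subset_closure ⟨(a : H), a.2, rfl⟩⟩
      map_one' := by
        rw [← map_one (Ideal.Quotient.mk I)]
        congr 1
      map_mul' := by
        intro a b
        rw [← map_mul (Ideal.Quotient.mk I)]
        congr 1 }
  have hf : Function.Injective f := by
    rw [injective_iff_map_eq_one]
    intro a ha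
    have h1 : (⟨((a : H) : V ≃ₗ[ZMod p] V).toLinearMap,
        Subring.subset_closure ⟨(a : H), a.2, rfl⟩⟩ : ↥(Subring.closure (endSet H A))) - 1
        ∈ I := by
      rw [← Ideal.Quotient.eq, map_one]
      exact ha
    have h2 := (hImem _).1 h1 w₀ hw₀
    have h3 : ((a : H) : V ≃ₗ[ZMod p] V) w₀ = w₀ := by
      simp [sub_eq_zero] at h2
      exact h2
    exact Subtype.ext (hfree (a : H) w₀ hw₀0 h3)
  haveI := hIprime
  exact isCyclic_of_injective_ringHom f hf

end aux

/-- Point stabiliser of a sharply doubly transitive group not of semilinear type: a maximal normal abelian subgroup `A` of a linear group `H` that is regular on non-zero vectors and has no irreducible cyclic normal subgroup is cyclic and reducible, and the order of `A` divides `p ^ k - 1` for `k` the dimension of a minimal `A`-invariant subspace. -/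
theorem result {p : ℕ} [Fact p.Prime] {V : Type*} [AddCommGroup V] [Module (ZMod p) V] [Finite V] (H : Subgroup (V ≃ₗ[ZMod p] V)) (hreg : ∀ v w : V, v ≠ 0 → w ≠ 0 → ∃! h : H, (h : V ≃ₗ[ZMod p] V) v = w) (hI : ∀ A : Subgroup H, A.Normal → IsCyclic A → ∃ W : Submodule (ZMod p) V, W ≠ ⊥ ∧ W ≠ ⊤ ∧ ∀ a ∈ A, ∀ v ∈ W, ((a : H) : V ≃ₗ[ZMod p] V) v ∈ W) (A : Subgroup H) (hAn : A.Normal) (hAc : IsMulCommutative A) (hAmax : ∀ B : Subgroup H, B.Normal → IsMulCommutative B → A ≤ B → B = A) : IsCyclic A ∧ ∃ W : Submodule (ZMod p) V, W ≠ ⊥ ∧ W ≠ ⊤ ∧ (∀ a ∈ A, ∀ v ∈ W, ((a : H) : V ≃ₗ[ZMod p] V) v ∈ W) ∧ (∀ W' : Submodule (ZMod p) V, W' ≤ W → (∀ a ∈ A, ∀ v ∈ W', ((a : H) : V ≃ₗ[ZMod p] V) v ∈ W') → W' = ⊥ ∨ W' = W) ∧ Nat.card A ∣ p ^ Module.finrank (ZMod p) W - 1 := by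
  classical
  have hfree : ∀ h : H, ∀ v : V, v ≠ 0 → (h : V ≃ₗ[ZMod p] V) v = v → h = 1 := by
    intro h v hv hh
    obtain ⟨h₀, -, huniq⟩ := hreg v v hv hv
    rw [huniq h hh, huniq 1 (by simp)]
  have hmin : ∀ (n : ℕ) (W₀ : Submodule (ZMod p) V), Module.finrank (ZMod p) W₀ = n → W₀ ≠ ⊥ →
      (∀ a ∈ A, ∀ v ∈ W₀, ((a : H) : V ≃ₗ[ZMod p] V) v ∈ W₀) →
      ∃ W : Submodule (ZMod p) V, W ≤ W₀ ∧ W ≠ ⊥ ∧
        (∀ a ∈ A, ∀ v ∈ W, ((a : H) : V ≃ₗ[ZMod p] V) v ∈ W) ∧
        (∀ W' : Submodule (ZMod p) V, W' ≤ W →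
          (∀ a ∈ A, ∀ v ∈ W', ((a : H) : V ≃ₗ[ZMod p] V) v ∈ W') → W' = ⊥ ∨ W' = W) := by
    intro n
    induction n using Nat.strong_induction_on with
    | _ n ih =>
    intro W₀ hn hne hinv
    by_cases hm : ∀ W' : Submodule (ZMod p) V, W' ≤ W₀ →
        (∀ a ∈ A, ∀ v ∈ W', ((a : H) : V ≃ₗ[ZMod p] V) v ∈ W') → W' = ⊥ ∨ W' = W₀
    · exact ⟨W₀, le_refl _, hne, hinv, hm⟩
    · push Not at hm
      obtain ⟨W', hle, hinv', hne', hneq⟩ := hm
      have hlt : W' < W₀ := lt_of_le_of_ne hle hneq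
      have hfr : Module.finrank (ZMod p) W' < n := by
        rw [← hn]; exact Submodule.finrank_lt_finrank_of_lt hlt
      obtain ⟨W, hW1, hW2, hW3, hW4⟩ := ih _ hfr W' rfl hne' hinv'
      exact ⟨W, hW1.trans hle, hW2, hW3, hW4⟩
  have hcyc : IsCyclic A := by
    by_cases hV : ∃ v : V, v ≠ 0
    · obtain ⟨v₀, hv₀⟩ := hV
      have htop : (⊤ : Submodule (ZMod p) V) ≠ ⊥ := by
        intro h
        apply hv₀
        have h1 : v₀ ∈ (⊤ : Submodule (ZMod p) V) := trivial
        rw [h] at h1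
        simpa using h1
      obtain ⟨W, -, hWne, hWinv, hWmin⟩ := hmin _ ⊤ rfl htop (fun a _ v _ => trivial)
      exact cyclic_of_min H A hfree hAc W hWne hWinv hWmin
    · push Not at hV
      haveI : Subsingleton A := ⟨fun a b => by
        apply Subtype.ext
        apply Subtype.ext
        ext v
        rw [hV v]
        simp⟩
      infer_instance
  refine ⟨hcyc, ?_⟩
  obtain ⟨W₀, hW₀ne, hW₀top, hW₀inv⟩ := hI A hAn hcyc
  obtain ⟨W, hWle, hWne, hWinv, hWmin⟩ := hmin _ W₀ rfl hW₀ne hW₀inv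
  refine ⟨W, hWne, ?_, hWinv, hWmin, ?_⟩
  · intro h
    apply hW₀top
    rw [eq_top_iff, ← h]
    exact hWle
  · have h1 := card_dvd H A hfree W hWinv
    rw [Module.natCard_eq_pow_finrank (K := ZMod p) (V := ↥W), Nat.card_zmod] at h1
    exact h1

end Cfsg.Agent.S0684
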