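import Cfsg.Statements.S0685
import Mathlib
import Cfsg.Agent.S0684

set_option autoImplicit false
open Cfsg

namespace Cfsg.Agent.S0685

section aux

-- a finite group with a self-centralising cyclic normal subgroup A has order at most |A|^2
theorem card_le_sq {G : Type*} [Group G] [Finite G] (A : Subgroup G) [hAn : A.Normal]
    (hcyc : IsCyclic A) (hcent : Subgroup.centralizer (A : Set G) ≤ A) :
    Nat.card G ≤ Nat.card A * Nat.card A := by
  classical
  haveI := hcyc
  obtain ⟨g, hg⟩ := IsCyclic.exists_generator (α := A)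
  let φ : G →* MulAut A := MulAut.conjNormal
  have hker : φ.ker ≤ A := by
    intro x hx
    apply hcent
    rw [Subgroup.mem_centralizer_iff]
    intro a ha
    have h1 : φ x ⟨a, ha⟩ = ⟨a, ha⟩ := by
      rw [MonoidHom.mem_ker] at hx
      rw [hx]; rfl
    have h2 : ((φ x ⟨a, ha⟩ : A) : G) = x * a * x⁻¹ := MulAut.conjNormal_apply x ⟨a, ha⟩
    rw [h1] at h2
    have h3 : x * a * x⁻¹ = a := h2.symm
    exact (mul_inv_eq_iff_eq_mul.mp h3).symm
  haveI hfinM : Finite (MulAut A) :=
    Finite.of_injective (fun σ : MulAut A => (σ : A → A)) DFunLike.coe_injective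
  have hM : Nat.card (MulAut A) ≤ Nat.card A := by
    apply Nat.card_le_card_of_injective (fun σ : MulAut A => σ g)
    intro σ τ hστ
    have hστ' : σ g = τ g := hστ
    apply MulEquiv.ext
    intro x
    obtain ⟨k, rfl⟩ := Subgroup.mem_zpowers_iff.mp (hg x)
    rw [map_zpow, map_zpow, hστ']
  have h1 : Nat.card φ.ker * φ.ker.index = Nat.card G := Subgroup.card_mul_index _
  have h2 : φ.ker.index = Nat.card φ.range := Subgroup.index_ker φ
  have h3 : Nat.card φ.range ≤ Nat.card (MulAut A) := Subgroup.card_le_card_group _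
  have h4 : Nat.card φ.ker ≤ Nat.card A := Subgroup.card_le_of_le hker
  calc Nat.card G = Nat.card φ.ker * φ.ker.index := h1.symm
    _ ≤ Nat.card A * Nat.card (MulAut A) := Nat.mul_le_mul h4 (by rw [h2]; exact h3)
    _ ≤ Nat.card A * Nat.card A := Nat.mul_le_mul_left _ hM

end aux

/-- In a linear group over the prime field that is regular on non-zero vectors and has no irreducible cyclic normal subgroup, a maximal normal abelian subgroup is properly contained in its centraliser, which is non-abelian. -/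
theorem result {p : ℕ} [Fact p.Prime] {V : Type*} [AddCommGroup V] [Module (ZMod p) V] [Finite V] (H : Subgroup (V ≃ₗ[ZMod p] V)) (hreg : ∀ v w : V, v ≠ 0 → w ≠ 0 → ∃! h : H, (h : V ≃ₗ[ZMod p] V) v = w) (hI : ∀ A : Subgroup H, A.Normal → IsCyclic A → ∃ W : Submodule (ZMod p) V, W ≠ ⊥ ∧ W ≠ ⊤ ∧ ∀ a ∈ A, ∀ v ∈ W, ((a : H) : V ≃ₗ[ZMod p] V) v ∈ W) (A : Subgroup H) (hAn : A.Normal) (hAc : IsMulCommutative A) (hAmax : ∀ B : Subgroup H, B.Normal → IsMulCommutative B → A ≤ B → B = A) : A < Subgroup.centralizer (A : Set H) ∧ ¬ IsMulCommutative (Subgroup.centralizer (A : Set H)) := by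
  classical
  obtain ⟨hcyc, W, hWne, hWtop, hWinv, hWmin, hdvd⟩ :=
    Cfsg.Agent.S0684.result H hreg hI A hAn hAc hAmax
  have hAle : A ≤ Subgroup.centralizer (A : Set H) := by
    intro a ha
    rw [Subgroup.mem_centralizer_iff]
    intro b hb
    exact congrArg Subtype.val (hAc.is_comm.comm ⟨b, hb⟩ ⟨a, ha⟩)
  have hlt : A < Subgroup.centralizer (A : Set H) := by
    refine lt_of_le_of_ne hAle ?_
    intro heq
    haveI : Finite (V ≃ₗ[ZMod p] V) :=
      Finite.of_injective (fun e : V ≃ₗ[ZMod p] V => (e : V → V)) DFunLike.coe_injective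
    have hfree : ∀ h : H, ∀ v : V, v ≠ 0 → (h : V ≃ₗ[ZMod p] V) v = v → h = 1 := by
      intro h v hv hh
      obtain ⟨h₀, -, huniq⟩ := hreg v v hv hv
      rw [huniq h hh, huniq 1 (by simp)]
    obtain ⟨w₀, hw₀W, hw₀0⟩ := Submodule.exists_mem_ne_zero_of_ne_bot hWne
    -- (i) |V| ≤ |H| + 1
    have h_i : Nat.card V ≤ Nat.card H + 1 := by
      have hex : ∀ v : V, v ≠ 0 → ∃ h : H, (h : V ≃ₗ[ZMod p] V) w₀ = v :=
        fun v hv => (hreg w₀ v hw₀0 hv).exists
      let f : V → Option H := fun v =>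
        if hv : v = 0 then none else some (Classical.choose (hex v hv))
      have hf0 : ∀ v (hv : v = 0), f v = none := fun v hv => dif_pos hv
      have hf1 : ∀ v (hv : v ≠ 0), f v = some (Classical.choose (hex v hv)) :=
        fun v hv => dif_neg hv
      have hf : Function.Injective f := by
        intro v v' hvv
        by_cases hv : v = 0
        · by_cases hv' : v' = 0
          · rw [hv, hv']
          · rw [hf0 v hv, hf1 v' hv'] at hvv
            exact absurd hvv (by simp)
        · by_cases hv' : v' = 0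
          · rw [hf0 v' hv', hf1 v hv] at hvv
            exact absurd hvv (by simp)
          · rw [hf1 v hv, hf1 v' hv'] at hvv
            have h1 := Classical.choose_spec (hex v hv)
            have h2 := Classical.choose_spec (hex v' hv')
            rw [← h1, ← h2, Option.some.inj hvv]
      have h := Nat.card_le_card_of_injective f hf
      rwa [Finite.card_option] at h
    -- (ii) |W|^2 ≤ |V|
    have h_ii : Nat.card W * Nat.card W ≤ Nat.card V := by
      obtain ⟨v₁, hv₁⟩ : ∃ v₁ : V, v₁ ∉ W := by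
        by_contra hcon
        push Not at hcon
        exact hWtop (Submodule.eq_top_iff'.mpr hcon)
      have hv₁0 : v₁ ≠ 0 := fun h0 => hv₁ (h0 ▸ W.zero_mem)
      obtain ⟨h, hh⟩ := (hreg w₀ v₁ hw₀0 hv₁0).exists
      let U : Submodule (ZMod p) V :=
        W ⊓ Submodule.comap ((h : V ≃ₗ[ZMod p] V) : V →ₗ[ZMod p] V) W
      have hUmem : ∀ w, w ∈ U ↔ w ∈ W ∧ (h : V ≃ₗ[ZMod p] V) w ∈ W := by
        intro w
        simp [U]
      have hUle : U ≤ W := inf_le_left
      have hUinv : ∀ a ∈ A, ∀ v ∈ U, ((a : H) : V ≃ₗ[ZMod p] V) v ∈ U := by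
        intro a ha v hv
        rw [hUmem] at hv ⊢
        refine ⟨hWinv a ha v hv.1, ?_⟩
        have hconj : h * a * h⁻¹ ∈ A := hAn.conj_mem a ha h
        have h5 := hWinv (h * a * h⁻¹) hconj _ hv.2
        have e1 : ((h * a * h⁻¹ : H) : V ≃ₗ[ZMod p] V) * (h : V ≃ₗ[ZMod p] V)
            = (h : V ≃ₗ[ZMod p] V) * ((a : H) : V ≃ₗ[ZMod p] V) := by
          rw [← Subgroup.coe_mul, ← Subgroup.coe_mul, inv_mul_cancel_right]
        have e2 : ((h * a * h⁻¹ : H) : V ≃ₗ[ZMod p] V) ((h : V ≃ₗ[ZMod p] V) v)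
            = (h : V ≃ₗ[ZMod p] V) (((a : H) : V ≃ₗ[ZMod p] V) v) :=
          congrArg (fun g : V ≃ₗ[ZMod p] V => g v) e1
        rwa [e2] at h5
      have hU : U = ⊥ := by
        rcases hWmin U hUle hUinv with h0 | h1
        · exact h0
        · exfalso
          have h6 : w₀ ∈ U := by rw [h1]; exact hw₀W
          rw [hUmem] at h6
          exact hv₁ (hh ▸ h6.2)
      let f : W × W → V := fun xy => (xy.1 : V) + (h : V ≃ₗ[ZMod p] V) (xy.2 : V)
      have hf : Function.Injective f := by
        rintro ⟨x, y⟩ ⟨x', y'⟩ hxy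
        have hxy' : (x : V) + (h : V ≃ₗ[ZMod p] V) (y : V)
            = (x' : V) + (h : V ≃ₗ[ZMod p] V) (y' : V) := hxy
        have hu : (y : V) - (y' : V) ∈ U := by
          rw [hUmem]
          refine ⟨W.sub_mem y.2 y'.2, ?_⟩
          have h7 : (h : V ≃ₗ[ZMod p] V) ((y : V) - (y' : V)) = (x' : V) - (x : V) := by
            rw [map_sub, sub_eq_sub_iff_add_eq_add, add_comm]
            exact hxy'
          rw [h7]
          exact W.sub_mem x'.2 x.2
        rw [hU, Submodule.mem_bot, sub_eq_zero] at hu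
        have hy : y = y' := Subtype.ext hu
        subst hy
        have hx : (x : V) = (x' : V) := add_right_cancel hxy'
        rw [Subtype.ext hx]
      have h8 := Nat.card_le_card_of_injective f hf
      rwa [Nat.card_prod] at h8
    -- (iii) |H| ≤ |A|^2
    have h_iii : Nat.card H ≤ Nat.card A * Nat.card A := by
      haveI := hAn
      exact card_le_sq A hcyc (le_of_eq heq.symm)
    -- (iv) |A| ≤ |W| - 1
    have hWcard : Nat.card W = p ^ Module.finrank (ZMod p) W := by
      have h9 := Module.natCard_eq_pow_finrank (K := ZMod p) (V := ↥W)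
      rwa [Nat.card_zmod] at h9
    have hW1 : 1 < Nat.card W := by
      rw [Finite.one_lt_card_iff_nontrivial]
      exact ⟨⟨⟨w₀, hw₀W⟩, 0, fun h => hw₀0 (congrArg Subtype.val h)⟩⟩
    have h_iv : Nat.card A ≤ Nat.card W - 1 := by
      rw [hWcard]
      apply Nat.le_of_dvd _ hdvd
      rw [← hWcard]; omega
    have hApos : 0 < Nat.card A := Nat.card_pos
    have hA_le : Nat.card A + 1 ≤ Nat.card W := by omega
    have h10 : Nat.card W * Nat.card W ≤ Nat.card A * Nat.card A + 1 :=
      le_trans h_ii (le_trans h_i (by omega))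
    have h11 := Nat.mul_le_mul hA_le hA_le
    have h12 : (Nat.card A + 1) * (Nat.card A + 1)
        = Nat.card A * Nat.card A + 2 * Nat.card A + 1 := by ring
    omega
  refine ⟨hlt, ?_⟩
  intro hcomm
  haveI := hAn
  have h13 := hAmax _ inferInstance hcomm hAle
  exact absurd h13.symm (ne_of_lt hlt)

end Cfsg.Agent.S0685
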