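import Cfsg.Statements.S0691
-- import your own Cfsg.Agent.* helpers here
import Cfsg.Agent.Helper5.RegLin

set_option autoImplicit false
open Cfsg

namespace Cfsg.Agent.S0691

def gq : List Cfsg.Agent.Helper5.Q4 := [(2, 0, 0, 3), (0, 4, 1, 0), (1, 2, 1, 3)]

def Lq : List Cfsg.Agent.Helper5.Q4 := [
    (1, 0, 0, 1), (2, 0, 0, 3), (0, 4, 1, 0), (1, 2, 1, 3), (4, 0, 0, 4), (0, 2, 2, 0), (2, 1, 2, 4), (0, 3, 3, 0),
    (2, 4, 3, 4), (4, 2, 1, 2), (3, 3, 4, 1), (3, 0, 0, 2), (0, 1, 4, 0), (4, 3, 4, 2), (3, 1, 2, 1), (1, 4, 3, 3),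
    (1, 3, 4, 3), (3, 2, 1, 1), (3, 4, 3, 1), (1, 1, 2, 3), (2, 2, 1, 4), (2, 3, 4, 4), (4, 4, 3, 2), (4, 1, 2, 2)]

def words : List (List ℕ) := [
    [], [0], [1], [2], [0, 0], [1, 0],
    [2, 0], [0, 1], [2, 1], [1, 2], [2, 2], [0, 0, 0],
    [1, 0, 0], [2, 0, 0], [1, 2, 0], [2, 2, 0], [2, 0, 1], [2, 2, 1],
    [0, 1, 2], [2, 1, 2], [2, 2, 0, 0], [2, 1, 2, 0], [2, 2, 0, 1], [2, 0, 1, 2]]

/-- An exceptional sharply doubly transitive group of degree 5^2: the listed matrices generate a subgroup of GL(2,5) of order 24 acting regularly on the non-zero vectors. -/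
theorem result (A : Matrix.GeneralLinearGroup (Fin 2) (ZMod 5)) (B : Matrix.GeneralLinearGroup (Fin 2) (ZMod 5)) (C : Matrix.GeneralLinearGroup (Fin 2) (ZMod 5)) (hA : (A : Matrix (Fin 2) (Fin 2) (ZMod 5)) = !![2, 0; 0, -2]) (hB : (B : Matrix (Fin 2) (Fin 2) (ZMod 5)) = !![0, -1; 1, 0]) (hC : (C : Matrix (Fin 2) (Fin 2) (ZMod 5)) = !![1, 2; 1, -2]) : Nat.card (Subgroup.closure ({A, B, C} : Set (Matrix.GeneralLinearGroup (Fin 2) (ZMod 5)))) = 24 ∧ ∀ v w : Fin 2 → ZMod 5, v ≠ 0 → w ≠ 0 → ∃! h : Subgroup.closure ({A, B, C} : Set (Matrix.GeneralLinearGroup (Fin 2) (ZMod 5))), Matrix.mulVec ((h : Matrix.GeneralLinearGroup (Fin 2) (ZMod 5)) : Matrix (Fin 2) (Fin 2) (ZMod 5)) v = w := by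
  have hf : Fact (Nat.Prime 5) := ⟨by norm_num⟩
  have hA' : (A : Matrix (Fin 2) (Fin 2) (ZMod 5)) = Cfsg.Agent.Helper5.toM 5 (2, 0, 0, 3) := by
    rw [hA]; decide
  have hB' : (B : Matrix (Fin 2) (Fin 2) (ZMod 5)) = Cfsg.Agent.Helper5.toM 5 (0, 4, 1, 0) := by
    rw [hB]; decide
  have hC' : (C : Matrix (Fin 2) (Fin 2) (ZMod 5)) = Cfsg.Agent.Helper5.toM 5 (1, 2, 1, 3) := by
    rw [hC]; decide
  have hmain := Cfsg.Agent.Helper5.regular_of_data 5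
    ({A, B, C} : Set (Matrix.GeneralLinearGroup (Fin 2) (ZMod 5))) gq ?_ ?_ words Lq
    (by decide +kernel) (by decide +kernel) (by decide +kernel) (by decide +kernel)
    (by decide +kernel) (by decide +kernel) (by decide +kernel)
  · exact hmain
  · rintro g (rfl | rfl | rfl)
    · exact ⟨_, by simp [gq], hA'⟩
    · exact ⟨_, by simp [gq], hB'⟩
    · exact ⟨_, by simp [gq], hC'⟩
  · intro q hq
    simp only [gq, List.mem_cons, List.not_mem_nil, or_false] at hq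
    rcases hq with rfl | rfl | rfl
    · exact ⟨A, by simp, hA'⟩
    · exact ⟨B, by simp, hB'⟩
    · exact ⟨C, by simp, hC'⟩

end Cfsg.Agent.S0691
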