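import Cfsg.Statements.S0694
-- import your own Cfsg.Agent.* helpers here
import Mathlib

set_option autoImplicit false
open Cfsg

namespace Cfsg.Agent.S0694

theorem L1z (x : ℤ) (M r : ℕ) (hr : r ∣ M) (h : (M : ℤ) ∣ x - 1) :
    ((r * M : ℕ) : ℤ) ∣ x ^ r - 1 := by
  have h1 : (r : ℤ) ∣ x - 1 := dvd_trans (Int.natCast_dvd_natCast.mpr hr) h
  have h2 := dvd_geom_sum₂_self (n := r) h1
  simp only [one_pow, mul_one] at h2
  rw [← geom_sum_mul]
  push_cast
  exact mul_dvd_mul h2 h

theorem L2z (k : ℕ) : ∀ (x : ℤ) (M : ℕ), (M : ℤ) ∣ x - 1 →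
    (∀ r : ℕ, r.Prime → r ∣ k → r ∣ M) → ((k * M : ℕ) : ℤ) ∣ x ^ k - 1 := by
  induction k using Nat.recOnMul with
  | zero => intro x M _ _; simp
  | one => intro x M h _; simpa using h
  | prime p hp => intro x M h hr; exact L1z x M p (hr p hp dvd_rfl) h
  | mul a b iha ihb =>
    intro x M h hr
    have ha := iha x M h (fun r hrp hra => hr r hrp (dvd_mul_of_dvd_left hra b))
    have hb := ihb (x ^ a) (a * M) ha
      (fun r hrp hrb => dvd_mul_of_dvd_right (hr r hrp (dvd_mul_of_dvd_right hrb a)) a)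
    rw [← pow_mul] at hb
    have e : b * (a * M) = a * b * M := by ring
    rw [e] at hb
    exact hb

theorem L3z (k : ℕ) : ∀ (x : ℤ) (M : ℕ), k ≠ 0 → (M : ℤ) ∣ x - 1 → IsCoprime x (k : ℤ) →
    ∃ e : ℕ, 0 < e ∧ e ≤ k ∧ ((k * M : ℕ) : ℤ) ∣ x ^ e - 1 ∧
      ((∃ r : ℕ, r.Prime ∧ r ∣ k ∧ ¬ r ∣ M) → e < k) := by
  induction k using Nat.recOnMul with
  | zero => intro x M h; exact absurd rfl h
  | one =>
    intro x M _ h _
    refine ⟨1, one_pos, le_rfl, by simpa using h, ?_⟩
    rintro ⟨r, hr, hr1, _⟩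
    exact absurd (Nat.dvd_one.mp hr1) hr.ne_one
  | prime p hp =>
    intro x M _ h hc
    by_cases hpM : p ∣ M
    · refine ⟨p, hp.pos, le_rfl, L1z x M p hpM h, ?_⟩
      rintro ⟨r, hr, hrp, hrM⟩
      have : r = p := (Nat.prime_dvd_prime_iff_eq hr hp).mp hrp
      exact absurd (this ▸ hpM) hrM
    · refine ⟨p - 1, Nat.sub_pos_of_lt hp.one_lt, Nat.sub_le _ _, ?_, fun _ => Nat.sub_lt hp.pos one_pos⟩
      have h1 : (p : ℤ) ∣ x ^ (p - 1) - 1 := by
        have := (Int.ModEq.pow_card_sub_one_eq_one hp hc).symm.dvd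
        exact this
      have h2 : (M : ℤ) ∣ x ^ (p - 1) - 1 := by
        have := sub_dvd_pow_sub_pow x 1 (p - 1)
        rw [one_pow] at this
        exact dvd_trans h this
      have hcop : IsCoprime (p : ℤ) (M : ℤ) := by
        rw [Nat.isCoprime_iff_coprime]
        exact (Nat.Prime.coprime_iff_not_dvd hp).mpr hpM
      push_cast
      exact hcop.mul_dvd h1 h2
  | mul a b iha ihb =>
    intro x M hab h hc
    have ha0 : a ≠ 0 := fun h0 => hab (by simp [h0])
    have hb0 : b ≠ 0 := fun h0 => hab (by simp [h0])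
    have hca : IsCoprime x (a : ℤ) := by
      push_cast at hc
      exact hc.of_mul_right_left
    have hcb : IsCoprime x (b : ℤ) := by
      push_cast at hc
      exact hc.of_mul_right_right
    obtain ⟨ea, hea0, heale, head, heas⟩ := iha x M ha0 h hca
    obtain ⟨eb, heb0, heble, hebd, hebs⟩ := ihb (x ^ ea) (a * M) hb0 head (hcb.pow_left)
    refine ⟨ea * eb, Nat.mul_pos hea0 heb0, Nat.mul_le_mul heale heble, ?_, ?_⟩
    · rw [← pow_mul] at hebd
      have e : b * (a * M) = a * b * M := by ring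
      rw [e] at hebd
      exact hebd
    · rintro ⟨r, hr, hrab, hrM⟩
      by_cases hra : r ∣ a
      · have := heas ⟨r, hr, hra, hrM⟩
        calc ea * eb ≤ ea * b := Nat.mul_le_mul_left _ heble
          _ < a * b := Nat.mul_lt_mul_of_pos_right this (Nat.pos_of_ne_zero hb0)
      · have hrb : r ∣ b := ((Nat.Prime.dvd_mul hr).mp hrab).resolve_left hra
        have hraM : ¬ r ∣ a * M := by
          intro hh
          rcases (Nat.Prime.dvd_mul hr).mp hh with h1 | h1
          · exact hra h1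
          · exact hrM h1
        have := hebs ⟨r, hr, hrb, hraM⟩
        calc ea * eb < ea * b := Nat.mul_lt_mul_of_pos_left this hea0
          _ ≤ a * b := Nat.mul_le_mul_right _ heale

theorem odd_case (q i : ℕ) (hq : 2 ≤ q) (hqo : ¬ 2 ∣ q) (hi : ¬ 2 ∣ i) :
    ¬ (2 * (q - 1)) ∣ q ^ i - 1 := by
  intro h
  have h1 : ((2 * (q - 1) : ℕ) : ℤ) ∣ ((q ^ i - 1 : ℕ) : ℤ) := Int.natCast_dvd_natCast.mpr h
  rw [Nat.cast_sub (Nat.one_le_pow _ _ (by omega)), Nat.cast_mul, Nat.cast_sub (by omega)] at h1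
  push_cast at h1
  rw [← geom_sum_mul] at h1
  have hq1 : ((q : ℤ) - 1) ≠ 0 := by
    have : (2 : ℤ) ≤ q := by exact_mod_cast hq
    omega
  have h2 : (2 : ℤ) ∣ ∑ j ∈ Finset.range i, (q : ℤ) ^ j := (mul_dvd_mul_iff_right hq1).mp h1
  have hx : ¬ (2 : ℤ) ∣ (q : ℤ) := by
    intro hh
    exact hqo (by exact_mod_cast hh)
  have hxy : (2 : ℤ) ∣ (q : ℤ) - 1 := by
    have : ¬ 2 ∣ q := hqo
    omega
  have hn : ¬ (2 : ℤ) ∣ (i : ℤ) := by
    intro hh
    exact hi (by exact_mod_cast hh)
  have := not_dvd_geom_sum₂ Int.prime_two hxy hx hn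
  simp only [one_pow, mul_one] at this
  exact this h2

/-- The Dickson pair condition: for a prime power `q` and `n > 1`, (every prime factor of `n` divides `q - 1`, and `4 ∣ n → 4 ∣ q - 1`) holds exactly when `q ^ n ≡ 1` modulo `n * (q - 1)` but `q ^ i` is not, for `0 < i < n`. -/
theorem result (q n : ℕ) (hq : IsPrimePow q) (hn : 1 < n) : ((∀ r : ℕ, r.Prime → r ∣ n → r ∣ q - 1) ∧ (4 ∣ n → 4 ∣ q - 1)) ↔ (q ^ n ≡ 1 [MOD n * (q - 1)] ∧ ∀ i : ℕ, 0 < i → i < n → ¬ q ^ i ≡ 1 [MOD n * (q - 1)]) := by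
  have hq2 : 2 ≤ q := hq.two_le
  have hn0 : n ≠ 0 := by omega
  have hqz : ((q - 1 : ℕ) : ℤ) ∣ (q : ℤ) - 1 := by
    rw [Nat.cast_sub (by omega)]; simp
  have key : ∀ i : ℕ, q ^ i ≡ 1 [MOD n * (q - 1)] ↔ ((n * (q - 1) : ℕ) : ℤ) ∣ (q : ℤ) ^ i - 1 := by
    intro i
    rw [Nat.ModEq.comm, Nat.modEq_iff_dvd]
    push_cast
    rfl
  constructor
  · rintro ⟨D1, D2⟩
    refine ⟨(key n).mpr (L2z n q (q - 1) hqz D1), ?_⟩
    intro i hi0 hin hmod
    have hd : n * (q - 1) ∣ q ^ i - 1 := by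
      have := (key i).mp hmod
      have h2 : ((q : ℤ) ^ i - 1) = ((q ^ i - 1 : ℕ) : ℤ) := by
        rw [Nat.cast_sub (Nat.one_le_pow _ _ (by omega))]; simp
      rw [h2] at this
      exact Int.natCast_dvd_natCast.mp this
    have hqi : q ^ i - 1 ≠ 0 := by
      have : 1 < q ^ i := Nat.one_lt_pow (by omega) (by omega)
      omega
    have hni : n ∣ i := by
      rw [Nat.dvd_iff_prime_pow_dvd_dvd]
      intro p k hp hpk
      by_cases hk : k = 0
      · simp [hk]
      have hpn : p ∣ n := dvd_trans (dvd_pow_self p hk) hpk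
      have hpq1 : p ∣ q - 1 := D1 p hp hpn
      have hpq : ¬ p ∣ q := by
        intro hh
        have : p ∣ 1 := by
          have h3 : p ∣ q - (q - 1) := Nat.dvd_sub hh hpq1
          have : q - (q - 1) = 1 := by omega
          rwa [this] at h3
        exact hp.ne_one (Nat.dvd_one.mp this)
      haveI : Fact p.Prime := ⟨hp⟩
      have hvn : k ≤ padicValNat p n := (padicValNat_dvd_iff_le hn0).mp hpk
      have hq10 : q - 1 ≠ 0 := by omega
      have hN : padicValNat p n + padicValNat p (q - 1) ≤ padicValNat p (q ^ i - 1) := by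
        rw [← padicValNat.mul hn0 hq10]
        exact (padicValNat_dvd_iff_le hqi).mp (dvd_trans pow_padicValNat_dvd hd)
      rcases hp.eq_two_or_odd' with rfl | hodd
      · by_cases hi2 : 2 ∣ i
        · have hlte := padicValNat.pow_two_sub_one (show 1 < q by omega) hpq (by omega)
            (even_iff_two_dvd.mpr hi2)
          by_cases h4 : 4 ∣ q - 1
          · have hv1 : padicValNat 2 (q + 1) = 1 := by
              have h5 : 1 ≤ padicValNat 2 (q + 1) := by
                apply (padicValNat_dvd_iff_le (by omega)).mp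
                omega
              have h6 : ¬ 2 ≤ padicValNat 2 (q + 1) := by
                intro hh
                have := (padicValNat_dvd_iff_le (p := 2) (by omega : q + 1 ≠ 0)).mpr hh
                omega
              omega
            apply (padicValNat_dvd_iff_le (by omega)).mpr
            omega
          · have h4n : ¬ 4 ∣ n := fun hh => h4 (D2 hh)
            have hk1 : k = 1 := by
              by_contra hk1
              have : 2 ≤ k := by omega
              exact h4n (dvd_trans (pow_dvd_pow 2 this) hpk)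
            subst hk1
            simpa using hi2
        · exfalso
          exact odd_case q i hq2 hpq hi2 (dvd_trans (Nat.mul_dvd_mul_right hpn _) hd)
      · have hlte := padicValNat.pow_sub_pow hodd (show 1 < q by omega) hpq1 hpq
          (show i ≠ 0 by omega)
        rw [one_pow] at hlte
        apply (padicValNat_dvd_iff_le (by omega)).mpr
        omega
    have := Nat.le_of_dvd hi0 hni
    omega
  · rintro ⟨R1, R2⟩
    have hcop : Nat.Coprime q n := by
      have h1 : q ^ n ≡ 1 [MOD n] := R1.of_mul_right _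
      have h2 := h1.gcd_eq
      rw [Nat.gcd_one_left] at h2
      exact (Nat.coprime_pow_left_iff (by omega) q n).mp h2
    have hcz : IsCoprime (q : ℤ) (n : ℤ) := Nat.isCoprime_iff_coprime.mpr hcop
    have D1 : ∀ r : ℕ, r.Prime → r ∣ n → r ∣ q - 1 := by
      intro r hr hrn
      by_contra hrq
      obtain ⟨e, he0, hen, hed, hes⟩ := L3z n q (q - 1) hn0 hqz hcz
      have := hes ⟨r, hr, hrn, hrq⟩
      exact R2 e he0 this ((key e).mpr hed)
    refine ⟨D1, ?_⟩
    intro h4n
    by_contra h4q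
    obtain ⟨k, rfl⟩ := h4n
    have h2q : 2 ∣ q - 1 := D1 2 Nat.prime_two (dvd_mul_of_dvd_left (by norm_num) k)
    have hk0 : k ≠ 0 := by
      rintro rfl
      omega
    have hM : ((4 * (q - 1) : ℕ) : ℤ) ∣ ((q : ℤ) ^ 2) - 1 := by
      have h3 : 4 ∣ q + 1 := by omega
      have e : ((q : ℤ) ^ 2) - 1 = ((q + 1 : ℕ) : ℤ) * ((q - 1 : ℕ) : ℤ) := by
        rw [Nat.cast_sub (by omega)]; push_cast; ring
      rw [e]
      push_cast
      exact mul_dvd_mul (by exact_mod_cast h3) dvd_rfl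
    have hk := L2z k ((q : ℤ) ^ 2) (4 * (q - 1)) hM
      (fun r hr hrk => dvd_mul_of_dvd_right (D1 r hr (dvd_mul_of_dvd_right hrk 4)) 4)
    rw [← pow_mul] at hk
    have e : k * (4 * (q - 1)) = 4 * k * (q - 1) := by ring
    rw [e] at hk
    exact R2 (2 * k) (by omega) (by omega) ((key (2 * k)).mpr hk)

end Cfsg.Agent.S0694
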