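import Cfsg.Statements.S0695
-- import your own Cfsg.Agent.* helpers here
import Mathlib
import Cfsg.Agent.Helper5.MultTrans

set_option autoImplicit false
open Cfsg

namespace Cfsg.Agent.S0695

open scoped Pointwise

/-- A regular normal subgroup of a doubly primitive group of finite degree at least 2 is an elementary abelian 2-group (and the degree is a power of 2), unless the degree is 3. -/
theorem result {G : Type*} [Group G] {X : Type*} [Fintype X] [MulAction G X] (hX : 2 ≤ Fintype.card X) (h2 : MulAction.IsMultiplyPreprimitive G X 2) (N : Subgroup G) [N.Normal] (htrans : MulAction.IsPretransitive N X) (hreg : ∀ x : X, MulAction.stabilizer N x = ⊥) : Fintype.card X = 3 ∨ (IsMulCommutative N ∧ (∀ n ∈ N, n ^ 2 = 1) ∧ ∃ m : ℕ, Fintype.card X = 2 ^ m) := by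
  classical
  have hinj : ∀ (a : X) (n₁ n₂ : G), n₁ ∈ N → n₂ ∈ N → n₁ • a = n₂ • a → n₁ = n₂ := by
    intro a n₁ n₂ h1 h2' h
    have hmem : (⟨n₂⁻¹ * n₁, N.mul_mem (N.inv_mem h2') h1⟩ : N) ∈ MulAction.stabilizer N a := by
      rw [MulAction.mem_stabilizer_iff]
      show (n₂⁻¹ * n₁) • a = a
      rw [mul_smul, h, inv_smul_smul]
    rw [hreg a, Subgroup.mem_bot] at hmem
    have h3 : n₂⁻¹ * n₁ = 1 := congrArg Subtype.val hmem
    exact (inv_mul_eq_one.1 h3).symm
  obtain ⟨a⟩ : Nonempty X := Fintype.card_pos_iff.1 (by omega)
  have hprim : MulAction.IsPreprimitive (fixingSubgroup G ({a} : Set X))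
      (SubMulAction.ofFixingSubgroup G ({a} : Set X)) :=
    MulAction.IsMultiplyPreprimitive.isPreprimitive_ofFixingSubgroup G 2 (s := ({a} : Set X))
      (by rw [Set.encard_singleton]; rfl)
  have key : ∀ n ∈ N, n ≠ 1 → n = n⁻¹ ∨ Fintype.card X = 3 := by
    intro n hn hn1
    have hna : n • a ≠ a := fun h => hn1 (hinj a n 1 hn N.one_mem (by rw [h, one_smul]))
    have hnia : n⁻¹ • a ≠ a := fun h => hn1 (by
      have := hinj a n⁻¹ 1 (N.inv_mem hn) N.one_mem (by rw [h, one_smul])
      simpa using this)
    have hB : MulAction.IsBlock (fixingSubgroup G ({a} : Set X)) ({n • a, n⁻¹ • a} : Set X) := by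
      rw [MulAction.isBlock_iff_smul_eq_of_mem]
      intro g x hx hgx
      have hga : (g : G) • a = a := by
        have := g.2
        rw [mem_fixingSubgroup_iff] at this
        exact this a rfl
      have hga' : (g : G)⁻¹ • a = a := by rw [inv_smul_eq_iff, hga]
      have hconj : ∀ m : G, (g : G) • (m • a) = ((g : G) * m * (g : G)⁻¹) • a := by
        intro m
        rw [mul_smul, mul_smul, hga']
      have hconj' : (g : G) • (n⁻¹ • a) = ((g : G) * n * (g : G)⁻¹)⁻¹ • a := by
        rw [hconj]
        congr 1
        group
      have hnN : (g : G) * n * (g : G)⁻¹ ∈ N := Subgroup.Normal.conj_mem inferInstance n hn g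
      have hgB : g • ({n • a, n⁻¹ • a} : Set X) =
          {((g : G) * n * (g : G)⁻¹) • a, ((g : G) * n * (g : G)⁻¹)⁻¹ • a} := by
        rw [Set.smul_set_insert, Set.smul_set_singleton]
        show ({(g : G) • (n • a), (g : G) • (n⁻¹ • a)} : Set X) = _
        rw [hconj n, hconj']
      have hcase : (g : G) * n * (g : G)⁻¹ = n ∨ (g : G) * n * (g : G)⁻¹ = n⁻¹ := by
        rcases hx with rfl | rfl
        · rcases hgx with h | h
          · left
            exact hinj a _ _ hnN hn ((hconj n).symm.trans h)
          · right
            exact hinj a _ _ hnN (N.inv_mem hn) ((hconj n).symm.trans h)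
        · rcases hgx with h | h
          · right
            have h' : ((g : G) * n * (g : G)⁻¹)⁻¹ • a = n • a := hconj'.symm.trans h
            have := hinj a _ _ (N.inv_mem hnN) hn h'
            exact inv_eq_iff_eq_inv.1 this
          · left
            have h' : ((g : G) * n * (g : G)⁻¹)⁻¹ • a = n⁻¹ • a := hconj'.symm.trans h
            have := hinj a _ _ (N.inv_mem hnN) (N.inv_mem hn) h'
            exact inv_injective this
      rw [hgB]
      rcases hcase with h | h
      · rw [h]
      · rw [h, inv_inv, Set.pair_comm]
    rcases Cfsg.Agent.Helper5.block_trivial_of_preprim _ hprim _ hB (by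
        intro x hx
        rcases hx with rfl | rfl
        · exact hna
        · exact hnia) with h | h
    · left
      have := h (Set.mem_insert _ _) (Set.mem_insert_of_mem _ rfl)
      exact hinj a n n⁻¹ hn (N.inv_mem hn) this
    · by_cases hnn : n = n⁻¹
      · exact Or.inl hnn
      · right
        have huniv : (Finset.univ : Finset X) = {a, n • a, n⁻¹ • a} := by
          ext x
          simp only [Finset.mem_univ, Finset.mem_insert, Finset.mem_singleton, true_iff]
          by_cases hxa : x = a
          · exact Or.inl hxa
          · right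
            exact h x hxa
        rw [← Finset.card_univ, huniv, Finset.card_insert_of_notMem, Finset.card_insert_of_notMem,
          Finset.card_singleton]
        · simp only [Finset.mem_singleton]
          intro h
          exact hnn (hinj a n n⁻¹ hn (N.inv_mem hn) h)
        · simp only [Finset.mem_insert, Finset.mem_singleton, not_or]
          exact ⟨fun h => hna h.symm, fun h => hnia h.symm⟩
  by_cases h3 : Fintype.card X = 3
  · exact Or.inl h3
  right
  have hsq : ∀ n ∈ N, n ^ 2 = 1 := by
    intro n hn
    by_cases hn1 : n = 1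
    · rw [hn1, one_pow]
    · rcases key n hn hn1 with h | h
      · rw [pow_two]
        nth_rewrite 1 [h]
        exact inv_mul_cancel n
      · exact absurd h h3
  refine ⟨?_, hsq, ?_⟩
  · refine ⟨⟨fun x y => ?_⟩⟩
    have hx := hsq x x.2
    have hy := hsq y y.2
    have hxy := hsq (x * y) (N.mul_mem x.2 y.2)
    apply Subtype.ext
    show (x : G) * y = y * x
    rw [pow_two] at hx hy hxy
    calc (x : G) * y = x * ((x * y) * (x * y)) * y := by rw [hxy, mul_one]
      _ = (x * x) * (y * x) * (y * y) := by group
      _ = y * x := by rw [hx, hy, one_mul, mul_one]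
  · have hbij : Function.Bijective (fun n : N => n • a) := by
      constructor
      · intro n₁ n₂ h
        exact Subtype.ext (hinj a n₁ n₂ n₁.2 n₂.2 h)
      · intro x
        exact MulAction.exists_smul_eq N a x
    have hfin : Finite N := Finite.of_injective _ hbij.1
    have hcard : Nat.card N = Fintype.card X := by
      rw [← Nat.card_eq_fintype_card]
      exact Nat.card_congr (Equiv.ofBijective _ hbij)
    have hp : IsPGroup 2 N := by
      intro g
      refine ⟨1, ?_⟩
      rw [pow_one]
      apply Subtype.ext
      simpa using hsq g g.2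
    obtain ⟨m, hm⟩ := IsPGroup.iff_card.1 hp
    exact ⟨m, by rw [← hcard, hm]⟩

end Cfsg.Agent.S0695
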