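import Cfsg.Statements.S0696
-- import your own Cfsg.Agent.* helpers here
import Mathlib
import Cfsg.Agent.Helper5.MultTrans
import Cfsg.Agent.S0695

set_option autoImplicit false
open Cfsg

namespace Cfsg.Agent.S0696

open scoped Pointwise

/-- A triply primitive group of degree at least 3 having a regular normal subgroup has degree 3 or 4. -/
theorem result {G : Type*} [Group G] {X : Type*} [Fintype X] [MulAction G X] (hX : 3 ≤ Fintype.card X) (h3 : MulAction.IsMultiplyPreprimitive G X 3) (N : Subgroup G) [N.Normal] (htrans : MulAction.IsPretransitive N X) (hreg : ∀ x : X, MulAction.stabilizer N x = ⊥) : Fintype.card X = 3 ∨ Fintype.card X = 4 := by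
  classical
  have h2 : MulAction.IsMultiplyPreprimitive G X 2 :=
    MulAction.isMultiplyPreprimitive_of_le G X h3 (by norm_num) (by
      rw [ENat.card_eq_coe_fintype_card]
      exact_mod_cast hX)
  rcases Cfsg.Agent.S0695.result (by omega) h2 N htrans hreg with h | ⟨-, hsq, -⟩
  · exact Or.inl h
  have hinj : ∀ (a : X) (n₁ n₂ : G), n₁ ∈ N → n₂ ∈ N → n₁ • a = n₂ • a → n₁ = n₂ := by
    intro a n₁ n₂ h1 h2' h
    have hmem : (⟨n₂⁻¹ * n₁, N.mul_mem (N.inv_mem h2') h1⟩ : N) ∈ MulAction.stabilizer N a := by
      rw [MulAction.mem_stabilizer_iff]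
      show (n₂⁻¹ * n₁) • a = a
      rw [mul_smul, h, inv_smul_smul]
    rw [hreg a, Subgroup.mem_bot] at hmem
    have h3 : n₂⁻¹ * n₁ = 1 := congrArg Subtype.val hmem
    exact (inv_mul_eq_one.1 h3).symm
  obtain ⟨a⟩ : Nonempty X := Fintype.card_pos_iff.1 (by omega)
  obtain ⟨b, hb⟩ : ∃ b, b ≠ a := Fintype.exists_ne_of_one_lt_card (by omega) a
  obtain ⟨c, hca, hcb⟩ : ∃ c, c ≠ a ∧ c ≠ b := by
    by_contra hcon
    push Not at hcon
    have hsub : (Finset.univ : Finset X) ⊆ {a, b} := by
      intro x _
      simp only [Finset.mem_insert, Finset.mem_singleton]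
      by_cases h : x = a
      · exact Or.inl h
      · exact Or.inr (hcon x h)
    have h1 := Finset.card_le_card hsub
    have h2' : ({a, b} : Finset X).card ≤ 2 := Finset.card_le_two
    rw [Finset.card_univ] at h1
    omega
  obtain ⟨⟨n, hnN⟩, hn⟩ := MulAction.exists_smul_eq N a b
  obtain ⟨⟨m, hmN⟩, hm⟩ := MulAction.exists_smul_eq N a c
  replace hn : n • a = b := hn
  replace hm : m • a = c := hm
  have hnn : n * n = 1 := by
    rw [← pow_two]
    exact hsq n hnN
  have hn1 : n ≠ 1 := by
    rintro rfl
    rw [one_smul] at hn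
    exact hb hn.symm
  have hprim : MulAction.IsPreprimitive (fixingSubgroup G ({a, b} : Set X))
      (SubMulAction.ofFixingSubgroup G ({a, b} : Set X)) :=
    MulAction.IsMultiplyPreprimitive.isPreprimitive_ofFixingSubgroup G 3 (s := ({a, b} : Set X))
      (by rw [Set.encard_pair hb.symm]; rfl)
  have hB : MulAction.IsBlock (fixingSubgroup G ({a, b} : Set X))
      ({m • a, (n * m) • a} : Set X) := by
    rw [MulAction.isBlock_iff_smul_eq_of_mem]
    intro g x hx hgx
    have hg := g.2
    rw [mem_fixingSubgroup_iff] at hg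
    have hga : (g : G) • a = a := hg a (Set.mem_insert _ _)
    have hgb : (g : G) • b = b := hg b (Set.mem_insert_of_mem _ rfl)
    have hga' : (g : G)⁻¹ • a = a := by rw [inv_smul_eq_iff, hga]
    have hconj : ∀ k : G, (g : G) • (k • a) = ((g : G) * k * (g : G)⁻¹) • a := by
      intro k
      rw [mul_smul, mul_smul, hga']
    have hgn : (g : G) * n * (g : G)⁻¹ = n := by
      apply hinj a _ _ (Subgroup.Normal.conj_mem inferInstance n hnN g) hnN
      rw [← hconj, hn, hgb]
    have hmN' : (g : G) * m * (g : G)⁻¹ ∈ N := Subgroup.Normal.conj_mem inferInstance m hmN g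
    have hconj2 : (g : G) • ((n * m) • a) = (n * ((g : G) * m * (g : G)⁻¹)) • a := by
      rw [hconj]
      congr 1
      calc (g : G) * (n * m) * (g : G)⁻¹
          = ((g : G) * n * (g : G)⁻¹) * ((g : G) * m * (g : G)⁻¹) := by group
        _ = _ := by rw [hgn]
    have hgB : g • ({m • a, (n * m) • a} : Set X) =
        {((g : G) * m * (g : G)⁻¹) • a, (n * ((g : G) * m * (g : G)⁻¹)) • a} := by
      rw [Set.smul_set_insert, Set.smul_set_singleton]
      show ({(g : G) • (m • a), (g : G) • ((n * m) • a)} : Set X) = _
      rw [hconj m, hconj2]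
    have hcase : (g : G) * m * (g : G)⁻¹ = m ∨ (g : G) * m * (g : G)⁻¹ = n * m := by
      rcases hx with rfl | rfl
      · rcases hgx with h | h
        · left
          exact hinj a _ _ hmN' hmN ((hconj m).symm.trans h)
        · right
          exact hinj a _ _ hmN' (N.mul_mem hnN hmN) ((hconj m).symm.trans h)
      · rcases hgx with h | h
        · right
          have h' := hinj a _ _ (N.mul_mem hnN hmN') hmN (hconj2.symm.trans h)
          calc (g : G) * m * (g : G)⁻¹ = (n * n) * ((g : G) * m * (g : G)⁻¹) := by
                rw [hnn, one_mul]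
            _ = n * (n * ((g : G) * m * (g : G)⁻¹)) := by rw [mul_assoc]
            _ = n * m := by rw [h']
        · left
          have h' := hinj a _ _ (N.mul_mem hnN hmN') (N.mul_mem hnN hmN) (hconj2.symm.trans h)
          exact mul_left_cancel h'
    rw [hgB]
    rcases hcase with h | h
    · rw [h]
    · rw [h, ← mul_assoc, hnn, one_mul, Set.pair_comm]
  have hnm_a : (n * m) • a ≠ a := by
    intro h
    have h1 : n * m = 1 := hinj a _ _ (N.mul_mem hnN hmN) N.one_mem (by rw [h, one_smul])
    have h2 : m = n := by
      calc m = (n * n) * m := by rw [hnn, one_mul]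
        _ = n * (n * m) := by rw [mul_assoc]
        _ = n := by rw [h1, mul_one]
    rw [h2, hn] at hm
    exact hcb hm.symm
  have hnm_b : (n * m) • a ≠ b := by
    intro h
    have h1 : n * m = n := hinj a _ _ (N.mul_mem hnN hmN) hnN (by rw [h, hn])
    have h2 : m = 1 := by simpa using h1
    rw [h2, one_smul] at hm
    exact hca hm.symm
  rcases Cfsg.Agent.Helper5.block_trivial_of_preprim _ hprim _ hB (by
      intro x hx
      rcases hx with rfl | rfl
      · rw [hm]
        simp only [Set.mem_insert_iff, Set.mem_singleton_iff, not_or]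
        exact ⟨hca, hcb⟩
      · simp only [Set.mem_insert_iff, Set.mem_singleton_iff, not_or]
        exact ⟨hnm_a, hnm_b⟩) with h | h
  · exfalso
    have := h (Set.mem_insert _ _) (Set.mem_insert_of_mem _ rfl)
    have h1 : m = n * m := hinj a _ _ hmN (N.mul_mem hnN hmN) this
    apply hn1
    have h4 : n * m = 1 * m := by
      rw [one_mul]
      exact h1.symm
    exact mul_right_cancel h4
  · have hsub : (Finset.univ : Finset X) ⊆ {a, b, m • a, (n * m) • a} := by
      intro x _
      simp only [Finset.mem_insert, Finset.mem_singleton]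
      by_cases hxa : x = a
      · exact Or.inl hxa
      by_cases hxb : x = b
      · exact Or.inr (Or.inl hxb)
      · right
        right
        have := h x (by
          simp only [Set.mem_insert_iff, Set.mem_singleton_iff, not_or]
          exact ⟨hxa, hxb⟩)
        exact this
    have h1 := Finset.card_le_card hsub
    have h2' : ({a, b, m • a, (n * m) • a} : Finset X).card ≤ 4 := Finset.card_le_four
    rw [Finset.card_univ] at h1
    omega

end Cfsg.Agent.S0696
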