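import Cfsg.Statements.S0697
import Mathlib
import Cfsg.Agent.Helper29.KPrim

set_option autoImplicit false
open Cfsg

namespace Cfsg.Agent.S0697

/-- In a `k`-primitive permutation group which is not the whole symmetric group, a non-trivial non-regular normal subgroup is `k`-transitive. -/
theorem result {α : Type*} [Fintype α] [DecidableEq α] (G : Subgroup (Equiv.Perm α)) {k : ℕ} (hk : 1 ≤ k) (hkn : k ≤ Fintype.card α) (hG : MulAction.IsMultiplyPreprimitive G α k) (htop : G ≠ ⊤) (H : Subgroup G) [H.Normal] (hH : H ≠ ⊥) (hnr : ∃ a : α, MulAction.stabilizer H a ≠ ⊥) : MulAction.IsMultiplyPretransitive H α k := by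
  classical
  have hfaith : ∀ g : G, (∀ x : α, g • x = x) → g = 1 := fun g hg => Subtype.ext (Equiv.ext hg)
  have hnt : ¬ MulAction.IsMultiplyPretransitive G α (Fintype.card α - 1) := by
    intro h
    apply htop
    apply Equiv.Perm.eq_top_of_isMultiplyPretransitive
    rw [Nat.card_eq_fintype_card]
    exact h
  obtain ⟨a, ha⟩ := hnr
  obtain ⟨x, hx⟩ := (Subgroup.ne_bot_iff_exists_ne_one).1 ha
  have hnr' : ∃ a : α, ∃ h ∈ H, h ≠ 1 ∧ h • a = a :=
    ⟨a, x.1.1, x.1.2, fun h => hx (Subtype.ext (Subtype.ext h)), MulAction.mem_stabilizer_iff.1 x.2⟩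
  exact Cfsg.Agent.Helper29.pretrans_of_ltr H k
    (Cfsg.Agent.Helper29.kprim_aux hfaith k hkn hG hnt H hnr')

end Cfsg.Agent.S0697
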