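import Cfsg.Statements.S0698
import Mathlib
import Cfsg.Agent.Helper29.Jordan

set_option autoImplicit false
open Cfsg

namespace Cfsg.Agent.S0698

/-- Jordan's Theorem on normal subgroups of multiply transitive groups: if `G` is `k`-transitive (`k > 1`) of degree greater than `k`, a non-trivial normal subgroup is `(k-1)`-transitive, except possibly for `k = 3` when it may be an elementary abelian 2-group. -/
theorem result {α : Type*} [Fintype α] [DecidableEq α] (G : Subgroup (Equiv.Perm α)) {k : ℕ} (hk : 1 < k) (hdeg : k < Fintype.card α) (hG : MulAction.IsMultiplyPretransitive G α k) (N : Subgroup G) [N.Normal] (hN : N ≠ ⊥) : MulAction.IsMultiplyPretransitive N α (k - 1) ∨ (k = 3 ∧ IsMulCommutative N ∧ ∀ n ∈ N, n ^ 2 = 1) := by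
  classical
  have hfaith : ∀ g : G, (∀ x : α, g • x = x) → g = 1 := fun g hg => Subtype.ext (Equiv.ext hg)
  have hN' : ∃ n ∈ N, n ≠ 1 := by
    obtain ⟨n, hn⟩ := (Subgroup.ne_bot_iff_exists_ne_one).1 hN
    exact ⟨n.1, n.2, fun h => hn (Subtype.ext h)⟩
  rcases Cfsg.Agent.Helper29.jordan_aux hfaith k hk [] N
      (Cfsg.Agent.Helper29.ltr_of_pretrans k hG) (by simpa using hdeg)
      (fun g _ n hn => Subgroup.Normal.conj_mem inferInstance n hn g) (by simp) hN' with
    h | ⟨hk3, hcomm, hsq⟩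
  · left
    exact Cfsg.Agent.Helper29.pretrans_of_ltr N (k - 1) h
  · right
    exact ⟨hk3, ⟨⟨fun x y => Subtype.ext (hcomm x.1 x.2 y.1 y.2)⟩⟩, hsq⟩

end Cfsg.Agent.S0698
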