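import Cfsg.Statements.S0700
import Mathlib
import Cfsg.Agent.Helper29.Burnside2

set_option autoImplicit false
open Cfsg

namespace Cfsg.Agent.S0700

/-- Burnside's Theorem on doubly transitive groups: a minimal normal subgroup of a finite doubly transitive permutation group is elementary abelian and regular, or simple and primitive. -/
theorem result {α : Type*} [Fintype α] [DecidableEq α] (G : Subgroup (Equiv.Perm α)) (hG : MulAction.IsMultiplyPretransitive G α 2) (N : Subgroup G) [N.Normal] (hN : N ≠ ⊥) (hmin : ∀ M : Subgroup G, M.Normal → M ≤ N → M = ⊥ ∨ M = N) : (IsMulCommutative N ∧ (∃ p : ℕ, p.Prime ∧ ∀ n ∈ N, n ^ p = 1) ∧ ∀ a : α, MulAction.stabilizer N a = ⊥) ∨ (IsSimpleGroup N ∧ MulAction.IsPreprimitive N α) := by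
  classical
  have hfaith : ∀ g : G, (∀ x : α, g • x = x) → g = 1 := fun g hg => Subtype.ext (Equiv.ext hg)
  have hN' : ∃ n ∈ N, n ≠ 1 := by
    obtain ⟨n, hn⟩ := (Subgroup.ne_bot_iff_exists_ne_one).1 hN
    exact ⟨n.1, n.2, fun h => hn (Subtype.ext h)⟩
  rcases Cfsg.Agent.Helper29.burnside_aux hfaith hG N hN' hmin with
    ⟨hab, ⟨p, hp, hpow⟩, hreg⟩ | ⟨hs, hp⟩
  · left
    refine ⟨⟨⟨fun x y => Subtype.ext (hab x.1 x.2 y.1 y.2)⟩⟩, ⟨p, hp, hpow⟩, ?_⟩
    intro a
    rw [Subgroup.eq_bot_iff_forall]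
    intro x hx
    exact Subtype.ext (hreg a x.1 x.2 (MulAction.mem_stabilizer_iff.1 hx))
  · right
    exact ⟨hs, hp⟩

end Cfsg.Agent.S0700
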