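import Cfsg.Statements.S0701
-- import your own Cfsg.Agent.* helpers here

set_option autoImplicit false
open Cfsg

namespace Cfsg.Agent.S0701

/-- The centraliser in the full symmetric group of a transitive permutation group `G` is semiregular, and it is transitive if and only if `G` is regular. -/
theorem result {α : Type*} (G : Subgroup (Equiv.Perm α)) [MulAction.IsPretransitive G α] : (∀ c ∈ Subgroup.centralizer (G : Set (Equiv.Perm α)), ∀ a : α, c a = a → c = 1) ∧ (MulAction.IsPretransitive (Subgroup.centralizer (G : Set (Equiv.Perm α))) α ↔ ∀ a : α, MulAction.stabilizer G a = ⊥) := by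
  have hsmul : ∀ (g : G) (x : α), g • x = (g : Equiv.Perm α) x := fun _ _ => rfl
  refine ⟨?_, ?_, ?_⟩
  · intro c hc a hca
    rw [Subgroup.mem_centralizer_iff] at hc
    ext b
    obtain ⟨g, hg⟩ := MulAction.exists_smul_eq G a b
    rw [hsmul] at hg
    have h1 := congrArg (fun f : Equiv.Perm α => f a) (hc g g.2)
    simp only [Equiv.Perm.coe_mul, Function.comp_apply] at h1
    rw [hca, hg] at h1
    rw [Equiv.Perm.coe_one, id_eq]
    exact h1.symm
  · intro htrans a
    rw [eq_bot_iff]
    intro g hg
    rw [MulAction.mem_stabilizer_iff, hsmul] at hg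
    rw [Subgroup.mem_bot]
    apply Subtype.ext
    ext b
    obtain ⟨c, hc⟩ := htrans.exists_smul_eq a b
    have hc' : (c : Equiv.Perm α) a = b := hc
    have hcc := c.2
    rw [Subgroup.mem_centralizer_iff] at hcc
    have h1 := congrArg (fun f : Equiv.Perm α => f a) (hcc g g.2)
    simp only [Equiv.Perm.coe_mul, Function.comp_apply] at h1
    rw [hg, hc'] at h1
    rw [Subgroup.coe_one, Equiv.Perm.coe_one, id_eq]
    exact h1
  · intro hreg
    have hbij : ∀ a : α, Function.Bijective (fun g : G => (g : Equiv.Perm α) a) := by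
      intro a
      constructor
      · intro g h hgh
        have hgh' : (g : Equiv.Perm α) a = (h : Equiv.Perm α) a := hgh
        have hmem : h⁻¹ * g ∈ MulAction.stabilizer G a := by
          rw [MulAction.mem_stabilizer_iff, hsmul]
          rw [Subgroup.coe_mul, Subgroup.coe_inv, Equiv.Perm.coe_mul, Function.comp_apply, hgh',
            Equiv.Perm.coe_inv, Equiv.symm_apply_apply]
        rw [hreg a, Subgroup.mem_bot] at hmem
        exact (inv_mul_eq_one.mp hmem).symm
      · intro b
        obtain ⟨g, hg⟩ := MulAction.exists_smul_eq G a b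
        exact ⟨g, hg⟩
    constructor
    intro a b
    set ea := Equiv.ofBijective _ (hbij a) with hea
    set eb := Equiv.ofBijective _ (hbij b) with heb
    have hea' : ∀ g : G, ea g = (g : Equiv.Perm α) a := fun g => rfl
    have heb' : ∀ g : G, eb g = (g : Equiv.Perm α) b := fun g => rfl
    have hc : (ea.symm.trans eb : Equiv.Perm α) ∈ Subgroup.centralizer (G : Set (Equiv.Perm α)) := by
      rw [Subgroup.mem_centralizer_iff]
      intro h hh
      ext x
      obtain ⟨g, rfl⟩ := ea.surjective x
      simp only [Equiv.Perm.coe_mul, Function.comp_apply, Equiv.trans_apply, Equiv.symm_apply_apply]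
      have h1 : h (ea g) = ea (⟨h, hh⟩ * g) := by
        rw [hea', hea']; rfl
      rw [h1, Equiv.symm_apply_apply, heb', heb']
      rfl
    refine ⟨⟨_, hc⟩, ?_⟩
    show (ea.symm.trans eb) a = b
    have h1 : a = ea 1 := by rw [hea']; rfl
    rw [Equiv.trans_apply]
    conv_lhs => rw [h1]
    rw [Equiv.symm_apply_apply, heb']
    rfl

end Cfsg.Agent.S0701
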