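import Cfsg.Statements.S0702
-- import your own Cfsg.Agent.* helpers here
import Mathlib

set_option autoImplicit false
open Cfsg

namespace Cfsg.Agent.S0702

section aux
variable {α : Type*} (G : Subgroup (Equiv.Perm α)) [MulAction.IsPretransitive G α] (a : α)

noncomputable def rep (x : α) : G := Classical.choose (MulAction.exists_smul_eq G a x)

theorem rep_spec (x : α) : rep G a x • a = x :=
  Classical.choose_spec (MulAction.exists_smul_eq G a x)

noncomputable def f (n : G) (x : α) : α := rep G a x • n⁻¹ • a

theorem f_wd {n : G}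
    (hn : n ∈ Subgroup.normalizer ((MulAction.stabilizer G a : Subgroup G) : Set G)) (g : G) :
    f G a n (g • a) = g • n⁻¹ • a := by
  unfold f
  have h1 : rep G a (g • a) • a = g • a := rep_spec G a _
  have h2 : g⁻¹ * rep G a (g • a) ∈ MulAction.stabilizer G a := by
    rw [MulAction.mem_stabilizer_iff, mul_smul, h1, inv_smul_smul]
  have h3 := (Subgroup.mem_normalizer_iff.mp hn _).mp h2
  rw [MulAction.mem_stabilizer_iff] at h3
  have h4 : rep G a (g • a) • n⁻¹ • a
      = g • n⁻¹ • (n * (g⁻¹ * rep G a (g • a)) * n⁻¹) • a := by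
    simp [mul_smul]
  rw [h4, h3]

theorem f_mul {n m : G}
    (hn : n ∈ Subgroup.normalizer ((MulAction.stabilizer G a : Subgroup G) : Set G))
    (hm : m ∈ Subgroup.normalizer ((MulAction.stabilizer G a : Subgroup G) : Set G)) (x : α) :
    f G a n (f G a m x) = f G a (n * m) x := by
  obtain ⟨g, rfl⟩ := MulAction.exists_smul_eq G a x
  rw [f_wd G a hm, f_wd G a (Subgroup.mul_mem _ hn hm), ← mul_smul, f_wd G a hn]
  simp [mul_smul]

theorem f_one (x : α) : f G a 1 x = x := by
  obtain ⟨g, rfl⟩ := MulAction.exists_smul_eq G a x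
  rw [f_wd G a (Subgroup.one_mem _)]
  simp

theorem f_comm {n : G}
    (hn : n ∈ Subgroup.normalizer ((MulAction.stabilizer G a : Subgroup G) : Set G))
    (g : G) (x : α) : g • f G a n x = f G a n (g • x) := by
  obtain ⟨k, rfl⟩ := MulAction.exists_smul_eq G a x
  rw [f_wd G a hn, ← mul_smul g k a, f_wd G a hn, mul_smul]

noncomputable def phiPerm
    (n : Subgroup.normalizer ((MulAction.stabilizer G a : Subgroup G) : Set G)) :
    Equiv.Perm α where
  toFun := f G a n.1
  invFun := f G a (n⁻¹).1
  left_inv x := by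
    rw [f_mul G a (n⁻¹).2 n.2]
    have : ((n⁻¹ : Subgroup.normalizer ((MulAction.stabilizer G a : Subgroup G) : Set G)) : G)
        * (n : G) = 1 := by simp
    rw [this, f_one]
  right_inv x := by
    rw [f_mul G a n.2 (n⁻¹).2]
    have : (n : G) *
        ((n⁻¹ : Subgroup.normalizer ((MulAction.stabilizer G a : Subgroup G) : Set G)) : G)
         = 1 := by simp
    rw [this, f_one]

theorem phiPerm_mem
    (n : Subgroup.normalizer ((MulAction.stabilizer G a : Subgroup G) : Set G)) :
    phiPerm G a n ∈ Subgroup.centralizer (G : Set (Equiv.Perm α)) := by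
  rw [Subgroup.mem_centralizer_iff]
  intro g hg
  ext x
  have := f_comm G a n.2 ⟨g, hg⟩ x
  simpa [phiPerm] using this

noncomputable def phi :
    Subgroup.normalizer ((MulAction.stabilizer G a : Subgroup G) : Set G) →*
      Subgroup.centralizer (G : Set (Equiv.Perm α)) where
  toFun n := ⟨phiPerm G a n, phiPerm_mem G a n⟩
  map_one' := by
    apply Subtype.ext
    ext x
    exact f_one G a x
  map_mul' n m := by
    apply Subtype.ext
    ext x
    exact (f_mul G a n.2 m.2 x).symm

theorem phi_apply
    (n : Subgroup.normalizer ((MulAction.stabilizer G a : Subgroup G) : Set G)) (g : G) :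
    ((phi G a n : Subgroup.centralizer (G : Set (Equiv.Perm α))) : Equiv.Perm α) (g • a)
      = g • (n : G)⁻¹ • a := f_wd G a n.2 g

omit [MulAction.IsPretransitive G α] in
theorem cent_comm (c : Subgroup.centralizer (G : Set (Equiv.Perm α))) (g : G) (x : α) :
    (c : Equiv.Perm α) (g • x) = g • (c : Equiv.Perm α) x := by
  have h := (Subgroup.mem_centralizer_iff.mp c.2) g.1 g.2
  have h2 := congrArg (fun σ : Equiv.Perm α => σ x) h
  simp only [Equiv.Perm.coe_mul, Function.comp_apply] at h2
  exact h2.symm

theorem inv_mem_norm_of_cent (c : Subgroup.centralizer (G : Set (Equiv.Perm α))) (h : G)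
    (hh : h • a = (c : Equiv.Perm α) a) :
    h⁻¹ ∈ Subgroup.normalizer ((MulAction.stabilizer G a : Subgroup G) : Set G) := by
  have hh' : h⁻¹ • a = (c : Equiv.Perm α).symm a := by
    rw [Equiv.eq_symm_apply, cent_comm, ← hh, inv_smul_smul]
  have cs : ∀ (g : G) (x : α), (c : Equiv.Perm α).symm (g • x) = g • (c : Equiv.Perm α).symm x := by
    intro g x
    rw [Equiv.symm_apply_eq, cent_comm, Equiv.apply_symm_apply]
  rw [Subgroup.mem_normalizer_iff]
  intro x
  simp only [MulAction.mem_stabilizer_iff, inv_inv]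
  constructor
  · intro hx
    rw [mul_smul, mul_smul, hh, ← cent_comm, hx, ← hh, inv_smul_smul]
  · intro hx
    rw [mul_smul, mul_smul, inv_smul_eq_iff, hh, ← cent_comm] at hx
    exact (c : Equiv.Perm α).injective hx

theorem mem_normalizer_of_finite {G : Type*} [Group G] [Finite G] (H : Subgroup G) (g : G)
    (h : ∀ x ∈ H, g * x * g⁻¹ ∈ H) : g ∈ Subgroup.normalizer (H : Set G) := by
  rw [Subgroup.mem_normalizer_iff]
  intro x
  refine ⟨h x, fun hx => ?_⟩
  let φ : H → H := fun y => ⟨g * y * g⁻¹, h y y.2⟩
  have hinj : Function.Injective φ := by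
    intro y z hyz
    have := congrArg Subtype.val hyz
    simp [φ] at this
    exact this
  obtain ⟨y, hy⟩ := (Finite.injective_iff_surjective.mp hinj) ⟨g * x * g⁻¹, hx⟩
  have := congrArg Subtype.val hy
  simp [φ] at this
  rw [← this]; exact y.2

end aux

/-- For a transitive permutation group `G` on a finite set, the centraliser of `G` in the symmetric group is isomorphic to `N_G(G_ω)/G_ω`, and its orbit of `ω` is the set of fixed points of `G_ω`. -/
theorem result {α : Type*} [Finite α] (G : Subgroup (Equiv.Perm α)) [MulAction.IsPretransitive G α] (a : α) : Nonempty (Subgroup.centralizer (G : Set (Equiv.Perm α)) ≃* Subgroup.normalizer ((MulAction.stabilizer G a : Subgroup G) : Set G) ⧸ (MulAction.stabilizer G a).subgroupOf (Subgroup.normalizer ((MulAction.stabilizer G a : Subgroup G) : Set G))) ∧ MulAction.orbit (Subgroup.centralizer (G : Set (Equiv.Perm α))) a = MulAction.fixedPoints (MulAction.stabilizer G a) α := by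
  classical
  have hker : (phi G a).ker = (MulAction.stabilizer G a).subgroupOf
      (Subgroup.normalizer ((MulAction.stabilizer G a : Subgroup G) : Set G)) := by
    ext n
    rw [MonoidHom.mem_ker, Subgroup.mem_subgroupOf, MulAction.mem_stabilizer_iff]
    constructor
    · intro h
      have h1 := phi_apply G a n 1
      rw [h] at h1
      simp only [one_smul] at h1
      have h2 : (n : G)⁻¹ • a = a := h1.symm
      rw [inv_smul_eq_iff] at h2
      exact h2.symm
    · intro h
      apply Subtype.ext
      ext x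
      obtain ⟨g, rfl⟩ := MulAction.exists_smul_eq G a x
      rw [phi_apply]
      have : (n : G)⁻¹ • a = a := by rw [inv_smul_eq_iff, h]
      rw [this]; rfl
  have hsurj : Function.Surjective (phi G a) := by
    intro c
    obtain ⟨h, hh⟩ := MulAction.exists_smul_eq G a ((c : Equiv.Perm α) a)
    refine ⟨⟨h⁻¹, inv_mem_norm_of_cent G a c h hh⟩, ?_⟩
    apply Subtype.ext
    ext x
    obtain ⟨g, rfl⟩ := MulAction.exists_smul_eq G a x
    rw [phi_apply]
    simp only [inv_inv]
    rw [hh, cent_comm]
  refine ⟨⟨((QuotientGroup.quotientMulEquivOfEq hker).symm.trans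
    (QuotientGroup.quotientKerEquivOfSurjective (phi G a) hsurj)).symm⟩, ?_⟩
  ext y
  rw [MulAction.mem_orbit_iff, MulAction.mem_fixedPoints]
  constructor
  · rintro ⟨c, rfl⟩ ⟨x, hx⟩
    have h1 := cent_comm G c x a
    rw [MulAction.mem_stabilizer_iff.mp hx] at h1
    exact h1.symm
  · intro hy
    obtain ⟨h, rfl⟩ := MulAction.exists_smul_eq G a y
    have hn : h⁻¹ ∈ Subgroup.normalizer ((MulAction.stabilizer G a : Subgroup G) : Set G) := by
      apply mem_normalizer_of_finite
      intro x hx
      rw [MulAction.mem_stabilizer_iff, inv_inv, mul_smul, mul_smul, inv_smul_eq_iff]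
      exact hy ⟨x, hx⟩
    refine ⟨phi G a ⟨h⁻¹, hn⟩, ?_⟩
    have := phi_apply G a ⟨h⁻¹, hn⟩ 1
    simp only [one_smul, inv_inv] at this
    exact this

end Cfsg.Agent.S0702
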