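import Cfsg.Statements.S0703
-- import your own Cfsg.Agent.* helpers here
import Mathlib

set_option autoImplicit false
open Cfsg

namespace Cfsg.Agent.S0703

theorem stab_trivial {α : Type*} (A B : Subgroup (Equiv.Perm α))
    (hB : ∀ x y : α, ∃ g ∈ B, g x = y) (hc : ∀ a ∈ A, ∀ b ∈ B, a * b = b * a)
    (m : Equiv.Perm α) (hm : m ∈ A) (a : α) (hma : m a = a) : m = 1 := by
  ext b
  obtain ⟨n, hn, rfl⟩ := hB a b
  have h := congrArg (fun σ : Equiv.Perm α => σ a) (hc m hm n hn)
  simp only [Equiv.Perm.coe_mul, Function.comp_apply] at h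
  rw [h, hma]; rfl

theorem cent_eq {α : Type*} [Nonempty α] (A B : Subgroup (Equiv.Perm α))
    (hA : ∀ x y : α, ∃ g ∈ A, g x = y) (hB : ∀ x y : α, ∃ g ∈ B, g x = y)
    (hc : ∀ a ∈ A, ∀ b ∈ B, a * b = b * a) :
    Subgroup.centralizer (A : Set (Equiv.Perm α)) = B := by
  ext c
  constructor
  · intro hcc
    obtain ⟨a₀⟩ := ‹Nonempty α›
    obtain ⟨n, hn, hna⟩ := hB a₀ (c a₀)
    have : c = n := by
      ext b
      obtain ⟨m, hm, rfl⟩ := hA a₀ b
      have h1 := congrArg (fun σ : Equiv.Perm α => σ a₀)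
        ((Subgroup.mem_centralizer_iff.mp hcc) m hm)
      have h2 := congrArg (fun σ : Equiv.Perm α => σ a₀) (hc m hm n hn)
      simp only [Equiv.Perm.coe_mul, Function.comp_apply] at h1 h2
      rw [← h1, ← hna, h2]
    rw [this]; exact hn
  · intro hcB
    rw [Subgroup.mem_centralizer_iff]
    intro g hg
    exact hc g hg c hcB

/-- An abelian transitive minimal normal subgroup `M` of a permutation group on a finite set is self-centralising in the symmetric group, regular, elementary abelian, and is the unique minimal normal subgroup. -/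
theorem result {α : Type*} [Finite α] (G : Subgroup (Equiv.Perm α)) (M : Subgroup G) [M.Normal] (hM : M ≠ ⊥) (hmin : ∀ L : Subgroup G, L.Normal → L ≤ M → L = ⊥ ∨ L = M) (hab : IsMulCommutative M) (htrans : MulAction.IsPretransitive M α) : Subgroup.centralizer ((M.map G.subtype : Subgroup (Equiv.Perm α)) : Set (Equiv.Perm α)) = M.map G.subtype ∧ (∀ a : α, MulAction.stabilizer M a = ⊥) ∧ (∃ p : ℕ, p.Prime ∧ ∀ m ∈ M, m ^ p = 1) ∧ ∀ L : Subgroup G, L.Normal → L ≠ ⊥ → (∀ L' : Subgroup G, L'.Normal → L' ≤ L → L' = ⊥ ∨ L' = L) → L = M := by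
  classical
  have hne : Nonempty α := by
    by_contra h
    rw [not_nonempty_iff] at h
    apply hM
    rw [eq_bot_iff]
    intro m _
    rw [Subgroup.mem_bot]
    apply Subtype.ext
    apply Equiv.ext
    intro x
    exact (h.false x).elim
  have htr : ∀ x y : α, ∃ g ∈ M.map G.subtype, g x = y := by
    intro x y
    obtain ⟨m, hm⟩ := MulAction.exists_smul_eq M x y
    exact ⟨((m : G) : Equiv.Perm α), ⟨(m : G), m.2, rfl⟩, hm⟩
  have hcomm : ∀ a ∈ M.map G.subtype, ∀ b ∈ M.map G.subtype, a * b = b * a := by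
    rintro _ ⟨a, ha, rfl⟩ _ ⟨b, hb, rfl⟩
    have := setLike_mul_comm (s := M) ha hb
    rw [← map_mul, ← map_mul, this]
  have hreg : ∀ m : G, m ∈ M → ∀ a : α, (m : Equiv.Perm α) a = a → m = 1 := by
    intro m hm a hma
    have := stab_trivial (M.map G.subtype) (M.map G.subtype) htr hcomm (m : Equiv.Perm α)
      ⟨m, hm, rfl⟩ a hma
    exact Subtype.ext this
  have hcent := cent_eq (M.map G.subtype) (M.map G.subtype) htr htr hcomm
  refine ⟨hcent, ?_, ?_, ?_⟩
  · intro a
    rw [eq_bot_iff]
    intro m hm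
    rw [MulAction.mem_stabilizer_iff] at hm
    rw [Subgroup.mem_bot]
    exact Subtype.ext (hreg (m : G) m.2 a hm)
  · have hMnt : Nontrivial M := (Subgroup.nontrivial_iff_ne_bot M).mpr hM
    have hMcard : 1 < Nat.card M := Finite.one_lt_card
    obtain ⟨p, hp, hpd⟩ := Nat.exists_prime_and_dvd (ne_of_gt hMcard)
    refine ⟨p, hp, ?_⟩
    haveI : Fact p.Prime := ⟨hp⟩
    obtain ⟨x, hx⟩ := exists_prime_orderOf_dvd_card' p hpd
    let L : Subgroup G :=
      { carrier := {g | g ∈ M ∧ g ^ p = 1}
        mul_mem' := by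
          rintro a b ⟨ha, hap⟩ ⟨hb, hbp⟩
          refine ⟨M.mul_mem ha hb, ?_⟩
          have hc : Commute a b := setLike_mul_comm (s := M) ha hb
          rw [hc.mul_pow, hap, hbp, one_mul]
        one_mem' := ⟨M.one_mem, one_pow p⟩
        inv_mem' := by
          rintro a ⟨ha, hap⟩
          exact ⟨M.inv_mem ha, by rw [inv_pow, hap, inv_one]⟩ }
    have hLn : L.Normal := by
      refine ⟨fun n hn g => ⟨‹M.Normal›.conj_mem n hn.1 g, ?_⟩⟩
      rw [conj_pow, hn.2]; group
    have hLM : L ≤ M := fun g hg => hg.1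
    rcases hmin L hLn hLM with h | h
    · exfalso
      have hxL : (x : G) ∈ L := by
        refine ⟨x.2, ?_⟩
        rw [← Subgroup.coe_pow, ← hx, pow_orderOf_eq_one]; rfl
      rw [h, Subgroup.mem_bot] at hxL
      have hx1 : x = 1 := Subtype.ext hxL
      rw [hx1, orderOf_one] at hx
      exact hp.one_lt.ne hx
    · intro m hm
      have : m ∈ L := h ▸ hm
      exact this.2
  · intro L hLn hL hLmin
    have hinf : (L ⊓ M).Normal := inferInstance
    rcases hmin (L ⊓ M) hinf inf_le_right with h | h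
    · exfalso
      have hLc : ∀ l ∈ L, ∀ m ∈ M, l * m = m * l := by
        intro l hl m hm
        have h1 : l * m * l⁻¹ * m⁻¹ ∈ L ⊓ M := by
          refine ⟨?_, ?_⟩
          · have h2 : m * l⁻¹ * m⁻¹ ∈ L := hLn.conj_mem _ (L.inv_mem hl) m
            have h3 := L.mul_mem hl h2
            have e : l * (m * l⁻¹ * m⁻¹) = l * m * l⁻¹ * m⁻¹ := by group
            rw [e] at h3; exact h3
          · have h2 : l * m * l⁻¹ ∈ M := ‹M.Normal›.conj_mem m hm l
            exact M.mul_mem h2 (M.inv_mem hm)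
        rw [h, Subgroup.mem_bot] at h1
        calc l * m = (l * m * l⁻¹ * m⁻¹) * (m * l) := by group
          _ = m * l := by rw [h1, one_mul]
      have hLle : L ≤ M := by
        intro l hl
        have hmem : (l : Equiv.Perm α) ∈
            Subgroup.centralizer ((M.map G.subtype : Subgroup (Equiv.Perm α)) : Set (Equiv.Perm α)) := by
          rw [Subgroup.mem_centralizer_iff]
          rintro _ ⟨m, hm, rfl⟩
          have h2 := congrArg (G.subtype) (hLc l hl m hm)
          rw [map_mul, map_mul] at h2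
          exact h2.symm
        rw [hcent] at hmem
        obtain ⟨m, hm, hml⟩ := hmem
        have : m = l := Subtype.ext hml
        rw [← this]; exact hm
      have : L ⊓ M = L := inf_eq_left.mpr hLle
      rw [this] at h
      exact hL h
    · have hML : M ≤ L := by rw [← h]; exact inf_le_left
      rcases hLmin M ‹M.Normal› hML with h2 | h2
      · exact absurd h2 hM
      · exact h2.symm

end Cfsg.Agent.S0703
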