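import Cfsg.Statements.S0704
-- import your own Cfsg.Agent.* helpers here
import Mathlib

set_option autoImplicit false
open Cfsg

namespace Cfsg.Agent.S0704

theorem stab_trivial {α : Type*} (A B : Subgroup (Equiv.Perm α))
    (hB : ∀ x y : α, ∃ g ∈ B, g x = y) (hc : ∀ a ∈ A, ∀ b ∈ B, a * b = b * a)
    (m : Equiv.Perm α) (hm : m ∈ A) (a : α) (hma : m a = a) : m = 1 := by
  ext b
  obtain ⟨n, hn, rfl⟩ := hB a b
  have h := congrArg (fun σ : Equiv.Perm α => σ a) (hc m hm n hn)
  simp only [Equiv.Perm.coe_mul, Function.comp_apply] at h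
  rw [h, hma]; rfl

theorem cent_eq {α : Type*} [Nonempty α] (A B : Subgroup (Equiv.Perm α))
    (hA : ∀ x y : α, ∃ g ∈ A, g x = y) (hB : ∀ x y : α, ∃ g ∈ B, g x = y)
    (hc : ∀ a ∈ A, ∀ b ∈ B, a * b = b * a) :
    Subgroup.centralizer (A : Set (Equiv.Perm α)) = B := by
  ext c
  constructor
  · intro hcc
    obtain ⟨a₀⟩ := ‹Nonempty α›
    obtain ⟨n, hn, hna⟩ := hB a₀ (c a₀)
    have : c = n := by
      ext b
      obtain ⟨m, hm, rfl⟩ := hA a₀ b
      have h1 := congrArg (fun σ : Equiv.Perm α => σ a₀)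
        ((Subgroup.mem_centralizer_iff.mp hcc) m hm)
      have h2 := congrArg (fun σ : Equiv.Perm α => σ a₀) (hc m hm n hn)
      simp only [Equiv.Perm.coe_mul, Function.comp_apply] at h1 h2
      rw [← h1, ← hna, h2]
    rw [this]; exact hn
  · intro hcB
    rw [Subgroup.mem_centralizer_iff]
    intro g hg
    exact hc g hg c hcB

/-- two normal subgroups with trivial intersection commute elementwise -/
theorem commute_of_inf_bot {G : Type*} [Group G] (L M : Subgroup G) (hL : L.Normal) (hMn : M.Normal)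
    (h : L ⊓ M = ⊥) : ∀ l ∈ L, ∀ m ∈ M, l * m = m * l := by
  intro l hl m hm
  have h1 : l * m * l⁻¹ * m⁻¹ ∈ L ⊓ M := by
    refine ⟨?_, ?_⟩
    · have h2 : m * l⁻¹ * m⁻¹ ∈ L := hL.conj_mem _ (L.inv_mem hl) m
      have h3 := L.mul_mem hl h2
      have e : l * (m * l⁻¹ * m⁻¹) = l * m * l⁻¹ * m⁻¹ := by group
      rw [e] at h3; exact h3
    · have h2 : l * m * l⁻¹ ∈ M := hMn.conj_mem m hm l
      exact M.mul_mem h2 (M.inv_mem hm)
  rw [h, Subgroup.mem_bot] at h1
  calc l * m = (l * m * l⁻¹ * m⁻¹) * (m * l) := by group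
    _ = m * l := by rw [h1, one_mul]

/-- Two distinct transitive minimal normal subgroups `M`, `N` of a permutation group are regular, non-abelian, isomorphic, each other's centraliser in the symmetric group, and the only minimal normal subgroups. -/
theorem result {α : Type*} (G : Subgroup (Equiv.Perm α)) (M N : Subgroup G) [M.Normal] [N.Normal] (hM : M ≠ ⊥) (hN : N ≠ ⊥) (hMmin : ∀ L : Subgroup G, L.Normal → L ≤ M → L = ⊥ ∨ L = M) (hNmin : ∀ L : Subgroup G, L.Normal → L ≤ N → L = ⊥ ∨ L = N) (hMN : M ≠ N) (hMt : MulAction.IsPretransitive M α) (hNt : MulAction.IsPretransitive N α) : (∀ a : α, MulAction.stabilizer M a = ⊥) ∧ (∀ a : α, MulAction.stabilizer N a = ⊥) ∧ ¬ IsMulCommutative M ∧ Nonempty (M ≃* N) ∧ Subgroup.centralizer ((M.map G.subtype : Subgroup (Equiv.Perm α)) : Set (Equiv.Perm α)) = N.map G.subtype ∧ Subgroup.centralizer ((N.map G.subtype : Subgroup (Equiv.Perm α)) : Set (Equiv.Perm α)) = M.map G.subtype ∧ ∀ L : Subgroup G, L.Normal → L ≠ ⊥ → (∀ L' : Subgroup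 G, L'.Normal → L' ≤ L → L' = ⊥ ∨ L' = L) → L = M ∨ L = N := by
  classical
  have hne : Nonempty α := by
    by_contra h
    rw [not_nonempty_iff] at h
    apply hM
    rw [eq_bot_iff]
    intro m _
    rw [Subgroup.mem_bot]
    apply Subtype.ext
    apply Equiv.ext
    intro x
    exact (h.false x).elim
  have ha₀ := hne
  obtain ⟨a₀⟩ := ha₀
  have hMNbot : M ⊓ N = ⊥ := by
    rcases hMmin (M ⊓ N) inferInstance inf_le_left with h | h
    · exact h
    · exfalso
      have hle : M ≤ N := by rw [← h]; exact inf_le_right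
      rcases hNmin M ‹M.Normal› hle with h2 | h2
      · exact hM h2
      · exact hMN h2
  have hcG := commute_of_inf_bot M N ‹M.Normal› ‹N.Normal› hMNbot
  have htrM : ∀ x y : α, ∃ g ∈ M.map G.subtype, g x = y := by
    intro x y
    obtain ⟨m, hm⟩ := MulAction.exists_smul_eq M x y
    exact ⟨((m : G) : Equiv.Perm α), ⟨(m : G), m.2, rfl⟩, hm⟩
  have htrN : ∀ x y : α, ∃ g ∈ N.map G.subtype, g x = y := by
    intro x y
    obtain ⟨m, hm⟩ := MulAction.exists_smul_eq N x y
    exact ⟨((m : G) : Equiv.Perm α), ⟨(m : G), m.2, rfl⟩, hm⟩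
  have hcomm : ∀ a ∈ M.map G.subtype, ∀ b ∈ N.map G.subtype, a * b = b * a := by
    rintro _ ⟨a, ha, rfl⟩ _ ⟨b, hb, rfl⟩
    rw [← map_mul, ← map_mul, hcG a ha b hb]
  have hcomm' : ∀ a ∈ N.map G.subtype, ∀ b ∈ M.map G.subtype, a * b = b * a :=
    fun a ha b hb => (hcomm b hb a ha).symm
  have hregM : ∀ m : G, m ∈ M → ∀ a : α, (m : Equiv.Perm α) a = a → m = 1 := by
    intro m hm a hma
    exact Subtype.ext (stab_trivial (M.map G.subtype) (N.map G.subtype) htrN hcomm
      (m : Equiv.Perm α) ⟨m, hm, rfl⟩ a hma)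
  have hregN : ∀ m : G, m ∈ N → ∀ a : α, (m : Equiv.Perm α) a = a → m = 1 := by
    intro m hm a hma
    exact Subtype.ext (stab_trivial (N.map G.subtype) (M.map G.subtype) htrM hcomm'
      (m : Equiv.Perm α) ⟨m, hm, rfl⟩ a hma)
  have hcentM := cent_eq (M.map G.subtype) (N.map G.subtype) htrM htrN hcomm
  have hcentN := cent_eq (N.map G.subtype) (M.map G.subtype) htrN htrM hcomm'
  -- smul forms
  have hsmc : ∀ (m : M) (n : N) (b : α), m • n • b = n • m • b := by
    intro m n b
    have h := congrArg (fun σ : Equiv.Perm α => σ b)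
      (hcomm _ ⟨(m : G), m.2, rfl⟩ _ ⟨(n : G), n.2, rfl⟩)
    simp only [Equiv.Perm.coe_mul, Function.comp_apply] at h
    exact h
  have hinjM : ∀ (m m' : M) (a : α), m • a = m' • a → m = m' := by
    intro m m' a h
    have h1 : (m'⁻¹ * m) • a = a := by rw [mul_smul, h, inv_smul_smul]
    have h2 := hregM ((m'⁻¹ * m : M) : G) (m'⁻¹ * m).2 a h1
    have h3 : m'⁻¹ * m = 1 := Subtype.ext h2
    exact (inv_mul_eq_one.mp h3).symm
  have hinjN : ∀ (n n' : N) (a : α), n • a = n' • a → n = n' := by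
    intro m m' a h
    have h1 : (m'⁻¹ * m) • a = a := by rw [mul_smul, h, inv_smul_smul]
    have h2 := hregN ((m'⁻¹ * m : N) : G) (m'⁻¹ * m).2 a h1
    have h3 : m'⁻¹ * m = 1 := Subtype.ext h2
    exact (inv_mul_eq_one.mp h3).symm
  have hMnc : ¬ IsMulCommutative M := by
    intro hab
    have hle : M ≤ N := by
      intro l hl
      have hmem : (l : Equiv.Perm α) ∈
          Subgroup.centralizer ((M.map G.subtype : Subgroup (Equiv.Perm α)) : Set (Equiv.Perm α)) := by
        rw [Subgroup.mem_centralizer_iff]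
        rintro _ ⟨m, hm, rfl⟩
        have h2 := congrArg (G.subtype) (setLike_mul_comm (s := M) hm hl)
        rw [map_mul, map_mul] at h2
        exact h2
      rw [hcentM] at hmem
      obtain ⟨m, hm, hml⟩ := hmem
      have : m = l := Subtype.ext hml
      rw [← this]; exact hm
    rcases hNmin M ‹M.Normal› hle with h2 | h2
    · exact hM h2
    · exact hMN h2
  refine ⟨?_, ?_, hMnc, ?_, hcentM, hcentN, ?_⟩
  · intro a
    rw [eq_bot_iff]
    intro m hm
    rw [MulAction.mem_stabilizer_iff] at hm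
    rw [Subgroup.mem_bot]
    exact Subtype.ext (hregM (m : G) m.2 a hm)
  · intro a
    rw [eq_bot_iff]
    intro m hm
    rw [MulAction.mem_stabilizer_iff] at hm
    rw [Subgroup.mem_bot]
    exact Subtype.ext (hregN (m : G) m.2 a hm)
  · have hex : ∀ m : M, ∃ n : N, n • a₀ = m⁻¹ • a₀ :=
      fun m => MulAction.exists_smul_eq N a₀ (m⁻¹ • a₀)
    choose f hf using hex
    have hmul : ∀ m m' : M, f (m * m') = f m * f m' := by
      intro m m'
      apply hinjN _ _ a₀
      rw [hf, mul_smul, hf, ← hsmc, hf, mul_inv_rev, mul_smul]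
    refine ⟨MulEquiv.ofBijective (MonoidHom.mk' f hmul) ⟨?_, ?_⟩⟩
    · intro m m' h
      have h1 : f m = f m' := h
      have h2 : m⁻¹ • a₀ = m'⁻¹ • a₀ := by rw [← hf, ← hf, h1]
      exact inv_injective (hinjM _ _ a₀ h2)
    · intro n
      obtain ⟨m₀, hm₀⟩ := MulAction.exists_smul_eq M a₀ (n • a₀)
      refine ⟨m₀⁻¹, ?_⟩
      show f m₀⁻¹ = n
      apply hinjN _ _ a₀
      rw [hf, inv_inv, hm₀]
  · intro L hLn hL hLmin
    by_cases hLM : L = M
    · exact Or.inl hLM
    right
    have hLMbot : L ⊓ M = ⊥ := by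
      rcases hMmin (L ⊓ M) inferInstance inf_le_right with h | h
      · exact h
      · exfalso
        have hle : M ≤ L := by rw [← h]; exact inf_le_left
        rcases hLmin M ‹M.Normal› hle with h2 | h2
        · exact hM h2
        · exact hLM h2.symm
    have hLc := commute_of_inf_bot L M hLn ‹M.Normal› hLMbot
    have hLle : L ≤ N := by
      intro l hl
      have hmem : (l : Equiv.Perm α) ∈
          Subgroup.centralizer ((M.map G.subtype : Subgroup (Equiv.Perm α)) : Set (Equiv.Perm α)) := by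
        rw [Subgroup.mem_centralizer_iff]
        rintro _ ⟨m, hm, rfl⟩
        have h2 := congrArg (G.subtype) (hLc l hl m hm)
        rw [map_mul, map_mul] at h2
        exact h2.symm
      rw [hcentM] at hmem
      obtain ⟨m, hm, hml⟩ := hmem
      have : m = l := Subtype.ext hml
      rw [← this]; exact hm
    rcases hNmin L hLn hLle with h2 | h2
    · exact absurd h2 hL
    · exact h2

end Cfsg.Agent.S0704
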