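import Cfsg.Statements.S0706
-- import your own Cfsg.Agent.* helpers here
import Mathlib
import Cfsg.Agent.Helper5.Generous

set_option autoImplicit false
open Cfsg

namespace Cfsg.Agent.S0706

/-- elements fixing `A` pointwise and stabilising `C` -/
def stabAC {α : Type*} [DecidableEq α] (G : Subgroup (Equiv.Perm α)) (A C : Finset α) :
    Subgroup ↥G where
  carrier := {g | (∀ x ∈ A, (g : Equiv.Perm α) x = x) ∧ (∀ x ∈ C, (g : Equiv.Perm α) x ∈ C) ∧
    (∀ x ∈ C, (g : Equiv.Perm α)⁻¹ x ∈ C)}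
  mul_mem' := by
    rintro g h ⟨hg1, hg2, hg3⟩ ⟨hh1, hh2, hh3⟩
    refine ⟨fun x hx => ?_, fun x hx => ?_, fun x hx => ?_⟩
    · show (g : Equiv.Perm α) ((h : Equiv.Perm α) x) = x
      rw [hh1 x hx, hg1 x hx]
    · exact hg2 _ (hh2 x hx)
    · exact hh3 _ (hg3 x hx)
  one_mem' := ⟨fun x _ => rfl, fun x hx => hx, fun x hx => hx⟩
  inv_mem' := by
    rintro g ⟨hg1, hg2, hg3⟩
    refine ⟨fun x hx => ?_, fun x hx => hg3 x hx, fun x hx => ?_⟩
    · show (g : Equiv.Perm α)⁻¹ x = x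
      rw [Equiv.Perm.inv_eq_iff_eq]
      exact (hg1 x hx).symm
    · show ((g : Equiv.Perm α)⁻¹)⁻¹ x ∈ C
      rw [inv_inv]
      exact hg2 x hx

/-- restriction to `C` -/
def resC {α : Type*} [DecidableEq α] (G : Subgroup (Equiv.Perm α)) (A C : Finset α) :
    ↥(stabAC G A C) →* Equiv.Perm ↥C where
  toFun g := ((g : ↥G) : Equiv.Perm α).subtypePerm (p := fun x => x ∈ C) (fun x => ⟨fun h => by
      have := g.2.2.2 _ h
      rwa [show ((g : ↥G) : Equiv.Perm α)⁻¹ (((g : ↥G) : Equiv.Perm α) x) = x from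
        Equiv.symm_apply_apply _ x] at this, fun h => g.2.2.1 x h⟩)
  map_one' := by
    ext x
    rfl
  map_mul' g h := by
    ext x
    rfl

/-- In a generously `k`-transitive permutation group, for a prime `p ≤ k` and a `k`-set `Γ`, there are no `p` points outside `Γ` lying in distinct orbits of the pointwise stabiliser of `Γ` all of length prime to `p` (at most `p - 1` such orbits). -/
theorem result {α : Type*} [Fintype α] [DecidableEq α] (G : Subgroup (Equiv.Perm α)) {k : ℕ} (hk : k < Fintype.card α) (hgen : ∀ s : Finset α, s.card = k + 1 → ∀ σ : Equiv.Perm ↥s, ∃ g ∈ G, ∀ x : ↥s, g (x : α) = σ x) {p : ℕ} (hp : p.Prime) (hpk : p ≤ k) (Γ : Finset α) (hΓ : Γ.card = k) (f : Fin p → α) (hf : ∀ i, f i ∉ Γ) (hdist : ∀ i j, i ≠ j → f j ∉ MulAction.orbit (fixingSubgroup G (Γ : Set α)) (f i)) : ∃ i, p ∣ Nat.card (MulAction.orbit (fixingSubgroup G (Γ : Set α)) (f i)) := by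
  classical
  by_contra hcon
  push Not at hcon
  have : Fact p.Prime := ⟨hp⟩
  obtain ⟨C, hCΓ, hCcard⟩ := Finset.exists_subset_card_eq (hΓ ▸ hpk : p ≤ Γ.card)
  have hH : ∀ g : ↥G, g ∈ fixingSubgroup ↥G (Γ : Set α) ↔
      ∀ x ∈ Γ, (g : Equiv.Perm α) x = x := by
    intro g
    rw [mem_fixingSubgroup_iff]
    exact Iff.rfl
  have hHM : fixingSubgroup ↥G (Γ : Set α) ≤ stabAC G (Γ \ C) C := by
    intro g hg
    rw [hH] at hg
    refine ⟨fun x hx => hg x (Finset.mem_sdiff.1 hx).1, fun x hx => ?_, fun x hx => ?_⟩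
    · rw [hg x (hCΓ hx)]
      exact hx
    · have : (g : Equiv.Perm α)⁻¹ x = x := by
        rw [Equiv.Perm.inv_eq_iff_eq]
        exact (hg x (hCΓ hx)).symm
      rw [this]
      exact hx
  have hMΓ : ∀ g ∈ stabAC G (Γ \ C) C, (∀ x ∈ Γ, (g : Equiv.Perm α) x ∈ Γ) ∧
      (∀ x ∈ Γ, (g : Equiv.Perm α)⁻¹ x ∈ Γ) := by
    rintro g ⟨h1, h2, h3⟩
    constructor
    · intro x hx
      by_cases hxC : x ∈ C
      · exact hCΓ (h2 x hxC)
      · rw [h1 x (Finset.mem_sdiff.2 ⟨hx, hxC⟩)]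
        exact hx
    · intro x hx
      by_cases hxC : x ∈ C
      · exact hCΓ (h3 x hxC)
      · have : (g : Equiv.Perm α)⁻¹ x = x := by
          rw [Equiv.Perm.inv_eq_iff_eq]
          exact (h1 x (Finset.mem_sdiff.2 ⟨hx, hxC⟩)).symm
        rw [this]
        exact hx
  have horb : ∀ i, MulAction.orbit ↥(stabAC G (Γ \ C) C) (f i) =
      MulAction.orbit ↥(fixingSubgroup ↥G (Γ : Set α)) (f i) := by
    intro i
    ext b
    constructor
    · rintro ⟨m, rfl⟩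
      obtain ⟨hm1, hm2⟩ := hMΓ m m.2
      have hb : ((m : ↥G) : Equiv.Perm α) (f i) ∉ Γ := by
        intro hb
        have := hm2 _ hb
        rw [show ((m : ↥G) : Equiv.Perm α)⁻¹ (((m : ↥G) : Equiv.Perm α) (f i)) = f i from
          Equiv.symm_apply_apply _ _] at this
        exact hf i this
      obtain ⟨g', hg', hfix, hab⟩ := Cfsg.Agent.Helper5.gen_fix G hgen Γ hΓ (f i) _ hb
        ((m : ↥G) : Equiv.Perm α) (m : ↥G).2 hm1 hm2 rfl
      exact ⟨⟨⟨g', hg'⟩, (hH _).2 hfix⟩, hab⟩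
    · rintro ⟨h, rfl⟩
      exact ⟨⟨h, hHM h.2⟩, rfl⟩
  obtain ⟨P⟩ : Nonempty (Sylow p ↥(stabAC G (Γ \ C) C)) := inferInstance
  have hfp : ∀ i, ∃ y, y ∈ MulAction.orbit ↥(fixingSubgroup ↥G (Γ : Set α)) (f i) ∧
      ∀ u ∈ (P : Subgroup ↥(stabAC G (Γ \ C) C)), ((u : ↥G) : Equiv.Perm α) y = y := by
    intro i
    have hnd : ¬ p ∣ Nat.card ↥(MulAction.orbit ↥(stabAC G (Γ \ C) C) (f i)) := by
      rw [horb i]
      exact hcon i
    obtain ⟨⟨y, hy⟩, hfix⟩ := P.isPGroup'.nonempty_fixed_point_of_prime_not_dvd_card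
      (MulAction.orbit ↥(stabAC G (Γ \ C) C) (f i)) hnd
    refine ⟨y, by rw [← horb i]; exact hy, fun u hu => ?_⟩
    have := hfix ⟨u, hu⟩
    exact congrArg Subtype.val this
  choose y hy hyP using hfp
  have hyΓ : ∀ i, y i ∉ Γ := by
    intro i hyi
    obtain ⟨h, hh⟩ := hy i
    have hfix := (hH _).1 h.2
    have h1 : ((h : ↥G) : Equiv.Perm α) (f i) = y i := hh
    have h2 : ((h : ↥G) : Equiv.Perm α) (y i) = y i := hfix _ hyi
    have h3 : f i = y i := (Equiv.injective _) (h1.trans h2.symm)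
    exact hf i (h3 ▸ hyi)
  have hyinj : Function.Injective y := by
    intro i j hij
    by_contra hne
    apply hdist i j hne
    have h1 := MulAction.orbit_eq_iff.2 (hy i)
    have h2 := MulAction.orbit_eq_iff.2 (hy j)
    rw [← h1, hij, h2]
    exact MulAction.mem_orbit_self _
  have hΛcard : ((Γ \ C) ∪ Finset.univ.image y).card = k := by
    rw [Finset.card_union_of_disjoint, Finset.card_sdiff_of_subset hCΓ,
      Finset.card_image_of_injective _ hyinj, Finset.card_univ, Fintype.card_fin, hΓ, hCcard]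
    · omega
    · rw [Finset.disjoint_left]
      intro x hx hx'
      obtain ⟨i, -, rfl⟩ := Finset.mem_image.1 hx'
      exact hyΓ i (Finset.mem_sdiff.1 hx).1
  obtain ⟨g, hg, hgΛ⟩ := Cfsg.Agent.Helper5.gen_set_trans G hk hgen Γ _ hΓ hΛcard
  have hP₀card : Nat.card ↥(((P : Subgroup ↥(stabAC G (Γ \ C) C)).map (Subgroup.subtype _)).map
      (MulAut.conj (⟨g, hg⟩ : ↥G)⁻¹).toMonoidHom) =
      Nat.card ↥(P : Subgroup ↥(stabAC G (Γ \ C) C)) := by
    rw [Subgroup.card_map_of_injective (MulEquiv.injective _),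
      Subgroup.card_map_of_injective (Subgroup.subtype_injective _)]
  have hP₀H : ((P : Subgroup ↥(stabAC G (Γ \ C) C)).map (Subgroup.subtype _)).map
      (MulAut.conj (⟨g, hg⟩ : ↥G)⁻¹).toMonoidHom ≤ fixingSubgroup ↥G (Γ : Set α) := by
    rintro _ ⟨_, ⟨u, hu, rfl⟩, rfl⟩
    rw [hH]
    intro x hx
    show g⁻¹ (((u : ↥G) : Equiv.Perm α) ((g⁻¹)⁻¹ x)) = x
    rw [inv_inv]
    have hfixΛ : ((u : ↥G) : Equiv.Perm α) (g x) = g x := by
      rcases Finset.mem_union.1 (hgΛ x hx) with h | h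
      · exact u.2.1 _ h
      · obtain ⟨i, -, hi⟩ := Finset.mem_image.1 h
        rw [← hi]
        exact hyP i u hu
    rw [hfixΛ]
    exact g.symm_apply_apply x
  have hdvd : p ∣ Nat.card (Equiv.Perm ↥C) := by
    rw [Nat.card_eq_fintype_card, Fintype.card_perm, Fintype.card_coe, hCcard]
    exact Nat.dvd_factorial hp.pos le_rfl
  obtain ⟨σ₀, hσ₀⟩ := exists_prime_orderOf_dvd_card' p hdvd
  have hy0 : f ⟨0, hp.pos⟩ ∉ Γ := hf _
  have hτC : ∀ x (hx : x ∈ C), Equiv.Perm.ofSubtype σ₀ x = σ₀ ⟨x, hx⟩ := fun x hx =>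
    Equiv.Perm.ofSubtype_apply_of_mem σ₀ hx
  have hτn : ∀ x, x ∉ C → Equiv.Perm.ofSubtype σ₀ x = x := fun x hx =>
    Equiv.Perm.ofSubtype_apply_of_not_mem σ₀ hx
  have hτT : ∀ x, Equiv.Perm.ofSubtype σ₀ x ∈ insert (f ⟨0, hp.pos⟩) Γ ↔
      x ∈ insert (f ⟨0, hp.pos⟩) Γ := by
    intro x
    by_cases hx : x ∈ C
    · rw [hτC x hx]
      constructor
      · intro _
        exact Finset.mem_insert_of_mem (hCΓ hx)
      · intro _
        exact Finset.mem_insert_of_mem (hCΓ (σ₀ ⟨x, hx⟩).2)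
    · rw [hτn x hx]
  obtain ⟨z, hz, hzσ⟩ := hgen (insert (f ⟨0, hp.pos⟩) Γ)
    (by rw [Finset.card_insert_of_notMem hy0, hΓ]) ((Equiv.Perm.ofSubtype σ₀).subtypePerm hτT)
  have hzτ : ∀ x ∈ Γ, z x = Equiv.Perm.ofSubtype σ₀ x := by
    intro x hx
    have := hzσ ⟨x, Finset.mem_insert_of_mem hx⟩
    rw [Equiv.Perm.subtypePerm_apply] at this
    exact this
  have hzM : (⟨z, hz⟩ : ↥G) ∈ stabAC G (Γ \ C) C := by
    refine ⟨fun x hx => ?_, fun x hx => ?_, fun x hx => ?_⟩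
    · have hx' := Finset.mem_sdiff.1 hx
      show z x = x
      rw [hzτ x hx'.1, hτn x hx'.2]
    · show z x ∈ C
      rw [hzτ x (hCΓ hx), hτC x hx]
      exact (σ₀ ⟨x, hx⟩).2
    · show z⁻¹ x ∈ C
      have h1 : z ((σ₀⁻¹ ⟨x, hx⟩ : ↥C) : α) = x := by
        rw [hzτ _ (hCΓ (σ₀⁻¹ ⟨x, hx⟩).2), hτC _ (σ₀⁻¹ ⟨x, hx⟩).2]
        simp
      have h2 : z⁻¹ x = ((σ₀⁻¹ ⟨x, hx⟩ : ↥C) : α) := by
        rw [Equiv.Perm.inv_eq_iff_eq]
        exact h1.symm
      rw [h2]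
      exact (σ₀⁻¹ ⟨x, hx⟩).2
  have hρz : resC G (Γ \ C) C ⟨⟨z, hz⟩, hzM⟩ = σ₀ := by
    ext ⟨x, hx⟩
    show z x = _
    rw [hzτ x (hCΓ hx), hτC x hx]
  have hrange : p ∣ Nat.card (resC G (Γ \ C) C).range := by
    have h1 : orderOf (⟨σ₀, MonoidHom.mem_range.2 ⟨_, hρz⟩⟩ : (resC G (Γ \ C) C).range) = p := by
      rw [Subgroup.orderOf_mk]
      exact hσ₀
    rw [← h1]
    exact orderOf_dvd_natCard _
  have hker : Nat.card ↥(fixingSubgroup ↥G (Γ : Set α)) ∣ Nat.card (resC G (Γ \ C) C).ker := by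
    rw [← Subgroup.card_map_of_injective (K := (resC G (Γ \ C) C).ker)
      (Subgroup.subtype_injective (stabAC G (Γ \ C) C))]
    apply Subgroup.card_dvd_of_le
    intro h hh
    refine ⟨⟨h, hHM hh⟩, ?_, rfl⟩
    rw [SetLike.mem_coe, MonoidHom.mem_ker]
    ext ⟨x, hx⟩
    show (h : Equiv.Perm α) x = x
    exact (hH h).1 hh x (hCΓ hx)
  have hM : Nat.card (resC G (Γ \ C) C).ker * Nat.card (resC G (Γ \ C) C).range =
      Nat.card ↥(stabAC G (Γ \ C) C) := by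
    rw [← Subgroup.index_ker]
    exact Subgroup.card_mul_index _
  have hPcard := P.card_eq_multiplicity
  have hP₀dvd := Subgroup.card_dvd_of_le hP₀H
  have hfin : p ^ ((Nat.card ↥(stabAC G (Γ \ C) C)).factorization p + 1) ∣
      Nat.card ↥(stabAC G (Γ \ C) C) := by
    rw [pow_succ, ← hPcard, ← hP₀card, ← hM]
    exact Nat.mul_dvd_mul (hP₀dvd.trans hker) hrange
  exact Nat.pow_succ_factorization_not_dvd (Nat.card_pos.ne') hp hfin

end Cfsg.Agent.S0706
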