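import Cfsg.Statements.S0707
-- import your own Cfsg.Agent.* helpers here
import Mathlib.GroupTheory.SpecificGroups.Cyclic
import Mathlib.Tactic.Group

set_option autoImplicit false
open Cfsg

namespace Cfsg.Agent.S0707

/-- In a primitive permutation group, distinct points have distinct stabilisers unless the group is regular of prime degree. -/
theorem result {α : Type*} (G : Subgroup (Equiv.Perm α)) [MulAction.IsPreprimitive G α] (h : ¬ (Nat.card α).Prime ∨ ∃ a : α, MulAction.stabilizer G a ≠ ⊥) {a b : α} (hab : a ≠ b) : MulAction.stabilizer G a ≠ MulAction.stabilizer G b := by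
  intro heq
  have hnt : Nontrivial α := ⟨⟨a, b, hab⟩⟩
  have hco : IsCoatom (MulAction.stabilizer G a) :=
    MulAction.IsPreprimitive.isCoatom_stabilizer_of_isPreprimitive (G := G) a
  obtain ⟨g, hg⟩ := MulAction.exists_smul_eq G a b
  have hgN : g ∈ Subgroup.normalizer (MulAction.stabilizer G a : Set G) := by
    rw [Subgroup.mem_normalizer_iff]
    intro h
    conv_rhs => rw [heq]
    rw [MulAction.mem_stabilizer_iff, MulAction.mem_stabilizer_iff, ← hg, mul_smul, mul_smul,
      inv_smul_smul, smul_left_cancel_iff]
  have hgna : g ∉ MulAction.stabilizer G a := by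
    rw [MulAction.mem_stabilizer_iff, hg]; exact hab.symm
  have hlt : MulAction.stabilizer G a < Subgroup.normalizer (MulAction.stabilizer G a : Set G) :=
    lt_of_le_of_ne Subgroup.le_normalizer (fun h => hgna (h ▸ hgN))
  have hNtop := hco.2 _ hlt
  have hfix : ∀ (h : G), h ∈ MulAction.stabilizer G a → ∀ x : α, h • x = x := by
    intro h hh x
    obtain ⟨k, hk⟩ := MulAction.exists_smul_eq G a x
    have hk' : k ∈ Subgroup.normalizer (MulAction.stabilizer G a : Set G) := by
      rw [hNtop]; trivial
    have h1 := (Subgroup.mem_normalizer_iff''.mp hk' h).mp hh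
    rw [MulAction.mem_stabilizer_iff, mul_smul, mul_smul, hk, inv_smul_eq_iff, hk] at h1
    exact h1
  have hbot : MulAction.stabilizer G a = ⊥ := by
    rw [eq_bot_iff]
    intro h hh
    rw [Subgroup.mem_bot]
    apply Subtype.ext
    ext x
    exact hfix h hh x
  have hstab : ∀ x : α, MulAction.stabilizer G x = ⊥ := by
    intro x
    rw [eq_bot_iff]
    intro h hh
    obtain ⟨k, hk⟩ := MulAction.exists_smul_eq G a x
    have h1 : k⁻¹ * h * k ∈ MulAction.stabilizer G a := by
      rw [MulAction.mem_stabilizer_iff, mul_smul, mul_smul, hk, MulAction.mem_stabilizer_iff.mp hh,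
        ← hk, inv_smul_smul]
    rw [hbot, Subgroup.mem_bot] at h1
    rw [Subgroup.mem_bot]
    have h2 : h = k * (k⁻¹ * h * k) * k⁻¹ := by group
    rw [h2, h1]; group
  rcases h with h | ⟨x, hx⟩
  · apply h
    rw [hbot] at hco
    have hg1 : g ≠ 1 := by
      rintro rfl
      rw [one_smul] at hg
      exact hab hg
    have hGnt : Nontrivial G := ⟨⟨g, 1, hg1⟩⟩
    have hsub : ∀ H : Subgroup G, H = ⊥ ∨ H = ⊤ := by
      intro H
      rcases (bot_le : ⊥ ≤ H).eq_or_lt with h1 | h1
      · exact Or.inl h1.symm
      · exact Or.inr (hco.2 _ h1)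
    have hsimple : IsSimpleGroup G := ⟨fun H _ => hsub H⟩
    have hz : Subgroup.zpowers g = ⊤ :=
      (hsub _).resolve_left (Subgroup.zpowers_ne_bot.mpr hg1)
    have hcomm : IsMulCommutative G := by
      rw [isMulCommutative_iff]
      intro x y
      have hx : x ∈ Subgroup.zpowers g := by rw [hz]; trivial
      have hy : y ∈ Subgroup.zpowers g := by rw [hz]; trivial
      exact setLike_mul_comm hx hy
    have hprime := Group.is_simple_iff_prime_card.mp hsimple
    have hcard : Nat.card G = Nat.card α := by
      apply Nat.card_eq_of_bijective (fun k : G => k • a)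
      constructor
      · intro g₁ g₂ h12
        have h12' : g₁ • a = g₂ • a := h12
        have h1 : g₂⁻¹ * g₁ ∈ MulAction.stabilizer G a := by
          rw [MulAction.mem_stabilizer_iff, mul_smul, h12', inv_smul_smul]
        rw [hbot, Subgroup.mem_bot] at h1
        exact (inv_mul_eq_one.mp h1).symm
      · intro x
        exact MulAction.exists_smul_eq G a x
    rw [← hcard]
    exact hprime
  · exact hx (hstab x)

end Cfsg.Agent.S0707
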