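import Cfsg.Statements.S0710
-- import your own Cfsg.Agent.* helpers here
import Mathlib.GroupTheory.Transfer
import Mathlib.GroupTheory.SpecificGroups.Cyclic
import Mathlib.Tactic

set_option autoImplicit false
open Cfsg

namespace Cfsg.Agent.S0710

/-- No transitive permutation group on 13 points has order `13 * 12 * 11 * 10 * 9 * 8`. -/
theorem result {α : Type*} [Fintype α] [DecidableEq α] (hα : Fintype.card α = 13) (G : Subgroup (Equiv.Perm α)) [MulAction.IsPretransitive G α] : Nat.card G ≠ 13 * 12 * 11 * 10 * 9 * 8 := by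
  intro hcard
  classical
  have hprime : Fact (Nat.Prime 13) := ⟨by norm_num⟩
  obtain ⟨P⟩ : Nonempty (Sylow 13 G) := inferInstance
  have hPcard : Nat.card P = 13 := by
    rw [Sylow.card_eq_multiplicity, hcard]
    have h1 : (13 * 12 * 11 * 10 * 9 * 8).factorization 13 = 1 := by
      have hn0 : (13 * 12 * 11 * 10 * 9 * 8) ≠ 0 := by norm_num
      have h13 : Nat.Prime 13 := by norm_num
      have ha : 1 ≤ (13 * 12 * 11 * 10 * 9 * 8).factorization 13 :=
        (h13.pow_dvd_iff_le_factorization hn0).mp (by norm_num)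
      have hb : ¬ 2 ≤ (13 * 12 * 11 * 10 * 9 * 8).factorization 13 := fun h =>
        absurd ((h13.pow_dvd_iff_le_factorization hn0).mpr h) (by norm_num)
      omega
    rw [h1, pow_one]
  have hαcard : Nat.card α = 13 := by rw [Nat.card_eq_fintype_card, hα]
  have hPinj : ∀ a : α, Function.Injective (fun x : (P : Subgroup G) => (x : G) • a) := by
    intro a x y hxy
    have hxy' : (x : G) • a = (y : G) • a := hxy
    have hidx : (MulAction.stabilizer G a).index = 13 := by
      rw [MulAction.index_stabilizer_of_transitive, hαcard]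
    have hS := Subgroup.card_mul_index (MulAction.stabilizer G a)
    rw [hidx, hcard] at hS
    have hScard : Nat.card (MulAction.stabilizer G a) = 95040 := by omega
    have hcop : Nat.Coprime (Nat.card (P : Subgroup G)) (Nat.card (MulAction.stabilizer G a)) := by
      rw [hPcard, hScard]; norm_num
    have hinf := (Subgroup.disjoint_of_coprime_natCard hcop).eq_bot
    have hmem : (y : G)⁻¹ * (x : G) ∈ (P : Subgroup G) ⊓ MulAction.stabilizer G a := by
      refine ⟨Subgroup.mul_mem _ (Subgroup.inv_mem _ y.2) x.2, ?_⟩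
      show (y : G)⁻¹ * (x : G) ∈ MulAction.stabilizer G a
      rw [MulAction.mem_stabilizer_iff, mul_smul, hxy', inv_smul_smul]
    rw [hinf, Subgroup.mem_bot] at hmem
    exact Subtype.ext (inv_mul_eq_one.mp hmem).symm
  have hPsurj : ∀ a b : α, ∃ x : G, x ∈ (P : Subgroup G) ∧ x • a = b := by
    intro a b
    have hbij := (hPinj a).bijective_of_nat_card_le (by rw [hαcard, hPcard])
    obtain ⟨x, hx⟩ := hbij.2 b
    exact ⟨x, x.2, hx⟩
  obtain ⟨a₀⟩ : Nonempty α := by
    rw [← Fintype.card_pos_iff, hα]; norm_num
  have hsemi : ∀ c : G, c ∈ Subgroup.centralizer ((P : Subgroup G) : Set G) → c • a₀ = a₀ → c = 1 := by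
    intro c hc hca
    apply Subtype.ext
    ext b
    obtain ⟨x, hxP, hxb⟩ := hPsurj a₀ b
    rw [Subgroup.mem_centralizer_iff] at hc
    have h1 : c • b = b := by
      rw [← hxb, ← mul_smul, ← hc x hxP, mul_smul, hca]
    exact h1
  have hCle : Nat.card (Subgroup.centralizer ((P : Subgroup G) : Set G)) ≤ 13 := by
    have hle : ∀ f : Subgroup.centralizer ((P : Subgroup G) : Set G) → α, Function.Injective f →
        Nat.card (Subgroup.centralizer ((P : Subgroup G) : Set G)) ≤ 13 := by
      intro f hf
      have := Nat.card_le_card_of_injective f hf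
      rwa [hαcard] at this
    apply hle (fun c : Subgroup.centralizer ((P : Subgroup G) : Set G) => (c : G) • a₀)
    intro c c' hcc
    have hcc' : (c : G) • a₀ = (c' : G) • a₀ := hcc
    have h1 : (c' : G)⁻¹ * (c : G) = 1 := by
      apply hsemi
      · exact Subgroup.mul_mem _ (Subgroup.inv_mem _ c'.2) c.2
      · rw [mul_smul, hcc', inv_smul_smul]
    exact Subtype.ext (inv_mul_eq_one.mp h1).symm
  have hPcyc : IsCyclic (P : Subgroup G) := isCyclic_of_prime_card hPcard
  have hPcomm : IsMulCommutative (P : Subgroup G) := by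
    obtain ⟨g, hg⟩ := hPcyc.exists_generator
    rw [isMulCommutative_iff]
    intro x y
    obtain ⟨m, rfl⟩ := Subgroup.mem_zpowers_iff.mp (hg x)
    obtain ⟨k, rfl⟩ := Subgroup.mem_zpowers_iff.mp (hg y)
    rw [← zpow_add, ← zpow_add, add_comm]
  have hPC : (P : Subgroup G) ≤ Subgroup.centralizer ((P : Subgroup G) : Set G) :=
    Subgroup.le_centralizer_iff_isMulCommutative.mpr hPcomm
  have hCcard : Nat.card (Subgroup.centralizer ((P : Subgroup G) : Set G)) = 13 := by
    have := Subgroup.card_le_of_le hPC
    rw [hPcard] at this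
    omega
  have key := Subgroup.card_dvd_of_injective _
    (QuotientGroup.kerLift_injective (P : Subgroup G).normalizerMonoidHom)
  rw [Subgroup.normalizerMonoidHom_ker, ← Subgroup.index, ← Subgroup.relIndex, IsCyclic.card_mulAut,
    hPcard, Nat.totient_prime (by norm_num)] at key
  have hCN : Subgroup.centralizer ((P : Subgroup G) : Set G) ≤
      Subgroup.normalizer ((P : Subgroup G) : Set G) := Subgroup.centralizer_le_normalizer _
  have h1 := Subgroup.relIndex_mul_index hCN
  have h2 := Subgroup.card_mul_index (Subgroup.centralizer ((P : Subgroup G) : Set G))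
  rw [hCcard, hcard] at h2
  have h3 : (Subgroup.centralizer ((P : Subgroup G) : Set G)).index = 95040 := by omega
  rw [h3] at h1
  have h4 : Nat.card (Sylow 13 G) ≡ 1 [MOD 13] := card_sylow_modEq_one 13 G
  rw [Sylow.card_eq_index_normalizer P] at h4
  have h5 : (Subgroup.normalizer ((P : Subgroup G) : Set G)).index % 13 = 1 := h4
  generalize (Subgroup.normalizer ((P : Subgroup G) : Set G)).index = i at h1 h5
  generalize (Subgroup.centralizer ((P : Subgroup G) : Set G)).relIndex
    (Subgroup.normalizer ((P : Subgroup G) : Set G)) = d at h1 key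
  have hd : d ≤ 12 := Nat.le_of_dvd (by norm_num) key
  interval_cases d <;> omega

end Cfsg.Agent.S0710
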