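import Cfsg.Statements.S0711
-- import your own Cfsg.Agent.* helpers here
import Mathlib

set_option autoImplicit false
open Cfsg

namespace Cfsg.Agent.S0711

theorem supp_bound {α : Type*} [Fintype α] [DecidableEq α] (g x : Equiv.Perm α) (T : Finset α)
    (hTΔ : T ⊆ g.support) (hT : ∀ δ ∈ T, x δ = δ) :
    (g⁻¹ * (x * g * x⁻¹)).support ⊆
      (g.support \ T.filter (fun δ => g δ ∈ T)) ∪ (g.support \ T).image x := by
  intro ω hω
  rw [Equiv.Perm.mem_support] at hω
  by_contra hnot
  apply hω
  rw [Finset.mem_union, not_or] at hnot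
  obtain ⟨h1, h2⟩ := hnot
  simp only [Equiv.Perm.mul_apply]
  by_cases hSg : ω ∈ T.filter (fun δ => g δ ∈ T)
  · rw [Finset.mem_filter] at hSg
    have hx' : x⁻¹ ω = ω := by
      rw [Equiv.Perm.inv_eq_iff_eq]
      exact (hT _ hSg.1).symm
    rw [hx', hT _ hSg.2]
    exact g.symm_apply_apply ω
  · have hωΔ : ω ∉ g.support := fun h => h1 (Finset.mem_sdiff.2 ⟨h, hSg⟩)
    have hxT : x⁻¹ ω ∉ T := by
      intro h
      have h3 := hT _ h
      rw [show x (x⁻¹ ω) = ω from x.apply_symm_apply ω] at h3
      rw [← h3] at h
      exact hωΔ (hTΔ h)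
    have hxΔ : x⁻¹ ω ∉ g.support := by
      intro h
      apply h2
      exact Finset.mem_image.2 ⟨x⁻¹ ω, Finset.mem_sdiff.2 ⟨h, hxT⟩, x.apply_symm_apply ω⟩
    rw [Equiv.Perm.notMem_support.1 hxΔ, show x (x⁻¹ ω) = ω from x.apply_symm_apply ω,
      Equiv.Perm.inv_eq_iff_eq]
    exact (Equiv.Perm.notMem_support.1 hωΔ).symm

theorem step {α : Type*} [Fintype α] [DecidableEq α] (G : Subgroup (Equiv.Perm α)) {k : ℕ}
    (hk : 3 ≤ k) (hkn : k < Fintype.card α)
    (hpre : ∀ (D : Finset α), D.card ≤ k → ∀ φ : α → α, Set.InjOn φ D →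
      ∃ x ∈ G, ∀ d ∈ D, x d = φ d)
    (g : Equiv.Perm α) (hg : g ∈ G) (hm4 : 4 ≤ g.support.card)
    (hsupp : g.support.card < 2 * k - 2) :
    ∃ y ∈ G, y ≠ 1 ∧ y.support.card < g.support.card := by
  have presc : ∀ (T : Finset α), T.card ≤ k - 1 → ∀ b b' : α, b ∉ T → b' ∉ T →
      ∃ x ∈ G, (∀ δ ∈ T, x δ = δ) ∧ x b = b' := by
    intro T hT b b' hb hb'
    obtain ⟨x, hx, h⟩ := hpre (insert b T) (by rw [Finset.card_insert_of_notMem hb]; omega)
      (fun z => if z = b then b' else z) (by
        intro z₁ hz₁ z₂ hz₂ h
        simp only at h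
        rw [Finset.mem_coe, Finset.mem_insert] at hz₁ hz₂
        by_cases h1 : z₁ = b <;> by_cases h2 : z₂ = b
        · rw [h1, h2]
        · rw [if_pos h1, if_neg h2] at h
          rcases hz₂ with h3 | h3
          · exact absurd h3 h2
          · exact absurd (h ▸ h3) hb'
        · rw [if_neg h1, if_pos h2] at h
          rcases hz₁ with h3 | h3
          · exact absurd h3 h1
          · exact absurd (h ▸ h3) hb'
        · rw [if_neg h1, if_neg h2] at h
          exact h)
    refine ⟨x, hx, fun δ hδ => ?_, ?_⟩
    · rw [h δ (Finset.mem_insert_of_mem hδ), if_neg]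
      rintro rfl
      exact hb hδ
    · rw [h b (Finset.mem_insert_self _ _), if_pos rfl]
  have hmemy : ∀ x ∈ G, g⁻¹ * (x * g * x⁻¹) ∈ G := fun x hx =>
    G.mul_mem (G.inv_mem hg) (G.mul_mem (G.mul_mem hx hg) (G.inv_mem hx))
  obtain ⟨a₀, -⟩ : ∃ d, d ∈ g.support := Finset.card_pos.1 (by omega)
  have exT : ∀ t ≤ g.support.card, ∃ T : Finset α, T ⊆ g.support ∧ T.card = t ∧
      ∃ a₁, ∀ δ ∈ T, g δ ∉ T → δ = a₁ := by
    intro t
    induction t with
    | zero =>
      intro _
      exact ⟨∅, Finset.empty_subset _, rfl, a₀, fun δ hδ => absurd hδ (Finset.notMem_empty δ)⟩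
    | succ t ih =>
      intro ht
      obtain ⟨T, hTΔ, hTcard, a₁, ha₁⟩ := ih (by omega)
      by_cases hbad : ∃ a ∈ T, g a ∉ T
      · obtain ⟨a, haT, hga⟩ := hbad
        refine ⟨insert (g a) T, ?_, ?_, g a, ?_⟩
        · exact Finset.insert_subset (Equiv.Perm.apply_mem_support.2 (hTΔ haT)) hTΔ
        · rw [Finset.card_insert_of_notMem hga, hTcard]
        · intro δ hδ hgδ
          rcases Finset.mem_insert.1 hδ with h | h
          · exact h
          · exfalso
            have h1 : g δ ∉ T := fun h' => hgδ (Finset.mem_insert_of_mem h')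
            have h2 : δ = a := (ha₁ δ h h1).trans (ha₁ a haT hga).symm
            rw [h2] at hgδ
            exact hgδ (Finset.mem_insert_self _ _)
      · push Not at hbad
        obtain ⟨δ', hδ'Δ, hδ'T⟩ : ∃ δ' ∈ g.support, δ' ∉ T := by
          by_contra hcon
          push Not at hcon
          have := Finset.card_le_card (show g.support ⊆ T from hcon)
          omega
        refine ⟨insert δ' T, Finset.insert_subset hδ'Δ hTΔ,
          by rw [Finset.card_insert_of_notMem hδ'T, hTcard], δ', ?_⟩
        intro δ hδ hgδ
        rcases Finset.mem_insert.1 hδ with h | h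
        · exact h
        · exact absurd (Finset.mem_insert_of_mem (hbad δ h)) hgδ
  by_cases hmk : g.support.card ≤ k
  · obtain ⟨d, hd⟩ : ∃ d, d ∈ g.support := Finset.card_pos.1 (by omega)
    obtain ⟨e, he⟩ : ∃ e, e ∉ g.support := by
      by_contra hcon
      push Not at hcon
      have h1 := Finset.eq_univ_iff_forall.2 hcon
      rw [h1, Finset.card_univ] at hmk
      omega
    obtain ⟨x, hxG, hxT, hxd⟩ := presc (g.support.erase d)
      (by rw [Finset.card_erase_of_mem hd]; omega) d e (Finset.notMem_erase d _)
      (fun h => he (Finset.mem_of_mem_erase h))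
    refine ⟨g⁻¹ * (x * g * x⁻¹), hmemy x hxG, ?_, ?_⟩
    · intro h1
      have h2 := congrArg (fun f : Equiv.Perm α => f (g⁻¹ d)) h1
      simp only [Equiv.Perm.mul_apply, Equiv.Perm.one_apply] at h2
      have ha : g⁻¹ d ∈ g.support.erase d := by
        rw [Finset.mem_erase]
        refine ⟨?_, ?_⟩
        · intro h
          have h3 : g d = d := by
            rw [Equiv.Perm.inv_eq_iff_eq] at h
            exact h.symm
          exact (Equiv.Perm.mem_support.1 hd) h3
        · rw [← Equiv.Perm.apply_mem_support, show g (g⁻¹ d) = d from g.apply_symm_apply d]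
          exact hd
      have hx' : x⁻¹ (g⁻¹ d) = g⁻¹ d := by
        rw [Equiv.Perm.inv_eq_iff_eq]
        exact (hxT _ ha).symm
      rw [hx', show g (g⁻¹ d) = d from g.apply_symm_apply d, hxd] at h2
      have h3 := g⁻¹.injective h2
      exact he (h3 ▸ hd)
    · have hsub := supp_bound g x (g.support.erase d) (Finset.erase_subset _ _) hxT
      have h1 : g.support \ (g.support.erase d).filter (fun δ => g δ ∈ g.support.erase d) ⊆
          {g⁻¹ d, d} := by
        intro ω hω
        rw [Finset.mem_sdiff, Finset.mem_filter, Finset.mem_erase] at hω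
        obtain ⟨hωΔ, hω2⟩ := hω
        rw [Finset.mem_insert, Finset.mem_singleton]
        by_contra hcon
        push Not at hcon
        apply hω2
        refine ⟨⟨hcon.2, hωΔ⟩, ?_⟩
        rw [Finset.mem_erase]
        refine ⟨?_, Equiv.Perm.apply_mem_support.2 hωΔ⟩
        intro h
        apply hcon.1
        rw [Equiv.Perm.eq_inv_iff_eq]
        exact h
      have h2 : (g.support \ g.support.erase d).image x ⊆ {e} := by
        intro ω hω
        obtain ⟨δ, hδ, rfl⟩ := Finset.mem_image.1 hω
        rw [Finset.mem_sdiff, Finset.mem_erase] at hδ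
        have h3 : δ = d := by
          by_contra h
          exact hδ.2 ⟨h, hδ.1⟩
        rw [h3, hxd]
        exact Finset.mem_singleton_self e
      have h3 := Finset.card_le_card (hsub.trans (Finset.union_subset_union h1 h2))
      have h4 := Finset.card_union_le ({g⁻¹ d, d} : Finset α) {e}
      have h5 : ({g⁻¹ d, d} : Finset α).card ≤ 2 := Finset.card_le_two
      rw [Finset.card_singleton] at h4
      omega
  · push Not at hmk
    obtain ⟨T, hTΔ, hTcard, a₁, ha₁⟩ := exT (k - 1) (by omega)
    have hSg : (T.filter (fun δ => g δ ∈ T)).card + (T.filter (fun δ => ¬ g δ ∈ T)).card =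
        T.card := Finset.card_filter_add_card_filter_not _
    rw [hTcard] at hSg
    have hDSg : (g.support \ T.filter (fun δ => g δ ∈ T)).card =
        g.support.card - (T.filter (fun δ => g δ ∈ T)).card :=
      Finset.card_sdiff_of_subset ((Finset.filter_subset _ _).trans hTΔ)
    have hΔT : (g.support \ T).card = g.support.card - (k - 1) := by
      rw [Finset.card_sdiff_of_subset hTΔ, hTcard]
    have h7 : ∀ x : Equiv.Perm α, ((g.support \ T).image x).card = g.support.card - (k - 1) := by
      intro x
      rw [Finset.card_image_of_injective _ x.injective, hΔT]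
    by_cases hbad : ∃ a ∈ T, g a ∉ T
    · obtain ⟨a, haT, hga⟩ := hbad
      have hbΔ : g a ∈ g.support \ T :=
        Finset.mem_sdiff.2 ⟨Equiv.Perm.apply_mem_support.2 (hTΔ haT), hga⟩
      obtain ⟨b', hb', hb'ne⟩ : ∃ b' ∈ g.support \ T, b' ≠ g a := by
        have h2 : 1 < (g.support \ T).card := by
          rw [hΔT]
          omega
        obtain ⟨u, hu, v, hv, huv⟩ := Finset.one_lt_card.1 h2
        by_cases h : u = g a
        · exact ⟨v, hv, fun h' => huv (h.trans h'.symm)⟩
        · exact ⟨u, hu, h⟩
      obtain ⟨x, hxG, hxT, hxb⟩ := presc T (by omega) (g a) b' hga (Finset.mem_sdiff.1 hb').2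
      refine ⟨g⁻¹ * (x * g * x⁻¹), hmemy x hxG, ?_, ?_⟩
      · intro h1
        have h2 := congrArg (fun f : Equiv.Perm α => f a) h1
        simp only [Equiv.Perm.mul_apply, Equiv.Perm.one_apply] at h2
        have hx' : x⁻¹ a = a := by
          rw [Equiv.Perm.inv_eq_iff_eq]
          exact (hxT _ haT).symm
        rw [hx', hxb, Equiv.Perm.inv_eq_iff_eq] at h2
        exact hb'ne h2
      · have hsub := supp_bound g x T hTΔ hxT
        have hbadcard : (T.filter (fun δ => ¬ g δ ∈ T)).card ≤ 1 := by
          apply Finset.card_le_one.2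
          intro u hu v hv
          rw [Finset.mem_filter] at hu hv
          exact (ha₁ u hu.1 hu.2).trans (ha₁ v hv.1 hv.2).symm
        have hinter : b' ∈ (g.support \ T.filter (fun δ => g δ ∈ T)) ∩
            (g.support \ T).image x := by
          rw [Finset.mem_inter]
          refine ⟨Finset.mem_sdiff.2 ⟨(Finset.mem_sdiff.1 hb').1,
            fun h => (Finset.mem_sdiff.1 hb').2 (Finset.mem_filter.1 h).1⟩, ?_⟩
          exact Finset.mem_image.2 ⟨g a, hbΔ, hxb⟩
        have h5 := Finset.card_union_add_card_inter (g.support \ T.filter (fun δ => g δ ∈ T))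
          ((g.support \ T).image x)
        have h6 : 1 ≤ ((g.support \ T.filter (fun δ => g δ ∈ T)) ∩
            (g.support \ T).image x).card := Finset.card_pos.2 ⟨b', hinter⟩
        have h8 := Finset.card_le_card hsub
        have h9 := h7 x
        omega
    · push Not at hbad
      have hSgeq : T.filter (fun δ => g δ ∈ T) = T := Finset.filter_true_of_mem hbad
      obtain ⟨b, hb⟩ : ∃ b, b ∈ g.support \ T := Finset.card_pos.1 (by rw [hΔT]; omega)
      have hbΔ := (Finset.mem_sdiff.1 hb).1
      have hbT := (Finset.mem_sdiff.1 hb).2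
      by_cases hout : ∃ e, e ∉ g.support
      · obtain ⟨e, he⟩ := hout
        obtain ⟨x, hxG, hxT, hxb⟩ := presc T (by omega) b e hbT (fun h => he (hTΔ h))
        refine ⟨g⁻¹ * (x * g * x⁻¹), hmemy x hxG, ?_, ?_⟩
        · intro h1
          have h2 := congrArg (fun f : Equiv.Perm α => f e) h1
          simp only [Equiv.Perm.mul_apply, Equiv.Perm.one_apply] at h2
          have hx' : x⁻¹ e = b := by
            rw [Equiv.Perm.inv_eq_iff_eq]
            exact hxb.symm
          rw [hx', Equiv.Perm.inv_eq_iff_eq, Equiv.Perm.notMem_support.1 he] at h2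
          have h3 : x (g b) = x b := h2.trans hxb.symm
          exact (Equiv.Perm.mem_support.1 hbΔ) (x.injective h3)
        · have hsub := supp_bound g x T hTΔ hxT
          rw [hSgeq] at hsub
          have h8 := Finset.card_le_card hsub
          have h9 := Finset.card_union_le (g.support \ T) ((g.support \ T).image x)
          have h10 := h7 x
          omega
      · push Not at hout
        have himg : T.image g = T := Finset.eq_of_subset_of_card_le (by
            intro z hz
            obtain ⟨c, hc, rfl⟩ := Finset.mem_image.1 hz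
            exact hbad c hc) (by rw [Finset.card_image_of_injective _ g.injective])
        have hgbT : g b ∉ T := by
          intro h
          rw [← himg] at h
          obtain ⟨c, hc, hcb⟩ := Finset.mem_image.1 h
          exact hbT (g.injective hcb ▸ hc)
        have hgbne : g b ≠ b := Equiv.Perm.mem_support.1 hbΔ
        obtain ⟨x, hxG, hxT, hxb⟩ := presc T (by omega) b (g b) hbT hgbT
        by_cases hcomm : x * g = g * x
        · refine ⟨g⁻¹ * x, G.mul_mem (G.inv_mem hg) hxG, ?_, ?_⟩
          · intro h1
            obtain ⟨c, hc⟩ : ∃ c, c ∈ T := Finset.card_pos.1 (by omega)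
            have h2 := congrArg (fun f : Equiv.Perm α => f c) h1
            simp only [Equiv.Perm.mul_apply, Equiv.Perm.one_apply] at h2
            rw [hxT c hc, Equiv.Perm.inv_eq_iff_eq] at h2
            exact (Equiv.Perm.mem_support.1 (hTΔ hc)) h2.symm
          · have hb_fix : (g⁻¹ * x) b = b := by
              rw [Equiv.Perm.mul_apply, hxb]
              exact g.symm_apply_apply b
            have hsub : (g⁻¹ * x).support ⊆ g.support.erase b := by
              intro ω hω
              rw [Finset.mem_erase]
              refine ⟨?_, hout ω⟩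
              rintro rfl
              exact (Equiv.Perm.mem_support.1 hω) hb_fix
            have h8 := Finset.card_le_card hsub
            rw [Finset.card_erase_of_mem hbΔ] at h8
            omega
        · refine ⟨g⁻¹ * (x * g * x⁻¹), hmemy x hxG, ?_, ?_⟩
          · intro h1
            apply hcomm
            have h2 : g = x * g * x⁻¹ := inv_mul_eq_one.1 h1
            calc x * g = x * g * x⁻¹ * x := by group
              _ = g * x := by rw [← h2]
          · have hsub := supp_bound g x T hTΔ hxT
            rw [hSgeq] at hsub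
            have hinter : g b ∈ (g.support \ T) ∩ (g.support \ T).image x := by
              rw [Finset.mem_inter]
              exact ⟨Finset.mem_sdiff.2 ⟨hout _, hgbT⟩, Finset.mem_image.2 ⟨b, hb, hxb⟩⟩
            have h5 := Finset.card_union_add_card_inter (g.support \ T)
              ((g.support \ T).image x)
            have h6 : 1 ≤ ((g.support \ T) ∩ (g.support \ T).image x).card :=
              Finset.card_pos.2 ⟨g b, hinter⟩
            have h8 := Finset.card_le_card hsub
            have h10 := h7 x
            omega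

/-- A `k`-transitive permutation group (`k ≥ 3`) with a non-identity element of support smaller than `2k - 2` contains a non-identity element of support at most 3, and therefore contains the alternating group. -/
theorem result {α : Type*} [Fintype α] [DecidableEq α] (G : Subgroup (Equiv.Perm α)) {k : ℕ} (hk : 3 ≤ k) (hkn : k ≤ Fintype.card α) (hG : MulAction.IsMultiplyPretransitive G α k) (g : Equiv.Perm α) (hg : g ∈ G) (hg1 : g ≠ 1) (hsupp : g.support.card < 2 * k - 2) : (∃ h : Equiv.Perm α, h ∈ G ∧ h ≠ 1 ∧ h.support.card ≤ 3) ∧ alternatingGroup α ≤ G := by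
  classical
  have hcardENat : (k : ℕ∞) ≤ ENat.card α := by
    rw [ENat.card_eq_coe_fintype_card]
    exact_mod_cast hkn
  have h2 : MulAction.IsMultiplyPretransitive G α 2 :=
    MulAction.isMultiplyPretransitive_of_le' (n := k) (by omega) hcardENat
  have hprim : MulAction.IsPreprimitive G α := MulAction.isPreprimitive_of_is_two_pretransitive h2
  have part1 : ∃ h : Equiv.Perm α, h ∈ G ∧ h ≠ 1 ∧ h.support.card ≤ 3 := by
    by_cases hkn' : k < Fintype.card α
    · have hpre : ∀ (D : Finset α), D.card ≤ k → ∀ φ : α → α, Set.InjOn φ D →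
          ∃ x ∈ G, ∀ d ∈ D, x d = φ d := by
        intro D hD φ hφ
        have hm : MulAction.IsMultiplyPretransitive G α D.card :=
          MulAction.isMultiplyPretransitive_of_le' (n := k) hD hcardENat
        obtain ⟨x, hx⟩ := hm.exists_smul_eq
          (D.equivFin.symm.toEmbedding.trans (Function.Embedding.subtype _))
          ⟨fun i => φ (D.equivFin.symm i : α), fun i j hij => D.equivFin.symm.injective
            (Subtype.ext (hφ (D.equivFin.symm i).2 (D.equivFin.symm j).2 hij))⟩
        refine ⟨x, x.2, fun d hd => ?_⟩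
        have h1 : (x : Equiv.Perm α) (D.equivFin.symm (D.equivFin ⟨d, hd⟩) : α) =
            φ (D.equivFin.symm (D.equivFin ⟨d, hd⟩) : α) :=
          congrArg (fun f : Fin D.card ↪ α => f (D.equivFin ⟨d, hd⟩)) hx
        rw [Equiv.symm_apply_apply] at h1
        exact h1
      have main : ∀ m : ℕ, ∀ g : Equiv.Perm α, g ∈ G → g ≠ 1 → g.support.card = m →
          m < 2 * k - 2 → ∃ h : Equiv.Perm α, h ∈ G ∧ h ≠ 1 ∧ h.support.card ≤ 3 := by
        intro m
        induction m using Nat.strong_induction_on with
        | _ m ih =>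
          intro g hg hg1 hm hlt
          by_cases h3 : m ≤ 3
          · exact ⟨g, hg, hg1, by omega⟩
          · obtain ⟨y, hyG, hy1, hylt⟩ := step G hk hkn' hpre g hg (by omega) (by omega)
            exact ih y.support.card (by omega) y hyG hy1 rfl (by omega)
      exact main _ g hg hg1 rfl hsupp
    · have htop : G = ⊤ := by
        apply Equiv.Perm.eq_top_of_isMultiplyPretransitive
        exact MulAction.isMultiplyPretransitive_of_le' (n := k)
          (by rw [Nat.card_eq_fintype_card]; omega) hcardENat
      obtain ⟨a, b, hab⟩ : ∃ a b : α, a ≠ b := Fintype.exists_pair_of_one_lt_card (by omega)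
      refine ⟨Equiv.swap a b, by rw [htop]; exact Subgroup.mem_top _, ?_, ?_⟩
      · intro h
        have h5 := congrArg (fun f : Equiv.Perm α => f a) h
        simp only [Equiv.swap_apply_left, Equiv.Perm.one_apply] at h5
        exact hab h5.symm
      · rw [Equiv.Perm.card_support_swap hab]
        omega
  refine ⟨part1, ?_⟩
  obtain ⟨h, hhG, hh1, hh3⟩ := part1
  have hne0 : h.support.card ≠ 0 := by
    rw [Ne, Finset.card_eq_zero, Equiv.Perm.support_eq_empty_iff]
    exact hh1
  have hne1 : h.support.card ≠ 1 := Equiv.Perm.card_support_ne_one h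
  rcases (show h.support.card = 2 ∨ h.support.card = 3 by omega) with h2' | h3'
  · have hswap : h.IsSwap := Equiv.Perm.card_support_eq_two.1 h2'
    have htop := Equiv.Perm.subgroup_eq_top_of_isPreprimitive_of_isSwap_mem hprim h hswap hhG
    rw [htop]
    exact le_top
  · have h3c : h.IsThreeCycle := card_support_eq_three_iff.1 h3'
    exact Equiv.Perm.alternatingGroup_le_of_isPreprimitive_of_isThreeCycle_mem hprim h3c hhG

end Cfsg.Agent.S0711
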