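import Cfsg.Statements.S0712
-- import your own Cfsg.Agent.* helpers here

set_option autoImplicit false
open Cfsg

namespace Cfsg.Agent.S0712

theorem multiplyPretransitive_of_fixingSubgroup {G α : Type*} [Group G] [MulAction G α]
    (s : Set α) [Finite s] {m k : ℕ} (hs : s.ncard = m)
    (hG : MulAction.IsMultiplyPretransitive G α m)
    (hH : MulAction.IsMultiplyPretransitive (fixingSubgroup G s)
      (SubMulAction.ofFixingSubgroup G s) k) :
    MulAction.IsMultiplyPretransitive G α (m + k) := by
  classical
  obtain ⟨e⟩ : Nonempty (Fin m ≃ s) := by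
    rw [← hs]
    exact Finite.card_eq.mp (by simp [Nat.card_coe_set_eq])
  have norm : ∀ x : Fin (m + k) ↪ α, ∃ (g : G) (x'' : Fin k ↪ SubMulAction.ofFixingSubgroup G s),
      (∀ i : Fin m, g • x (Fin.castAdd k i) = e i) ∧
      (∀ j : Fin k, g • x (Fin.natAdd m j) = x'' j) := by
    intro x
    obtain ⟨g, hg⟩ := hG.exists_smul_eq ((Fin.castAddEmb k).trans x)
      (e.toEmbedding.trans (Function.Embedding.subtype _))
    have hgi : ∀ i : Fin m, g • x (Fin.castAdd k i) = e i := by
      intro i
      have h1 := congrArg (fun f : Fin m ↪ α => f i) hg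
      simpa using h1
    have hns : ∀ j : Fin k, g • x (Fin.natAdd m j) ∉ s := by
      intro j hj
      have h1 := hgi (e.symm ⟨_, hj⟩)
      rw [Equiv.apply_symm_apply] at h1
      have h2 := x.injective (MulAction.injective g h1)
      have h3 := congrArg Fin.val h2
      have h4 := (e.symm ⟨_, hj⟩).2
      simp only [Fin.val_castAdd, Fin.val_natAdd] at h3
      omega
    refine ⟨g, ⟨fun j => ⟨g • x (Fin.natAdd m j), hns j⟩, ?_⟩, hgi, fun j => rfl⟩
    intro j₁ j₂ h
    have h1 : g • x (Fin.natAdd m j₁) = g • x (Fin.natAdd m j₂) := congrArg Subtype.val h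
    have h2 := x.injective (MulAction.injective g h1)
    exact Fin.natAdd_injective _ _ h2
  constructor
  intro x y
  obtain ⟨g, x'', hx1, hx2⟩ := norm x
  obtain ⟨g', y'', hy1, hy2⟩ := norm y
  obtain ⟨h, hh⟩ := hH.exists_smul_eq x'' y''
  refine ⟨g'⁻¹ * (h : G) * g, ?_⟩
  ext i
  rw [Function.Embedding.smul_apply, mul_smul, mul_smul, inv_smul_eq_iff]
  induction i using Fin.addCases with
  | left i =>
    rw [hx1, hy1]
    exact (mem_fixingSubgroup_iff G).mp h.2 _ (e i).2
  | right j =>
    rw [hx2, hy2, ← hh]
    rfl

/-- Jordan: a primitive group in which the pointwise stabiliser of a set `s` is doubly transitive on the complement of `s` (which has at least 2 points) is `(|s| + 2)`-transitive. -/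
theorem result {α : Type*} [Fintype α] [DecidableEq α] (G : Subgroup (Equiv.Perm α)) (hG : MulAction.IsPreprimitive G α) (s : Set α) {m : ℕ} (hsm : s.ncard = m) (hm : m + 2 ≤ Fintype.card α) (h2 : MulAction.IsMultiplyPretransitive (fixingSubgroup G s) (SubMulAction.ofFixingSubgroup G s) 2) : MulAction.IsMultiplyPretransitive G α (m + 2) := by
  have hfin : Finite s := Set.toFinite s |>.to_subtype
  have hGm : MulAction.IsMultiplyPretransitive G α m := by
    rcases Nat.eq_zero_or_pos m with rfl | hmpos
    · exact MulAction.is_zero_pretransitive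
    · obtain ⟨n, rfl⟩ : ∃ n, m = n + 1 := ⟨m - 1, by omega⟩
      have hprim : MulAction.IsPreprimitive (fixingSubgroup G s) (SubMulAction.ofFixingSubgroup G s) :=
        MulAction.isPreprimitive_of_is_two_pretransitive h2
      have hcard : n + 2 < Nat.card α := by
        rw [Nat.card_eq_fintype_card]; omega
      have h3 := hG.isMultiplyPreprimitive hsm hcard hprim
      have h4 : MulAction.IsMultiplyPretransitive G α (n + 2) :=
        MulAction.IsMultiplyPreprimitive.isMultiplyPretransitive G α (n + 2)
      exact MulAction.isMultiplyPretransitive_of_le (n := n + 2) (by omega) hcard.le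
  exact multiplyPretransitive_of_fixingSubgroup s hsm hGm h2

end Cfsg.Agent.S0712
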