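import Cfsg.Statements.S0713
-- import your own Cfsg.Agent.* helpers here
import Mathlib

set_option autoImplicit false
open Cfsg

namespace Cfsg.Agent.S0713

open Equiv Equiv.Perm MulAction in
theorem dvd_card_support {α : Type*} [Fintype α] [DecidableEq α] {p : ℕ} (hp : p.Prime)
    (q : Perm α) {k : ℕ} (hq : q ^ p ^ k = 1) : p ∣ q.support.card := by
  rw [← Equiv.Perm.sum_cycleType]
  apply Multiset.dvd_sum
  intro a ha
  have h1 : a ∣ orderOf q := Equiv.Perm.dvd_of_mem_cycleType ha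
  have h2 : 2 ≤ a := Equiv.Perm.two_le_of_mem_cycleType ha
  have h3 : a ∣ p ^ k := h1.trans (orderOf_dvd_of_pow_eq_one hq)
  obtain ⟨i, hi, rfl⟩ := (Nat.dvd_prime_pow hp).1 h3
  cases i with
  | zero => simp at h2
  | succ i => exact dvd_pow_self p (Nat.succ_ne_zero i)

open Equiv Equiv.Perm MulAction in
def fixK {α : Type*} (G : Subgroup (Perm α)) (g : Perm α) : Subgroup (Perm α) where
  carrier := {k | k ∈ G ∧ ∀ a, g a = a → k a = a}
  mul_mem' := by
    rintro x y ⟨hx, hx'⟩ ⟨hy, hy'⟩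
    exact ⟨G.mul_mem hx hy, fun a ha => by rw [Perm.mul_apply, hy' a ha, hx' a ha]⟩
  one_mem' := ⟨G.one_mem, fun a _ => rfl⟩
  inv_mem' := by
    rintro x ⟨hx, hx'⟩
    exact ⟨G.inv_mem hx, fun a ha => by rw [Perm.inv_eq_iff_eq, hx' a ha]⟩

open Equiv Equiv.Perm MulAction in
theorem eq_one_of_fix {α : Type*} [Fintype α] [DecidableEq α] {p : ℕ} (hp : p.Prime)
    {g : Perm α} (hgp : g.support.card = p)
    {q : Perm α} (hq : ∀ a, g a = a → q a = a) {k : ℕ} (hqk : q ^ p ^ k = 1) {d : α}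
    (hd : g d ≠ d) (hqd : q d = d) : q = 1 := by
  have h1 : p ∣ q.support.card := dvd_card_support hp q hqk
  have h2 : q.support ⊆ g.support.erase d := by
    intro a ha
    rw [Finset.mem_erase, Perm.mem_support]
    rw [Perm.mem_support] at ha
    refine ⟨?_, fun h => ha (hq a h)⟩
    rintro rfl
    exact ha hqd
  have h3 : q.support.card ≤ p - 1 := by
    have := Finset.card_le_card h2
    rw [Finset.card_erase_of_mem (Perm.mem_support.2 hd), hgp] at this
    exact this
  have h4 : q.support.card = 0 := by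
    rcases Nat.eq_zero_or_pos q.support.card with h | h
    · exact h
    · have := Nat.le_of_dvd h h1
      have := hp.two_le
      omega
  rwa [Finset.card_eq_zero, Perm.support_eq_empty_iff] at h4

open Equiv Equiv.Perm MulAction in
theorem card_le_of_isPGroup {α : Type*} [Fintype α] [DecidableEq α] {p : ℕ} (hp : p.Prime)
    (G : Subgroup (Perm α)) {g : Perm α} (hgp : g.support.card = p)
    (Q : Subgroup (fixK G g)) (hQ : IsPGroup p Q) : Nat.card Q ≤ p := by
  obtain ⟨d, hd⟩ : ∃ d, g d ≠ d := by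
    have : g.support.Nonempty := by
      rw [← Finset.card_pos, hgp]; exact hp.pos
    obtain ⟨d, hd⟩ := this
    exact ⟨d, Perm.mem_support.1 hd⟩
  have hmem : ∀ q : Q, ((q : fixK G g) : Perm α) d ∈ g.support := by
    intro q
    rw [Perm.mem_support]
    intro h
    have h1 := q.1.2.2 _ h
    have h2 : ((q : fixK G g) : Perm α) d = d := (Equiv.injective _ h1)
    rw [h2] at h
    exact hd h
  let f : Q → g.support := fun q => ⟨((q : fixK G g) : Perm α) d, hmem q⟩
  have hf : Function.Injective f := by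
    intro q q' hqq
    have h1 : ((q : fixK G g) : Perm α) d = ((q' : fixK G g) : Perm α) d :=
      congrArg Subtype.val hqq
    obtain ⟨k, hk⟩ := hQ (q'⁻¹ * q)
    have h2 : (((q'⁻¹ * q : Q) : fixK G g) : Perm α) = 1 := by
      apply eq_one_of_fix hp hgp (q'⁻¹ * q : Q).1.2.2 (k := k) _ hd
      · show ((q' : fixK G g) : Perm α)⁻¹ (((q : fixK G g) : Perm α) d) = d
        rw [h1]; simp
      · have := congrArg (fun z : Q => ((z : fixK G g) : Perm α)) hk
        simpa using this
    have h3 : q'⁻¹ * q = 1 := by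
      apply Subtype.ext; apply Subtype.ext; exact h2
    exact (inv_mul_eq_one.1 h3).symm
  have := Nat.card_le_card_of_injective f hf
  rwa [Nat.card_eq_fintype_card (α := g.support), Fintype.card_coe, hgp] at this

open Equiv Equiv.Perm MulAction in
theorem exists_conj {α : Type*} [Fintype α] [DecidableEq α] {p : ℕ} (hp : p.Prime)
    (G : Subgroup (Perm α)) {g : Perm α} (hgc : g.IsCycle) (hgp : g.support.card = p)
    (hg : g ∈ G) {u : Perm α} (hu : u ∈ fixK G g) (hup : u ^ p = 1) :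
    ∃ k ∈ fixK G g, ∃ i : ℤ, k * u * k⁻¹ = g ^ i := by
  have := Fact.mk hp
  have hgK : g ∈ fixK G g := ⟨hg, fun a ha => ha⟩
  let gK : fixK G g := ⟨g, hgK⟩
  let uK : fixK G g := ⟨u, hu⟩
  have hcardP : Nat.card (Subgroup.zpowers gK) = p := by
    rw [Nat.card_zpowers]
    have : orderOf gK = orderOf g := Subgroup.orderOf_mk g hgK
    rw [this, hgc.orderOf, hgp]
  let S : Sylow p (fixK G g) :=
    { toSubgroup := Subgroup.zpowers gK
      isPGroup' := IsPGroup.of_card (n := 1) (by rw [hcardP, pow_one])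
      is_maximal' := by
        intro Q hQ hle
        have h1 := card_le_of_isPGroup hp G hgp Q hQ
        exact (Subgroup.eq_of_le_of_card_ge hle (by rw [hcardP]; exact h1)).symm }
  have huK : uK ^ p = 1 := Subtype.ext hup
  have hU : IsPGroup p (Subgroup.zpowers uK) := by
    rintro ⟨z, hz⟩
    obtain ⟨n, rfl⟩ := Subgroup.mem_zpowers_iff.1 hz
    refine ⟨1, Subtype.ext ?_⟩
    show (uK ^ n) ^ p ^ 1 = 1
    rw [pow_one, ← zpow_natCast, ← zpow_mul, mul_comm, zpow_mul, zpow_natCast, huK, one_zpow]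
  obtain ⟨Q, hQ⟩ := hU.exists_le_sylow
  obtain ⟨k, hk⟩ := MulAction.exists_smul_eq (fixK G g) Q S
  have h1 : k * uK * k⁻¹ ∈ (S : Subgroup (fixK G g)) := by
    rw [← hk]
    rw [Sylow.coe_subgroup_smul]
    exact ⟨uK, hQ (Subgroup.mem_zpowers uK), rfl⟩
  obtain ⟨i, hi⟩ := Subgroup.mem_zpowers_iff.1 h1
  refine ⟨k, k.2, i, ?_⟩
  have := congrArg (fun z : fixK G g => (z : Perm α)) hi
  simpa [gK, uK] using this.symm

open Equiv Equiv.Perm MulAction in
theorem inv_apply_of_invol {α : Type*} {g y τ : Perm α}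
    (hτ : ∀ z, g z = z → g (τ z) = τ z) (hτ2 : τ * τ = 1)
    (hy : ∀ z, g z = z → y z = τ z) : ∀ z, g z = z → y⁻¹ z = τ z := by
  intro a ha
  rw [Perm.inv_eq_iff_eq, hy _ (hτ a ha)]
  have := congrArg (fun f : Perm α => f a) hτ2
  simpa using this.symm

open Equiv Equiv.Perm MulAction in
theorem exists_normalizing {α : Type*} [Fintype α] [DecidableEq α] {p : ℕ} (hp : p.Prime)
    (G : Subgroup (Perm α)) {g : Perm α} (hgc : g.IsCycle) (hgp : g.support.card = p)
    (hg : g ∈ G) {x σ : Perm α} (hx : x ∈ G)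
    (hσ : ∀ a, g a = a → g (σ a) = σ a) (hσ2 : σ * σ = 1) (hxσ : ∀ a, g a = a → x a = σ a) :
    ∃ y ∈ G, (∀ a, g a = a → y a = σ a) ∧ ∃ i : ℤ, y * g * y⁻¹ = g ^ i := by
  have hxinv : ∀ a, g a = a → x⁻¹ a = σ a := inv_apply_of_invol hσ hσ2 hxσ
  have hu : x * g * x⁻¹ ∈ fixK G g := by
    refine ⟨G.mul_mem (G.mul_mem hx hg) (G.inv_mem hx), fun a ha => ?_⟩
    rw [Perm.mul_apply, Perm.mul_apply, hxinv a ha, hσ a ha, hxσ _ (hσ a ha)]
    have := congrArg (fun f : Perm α => f a) hσ2
    simpa using this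
  have hup : (x * g * x⁻¹) ^ p = 1 := by
    rw [conj_pow, ← hgp, ← hgc.orderOf, pow_orderOf_eq_one, mul_one, mul_inv_cancel]
  obtain ⟨k, hk, i, hi⟩ := exists_conj hp G hgc hgp hg hu hup
  refine ⟨k * x, G.mul_mem hk.1 hx, fun a ha => ?_, i, ?_⟩
  · rw [Perm.mul_apply, hxσ a ha, hk.2 _ (hσ a ha)]
  · rw [← hi]; group

open Equiv Equiv.Perm MulAction in
theorem mem_of_commute {α : Type*} (G : Subgroup (Perm α)) {g : Perm α} (hgc : g.IsCycle)
    (hg : g ∈ G) {c t : Perm α} (hc : c ∈ G) (hcomm : c * g = g * c)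
    (hct : ∀ z, g z = z → c z = t z) (ht : ∀ z, g z ≠ z → t z = z) : t ∈ G := by
  obtain ⟨d, hd, hcyc⟩ := hgc
  have hcz : ∀ n : ℤ, c * g ^ n = g ^ n * c := fun n => (Commute.zpow_right hcomm n)
  have hcd : g (c d) ≠ c d := by
    intro h
    have h1 : c (g d) = g (c d) := by
      have := congrArg (fun f : Perm α => f d) hcomm
      simpa using this
    rw [h] at h1
    exact hd (c.injective h1)
  obtain ⟨i, hi⟩ := hcyc hcd
  have key : ∀ z, g z ≠ z → c z = (g ^ i) z := by
    intro z hz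
    obtain ⟨j, hj⟩ := hcyc hz
    rw [← hj]
    have h1 : c ((g ^ j) d) = (g ^ j) (c d) := by
      have := congrArg (fun f : Perm α => f d) (hcz j)
      simpa using this
    rw [h1, ← hi, ← Perm.mul_apply, ← Perm.mul_apply, ← zpow_add, ← zpow_add, add_comm]
  have : t = c * (g ^ i)⁻¹ := by
    ext z
    rw [Perm.mul_apply]
    by_cases hz : g z = z
    · have h1 : (g ^ i)⁻¹ z = z := by
        rw [Perm.inv_eq_iff_eq]
        exact (Perm.zpow_apply_eq_self_of_apply_eq_self hz i).symm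
      rw [h1, hct z hz]
    · have h2 : g ((g ^ i)⁻¹ z) ≠ (g ^ i)⁻¹ z := by
        intro h
        have h3 : (g ^ i) ((g ^ i)⁻¹ z) = (g ^ i)⁻¹ z :=
          Perm.zpow_apply_eq_self_of_apply_eq_self h i
        have h4 : (g ^ i) ((g ^ i)⁻¹ z) = z := (g ^ i).apply_symm_apply z
        rw [h4] at h3
        rw [← h3] at h
        exact hz h
      rw [key _ h2, ht z hz]
      exact ((g ^ i).apply_symm_apply z).symm
  rw [this]
  exact G.mul_mem hc (G.inv_mem (G.zpow_mem hg i))

open Equiv Equiv.Perm MulAction in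
theorem swap_fix {α : Type*} [DecidableEq α] {g : Perm α} {a b : α} (ha : g a = a)
    (hb : g b = b) : ∀ z, g z = z → g (swap a b z) = swap a b z := by
  intro z hz
  by_cases h1 : z = a
  · subst h1; rw [swap_apply_left]; exact hb
  · by_cases h2 : z = b
    · subst h2; rw [swap_apply_right]; exact ha
    · rw [swap_apply_of_ne_of_ne h1 h2]; exact hz

open Equiv Equiv.Perm MulAction in
theorem main {α : Type*} [Fintype α] [DecidableEq α] (G : Subgroup (Equiv.Perm α))
    (hG : MulAction.IsPreprimitive G α) {p : ℕ} (hp : p.Prime)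
    (hpn : p + 3 ≤ Fintype.card α) {g : Equiv.Perm α} (hgc : g.IsCycle)
    (hgp : g.support.card = p) (hg : g ∈ G) : alternatingGroup α ≤ G := by
  classical
  obtain ⟨m, hm⟩ : ∃ m, Fintype.card α = p + m := Nat.exists_eq_add_of_le (by omega)
  have hm3 : 3 ≤ m := by omega
  have hcc : g.supportᶜ.card = m := by rw [Finset.card_compl, hgp]; omega
  have hMP : IsMultiplyPreprimitive G α ((m - 1) + 2) := by
    apply hG.isMultiplyPreprimitive (s := (g.supportᶜ : Set α))
    · have h1 : (g.support : Set α).ncard + ((g.support : Set α)ᶜ).ncard = Nat.card α :=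
        Set.ncard_add_ncard_compl _
      rw [Set.ncard_coe_finset, hgp, Nat.card_eq_fintype_card] at h1
      omega
    · rw [Nat.card_eq_fintype_card]
      have := hp.two_le
      omega
    have := isPretransitive_of_isCycle_mem hgc hg
    apply IsPreprimitive.of_prime_card
    convert! hp
    rw [Nat.card_eq_fintype_card, Fintype.card_subtype, ← hgp]
    apply congr_arg
    ext x
    simp [SubMulAction.mem_ofFixingSubgroup_iff]
  have hMT1 : IsMultiplyPretransitive G α ((m - 1) + 2) :=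
    IsMultiplyPreprimitive.isMultiplyPretransitive ..
  have hMT : IsMultiplyPretransitive G α m :=
    MulAction.isMultiplyPretransitive_of_le (n := (m - 1) + 2) (by omega)
      (by rw [Nat.card_eq_fintype_card]; have := hp.two_le; omega)
  have claimA : ∀ σ : Perm α, ∃ x ∈ G, ∀ a, g a = a → x a = σ a := by
    intro σ
    let e0 : Fin m ≃ (g.supportᶜ : Finset α) := (Finset.equivFinOfCardEq hcc).symm
    let e : Fin m ↪ α := e0.toEmbedding.trans (Function.Embedding.subtype _)
    obtain ⟨x, hx⟩ := MulAction.exists_smul_eq G e (e.trans σ.toEmbedding)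
    refine ⟨x, x.2, fun a ha => ?_⟩
    have ha' : a ∈ g.supportᶜ := by rw [Finset.mem_compl, Perm.notMem_support]; exact ha
    have h1 := congrArg (fun f : Fin m ↪ α => f (e0.symm ⟨a, ha'⟩)) hx
    have h2 : x • a = σ a := by simpa [e] using h1
    exact h2
  obtain ⟨T, hT, hT3⟩ := Finset.exists_subset_card_eq (hcc.symm ▸ hm3 : 3 ≤ g.supportᶜ.card)
  obtain ⟨a, b, c, hab, hac, hbc, rfl⟩ := Finset.card_eq_three.1 hT3
  have hfix : ∀ z ∈ ({a, b, c} : Finset α), g z = z := by
    intro z hz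
    have := hT hz
    rwa [Finset.mem_compl, Perm.notMem_support] at this
  have ha : g a = a := hfix a (by simp)
  have hb : g b = b := hfix b (by simp)
  have hc : g c = c := hfix c (by simp)
  obtain ⟨x0, hx0, hx0σ⟩ := claimA (swap a b)
  obtain ⟨x, hx, hxσ, i, hxi⟩ := exists_normalizing hp G hgc hgp hg hx0 (swap_fix ha hb)
    (swap_mul_self a b) hx0σ
  obtain ⟨y0, hy0, hy0τ⟩ := claimA (swap a c)
  obtain ⟨y, hy, hyτ, j, hyj⟩ := exists_normalizing hp G hgc hgp hg hy0 (swap_fix ha hc)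
    (swap_mul_self a c) hy0τ
  have hcomm : (x⁻¹ * y⁻¹ * x * y) * g = g * (x⁻¹ * y⁻¹ * x * y) := by
    have h1 : x * y * g * y⁻¹ * x⁻¹ = g ^ (i * j) := by
      calc x * y * g * y⁻¹ * x⁻¹ = x * (y * g * y⁻¹) * x⁻¹ := by group
        _ = x * g ^ j * x⁻¹ := by rw [hyj]
        _ = (x * g * x⁻¹) ^ j := by rw [conj_zpow]
        _ = g ^ (i * j) := by rw [hxi, zpow_mul]
    have h2 : y * x * g * x⁻¹ * y⁻¹ = g ^ (i * j) := by
      calc y * x * g * x⁻¹ * y⁻¹ = y * (x * g * x⁻¹) * y⁻¹ := by group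
        _ = y * g ^ i * y⁻¹ := by rw [hxi]
        _ = (y * g * y⁻¹) ^ i := by rw [conj_zpow]
        _ = g ^ (i * j) := by rw [hyj, ← zpow_mul, mul_comm]
    have h3 : x * y * g * y⁻¹ * x⁻¹ = y * x * g * x⁻¹ * y⁻¹ := h1.trans h2.symm
    calc (x⁻¹ * y⁻¹ * x * y) * g = x⁻¹ * y⁻¹ * (x * y * g * y⁻¹ * x⁻¹) * x * y := by group
      _ = x⁻¹ * y⁻¹ * (y * x * g * x⁻¹ * y⁻¹) * x * y := by rw [h3]
      _ = g * (x⁻¹ * y⁻¹ * x * y) := by group
  have hxinv := inv_apply_of_invol (swap_fix ha hb) (swap_mul_self a b) hxσ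
  have hyinv := inv_apply_of_invol (swap_fix ha hc) (swap_mul_self a c) hyτ
  have hct : ∀ z, g z = z → (x⁻¹ * y⁻¹ * x * y) z
      = ((swap a b * swap a c) * (swap a b * swap a c)) z := by
    intro z hz
    have e1 := swap_fix ha hc z hz
    have e2 := swap_fix ha hb _ e1
    have e3 := swap_fix ha hc _ e2
    simp only [Perm.mul_apply]
    rw [hyτ z hz, hxσ _ e1, hyinv _ e2, hxinv _ e3]
  have ht : ∀ z, g z ≠ z → ((swap a b * swap a c) * (swap a b * swap a c)) z = z := by
    intro z hz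
    have hza : z ≠ a := by rintro rfl; exact hz ha
    have hzb : z ≠ b := by rintro rfl; exact hz hb
    have hzc : z ≠ c := by rintro rfl; exact hz hc
    simp only [Perm.mul_apply]
    rw [swap_apply_of_ne_of_ne hza hzc, swap_apply_of_ne_of_ne hza hzb,
      swap_apply_of_ne_of_ne hza hzc, swap_apply_of_ne_of_ne hza hzb]
  have htG : ((swap a b * swap a c) * (swap a b * swap a c)) ∈ G :=
    mem_of_commute G hgc hg
      (G.mul_mem (G.mul_mem (G.mul_mem (G.inv_mem hx) (G.inv_mem hy)) hx) hy) hcomm hct ht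
  have h3c : IsThreeCycle ((swap a b * swap a c) * (swap a b * swap a c)) :=
    (isThreeCycle_swap_mul_swap_same hab hac hbc).isThreeCycle_sq
  exact alternatingGroup_le_of_isPreprimitive_of_isThreeCycle_mem hG h3c htG

/-- Jordan's Theorem: a primitive permutation group of degree `n ≥ 5` containing a `p`-cycle for a prime `p ≤ n - 3` contains the alternating group. -/
theorem result {α : Type*} [Fintype α] [DecidableEq α] (G : Subgroup (Equiv.Perm α)) (hG : MulAction.IsPreprimitive G α) {p : ℕ} (hp : p.Prime) (hn : 5 ≤ Fintype.card α) (hpn : p + 3 ≤ Fintype.card α) {g : Equiv.Perm α} (hgc : g.IsCycle) (hgp : g.support.card = p) (hg : g ∈ G) : alternatingGroup α ≤ G := by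
  exact main G hG hp hpn hgc hgp hg

end Cfsg.Agent.S0713
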