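import Cfsg.Statements.S0714
-- import your own Cfsg.Agent.* helpers here
import Mathlib

set_option autoImplicit false
open Cfsg

namespace Cfsg.Agent.S0714

section aux
variable {α : Type*} [Fintype α] [DecidableEq α] {K : Type*} [Field K]

theorem comp_mem (W : Subrepresentation (Cfsg.permRep K (alternatingGroup α) α))
    (g : alternatingGroup α) {f : α → K} (hf : f ∈ W.toSubmodule) :
    (fun p => f ((g : Equiv.Perm α) p)) ∈ W.toSubmodule := by
  have h := W.apply_mem_toSubmodule g⁻¹ hf
  have e : Cfsg.permRep K (alternatingGroup α) α g⁻¹ f = fun p => f ((g : Equiv.Perm α) p) := by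
    funext p
    show f ((g⁻¹)⁻¹ • p) = f ((g : Equiv.Perm α) p)
    rw [inv_inv]; rfl
  rw [e] at h; exact h

theorem T_lemma (W : Subrepresentation (Cfsg.permRep K (alternatingGroup α) α))
    {x y d e : α} (hxy : x ≠ y) (hde : d ≠ e) (hxd : x ≠ d) (hxe : x ≠ e) (hyd : y ≠ d)
    (hye : y ≠ e) {f : α → K} (hf : f ∈ W.toSubmodule) (hfde : f d = f e) :
    (f x - f y) • (Pi.single x (1 : K) - Pi.single y (1 : K) : α → K) ∈ W.toSubmodule := by
  have hg : Equiv.swap x y * Equiv.swap d e ∈ alternatingGroup α := by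
    rw [Equiv.Perm.mem_alternatingGroup, map_mul, Equiv.Perm.sign_swap hxy,
      Equiv.Perm.sign_swap hde]
    rfl
  have h1 := comp_mem W ⟨_, hg⟩ hf
  have h2 := W.toSubmodule.sub_mem hf h1
  convert h2 using 1
  funext p
  simp only [Pi.smul_apply, Pi.sub_apply, Pi.single_apply, smul_eq_mul, Equiv.Perm.coe_mul,
    Function.comp_apply]
  by_cases hpx : p = x
  · subst hpx
    rw [Equiv.swap_apply_of_ne_of_ne hxd hxe, Equiv.swap_apply_left]
    simp [hxy]
  by_cases hpy : p = y
  · subst hpy
    rw [Equiv.swap_apply_of_ne_of_ne hyd hye, Equiv.swap_apply_right]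
    simp [hxy.symm]
  by_cases hpd : p = d
  · subst hpd
    rw [Equiv.swap_apply_left, Equiv.swap_apply_of_ne_of_ne (Ne.symm hxe) (Ne.symm hye)]
    simp [hpx, hpy, hfde]
  by_cases hpe : p = e
  · subst hpe
    rw [Equiv.swap_apply_right, Equiv.swap_apply_of_ne_of_ne (Ne.symm hxd) (Ne.symm hyd)]
    simp [hpx, hpy, hfde]
  · rw [Equiv.swap_apply_of_ne_of_ne hpd hpe, Equiv.swap_apply_of_ne_of_ne hpx hpy]
    simp [hpx, hpy]

theorem C_lemma (W : Subrepresentation (Cfsg.permRep K (alternatingGroup α) α))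
    {a b c d e : α} (hab : a ≠ b) (hac : a ≠ c) (hbc : b ≠ c) (hda : d ≠ a) (hdb : d ≠ b)
    (hdc : d ≠ c) (hea : e ≠ a) (heb : e ≠ b) (hec : e ≠ c) {w : α → K}
    (hw : w ∈ W.toSubmodule) (hwab : w a ≠ w b) :
    ∃ u ∈ W.toSubmodule, u a ≠ 0 ∧ u d = 0 ∧ u e = 0 := by
  have hg : Equiv.swap a b * Equiv.swap b c ∈ alternatingGroup α := by
    rw [Equiv.Perm.mem_alternatingGroup, map_mul, Equiv.Perm.sign_swap hab,
      Equiv.Perm.sign_swap hbc]
    rfl
  have h1 := comp_mem W ⟨_, hg⟩ hw
  refine ⟨_, W.toSubmodule.sub_mem hw h1, ?_, ?_, ?_⟩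
  · simp only [Pi.sub_apply, Equiv.Perm.coe_mul, Function.comp_apply]
    rw [Equiv.swap_apply_of_ne_of_ne hab hac, Equiv.swap_apply_left]
    exact sub_ne_zero.mpr hwab
  · simp only [Pi.sub_apply, Equiv.Perm.coe_mul, Function.comp_apply]
    rw [Equiv.swap_apply_of_ne_of_ne hdb hdc, Equiv.swap_apply_of_ne_of_ne hda hdb, sub_self]
  · simp only [Pi.sub_apply, Equiv.Perm.coe_mul, Function.comp_apply]
    rw [Equiv.swap_apply_of_ne_of_ne heb hec, Equiv.swap_apply_of_ne_of_ne hea heb, sub_self]

theorem exists_three (hα : 5 ≤ Fintype.card α) (a b : α) :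
    ∃ c d e : α, a ≠ c ∧ b ≠ c ∧ d ≠ a ∧ d ≠ b ∧ d ≠ c ∧ e ≠ a ∧ e ≠ b ∧ e ≠ c ∧ d ≠ e := by
  have h1 : ∃ c, c ∉ ({a, b} : Finset α) := by
    by_contra hcon
    push Not at hcon
    have : Finset.univ ⊆ ({a, b} : Finset α) := fun x _ => hcon x
    have := Finset.card_le_card this
    have h2 : ({a, b} : Finset α).card ≤ 2 := Finset.card_le_two
    rw [Finset.card_univ] at this
    omega
  obtain ⟨c, hc⟩ := h1
  have h3 : ∃ d, d ∉ ({a, b, c} : Finset α) := by
    by_contra hcon
    push Not at hcon
    have : Finset.univ ⊆ ({a, b, c} : Finset α) := fun x _ => hcon x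
    have := Finset.card_le_card this
    have h2 : ({a, b, c} : Finset α).card ≤ 3 := Finset.card_le_three
    rw [Finset.card_univ] at this
    omega
  obtain ⟨d, hd⟩ := h3
  have h4 : ∃ e, e ∉ ({a, b, c, d} : Finset α) := by
    by_contra hcon
    push Not at hcon
    have : Finset.univ ⊆ ({a, b, c, d} : Finset α) := fun x _ => hcon x
    have := Finset.card_le_card this
    have h2 : ({a, b, c, d} : Finset α).card ≤ 4 := Finset.card_le_four
    rw [Finset.card_univ] at this
    omega
  obtain ⟨e, he⟩ := h4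
  simp only [Finset.mem_insert, Finset.mem_singleton, not_or] at hc hd he
  exact ⟨c, d, e, fun h => hc.1 h.symm, fun h => hc.2 h.symm, hd.1, hd.2.1, hd.2.2, he.1, he.2.1,
    he.2.2.1, fun h => he.2.2.2 h.symm⟩

end aux

/-- Over any field, the permutation module of the alternating group of degree at least 5 has exactly four invariant subspaces: zero, the constant functions, the functions with coordinate sum zero, and everything. -/
theorem result {α : Type*} [Fintype α] [DecidableEq α] (hα : 5 ≤ Fintype.card α) {K : Type*} [Field K] (W : Subrepresentation (Cfsg.permRep K (alternatingGroup α) α)) : W.toSubmodule = ⊥ ∨ W = Cfsg.permConstants K (alternatingGroup α) α ∨ W = Cfsg.permSumZero K (alternatingGroup α) α ∨ W.toSubmodule = ⊤ := by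
  classical
  have hne : Nonempty α := Fintype.card_pos_iff.mp (by omega)
  obtain ⟨x₀⟩ := hne
  by_cases hconst : ∀ w ∈ W.toSubmodule, ∀ x y : α, w x = w y
  · by_cases hbot : W.toSubmodule = ⊥
    · exact Or.inl hbot
    right; left
    apply Subrepresentation.toSubmodule_injective
    show W.toSubmodule = Submodule.span K {fun _ => 1}
    apply le_antisymm
    · intro w hw
      rw [Submodule.mem_span_singleton]
      refine ⟨w x₀, funext fun x => ?_⟩
      simp [hconst w hw x x₀]
    · rw [Submodule.span_singleton_le_iff_mem]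
      obtain ⟨w, hw, hw0⟩ := (Submodule.ne_bot_iff _).mp hbot
      have hwx : w x₀ ≠ 0 := by
        intro h0
        apply hw0
        funext x
        rw [hconst w hw x x₀, h0]; rfl
      have e1 : (fun _ => (1 : K)) = (w x₀)⁻¹ • w := by
        funext x
        simp only [Pi.smul_apply, smul_eq_mul]
        rw [hconst w hw x x₀, inv_mul_cancel₀ hwx]
      rw [e1]
      exact W.toSubmodule.smul_mem _ hw
  · push Not at hconst
    obtain ⟨w, hw, a, b, hwab⟩ := hconst
    have hab : a ≠ b := fun h => hwab (by rw [h])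
    right; right
    obtain ⟨c, d, e, hac, hbc, hda, hdb, hdc, hea, heb, hec, hde⟩ := exists_three hα a b
    obtain ⟨u, hu, hua, hud, hue⟩ := C_lemma W hab hac hbc hda hdb hdc hea heb hec hw hwab
    have hpair : ∃ x y : α, x ≠ y ∧ (Pi.single x (1 : K) - Pi.single y (1 : K) : α → K) ∈ W.toSubmodule := by
      by_cases hbc' : u b = u c
      · have h1 := T_lemma W hda.symm hbc hab hac hdb hdc hu hbc'
        rw [hud, sub_zero] at h1
        refine ⟨a, d, hda.symm, ?_⟩
        have h2 := W.toSubmodule.smul_mem (u a)⁻¹ h1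
        rwa [smul_smul, inv_mul_cancel₀ hua, one_smul] at h2
      · have h1 := T_lemma W hbc hde hdb.symm heb.symm hdc.symm hec.symm hu (hud.trans hue.symm)
        refine ⟨b, c, hbc, ?_⟩
        have h2 := W.toSubmodule.smul_mem (u b - u c)⁻¹ h1
        rwa [smul_smul, inv_mul_cancel₀ (sub_ne_zero.mpr hbc'), one_smul] at h2
    obtain ⟨x₁, y₁, hx₁y₁, h₁⟩ := hpair
    have h2t : MulAction.IsMultiplyPretransitive (alternatingGroup α) α 2 := by
      haveI := alternatingGroup.isMultiplyPretransitive α
      have hc : Nat.card α = Fintype.card α := Nat.card_eq_fintype_card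
      exact MulAction.isMultiplyPretransitive_of_le (n := Nat.card α - 2) (by omega) (by omega)
    have hall : ∀ x y : α, x ≠ y →
        (Pi.single x (1 : K) - Pi.single y (1 : K) : α → K) ∈ W.toSubmodule := by
      intro x y hxy
      obtain ⟨g, hgx, hgy⟩ := (MulAction.is_two_pretransitive_iff.mp h2t) hx₁y₁ hxy
      have h3 := W.apply_mem_toSubmodule g h₁
      convert h3 using 1
      funext p
      show _ = (Pi.single x₁ (1 : K) - Pi.single y₁ (1 : K) : α → K) (g⁻¹ • p)
      simp only [Pi.sub_apply, Pi.single_apply]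
      have e1 : (g⁻¹ • p = x₁) ↔ (p = x) := by rw [inv_smul_eq_iff, hgx]
      have e2 : (g⁻¹ • p = y₁) ↔ (p = y) := by rw [inv_smul_eq_iff, hgy]
      simp only [e1, e2]
    have hS : (Cfsg.permSumZero K (alternatingGroup α) α).toSubmodule ≤ W.toSubmodule := by
      intro f hf
      have hf0 : ∑ x, f x = 0 := hf
      have e1 : f = ∑ x, f x • (Pi.single x (1 : K) - Pi.single x₀ (1 : K) : α → K) := by
        funext p
        simp only [Finset.sum_apply, Pi.smul_apply, Pi.sub_apply, Pi.single_apply, smul_eq_mul,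
          mul_sub, Finset.sum_sub_distrib, mul_ite, mul_one, mul_zero, Finset.sum_ite_eq,
          Finset.mem_univ, if_true]
        by_cases hp : p = x₀
        · simp [hp, hf0]
        · simp [hp]
      rw [e1]
      apply Submodule.sum_mem
      intro x _
      by_cases hx : x = x₀
      · rw [hx, sub_self, smul_zero]
        exact W.toSubmodule.zero_mem
      · exact W.toSubmodule.smul_mem _ (hall x x₀ hx)
    by_cases hWS : W.toSubmodule ≤ (Cfsg.permSumZero K (alternatingGroup α) α).toSubmodule
    · left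
      apply Subrepresentation.toSubmodule_injective
      exact le_antisymm hWS hS
    · right
      rw [SetLike.not_le_iff_exists] at hWS
      obtain ⟨w', hw', hs⟩ := hWS
      have hs' : ∑ x, w' x ≠ 0 := hs
      rw [eq_top_iff]
      intro f _
      have e2 : f = (f - ((∑ x, f x) / (∑ x, w' x)) • w') + ((∑ x, f x) / (∑ x, w' x)) • w' := by
        simp
      rw [e2]
      apply W.toSubmodule.add_mem (hS _) (W.toSubmodule.smul_mem _ hw')
      show ∑ x, (f - ((∑ x, f x) / (∑ x, w' x)) • w') x = 0
      simp only [Pi.sub_apply, Pi.smul_apply, smul_eq_mul, Finset.sum_sub_distrib, ← Finset.mul_sum]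
      rw [div_mul_cancel₀ _ hs', sub_self]

end Cfsg.Agent.S0714
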