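import Cfsg.Statements.S0724
-- import your own Cfsg.Agent.* helpers here
import Mathlib.GroupTheory.GroupAction.Quotient
import Mathlib.Algebra.Polynomial.Eval.Degree
import Mathlib.Algebra.Polynomial.BigOperators
import Mathlib.Tactic

set_option autoImplicit false
open Cfsg

namespace Cfsg.Agent.S0724

/-- Blichfeldt's Theorem: if a finite set `L` of natural numbers contains the number of fixed points of every non-identity element of a permutation group `G` of degree `n`, then the order of `G` divides `∏ (n - l)` over `l ∈ L`. -/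
theorem result {α : Type*} [Fintype α] [DecidableEq α] (G : Subgroup (Equiv.Perm α)) (L : Finset ℕ) (hL : ∀ g ∈ G, g ≠ 1 → Nat.card (MulAction.fixedBy α g) ∈ L) : Nat.card G ∣ ∏ l ∈ L, (Fintype.card α - l) := by
  classical
  have hfinG : Fintype G := Fintype.ofFinite G
  set n := Fintype.card α with hn
  have hf1 : Nat.card (MulAction.fixedBy α ((1 : G) : Equiv.Perm α)) = n := by
    rw [Subgroup.coe_one, MulAction.fixedBy_one_eq_univ, Nat.card_coe_set_eq, Set.ncard_univ,
      Nat.card_eq_fintype_card]
  have hfL : ∀ g : G, g ≠ 1 → Nat.card (MulAction.fixedBy α (g : Equiv.Perm α)) ∈ L := by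
    intro g hg
    exact hL g g.2 (fun h => hg (Subtype.ext h))
  have hB : ∀ k : ℕ, (Nat.card G : ℤ) ∣
      ∑ g : G, (Nat.card (MulAction.fixedBy α (g : Equiv.Perm α)) : ℤ) ^ k := by
    intro k
    have h1 := MulAction.sum_card_fixedBy_eq_card_orbits_mul_card_group G (Fin k → α)
    have h2 : ∀ g : G, Fintype.card (MulAction.fixedBy (Fin k → α) g) =
        Nat.card (MulAction.fixedBy α (g : Equiv.Perm α)) ^ k := by
      intro g
      have e : MulAction.fixedBy (Fin k → α) g ≃
          (Fin k → MulAction.fixedBy α (g : Equiv.Perm α)) :=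
        (Equiv.subtypeEquivRight (fun φ => by
            rw [MulAction.mem_fixedBy]
            constructor
            · intro h i
              exact congrFun h i
            · intro h
              funext i
              exact h i)).trans Equiv.subtypePiEquivPi
      rw [← Nat.card_eq_fintype_card, Nat.card_congr e, Nat.card_fun, Nat.card_eq_fintype_card (α := Fin k),
        Fintype.card_fin]
    simp_rw [h2] at h1
    refine ⟨Fintype.card (MulAction.orbitRel.Quotient G (Fin k → α)), ?_⟩
    rw [Nat.card_eq_fintype_card]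
    have h3 := congrArg (fun t : ℕ => (t : ℤ)) h1
    simp only [Nat.cast_sum, Nat.cast_pow, Nat.cast_mul] at h3
    rw [h3, mul_comm]
  have hP : ∀ P : Polynomial ℤ, (Nat.card G : ℤ) ∣
      ∑ g : G, P.eval (Nat.card (MulAction.fixedBy α (g : Equiv.Perm α)) : ℤ) := by
    intro P
    simp_rw [Polynomial.eval_eq_sum_range]
    rw [Finset.sum_comm]
    apply Finset.dvd_sum
    intro i _
    rw [← Finset.mul_sum]
    exact dvd_mul_of_dvd_right (hB i) _
  have hmain : (Nat.card G : ℤ) ∣ ∏ l ∈ L, ((n : ℤ) - (l : ℤ)) := by
    have h1 := hP (∏ l ∈ L, (Polynomial.X - Polynomial.C (l : ℤ)))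
    rw [Finset.sum_eq_single (1 : G)] at h1
    · rw [hf1, Polynomial.eval_prod] at h1
      simpa using h1
    · intro g _ hg
      rw [Polynomial.eval_prod]
      apply Finset.prod_eq_zero (hfL g hg)
      simp
    · intro h
      exact absurd (Finset.mem_univ _) h
  by_cases hall : ∀ l ∈ L, l ≤ n
  · have h1 : ((∏ l ∈ L, (n - l) : ℕ) : ℤ) = ∏ l ∈ L, ((n : ℤ) - (l : ℤ)) := by
      rw [Nat.cast_prod]
      apply Finset.prod_congr rfl
      intro l hl
      rw [Nat.cast_sub (hall l hl)]
    rw [← h1] at hmain
    exact Int.natCast_dvd_natCast.mp hmain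
  · push Not at hall
    obtain ⟨l, hl, hln⟩ := hall
    rw [Finset.prod_eq_zero hl (Nat.sub_eq_zero_of_le hln.le)]
    exact dvd_zero _

end Cfsg.Agent.S0724
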