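import Cfsg.Statements.S0726
-- import your own Cfsg.Agent.* helpers here

set_option autoImplicit false
open Cfsg

namespace Cfsg.Agent.S0726

/-- The left and right regular permutation representations of a group are each other's centralisers in the symmetric group: the centraliser of the left regular image is the right regular image, and a transitive subgroup centralising the left regular image is the whole right regular image. -/
theorem result {G : Type*} [Group G] : Subgroup.centralizer ((MulAction.toPermHom G G).range : Set (Equiv.Perm G)) = (MulAction.toPermHom Gᵐᵒᵖ G).range ∧ ∀ H : Subgroup (Equiv.Perm G), H ≤ Subgroup.centralizer ((MulAction.toPermHom G G).range : Set (Equiv.Perm G)) → MulAction.IsPretransitive H G → H = (MulAction.toPermHom Gᵐᵒᵖ G).range := by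
  have key : ∀ c : Equiv.Perm G, c ∈ Subgroup.centralizer ((MulAction.toPermHom G G).range : Set (Equiv.Perm G)) →
      c = MulAction.toPermHom Gᵐᵒᵖ G (MulOpposite.op (c 1)) := by
    intro c hc
    rw [Subgroup.mem_centralizer_iff] at hc
    ext x
    have h1 := hc (MulAction.toPermHom G G x) ⟨x, rfl⟩
    have h2 := congrArg (fun f : Equiv.Perm G => f 1) h1
    simp only [Equiv.Perm.coe_mul, Function.comp_apply, MulAction.toPermHom_apply, MulAction.toPerm_apply,
      smul_eq_mul, mul_one, op_smul_eq_mul] at h2 ⊢
    exact h2.symm
  have part1 : Subgroup.centralizer ((MulAction.toPermHom G G).range : Set (Equiv.Perm G)) =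
      (MulAction.toPermHom Gᵐᵒᵖ G).range := by
    apply le_antisymm
    · intro c hc
      exact ⟨MulOpposite.op (c 1), (key c hc).symm⟩
    · rintro _ ⟨a, rfl⟩
      rw [Subgroup.mem_centralizer_iff]
      rintro _ ⟨g, rfl⟩
      ext x
      simp only [Equiv.Perm.coe_mul, Function.comp_apply, MulAction.toPermHom_apply, MulAction.toPerm_apply,
        smul_eq_mul]
      induction a using MulOpposite.rec' with
      | h a => simp only [op_smul_eq_mul, mul_assoc]
  refine ⟨part1, ?_⟩
  intro H hH htrans
  apply le_antisymm
  · rw [← part1]; exact hH
  · rintro _ ⟨a, rfl⟩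
    induction a using MulOpposite.rec' with
    | h a =>
      obtain ⟨h, hh⟩ := htrans.exists_smul_eq (1 : G) a
      have h1 := key (h : Equiv.Perm G) (hH h.2)
      have h2 : (h : Equiv.Perm G) 1 = a := hh
      rw [h2] at h1
      rw [← h1]
      exact h.2

end Cfsg.Agent.S0726
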