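import Mathlib
import Cfsg.Statements.S0728
import Cfsg.Agent.Helper18.SharpTrans

set_option autoImplicit false
open Cfsg

namespace Cfsg.Agent.S0728

open Equiv Cfsg.Agent.Helper18.SharpTrans

/-- the number of fixed points of an element of order 3 is congruent to the degree mod 3 -/
theorem fix_mod {α : Type*} [Fintype α] [DecidableEq α] (g : Perm α) (hg : g ^ 3 = 1) :
    (Finset.univ.filter (fun x => g x = x)).card ≡ Fintype.card α [MOD 3] := by
  have : Fact (Nat.Prime 3) := ⟨by norm_num⟩
  have h := Equiv.Perm.card_compl_support_modEq (σ := g) (p := 3) (n := 1)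
    (by rw [pow_one]; exact hg)
  have h2 : (Finset.univ.filter (fun x => g x = x)) = g.supportᶜ := by
    ext x
    simp [Equiv.Perm.mem_support]
  rw [h2]; exact h

theorem cube_apply {α : Type*} (g : Perm α) (hg : g ^ 3 = 1) (x : α) : g (g (g x)) = x := by
  have := congrArg (fun f : Perm α => f x) hg
  simpa [pow_succ, Perm.mul_apply] using this

theorem orbit_inj {α : Type*} (g : Perm α) (hg : g ^ 3 = 1) (x : α) (hx : g x ≠ x) :
    Function.Injective ![x, g x, g (g x)] := by
  apply inj3
  · exact fun h => hx h.symm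
  · intro h
    apply hx
    have h3 := cube_apply g hg x
    rw [← h] at h3
    exact h3
  · intro h
    exact hx (g.injective h).symm

/-- In a sharply triply transitive group of even degree at least 6 (degree `q + 1`, `q` odd), a two-point stabiliser has at most one subgroup of order 3. -/
theorem result {α : Type*} [Fintype α] [DecidableEq α] (heven : Even (Fintype.card α)) (h6 : 6 ≤ Fintype.card α) (G : Subgroup (Equiv.Perm α)) (h3 : MulAction.IsMultiplyPretransitive G α 3) (hsharp : ∀ x : Fin 3 ↪ α, MulAction.stabilizer G x = ⊥) {a b : α} (hab : a ≠ b) (A B : Subgroup G) (hA : A ≤ MulAction.stabilizer G a ⊓ MulAction.stabilizer G b) (hB : B ≤ MulAction.stabilizer G a ⊓ MulAction.stabilizer G b) (hA3 : Nat.card A = 3) (hB3 : Nat.card B = 3) : A = B := by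
  classical
  have hk : 3 ≤ Fintype.card α := by omega
  -- a nonidentity element fixes at most two points
  have hfix_le : ∀ g ∈ G, g ≠ 1 → (Finset.univ.filter (fun x => g x = x)).card ≤ 2 := by
    intro g hg hg1
    by_contra hcon
    push Not at hcon
    obtain ⟨x, y, z, hx, hy, hz, hxy, hxz, hyz⟩ := Finset.two_lt_card_iff.mp hcon
    simp only [Finset.mem_filter, Finset.mem_univ, true_and] at hx hy hz
    apply hg1
    apply psharp G 3 hsharp ![x, y, z] (inj3 hxy hxz hyz) g hg
    intro i
    fin_cases i
    · exact hx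
    · exact hy
    · exact hz
  -- elements of the order 3 subgroups
  have hel : ∀ C : Subgroup G, C ≤ MulAction.stabilizer G a ⊓ MulAction.stabilizer G b →
      Nat.card C = 3 → ∀ x ∈ C, x ≠ 1 →
      ((x : Perm α) ≠ 1 ∧ (x : Perm α) ^ 3 = 1 ∧ (x : Perm α) a = a ∧ (x : Perm α) b = b) := by
    intro C hC hC3 x hx hx1
    refine ⟨fun h => hx1 (Subtype.ext h), ?_, ?_, ?_⟩
    · have h1 : (⟨x, hx⟩ : C) ^ 3 = 1 := by
        rw [← hC3]; exact pow_card_eq_one'
      have h2 : x ^ 3 = 1 := congrArg Subtype.val h1
      exact congrArg Subtype.val h2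
    · have h1 : x ∈ MulAction.stabilizer G a := (hC hx).1
      exact MulAction.mem_stabilizer_iff.mp h1
    · have h1 : x ∈ MulAction.stabilizer G b := (hC hx).2
      exact MulAction.mem_stabilizer_iff.mp h1
  -- the degree is 2 mod 3
  have hmod : Fintype.card α % 3 = 2 := by
    have hne : A ≠ ⊥ := by
      intro h
      rw [h, Subgroup.card_bot] at hA3
      omega
    obtain ⟨x, hx1⟩ := (Subgroup.ne_bot_iff_exists_ne_one).mp hne
    have hx1' : (x : G) ≠ 1 := fun h => hx1 (Subtype.ext h)
    obtain ⟨h1, h2, h3, h4⟩ := hel A hA hA3 x.1 x.2 hx1'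
    have h5 := hfix_le _ x.1.2 h1
    have h6 : 1 < (Finset.univ.filter (fun y => (x.1 : Perm α) y = y)).card := by
      rw [Finset.one_lt_card]
      exact ⟨a, by simp [h3], b, by simp [h4], hab⟩
    have h7 := fix_mod _ h2
    unfold Nat.ModEq at h7
    omega
  have hfix : ∀ g ∈ G, g ≠ 1 → g ^ 3 = 1 → (Finset.univ.filter (fun x => g x = x)).card = 2 := by
    intro g hg hg1 hg3
    have h5 := hfix_le g hg hg1
    have h7 := fix_mod g hg3
    unfold Nat.ModEq at h7
    omega
  -- the set of elements of order 3
  set T : Finset (Perm α) := Finset.univ.filter (fun g : Perm α => g ∈ G ∧ g ≠ 1 ∧ g ^ 3 = 1)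
    with hT
  have hTmem : ∀ g, g ∈ T ↔ (g ∈ G ∧ g ≠ 1 ∧ g ^ 3 = 1) := by
    intro g
    simp [hT]
  -- first count
  set S : Finset (Σ _ : Perm α, α) := T.sigma (fun g => Finset.univ.filter (fun x => ¬ g x = x))
    with hS
  have hS1 : S.card = T.card * (Fintype.card α - 2) := by
    rw [hS, Finset.card_sigma, Finset.sum_const_nat]
    intro g hg
    obtain ⟨hgG, hg1, hg3⟩ := (hTmem g).mp hg
    have h1 := hfix g hgG hg1 hg3
    have h2 := Finset.card_filter_add_card_filter_not (s := (Finset.univ : Finset α))
      (fun x => g x = x)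
    rw [Finset.card_univ] at h2
    omega
  have hS2 : S.card = (Fintype.card α).descFactorial 3 := by
    have h1 : S.card = (Finset.univ : Finset (Fin 3 ↪ α)).card := by
      have hSm : ∀ p ∈ S, p.1 ∈ G ∧ p.1 ≠ 1 ∧ p.1 ^ 3 = 1 ∧ p.1 p.2 ≠ p.2 := by
        intro p hp
        rw [hS, Finset.mem_sigma] at hp
        obtain ⟨hp1, hp2⟩ := hp
        obtain ⟨hgG, hg1, hg3⟩ := (hTmem p.1).mp hp1
        simp only [Finset.mem_filter, Finset.mem_univ, true_and] at hp2
        exact ⟨hgG, hg1, hg3, hp2⟩
      apply Finset.card_bij (fun p hp => (⟨![p.2, p.1 p.2, p.1 (p.1 p.2)],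
        orbit_inj p.1 (hSm p hp).2.2.1 p.2 (hSm p hp).2.2.2⟩ : Fin 3 ↪ α))
      · intro p hp
        exact Finset.mem_univ _
      · rintro ⟨g, x⟩ hp ⟨g', x'⟩ hp' heq
        have h0 := congrArg (fun e : Fin 3 ↪ α => e 0) heq
        have h1 := congrArg (fun e : Fin 3 ↪ α => e 1) heq
        have h2 := congrArg (fun e : Fin 3 ↪ α => e 2) heq
        simp only [Function.Embedding.coeFn_mk, Matrix.cons_val_zero, Matrix.cons_val_one,
          Matrix.cons_val_two, Matrix.head_cons, Matrix.tail_cons] at h0 h1 h2
        obtain ⟨hgG, hg1, hg3, hgx⟩ := hSm _ hp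
        obtain ⟨hgG', hg1', hg3', hgx'⟩ := hSm _ hp'
        dsimp only at hgG hg1 hg3 hgx hgG' hg1' hg3' hgx'
        subst h0
        have hgg : g'⁻¹ * g = 1 := by
          apply psharp G 3 hsharp ![x, g x, g (g x)] (orbit_inj g hg3 x hgx) _
            (G.mul_mem (G.inv_mem hgG') hgG)
          intro i
          fin_cases i
          · show g'⁻¹ (g x) = x
            rw [h1]; simp
          · show g'⁻¹ (g (g x)) = g x
            rw [h2]; simp [h1]
          · show g'⁻¹ (g (g (g x))) = g (g x)
            rw [cube_apply g hg3 x, h2, Perm.inv_eq_iff_eq, cube_apply g' hg3' x]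
        have hgg' : g = g' := by
          have := congrArg (fun t => g' * t) hgg
          simpa using this
        subst hgg'
        rfl
      · intro e _
        have hinj : Function.Injective ![e 0, e 1, e 2] := by
          apply inj3
          · exact fun h => by simpa using e.injective h
          · exact fun h => by simpa using e.injective h
          · exact fun h => by simpa using e.injective h
        have hinj' : Function.Injective ![e 1, e 2, e 0] := by
          apply inj3
          · exact fun h => by simpa using e.injective h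
          · exact fun h => by simpa using e.injective h
          · exact fun h => by simpa using e.injective h
        obtain ⟨g, hgG, hg⟩ := ptrans G 3 hk 3 le_rfl _ _ hinj hinj'
        have hg0 : g (e 0) = e 1 := hg 0
        have hg1 : g (e 1) = e 2 := hg 1
        have hg2 : g (e 2) = e 0 := hg 2
        have hg3 : g ^ 3 = 1 := by
          apply psharp G 3 hsharp ![e 0, e 1, e 2] hinj _ (G.pow_mem hgG 3)
          intro i
          fin_cases i
          · show (g ^ 3) (e 0) = e 0
            simp [pow_succ, Perm.mul_apply, hg0, hg1, hg2]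
          · show (g ^ 3) (e 1) = e 1
            simp [pow_succ, Perm.mul_apply, hg0, hg1, hg2]
          · show (g ^ 3) (e 2) = e 2
            simp [pow_succ, Perm.mul_apply, hg0, hg1, hg2]
        have hne : g (e 0) ≠ e 0 := by
          rw [hg0]
          exact fun h => by simpa using e.injective h
        have hgne : g ≠ 1 := by
          intro h
          apply hne
          rw [h]; rfl
        refine ⟨⟨g, e 0⟩, ?_, ?_⟩
        · rw [hS, Finset.mem_sigma]
          refine ⟨(hTmem g).mpr ⟨hgG, hgne, hg3⟩, ?_⟩
          simp only [Finset.mem_filter, Finset.mem_univ, true_and]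
          exact hne
        · ext i
          fin_cases i
          · rfl
          · exact hg0
          · show g (g (e 0)) = e 2
            rw [hg0, hg1]
    rw [h1, Finset.card_univ, Fintype.card_embedding_eq, Fintype.card_fin]
  have hTcard : T.card = Fintype.card α * (Fintype.card α - 1) := by
    have h1 : (Fintype.card α).descFactorial 3
        = (Fintype.card α * (Fintype.card α - 1)) * (Fintype.card α - 2) := by
      simp only [Nat.descFactorial_succ, Nat.descFactorial_zero, Nat.sub_zero]
      ring
    rw [hS2, h1] at hS1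
    exact (Nat.eq_of_mul_eq_mul_right (by omega) hS1).symm
  -- second count
  set r : Perm α → α × α → Prop := fun g p => g p.1 = p.1 ∧ g p.2 = p.2 with hr
  set O : Finset (α × α) := (Finset.univ : Finset α).offDiag with hO
  have hOcard : O.card = Fintype.card α * (Fintype.card α - 1) := by
    rw [hO, Finset.offDiag_card, Finset.card_univ, Nat.mul_sub, mul_one]
  have hbip := Finset.sum_card_bipartiteAbove_eq_sum_card_bipartiteBelow (s := T) (t := O) r
  have hL : ∀ g ∈ T, (O.bipartiteAbove r g).card = 2 := by
    intro g hg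
    obtain ⟨hgG, hg1, hg3⟩ := (hTmem g).mp hg
    have h1 : O.bipartiteAbove r g = (Finset.univ.filter (fun x => g x = x)).offDiag := by
      ext p
      simp only [Finset.bipartiteAbove, Finset.mem_filter, hO, Finset.mem_offDiag, Finset.mem_univ,
        true_and, hr]
      tauto
    rw [h1, Finset.offDiag_card, hfix g hgG hg1 hg3]
  have hR : ∀ p ∈ O, ∀ q ∈ O, (T.bipartiteBelow r p).card ≤ (T.bipartiteBelow r q).card := by
    rintro ⟨c, d⟩ hp ⟨c', d'⟩ hq
    rw [hO, Finset.mem_offDiag] at hp hq
    have hcd : c ≠ d := hp.2.2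
    have hcd' : c' ≠ d' := hq.2.2
    obtain ⟨h, hhG, hh⟩ := ptrans G 3 hk 2 (by norm_num) ![c, d] ![c', d'] (inj2 hcd) (inj2 hcd')
    have hh0 : h c = c' := hh 0
    have hh1 : h d = d' := hh 1
    apply Finset.card_le_card_of_injOn (fun g => h * g * h⁻¹)
    · intro g hg
      simp only [Finset.bipartiteBelow, Finset.coe_filter, Set.mem_ofPred_eq, hr] at hg ⊢
      obtain ⟨hgT, hgc, hgd⟩ := hg
      obtain ⟨hgG, hg1, hg3⟩ := (hTmem g).mp hgT
      refine ⟨(hTmem _).mpr ⟨G.mul_mem (G.mul_mem hhG hgG) (G.inv_mem hhG), ?_, ?_⟩, ?_, ?_⟩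
      · intro hcon
        apply hg1
        have := congrArg (fun t => h⁻¹ * t * h) hcon
        simpa [mul_assoc] using this
      · rw [conj_pow, hg3, mul_one, mul_inv_cancel]
      · show h (g (h⁻¹ c')) = c'
        rw [← hh0]; simp [hgc]
      · show h (g (h⁻¹ d')) = d'
        rw [← hh1]; simp [hgd]
    · intro g _ g' _ hgg
      have := congrArg (fun t => h⁻¹ * t * h) hgg
      simpa [mul_assoc] using this
  have habO : (a, b) ∈ O := by
    rw [hO, Finset.mem_offDiag]
    exact ⟨Finset.mem_univ _, Finset.mem_univ _, hab⟩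
  set Tab : Finset (Perm α) := T.bipartiteBelow r (a, b) with hTab
  have hTabcard : Tab.card = 2 := by
    rw [Finset.sum_const_nat hL] at hbip
    have h1 : ∀ p ∈ O, (T.bipartiteBelow r p).card = Tab.card := by
      intro p hp
      exact le_antisymm (hR p hp _ habO) (hR _ habO p hp)
    rw [Finset.sum_const_nat h1, hTcard, hOcard] at hbip
    have hpos : 0 < Fintype.card α * (Fintype.card α - 1) := by
      apply Nat.mul_pos <;> omega
    exact (Nat.eq_of_mul_eq_mul_left hpos hbip).symm
  have hTabmem : ∀ C : Subgroup G, C ≤ MulAction.stabilizer G a ⊓ MulAction.stabilizer G b →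
      Nat.card C = 3 → ∀ x ∈ C, x ≠ 1 → (x : Perm α) ∈ Tab := by
    intro C hC hC3 x hx hx1
    obtain ⟨h1, h2, h3, h4⟩ := hel C hC hC3 x hx hx1
    simp only [hTab, Finset.bipartiteBelow, Finset.mem_filter, hr]
    exact ⟨(hTmem _).mpr ⟨x.2, h1, h2⟩, h3, h4⟩
  have main : ∀ C D : Subgroup G, C ≤ MulAction.stabilizer G a ⊓ MulAction.stabilizer G b →
      D ≤ MulAction.stabilizer G a ⊓ MulAction.stabilizer G b →
      Nat.card C = 3 → Nat.card D = 3 → C ≤ D := by
    intro C D hC hD hC3 hD3 x hx
    by_cases hx1 : x = 1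
    · rw [hx1]; exact D.one_mem
    have hne : D ≠ ⊥ := by
      intro h
      rw [h, Subgroup.card_bot] at hD3
      omega
    obtain ⟨y, hy1⟩ := (Subgroup.ne_bot_iff_exists_ne_one).mp hne
    have hy1' : (y : G) ≠ 1 := fun h => hy1 (Subtype.ext h)
    obtain ⟨k1, k2, k3, k4⟩ := hel D hD hD3 y.1 y.2 hy1'
    have hy2 : (y : G) ^ 2 ≠ 1 := by
      intro h
      apply k1
      have h' : ((y : G) : Perm α) ^ 2 = 1 := congrArg Subtype.val h
      have : ((y : G) : Perm α) ^ 3 = ((y : G) : Perm α) := by
        rw [pow_succ, h', one_mul]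
      rw [← this, k2]
    have m1 := hTabmem D hD hD3 y.1 y.2 hy1'
    have m2 := hTabmem D hD hD3 (y.1 ^ 2) (D.pow_mem y.2 2) hy2
    have m3 := hTabmem C hC hC3 x hx hx1
    have hne2 : ((y : G) : Perm α) ≠ (((y : G) ^ 2 : G) : Perm α) := by
      intro h
      apply k1
      have h' : ((y : G) : Perm α) = ((y : G) : Perm α) ^ 2 := h
      have := congrArg (fun t => ((y : G) : Perm α)⁻¹ * t) h'
      simp only [inv_mul_cancel, pow_two, inv_mul_cancel_left] at this
      exact this.symm
    have hsub : ({((y : G) : Perm α), (((y : G) ^ 2 : G) : Perm α)} : Finset (Perm α)) ⊆ Tab := by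
      intro t ht
      rw [Finset.mem_insert, Finset.mem_singleton] at ht
      rcases ht with rfl | rfl
      · exact m1
      · exact m2
    have heq := Finset.eq_of_subset_of_card_le hsub (by
      rw [hTabcard, Finset.card_pair hne2])
    rw [← heq, Finset.mem_insert, Finset.mem_singleton] at m3
    rcases m3 with h | h
    · have : x = y.1 := Subtype.ext h
      rw [this]; exact y.2
    · have : x = y.1 ^ 2 := Subtype.ext h
      rw [this]; exact D.pow_mem y.2 2
  exact le_antisymm (main A B hA hB hA3 hB3) (main B A hB hA hB3 hA3)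

end Cfsg.Agent.S0728
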