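import Cfsg.Statements.S0733
-- import your own Cfsg.Agent.* helpers here
import Mathlib

set_option autoImplicit false
open Cfsg

namespace Cfsg.Agent.S0733

open scoped Pointwise

/-- A permutation group of affine type — generated by the translations of a finite vector space `V` over `ZMod p` together with a group `G₀` of linear automorphisms — is primitive on `V` if and only if `G₀` is irreducible on `V`. -/
theorem result {p : ℕ} [Fact p.Prime] {V : Type*} [AddCommGroup V] [Module (ZMod p) V] [Finite V] [Nontrivial V] (G₀ : Subgroup (V ≃ₗ[ZMod p] V)) (G : Subgroup (Equiv.Perm V)) (hG : ∀ σ : Equiv.Perm V, σ ∈ G ↔ ∃ g ∈ G₀, ∃ b : V, ∀ x : V, σ x = (g : V ≃ₗ[ZMod p] V) x + b) : MulAction.IsPreprimitive G V ↔ ∀ W : Submodule (ZMod p) V, (∀ g ∈ G₀, ∀ v ∈ W, (g : V ≃ₗ[ZMod p] V) v ∈ W) → W = ⊥ ∨ W = ⊤ := by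
  classical
  constructor
  · intro hprim W hW
    have hB : MulAction.IsBlock G (W : Set V) := by
      rw [MulAction.isBlock_iff_smul_eq_of_mem]
      intro σ x hx hσx
      obtain ⟨g, hg, b, hσ⟩ := (hG σ).1 σ.2
      have hbW : b ∈ W := by
        have h1 : (σ : Equiv.Perm V) x ∈ W := hσx
        rw [hσ] at h1
        have h2 := hW g hg x hx
        have h3 := W.sub_mem h1 h2
        rwa [add_sub_cancel_left] at h3
      ext y
      rw [Set.mem_smul_set_iff_inv_smul_mem]
      constructor
      · intro hy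
        have h1 : (σ : Equiv.Perm V) ((σ⁻¹ : G) • y) = y := by
          show (σ : Equiv.Perm V) ((σ : Equiv.Perm V)⁻¹ y) = y
          exact Equiv.apply_symm_apply _ y
        rw [hσ] at h1
        rw [SetLike.mem_coe, ← h1]
        exact W.add_mem (hW g hg _ hy) hbW
      · intro hy
        have h2 : (g : V ≃ₗ[ZMod p] V) ((g⁻¹ : V ≃ₗ[ZMod p] V) (y - b)) = y - b :=
          congrArg (fun e : V ≃ₗ[ZMod p] V => e (y - b)) (mul_inv_cancel g)
        have h1 : (σ⁻¹ : G) • y = (g⁻¹ : V ≃ₗ[ZMod p] V) (y - b) := by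
          show (σ : Equiv.Perm V)⁻¹ y = _
          rw [Equiv.Perm.inv_eq_iff_eq, hσ, h2, sub_add_cancel]
        rw [SetLike.mem_coe, h1]
        exact hW g⁻¹ (G₀.inv_mem hg) _ (W.sub_mem hy hbW)
    rcases hprim.isTrivialBlock_of_isBlock hB with h | h
    · left
      rw [eq_bot_iff]
      intro w hw
      rw [Submodule.mem_bot]
      exact h hw W.zero_mem
    · right
      rw [eq_top_iff]
      intro w _
      have h1 : w ∈ (W : Set V) := by
        rw [h]
        trivial
      exact h1
  · intro hirr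
    have htrans_mem : ∀ v : V, Equiv.addRight v ∈ G := by
      intro v
      rw [hG]
      exact ⟨1, G₀.one_mem, v, fun x => rfl⟩
    have htr : MulAction.IsPretransitive G V := by
      constructor
      intro x y
      refine ⟨⟨Equiv.addRight (y - x), htrans_mem _⟩, ?_⟩
      show x + (y - x) = y
      abel
    apply MulAction.IsPreprimitive.mk
    intro B hB
    by_cases hsub : B.Subsingleton
    · exact Or.inl hsub
    right
    rw [Set.not_subsingleton_iff] at hsub
    obtain ⟨b₀, hb₀, b₁, hb₁, hne⟩ := hsub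
    have key : ∀ σ : Equiv.Perm V, σ ∈ G → ∀ a ∈ B, σ a ∈ B → ∀ x ∈ B, σ x ∈ B := by
      intro σ hσ a ha hσa x hx
      have h := (MulAction.isBlock_iff_smul_eq_of_mem.1 hB) (g := (⟨σ, hσ⟩ : G)) ha hσa
      have h2 : (⟨σ, hσ⟩ : G) • x ∈ (⟨σ, hσ⟩ : G) • B := Set.smul_mem_smul_set hx
      rw [h] at h2
      exact h2
    have hadd : ∀ u v : V, u + b₀ ∈ B → v + b₀ ∈ B → (u + v) + b₀ ∈ B := by
      intro u v hu hv
      have h1 := key (Equiv.addRight v) (htrans_mem v) b₀ hb₀ (by
        show b₀ + v ∈ B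
        rw [add_comm]
        exact hv) (u + b₀) hu
      have h2 : (u + b₀) + v = (u + v) + b₀ := by abel
      rw [← h2]
      exact h1
    let W₀ : AddSubmonoid V :=
      { carrier := {v | v + b₀ ∈ B}
        add_mem' := fun {u v} hu hv => hadd u v hu hv
        zero_mem' := by
          show (0 : V) + b₀ ∈ B
          rw [zero_add]
          exact hb₀ }
    let W : Submodule (ZMod p) V :=
      { W₀ with
        smul_mem' := by
          intro c x hx
          have h1 : c • x = c.val • x := by
            rw [← Nat.cast_smul_eq_nsmul (ZMod p), ZMod.natCast_zmod_val]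
          show c • x ∈ W₀
          rw [h1]
          exact W₀.nsmul_mem hx _ }
    have hWmem : ∀ v, v ∈ W ↔ v + b₀ ∈ B := fun v => Iff.rfl
    have hWinv : ∀ g ∈ G₀, ∀ v ∈ W, (g : V ≃ₗ[ZMod p] V) v ∈ W := by
      intro g hg v hv
      rw [hWmem] at hv ⊢
      have hσ : (g : V ≃ₗ[ZMod p] V).toEquiv.trans (Equiv.addRight (b₀ - g b₀)) ∈ G := by
        rw [hG]
        exact ⟨g, hg, b₀ - g b₀, fun x => rfl⟩
      have h1 := key _ hσ b₀ hb₀ (by
        show g b₀ + (b₀ - g b₀) ∈ B
        rw [add_sub_cancel]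
        exact hb₀) (v + b₀) hv
      have h2 : g (v + b₀) + (b₀ - g b₀) = g v + b₀ := by
        rw [map_add]
        abel
      have h3 : ((g : V ≃ₗ[ZMod p] V).toEquiv.trans (Equiv.addRight (b₀ - g b₀))) (v + b₀) =
          g (v + b₀) + (b₀ - g b₀) := rfl
      rw [h3, h2] at h1
      exact h1
    rcases hirr W hWinv with h | h
    · exfalso
      have h1 : b₁ - b₀ ∈ W := by
        rw [hWmem, sub_add_cancel]
        exact hb₁
      rw [h, Submodule.mem_bot, sub_eq_zero] at h1
      exact hne h1.symm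
    · ext y
      simp only [Set.mem_univ, iff_true]
      have h1 : y - b₀ ∈ W := by
        rw [h]
        trivial
      rw [hWmem, sub_add_cancel] at h1
      exact h1

end Cfsg.Agent.S0733
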