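import Cfsg.Statements.S0734
-- import your own Cfsg.Agent.* helpers here
import Mathlib

set_option autoImplicit false
open Cfsg

namespace Cfsg.Agent.S0734

open scoped Pointwise

/-- Higman's criterion for primitivity: a transitive action on a finite set is primitive if and only if every non-trivial orbital graph (edges = images of a fixed pair of distinct points) is connected. -/
theorem result {G : Type*} [Group G] {Ω : Type*} [Finite Ω] [MulAction G Ω] [MulAction.IsPretransitive G Ω] [Nontrivial Ω] : MulAction.IsPreprimitive G Ω ↔ ∀ a b : Ω, a ≠ b → (SimpleGraph.fromRel fun x y : Ω => ∃ g : G, g • a = x ∧ g • b = y).Connected := by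
  classical
  constructor
  · intro hprim a b hab
    obtain ⟨Γ, hΓ⟩ : ∃ Γ : SimpleGraph Ω,
        Γ = SimpleGraph.fromRel fun x y : Ω => ∃ g : G, g • a = x ∧ g • b = y := ⟨_, rfl⟩
    rw [← hΓ]
    have hadj : ∀ x y, Γ.Adj x y ↔ x ≠ y ∧
        ((∃ g : G, g • a = x ∧ g • b = y) ∨ (∃ g : G, g • a = y ∧ g • b = x)) := by
      intro x y
      rw [hΓ, SimpleGraph.fromRel_adj]
    have K : ∀ (g : G) (u v : Ω), Γ.Reachable u v → Γ.Reachable (g • u) (g • v) := by
      intro g u v huv
      refine huv.map (⟨fun x => g • x, ?_⟩ : Γ →g Γ)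
      intro x y hxy
      rw [hadj] at hxy ⊢
      refine ⟨fun h => hxy.1 (smul_left_cancel g h), ?_⟩
      rcases hxy.2 with ⟨h, h1, h2⟩ | ⟨h, h1, h2⟩
      · left
        exact ⟨g * h, by rw [mul_smul, h1], by rw [mul_smul, h2]⟩
      · right
        exact ⟨g * h, by rw [mul_smul, h1], by rw [mul_smul, h2]⟩
    have hB : MulAction.IsBlock G {x | Γ.Reachable a x} := by
      rw [MulAction.isBlock_iff_smul_eq_of_mem]
      intro g x hx hgx
      have h1 : Γ.Reachable a (g • a) := SimpleGraph.Reachable.trans hgx (K g a x hx).symm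
      ext y
      rw [Set.mem_smul_set_iff_inv_smul_mem]
      constructor
      · intro hy
        have h2 := K g _ _ hy
        rw [smul_inv_smul] at h2
        exact h1.trans h2
      · intro hy
        have h2 := K g⁻¹ _ _ (h1.symm.trans hy)
        rw [inv_smul_smul] at h2
        exact h2
    rcases hprim.isTrivialBlock_of_isBlock hB with h | h
    · exfalso
      have ha : a ∈ {x | Γ.Reachable a x} := SimpleGraph.Reachable.refl a
      have hb : b ∈ {x | Γ.Reachable a x} :=
        SimpleGraph.Adj.reachable ((hadj a b).2 ⟨hab, Or.inl ⟨1, one_smul _ _, one_smul _ _⟩⟩)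
      exact hab (h ha hb)
    · rw [SimpleGraph.connected_iff]
      refine ⟨fun u v => ?_, ⟨a⟩⟩
      have hu : u ∈ {x | Γ.Reachable a x} := by
        rw [h]
        trivial
      have hv : v ∈ {x | Γ.Reachable a x} := by
        rw [h]
        trivial
      exact (SimpleGraph.Reachable.symm hu).trans hv
  · intro hconn
    apply MulAction.IsPreprimitive.mk
    intro B hB
    by_cases hsub : B.Subsingleton
    · exact Or.inl hsub
    right
    rw [Set.not_subsingleton_iff] at hsub
    obtain ⟨a, ha, b, hb, hab⟩ := hsub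
    have hc := hconn a b hab
    obtain ⟨Γ, hΓ⟩ : ∃ Γ : SimpleGraph Ω,
        Γ = SimpleGraph.fromRel fun x y : Ω => ∃ g : G, g • a = x ∧ g • b = y := ⟨_, rfl⟩
    rw [← hΓ] at hc
    have hadj : ∀ x y, Γ.Adj x y ↔ x ≠ y ∧
        ((∃ g : G, g • a = x ∧ g • b = y) ∨ (∃ g : G, g • a = y ∧ g • b = x)) := by
      intro x y
      rw [hΓ, SimpleGraph.fromRel_adj]
    have edge : ∀ u w, Γ.Adj u w → ∀ h : G, u ∈ h • B → w ∈ h • B := by
      intro u w huw h hu
      rw [hadj] at huw
      have aux : ∀ g : G, u ∈ g • B → w ∈ g • B → w ∈ h • B := by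
        intro g hug hwg
        by_contra hcon
        have hne : h • B ≠ g • B := fun e => hcon (e ▸ hwg)
        exact Set.disjoint_left.1 (hB hne) hu hug
      rcases huw.2 with ⟨g, h1, h2⟩ | ⟨g, h1, h2⟩
      · exact aux g (h1 ▸ Set.smul_mem_smul_set ha) (h2 ▸ Set.smul_mem_smul_set hb)
      · exact aux g (h2 ▸ Set.smul_mem_smul_set hb) (h1 ▸ Set.smul_mem_smul_set ha)
    have walk : ∀ u v, Γ.Reachable u v → ∀ h : G, u ∈ h • B → v ∈ h • B := by
      intro u v huv
      obtain ⟨p⟩ := huv
      induction p with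
      | nil =>
        intro h hu
        exact hu
      | cons hadj' p ih =>
        intro h hu
        exact ih h (edge _ _ hadj' h hu)
    ext y
    simp only [Set.mem_univ, iff_true]
    have h3 := walk a y (hc.preconnected a y) 1 (by rw [one_smul]; exact ha)
    rwa [one_smul] at h3

end Cfsg.Agent.S0734
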