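import Cfsg.Statements.S0735
-- import your own Cfsg.Agent.* helpers here

set_option autoImplicit false
open Cfsg

namespace Cfsg.Agent.S0735

open scoped Pointwise

/-- A 2-homogeneous permutation group (transitive on 2-subsets) of even order is doubly transitive; a non-trivial 2-homogeneous group is primitive. -/
theorem result {α : Type*} [Fintype α] [DecidableEq α] (G : Subgroup (Equiv.Perm α)) (h2 : MulAction.IsPretransitive G (Set.powersetCard α 2)) (hα : 3 ≤ Fintype.card α) : (Even (Nat.card G) → MulAction.IsMultiplyPretransitive G α 2) ∧ (G ≠ ⊥ → MulAction.IsPreprimitive G α) := by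
  have hom : ∀ a b c d : α, a ≠ b → c ≠ d →
      ∃ g : G, (g • a = c ∧ g • b = d) ∨ (g • a = d ∧ g • b = c) := by
    intro a b c d hab hcd
    obtain ⟨g, hg⟩ := MulAction.exists_smul_eq G
      (⟨{a, b}, Finset.card_pair hab⟩ : Set.powersetCard α 2) ⟨{c, d}, Finset.card_pair hcd⟩
    refine ⟨g, ?_⟩
    have hg' : g • ({a, b} : Finset α) = {c, d} := by
      have h1 := Set.powersetCard.coe_smul (g := g)
        (s := (⟨{a, b}, Finset.card_pair hab⟩ : Set.powersetCard α 2))
      exact h1.symm.trans (congrArg Subtype.val hg)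
    rw [Finset.smul_finset_insert, Finset.smul_finset_singleton] at hg'
    have h1 : g • a ∈ ({c, d} : Finset α) := by rw [← hg']; simp
    have h2 : g • b ∈ ({c, d} : Finset α) := by rw [← hg']; simp
    have h3 : g • a ≠ g • b := fun h => hab (MulAction.injective g h)
    simp only [Finset.mem_insert, Finset.mem_singleton] at h1 h2
    rcases h1 with h1 | h1 <;> rcases h2 with h2 | h2
    · exact absurd (h1.trans h2.symm) h3
    · exact Or.inl ⟨h1, h2⟩
    · exact Or.inr ⟨h1, h2⟩
    · exact absurd (h1.trans h2.symm) h3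
  constructor
  · intro heven
    have : Fact (Nat.Prime 2) := ⟨Nat.prime_two⟩
    obtain ⟨t, ht⟩ := exists_prime_orderOf_dvd_card' (G := G) 2 heven.two_dvd
    have ht1 : t ≠ 1 := by
      rintro rfl
      rw [orderOf_one] at ht
      omega
    have ht2 : t * t = 1 := by
      rw [← pow_two, ← ht]; exact pow_orderOf_eq_one t
    obtain ⟨c, hc⟩ : ∃ c : α, t • c ≠ c := by
      by_contra hcon
      push Not at hcon
      apply ht1
      apply Subtype.ext
      ext x
      exact hcon x
    have htt : t • (t • c) = c := by rw [← mul_smul, ht2, one_smul]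
    rw [MulAction.is_two_pretransitive_iff]
    intro x y u v hxy huv
    obtain ⟨g₁, hg₁⟩ : ∃ g : G, g • x = c ∧ g • y = t • c := by
      obtain ⟨g, hg | hg⟩ := hom x y c (t • c) hxy (Ne.symm hc)
      · exact ⟨g, hg⟩
      · refine ⟨t * g, ?_, ?_⟩
        · rw [mul_smul, hg.1, htt]
        · rw [mul_smul, hg.2]
    obtain ⟨g₂, hg₂⟩ : ∃ g : G, g • c = u ∧ g • (t • c) = v := by
      obtain ⟨g, hg | hg⟩ := hom c (t • c) u v (Ne.symm hc) huv
      · exact ⟨g, hg⟩
      · refine ⟨g * t, ?_, ?_⟩
        · rw [mul_smul, hg.2]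
        · rw [mul_smul, htt, hg.1]
    refine ⟨g₂ * g₁, ?_, ?_⟩
    · rw [mul_smul, hg₁.1, hg₂.1]
    · rw [mul_smul, hg₁.2, hg₂.2]
  · intro _
    have htrans : MulAction.IsPretransitive G α := by
      constructor
      intro x y
      by_cases hxy : x = y
      · exact ⟨1, by rw [one_smul, hxy]⟩
      · obtain ⟨z, _, hz⟩ : ∃ z ∈ (Finset.univ : Finset α), z ∉ ({x, y} : Finset α) := by
          apply Finset.exists_mem_notMem_of_card_lt_card
          rw [Finset.card_univ, Finset.card_pair hxy]
          omega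
        simp only [Finset.mem_insert, Finset.mem_singleton, not_or] at hz
        obtain ⟨g, hg | hg⟩ := hom x z y z (Ne.symm hz.1) (Ne.symm hz.2)
        · exact ⟨g, hg.1⟩
        · obtain ⟨h, hh | hh⟩ := hom x y y z hxy (Ne.symm hz.2)
          · exact ⟨h, hh.1⟩
          · exact ⟨g * h, by rw [mul_smul, hh.1, hg.2]⟩
    refine { toIsPretransitive := htrans, isTrivialBlock_of_isBlock := ?_ }
    intro B hB
    by_cases hsub : B.Subsingleton
    · exact Or.inl hsub
    · right
      rw [Set.not_subsingleton_iff] at hsub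
      obtain ⟨a, ha, b, hb, hab⟩ := hsub
      rw [Set.eq_univ_iff_forall]
      intro c
      by_contra hc
      have hac : a ≠ c := fun h => hc (h ▸ ha)
      obtain ⟨g, hg⟩ := hom a b a c hab hac
      have hne : (g • B ∩ (1 : G) • B).Nonempty := by
        rw [one_smul]
        rcases hg with hg | hg
        · exact ⟨a, ⟨a, ha, hg.1⟩, ha⟩
        · exact ⟨a, ⟨b, hb, hg.2⟩, ha⟩
      have heq := hB.smul_eq_smul_of_nonempty hne
      rw [one_smul] at heq
      apply hc
      rw [← heq]
      rcases hg with hg | hg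
      · exact ⟨b, hb, hg.2⟩
      · exact ⟨a, ha, hg.1⟩

end Cfsg.Agent.S0735
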