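import Cfsg.Statements.S0736
-- import your own Cfsg.Agent.* helpers here
import Mathlib

set_option autoImplicit false
open Cfsg

namespace Cfsg.Agent.S0736

theorem not_dvd_choose_aux {p a k : ℕ} (hp : p.Prime) (hq : p ^ a ∣ k) :
    ¬ p ∣ (k + (p ^ a - 1)).choose k := by
  rw [Nat.choose_symm_add, Nat.add_choose_eq]
  have hmem : (0, p ^ a - 1) ∈ Finset.HasAntidiagonal.antidiagonal (p ^ a - 1) := by simp
  rw [← Finset.add_sum_erase _ _ hmem]
  have hrest : p ∣ ∑ x ∈ (Finset.HasAntidiagonal.antidiagonal (p ^ a - 1)).erase (0, p ^ a - 1),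
      k.choose x.1 * (p ^ a - 1).choose x.2 := by
    apply Finset.dvd_sum
    rintro ⟨i, j⟩ hij
    rw [Finset.mem_erase, Finset.HasAntidiagonal.mem_antidiagonal] at hij
    obtain ⟨hne, hsum⟩ := hij
    simp only at hsum
    have hi : i ≠ 0 := by
      rintro rfl
      apply hne
      rw [zero_add] at hsum
      rw [hsum]
    have hilt : i < p ^ a := by
      have : 0 < p ^ a := pow_pos hp.pos a
      omega
    apply Dvd.dvd.mul_right
    by_contra hnd
    have hcop : Nat.Coprime (p ^ a) (k.choose i) :=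
      Nat.Coprime.pow_left a ((Nat.Prime.coprime_iff_not_dvd hp).2 hnd)
    obtain ⟨i', rfl⟩ := Nat.exists_eq_succ_of_ne_zero hi
    rcases Nat.eq_zero_or_pos k with hk0 | hk0
    · apply hnd
      rw [hk0, Nat.choose_zero_succ]
      exact dvd_zero p
    obtain ⟨k', rfl⟩ := Nat.exists_eq_succ_of_ne_zero hk0.ne'
    have h1 := Nat.add_one_mul_choose_eq k' i'
    have h2 : p ^ a ∣ (k' + 1).choose (i' + 1) * (i' + 1) := by
      rw [← h1]
      exact Dvd.dvd.mul_right hq _
    have h3 : p ^ a ∣ i' + 1 := hcop.dvd_of_dvd_mul_left h2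
    have := Nat.le_of_dvd (Nat.succ_pos _) h3
    omega
  intro hdvd
  have h1 : p ∣ k.choose 0 * (p ^ a - 1).choose (p ^ a - 1) := (Nat.dvd_add_left hrest).1 hdvd
  rw [Nat.choose_zero_right, Nat.choose_self, mul_one] at h1
  exact hp.one_lt.ne' (Nat.dvd_one.1 h1)

open Classical in
theorem count_core {α : Type*} [Fintype α] [DecidableEq α] (P : Finset α → Prop)
    {k : ℕ} (hk : 1 ≤ k) (c : ℕ)
    (hc : ∀ S : Finset α, S.card = k → (S.filter (fun x => P (S.erase x))).card = c)
    (q : ℕ) (hqn : k + q - 1 ≤ Fintype.card α) (hq1 : 1 ≤ q) :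
    q ∣ (k + (q - 1)).choose k * c := by
  obtain ⟨U, -, hU⟩ := Finset.exists_subset_card_eq (s := (Finset.univ : Finset α))
    (n := k + (q - 1)) (by rw [Finset.card_univ]; omega)
  have h1 : ∑ S ∈ U.powersetCard k, (S.filter (fun x => P (S.erase x))).card =
      (k + (q - 1)).choose k * c := by
    rw [Finset.sum_congr rfl (fun S hS => hc S (Finset.mem_powersetCard.1 hS).2),
      Finset.sum_const, Finset.card_powersetCard, hU, smul_eq_mul]
  have h2 : ∑ T ∈ (U.powersetCard (k - 1)).filter P, (U \ T).card =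
      ((U.powersetCard (k - 1)).filter P).card * q := by
    rw [Finset.sum_const_nat]
    intro T hT
    have hT' := Finset.mem_powersetCard.1 (Finset.mem_filter.1 hT).1
    rw [Finset.card_sdiff_of_subset hT'.1, hU, hT'.2]
    omega
  have h3 : ∑ S ∈ U.powersetCard k, (S.filter (fun x => P (S.erase x))).card =
      ∑ T ∈ (U.powersetCard (k - 1)).filter P, (U \ T).card := by
    rw [← Finset.card_sigma, ← Finset.card_sigma]
    apply Finset.card_nbij' (fun (a : Σ _ : Finset α, α) => (⟨a.1.erase a.2, a.2⟩ : Σ _ : Finset α, α))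
      (fun a => ⟨insert a.2 a.1, a.2⟩)
    · rintro ⟨S, x⟩ h
      simp only [Finset.coe_sigma, Set.mem_sigma_iff, Finset.mem_coe, Finset.mem_powersetCard,
        Finset.mem_filter, Finset.mem_sdiff] at h ⊢
      obtain ⟨⟨hSU, hScard⟩, hxS, hP⟩ := h
      exact ⟨⟨⟨(Finset.erase_subset _ _).trans hSU, by rw [Finset.card_erase_of_mem hxS, hScard]⟩,
        hP⟩, hSU hxS, Finset.notMem_erase _ _⟩
    · rintro ⟨T, y⟩ h
      simp only [Finset.coe_sigma, Set.mem_sigma_iff, Finset.mem_coe, Finset.mem_powersetCard,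
        Finset.mem_filter, Finset.mem_sdiff] at h ⊢
      obtain ⟨⟨⟨hTU, hTcard⟩, hP⟩, hyU, hyT⟩ := h
      exact ⟨⟨Finset.insert_subset hyU hTU, by rw [Finset.card_insert_of_notMem hyT, hTcard]; omega⟩,
        Finset.mem_insert_self _ _, by rw [Finset.erase_insert hyT]; exact hP⟩
    · rintro ⟨S, x⟩ h
      simp only [Finset.coe_sigma, Set.mem_sigma_iff, Finset.mem_coe, Finset.mem_filter] at h
      simp only [Finset.insert_erase h.2.1]
    · rintro ⟨T, y⟩ h
      simp only [Finset.coe_sigma, Set.mem_sigma_iff, Finset.mem_coe, Finset.mem_sdiff] at h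
      simp only [Finset.erase_insert h.2.2]
  rw [← h1, h3, h2]
  exact Dvd.intro_left _ rfl

/-- A `k`-homogeneous permutation group of degree `n`, `k ≥ 2`, with `k + q - 1 ≤ n` for every prime power `q` dividing `k`, is `(k-1)`-homogeneous. -/
theorem result {α : Type*} [Fintype α] [DecidableEq α] (G : Subgroup (Equiv.Perm α)) {k : ℕ} (hk : 2 ≤ k) (hG : MulAction.IsPretransitive G (Set.powersetCard α k)) (hq : ∀ q : ℕ, IsPrimePow q → q ∣ k → k + q - 1 ≤ Fintype.card α) : MulAction.IsPretransitive G (Set.powersetCard α (k - 1)) := by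
  classical
  obtain ⟨p, hp, hpk⟩ := Nat.exists_prime_and_dvd (show k ≠ 1 by omega)
  have hn : k + 1 ≤ Fintype.card α := by
    have h1 := hq p hp.isPrimePow hpk
    have h2 := hp.two_le
    omega
  have hG' : ∀ S S' : Finset α, S.card = k → S'.card = k → ∃ g ∈ G, S.image g = S' := by
    intro S S' hS hS'
    obtain ⟨g, hg⟩ := hG.exists_smul_eq (⟨S, hS⟩ : Set.powersetCard α k) ⟨S', hS'⟩
    refine ⟨g, g.2, ?_⟩
    have h1 := congrArg Subtype.val hg
    exact h1
  constructor
  rintro ⟨T₀, hT₀⟩ ⟨T₁, hT₁⟩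
  rw [Set.powersetCard.mem_iff] at hT₀ hT₁
  obtain ⟨P, hP⟩ : ∃ P : Finset α → Prop, ∀ T, P T ↔ ∃ g ∈ G, T.image g = T₀ :=
    ⟨_, fun T => Iff.rfl⟩
  have hPinv : ∀ (g : Equiv.Perm α), g ∈ G → ∀ T, P (T.image g) ↔ P T := by
    intro g hg T
    rw [hP, hP]
    constructor
    · rintro ⟨h, hh, e⟩
      refine ⟨h * g, G.mul_mem hh hg, ?_⟩
      rw [← e, Finset.image_image]
      rfl
    · rintro ⟨h, hh, e⟩
      refine ⟨h * g⁻¹, G.mul_mem hh (G.inv_mem hg), ?_⟩
      rw [← e, Finset.image_image]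
      congr 1
      ext x
      simp
  have hconst : ∀ S S' : Finset α, S.card = k → S'.card = k →
      (S.filter (fun x => P (S.erase x))).card = (S'.filter (fun x => P (S'.erase x))).card := by
    intro S S' hS hS'
    obtain ⟨g, hg, rfl⟩ := hG' S S' hS hS'
    have h1 : (S.image g).filter (fun x => P ((S.image g).erase x)) =
        (S.filter (fun x => P (S.erase x))).image g := by
      ext y
      simp only [Finset.mem_filter, Finset.mem_image]
      constructor
      · rintro ⟨⟨x, hx, rfl⟩, hP'⟩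
        refine ⟨x, ⟨hx, ?_⟩, rfl⟩
        rw [← Finset.image_erase g.injective] at hP'
        exact (hPinv g hg _).1 hP'
      · rintro ⟨x, ⟨hx, hP'⟩, rfl⟩
        refine ⟨⟨x, hx, rfl⟩, ?_⟩
        rw [← Finset.image_erase g.injective]
        exact (hPinv g hg _).2 hP'
    rw [h1, Finset.card_image_of_injective _ g.injective]
  have hout : ∀ T : Finset α, T.card = k - 1 → ∃ y, y ∉ T := by
    intro T hT
    by_contra hcon
    push Not at hcon
    have h1 : T = Finset.univ := Finset.eq_univ_iff_forall.2 hcon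
    rw [h1, Finset.card_univ] at hT
    omega
  obtain ⟨y, hy⟩ := hout T₀ hT₀
  have hS₀ : (insert y T₀).card = k := by
    rw [Finset.card_insert_of_notMem hy, hT₀]
    omega
  obtain ⟨c, hc_def⟩ : ∃ c, c = ((insert y T₀).filter (fun x => P ((insert y T₀).erase x))).card :=
    ⟨_, rfl⟩
  have hc : ∀ S : Finset α, S.card = k → (S.filter (fun x => P (S.erase x))).card = c :=
    fun S hS => (hconst S _ hS hS₀).trans hc_def.symm
  have hcpos : 0 < c := by
    rw [hc_def, Finset.card_pos]
    refine ⟨y, Finset.mem_filter.2 ⟨Finset.mem_insert_self _ _, ?_⟩⟩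
    rw [Finset.erase_insert hy, hP]
    exact ⟨1, G.one_mem, by simp⟩
  have hcle : c ≤ k := by
    rw [hc_def, ← hS₀]
    exact Finset.card_filter_le _ _
  have hkc : k ∣ c := by
    rw [← Nat.factorization_prime_le_iff_dvd (by omega) hcpos.ne']
    intro p hp
    by_cases hpk : p ∣ k
    · have hq1 : p ^ k.factorization p ∣ k := Nat.ordProj_dvd k p
      have hpos : 0 < k.factorization p := hp.factorization_pos_of_dvd (by omega) hpk
      have hpp : IsPrimePow (p ^ k.factorization p) := hp.isPrimePow.pow hpos.ne'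
      have hn' := hq _ hpp hq1
      have hdvd := count_core P (show 1 ≤ k by omega) c hc (p ^ k.factorization p) hn'
        (pow_pos hp.pos _)
      have hcop : Nat.Coprime (p ^ k.factorization p)
          ((k + (p ^ k.factorization p - 1)).choose k) :=
        Nat.Coprime.pow_left _ ((Nat.Prime.coprime_iff_not_dvd hp).2 (not_dvd_choose_aux hp hq1))
      have h5 := hcop.dvd_of_dvd_mul_left hdvd
      exact (hp.pow_dvd_iff_le_factorization hcpos.ne').1 h5
    · rw [Nat.factorization_eq_zero_of_not_dvd hpk]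
      exact Nat.zero_le _
  have hck : c = k := Nat.le_antisymm hcle (Nat.le_of_dvd hcpos hkc)
  have hall : ∀ T : Finset α, T.card = k - 1 → P T := by
    intro T hT
    obtain ⟨z, hz⟩ := hout T hT
    have hS : (insert z T).card = k := by
      rw [Finset.card_insert_of_notMem hz, hT]
      omega
    have h1 := (hc _ hS).trans (hck.trans hS.symm)
    have h2 := Finset.card_filter_eq_iff.1 h1 z (Finset.mem_insert_self _ _)
    rw [Finset.erase_insert hz] at h2
    exact h2
  obtain ⟨g, hg, e⟩ := (hP _).1 (hall T₁ hT₁)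
  refine ⟨⟨g⁻¹, G.inv_mem hg⟩, ?_⟩
  apply Subtype.ext
  show T₀.image (g⁻¹ : Equiv.Perm α) = T₁
  rw [← e, Finset.image_image]
  have h1 : ((g⁻¹ : Equiv.Perm α) : α → α) ∘ (g : α → α) = id := by
    ext x
    simp
  rw [h1, Finset.image_id]

end Cfsg.Agent.S0736
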