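import Cfsg.Statements.S0738
-- import your own Cfsg.Agent.* helpers here

set_option autoImplicit false
open Cfsg

namespace Cfsg.Agent.S0738

/-- Let a finite Zassenhaus group of degree `n + 1` have two-point stabilisers of order `d` with `2d ≥ n - 1`. Then a normal subgroup of a point stabiliser acting regularly on the remaining points is elementary abelian, and the degree is a prime power plus one. -/
theorem result {G Ω : Type*} [Group G] [Finite G] [MulAction G Ω] [Fintype Ω] (hZ : Cfsg.IsZassenhausGroup G Ω) {a b : Ω} (hab : a ≠ b) (hd : Fintype.card Ω - 2 ≤ 2 * Nat.card ↥(MulAction.stabilizer G a ⊓ MulAction.stabilizer G b)) (F : Subgroup G) (hFle : F ≤ MulAction.stabilizer G a) (hFn : (F.subgroupOf (MulAction.stabilizer G a)).Normal) (hreg : ∀ y z : Ω, y ≠ a → z ≠ a → ∃! u : F, (u : G) • y = z) : IsMulCommutative F ∧ ∃ p f : ℕ, p.Prime ∧ (∀ u ∈ F, u ^ p = 1) ∧ Fintype.card Ω = p ^ f + 1 := by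
  classical
  haveI : Fintype G := Fintype.ofFinite G
  obtain ⟨-, -, h3, -, -⟩ := hZ
  obtain ⟨H, hH⟩ : ∃ H : Subgroup G,
      H = MulAction.stabilizer G a ⊓ MulAction.stabilizer G b := ⟨_, rfl⟩
  rw [← hH] at hd
  have hba : b ≠ a := fun h => hab h.symm
  have hHa : ∀ h ∈ H, h • a = a := by
    intro h hh
    rw [hH] at hh
    exact MulAction.mem_stabilizer_iff.mp (Subgroup.mem_inf.mp hh).1
  have hHb : ∀ h ∈ H, h • b = b := by
    intro h hh
    rw [hH] at hh
    exact MulAction.mem_stabilizer_iff.mp (Subgroup.mem_inf.mp hh).2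
  have hFa : ∀ u ∈ F, u • a = a := fun u hu => MulAction.mem_stabilizer_iff.mp (hFle hu)
  have hFb : ∀ u ∈ F, u ≠ 1 → u • b ≠ b := by
    intro u hu hu1 hub
    obtain ⟨w, -, huniq⟩ := hreg b b hba hba
    have e1 : (⟨u, hu⟩ : F) = w := huniq ⟨u, hu⟩ hub
    have e2 : (1 : F) = w := huniq 1 (one_smul G b)
    apply hu1
    have e3 : (⟨u, hu⟩ : F) = 1 := e1.trans e2.symm
    exact congrArg Subtype.val e3
  have hFba : ∀ u ∈ F, u • b ≠ a := by
    intro u hu h'
    have h2 : u • a = u • b := by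
      rw [hFa u hu]
      exact h'.symm
    exact hab (smul_left_cancel u h2)
  have hconjF : ∀ h ∈ H, ∀ u ∈ F, h * u * h⁻¹ ∈ F := by
    intro h hh u hu
    have hha : h ∈ MulAction.stabilizer G a := by
      rw [hH] at hh
      exact (Subgroup.mem_inf.mp hh).1
    have h1 := hFn.conj_mem ⟨u, hFle hu⟩ (Subgroup.mem_subgroupOf.mpr hu) ⟨h, hha⟩
    exact Subgroup.mem_subgroupOf.mp h1
  have hfpf : ∀ h ∈ H, ∀ u ∈ F, u ≠ 1 → h * u * h⁻¹ = u → h = 1 := by
    intro h hh u hu hu1 hconj
    have hcomm : h * u = u * h := by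
      have h1 : h * u = h * u * h⁻¹ * h := by group
      rw [h1, hconj]
    have hfix : h • (u • b) = u • b := by
      rw [← mul_smul, hcomm, mul_smul, hHb h hh]
    have hne1 : b ≠ u • b := fun h' => hFb u hu hu1 h'.symm
    have hne2 : a ≠ u • b := fun h' => hFba u hu h'.symm
    exact h3 h a b (u • b) hab hne1 hne2 (hHa h hh) (hHb h hh) hfix
  have hconj1 : ∀ h x : G, x ≠ 1 → h * x * h⁻¹ ≠ 1 := by
    intro h x hx hc
    apply hx
    have h1 : x = h⁻¹ * (h * x * h⁻¹) * h := by group
    rw [h1, hc]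
    group
  have hinjconj : ∀ z ∈ F, z ≠ 1 → ∀ h ∈ H, ∀ h' ∈ H,
      h * z * h⁻¹ = h' * z * h'⁻¹ → h = h' := by
    intro z hz hz1 h hh h' hh' h1
    have h2 : (h'⁻¹ * h) * z * (h'⁻¹ * h)⁻¹ = z := by
      have e : (h'⁻¹ * h) * z * (h'⁻¹ * h)⁻¹ = h'⁻¹ * (h * z * h⁻¹) * h' := by group
      rw [e, h1]
      group
    have h3' : h'⁻¹ * h = 1 := hfpf _ (H.mul_mem (H.inv_mem hh') hh) z hz hz1 h2
    calc h = h' * (h'⁻¹ * h) := by group
      _ = h' := by rw [h3', mul_one]
  have hordc : ∀ h x : G, orderOf (h * x * h⁻¹) = orderOf x := by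
    intro h x
    have hs : SemiconjBy h x (h * x * h⁻¹) := by
      unfold SemiconjBy
      group
    exact (SemiconjBy.orderOf_eq h hs).symm
  -- cardinalities
  have hn : Nat.card F + 1 = Fintype.card Ω := by
    have hbij : Function.Bijective
        (fun u : F => (⟨(u : G) • b, hFba u u.2⟩ : {ω : Ω // ω ≠ a})) := by
      constructor
      · intro u u' huu
        have h1 : (u : G) • b = (u' : G) • b := congrArg Subtype.val huu
        obtain ⟨w, -, huniq⟩ := hreg b ((u : G) • b) hba (hFba u u.2)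
        exact (huniq u rfl).trans (huniq u' h1.symm).symm
      · rintro ⟨z, hz⟩
        obtain ⟨w, hw, -⟩ := hreg b z hba hz
        exact ⟨w, Subtype.ext hw⟩
    have h1 : Nat.card F = Nat.card {ω : Ω // ω ≠ a} := Nat.card_eq_of_bijective _ hbij
    have h2 : Fintype.card {ω : Ω // ω ≠ a} = Fintype.card Ω - 1 := by
      rw [Fintype.card_subtype, Finset.filter_ne' Finset.univ a,
        Finset.card_erase_of_mem (Finset.mem_univ a), Finset.card_univ]
    have h3' : 0 < Fintype.card Ω := Fintype.card_pos_iff.mpr ⟨a⟩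
    rw [h1, Nat.card_eq_fintype_card, h2]
    omega
  obtain ⟨n, hnF⟩ : ∃ n : ℕ, n = Nat.card F := ⟨_, rfl⟩
  obtain ⟨d, hdH⟩ : ∃ d : ℕ, d = Nat.card H := ⟨_, rfl⟩
  rw [← hdH] at hd
  rw [← hnF] at hn
  have hn2 : n ≤ 2 * d + 1 := by omega
  have hnpos : 0 < n := by
    rw [hnF]
    exact Nat.card_pos
  -- H-invariant subgroups of F are trivial or everything
  have hK1 : ∀ K : Subgroup G, K ≤ F → (∀ h ∈ H, ∀ x ∈ K, h * x * h⁻¹ ∈ K) →
      (∃ z ∈ K, z ≠ 1) → K = F := by
    intro K hKF hKinv ⟨z, hzK, hz1⟩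
    have hinj : Function.Injective (fun o : Option ↥H =>
        (o.elim (1 : K) (fun h => ⟨(h : G) * z * (h : G)⁻¹, hKinv h h.2 z hzK⟩) : K)) := by
      intro o o' hoo
      cases o with
      | none =>
        cases o' with
        | none => rfl
        | some h' =>
          exfalso
          have h1 : (1 : G) = (h' : G) * z * (h' : G)⁻¹ := congrArg Subtype.val hoo
          exact hconj1 (h' : G) z hz1 h1.symm
      | some h =>
        cases o' with
        | none =>
          exfalso
          have h1 : (h : G) * z * (h : G)⁻¹ = 1 := congrArg Subtype.val hoo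
          exact hconj1 (h : G) z hz1 h1
        | some h' =>
          have h1 : (h : G) * z * (h : G)⁻¹ = (h' : G) * z * (h' : G)⁻¹ :=
            congrArg Subtype.val hoo
          have h4 : (h : G) = (h' : G) :=
            hinjconj z (hKF hzK) hz1 (h : G) h.2 (h' : G) h'.2 h1
          exact congrArg some (Subtype.ext h4)
    have hcard := Nat.card_le_card_of_injective _ hinj
    rw [Finite.card_option, ← hdH] at hcard
    have hdvd : Nat.card K ∣ Nat.card F := Subgroup.card_dvd_of_le hKF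
    rw [← hnF] at hdvd
    obtain ⟨m, hm⟩ := hdvd
    have hm1 : m = 1 := by
      rcases Nat.lt_or_ge m 2 with hlt | hge
      · have hm0 : m ≠ 0 := by
          rintro rfl
          rw [mul_zero] at hm
          omega
        omega
      · exfalso
        have h2 : 2 * Nat.card K ≤ n := by
          rw [hm, mul_comm 2]
          exact Nat.mul_le_mul_left _ hge
        omega
    rw [hm1, mul_one] at hm
    exact Subgroup.eq_of_le_of_card_ge hKF (le_of_eq (by rw [← hnF, hm]))
  -- the non-identity elements of F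
  obtain ⟨F', hF'⟩ : ∃ F' : Finset G,
      F' = (Finset.univ.filter (fun x : G => x ∈ F)).erase 1 := ⟨_, rfl⟩
  have memF' : ∀ x : G, x ∈ F' ↔ x ∈ F ∧ x ≠ 1 := by
    intro x
    rw [hF', Finset.mem_erase, Finset.mem_filter]
    exact ⟨fun h => ⟨h.2.2, h.1⟩, fun h => ⟨h.2, Finset.mem_univ _, h.1⟩⟩
  have cardF' : F'.card = n - 1 := by
    rw [hF', Finset.card_erase_of_mem (Finset.mem_filter.mpr ⟨Finset.mem_univ _, F.one_mem⟩),
      ← Fintype.card_subtype, ← Nat.card_eq_fintype_card, ← hnF]
  obtain ⟨cls, hcls⟩ : ∃ cls : G → Finset G, ∀ z : G,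
      cls z = Finset.univ.image (fun h : ↥H => (h : G) * z * (h : G)⁻¹) :=
    ⟨_, fun _ => rfl⟩
  have memcls : ∀ z x : G, x ∈ cls z ↔ ∃ h ∈ H, h * z * h⁻¹ = x := by
    intro z x
    rw [hcls z, Finset.mem_image]
    constructor
    · rintro ⟨h, -, rfl⟩
      exact ⟨h, h.2, rfl⟩
    · rintro ⟨h, hh, rfl⟩
      exact ⟨⟨h, hh⟩, Finset.mem_univ _, rfl⟩
  have cardcls : ∀ z ∈ F, z ≠ 1 → (cls z).card = d := by
    intro z hz hz1
    have hinj : Function.Injective (fun h : ↥H => (h : G) * z * (h : G)⁻¹) := by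
      intro h h' hh
      exact Subtype.ext (hinjconj z hz hz1 (h : G) h.2 (h' : G) h'.2 hh)
    rw [hcls z, Finset.card_image_of_injective _ hinj, Finset.card_univ,
      ← Nat.card_eq_fintype_card, ← hdH]
  -- elements of prime order all have the same order
  have hK2 : ∀ (p q : ℕ) (u v : G), p.Prime → q.Prime → u ∈ F → v ∈ F →
      orderOf u = p → orderOf v = q → p = q := by
    intro p q u v hp hq hu hv hup hvq
    by_contra hpq
    haveI : Fact q.Prime := ⟨hq⟩
    have hu1 : u ≠ 1 := by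
      rintro rfl
      rw [orderOf_one] at hup
      exact hp.one_lt.ne' hup.symm
    have hv1 : v ≠ 1 := by
      rintro rfl
      rw [orderOf_one] at hvq
      exact hq.one_lt.ne' hvq.symm
    have hdisj : Disjoint (cls u) (cls v) := by
      rw [Finset.disjoint_left]
      intro x hxu hxv
      obtain ⟨h, -, hhx⟩ := (memcls u x).mp hxu
      obtain ⟨h', -, hh'x⟩ := (memcls v x).mp hxv
      have e1 : orderOf (h * u * h⁻¹) = orderOf (h' * v * h'⁻¹) := by rw [hhx, hh'x]
      rw [hordc, hordc, hvq, hup] at e1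
      exact hpq e1
    have hsub : cls u ∪ cls v ⊆ F' := by
      intro x hx
      rw [Finset.mem_union] at hx
      rcases hx with hx | hx
      · obtain ⟨h, hh, hhx⟩ := (memcls u x).mp hx
        rw [← hhx]
        exact (memF' _).mpr ⟨hconjF h hh u hu, hconj1 h u hu1⟩
      · obtain ⟨h, hh, hhx⟩ := (memcls v x).mp hx
        rw [← hhx]
        exact (memF' _).mpr ⟨hconjF h hh v hv, hconj1 h v hv1⟩
    have hcardU : (cls u ∪ cls v).card = 2 * d := by
      rw [Finset.card_union_of_disjoint hdisj, cardcls u hu hu1, cardcls v hv hv1]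
      ring
    have hEq : cls u ∪ cls v = F' :=
      Finset.eq_of_subset_of_card_le hsub (by rw [hcardU, cardF']; omega)
    have hn3 : n = 2 * d + 1 := by
      have h1 := congrArg Finset.card hEq
      rw [hcardU, cardF'] at h1
      omega
    have hordF : ∀ x ∈ F, x ≠ 1 → orderOf x = p ∨ orderOf x = q := by
      intro x hx hx1
      have hxF' : x ∈ F' := (memF' x).mpr ⟨hx, hx1⟩
      rw [← hEq, Finset.mem_union] at hxF'
      rcases hxF' with h' | h'
      · obtain ⟨h, -, hhx⟩ := (memcls u x).mp h'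
        left
        rw [← hhx, hordc, hup]
      · obtain ⟨h, -, hhx⟩ := (memcls v x).mp h'
        right
        rw [← hhx, hordc, hvq]
    have hclsu : ∀ x : G, x ∈ cls u ↔ x ∈ F ∧ orderOf x = p := by
      intro x
      constructor
      · intro hx
        obtain ⟨h, hh, hhx⟩ := (memcls u x).mp hx
        rw [← hhx]
        exact ⟨hconjF h hh u hu, by rw [hordc, hup]⟩
      · rintro ⟨hxF, hxp⟩
        have hx1 : x ≠ 1 := by
          rintro rfl
          rw [orderOf_one] at hxp
          exact hp.one_lt.ne' hxp.symm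
        have hxF' : x ∈ F' := (memF' x).mpr ⟨hxF, hx1⟩
        rw [← hEq, Finset.mem_union] at hxF'
        rcases hxF' with h' | h'
        · exact h'
        · exfalso
          obtain ⟨h, -, hhx⟩ := (memcls v x).mp h'
          rw [← hhx, hordc, hvq] at hxp
          exact hpq hxp.symm
    have hmaps : ∀ x ∈ cls u, v * x * v⁻¹ ∈ cls u := by
      intro x hx
      obtain ⟨hxF, hxp⟩ := (hclsu x).mp hx
      exact (hclsu _).mpr ⟨F.mul_mem (F.mul_mem hv hxF) (F.inv_mem hv), by rw [hordc, hxp]⟩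
    obtain ⟨f, hf⟩ : ∃ f : Function.End {x // x ∈ cls u},
        ∀ x : {x // x ∈ cls u}, ((f x : {x // x ∈ cls u}) : G) = v * x.1 * v⁻¹ :=
      ⟨fun x => ⟨v * x.1 * v⁻¹, hmaps x.1 x.2⟩, fun _ => rfl⟩
    have hfpow : ∀ (k : ℕ) (x : {x // x ∈ cls u}),
        (((f ^ k) x : {x // x ∈ cls u}) : G) = v ^ k * x.1 * (v ^ k)⁻¹ := by
      intro k
      induction k with
      | zero =>
        intro x
        rw [pow_zero, pow_zero]
        show (x : G) = 1 * x.1 * (1 : G)⁻¹
        rw [one_mul, inv_one, mul_one]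
      | succ k ih =>
        intro x
        rw [pow_succ f k]
        show (((f ^ k) (f x) : {x // x ∈ cls u}) : G) = v ^ (k + 1) * x.1 * (v ^ (k + 1))⁻¹
        rw [ih (f x), hf x, pow_succ v k, mul_inv_rev]
        simp only [mul_assoc]
    have hvq' : v ^ q = 1 := by
      rw [← hvq]
      exact pow_orderOf_eq_one v
    have hfq : f ^ q ^ 1 = 1 := by
      funext x
      apply Subtype.ext
      rw [pow_one, hfpow q x, hvq']
      show (1 : G) * x.1 * (1 : G)⁻¹ = x.1
      rw [one_mul, inv_one, mul_one]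
    have hmod := Equiv.Perm.card_fixedPoints_modEq (p := q) (n := 1) hfq
    have hfix0 : ∀ (inst : Fintype ↑(Function.fixedPoints f)),
        @Fintype.card ↑(Function.fixedPoints f) inst = 0 := by
      intro inst
      rw [Fintype.card_eq_zero_iff]
      refine ⟨fun ⟨x, hx⟩ => ?_⟩
      have hx' : f x = x := hx
      have hxv : v * x.1 * v⁻¹ = x.1 := by
        rw [← hf x, hx']
      obtain ⟨hxF, hxp⟩ := (hclsu x.1).mp x.2
      have hcomm : Commute x.1 v := by
        have e : v * x.1 = (v * x.1 * v⁻¹) * v := by group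
        have e2 : x.1 * v = v * x.1 := by rw [e, hxv]
        exact e2
      have hco : (orderOf x.1).Coprime (orderOf v) := by
        rw [hxp, hvq]
        exact (Nat.coprime_primes hp hq).mpr hpq
      have hord := hcomm.orderOf_mul_eq_mul_orderOf_of_coprime hco
      rw [hxp, hvq] at hord
      have h22 : 2 * 2 ≤ p * q := Nat.mul_le_mul hp.two_le hq.two_le
      have hxv1 : x.1 * v ≠ 1 := by
        intro h1
        rw [h1, orderOf_one] at hord
        omega
      rcases hordF (x.1 * v) (F.mul_mem hxF hv) hxv1 with h' | h'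
      · rw [h'] at hord
        have h5 : p * 2 ≤ p * q := Nat.mul_le_mul_left p hq.two_le
        have h6 := hp.pos
        omega
      · rw [h'] at hord
        have h5 : 2 * q ≤ p * q := Nat.mul_le_mul_right q hp.two_le
        have h6 := hq.pos
        omega
    rw [hfix0] at hmod
    have hqd : q ∣ d := by
      have h1 := (Nat.modEq_zero_iff_dvd).mp hmod
      rw [Fintype.card_coe, cardcls u hu hu1] at h1
      exact h1
    have hqn : q ∣ n := by
      have h1 := orderOf_dvd_natCard (⟨v, hv⟩ : F)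
      have h2 : orderOf (⟨v, hv⟩ : F) = q := by
        rw [← Subgroup.orderOf_coe]
        exact hvq
      rw [h2, ← hnF] at h1
      exact h1
    rw [hn3] at hqn
    have hq1 : q ∣ 1 := (Nat.dvd_add_right (Dvd.dvd.mul_left hqd 2)).mp hqn
    exact hq.one_lt.ne' (Nat.dvd_one.mp hq1)
  -- the main argument
  by_cases hn1 : n = 1
  · have hbot : F = ⊥ := Subgroup.eq_bot_of_card_eq F (by rw [← hnF, hn1])
    have hall : ∀ u ∈ F, u = 1 := by
      intro u hu
      rw [hbot] at hu
      exact Subgroup.mem_bot.mp hu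
    refine ⟨⟨⟨fun x y => ?_⟩⟩, 2, 0, Nat.prime_two, ?_, ?_⟩
    · have hx : x = 1 := Subtype.ext (hall x.1 x.2)
      have hy : y = 1 := Subtype.ext (hall y.1 y.2)
      rw [hx, hy]
    · intro u hu
      rw [hall u hu, one_pow]
    · rw [pow_zero]
      omega
  · obtain ⟨p, hp, hpn⟩ := Nat.exists_prime_and_dvd hn1
    haveI : Fact p.Prime := ⟨hp⟩
    obtain ⟨u₀', hu₀'⟩ := exists_prime_orderOf_dvd_card' p
      (show p ∣ Nat.card F by rw [← hnF]; exact hpn)
    obtain ⟨u₀, hu₀F, hu₀p⟩ : ∃ u₀ : G, u₀ ∈ F ∧ orderOf u₀ = p :=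
      ⟨(u₀' : G), u₀'.2, by rw [Subgroup.orderOf_coe]; exact hu₀'⟩
    have hu₀1 : u₀ ≠ 1 := by
      rintro rfl
      rw [orderOf_one] at hu₀p
      exact hp.one_lt.ne' hu₀p.symm
    have hnpow : n = p ^ n.primeFactorsList.length := by
      refine Nat.eq_prime_pow_of_unique_prime_dvd hnpos.ne' ?_
      intro q hq hqn
      haveI : Fact q.Prime := ⟨hq⟩
      obtain ⟨v', hv'⟩ := exists_prime_orderOf_dvd_card' q
        (show q ∣ Nat.card F by rw [← hnF]; exact hqn)
      have hvq : orderOf (v' : G) = q := by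
        rw [Subgroup.orderOf_coe]
        exact hv'
      exact (hK2 p q u₀ (v' : G) hp hq hu₀F v'.2 hu₀p hvq).symm
    have hPG : IsPGroup p F := IsPGroup.of_card (n := n.primeFactorsList.length)
      (by rw [← hnF]; exact hnpow)
    haveI : Nontrivial F := Finite.one_lt_card_iff_nontrivial.mp (by rw [← hnF]; omega)
    haveI := hPG.center_nontrivial
    obtain ⟨z', hz'⟩ := exists_ne (1 : Subgroup.center F)
    obtain ⟨z, hzF, hz1, hzc⟩ : ∃ z : G, z ∈ F ∧ z ≠ 1 ∧ ∀ y ∈ F, z * y = y * z := by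
      refine ⟨((z' : F) : G), (z' : F).2, ?_, ?_⟩
      · intro h
        apply hz'
        exact Subtype.ext (Subtype.ext h)
      · intro y hy
        have h1 := Subgroup.mem_center_iff.mp z'.2 ⟨y, hy⟩
        exact (congrArg Subtype.val h1).symm
    -- F is abelian
    have hZF : F ⊓ Subgroup.centralizer (F : Set G) = F := by
      refine hK1 _ inf_le_left ?_ ⟨z, Subgroup.mem_inf.mpr ⟨hzF, ?_⟩, hz1⟩
      · intro h hh x hx
        obtain ⟨hxF, hxC⟩ := Subgroup.mem_inf.mp hx
        refine Subgroup.mem_inf.mpr ⟨hconjF h hh x hxF, ?_⟩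
        rw [Subgroup.mem_centralizer_iff]
        intro y hy
        have hy' : h⁻¹ * y * h ∈ F := by
          have h5 := hconjF h⁻¹ (H.inv_mem hh) y hy
          rwa [inv_inv] at h5
        have hc := (Subgroup.mem_centralizer_iff.mp hxC) (h⁻¹ * y * h) hy'
        calc y * (h * x * h⁻¹) = h * ((h⁻¹ * y * h) * x) * h⁻¹ := by group
          _ = h * (x * (h⁻¹ * y * h)) * h⁻¹ := by rw [hc]
          _ = h * x * h⁻¹ * y := by group
      · rw [Subgroup.mem_centralizer_iff]
        intro y hy
        exact (hzc y hy).symm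
    have hcomm : ∀ x ∈ F, ∀ y ∈ F, x * y = y * x := by
      intro x hx y hy
      have hxC : x ∈ F ⊓ Subgroup.centralizer (F : Set G) := by
        rw [hZF]
        exact hx
      exact ((Subgroup.mem_centralizer_iff.mp (Subgroup.mem_inf.mp hxC).2) y hy).symm
    -- F has exponent p
    have hKp : ∀ x ∈ F, x ^ p = 1 := by
      let K : Subgroup G :=
        { carrier := {x | x ∈ F ∧ x ^ p = 1}
          mul_mem' := by
            rintro x y ⟨hx, hxp⟩ ⟨hy, hyp⟩
            refine ⟨F.mul_mem hx hy, ?_⟩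
            have hc : Commute x y := hcomm x hx y hy
            rw [hc.mul_pow, hxp, hyp, one_mul]
          one_mem' := ⟨F.one_mem, one_pow p⟩
          inv_mem' := by
            rintro x ⟨hx, hxp⟩
            exact ⟨F.inv_mem hx, by rw [inv_pow, hxp, inv_one]⟩ }
      have hmemK : ∀ x : G, x ∈ K ↔ x ∈ F ∧ x ^ p = 1 := fun x => Iff.rfl
      have hKF : K = F := by
        refine hK1 K (fun x hx => ((hmemK x).mp hx).1) ?_
          ⟨u₀, (hmemK u₀).mpr ⟨hu₀F, ?_⟩, hu₀1⟩
        · intro h hh x hx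
          obtain ⟨hxF, hxp⟩ := (hmemK x).mp hx
          exact (hmemK _).mpr ⟨hconjF h hh x hxF, by rw [conj_pow, hxp, mul_one, mul_inv_cancel]⟩
        · rw [← hu₀p]
          exact pow_orderOf_eq_one _
      intro x hx
      have hxK : x ∈ K := by
        rw [hKF]
        exact hx
      exact ((hmemK x).mp hxK).2
    refine ⟨⟨⟨fun x y => Subtype.ext (hcomm x.1 x.2 y.1 y.2)⟩⟩, p, n.primeFactorsList.length,
      hp, hKp, ?_⟩
    rw [← hn, ← hnpow]

end Cfsg.Agent.S0738
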