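import Cfsg.Statements.S0740
import Cfsg.Agent.Helper29.Wagner

set_option autoImplicit false
open Cfsg

namespace Cfsg.Agent.S0740

theorem inv_fix {G Ω : Type*} [Group G] [MulAction G Ω] [Fintype Ω]
    (h3 : ∀ g : G, ∀ a b c : Ω, a ≠ b → b ≠ c → a ≠ c → g • a = a → g • b = b → g • c = c → g = 1)
    (t : G) (ht : orderOf t = 2) :
    Nat.card (MulAction.fixedBy Ω t) ≤ 2 ∧
      Fintype.card Ω % 2 = Nat.card (MulAction.fixedBy Ω t) % 2 := by
  classical
  have ht1 : t ≠ 1 := by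
    intro h
    rw [h, orderOf_one] at ht
    omega
  have ht2 : t ^ 2 = 1 := by
    rw [← ht]
    exact pow_orderOf_eq_one t
  constructor
  · by_contra hlt
    push Not at hlt
    rw [Nat.card_coe_set_eq] at hlt
    obtain ⟨a, b, c, ha, hb, hc, hab, hac, hbc⟩ := (Set.two_lt_ncard_iff (Set.toFinite _)).1 hlt
    exact ht1 (h3 t a b c hab hbc hac ha hb hc)
  · have hf : (show Function.End Ω from fun x => t • x) ^ 2 ^ 1 = 1 := by
      rw [pow_one, pow_two]
      funext x
      show t • t • x = x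
      rw [smul_smul, ← pow_two, ht2, one_smul]
    have h := Equiv.Perm.card_fixedPoints_modEq (p := 2) (n := 1) hf
    simp only [← Nat.card_eq_fintype_card] at h ⊢
    exact h

/-- In a finite Zassenhaus group any two points `a ≠ b` are swapped by an involution; every such involution has exactly one fixed point when the degree is odd and 0 or 2 fixed points when the degree is even; and if the two-point stabiliser has even order, some such involution has exactly 2 fixed points. -/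
theorem result {G Ω : Type*} [Group G] [Finite G] [MulAction G Ω] [Fintype Ω] (hZ : Cfsg.IsZassenhausGroup G Ω) {a b : Ω} (hab : a ≠ b) : (∃ s : G, orderOf s = 2 ∧ s • a = b ∧ s • b = a) ∧ (∀ s : G, orderOf s = 2 → s • a = b → s • b = a → (Odd (Fintype.card Ω) → Nat.card (MulAction.fixedBy Ω s) = 1) ∧ (Even (Fintype.card Ω) → Nat.card (MulAction.fixedBy Ω s) = 0 ∨ Nat.card (MulAction.fixedBy Ω s) = 2)) ∧ (Even (Fintype.card Ω) → Even (Nat.card ↥(MulAction.stabilizer G a ⊓ MulAction.stabilizer G b)) → ∃ s : G, orderOf s = 2 ∧ s • a = b ∧ s • b = a ∧ Nat.card (MulAction.fixedBy Ω s) = 2) := by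
  classical
obtain ⟨hfaith, h2t, h3, -, -⟩ := hZ
have h2 : ∀ {a b c d : Ω}, a ≠ b → c ≠ d → ∃ g : G, g • a = c ∧ g • b = d := MulAction.is_two_pretransitive_iff.1 h2t
have hL : ∀ t : G, orderOf t = 2 → ∃ s : G, orderOf s = 2 ∧ s • a = b ∧ s • b = a ∧
    Nat.card (MulAction.fixedBy Ω s) = Nat.card (MulAction.fixedBy Ω t) := by
  intro t ht
  have ht1 : t ≠ 1 := by
    intro h
    rw [h, orderOf_one] at ht
    omega
  have ht2 : t ^ 2 = 1 := by
    rw [← ht]
    exact pow_orderOf_eq_one t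
  obtain ⟨c, hc⟩ : ∃ c : Ω, t • c ≠ c := by
    by_contra hcon
    push Not at hcon
    apply ht1
    haveI := hfaith
    exact FaithfulSMul.eq_of_smul_eq_smul (α := Ω) (fun x => by rw [hcon x, one_smul])
  obtain ⟨h, hh1, hh2⟩ := h2 (Ne.symm hc) hab
  refine ⟨h * t * h⁻¹, ?_, ?_, ?_, ?_⟩
  · have h5 := (MulAut.conj h).orderOf_eq t
    rw [MulAut.conj_apply] at h5
    rw [h5, ht]
  · rw [mul_smul, mul_smul, inv_smul_eq_iff.2 hh1.symm, hh2]
  · rw [mul_smul, mul_smul, inv_smul_eq_iff.2 hh2.symm, smul_smul t t c, ← pow_two, ht2,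
      one_smul, hh1]
  · refine Nat.card_congr (Equiv.subtypeEquiv (MulAction.toPerm h⁻¹) (fun x => ?_))
    constructor
    · intro hx
      rw [MulAction.mem_fixedBy] at hx
      show t • h⁻¹ • x = h⁻¹ • x
      exact eq_inv_smul_iff.2 (by rw [← mul_smul, ← mul_smul]; exact hx)
    · intro hx
      have hx' : t • h⁻¹ • x = h⁻¹ • x := hx
      rw [MulAction.mem_fixedBy, mul_smul, mul_smul, hx', smul_inv_smul]
have hinv : ∃ t : G, orderOf t = 2 := by
  obtain ⟨g, hga, hgb⟩ := h2 hab (Ne.symm hab)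
  have hdvd : 2 ∣ orderOf g := by
    by_contra hnd
    have hodd : Odd (orderOf g) := Nat.odd_iff.2 (by omega)
    have h5 := (Cfsg.Agent.Helper29.pow_odd_swap hga hgb hodd).1
    rw [pow_orderOf_eq_one, one_smul] at h5
    exact hab h5
  exact ⟨g ^ (orderOf g / 2), orderOf_pow_orderOf_div (orderOf_pos g).ne' hdvd⟩
refine ⟨?_, ?_, ?_⟩
· obtain ⟨t, ht⟩ := hinv
  obtain ⟨s, hs, hsa, hsb, -⟩ := hL t ht
  exact ⟨s, hs, hsa, hsb⟩
· intro s hs _ _
  obtain ⟨h1, h2'⟩ := inv_fix h3 s hs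
  constructor
  · intro hodd
    have h5 := Nat.odd_iff.1 hodd
    omega
  · intro heven
    have h5 := Nat.even_iff.1 heven
    omega
· intro heven hHeven
  obtain ⟨z, hz⟩ := exists_prime_orderOf_dvd_card' 2 (even_iff_two_dvd.1 hHeven)
  have hz2 : orderOf (z : G) = 2 := by
    rw [Subgroup.orderOf_coe]
    exact hz
  obtain ⟨h1, h2'⟩ := inv_fix h3 (z : G) hz2
  have hza : (z : G) • a = a := z.2.1
  have hpos : 0 < Nat.card (MulAction.fixedBy Ω (z : G)) := by
    rw [Nat.card_coe_set_eq]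
    exact (Set.ncard_pos (Set.toFinite _)).2 ⟨a, hza⟩
  have hcard2 : Nat.card (MulAction.fixedBy Ω (z : G)) = 2 := by
    have h5 := Nat.even_iff.1 heven
    omega
  obtain ⟨s, hs, hsa, hsb, hfix⟩ := hL (z : G) hz2
  exact ⟨s, hs, hsa, hsb, by rw [hfix, hcard2]⟩

end Cfsg.Agent.S0740
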