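import Cfsg.Statements.S0741
-- import your own Cfsg.Agent.* helpers here

set_option autoImplicit false
open Cfsg

namespace Cfsg.Agent.S0741

/-- If the two-point stabilisers of a finite Zassenhaus group of degree `n + 1` have even order `d`, then `2d ≥ n - 1`. -/
theorem result {G Ω : Type*} [Group G] [Finite G] [MulAction G Ω] [Fintype Ω] (hZ : Cfsg.IsZassenhausGroup G Ω) {a b : Ω} (hab : a ≠ b) (heven : Even (Nat.card ↥(MulAction.stabilizer G a ⊓ MulAction.stabilizer G b))) : Fintype.card Ω - 2 ≤ 2 * Nat.card ↥(MulAction.stabilizer G a ⊓ MulAction.stabilizer G b) := by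
  classical
  haveI : Fintype G := Fintype.ofFinite G
  obtain ⟨-, h2t, h3, -, -⟩ := hZ
  rw [MulAction.is_two_pretransitive_iff] at h2t
  haveI : Fact (Nat.Prime 2) := ⟨Nat.prime_two⟩
  -- an involution fixing `a` and `b`
  obtain ⟨t, ht1, htt, hta, htb⟩ : ∃ t : G, t ≠ 1 ∧ t * t = 1 ∧ t • a = a ∧ t • b = b := by
    obtain ⟨t₀, ht₀⟩ := exists_prime_orderOf_dvd_card' 2 (even_iff_two_dvd.mp heven)
    refine ⟨(t₀ : G), ?_, ?_, ?_, ?_⟩
    · intro h
      have h1 : t₀ = 1 := Subtype.ext h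
      rw [h1, orderOf_one] at ht₀
      omega
    · have h := pow_orderOf_eq_one t₀
      rw [ht₀, pow_two] at h
      exact congrArg Subtype.val h
    · exact MulAction.mem_stabilizer_iff.mp (Subgroup.mem_inf.mp t₀.2).1
    · exact MulAction.mem_stabilizer_iff.mp (Subgroup.mem_inf.mp t₀.2).2
  -- choice of elements moving a pair of distinct points to `(a, b)`
  have hγex : ∀ p : Ω × Ω, ∃ g : G, p.1 ≠ p.2 → g • p.1 = a ∧ g • p.2 = b := by
    intro p
    by_cases hp : p.1 = p.2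
    · exact ⟨1, fun h => absurd hp h⟩
    · obtain ⟨g, hg1, hg2⟩ := h2t hp hab
      exact ⟨g, fun _ => ⟨hg1, hg2⟩⟩
  choose γ hγ using hγex
  have hconj1 : ∀ g s : G, s ≠ 1 → g⁻¹ * s * g ≠ 1 := by
    intro g s hs h
    apply hs
    have h1 : s = g * (g⁻¹ * s * g) * g⁻¹ := by group
    rw [h1, h]
    group
  have hconj2 : ∀ g s : G, s ≠ 1 → g * s * g⁻¹ ≠ 1 := by
    intro g s hs h
    apply hs
    have h1 : s = g⁻¹ * (g * s * g⁻¹) * g := by group
    rw [h1, h]
    group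
  have hsq1 : ∀ g s : G, s * s = 1 → g⁻¹ * s * g * (g⁻¹ * s * g) = 1 := by
    intro g s hs
    have h1 : g⁻¹ * s * g * (g⁻¹ * s * g) = g⁻¹ * (s * s) * g := by group
    rw [h1, hs]
    group
  have hsq2 : ∀ g s : G, s * s = 1 → g * s * g⁻¹ * (g * s * g⁻¹) = 1 := by
    intro g s hs
    have h1 : g * s * g⁻¹ * (g * s * g⁻¹) = g * (s * s) * g⁻¹ := by group
    rw [h1, hs]
    group
  -- the finite sets
  obtain ⟨J, hJ⟩ : ∃ J : Finset G, J = Finset.univ.filter (fun s : G => s ≠ 1 ∧ s * s = 1) :=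
    ⟨_, rfl⟩
  have memJ : ∀ s : G, s ∈ J ↔ s ≠ 1 ∧ s * s = 1 := by
    intro s
    rw [hJ, Finset.mem_filter]
    exact ⟨fun h => h.2, fun h => ⟨Finset.mem_univ _, h⟩⟩
  obtain ⟨D, hD⟩ : ∃ D : Finset (Ω × Ω), D = Finset.univ.filter (fun p : Ω × Ω => p.1 ≠ p.2) :=
    ⟨_, rfl⟩
  have memD : ∀ p : Ω × Ω, p ∈ D ↔ p.1 ≠ p.2 := by
    intro p
    rw [hD, Finset.mem_filter]
    exact ⟨fun h => h.2, fun h => ⟨Finset.mem_univ _, h⟩⟩
  obtain ⟨Q, hQ⟩ : ∃ Q : Finset (G × Ω),
      Q = (J ×ˢ (Finset.univ : Finset Ω)).filter (fun q : G × Ω => q.1 • q.2 = q.2) := ⟨_, rfl⟩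
  have memQ : ∀ q : G × Ω, q ∈ Q ↔ q.1 ∈ J ∧ q.1 • q.2 = q.2 := by
    intro q
    rw [hQ, Finset.mem_filter, Finset.mem_product]
    exact ⟨fun h => ⟨h.1.1, h.2⟩, fun h => ⟨⟨h.1, Finset.mem_univ _⟩, h.2⟩⟩
  obtain ⟨P, hP⟩ : ∃ P : Finset (G × Ω),
      P = (J ×ˢ (Finset.univ : Finset Ω)).filter (fun q : G × Ω => ¬ q.1 • q.2 = q.2) :=
    ⟨_, rfl⟩
  have memP : ∀ q : G × Ω, q ∈ P ↔ q.1 ∈ J ∧ ¬ q.1 • q.2 = q.2 := by
    intro q
    rw [hP, Finset.mem_filter, Finset.mem_product]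
    exact ⟨fun h => ⟨h.1.1, h.2⟩, fun h => ⟨⟨h.1, Finset.mem_univ _⟩, h.2⟩⟩
  obtain ⟨Jab, hJab⟩ : ∃ Jab : Finset G, Jab = J.filter (fun s : G => s • a = b) := ⟨_, rfl⟩
  have memJab : ∀ s : G, s ∈ Jab ↔ s ∈ J ∧ s • a = b := by
    intro s
    rw [hJab, Finset.mem_filter]
  -- (1) partition of `J × Ω`
  have hPQ : Q.card + P.card = J.card * Fintype.card Ω := by
    rw [hQ, hP, Finset.card_filter_add_card_filter_not, Finset.card_product, Finset.card_univ]
  -- (2) each non-identity element has at most two fixed points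
  have hfix2 : ∀ s : G, s ≠ 1 → (Finset.univ.filter (fun x : Ω => s • x = x)).card ≤ 2 := by
    intro s hs
    by_contra hcon
    have hcon' : 2 < (Finset.univ.filter (fun x : Ω => s • x = x)).card := by omega
    obtain ⟨x, y, z, hx, hy, hz, hxy, hxz, hyz⟩ := Finset.two_lt_card_iff.mp hcon'
    rw [Finset.mem_filter] at hx hy hz
    exact hs (h3 s x y z hxy hyz hxz hx.2 hy.2 hz.2)
  have hQle : Q.card ≤ 2 * J.card := by
    rw [hQ, Finset.card_filter, Finset.sum_product]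
    calc ∑ s ∈ J, ∑ x : Ω, (if s • x = x then 1 else 0)
        = ∑ s ∈ J, (Finset.univ.filter (fun x : Ω => s • x = x)).card := by
          refine Finset.sum_congr rfl fun s _ => ?_
          rw [Finset.card_filter]
      _ ≤ ∑ s ∈ J, 2 := Finset.sum_le_sum fun s hs => hfix2 s ((memJ s).mp hs).1
      _ = 2 * J.card := by rw [Finset.sum_const, smul_eq_mul, mul_comm]
  -- (3) ordered pairs of distinct points inject into the fixed-point incidences
  have hDle : D.card ≤ Q.card := by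
    refine Finset.card_le_card_of_injOn (fun p : Ω × Ω => ((γ p)⁻¹ * t * γ p, p.1)) ?_ ?_
    · intro p hp
      have hpd : p.1 ≠ p.2 := (memD p).mp hp
      obtain ⟨h1, h2⟩ := hγ p hpd
      refine (memQ _).mpr ⟨(memJ _).mpr ⟨hconj1 _ _ ht1, hsq1 _ _ htt⟩, ?_⟩
      show ((γ p)⁻¹ * t * γ p) • p.1 = p.1
      rw [mul_smul, mul_smul, h1, hta]
      exact inv_smul_eq_iff.mpr h1.symm
    · intro p hp p' hp' heq
      have hpd : p.1 ≠ p.2 := (memD p).mp hp
      have hpd' : p'.1 ≠ p'.2 := (memD p').mp hp'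
      obtain ⟨h1, h2⟩ := hγ p hpd
      obtain ⟨h1', h2'⟩ := hγ p' hpd'
      have heq1 : (γ p)⁻¹ * t * γ p = (γ p')⁻¹ * t * γ p' := congrArg Prod.fst heq
      have heq2 : p.1 = p'.1 := congrArg Prod.snd heq
      have hs1 : ((γ p)⁻¹ * t * γ p) • p.1 = p.1 := by
        rw [mul_smul, mul_smul, h1, hta]
        exact inv_smul_eq_iff.mpr h1.symm
      have hs2 : ((γ p)⁻¹ * t * γ p) • p.2 = p.2 := by
        rw [mul_smul, mul_smul, h2, htb]
        exact inv_smul_eq_iff.mpr h2.symm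
      have hs3 : ((γ p)⁻¹ * t * γ p) • p'.2 = p'.2 := by
        rw [heq1, mul_smul, mul_smul, h2', htb]
        exact inv_smul_eq_iff.mpr h2'.symm
      by_contra hne
      have h22 : p.2 ≠ p'.2 := fun h => hne (Prod.ext heq2 h)
      have h13 : p.1 ≠ p'.2 := by
        rw [heq2]
        exact hpd'
      exact hconj1 (γ p) t ht1 (h3 _ p.1 p.2 p'.2 hpd h22 h13 hs1 hs2 hs3)
  -- (4) the moved incidences inject into pairs of distinct points times `Jab`
  have hPle : P.card ≤ D.card * Jab.card := by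
    rw [← Finset.card_product]
    refine Finset.card_le_card_of_injOn
      (fun q : G × Ω => ((q.2, q.1 • q.2),
        γ (q.2, q.1 • q.2) * q.1 * (γ (q.2, q.1 • q.2))⁻¹)) ?_ ?_
    · intro q hq
      obtain ⟨hqJ, hqne⟩ := (memP q).mp hq
      obtain ⟨hs1, hss⟩ := (memJ q.1).mp hqJ
      have hd : (q.2, q.1 • q.2).1 ≠ (q.2, q.1 • q.2).2 := fun h => hqne h.symm
      obtain ⟨h1, h2⟩ := hγ (q.2, q.1 • q.2) hd
      refine Finset.mem_product.mpr ⟨(memD _).mpr hd,
        (memJab _).mpr ⟨(memJ _).mpr ⟨hconj2 _ _ hs1, hsq2 _ _ hss⟩, ?_⟩⟩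
      show (γ (q.2, q.1 • q.2) * q.1 * (γ (q.2, q.1 • q.2))⁻¹) • a = b
      rw [mul_smul, mul_smul, inv_smul_eq_iff.mpr h1.symm]
      exact h2
    · intro q hq q' hq' heq
      have heq1 : (q.2, q.1 • q.2) = (q'.2, q'.1 • q'.2) := congrArg Prod.fst heq
      have heq2 : γ (q.2, q.1 • q.2) * q.1 * (γ (q.2, q.1 • q.2))⁻¹
          = γ (q'.2, q'.1 • q'.2) * q'.1 * (γ (q'.2, q'.1 • q'.2))⁻¹ := congrArg Prod.snd heq
      rw [← heq1] at heq2
      have h1 : q.1 = q'.1 := mul_left_cancel (mul_right_cancel heq2)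
      have h2 : q.2 = q'.2 := congrArg Prod.fst heq1
      exact Prod.ext h1 h2
  -- (5) the involutions swapping `a` and `b` lie in one coset of the two-point stabiliser
  have hJabH : Jab.card ≤ Nat.card ↥(MulAction.stabilizer G a ⊓ MulAction.stabilizer G b) := by
    by_cases hempty : Jab = ∅
    · rw [hempty, Finset.card_empty]
      exact Nat.zero_le _
    · obtain ⟨τ, hτ⟩ := Finset.nonempty_iff_ne_empty.mpr hempty
      obtain ⟨hτJ, hτa⟩ := (memJab τ).mp hτ
      have hτb : τ • b = a := by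
        have h1 : τ • τ • a = a := by
          rw [← mul_smul, ((memJ τ).mp hτJ).2, one_smul]
        rw [hτa] at h1
        exact h1
      have key : ∀ s ∈ Jab, τ⁻¹ * s ∈ MulAction.stabilizer G a ⊓ MulAction.stabilizer G b := by
        intro s hs
        obtain ⟨hsJ, hsa⟩ := (memJab s).mp hs
        have hsb : s • b = a := by
          have h1 : s • s • a = a := by
            rw [← mul_smul, ((memJ s).mp hsJ).2, one_smul]
          rw [hsa] at h1
          exact h1
        refine Subgroup.mem_inf.mpr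
          ⟨MulAction.mem_stabilizer_iff.mpr ?_, MulAction.mem_stabilizer_iff.mpr ?_⟩
        · rw [mul_smul, hsa]
          exact inv_smul_eq_iff.mpr hτa.symm
        · rw [mul_smul, hsb]
          exact inv_smul_eq_iff.mpr hτb.symm
      rw [← Fintype.card_coe Jab, Nat.card_eq_fintype_card]
      refine Fintype.card_le_of_injective
        (fun s : Jab => (⟨τ⁻¹ * s.1, key s.1 s.2⟩ :
          ↥(MulAction.stabilizer G a ⊓ MulAction.stabilizer G b))) ?_
      intro s s' h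
      have h' : τ⁻¹ * s.1 = τ⁻¹ * s'.1 := congrArg Subtype.val h
      exact Subtype.ext (mul_left_cancel h')
  -- the arithmetic
  have hJpos : 0 < J.card := Finset.card_pos.mpr ⟨t, (memJ t).mpr ⟨ht1, htt⟩⟩
  have hmain : (Fintype.card Ω - 2) * J.card ≤ (2 * Jab.card) * J.card := by
    have e1 : (Fintype.card Ω - 2) * J.card = J.card * Fintype.card Ω - 2 * J.card := by
      rw [Nat.sub_mul, mul_comm (Fintype.card Ω) J.card]
    have e2 : D.card * Jab.card ≤ 2 * J.card * Jab.card :=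
      Nat.mul_le_mul_right _ (hDle.trans hQle)
    rw [e1, ← hPQ]
    calc Q.card + P.card - 2 * J.card ≤ P.card := by omega
      _ ≤ D.card * Jab.card := hPle
      _ ≤ 2 * J.card * Jab.card := e2
      _ = 2 * Jab.card * J.card := by ring
  have hfin : Fintype.card Ω - 2 ≤ 2 * Jab.card := Nat.le_of_mul_le_mul_right hmain hJpos
  exact hfin.trans (Nat.mul_le_mul_left 2 hJabH)

end Cfsg.Agent.S0741
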