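import Cfsg.Statements.S0743
-- import your own Cfsg.Agent.* helpers here
import Mathlib

set_option autoImplicit false
open Cfsg

namespace Cfsg.Agent.S0743

universe u v

theorem gleason_trans {p : ℕ} [Fact p.Prime] {G : Type u} {α : Type v} [Group G] [MulAction G α]
    [Finite α] (k : ℕ) (hkn : k + 1 < Nat.card α)
    (h : ∀ s : Finset α, s.card = k + 1 →
      ∃ P : Subgroup G, IsPGroup p P ∧ MulAction.fixedPoints P α = (s : Set α)) :
    MulAction.IsPretransitive G α := by
  classical
  have := Fintype.ofFinite α
  rw [Nat.card_eq_fintype_card] at hkn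
  have hmod : ∀ (x : α) (s : Finset α), s.card = k + 1 →
      Nat.card (MulAction.orbit G x) ≡
        (s.filter (fun y => y ∈ MulAction.orbit G x)).card [MOD p] := by
    intro x s hs
    obtain ⟨P, hP, hfix⟩ := h s hs
    have h1 := hP.card_modEq_card_fixedPoints (MulAction.orbit G x)
    have h2 : Nat.card (MulAction.fixedPoints P (MulAction.orbit G x)) =
        (s.filter (fun y => y ∈ MulAction.orbit G x)).card := by
      calc Nat.card (MulAction.fixedPoints P (MulAction.orbit G x))
          = (MulAction.fixedPoints P (MulAction.orbit G x)).ncard := Nat.card_coe_set_eq _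
        _ = (Subtype.val '' (MulAction.fixedPoints P (MulAction.orbit G x))).ncard :=
            (Set.ncard_image_of_injective _ Subtype.val_injective).symm
        _ = ((s.filter (fun y => y ∈ MulAction.orbit G x) : Finset α) : Set α).ncard := by
            congr 1
            ext y
            simp only [Set.mem_image, Finset.coe_filter, Set.mem_ofPred_eq]
            constructor
            · rintro ⟨⟨y', hy'⟩, hF, rfl⟩
              refine ⟨?_, hy'⟩
              have h3 : y' ∈ MulAction.fixedPoints P α := by
                intro g
                exact congrArg Subtype.val (hF g)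
              rw [hfix] at h3
              exact h3
            · rintro ⟨hys, hyO⟩
              refine ⟨⟨y, hyO⟩, ?_, rfl⟩
              intro g
              apply Subtype.ext
              have h3 : y ∈ MulAction.fixedPoints P α := by
                rw [hfix]
                exact hys
              exact h3 g
        _ = _ := Set.ncard_coe_finset _
    rw [h2] at h1
    exact h1
  constructor
  intro x y
  by_contra hxy
  have hy : y ∉ MulAction.orbit G x := fun hmem => hxy (MulAction.mem_orbit_iff.1 hmem)
  have hx : x ∈ MulAction.orbit G x := MulAction.mem_orbit_self x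
  have hxy' : x ≠ y := by
    rintro rfl
    exact hy hx
  obtain ⟨R, hRsub, hRcard⟩ := Finset.exists_subset_card_eq
    (s := (Finset.univ : Finset α) \ {x, y}) (n := k) (by
      rw [Finset.card_sdiff_of_subset (Finset.subset_univ _), Finset.card_univ,
        Finset.card_pair hxy']
      omega)
  have hxR : x ∉ R := fun h' => by
    have h5 := hRsub h'
    simp at h5
  have hyR : y ∉ R := fun h' => by
    have h5 := hRsub h'
    simp at h5
  have h1 := hmod x (insert x R) (by rw [Finset.card_insert_of_notMem hxR, hRcard])
  have h2 := hmod x (insert y R) (by rw [Finset.card_insert_of_notMem hyR, hRcard])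
  rw [Finset.filter_insert, if_pos hx, Finset.card_insert_of_notMem
    (fun h' => hxR (Finset.mem_filter.1 h').1)] at h1
  rw [Finset.filter_insert, if_neg hy] at h2
  have h3 : (R.filter (fun y => y ∈ MulAction.orbit G x)).card ≡
      (R.filter (fun y => y ∈ MulAction.orbit G x)).card + 1 [MOD p] := h2.symm.trans h1
  have h4 : p ∣ 1 := by
    have h5 := (Nat.modEq_iff_dvd' (Nat.le_succ _)).1 h3
    simpa using h5
  exact (Fact.out : p.Prime).one_lt.ne' (Nat.dvd_one.1 h4)

theorem gleason_aux {p : ℕ} [Fact p.Prime] (k : ℕ) :
    ∀ {G : Type u} {α : Type v} [Group G] [MulAction G α] [Finite α], k + 1 < Nat.card α →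
      (∀ s : Finset α, s.card = k + 1 →
        ∃ P : Subgroup G, IsPGroup p P ∧ MulAction.fixedPoints P α = (s : Set α)) →
      MulAction.IsMultiplyPretransitive G α (k + 1) := by
  induction k with
  | zero =>
    intro G α _ _ _ hkn h
    rw [MulAction.is_one_pretransitive_iff]
    exact gleason_trans 0 hkn h
  | succ k ih =>
    intro G α _ _ _ hkn h
    classical
    have htr : MulAction.IsPretransitive G α := gleason_trans (k + 1) hkn h
    obtain ⟨a⟩ : Nonempty α := by
      by_contra hne
      rw [not_nonempty_iff] at hne
      rw [Nat.card_of_isEmpty] at hkn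
      omega
    rw [SubMulAction.ofStabilizer.isMultiplyPretransitive (a := a)]
    apply ih
    · have h1 := SubMulAction.nat_card_ofStabilizer_add_one_eq (G := G) a
      omega
    · intro t ht
      have hnot : a ∉ t.map (Function.Embedding.subtype _) := by
        intro hmem
        obtain ⟨z, -, hz⟩ := Finset.mem_map.1 hmem
        exact (SubMulAction.mem_ofStabilizer_iff G a).1 z.2 hz
      obtain ⟨P, hP, hfix⟩ := h (insert a (t.map (Function.Embedding.subtype _))) (by
        rw [Finset.card_insert_of_notMem hnot, Finset.card_map, ht])
      have hPstab : ∀ g ∈ P, g ∈ MulAction.stabilizer G a := by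
        intro g hg
        have h1 : a ∈ MulAction.fixedPoints P α := by
          rw [hfix]
          exact Finset.mem_coe.2 (Finset.mem_insert_self _ _)
        exact h1 ⟨g, hg⟩
      refine ⟨P.subgroupOf (MulAction.stabilizer G a), hP.comap_subtype, ?_⟩
      ext ⟨y, hy⟩
      constructor
      · intro hF
        have hyfix : y ∈ MulAction.fixedPoints P α := by
          intro g
          exact congrArg Subtype.val
            (hF ⟨⟨g, hPstab g g.2⟩, Subgroup.mem_subgroupOf.2 g.2⟩)
        rw [hfix] at hyfix
        rcases Finset.mem_insert.1 (Finset.mem_coe.1 hyfix) with h1 | h1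
        · exact absurd h1 ((SubMulAction.mem_ofStabilizer_iff G a).1 hy)
        · obtain ⟨z, hz, hzy⟩ := Finset.mem_map.1 h1
          have h2 : z = ⟨y, hy⟩ := Subtype.ext hzy
          rw [← h2]
          exact Finset.mem_coe.2 hz
      · intro ht'
        have hyfix : y ∈ MulAction.fixedPoints P α := by
          rw [hfix]
          exact Finset.mem_coe.2 (Finset.mem_insert_of_mem
            (Finset.mem_map.2 ⟨⟨y, hy⟩, Finset.mem_coe.1 ht', rfl⟩))
        intro g
        apply Subtype.ext
        exact hyfix ⟨((g : MulAction.stabilizer G a) : G), Subgroup.mem_subgroupOf.1 g.2⟩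

/-- Gleason's Lemma: let `p` be a prime and `1 ≤ k < n`; if every `k`-subset of the `n` points is exactly the fixed-point set of some `p`-subgroup of `G`, then `G` is `k`-transitive. -/
theorem result {α : Type*} [Fintype α] [DecidableEq α] (G : Subgroup (Equiv.Perm α)) {p k : ℕ} (hp : p.Prime) (hk : 1 ≤ k) (hkn : k < Fintype.card α) (h : ∀ s : Finset α, s.card = k → ∃ P : Subgroup G, IsPGroup p P ∧ MulAction.fixedPoints P α = (s : Set α)) : MulAction.IsMultiplyPretransitive G α k := by
  have : Fact p.Prime := ⟨hp⟩
  obtain ⟨k', rfl⟩ : ∃ k', k = k' + 1 := ⟨k - 1, by omega⟩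
  exact gleason_aux k' (by rw [Nat.card_eq_fintype_card]; exact hkn) h

end Cfsg.Agent.S0743
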