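import Cfsg.Statements.S0744
-- import your own Cfsg.Agent.* helpers here
import Mathlib
import Cfsg.Agent.S0743

set_option autoImplicit false
open Cfsg

namespace Cfsg.Agent.S0744

/-- If for some `k > 1` the pointwise stabilisers of all `(k-1)`-subsets have the same order `> 1` and those of all `k`-subsets have the same order, then the group is `(k-1)`-transitive. -/
theorem result {α : Type*} [Fintype α] [DecidableEq α] (G : Subgroup (Equiv.Perm α)) {k : ℕ} (hk : 1 < k) (hkn : k ≤ Fintype.card α) (l m : ℕ) (hl : 1 < l) (hkm1 : ∀ s : Finset α, s.card = k - 1 → Nat.card (fixingSubgroup G (s : Set α)) = l) (hkm : ∀ s : Finset α, s.card = k → Nat.card (fixingSubgroup G (s : Set α)) = m) : MulAction.IsMultiplyPretransitive G α (k - 1) := by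
  classical
  obtain ⟨s₀, -, hs₀⟩ := Finset.exists_subset_card_eq (s := (Finset.univ : Finset α))
    (n := k - 1) (by rw [Finset.card_univ]; omega)
  obtain ⟨x₀, hx₀⟩ : ∃ x, x ∉ s₀ := by
    by_contra hcon
    push Not at hcon
    have h1 : s₀ = Finset.univ := Finset.eq_univ_iff_forall.2 hcon
    rw [h1, Finset.card_univ] at hs₀
    omega
  have hle : ∀ (s : Finset α) (x : α), fixingSubgroup G ((insert x s : Finset α) : Set α) ≤
      fixingSubgroup G (s : Set α) := by
    intro s x g hg
    rw [mem_fixingSubgroup_iff] at hg ⊢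
    intro y hy
    exact hg y (by rw [Finset.coe_insert]; exact Set.mem_insert_of_mem _ hy)
  have hins : ∀ (s : Finset α) (x : α), s.card = k - 1 → x ∉ s → (insert x s).card = k := by
    intro s x hs hx
    rw [Finset.card_insert_of_notMem hx, hs]
    omega
  have hm_pos : 0 < m := by
    rw [← hkm (insert x₀ s₀) (hins s₀ x₀ hs₀ hx₀)]
    exact Nat.card_pos
  have hml : m ≠ l := by
    intro hml
    have hall : ∀ g ∈ fixingSubgroup G (s₀ : Set α), g = 1 := by
      intro g hg
      apply Subtype.ext
      ext x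
      by_cases hx : x ∈ s₀
      · exact ((mem_fixingSubgroup_iff _).1 hg) x (Finset.mem_coe.2 hx)
      · have heq : fixingSubgroup G ((insert x s₀ : Finset α) : Set α) =
            fixingSubgroup G (s₀ : Set α) := by
          apply Subgroup.eq_of_le_of_card_ge (hle s₀ x)
          rw [hkm1 s₀ hs₀, hkm (insert x s₀) (hins s₀ x hs₀ hx), hml]
        rw [← heq] at hg
        exact ((mem_fixingSubgroup_iff _).1 hg) x (by
          rw [Finset.coe_insert]
          exact Set.mem_insert _ _)
    have hbot : fixingSubgroup G (s₀ : Set α) = ⊥ := (Subgroup.eq_bot_iff_forall _).2 hall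
    have h1 := hkm1 s₀ hs₀
    rw [hbot, Subgroup.card_bot] at h1
    omega
  have hlm : ¬ l ∣ m := by
    intro hdvd
    have h1 := Nat.le_of_dvd hm_pos hdvd
    have h2 : m ≤ l := by
      rw [← hkm (insert x₀ s₀) (hins s₀ x₀ hs₀ hx₀), ← hkm1 s₀ hs₀]
      exact Subgroup.card_le_of_le (hle s₀ x₀)
    exact hml (le_antisymm h2 h1)
  have hl0 : l ≠ 0 := by omega
  obtain ⟨p, hp, hpv⟩ : ∃ p, p.Prime ∧ m.factorization p < l.factorization p := by
    by_contra hcon
    push Not at hcon
    exact hlm ((Nat.factorization_prime_le_iff_dvd hl0 hm_pos.ne').1 hcon)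
  have : Fact p.Prime := ⟨hp⟩
  apply Cfsg.Agent.S0743.result G hp (by omega) (by omega)
  intro s hs
  obtain ⟨P⟩ : Nonempty (Sylow p ↥(fixingSubgroup G (s : Set α))) := inferInstance
  refine ⟨(P : Subgroup ↥(fixingSubgroup G (s : Set α))).map (Subgroup.subtype _),
    P.isPGroup'.map _, ?_⟩
  have hPcard : Nat.card ↥((P : Subgroup ↥(fixingSubgroup G (s : Set α))).map
      (Subgroup.subtype _)) = p ^ l.factorization p := by
    rw [Subgroup.card_map_of_injective (Subgroup.subtype_injective _), P.card_eq_multiplicity,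
      hkm1 s hs]
  ext x
  constructor
  · intro hx
    by_contra hxs
    rw [Finset.mem_coe] at hxs
    have hle2 : (P : Subgroup ↥(fixingSubgroup G (s : Set α))).map (Subgroup.subtype _) ≤
        fixingSubgroup G ((insert x s : Finset α) : Set α) := by
      rintro _ ⟨u, hu, rfl⟩
      rw [mem_fixingSubgroup_iff]
      intro y hy
      rw [Finset.coe_insert] at hy
      rcases hy with hy | hy
      · rw [hy]
        exact hx ⟨_, ⟨u, hu, rfl⟩⟩
      · exact ((mem_fixingSubgroup_iff _).1 u.2) y hy
    have hdvd := Subgroup.card_dvd_of_le hle2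
    rw [hPcard, hkm (insert x s) (hins s x hs hxs)] at hdvd
    have h5 := (hp.pow_dvd_iff_le_factorization hm_pos.ne').1 hdvd
    omega
  · intro hx g
    rcases g with ⟨_, u, hu, rfl⟩
    exact ((mem_fixingSubgroup_iff _).1 u.2) x hx

end Cfsg.Agent.S0744
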