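import Cfsg.Statements.S0752
-- import your own Cfsg.Agent.* helpers here
import Mathlib

set_option autoImplicit false
open Cfsg

namespace Cfsg.Agent.S0752

theorem symp_base {F V : Type*} [Field F] [AddCommGroup V] [Module F V] [FiniteDimensional F V]
    (B : LinearMap.BilinForm F V) (W : Submodule F V) (hW : ∀ u ∈ W, ∀ v ∈ W, B u v = 0) :
    ∃ (m k : ℕ) (e f : Fin m → V) (r : Fin k → V),
      (∀ w ∈ W, w ∈ Submodule.span F (Set.range (Sum.elim (Sum.elim e f) r))) ∧
      (∀ i, e i ∈ W) ∧ (∀ i, f i ∈ W) ∧ (∀ j, r j ∈ W) ∧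
      LinearIndependent F r ∧
      (∀ i j, B (e i) (f j) = if i = j then 1 else 0) ∧
      (∀ i j, B (e i) (e j) = 0) ∧ (∀ i j, B (f i) (f j) = 0) ∧
      (∀ j, ∀ w ∈ W, B (r j) w = 0) := by
  refine ⟨0, Module.finrank F W, Fin.elim0, Fin.elim0,
    fun j => ((Module.finBasis F W j : W) : V), ?_, fun i => i.elim0, fun i => i.elim0,
    fun j => (Module.finBasis F W j).2, ?_, fun i => i.elim0, fun i => i.elim0,
    fun i => i.elim0, fun j w hw => hW _ (Module.finBasis F W j).2 w hw⟩
  · intro w hw
    have h1 := (Module.finBasis F W).sum_repr ⟨w, hw⟩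
    have h2 := congrArg W.subtype h1
    rw [map_sum] at h2
    have h4 : W.subtype ⟨w, hw⟩ = w := rfl
    rw [← h4, ← h2]
    refine Submodule.sum_mem _ (fun j _ => ?_)
    rw [map_smul]
    exact Submodule.smul_mem _ _ (Submodule.subset_span ⟨Sum.inr j, rfl⟩)
  · exact (Module.finBasis F W).linearIndependent.map' W.subtype W.ker_subtype

theorem symp_aux {F V : Type*} [Field F] [AddCommGroup V] [Module F V] [FiniteDimensional F V]
    (B : LinearMap.BilinForm F V) (hA : B.IsAlt) (n : ℕ) :
    ∀ W : Submodule F V, Module.finrank F W ≤ n →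
    ∃ (m k : ℕ) (e f : Fin m → V) (r : Fin k → V),
      (∀ w ∈ W, w ∈ Submodule.span F (Set.range (Sum.elim (Sum.elim e f) r))) ∧
      (∀ i, e i ∈ W) ∧ (∀ i, f i ∈ W) ∧ (∀ j, r j ∈ W) ∧
      LinearIndependent F r ∧
      (∀ i j, B (e i) (f j) = if i = j then 1 else 0) ∧
      (∀ i j, B (e i) (e j) = 0) ∧ (∀ i j, B (f i) (f j) = 0) ∧
      (∀ j, ∀ w ∈ W, B (r j) w = 0) := by
  induction n with
  | zero =>
    intro W hW
    have hbot : W = ⊥ := Submodule.finrank_eq_zero.1 (Nat.le_zero.1 hW)
    apply symp_base B W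
    intro u hu v hv
    rw [hbot, Submodule.mem_bot] at hu
    rw [hu, map_zero, LinearMap.zero_apply]
  | succ n ih =>
    intro W hW
    by_cases hz : ∀ u ∈ W, ∀ v ∈ W, B u v = 0
    · exact symp_base B W hz
    · push Not at hz
      obtain ⟨u, hu, v, hv, huv⟩ := hz
      obtain ⟨f₀, hf₀⟩ : ∃ f₀ : V, f₀ = (B u v)⁻¹ • v := ⟨_, rfl⟩
      have hf₀W : f₀ ∈ W := by
        rw [hf₀]
        exact W.smul_mem _ hv
      have huf : B u f₀ = 1 := by rw [hf₀, map_smul, smul_eq_mul, inv_mul_cancel₀ huv]
      have hfu : B f₀ u = -1 := by rw [← hA.neg_eq u f₀, huf]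
      have huu : B u u = 0 := hA u
      have hff : B f₀ f₀ = 0 := hA f₀
      obtain ⟨W', hW'⟩ : ∃ W' : Submodule F V,
          W' = W ⊓ LinearMap.ker (B u) ⊓ LinearMap.ker (B f₀) := ⟨_, rfl⟩
      have hmemW' : ∀ w, w ∈ W' ↔ w ∈ W ∧ B u w = 0 ∧ B f₀ w = 0 := by
        intro w
        rw [hW', Submodule.mem_inf, Submodule.mem_inf, LinearMap.mem_ker, LinearMap.mem_ker,
          and_assoc]
      have hW'le : W' ≤ W := fun w hw => ((hmemW' w).1 hw).1
      have hlt : W' < W := by
        refine lt_of_le_of_ne hW'le (fun h => ?_)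
        have h1 : f₀ ∈ W' := by
          rw [h]
          exact hf₀W
        have h2 := ((hmemW' f₀).1 h1).2.1
        rw [huf] at h2
        exact one_ne_zero h2
      have hfr : Module.finrank F W' ≤ n := by
        have := Submodule.finrank_lt_finrank_of_lt hlt
        omega
      obtain ⟨m, k, e, f, r, hspan, heW, hfW, hrW, hli, hef, hee, hff', hrad⟩ := ih W' hfr
      have hdec : ∀ w ∈ W, w - B w f₀ • u + B w u • f₀ ∈ W' := by
        intro w hw
        rw [hmemW']
        refine ⟨W.add_mem (W.sub_mem hw (W.smul_mem _ hu)) (W.smul_mem _ hf₀W), ?_, ?_⟩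
        · simp only [map_add, map_sub, map_smul, smul_eq_mul, huu, huf]
          rw [← hA.neg_eq w u]
          ring
        · simp only [map_add, map_sub, map_smul, smul_eq_mul, hfu, hff]
          rw [← hA.neg_eq w f₀]
          ring
      refine ⟨m + 1, k, Fin.cons u e, Fin.cons f₀ f, r, ?_, ?_, ?_, fun j => hW'le (hrW j), hli,
        ?_, ?_, ?_, ?_⟩
      · intro w hw
        have hsub : Submodule.span F (Set.range (Sum.elim (Sum.elim e f) r))
            ≤ Submodule.span F (Set.range
              (Sum.elim (Sum.elim (Fin.cons u e : Fin (m + 1) → V) (Fin.cons f₀ f)) r)) := by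
          apply Submodule.span_mono
          rintro _ ⟨x, rfl⟩
          rcases x with (i | i) | j
          · exact ⟨Sum.inl (Sum.inl i.succ), by simp⟩
          · exact ⟨Sum.inl (Sum.inr i.succ), by simp⟩
          · exact ⟨Sum.inr j, by simp⟩
        have h1 := hsub (hspan _ (hdec w hw))
        have hu' : u ∈ Submodule.span F (Set.range
            (Sum.elim (Sum.elim (Fin.cons u e : Fin (m + 1) → V) (Fin.cons f₀ f)) r)) :=
          Submodule.subset_span ⟨Sum.inl (Sum.inl 0), by simp⟩
        have hf' : f₀ ∈ Submodule.span F (Set.range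
            (Sum.elim (Sum.elim (Fin.cons u e : Fin (m + 1) → V) (Fin.cons f₀ f)) r)) :=
          Submodule.subset_span ⟨Sum.inl (Sum.inr 0), by simp⟩
        have h2 : w = (w - B w f₀ • u + B w u • f₀) + B w f₀ • u - B w u • f₀ := by abel
        rw [h2]
        exact Submodule.sub_mem _ (Submodule.add_mem _ h1 (Submodule.smul_mem _ _ hu'))
          (Submodule.smul_mem _ _ hf')
      · intro i
        refine Fin.cases ?_ (fun i => ?_) i
        · simpa using hu
        · simpa using hW'le (heW i)
      · intro i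
        refine Fin.cases ?_ (fun i => ?_) i
        · simpa using hf₀W
        · simpa using hW'le (hfW i)
      · intro i j
        refine Fin.cases ?_ (fun i => ?_) i <;> refine Fin.cases ?_ (fun j => ?_) j
        · simp [huf]
        · have : B u (f j) = 0 := ((hmemW' _).1 (hfW j)).2.1
          simp [this, (Fin.succ_ne_zero j).symm]
        · have : B (e i) f₀ = 0 := by
            rw [← hA.neg_eq f₀ (e i), ((hmemW' _).1 (heW i)).2.2, neg_zero]
          simp [this, Fin.succ_ne_zero]
        · simp [hef]
      · intro i j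
        refine Fin.cases ?_ (fun i => ?_) i <;> refine Fin.cases ?_ (fun j => ?_) j
        · simpa using huu
        · simpa using ((hmemW' _).1 (heW j)).2.1
        · have : B (e i) u = 0 := by
            rw [← hA.neg_eq u (e i), ((hmemW' _).1 (heW i)).2.1, neg_zero]
          simpa using this
        · simpa using hee i j
      · intro i j
        refine Fin.cases ?_ (fun i => ?_) i <;> refine Fin.cases ?_ (fun j => ?_) j
        · simpa using hff
        · simpa using ((hmemW' _).1 (hfW j)).2.2
        · have : B (f i) f₀ = 0 := by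
            rw [← hA.neg_eq f₀ (f i), ((hmemW' _).1 (hfW i)).2.2, neg_zero]
          simpa using this
        · simpa using hff' i j
      · intro j w hw
        have h1 := hrad j _ (hdec w hw)
        have h2 : B (r j) u = 0 := by
          rw [← hA.neg_eq u (r j), ((hmemW' _).1 (hrW j)).2.1, neg_zero]
        have h3 : B (r j) f₀ = 0 := by
          rw [← hA.neg_eq f₀ (r j), ((hmemW' _).1 (hrW j)).2.2, neg_zero]
        simp only [map_add, map_sub, map_smul, smul_eq_mul, h2, h3, mul_zero, sub_zero,
          add_zero] at h1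
        exact h1

/-- Classification of alternating forms: for an alternating bilinear form B on a finite-dimensional space over any field there is a basis indexed by (Fin m ⊕ Fin m) ⊕ Fin k such that B (e_i, f_j) = δ_ij, the e's are pairwise orthogonal, the f's are pairwise orthogonal, and the last k basis vectors are orthogonal to everything (they span the radical). -/
theorem result {F V : Type*} [Field F] [AddCommGroup V] [Module F V] [FiniteDimensional F V] (B : LinearMap.BilinForm F V) (hA : B.IsAlt) : ∃ (m k : ℕ) (b : Module.Basis ((Fin m ⊕ Fin m) ⊕ Fin k) F V), (∀ i j : Fin m, B (b (Sum.inl (Sum.inl i))) (b (Sum.inl (Sum.inr j))) = if i = j then 1 else 0) ∧ (∀ i j : Fin m, B (b (Sum.inl (Sum.inl i))) (b (Sum.inl (Sum.inl j))) = 0) ∧ (∀ i j : Fin m, B (b (Sum.inl (Sum.inr i))) (b (Sum.inl (Sum.inr j))) = 0) ∧ (∀ (j : Fin k) (v : V), B (b (Sum.inr j)) v = 0) := by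
  obtain ⟨m, k, e, f, r, hspan, -, -, -, hli, hef, hee, hff, hrad⟩ :=
    symp_aux B hA (Module.finrank F V) ⊤ (Submodule.finrank_le _)
  have hrad' : ∀ j w, B (r j) w = 0 := fun j w => hrad j w Submodule.mem_top
  have hfe : ∀ i l, B (f i) (e l) = -(if l = i then 1 else 0) := by
    intro i l
    rw [← hA.neg_eq (e l) (f i), hef]
  have hli' : LinearIndependent F (Sum.elim (Sum.elim e f) r) := by
    rw [Fintype.linearIndependent_iff]
    intro g hg
    rw [Fintype.sum_sum_type, Fintype.sum_sum_type] at hg
    simp only [Sum.elim_inl, Sum.elim_inr] at hg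
    have h1 : ∀ l, g (Sum.inl (Sum.inl l)) = 0 := by
      intro l
      have := congrArg (fun x => B x (f l)) hg
      simpa [hef, hff, hrad'] using this
    have h2 : ∀ l, g (Sum.inl (Sum.inr l)) = 0 := by
      intro l
      have := congrArg (fun x => B x (e l)) hg
      simpa [hee, hfe, hrad'] using this
    have h3 : ∑ j, g (Sum.inr j) • r j = 0 := by simpa [h1, h2] using hg
    have h4 := Fintype.linearIndependent_iff.1 hli _ h3
    rintro ((i | i) | j)
    · exact h1 i
    · exact h2 i
    · exact h4 j
  have hsp : ⊤ ≤ Submodule.span F (Set.range (Sum.elim (Sum.elim e f) r)) :=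
    fun w _ => hspan w Submodule.mem_top
  refine ⟨m, k, Module.Basis.mk hli' hsp, ?_, ?_, ?_, ?_⟩
  · intro i j
    rw [Module.Basis.mk_apply, Module.Basis.mk_apply]
    exact hef i j
  · intro i j
    rw [Module.Basis.mk_apply, Module.Basis.mk_apply]
    exact hee i j
  · intro i j
    rw [Module.Basis.mk_apply, Module.Basis.mk_apply]
    exact hff i j
  · intro j v
    rw [Module.Basis.mk_apply]
    exact hrad' j v

end Cfsg.Agent.S0752
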