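import Cfsg.Statements.S0753
-- import your own Cfsg.Agent.* helpers here

set_option autoImplicit false
open Cfsg

namespace Cfsg.Agent.S0753

/-- If σ is a ring endomorphism of the field F other than the identity and B is a σ-sesquilinear conjugate-symmetric form with B v v = 0 for every v, then B = 0. -/
theorem result {F V : Type*} [Field F] [AddCommGroup V] [Module F V] (σ : F →+* F) (hσ : σ ≠ RingHom.id F) (B : V →ₛₗ[σ] V →ₗ[F] F) (hS : B.IsSymm) (h0 : ∀ v : V, B v v = 0) : B = 0 := by
  have hsymm : ∀ x y : V, σ (B x y) = B y x := fun x y => hS.eq x y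
  have hpol : ∀ x y : V, B x y + B y x = 0 := by
    intro x y
    have h := h0 (x + y)
    simp only [map_add, LinearMap.add_apply, h0, zero_add, add_zero] at h
    rw [add_comm]; exact h
  obtain ⟨a, ha⟩ : ∃ a : F, σ a ≠ a := by
    by_contra hcon
    push Not at hcon
    exact hσ (RingHom.ext hcon)
  ext x y
  simp only [LinearMap.zero_apply]
  have h1 := hpol x y
  have h2 := hpol x (a • y)
  rw [← hsymm x (a • y)] at h2
  rw [← hsymm x y] at h1
  simp only [map_smul, smul_eq_mul, map_mul] at h2
  have h3 : σ (B x y) = - B x y := by linear_combination h1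
  rw [h3] at h2
  have h4 : (a - σ a) * B x y = 0 := by linear_combination h2
  rcases mul_eq_zero.mp h4 with h5 | h5
  · exact absurd (sub_eq_zero.mp h5).symm ha
  · exact h5

end Cfsg.Agent.S0753
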