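import Cfsg.Statements.S0754
-- import your own Cfsg.Agent.* helpers here

set_option autoImplicit false
open Cfsg

namespace Cfsg.Agent.S0754

/-- In a field F with q^2 elements, every non-zero μ with μ^q = μ (that is, μ in the subfield of order q) has exactly q + 1 solutions λ of λ^(q+1) = μ. -/
theorem result {F : Type*} [Field F] [Fintype F] {q : ℕ} (hF : Fintype.card F = q ^ 2) (μ : F) (hμ : μ ≠ 0) (hμq : μ ^ q = μ) : Nat.card {x : F // x ^ (q + 1) = μ} = q + 1 := by
  classical
  have hq2 : 2 ≤ q := by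
    by_contra h
    have h1 : q ≤ 1 := by omega
    have h2 : q ^ 2 ≤ 1 := by
      interval_cases q <;> simp
    have h3 := Fintype.one_lt_card (α := F)
    omega
  have hid : (q + 1) * (q - 1) = q ^ 2 - 1 := by
    obtain ⟨k, rfl⟩ : ∃ k, q = k + 1 := ⟨q - 1, by omega⟩
    have : (k + 1) ^ 2 = (k + 1 + 1) * k + 1 := by ring
    rw [Nat.add_sub_cancel]
    omega
  set Fnz : Finset F := Finset.univ.filter (fun x => x ≠ 0) with hFnz
  set Kst : Finset F := Finset.univ.filter (fun y => y ≠ 0 ∧ y ^ (q - 1) = 1) with hKst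
  have hcardFnz : Fnz.card = q ^ 2 - 1 := by
    rw [hFnz, Finset.filter_ne', Finset.card_erase_of_mem (Finset.mem_univ _), Finset.card_univ, hF]
  have hroots : ∀ (n : ℕ) (a : F), 0 < n → (Finset.univ.filter (fun x : F => x ^ n = a)).card ≤ n := by
    intro n a hn
    have hsub : Finset.univ.filter (fun x : F => x ^ n = a) ⊆ (Polynomial.nthRoots n a).toFinset := by
      intro x hx
      rw [Finset.mem_filter] at hx
      rw [Multiset.mem_toFinset, Polynomial.mem_nthRoots hn]
      exact hx.2
    calc (Finset.univ.filter (fun x : F => x ^ n = a)).card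
        ≤ (Polynomial.nthRoots n a).toFinset.card := Finset.card_le_card hsub
      _ ≤ Multiset.card (Polynomial.nthRoots n a) := Multiset.toFinset_card_le _
      _ ≤ n := Polynomial.card_nthRoots n a
  have hKcard : Kst.card ≤ q - 1 := by
    refine le_trans (Finset.card_le_card ?_) (hroots (q - 1) 1 (by omega))
    intro y hy
    rw [hKst, Finset.mem_filter] at hy
    rw [Finset.mem_filter]
    exact ⟨hy.1, hy.2.2⟩
  have hmap : (Fnz : Set F).MapsTo (fun x => x ^ (q + 1)) Kst := by
    intro x hx
    rw [Finset.mem_coe, hFnz, Finset.mem_filter] at hx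
    rw [Finset.mem_coe, hKst, Finset.mem_filter]
    refine ⟨Finset.mem_univ _, pow_ne_zero _ hx.2, ?_⟩
    rw [← pow_mul, hid]
    have h1 := FiniteField.pow_card_sub_one_eq_one x hx.2
    rw [hF] at h1
    exact h1
  have hsum := Finset.card_eq_sum_card_fiberwise hmap
  have hμK : μ ∈ Kst := by
    rw [hKst, Finset.mem_filter]
    refine ⟨Finset.mem_univ _, hμ, ?_⟩
    have h1 : μ ^ (q - 1) * μ = 1 * μ := by
      rw [← pow_succ, one_mul, Nat.sub_add_cancel (by omega)]; exact hμq
    exact mul_right_cancel₀ hμ h1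
  have hfib : ∀ b ∈ Kst, (Fnz.filter (fun a => a ^ (q + 1) = b)).card ≤
      (Finset.univ.filter (fun x : F => x ^ (q + 1) = b)).card := by
    intro b _
    apply Finset.card_le_card
    intro a ha
    rw [Finset.mem_filter] at ha ⊢
    exact ⟨Finset.mem_univ _, ha.2⟩
  have hle := hroots (q + 1) μ (by omega)
  rw [Nat.card_eq_fintype_card, Fintype.card_subtype]
  by_contra hne
  have hlt : (Finset.univ.filter (fun x : F => x ^ (q + 1) = μ)).card ≤ q := by omega
  have hbound : ∑ b ∈ Kst, (Fnz.filter (fun a => a ^ (q + 1) = b)).card < Kst.card * (q + 1) := by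
    rw [← smul_eq_mul, ← Finset.sum_const]
    apply Finset.sum_lt_sum
    · intro b hb
      exact (hfib b hb).trans (hroots (q + 1) b (by omega))
    · exact ⟨μ, hμK, lt_of_le_of_lt ((hfib μ hμK).trans hlt) (by omega)⟩
  have h3 : Kst.card * (q + 1) ≤ (q - 1) * (q + 1) := Nat.mul_le_mul_right _ hKcard
  rw [Nat.mul_comm (q - 1) (q + 1), hid] at h3
  omega

end Cfsg.Agent.S0754
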