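import Cfsg.Statements.S0755
import Cfsg.Agent.Helper6.Herm

set_option autoImplicit false
open Cfsg

namespace Cfsg.Agent.S0755

open Module

theorem exists_unit_vector {F V : Type*} [Field F] [Finite F] [AddCommGroup V] [Module F V]
    [Nontrivial V] (σ : F →+* F) (hσ : σ ≠ RingHom.id F) (hσ2 : ∀ a : F, σ (σ a) = a)
    (B : V →ₛₗ[σ] V →ₗ[F] F) (hS : B.IsSymm) (hB : B.Nondegenerate) : ∃ v : V, B v v = 1 := by
  have hl : ∀ (a : F) (x y : V), B (a • x) y = σ a * B x y := by
    intro a x y
    rw [show B (a • x) = σ a • B x from map_smulₛₗ B a x, LinearMap.smul_apply, smul_eq_mul]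
  have hr : ∀ (a : F) (x y : V), B x (a • y) = a * B x y := by
    intro a x y
    rw [map_smul, smul_eq_mul]
  -- anisotropic vector
  have hA : ∃ v : V, B v v ≠ 0 := by
    by_contra hcon
    push Not at hcon
    obtain ⟨x, hx⟩ := exists_ne (0 : V)
    have hy : ∃ y : V, B x y ≠ 0 := by
      by_contra h
      push Not at h
      exact hx (hB.1 x h)
    obtain ⟨y, hy⟩ := hy
    obtain ⟨y', hxy'⟩ : ∃ y' : V, B x y' = 1 :=
      ⟨(B x y)⁻¹ • y, by rw [map_smul, smul_eq_mul, inv_mul_cancel₀ hy]⟩
    have hy'x : B y' x = 1 := by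
      rw [← hS.eq x y', hxy', map_one]
    have hsum : ∀ a : F, σ a + a = 0 := by
      intro a
      have h := hcon (a • x + y')
      have e : B (a • x + y') (a • x + y') =
          σ a * (a * B x x) + σ a * B x y' + a * B y' x + B y' y' := by
        rw [map_add, map_add, LinearMap.add_apply, LinearMap.add_apply, hl a x (a • x), hr a x x,
          hl a x y', hr a y' x]
        ring
      rw [e, hcon x, hcon y', hxy', hy'x] at h
      simp only [mul_zero, mul_one, zero_add, add_zero] at h
      exact h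
    apply hσ
    ext a
    have h1 := hsum 1
    rw [map_one] at h1
    have h2 := hsum a
    rw [RingHom.id_apply]
    linear_combination h2 - a * h1
  obtain ⟨v, hv⟩ := hA
  have hc : σ (B v v)⁻¹ = (B v v)⁻¹ := by
    rw [map_inv₀, hS.eq]
  obtain ⟨a, ha⟩ := Cfsg.Agent.Helper6.norm_surj σ hσ hσ2 (B v v)⁻¹ hc (inv_ne_zero hv)
  refine ⟨a • v, ?_⟩
  rw [hl, hr, ← mul_assoc, ha, inv_mul_cancel₀ hv]

theorem exists_orthonormal_family {F : Type*} [Field F] [Finite F] (σ : F →+* F)
    (hσ : σ ≠ RingHom.id F) (hσ2 : ∀ a : F, σ (σ a) = a) :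
    ∀ (n : ℕ) (V : Type*) [AddCommGroup V] [Module F V] [FiniteDimensional F V]
      (B : V →ₛₗ[σ] V →ₗ[F] F), B.IsSymm → B.Nondegenerate → finrank F V = n →
      ∃ b : Fin n → V, ∀ i j, B (b i) (b j) = if i = j then 1 else 0 := by
  intro n
  induction n with
  | zero =>
    intro V _ _ _ B _ _ _
    exact ⟨Fin.elim0, fun i => Fin.elim0 i⟩
  | succ n ih =>
    intro V _ _ _ B hS hB hn
    have hnt : Nontrivial V := by
      apply Module.nontrivial_of_finrank_pos (R := F)
      rw [hn]; exact Nat.succ_pos n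
    obtain ⟨v, hv⟩ := exists_unit_vector σ hσ hσ2 B hS hB
    have hv0 : B v v ≠ 0 := by rw [hv]; exact one_ne_zero
    have hfin := Cfsg.Agent.Helper6.finrank_ker_add_one B v hv0
    have hW : finrank F (LinearMap.ker (B v)) = n := by omega
    obtain ⟨b', hb'⟩ := ih (LinearMap.ker (B v))
      (B.domRestrict₁₂ (LinearMap.ker (B v)) (LinearMap.ker (B v)))
      (Cfsg.Agent.Helper6.restrict_isSymm B hS _)
      (Cfsg.Agent.Helper6.restrict_nondegenerate B hS hB v hv0) hW
    refine ⟨Fin.cons v (fun i => (b' i : V)), ?_⟩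
    intro i j
    refine Fin.cases ?_ (fun i' => ?_) i <;> refine Fin.cases ?_ (fun j' => ?_) j
    · simp [hv]
    · have : B v (b' j' : V) = 0 := LinearMap.mem_ker.mp (b' j').2
      simp [this, Ne.symm (Fin.succ_ne_zero j')]
    · have h1 : B v (b' i' : V) = 0 := LinearMap.mem_ker.mp (b' i').2
      have : B (b' i' : V) v = 0 := by rw [← hS.eq v, h1, map_zero]
      simp [this, Fin.succ_ne_zero]
    · have := hb' i' j'
      rw [LinearMap.domRestrict₁₂_apply] at this
      simp [this, Fin.succ_inj]

/-- Classification of Hermitian forms over finite fields: if σ is a non-identity involutive automorphism of the finite field F and B is a non-degenerate conjugate-symmetric σ-sesquilinear form on the finite-dimensional space V, then V has a B-orthonormal basis. -/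
theorem result {F V : Type*} [Field F] [Finite F] [AddCommGroup V] [Module F V] [FiniteDimensional F V] (σ : F →+* F) (hσ : σ ≠ RingHom.id F) (hσ2 : ∀ a : F, σ (σ a) = a) (B : V →ₛₗ[σ] V →ₗ[F] F) (hS : B.IsSymm) (hB : B.Nondegenerate) : ∃ b : Module.Basis (Fin (Module.finrank F V)) F V, ∀ i j, B (b i) (b j) = if i = j then 1 else 0 := by
  obtain ⟨b, hb⟩ := exists_orthonormal_family σ hσ hσ2 (finrank F V) V B hS hB rfl
  have hli : LinearIndependent F b := by
    apply Cfsg.Agent.Helper6.linearIndependent_of_orthogonal B b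
    · intro i j hij
      rw [hb, if_neg hij]
    · intro i
      rw [hb, if_pos rfl]
      exact one_ne_zero
  refine ⟨basisOfLinearIndependentOfCardEqFinrank' b hli (by simp), ?_⟩
  rw [coe_basisOfLinearIndependentOfCardEqFinrank']
  exact hb

end Cfsg.Agent.S0755
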