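import Cfsg.Statements.S0756
import Cfsg.Agent.Helper6.SymmForm

set_option autoImplicit false
open Cfsg

namespace Cfsg.Agent.S0756

open Module

/-- Classification of symmetric bilinear forms over finite fields of odd characteristic: if B is non-degenerate symmetric on V of dimension n + 1 and α is a fixed non-square of F, there is an orthogonal basis b_0, ..., b_n with B(b_i, b_i) = 1 for i < n and B(b_n, b_n) ∈ {1, α}. -/
theorem result {F V : Type*} [Field F] [Finite F] [AddCommGroup V] [Module F V] [FiniteDimensional F V] (h2 : (2 : F) ≠ 0) (B : LinearMap.BilinForm F V) (hS : B.IsSymm) (hB : B.Nondegenerate) {n : ℕ} (hn : Module.finrank F V = n + 1) (α : F) (hα : ¬ IsSquare α) : ∃ b : Module.Basis (Fin (n + 1)) F V, (∀ i j, i ≠ j → B (b i) (b j) = 0) ∧ (∀ i, i ≠ Fin.last n → B (b i) (b i) = 1) ∧ (B (b (Fin.last n)) (b (Fin.last n)) = 1 ∨ B (b (Fin.last n)) (b (Fin.last n)) = α) := by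
  have hα0 : α ≠ 0 := by rintro rfl; exact hα IsSquare.zero
  obtain ⟨b, hb1, hb2, hb3⟩ := Cfsg.Agent.Helper6.symm_exists_orthogonal_family h2 α hα n V B
    (LinearMap.BilinForm.isSymm_iff.mp hS) hB hn
  have hli : LinearIndependent F b := by
    apply Cfsg.Agent.Helper6.linearIndependent_of_orthogonal B b hb1
    intro i
    by_cases hi : i = Fin.last n
    · rw [hi]
      rcases hb3 with h | h
      · rw [h]; exact one_ne_zero
      · rw [h]; exact hα0
    · rw [hb2 i hi]; exact one_ne_zero
  refine ⟨basisOfLinearIndependentOfCardEqFinrank' b hli (by simp [hn]), ?_⟩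
  rw [coe_basisOfLinearIndependentOfCardEqFinrank']
  exact ⟨hb1, hb2, hb3⟩

end Cfsg.Agent.S0756
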