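import Cfsg.Statements.S0757
import Mathlib

set_option autoImplicit false
open Cfsg

namespace Cfsg.Agent.S0757

theorem toMatrix'_wss {F : Type*} [Field F] [Invertible (2 : F)] {ι : Type*} [Fintype ι]
    [DecidableEq ι] (w : ι → F) :
    QuadraticForm.toMatrix' (QuadraticMap.weightedSumSquares F w) = Matrix.diagonal w := by
  ext i j
  unfold QuadraticForm.toMatrix'
  rw [LinearMap.toMatrix₂'_apply, QuadraticMap.associated_apply, Module.End.smul_def,
    QuadraticMap.half_moduleEnd_apply_eq_half_smul]
  simp only [QuadraticMap.weightedSumSquares_apply, smul_eq_mul, Pi.add_apply, Pi.single_apply]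
  by_cases hij : i = j
  · subst hij
    rw [Matrix.diagonal_apply_eq]
    simp only [mul_ite, mul_one, mul_zero, ite_mul, zero_mul, Finset.sum_ite_eq',
      Finset.mem_univ, if_true, ← two_mul]
    have h2 : (⅟2 : F) * 2 = 1 := invOf_mul_self 2
    linear_combination w i * h2
  · rw [Matrix.diagonal_apply_ne _ hij]
    rw [← Finset.sum_sub_distrib, ← Finset.sum_sub_distrib, Finset.sum_eq_zero, mul_zero]
    intro x _
    by_cases hxi : x = i
    · have hxj : x ≠ j := fun h => hij (hxi.symm.trans h)
      simp [hxi, hij]
    · by_cases hxj : x = j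
      · simp [hxj, Ne.symm hij]
      · simp [hxi, hxj]

/-- The two diagonal forms Σ x_i^2 and Σ_(i<n) x_i^2 + α x_n^2 on F^(n+1), with α a non-square and 2 ≠ 0 in F, are inequivalent quadratic forms (so over a finite field of odd order there are exactly two classes of non-singular symmetric bilinear forms in each dimension). -/
theorem result {F : Type*} [Field F] (h2 : (2 : F) ≠ 0) (n : ℕ) (α : F) (hα : ¬ IsSquare α) : ¬ (QuadraticMap.weightedSumSquares F (fun _ : Fin (n + 1) => (1 : F))).Equivalent (QuadraticMap.weightedSumSquares F (fun i : Fin (n + 1) => if i = Fin.last n then α else (1 : F))) := by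
  rintro ⟨e⟩
  have : Invertible (2 : F) := invertibleOfNonzero h2
  have hcomp : QuadraticMap.weightedSumSquares F (fun _ : Fin (n + 1) => (1 : F)) =
      (QuadraticMap.weightedSumSquares F
        (fun i : Fin (n + 1) => if i = Fin.last n then α else (1 : F))).comp
        (e.toLinearEquiv : (Fin (n+1) → F) →ₗ[F] (Fin (n+1) → F)) := by
    ext v
    rw [QuadraticMap.comp_apply]
    exact (e.map_app v).symm
  have hd := congrArg QuadraticForm.discr' hcomp
  rw [QuadraticForm.discr'_comp] at hd
  unfold QuadraticForm.discr' at hd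
  rw [toMatrix'_wss, toMatrix'_wss, Matrix.det_diagonal, Matrix.det_diagonal] at hd
  rw [Finset.prod_const_one, Finset.prod_ite_eq', if_pos (Finset.mem_univ _)] at hd
  apply hα
  set d := (LinearMap.toMatrix' (e.toLinearEquiv : (Fin (n+1) → F) →ₗ[F] (Fin (n+1) → F))).det
    with hd'
  have hd0 : d ≠ 0 := by
    rintro h
    rw [h] at hd
    simp at hd
  refine ⟨d⁻¹, ?_⟩
  field_simp
  linear_combination -hd

end Cfsg.Agent.S0757
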