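import Cfsg.Statements.S0758
import Mathlib

set_option autoImplicit false
open Cfsg

namespace Cfsg.Agent.S0758

theorem iso_iff {F : Type*} [Field F] (c : F) (hc : c ≠ 0) :
    (∃ x y : F, (x ≠ 0 ∨ y ≠ 0) ∧ x ^ 2 + c * y ^ 2 = 0) ↔ IsSquare (-c) := by
  constructor
  · rintro ⟨x, y, hxy, h⟩
    have hy : y ≠ 0 := by
      intro hy
      rw [hy] at h
      simp at h
      rcases hxy with h1 | h1
      · exact h1 h
      · exact h1 hy
    refine ⟨x / y, ?_⟩
    field_simp
    linear_combination -h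
  · rintro ⟨s, hs⟩
    refine ⟨s, 1, Or.inr one_ne_zero, ?_⟩
    linear_combination -hs

/-- For a finite field F of odd order q and a non-square α: the form x² + y² is isotropic iff q ≡ 1 mod 4, and the form x² + α y² is isotropic iff q ≡ 3 mod 4. -/
theorem result {F : Type*} [Field F] [Fintype F] (h2 : (2 : F) ≠ 0) (α : F) (hα : ¬ IsSquare α) : ((∃ x y : F, (x ≠ 0 ∨ y ≠ 0) ∧ x ^ 2 + y ^ 2 = 0) ↔ Fintype.card F % 4 = 1) ∧ ((∃ x y : F, (x ≠ 0 ∨ y ≠ 0) ∧ x ^ 2 + α * y ^ 2 = 0) ↔ Fintype.card F % 4 = 3) := by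
  classical
  have hchar : ringChar F ≠ 2 := by
    intro h
    apply h2
    have : CharP F 2 := by rw [← h]; exact ringChar.charP F
    exact CharTwo.two_eq_zero
  have hodd := FiniteField.odd_card_of_char_ne_two hchar
  have hm1 := FiniteField.isSquare_neg_one_iff (F := F)
  have hα0 : α ≠ 0 := by
    rintro rfl
    exact hα IsSquare.zero
  have hnα0 : -α ≠ 0 := neg_ne_zero.mpr hα0
  have hχα : quadraticChar F α = -1 := quadraticChar_neg_one_iff_not_isSquare.mpr hα
  have hmul : quadraticChar F (-α) = quadraticChar F (-1) * quadraticChar F α := by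
    rw [← map_mul]; simp
  have key : IsSquare (-α) ↔ ¬ IsSquare (-1 : F) := by
    rw [← quadraticChar_one_iff_isSquare hnα0, ← quadraticChar_neg_one_iff_not_isSquare, hmul, hχα]
    constructor
    · intro h; linarith
    · intro h; rw [h]; norm_num
  constructor
  · have := iso_iff (1 : F) one_ne_zero
    simp only [one_mul] at this
    rw [this, hm1]
    omega
  · rw [iso_iff α hα0, key, hm1]
    omega

end Cfsg.Agent.S0758
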