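import Cfsg.Statements.S0759
-- import your own Cfsg.Agent.* helpers here
import Mathlib
import Cfsg.Agent.Helper5.Disc

set_option autoImplicit false
open Cfsg

namespace Cfsg.Agent.S0759

open Matrix in
theorem aux {F : Type*} [Field F] [Fintype F] (h2 : (2 : F) ≠ 0) (m : ℕ) : (∃ W : Submodule F (Fin (2 * m) → F), Module.finrank F W = m ∧ ∀ w ∈ W, ∑ i, w i ^ 2 = 0) ↔ ¬ (Fintype.card F % 4 = 3 ∧ Odd m) := by
  classical
  obtain ⟨B, hB⟩ : ∃ B : LinearMap.BilinForm F (Fin (2 * m) → F),
      B = Matrix.toBilin' (1 : Matrix (Fin (2 * m)) (Fin (2 * m)) F) := ⟨_, rfl⟩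
  have happly : ∀ u v, B u v = u ⬝ᵥ v := by
    intro u v
    rw [hB, Matrix.toBilin'_apply', Matrix.one_mulVec]
  have hdet : (LinearMap.BilinForm.toMatrix (Pi.basisFun F (Fin (2 * m))) B).det = 1 := by
    rw [LinearMap.BilinForm.toMatrix_basisFun, hB, LinearMap.BilinForm.toMatrix'_toBilin',
      Matrix.det_one]
  have hsq : ∀ w : Fin (2 * m) → F, ∑ i, w i ^ 2 = w ⬝ᵥ w := by
    intro w
    simp [dotProduct, sq]
  constructor
  · rintro ⟨W, hW, hW0⟩ ⟨h3, hodd⟩
    have hiso : ∀ x ∈ W, ∀ y ∈ W, B x y = 0 := by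
      intro x hx y hy
      have h1 := hW0 _ (W.add_mem hx hy)
      have hx0 := hW0 _ hx
      have hy0 := hW0 _ hy
      rw [hsq] at h1 hx0 hy0
      rw [happly]
      have h4 : (x + y) ⬝ᵥ (x + y) = x ⬝ᵥ x + y ⬝ᵥ y + 2 * (x ⬝ᵥ y) := by
        rw [add_dotProduct, dotProduct_add, dotProduct_add, dotProduct_comm y x]
        ring
      rw [h4, hx0, hy0] at h1
      have h5 : 2 * (x ⬝ᵥ y) = 0 := by linear_combination h1
      rcases mul_eq_zero.1 h5 with h | h
      · exact absurd h h2
      · exact h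
    have h1 := Cfsg.Agent.Helper5.disc_of_isotropic B
      (fun x y => by rw [happly, happly, dotProduct_comm]) m (by simp) W hW hiso
      (Pi.basisFun F (Fin (2 * m)))
    rw [hdet, mul_one, Odd.neg_one_pow hodd] at h1
    exact (FiniteField.isSquare_neg_one_iff.1 h1) h3
  · intro h
    have hS : B.IsSymm := ⟨fun x y => by rw [happly, happly, dotProduct_comm]⟩
    have hN : B.Nondegenerate := by
      refine (LinearMap.BilinForm.nondegenerate_iff_det_ne_zero
        (Pi.basisFun F (Fin (2 * m)))).2 ?_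
      rw [hdet]
      exact one_ne_zero
    have hsq' : IsSquare ((-1 : F) ^ m
        * (LinearMap.BilinForm.toMatrix (Pi.basisFun F (Fin (2 * m))) B).det) := by
      rw [hdet, mul_one]
      rcases Nat.even_or_odd m with he | ho
      · rw [Even.neg_one_pow he]
        exact IsSquare.one
      · rw [Odd.neg_one_pow ho]
        exact FiniteField.isSquare_neg_one_iff.2 (fun h3 => h ⟨h3, ho⟩)
    obtain ⟨X, hX, hiso⟩ := Cfsg.Agent.Helper5.isotropic_of_disc h2 B hS hN m
      (Pi.basisFun F (Fin (2 * m))) (Fintype.card_fin _) hsq'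
    refine ⟨X, hX, fun w hw => ?_⟩
    rw [hsq, ← happly]
    exact hiso w hw w hw

/-- Type of the orthonormal form: over a finite field of odd order q and for m ≥ 1, the quadratic form Σ_(i<2m) x_i² on F^(2m) admits an m-dimensional subspace on which it vanishes identically if and only if it is not the case that q ≡ 3 (mod 4) and m is odd. -/
theorem result {F : Type*} [Field F] [Fintype F] (h2 : (2 : F) ≠ 0) (m : ℕ) (hm : 1 ≤ m) : (∃ W : Submodule F (Fin (2 * m) → F), Module.finrank F W = m ∧ ∀ w ∈ W, ∑ i, w i ^ 2 = 0) ↔ ¬ (Fintype.card F % 4 = 3 ∧ Odd m) := by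
  exact aux h2 m

end Cfsg.Agent.S0759
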