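import Cfsg.Statements.S0760
import Mathlib

set_option autoImplicit false
open Cfsg

namespace Cfsg.Agent.S0760

open Module in
theorem finrank_le_of_max {F V : Type*} [Field F] [AddCommGroup V] [Module F V]
    [FiniteDimensional F V] (Q : QuadraticForm F V)
    (hQ : (QuadraticMap.polarBilin Q).Nondegenerate) (W₁ W₂ : Submodule F V)
    (h₁ : ∀ w ∈ W₁, Q w = 0) (h₂ : ∀ w ∈ W₂, Q w = 0)
    (hmax₁ : ∀ W : Submodule F V, W₁ ≤ W → (∀ w ∈ W, Q w = 0) → W = W₁) :
    finrank F W₂ ≤ finrank F W₁ ∧ 2 * finrank F W₁ ≤ finrank F V := by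
  set B : LinearMap.BilinForm F V := QuadraticMap.polarBilin Q with hB
  have hBapp : ∀ x y : V, B x y = QuadraticMap.polar Q x y := fun x y => rfl
  have hts : ∀ (W : Submodule F V), (∀ w ∈ W, Q w = 0) → ∀ x ∈ W, ∀ y ∈ W, B x y = 0 := by
    intro W hW x hx y hy
    rw [hBapp, QuadraticMap.polar, hW x hx, hW y hy, hW _ (W.add_mem hx hy)]
    simp
  -- Lemma A
  have hA : W₂ ⊓ B.orthogonal W₁ ≤ W₁ := by
    intro u hu
    obtain ⟨hu2, huo⟩ := hu
    have hW : W₁ ⊔ Submodule.span F {u} = W₁ := by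
      apply hmax₁ _ le_sup_left
      intro x hx
      obtain ⟨w, hw, z, hz, rfl⟩ := Submodule.mem_sup.mp hx
      obtain ⟨c, rfl⟩ := Submodule.mem_span_singleton.mp hz
      rw [QuadraticMap.map_add (⇑Q), QuadraticMap.map_smul, h₁ w hw, h₂ u hu2,
        QuadraticMap.polar_smul_right]
      have : QuadraticMap.polar Q w u = 0 := huo w hw
      rw [this]; simp
    rw [← hW]
    exact Submodule.mem_sup_right (Submodule.mem_span_singleton_self u)
  have hinf : W₂ ⊓ B.orthogonal W₁ = W₁ ⊓ W₂ := by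
    apply le_antisymm
    · exact le_inf hA inf_le_left
    · apply le_inf inf_le_right
      intro x hx
      rw [LinearMap.BilinForm.mem_orthogonal_iff]
      intro n hn
      exact hts W₁ h₁ n hn x hx.1
  have hsup : W₂ ⊔ B.orthogonal W₁ ≤ B.orthogonal (W₁ ⊓ W₂) := by
    apply sup_le
    · intro x hx
      rw [LinearMap.BilinForm.mem_orthogonal_iff]
      intro n hn
      exact hts W₂ h₂ n hn.2 x hx
    · exact LinearMap.BilinForm.orthogonal_le inf_le_left
  have e1 := Submodule.finrank_sup_add_finrank_inf_eq W₂ (B.orthogonal W₁)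
  have e2 := Submodule.finrank_mono hsup
  have e3 := LinearMap.BilinForm.finrank_orthogonal hQ W₁
  have e4 := LinearMap.BilinForm.finrank_orthogonal hQ (W₁ ⊓ W₂)
  have e5 : finrank F W₁ ≤ finrank F V := Submodule.finrank_le W₁
  have e6 : finrank F ↥(W₁ ⊓ W₂) ≤ finrank F V := Submodule.finrank_le _
  have e7 : W₁ ≤ B.orthogonal W₁ := by
    intro x hx
    rw [LinearMap.BilinForm.mem_orthogonal_iff]
    intro n hn
    exact hts W₁ h₁ n hn x hx
  have e8 := Submodule.finrank_mono e7
  rw [hinf] at e1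
  constructor
  · omega
  · omega

/-- Witt index is well defined: if Q is a quadratic form on a finite-dimensional space V over a finite field with non-degenerate polar form, and W₁, W₂ are subspaces on which Q vanishes that are maximal with this property, then W₁ and W₂ have the same dimension, and twice this dimension is at most dim V. -/
theorem result {F V : Type*} [Field F] [Finite F] [AddCommGroup V] [Module F V] [FiniteDimensional F V] (Q : QuadraticForm F V) (hQ : (QuadraticMap.polarBilin Q).Nondegenerate) (W₁ W₂ : Submodule F V) (h₁ : ∀ w ∈ W₁, Q w = 0) (h₂ : ∀ w ∈ W₂, Q w = 0) (hmax₁ : ∀ W : Submodule F V, W₁ ≤ W → (∀ w ∈ W, Q w = 0) → W = W₁) (hmax₂ : ∀ W : Submodule F V, W₂ ≤ W → (∀ w ∈ W, Q w = 0) → W = W₂) : Module.finrank F W₁ = Module.finrank F W₂ ∧ 2 * Module.finrank F W₁ ≤ Module.finrank F V := by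
  have a := finrank_le_of_max Q hQ W₁ W₂ h₁ h₂ hmax₁
  have b := finrank_le_of_max Q hQ W₂ W₁ h₂ h₁ hmax₂
  exact ⟨le_antisymm b.1 a.1, a.2⟩

end Cfsg.Agent.S0760
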