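import Cfsg.Statements.S0762
import Mathlib

set_option autoImplicit false
open Cfsg

namespace Cfsg.Agent.S0762

/-- In characteristic two over a finite field, a quadratic form on a space of dimension at least 3 vanishes on some non-zero vector. -/
theorem result {F V : Type*} [Field F] [Finite F] [CharP F 2] [AddCommGroup V] [Module F V] [FiniteDimensional F V] (Q : QuadraticForm F V) (h3 : 3 ≤ Module.finrank F V) : ∃ v : V, v ≠ 0 ∧ Q v = 0 := by
  obtain ⟨f, hf⟩ := exists_linearIndependent_of_le_finrank h3
  have hli := Fintype.linearIndependent_iff.mp hf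
  set u := f 0 with hu
  set v := f 1 with hv
  set w := f 2 with hw
  have key : ∀ a b c : F, a • u + b • v + c • w = 0 → a = 0 ∧ b = 0 ∧ c = 0 := by
    intro a b c h
    have := hli ![a, b, c] (by simpa [Fin.sum_univ_three, add_assoc] using h)
    exact ⟨this 0, this 1, this 2⟩
  -- two independent vectors with polar zero
  have hab : ∃ a b : V, (∀ s t : F, s • a + t • b = 0 → s = 0 ∧ t = 0) ∧
      QuadraticMap.polar Q a b = 0 := by
    by_cases huv : QuadraticMap.polar Q u v = 0
    · refine ⟨u, v, ?_, huv⟩
      intro s t h
      have := key s t 0 (by simpa using h)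
      exact ⟨this.1, this.2.1⟩
    · refine ⟨u, QuadraticMap.polar Q u v • w - QuadraticMap.polar Q u w • v, ?_, ?_⟩
      · intro s t h
        have := key s (-(t * QuadraticMap.polar Q u w)) (t * QuadraticMap.polar Q u v) (by
          rw [← h]; simp only [smul_sub, smul_smul, neg_smul]; abel)
        have ht : t = 0 := by
          rcases mul_eq_zero.mp this.2.2 with h | h
          · exact h
          · exact absurd h huv
        exact ⟨this.1, ht⟩
      · rw [QuadraticMap.polar_sub_right, QuadraticMap.polar_smul_right,
          QuadraticMap.polar_smul_right]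
        simp [mul_comm]
  obtain ⟨a, b, hind, hpol⟩ := hab
  have ha0 : a ≠ 0 := by
    rintro rfl
    have := hind 1 0 (by simp)
    exact one_ne_zero this.1
  by_cases hQa : Q a = 0
  · exact ⟨a, ha0, hQa⟩
  · have hchar : ringChar F = 2 := ringChar.eq F 2
    obtain ⟨t, ht⟩ := FiniteField.isSquare_of_char_two hchar (Q b / Q a)
    refine ⟨b + t • a, ?_, ?_⟩
    · intro h0
      have := hind t 1 (by rw [← h0]; simp [add_comm])
      exact one_ne_zero this.2
    · rw [QuadraticMap.map_add (⇑Q), QuadraticMap.map_smul, QuadraticMap.polar_smul_right,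
        QuadraticMap.polar_comm, hpol, ← ht]
      simp only [smul_eq_mul, mul_zero, add_zero]
      rw [div_mul_cancel₀ _ hQa]
      exact CharTwo.add_self_eq_zero (Q b)

end Cfsg.Agent.S0762
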