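import Cfsg.Statements.S0763
import Mathlib

set_option autoImplicit false
open Cfsg

namespace Cfsg.Agent.S0763

theorem exists_partner {F V : Type*} [Field F] [AddCommGroup V] [Module F V]
    (Q : QuadraticForm F V) (hQ : (QuadraticMap.polarBilin Q).Nondegenerate) (v : V) (hv : v ≠ 0) :
    ∃ w : V, QuadraticMap.polar Q v w = 1 := by
  by_contra hcon
  push Not at hcon
  have h0 : ∀ w : V, QuadraticMap.polar Q v w = 0 := by
    intro w
    by_contra hw
    apply hcon ((QuadraticMap.polar Q v w)⁻¹ • w)
    rw [QuadraticMap.polar_smul_right, smul_eq_mul, inv_mul_cancel₀ hw]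
  exact hv (hQ.1 v (fun y => by simpa using h0 y))

theorem linIndep_of_polar {F V : Type*} [Field F] [CharP F 2] [AddCommGroup V] [Module F V]
    (Q : QuadraticForm F V) (v w : V) (h : QuadraticMap.polar Q v w = 1) :
    LinearIndependent F ![v, w] := by
  have h2 : (2 : F) = 0 := CharTwo.two_eq_zero
  have hvv : QuadraticMap.polar Q v v = 0 := by
    rw [QuadraticMap.polar_self]; simp [h2]
  have hww : QuadraticMap.polar Q w w = 0 := by
    rw [QuadraticMap.polar_self]; simp [h2]
  rw [LinearIndependent.pair_iff]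
  intro s t hst
  have h1 : QuadraticMap.polar Q v (s • v + t • w) = 0 := by rw [hst]; simp
  have h3 : QuadraticMap.polar Q (s • v + t • w) w = 0 := by rw [hst]; simp
  rw [QuadraticMap.polar_add_right, QuadraticMap.polar_smul_right, QuadraticMap.polar_smul_right,
    hvv, h] at h1
  rw [QuadraticMap.polar_add_left, QuadraticMap.polar_smul_left, QuadraticMap.polar_smul_left,
    hww, h] at h3
  simp at h1 h3
  exact ⟨h3, h1⟩

/-- Binary quadratic forms in characteristic two over a finite field: if Q is a quadratic form on a 2-dimensional space whose polar form is non-degenerate, then either there are vectors v, w with Q v = Q w = 0 and polar value 1 (Q is xy in these coordinates), or there are v, w and μ with Q v = 1, Q w = μ, polar value 1 and x² + x + μ without roots in F (Q is x² + xy + μy²). -/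
theorem result {F V : Type*} [Field F] [Finite F] [CharP F 2] [AddCommGroup V] [Module F V] (Q : QuadraticForm F V) (h2 : Module.finrank F V = 2) (hQ : (QuadraticMap.polarBilin Q).Nondegenerate) : (∃ v w : V, LinearIndependent F ![v, w] ∧ Q v = 0 ∧ Q w = 0 ∧ QuadraticMap.polar Q v w = 1) ∨ (∃ (v w : V) (μ : F), LinearIndependent F ![v, w] ∧ (∀ x : F, x ^ 2 + x + μ ≠ 0) ∧ Q v = 1 ∧ Q w = μ ∧ QuadraticMap.polar Q v w = 1) := by
  have h20 : (2 : F) = 0 := CharTwo.two_eq_zero
  have hself : ∀ x : V, QuadraticMap.polar Q x x = 0 := by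
    intro x; rw [QuadraticMap.polar_self]; simp [h20]
  by_cases hex : ∃ v : V, v ≠ 0 ∧ Q v = 0
  · left
    obtain ⟨v, hv, hQv⟩ := hex
    obtain ⟨w, hw⟩ := exists_partner Q hQ v hv
    refine ⟨v, w + Q w • v, ?_, hQv, ?_, ?_⟩
    · apply linIndep_of_polar Q
      rw [QuadraticMap.polar_add_right, QuadraticMap.polar_smul_right, hself, hw]; simp
    · rw [QuadraticMap.map_add (⇑Q), QuadraticMap.map_smul, hQv, QuadraticMap.polar_smul_right,
        QuadraticMap.polar_comm, hw]
      simp
      exact CharTwo.add_self_eq_zero (Q w)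
    · rw [QuadraticMap.polar_add_right, QuadraticMap.polar_smul_right, hself, hw]; simp
  · right
    push Not at hex
    have hnt : Nontrivial V := by
      apply Module.nontrivial_of_finrank_pos (R := F)
      rw [h2]; norm_num
    obtain ⟨v₀, hv₀⟩ := exists_ne (0 : V)
    have hQv₀ : Q v₀ ≠ 0 := hex v₀ hv₀
    have hchar : ringChar F = 2 := ringChar.eq F 2
    obtain ⟨c, hc⟩ := FiniteField.isSquare_of_char_two hchar (Q v₀)⁻¹
    have hc0 : c ≠ 0 := by
      rintro rfl
      simp at hc
      exact hQv₀ hc
    have hv : c • v₀ ≠ 0 := smul_ne_zero hc0 hv₀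
    have hQv : Q (c • v₀) = 1 := by
      rw [QuadraticMap.map_smul, ← hc, smul_eq_mul, inv_mul_cancel₀ hQv₀]
    obtain ⟨w, hw⟩ := exists_partner Q hQ (c • v₀) hv
    have hli := linIndep_of_polar Q (c • v₀) w hw
    refine ⟨c • v₀, w, Q w, hli, ?_, hQv, rfl, hw⟩
    intro x hx
    have hne : x • (c • v₀) + w ≠ 0 := by
      intro h0
      rw [LinearIndependent.pair_iff] at hli
      have := hli x 1 (by simpa using h0)
      exact one_ne_zero this.2
    apply hex _ hne
    rw [QuadraticMap.map_add (⇑Q), QuadraticMap.map_smul, hQv, QuadraticMap.polar_smul_left, hw]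
    simp
    rw [← hx]; ring

end Cfsg.Agent.S0763
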