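import Cfsg.Statements.S0766
-- import your own Cfsg.Agent.* helpers here
import Mathlib
import Cfsg.Agent.Helper5.SympGen

set_option autoImplicit false
open Cfsg

namespace Cfsg.Agent.S0766

/-- The subgroup generated by the symplectic transvections acts transitively on ordered pairs (u, v) with f(u, v) = 1. -/
theorem result {F : Type*} [Field F] (m : ℕ) (u v u' v' : Fin m ⊕ Fin m → F) (h : Cfsg.sympForm m F u v = 1) (h' : Cfsg.sympForm m F u' v' = 1) : ∃ A ∈ Subgroup.closure {A : Matrix.symplecticGroup (Fin m) F | ∃ (w : Fin m ⊕ Fin m → F) (c : F), (A : Matrix (Fin m ⊕ Fin m) (Fin m ⊕ Fin m) F) = Cfsg.sympTransvection m w c}, (A : Matrix (Fin m ⊕ Fin m) (Fin m ⊕ Fin m) F).mulVec u = u' ∧ (A : Matrix (Fin m ⊕ Fin m) (Fin m ⊕ Fin m) F).mulVec v = v' := by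
  obtain ⟨g, ⟨A, hA, hAg⟩, hgu, hgv⟩ := Cfsg.Agent.Helper5.sp_pair (Cfsg.Agent.Helper5.sB m)
    (Cfsg.Agent.Helper5.sB_nondeg m) (Cfsg.Agent.Helper5.sB_alt m) (Cfsg.Agent.Helper5.IT m)
    (Cfsg.Agent.Helper5.IT_trans m)
    (Cfsg.Agent.Helper5.IT_transv m) (Cfsg.Agent.Helper5.IT_iso m) u v u' v'
    (by rw [Cfsg.Agent.Helper5.sB_apply]; exact h)
    (by rw [Cfsg.Agent.Helper5.sB_apply]; exact h')
  exact ⟨A, hA, by rw [hAg, hgu], by rw [hAg, hgv]⟩

end Cfsg.Agent.S0766
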