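import Cfsg.Statements.S0769
-- import your own Cfsg.Agent.* helpers here
import Mathlib

set_option autoImplicit false
open Cfsg

namespace Cfsg.Agent.S0769

theorem aux {F : Type*} [Field F] [Fintype F] (n : ℕ) : Nat.card {g : Matrix.GeneralLinearGroup (Fin n) F // ∀ i j : Fin n, i < j → (g : Matrix (Fin n) (Fin n) F) i j = 0} = Fintype.card F ^ (n * (n - 1) / 2) * (Fintype.card F - 1) ^ n := by
  classical
  obtain ⟨R, hR⟩ : ∃ R : Fin n → Fin n → F → Prop,
      ∀ i j x, R i j x ↔ ((i < j → x = 0) ∧ (i = j → x ≠ 0)) := ⟨_, fun _ _ _ => Iff.rfl⟩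
  have e1 : {g : Matrix.GeneralLinearGroup (Fin n) F //
      ∀ i j : Fin n, i < j → (g : Matrix (Fin n) (Fin n) F) i j = 0} ≃
      {M : Fin n → Fin n → F // ∀ i j, R i j (M i j)} := by
    refine Equiv.ofBijective
      (fun g => ⟨fun i j => (g.1 : Matrix (Fin n) (Fin n) F) i j, ?_⟩) ⟨?_, ?_⟩
    · intro i j
      rw [hR]
      refine ⟨g.2 i j, ?_⟩
      rintro rfl
      have hdet : (g.1 : Matrix (Fin n) (Fin n) F).det ≠ 0 :=
        ((Matrix.isUnit_iff_isUnit_det _).1 g.1.isUnit).ne_zero
      rw [Matrix.det_of_isLowerTriangular _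
        (fun a b hab => g.2 a b (OrderDual.toDual_lt_toDual.1 hab))] at hdet
      exact fun h0 => hdet (Finset.prod_eq_zero (Finset.mem_univ i) h0)
    · intro g g' h
      apply Subtype.ext
      apply Units.ext
      exact congrArg Subtype.val h
    · rintro ⟨M, hM⟩
      have hdet : (Matrix.of M).det ≠ 0 := by
        rw [Matrix.det_of_isLowerTriangular (Matrix.of M)
          (fun a b hab => ((hR a b _).1 (hM a b)).1 (OrderDual.toDual_lt_toDual.1 hab))]
        exact Finset.prod_ne_zero_iff.2 (fun i _ => ((hR i i _).1 (hM i i)).2 rfl)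
      exact ⟨⟨Matrix.GeneralLinearGroup.mkOfDetNeZero (Matrix.of M) hdet,
        fun i j hij => ((hR i j _).1 (hM i j)).1 hij⟩, rfl⟩
  have e2 : {M : Fin n → Fin n → F // ∀ i j, R i j (M i j)} ≃ ∀ i, ∀ j, {x : F // R i j x} :=
    (Equiv.subtypePiEquivPi (p := fun i (r : Fin n → F) => ∀ j, R i j (r j))).trans
      (Equiv.piCongrRight fun i => Equiv.subtypePiEquivPi)
  rw [Nat.card_congr e1, Nat.card_congr e2, Nat.card_pi]
  simp only [Nat.card_pi]
  have hcard : ∀ i j : Fin n, Nat.card {x : F // R i j x}
      = if i < j then 1 else if i = j then Fintype.card F - 1 else Fintype.card F := by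
    intro i j
    rw [Nat.card_eq_fintype_card, Fintype.card_subtype]
    split_ifs with h1 h2
    · have h3 : (Finset.univ.filter (fun x : F => R i j x)) = {0} := by
        ext x
        simp [hR, h1, h1.ne]
      rw [h3, Finset.card_singleton]
    · have h3 : (Finset.univ.filter (fun x : F => R i j x)) = Finset.univ.erase 0 := by
        ext x
        simp [hR, h2]
      rw [h3, Finset.card_erase_of_mem (Finset.mem_univ _), Finset.card_univ]
    · have h3 : (Finset.univ.filter (fun x : F => R i j x)) = Finset.univ := by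
        ext x
        simp [hR, h1, h2]
      rw [h3, Finset.card_univ]
  simp only [hcard]
  have hrow : ∀ i : Fin n, (∏ j : Fin n, if i < j then 1 else if i = j then Fintype.card F - 1
      else Fintype.card F) = (Fintype.card F - 1) * Fintype.card F ^ (i : ℕ) := by
    intro i
    have h1 : ∀ j : Fin n, (if i < j then 1 else if i = j then Fintype.card F - 1
        else Fintype.card F) = (if j = i then Fintype.card F - 1 else 1)
          * (if j < i then Fintype.card F else 1) := by
      intro j
      rcases lt_trichotomy i j with h | h | h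
      · simp [h, h.ne', not_lt.2 h.le]
      · subst h
        simp
      · simp [h, h.ne, h.ne', not_lt.2 h.le]
    simp only [h1]
    rw [Finset.prod_mul_distrib, Finset.prod_ite_eq', if_pos (Finset.mem_univ _),
      Finset.prod_ite, Finset.prod_const_one, mul_one, Finset.prod_const,
      Finset.filter_gt_eq_Iio, Fin.card_Iio]
  simp only [hrow]
  rw [Finset.prod_mul_distrib, Finset.prod_const, Finset.card_univ, Fintype.card_fin,
    Finset.prod_pow_eq_pow_sum, Fin.sum_univ_eq_sum_range (fun i => i) n, Finset.sum_range_id,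
    mul_comm]

/-- Order of the Borel subgroup of GL_n(q): the invertible lower-triangular n × n matrices over a field with q elements number q^(n(n-1)/2) (q-1)^n (unitriangular part times the diagonal torus). -/
theorem result {F : Type*} [Field F] [Fintype F] {q : ℕ} (hF : Fintype.card F = q) (n : ℕ) : Nat.card {g : Matrix.GeneralLinearGroup (Fin n) F // ∀ i j : Fin n, i < j → (g : Matrix (Fin n) (Fin n) F) i j = 0} = q ^ (n * (n - 1) / 2) * (q - 1) ^ n := by
  rw [← hF]
  exact aux n

end Cfsg.Agent.S0769
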