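import Cfsg.Statements.S0770
import Mathlib

set_option autoImplicit false
open Cfsg

namespace Cfsg.Agent.S0770

open Matrix

variable {F : Type*} [Field F] {n : ℕ}

/-- the torus -/
abbrev torus (F : Type*) [Field F] (n : ℕ) : Subgroup (Matrix.GeneralLinearGroup (Fin n) F) :=
  (Units.map (Matrix.diagonalRingHom (Fin n) F).toMonoidHom).range

theorem mem_torus_iff (t : Matrix.GeneralLinearGroup (Fin n) F) :
    t ∈ torus F n ↔ ∀ i j, i ≠ j → (t : Matrix (Fin n) (Fin n) F) i j = 0 := by
  constructor
  · rintro ⟨d, rfl⟩ i j hij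
    show Matrix.diagonal (d : Fin n → F) i j = 0
    exact Matrix.diagonal_apply_ne _ hij
  · intro h
    have hdiag : (t : Matrix (Fin n) (Fin n) F) =
        Matrix.diagonal (fun i => (t : Matrix (Fin n) (Fin n) F) i i) := by
      ext i j
      by_cases hij : i = j
      · subst hij; simp
      · rw [h i j hij, Matrix.diagonal_apply_ne _ hij]
    have hdet : (t : Matrix (Fin n) (Fin n) F).det ≠ 0 := by
      have := t.isUnit.map (Matrix.detMonoidHom (n := Fin n) (R := F))
      exact this.ne_zero
    rw [hdiag, Matrix.det_diagonal] at hdet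
    have hne : ∀ i, (t : Matrix (Fin n) (Fin n) F) i i ≠ 0 := by
      intro i
      exact fun h0 => hdet (Finset.prod_eq_zero (Finset.mem_univ i) h0)
    let d : (Fin n → F)ˣ :=
      ⟨fun i => (t : Matrix (Fin n) (Fin n) F) i i, fun i => ((t : Matrix (Fin n) (Fin n) F) i i)⁻¹,
        by ext i; simp [hne i], by ext i; simp [hne i]⟩
    refine ⟨d, ?_⟩
    apply Units.ext
    show Matrix.diagonal (fun i => (t : Matrix (Fin n) (Fin n) F) i i) = _
    exact hdiag.symm

theorem mul_diagonal_of_supp (g : Matrix (Fin n) (Fin n) F) (σ : Fin n → Fin n)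
    (hσ : ∀ i j, g i j ≠ 0 → j = σ i) (d : Fin n → F) :
    g * Matrix.diagonal d = Matrix.diagonal (d ∘ σ) * g := by
  ext i j
  rw [Matrix.mul_diagonal, Matrix.diagonal_mul]
  by_cases h : g i j = 0
  · rw [h]; simp
  · rw [hσ i j h, Function.comp_apply, mul_comm]

/-- For a field with at least 3 elements, an invertible matrix normalises the subgroup of invertible diagonal matrices of GL_n if and only if it is monomial (exactly one non-zero entry in each row). -/
theorem result {F : Type*} [Field F] (hF : ∃ a : F, a ≠ 0 ∧ a ≠ 1) (n : ℕ) (g : Matrix.GeneralLinearGroup (Fin n) F) : g ∈ Subgroup.normalizer ((Units.map (Matrix.diagonalRingHom (Fin n) F).toMonoidHom).range : Subgroup (Matrix.GeneralLinearGroup (Fin n) F)) ↔ ∀ i : Fin n, ∃! j : Fin n, (g : Matrix (Fin n) (Fin n) F) i j ≠ 0 := by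
  have hgg : (g : Matrix (Fin n) (Fin n) F) * ((g⁻¹ : Matrix.GeneralLinearGroup (Fin n) F) : Matrix (Fin n) (Fin n) F) = 1 := by
    rw [← Units.val_mul, mul_inv_cancel]; rfl
  have hgg' : ((g⁻¹ : Matrix.GeneralLinearGroup (Fin n) F) : Matrix (Fin n) (Fin n) F) * (g : Matrix (Fin n) (Fin n) F) = 1 := by
    rw [← Units.val_mul, inv_mul_cancel]; rfl
  constructor
  · intro hg i
    obtain ⟨a, ha0, ha1⟩ := hF
    -- existence
    have hex : ∃ j, (g : Matrix (Fin n) (Fin n) F) i j ≠ 0 := by
      by_contra hcon
      push Not at hcon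
      have := congrFun (congrFun hgg i) i
      rw [Matrix.mul_apply, Matrix.one_apply_eq] at this
      simp [hcon] at this
    obtain ⟨j, hj⟩ := hex
    refine ⟨j, hj, ?_⟩
    intro j' hj'
    by_contra hne
    -- the diagonal element t_j
    let d : (Fin n → F)ˣ :=
      ⟨fun k => if k = j then a else 1, fun k => if k = j then a⁻¹ else 1,
        by ext k; by_cases hk : k = j <;> simp [hk, ha0],
        by ext k; by_cases hk : k = j <;> simp [hk, ha0]⟩
    let t : Matrix.GeneralLinearGroup (Fin n) F :=
      Units.map (Matrix.diagonalRingHom (Fin n) F).toMonoidHom d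
    have ht : t ∈ torus F n := ⟨d, rfl⟩
    have htv : (t : Matrix (Fin n) (Fin n) F) = Matrix.diagonal (fun k => if k = j then a else 1) := rfl
    have hconj : g * t * g⁻¹ ∈ torus F n := (Subgroup.mem_normalizer_iff.mp hg t).mp ht
    rw [mem_torus_iff] at hconj
    set s : Matrix (Fin n) (Fin n) F := ((g * t * g⁻¹ : Matrix.GeneralLinearGroup (Fin n) F) : Matrix (Fin n) (Fin n) F) with hs
    have hsdiag : s = Matrix.diagonal (fun i => s i i) := by
      ext p q
      by_cases hpq : p = q
      · subst hpq; simp
      · rw [hconj p q hpq, Matrix.diagonal_apply_ne _ hpq]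
    have hsg : s * (g : Matrix (Fin n) (Fin n) F) = (g : Matrix (Fin n) (Fin n) F) * (t : Matrix (Fin n) (Fin n) F) := by
      rw [hs, Units.val_mul, Units.val_mul, Matrix.mul_assoc, hgg', Matrix.mul_one]
    rw [hsdiag, htv] at hsg
    have e1 := congrFun (congrFun hsg i) j
    have e2 := congrFun (congrFun hsg i) j'
    rw [Matrix.diagonal_mul, Matrix.mul_diagonal] at e1 e2
    simp only [if_true] at e1
    rw [if_neg hne, mul_one] at e2
    have h1 : s i i = a := by
      have : s i i * (g : Matrix (Fin n) (Fin n) F) i j = a * (g : Matrix (Fin n) (Fin n) F) i j := by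
        rw [e1, mul_comm]
      exact mul_right_cancel₀ hj this
    have h2 : s i i = 1 := by
      have : s i i * (g : Matrix (Fin n) (Fin n) F) i j' = 1 * (g : Matrix (Fin n) (Fin n) F) i j' := by
        rw [e2, one_mul]
      exact mul_right_cancel₀ hj' this
    exact ha1 (h1.symm.trans h2)
  · intro hmono
    choose σ hσ1 hσ2 using hmono
    have hsupp : ∀ i j, (g : Matrix (Fin n) (Fin n) F) i j ≠ 0 → j = σ i := fun i j h => hσ2 i j h
    -- σ injective
    have hginv : ∀ i k, (g : Matrix (Fin n) (Fin n) F) i (σ i) *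
        ((g⁻¹ : Matrix.GeneralLinearGroup (Fin n) F) : Matrix (Fin n) (Fin n) F) (σ i) k =
        (1 : Matrix (Fin n) (Fin n) F) i k := by
      intro i k
      rw [← hgg, Matrix.mul_apply]
      symm
      apply Finset.sum_eq_single (σ i)
      · intro b _ hb
        have : (g : Matrix (Fin n) (Fin n) F) i b = 0 := by
          by_contra h
          exact hb (hsupp i b h)
        rw [this, zero_mul]
      · intro h; exact absurd (Finset.mem_univ _) h
    have hinj : Function.Injective σ := by
      intro i i' hii
      by_contra hne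
      have h1 := hginv i i'
      rw [Matrix.one_apply_ne hne] at h1
      have h2 := hginv i' i'
      rw [Matrix.one_apply_eq, ← hii] at h2
      rcases mul_eq_zero.mp h1 with h | h
      · exact hσ1 i h
      · rw [h, mul_zero] at h2
        exact zero_ne_one h2
    have hbij : Function.Bijective σ := Finite.injective_iff_bijective.mp hinj
    let e : Fin n ≃ Fin n := Equiv.ofBijective σ hbij
    rw [Subgroup.mem_normalizer_iff]
    intro h
    constructor
    · intro hh
      rw [mem_torus_iff] at hh ⊢
      have hdiag : (h : Matrix (Fin n) (Fin n) F) =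
          Matrix.diagonal (fun i => (h : Matrix (Fin n) (Fin n) F) i i) := by
        ext p q
        by_cases hpq : p = q
        · subst hpq; simp
        · rw [hh p q hpq, Matrix.diagonal_apply_ne _ hpq]
      obtain ⟨d, hd⟩ : ∃ d : Fin n → F, (h : Matrix (Fin n) (Fin n) F) = Matrix.diagonal d :=
        ⟨_, hdiag⟩
      have : ((g * h * g⁻¹ : Matrix.GeneralLinearGroup (Fin n) F) : Matrix (Fin n) (Fin n) F) =
          Matrix.diagonal (d ∘ σ) := by
        rw [Units.val_mul, Units.val_mul, hd, mul_diagonal_of_supp _ σ hsupp, Matrix.mul_assoc,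
          hgg, Matrix.mul_one]
      intro i j hij
      rw [this, Matrix.diagonal_apply_ne _ hij]
    · intro hh
      rw [mem_torus_iff] at hh ⊢
      set s : Matrix (Fin n) (Fin n) F := ((g * h * g⁻¹ : Matrix.GeneralLinearGroup (Fin n) F) : Matrix (Fin n) (Fin n) F) with hs
      have hsdiag : s = Matrix.diagonal (fun i => s i i) := by
        ext p q
        by_cases hpq : p = q
        · subst hpq; simp
        · rw [hh p q hpq, Matrix.diagonal_apply_ne _ hpq]
      have hsg : s * (g : Matrix (Fin n) (Fin n) F) = (g : Matrix (Fin n) (Fin n) F) * (h : Matrix (Fin n) (Fin n) F) := by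
        rw [hs, Units.val_mul, Units.val_mul, Matrix.mul_assoc, hgg', Matrix.mul_one]
      have key := mul_diagonal_of_supp (g : Matrix (Fin n) (Fin n) F) σ hsupp ((fun i => s i i) ∘ e.symm)
      have hcomp : ((fun i => s i i) ∘ e.symm) ∘ σ = fun i => s i i := by
        funext i
        show s (e.symm (σ i)) (e.symm (σ i)) = s i i
        have : e.symm (σ i) = i := e.symm_apply_apply i
        rw [this]
      rw [hcomp, ← hsdiag, hsg] at key
      have hh' : (h : Matrix (Fin n) (Fin n) F) = Matrix.diagonal ((fun i => s i i) ∘ e.symm) := by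
        have := congrArg (fun M => ((g⁻¹ : Matrix.GeneralLinearGroup (Fin n) F) : Matrix (Fin n) (Fin n) F) * M) key
        simp only [← Matrix.mul_assoc, hgg', Matrix.one_mul] at this
        exact this.symm
      intro i j hij
      rw [hh', Matrix.diagonal_apply_ne _ hij]

end Cfsg.Agent.S0770
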