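import Cfsg.Statements.S0777
import Cfsg.Agent.Helper6.SpTorus

set_option autoImplicit false
open Cfsg

namespace Cfsg.Agent.S0777

open Cfsg.Agent Cfsg.Agent.Helper6 in
/-- Weyl group of type C_m: for q ≥ 4 the diagonal matrices of Sp_2m(q) form a torus T ≅ (C_(q−1))^m (the elements stabilising every coordinate axis), and the normaliser of T in Sp_2m(q) has order 2^m · m! · (q − 1)^m. -/
theorem result {F : Type*} [Field F] [Fintype F] {q : ℕ} (hF : Fintype.card F = q) (hq : 4 ≤ q) (m : ℕ) : Nat.card ↥(Subgroup.normalizer (⨅ i : Fin m ⊕ Fin m, Cfsg.stabilizing (Cfsg.spToMat m F) ((Submodule.span F {(Pi.single i (1 : F) : Fin m ⊕ Fin m → F)} : Submodule F (Fin m ⊕ Fin m → F)) : Set (Fin m ⊕ Fin m → F)) : Set (Matrix.symplecticGroup (Fin m) F))) = 2 ^ m * Nat.factorial m * (q - 1) ^ m := by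
  classical
  have hex : ∃ t : F, t ≠ 0 ∧ t * t ≠ 1 := by
    by_contra hcon
    push Not at hcon
    have hsub : (Finset.univ : Finset F) ⊆ {0, 1, -1} := by
      intro t _
      by_cases ht : t = 0
      · simp [ht]
      · have h1 := hcon t ht
        have h2 : (t - 1) * (t + 1) = 0 := by
          have : (t - 1) * (t + 1) = t * t - 1 := by ring
          rw [this, h1, sub_self]
        rcases mul_eq_zero.mp h2 with h3 | h3
        · have : t = 1 := sub_eq_zero.mp h3
          simp [this]
        · have : t = -1 := eq_neg_of_add_eq_zero_left h3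
          simp [this]
    have h4 := Finset.card_le_card hsub
    have h5 : ({0, 1, -1} : Finset F).card ≤ 3 := Finset.card_le_three
    rw [Finset.card_univ, hF] at h4
    omega
  have h := SpTorus.card_normalizer_torus hex m
  rw [Nat.card_eq_fintype_card (α := F), hF] at h
  have hset : (⨅ i : Fin m ⊕ Fin m, ((Cfsg.stabilizing (Cfsg.spToMat m F) ((Submodule.span F {(Pi.single i (1 : F) : Fin m ⊕ Fin m → F)} : Submodule F (Fin m ⊕ Fin m → F)) : Set (Fin m ⊕ Fin m → F)) : Subgroup (Matrix.symplecticGroup (Fin m) F)) : Set (Matrix.symplecticGroup (Fin m) F))) = ((SpTorus.torus m F : Subgroup (Matrix.symplecticGroup (Fin m) F)) : Set (Matrix.symplecticGroup (Fin m) F)) := by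
    unfold SpTorus.torus
    rw [Subgroup.coe_iInf]
    rfl
  rw [hset]
  exact h

end Cfsg.Agent.S0777
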