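import Cfsg.Statements.S0778
-- import your own Cfsg.Agent.* helpers here
import Mathlib

set_option autoImplicit false
open Cfsg

namespace Cfsg.Agent.S0778

open Matrix in
theorem aux {F : Type*} [Field F] (m : ℕ) : Nonempty (↥(Cfsg.stabilizing (Cfsg.spToMat m F) {v : Fin m ⊕ Fin m → F | ∀ i : Fin m, v (Sum.inr i) = 0} ⊓ Cfsg.stabilizing (Cfsg.spToMat m F) {v : Fin m ⊕ Fin m → F | ∀ i : Fin m, v (Sum.inl i) = 0}) ≃* Matrix.GeneralLinearGroup (Fin m) F) := by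
  classical
  have hXi : ∀ X : GL (Fin m) F, (X : Matrix (Fin m) (Fin m) F)
      * ((X⁻¹ : GL (Fin m) F) : Matrix (Fin m) (Fin m) F) = 1 := fun X => by
    rw [← Units.val_mul, mul_inv_cancel, Units.val_one]
  have hiX : ∀ X : GL (Fin m) F, ((X⁻¹ : GL (Fin m) F) : Matrix (Fin m) (Fin m) F)
      * (X : Matrix (Fin m) (Fin m) F) = 1 := fun X => by
    rw [← Units.val_mul, inv_mul_cancel, Units.val_one]
  have hinv : ∀ (P Q : Matrix (Fin m) (Fin m) F), Q * P = 1 → ∀ w : Fin m → F,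
      (∀ i, w i = 0) ↔ ∀ i, (P *ᵥ w) i = 0 := by
    intro P Q hQP w
    constructor
    · intro h i
      have : w = 0 := funext h
      rw [this, Matrix.mulVec_zero]
      rfl
    · intro h i
      have h0 : P *ᵥ w = 0 := funext h
      have h1 : Q *ᵥ (P *ᵥ w) = 0 := by rw [h0, Matrix.mulVec_zero]
      rw [Matrix.mulVec_mulVec, hQP, Matrix.one_mulVec] at h1
      exact congrFun h1 i
  have hsymp : ∀ X : GL (Fin m) F, Matrix.fromBlocks (X : Matrix (Fin m) (Fin m) F) 0 0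
      ((X⁻¹ : GL (Fin m) F) : Matrix (Fin m) (Fin m) F)ᵀ ∈ Matrix.symplecticGroup (Fin m) F := by
    intro X
    rw [SymplecticGroup.mem_iff, Matrix.J, Matrix.fromBlocks_multiply,
      Matrix.fromBlocks_transpose, Matrix.fromBlocks_multiply]
    have hT : ((X⁻¹ : GL (Fin m) F) : Matrix (Fin m) (Fin m) F)ᵀ
        * (X : Matrix (Fin m) (Fin m) F)ᵀ = 1 := by
      rw [← Matrix.transpose_mul, hXi, Matrix.transpose_one]
    simp only [Matrix.transpose_zero, Matrix.transpose_transpose, mul_zero, zero_mul, add_zero,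
      zero_add, mul_one, mul_neg, neg_mul, hXi, hT, neg_zero]
  have hstab : ∀ X : GL (Fin m) F, (⟨_, hsymp X⟩ : Matrix.symplecticGroup (Fin m) F) ∈
      (Cfsg.stabilizing (Cfsg.spToMat m F) {v : Fin m ⊕ Fin m → F | ∀ i : Fin m, v (Sum.inr i) = 0}
        ⊓ Cfsg.stabilizing (Cfsg.spToMat m F)
          {v : Fin m ⊕ Fin m → F | ∀ i : Fin m, v (Sum.inl i) = 0}) := by
    intro X
    refine Subgroup.mem_inf.2 ⟨?_, ?_⟩
    · intro v
      show (∀ i, v (Sum.inr i) = 0) ↔ ∀ i, (Matrix.fromBlocks (X : Matrix (Fin m) (Fin m) F) 0 0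
        ((X⁻¹ : GL (Fin m) F) : Matrix (Fin m) (Fin m) F)ᵀ *ᵥ v) (Sum.inr i) = 0
      have e : ∀ i, (Matrix.fromBlocks (X : Matrix (Fin m) (Fin m) F) 0 0
          ((X⁻¹ : GL (Fin m) F) : Matrix (Fin m) (Fin m) F)ᵀ *ᵥ v) (Sum.inr i)
          = (((X⁻¹ : GL (Fin m) F) : Matrix (Fin m) (Fin m) F)ᵀ *ᵥ (v ∘ Sum.inr)) i := by
        intro i
        rw [Matrix.fromBlocks_mulVec]
        simp
      simp only [e]
      exact hinv _ ((X : Matrix (Fin m) (Fin m) F)ᵀ)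
        (by rw [← Matrix.transpose_mul, hiX, Matrix.transpose_one]) (v ∘ Sum.inr)
    · intro v
      show (∀ i, v (Sum.inl i) = 0) ↔ ∀ i, (Matrix.fromBlocks (X : Matrix (Fin m) (Fin m) F) 0 0
        ((X⁻¹ : GL (Fin m) F) : Matrix (Fin m) (Fin m) F)ᵀ *ᵥ v) (Sum.inl i) = 0
      have e : ∀ i, (Matrix.fromBlocks (X : Matrix (Fin m) (Fin m) F) 0 0
          ((X⁻¹ : GL (Fin m) F) : Matrix (Fin m) (Fin m) F)ᵀ *ᵥ v) (Sum.inl i)
          = ((X : Matrix (Fin m) (Fin m) F) *ᵥ (v ∘ Sum.inl)) i := by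
        intro i
        rw [Matrix.fromBlocks_mulVec]
        simp
      simp only [e]
      exact hinv _ ((X⁻¹ : GL (Fin m) F) : Matrix (Fin m) (Fin m) F) (hiX X) (v ∘ Sum.inl)
  obtain ⟨ψ, hψ⟩ : ∃ ψ : GL (Fin m) F →
      ↥(Cfsg.stabilizing (Cfsg.spToMat m F) {v : Fin m ⊕ Fin m → F | ∀ i : Fin m, v (Sum.inr i) = 0}
        ⊓ Cfsg.stabilizing (Cfsg.spToMat m F)
          {v : Fin m ⊕ Fin m → F | ∀ i : Fin m, v (Sum.inl i) = 0}),
      ∀ X, ((ψ X : Matrix.symplecticGroup (Fin m) F) : Matrix (Fin m ⊕ Fin m) (Fin m ⊕ Fin m) F)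
        = Matrix.fromBlocks (X : Matrix (Fin m) (Fin m) F) 0 0
          ((X⁻¹ : GL (Fin m) F) : Matrix (Fin m) (Fin m) F)ᵀ :=
    ⟨fun X => ⟨⟨_, hsymp X⟩, hstab X⟩, fun X => rfl⟩
  have hmul : ∀ X Y, ψ (X * Y) = ψ X * ψ Y := by
    intro X Y
    apply Subtype.ext
    apply Subtype.ext
    have e : (((ψ X * ψ Y : ↥(Cfsg.stabilizing (Cfsg.spToMat m F) {v : Fin m ⊕ Fin m → F | ∀ i : Fin m, v (Sum.inr i) = 0}
        ⊓ Cfsg.stabilizing (Cfsg.spToMat m F)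
          {v : Fin m ⊕ Fin m → F | ∀ i : Fin m, v (Sum.inl i) = 0})) : Matrix.symplecticGroup (Fin m) F) : Matrix (Fin m ⊕ Fin m) (Fin m ⊕ Fin m) F)
        = ((ψ X : Matrix.symplecticGroup (Fin m) F) : Matrix (Fin m ⊕ Fin m) (Fin m ⊕ Fin m) F)
          * ((ψ Y : Matrix.symplecticGroup (Fin m) F) : Matrix (Fin m ⊕ Fin m) (Fin m ⊕ Fin m) F) := rfl
    rw [e, hψ, hψ, hψ, Matrix.fromBlocks_multiply]
    simp [Matrix.transpose_mul]
  have hinj : Function.Injective ψ := by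
    intro X Y hXY
    have h1 := hψ X
    rw [hXY, hψ Y] at h1
    exact Units.ext (Matrix.fromBlocks_inj.1 h1).1.symm
  have hsurj : Function.Surjective ψ := by
    rintro ⟨⟨A, hA⟩, hAH⟩
    obtain ⟨hAW, hAU⟩ := Subgroup.mem_inf.1 hAH
    have hAW' : ∀ v : Fin m ⊕ Fin m → F, (∀ i, v (Sum.inr i) = 0) ↔ ∀ i, (A *ᵥ v) (Sum.inr i) = 0 := hAW
    have hAU' : ∀ v : Fin m ⊕ Fin m → F, (∀ i, v (Sum.inl i) = 0) ↔ ∀ i, (A *ᵥ v) (Sum.inl i) = 0 := hAU
    have h21 : A.toBlocks₂₁ = 0 := by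
      ext i j
      have := (hAW' (Pi.single (Sum.inl j) 1)).1 (fun i => by simp) i
      rw [Matrix.mulVec_single_one] at this
      simpa [Matrix.toBlocks₂₁] using this
    have h12 : A.toBlocks₁₂ = 0 := by
      ext i j
      have := (hAU' (Pi.single (Sum.inr j) 1)).1 (fun i => by simp) i
      rw [Matrix.mulVec_single_one] at this
      simpa [Matrix.toBlocks₁₂] using this
    obtain ⟨X, Y, hAeq⟩ : ∃ X Y : Matrix (Fin m) (Fin m) F, A = Matrix.fromBlocks X 0 0 Y :=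
      ⟨A.toBlocks₁₁, A.toBlocks₂₂, by
        have := Matrix.fromBlocks_toBlocks A
        rw [h12, h21] at this
        exact this.symm⟩
    subst hAeq
    have hsy := (SymplecticGroup.mem_iff).1 hA
    rw [Matrix.J, Matrix.fromBlocks_multiply, Matrix.fromBlocks_transpose,
      Matrix.fromBlocks_multiply] at hsy
    have hXY : X * Yᵀ = 1 := by
      have := congrArg Matrix.toBlocks₁₂ hsy
      simp only [Matrix.toBlocks_fromBlocks₁₂] at this
      simpa using this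
    have hYX : Yᵀ * X = 1 := mul_eq_one_comm.1 hXY
    refine ⟨⟨X, Yᵀ, hXY, hYX⟩, ?_⟩
    apply Subtype.ext
    apply Subtype.ext
    rw [hψ]
    show Matrix.fromBlocks X 0 0 (Yᵀ)ᵀ = Matrix.fromBlocks X 0 0 Y
    rw [Matrix.transpose_transpose]
  exact ⟨(({ toEquiv := Equiv.ofBijective ψ ⟨hinj, hsurj⟩, map_mul' := hmul } :
    GL (Fin m) F ≃* _)).symm⟩

/-- The elements of Sp_2m(F) stabilising both W = ⟨e_1..e_m⟩ and U = ⟨f_1..f_m⟩ form a subgroup isomorphic to GL_m(F) (block-diagonal matrices diag(X, X^(−ᵀ)) up to the sign convention of J), for m ≥ 1 or m = 0 alike. -/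
theorem result {F : Type*} [Field F] (m : ℕ) : Nonempty (↥(Cfsg.stabilizing (Cfsg.spToMat m F) {v : Fin m ⊕ Fin m → F | ∀ i : Fin m, v (Sum.inr i) = 0} ⊓ Cfsg.stabilizing (Cfsg.spToMat m F) {v : Fin m ⊕ Fin m → F | ∀ i : Fin m, v (Sum.inl i) = 0}) ≃* Matrix.GeneralLinearGroup (Fin m) F) := by
  exact aux m

end Cfsg.Agent.S0778
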