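import Cfsg.Statements.S0779
-- import your own Cfsg.Agent.* helpers here
import Mathlib

set_option autoImplicit false
open Cfsg

namespace Cfsg.Agent.S0779

/-- Unitary transvections: let |F| = q², h the standard Hermitian form Σ x_i y_i^q and v ≠ 0 with h(v, v) = 0. The linear map x ↦ x + c h(x, v) v is an isometry of h if and only if c = 0 or c^(q−1) = −1. -/
theorem result {F : Type*} [Field F] [Fintype F] {q : ℕ} (hF : Fintype.card F = q ^ 2) (n : ℕ) (v : Fin n → F) (hv : v ≠ 0) (hv0 : Cfsg.hermForm n F q v v = 0) (c : F) : (∀ x y : Fin n → F, Cfsg.hermForm n F q ((Cfsg.unitaryTransvection n q v c).mulVec x) ((Cfsg.unitaryTransvection n q v c).mulVec y) = Cfsg.hermForm n F q x y) ↔ (c = 0 ∨ c ^ (q - 1) = -1) := by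
  classical
  obtain ⟨h, hh⟩ : ∃ h : (Fin n → F) → (Fin n → F) → F, h = Cfsg.hermForm n F q := ⟨_, rfl⟩
  have hq0 : q ≠ 0 := by
    rintro rfl
    have := Fintype.card_pos (α := F)
    rw [hF] at this
    simp at this
  obtain ⟨p, hp⟩ := CharP.exists F
  have hpp : p.Prime := CharP.char_is_prime F p
  haveI : Fact p.Prime := ⟨hpp⟩
  obtain ⟨k, -, hk⟩ := FiniteField.card F p
  obtain ⟨j, -, hj⟩ := (Nat.dvd_prime_pow hpp).1 (show q ∣ p ^ (k : ℕ) by
    rw [← hk, hF]
    exact dvd_pow_self q two_ne_zero)
  have hadd : ∀ a b : F, (a + b) ^ q = a ^ q + b ^ q := by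
    intro a b
    rw [hj]
    exact add_pow_char_pow a b p j
  have hsum : ∀ f : Fin n → F, (∑ i, f i) ^ q = ∑ i, f i ^ q := by
    intro f
    rw [hj]
    exact sum_pow_char_pow p j Finset.univ f
  have hq2 : ∀ a : F, (a ^ q) ^ q = a := by
    intro a
    rw [← pow_mul, ← pow_two, ← hF]
    exact FiniteField.pow_card a
  have hconj : ∀ x y, (h x y) ^ q = h y x := by
    intro x y
    rw [hh]
    unfold Cfsg.hermForm
    rw [hsum]
    refine Finset.sum_congr rfl (fun i _ => ?_)
    rw [mul_pow, hq2, mul_comm]
  have hexp : ∀ (x y : Fin n → F) (a b : F), h (x + a • v) (y + b • v)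
      = h x y + b ^ q * h x v + a * h v y + a * b ^ q * h v v := by
    intro x y a b
    rw [hh]
    unfold Cfsg.hermForm
    rw [Finset.mul_sum, Finset.mul_sum, Finset.mul_sum, ← Finset.sum_add_distrib,
      ← Finset.sum_add_distrib, ← Finset.sum_add_distrib]
    refine Finset.sum_congr rfl (fun i _ => ?_)
    simp only [Pi.add_apply, Pi.smul_apply, smul_eq_mul]
    rw [hadd, mul_pow]
    ring
  have hT : ∀ x, (Cfsg.unitaryTransvection n q v c).mulVec x = x + (c * h x v) • v := by
    intro x
    unfold Cfsg.unitaryTransvection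
    rw [Matrix.add_mulVec, Matrix.one_mulVec, Matrix.smul_mulVec, Matrix.vecMulVec_mulVec,
      op_smul_eq_smul, smul_smul]
    have e : (fun j => v j ^ q) ⬝ᵥ x = h x v := by
      rw [hh]
      unfold Cfsg.hermForm dotProduct
      exact Finset.sum_congr rfl (fun i _ => mul_comm _ _)
    rw [e]
  have hv0' : h v v = 0 := by
    rw [hh]
    exact hv0
  have hdiff : ∀ x y, h ((Cfsg.unitaryTransvection n q v c).mulVec x)
      ((Cfsg.unitaryTransvection n q v c).mulVec y)
        = h x y + (c ^ q + c) * (h x v * h v y) := by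
    intro x y
    rw [hT, hT, hexp, hv0', mul_pow, hconj y v]
    ring
  have hcq : c ^ q = c * c ^ (q - 1) := by
    rw [← pow_succ']
    congr 1
    omega
  rw [← hh]
  constructor
  · intro hiso
    obtain ⟨i, hi⟩ : ∃ i, v i ≠ 0 := by
      by_contra hcon
      push Not at hcon
      exact hv (funext hcon)
    have h1 := hiso (Pi.single i 1) (Pi.single i 1)
    rw [hdiff] at h1
    have hxv : h (Pi.single i 1) v = v i ^ q := by
      rw [hh]
      unfold Cfsg.hermForm
      rw [Finset.sum_eq_single i]
      · simp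
      · intro j _ hji
        simp [Pi.single_apply, hji]
      · intro hi
        exact absurd (Finset.mem_univ i) hi
    have hvy : h v (Pi.single i 1) = v i := by
      rw [← hconj, hxv, hq2]
    rw [hxv, hvy] at h1
    have h2 : (c ^ q + c) * (v i ^ q * v i) = 0 := by linear_combination h1
    have h3 : c ^ q + c = 0 := by
      rcases mul_eq_zero.1 h2 with h | h
      · exact h
      · exact absurd h (mul_ne_zero (pow_ne_zero _ hi) hi)
    by_cases hc : c = 0
    · exact Or.inl hc
    · right
      rw [hcq] at h3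
      have h4 : c * (c ^ (q - 1) + 1) = 0 := by linear_combination h3
      rcases mul_eq_zero.1 h4 with h | h
      · exact absurd h hc
      · exact eq_neg_of_add_eq_zero_left h
  · intro hc x y
    rw [hdiff]
    have h5 : c ^ q + c = 0 := by
      rcases hc with rfl | hc
      · rw [zero_pow hq0, add_zero]
      · rw [hcq, hc]
        ring
    rw [h5, zero_mul, add_zero]

end Cfsg.Agent.S0779
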