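import Cfsg.Statements.S0786
-- import your own Cfsg.Agent.* helpers here
import Mathlib
import Cfsg.Agent.Helper5.CD2

set_option autoImplicit false
open Cfsg

namespace Cfsg.Agent.S0786

/-- Generation by reflections: if F is finite, Q is a quadratic form on F^n with non-degenerate polar form, and (|F|, n) ≠ (2, 4), then the isometry group of Q is generated by the reflections r_v, Q(v) ≠ 0. -/
theorem result {F : Type*} [Field F] [Fintype F] {n : ℕ} (Q : QuadraticForm F (Fin n → F)) (hQ : (QuadraticMap.polarBilin Q).Nondegenerate) (h : Fintype.card F ≠ 2 ∨ n ≠ 4) : Subgroup.closure {g : ↥(Cfsg.isometryGroup F ⇑Q) | ∃ v : Fin n → F, Q v ≠ 0 ∧ ((g : Matrix.GeneralLinearGroup (Fin n) F) : Matrix (Fin n) (Fin n) F) = Cfsg.reflectionMatrix ⇑Q v} = ⊤ := by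
  rw [eq_top_iff]
  intro g _
  have hgen : ∃ e, Cfsg.Agent.Helper5.IR Q e ∧ ∀ v, e v =
      Matrix.toLin' ((g : Matrix.GeneralLinearGroup (Fin n) F) : Matrix (Fin n) (Fin n) F) v := by
    have hiso : ∀ v, Q (Matrix.toLin'
        ((g : Matrix.GeneralLinearGroup (Fin n) F) : Matrix (Fin n) (Fin n) F) v) = Q v := by
      intro v
      rw [Matrix.toLin'_apply]
      exact (Cfsg.Agent.Helper6.isometry_mem_iff ⇑Q _).1 g.2 v
    by_cases h2 : (2 : F) = 0
    · exact Cfsg.Agent.Helper5.cd_gen2 Q hQ h2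
        (by rw [Module.finrank_fintype_fun_eq_card, Fintype.card_fin]; exact h)
        (Cfsg.Agent.Helper5.IR Q)
        (Cfsg.Agent.Helper5.IR_refl Q) (Cfsg.Agent.Helper5.IR_trans Q)
        (Cfsg.Agent.Helper5.IR_reflEquiv Q) (Cfsg.Agent.Helper5.IR_iso Q) _ hiso
    · exact Cfsg.Agent.Helper5.cd_gen Q hQ h2 (Cfsg.Agent.Helper5.IR Q)
        (Cfsg.Agent.Helper5.IR_refl Q) (Cfsg.Agent.Helper5.IR_trans Q)
        (Cfsg.Agent.Helper5.IR_reflEquiv Q) (Cfsg.Agent.Helper5.IR_iso Q) _ hiso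
  obtain ⟨e, ⟨l, hl, hle⟩, he⟩ := hgen
  have hgl : l.prod = g := by
    apply Subtype.ext
    apply Units.ext
    apply Matrix.mulVec_injective
    funext x
    rw [hle x, he x, Matrix.toLin'_apply]
  rw [← hgl]
  exact Subgroup.list_prod_mem _ (fun y hy => Subgroup.subset_closure (hl y hy))

end Cfsg.Agent.S0786
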