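import Cfsg.Statements.S0787
-- import your own Cfsg.Agent.* helpers here
import Mathlib
import Cfsg.Agent.Helper5.OmegaAll

set_option autoImplicit false
open Cfsg

namespace Cfsg.Agent.S0787

/-- Existence and uniqueness of Ω: if F is finite, n ≥ 2, Q is a quadratic form on F^n with non-degenerate polar form and (|F|, n) ≠ (2, 4), then the group of isometries of determinant one has a unique subgroup of index 2. -/
theorem result {F : Type*} [Field F] [Fintype F] {n : ℕ} (hn : 2 ≤ n) (Q : QuadraticForm F (Fin n → F)) (hQ : (QuadraticMap.polarBilin Q).Nondegenerate) (h : Fintype.card F ≠ 2 ∨ n ≠ 4) : ∃! H : Subgroup ↥(Cfsg.specialIsometryGroup F ⇑Q), H.index = 2 := by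
  classical
  have h' : Fintype.card F ≠ 2 ∨ Fintype.card (Fin n) ≠ 4 := by
    rw [Fintype.card_fin]
    exact h
  have hsq := fun H hH => Cfsg.Agent.Helper5.omega_le_index_two Q hQ h' H hH
  by_cases h2 : (2 : F) = 0
  · obtain ⟨w, hw⟩ := Cfsg.Agent.Helper5.exists_nonsing Q hQ (⟨0, by omega⟩ : Fin n)
    refine Cfsg.Agent.Helper5.unique_index_two (Cfsg.specialIsometryGroup F ⇑Q)
      (commutator ↥(Cfsg.isometryGroup F ⇑Q)) (Cfsg.Agent.Helper5.dick2 h2 Q hQ)
      (fun g _ => Cfsg.Agent.Helper5.omega2_iff h2 Q hQ h' g)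
      (Cfsg.Agent.Helper5.reflEl Q w hw) ?_
      (Cfsg.Agent.Helper5.dick2_refl h2 Q hQ _ w hw (Cfsg.Agent.Helper5.actsRefl_reflEl Q w hw))
      hsq
    rw [Cfsg.Agent.Helper5.mem_SO_iff, Cfsg.Agent.Helper5.actsRefl_det Q _ w hw
      (Cfsg.Agent.Helper5.actsRefl_reflEl Q w hw)]
    linear_combination -h2
  · have hchar : ringChar F ≠ 2 := by
      intro h
      apply h2
      have h3 := CharP.cast_eq_zero F (ringChar F)
      rw [h] at h3
      exact_mod_cast h3
    obtain ⟨ε, hε⟩ := FiniteField.exists_nonsquare hchar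
    have hε0 : ε ≠ 0 := by
      rintro rfl
      exact hε IsSquare.zero
    obtain ⟨u, hu⟩ := Cfsg.Agent.Helper5.exists_norm_val h2 hn Q hQ 1
    obtain ⟨v, hv⟩ := Cfsg.Agent.Helper5.exists_norm_val h2 hn Q hQ ε
    have hu0 : Q u ≠ 0 := by
      rw [hu]
      exact one_ne_zero
    have hv0 : Q v ≠ 0 := by
      rw [hv]
      exact hε0
    refine Cfsg.Agent.Helper5.unique_index_two (Cfsg.specialIsometryGroup F ⇑Q)
      (commutator ↥(Cfsg.isometryGroup F ⇑Q)) (Cfsg.Agent.Helper5.chi Q 1)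
      (fun g hg => ?_)
      (Cfsg.Agent.Helper5.reflEl Q u hu0 * Cfsg.Agent.Helper5.reflEl Q v hv0) ?_ ?_ hsq
    · rw [Cfsg.Agent.Helper5.omega_mem_iff h2 (⟨0, by omega⟩ : Fin n) ⟨1, by omega⟩
        (by simp [Fin.ext_iff]) Q hQ g]
      rw [Cfsg.Agent.Helper5.mem_SO_iff] at hg
      exact ⟨fun h => h.1, fun h => ⟨h, hg⟩⟩
    · rw [Cfsg.Agent.Helper5.mem_SO_iff, Subgroup.coe_mul, Units.val_mul, Matrix.det_mul,
        Cfsg.Agent.Helper5.actsRefl_det Q _ u hu0 (Cfsg.Agent.Helper5.actsRefl_reflEl Q u hu0),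
        Cfsg.Agent.Helper5.actsRefl_det Q _ v hv0 (Cfsg.Agent.Helper5.actsRefl_reflEl Q v hv0)]
      ring
    · have hc1 := Cfsg.Agent.Helper5.chi_refl h2 Q 1 one_ne_zero u hu0 _
        (Cfsg.Agent.Helper5.actsRefl_reflEl Q u hu0)
      have hc2 := Cfsg.Agent.Helper5.chi_refl h2 Q 1 one_ne_zero v hv0 _
        (Cfsg.Agent.Helper5.actsRefl_reflEl Q v hv0)
      have hnot : ¬ ∃ t, t * t * Q v = 1 := by
        rintro ⟨t, ht⟩
        rw [hv] at ht
        have ht0 : t ≠ 0 := by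
          rintro rfl
          simp at ht
        apply hε
        refine ⟨t⁻¹, ?_⟩
        field_simp
        linear_combination ht
      rw [map_mul, hc1.1 ⟨1, by rw [hu]; ring⟩, hc2.2 hnot]
      rfl

end Cfsg.Agent.S0787
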