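import Cfsg.Statements.S0789
-- import your own Cfsg.Agent.* helpers here
import Mathlib
import Cfsg.Agent.Helper5.Dickson2

set_option autoImplicit false
open Cfsg

namespace Cfsg.Agent.S0789

/-- Ω has index 2 in O for q even: if F is finite of characteristic two, n ≥ 2, Q is a quadratic form on F^n with non-degenerate polar form, and (|F|, n) ≠ (2, 4), then the commutator subgroup of the isometry group of Q has index 2 in it. -/
theorem result {F : Type*} [Field F] [Fintype F] [CharP F 2] {n : ℕ} (hn : 2 ≤ n) (Q : QuadraticForm F (Fin n → F)) (hQ : (QuadraticMap.polarBilin Q).Nondegenerate) (h : Fintype.card F ≠ 2 ∨ n ≠ 4) : (Cfsg.Omega F ⇑Q).index = 2 := by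
  have h2 : (2 : F) = 0 := by exact_mod_cast CharP.cast_eq_zero F 2
  have h' : Fintype.card F ≠ 2 ∨ Fintype.card (Fin n) ≠ 4 := by
    rw [Fintype.card_fin]
    exact h
  obtain ⟨w, hw⟩ : ∃ w, Q w ≠ 0 := by
    by_contra hcon
    push Not at hcon
    have h0 : ∀ v : Fin n → F, v = 0 := by
      intro v
      apply hQ.1 v
      intro y
      change QuadraticMap.polar (⇑Q) v y = 0
      rw [Cfsg.Agent.Helper5.kit_polar_def, hcon, hcon, hcon]
      ring
    have h1 := h0 (fun _ => 1)
    have h3 := congrFun h1 ⟨0, by omega⟩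
    exact one_ne_zero h3
  change (commutator ↥(Cfsg.isometryGroup F ⇑Q)).index = 2
  rw [Subgroup.index_eq_two_iff_exists_notMem_and']
  refine ⟨Cfsg.Agent.Helper5.reflEl Q w hw, ?_, fun b => ?_⟩
  · rw [Cfsg.Agent.Helper5.omega2_iff h2 Q hQ h', Cfsg.Agent.Helper5.dick2_refl h2 Q hQ _ w hw
      (Cfsg.Agent.Helper5.actsRefl_reflEl Q w hw)]
    decide
  · rw [Cfsg.Agent.Helper5.omega2_iff h2 Q hQ h', Cfsg.Agent.Helper5.omega2_iff h2 Q hQ h',
      map_mul, Cfsg.Agent.Helper5.dick2_refl h2 Q hQ _ w hw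
      (Cfsg.Agent.Helper5.actsRefl_reflEl Q w hw)]
    rcases Int.units_eq_one_or (Cfsg.Agent.Helper5.dick2 h2 Q hQ b) with h5 | h5
    · right
      exact h5
    · left
      rw [h5]
      rfl

end Cfsg.Agent.S0789
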