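import Cfsg.Statements.S0792
-- import your own Cfsg.Agent.* helpers here
import Mathlib
import Cfsg.Agent.Helper5.CartanDieu

set_option autoImplicit false
open Cfsg

namespace Cfsg.Agent.S0792

/-- For q odd and Q with non-degenerate polar form on F^n, the determinant-one isometries form the subgroup generated by all products r_u r_v of two reflections (Q(u), Q(v) ≠ 0). -/
theorem result {F : Type*} [Field F] [Fintype F] (h2 : (2 : F) ≠ 0) {n : ℕ} (Q : QuadraticForm F (Fin n → F)) (hQ : (QuadraticMap.polarBilin Q).Nondegenerate) : Cfsg.specialIsometryGroup F ⇑Q = Subgroup.closure {g : ↥(Cfsg.isometryGroup F ⇑Q) | ∃ u v : Fin n → F, Q u ≠ 0 ∧ Q v ≠ 0 ∧ ((g : Matrix.GeneralLinearGroup (Fin n) F) : Matrix (Fin n) (Fin n) F) = Cfsg.reflectionMatrix ⇑Q u * Cfsg.reflectionMatrix ⇑Q v} := by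
  apply le_antisymm
  · intro g hg
    have hdet : ((g : Matrix.GeneralLinearGroup (Fin n) F) : Matrix (Fin n) (Fin n) F).det = 1 := by
      have h3 : Matrix.GeneralLinearGroup.det (g : Matrix.GeneralLinearGroup (Fin n) F) = 1 := hg
      have h4 := congrArg (fun u : Fˣ => (u : F)) h3
      simpa using h4
    obtain ⟨e, ⟨l, hl, hle⟩, he⟩ := Cfsg.Agent.Helper5.cd_gen Q hQ h2 (Cfsg.Agent.Helper5.IR Q)
      (Cfsg.Agent.Helper5.IR_refl Q) (Cfsg.Agent.Helper5.IR_trans Q)
      (Cfsg.Agent.Helper5.IR_reflEquiv Q) (Cfsg.Agent.Helper5.IR_iso Q)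
      (Matrix.toLin' ((g : Matrix.GeneralLinearGroup (Fin n) F) : Matrix (Fin n) (Fin n) F))
      (fun v => by
        rw [Matrix.toLin'_apply]
        exact (Cfsg.Agent.Helper6.isometry_mem_iff ⇑Q _).1 g.2 v)
    have hgl : l.prod = g := by
      apply Subtype.ext
      apply Units.ext
      apply Matrix.mulVec_injective
      funext x
      rw [hle x, he x, Matrix.toLin'_apply]
    have hlen : Even l.length := by
      have h1 := Cfsg.Agent.Helper5.det_list Q l hl
      rw [hgl, hdet] at h1
      by_contra hodd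
      rw [Nat.not_even_iff_odd] at hodd
      rw [hodd.neg_one_pow] at h1
      apply h2
      linear_combination h1
    obtain ⟨k, hk⟩ := hlen
    rw [← hgl]
    exact Cfsg.Agent.Helper5.pairs_mem Q k l (by omega) hl
  · rw [Subgroup.closure_le]
    rintro g ⟨u, v, hu, hv, hg⟩
    change Matrix.GeneralLinearGroup.det (g : Matrix.GeneralLinearGroup (Fin n) F) = 1
    apply Units.ext
    rw [Matrix.GeneralLinearGroup.val_det_apply, hg, Matrix.det_mul,
      Cfsg.Agent.Helper6.reflectionMatrix_det Q u hu,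
      Cfsg.Agent.Helper6.reflectionMatrix_det Q v hv]
    simp

end Cfsg.Agent.S0792
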