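import Cfsg.Statements.S0796
import Mathlib

set_option autoImplicit false
open Cfsg

namespace Cfsg.Agent.S0796

/-- If G is finite and acts faithfully and primitively on X, H is the stabiliser of a point, A is a normal subgroup of H whose normal closure in G is G, then for every non-trivial normal subgroup K of G the quotient G ⧸ K is isomorphic to A ⧸ B for some normal subgroup B of A. -/
theorem result {G X : Type*} [Group G] [Finite G] [MulAction G X] [FaithfulSMul G X] (hprim : MulAction.IsPreprimitive G X) (x : X) (A : Subgroup G) (hA : A ≤ MulAction.stabilizer G x) (hAn : (A.subgroupOf (MulAction.stabilizer G x)).Normal) (hgen : Subgroup.normalClosure (A : Set G) = ⊤) (K : Subgroup G) [K.Normal] (hK : K ≠ ⊥) : ∃ (B : Subgroup A) (_ : B.Normal), Nonempty (G ⧸ K ≃* A ⧸ B) := by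
  -- K is transitive
  have hfix : MulAction.fixedPoints K X ≠ Set.univ := by
    intro h
    apply hK
    rw [Subgroup.eq_bot_iff_forall]
    intro k hk
    apply FaithfulSMul.eq_of_smul_eq_smul (α := X)
    intro y
    have : y ∈ MulAction.fixedPoints K X := by rw [h]; exact Set.mem_univ y
    have h2 := this ⟨k, hk⟩
    rw [one_smul]
    exact h2
  have htrans : MulAction.IsPretransitive K X :=
    MulAction.IsQuasiPreprimitive.isPretransitive_of_normal hfix
  -- every g is k * s
  have hdecomp : ∀ g : G, ∃ k ∈ K, ∃ s ∈ MulAction.stabilizer G x, g = k * s := by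
    intro g
    obtain ⟨k, hk⟩ := MulAction.exists_smul_eq K x (g • x)
    refine ⟨k, k.2, (k : G)⁻¹ * g, ?_, by group⟩
    rw [MulAction.mem_stabilizer_iff, mul_smul, inv_smul_eq_iff]
    exact hk.symm
  have hconjA : ∀ s ∈ MulAction.stabilizer G x, ∀ a ∈ A, s * a * s⁻¹ ∈ A := by
    intro s hs a ha
    have := hAn.conj_mem ⟨a, hA ha⟩ (Subgroup.mem_subgroupOf.mpr ha) ⟨s, hs⟩
    exact Subgroup.mem_subgroupOf.mp this
  have htop : A ⊔ K = ⊤ := by
    rw [eq_top_iff, ← hgen, Subgroup.normalClosure]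
    rw [Subgroup.closure_le]
    intro y hy
    rw [Group.mem_conjugatesOfSet_iff] at hy
    obtain ⟨a, ha, hconj⟩ := hy
    obtain ⟨g, rfl⟩ := isConj_iff.mp hconj
    obtain ⟨k, hk, s, hs, rfl⟩ := hdecomp g
    have ha' : s * a * s⁻¹ ∈ A := hconjA s hs a ha
    have e : k * s * a * (k * s)⁻¹ = (s * a * s⁻¹) * ((s * a * s⁻¹)⁻¹ * k * (s * a * s⁻¹) * k⁻¹) := by
      group
    show k * s * a * (k * s)⁻¹ ∈ A ⊔ K
    rw [e]
    apply Subgroup.mul_mem
    · exact Subgroup.mem_sup_left ha'
    · apply Subgroup.mem_sup_right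
      refine Subgroup.mul_mem _ ?_ (Subgroup.inv_mem _ hk)
      have := Subgroup.Normal.conj_mem (inferInstance : K.Normal) k hk (s * a * s⁻¹)⁻¹
      simpa using this
  let φ : A →* G ⧸ K := (QuotientGroup.mk' K).comp A.subtype
  have hsurj : Function.Surjective φ := by
    intro q
    obtain ⟨g, rfl⟩ := QuotientGroup.mk_surjective q
    have hg : g ∈ ((A ⊔ K : Subgroup G) : Set G) := by rw [htop]; exact Set.mem_univ g
    rw [Subgroup.mul_normal] at hg
    obtain ⟨a, ha, k, hk, rfl⟩ := Set.mem_mul.mp hg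
    refine ⟨⟨a, ha⟩, ?_⟩
    show (QuotientGroup.mk a : G ⧸ K) = QuotientGroup.mk (a * k)
    rw [QuotientGroup.eq]
    simpa using hk
  exact ⟨φ.ker, inferInstance, ⟨(QuotientGroup.quotientKerEquivOfSurjective φ hsurj).symm⟩⟩

end Cfsg.Agent.S0796
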