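import Cfsg.Statements.S0797
-- import your own Cfsg.Agent.* helpers here
import Mathlib
import Cfsg.Agent.Helper5.OmegaChar

set_option autoImplicit false
open Cfsg

namespace Cfsg.Agent.S0797

/-- A Klein four-group has exactly three subgroups of index two. -/
theorem klein_index_two : Nat.card {K : Subgroup (ℤˣ × ℤˣ) // K.index = 2} = 3 := by
  have hx2 : ∀ x : ℤˣ × ℤˣ, x ^ 2 = 1 := fun x => Prod.ext (Int.units_sq x.1) (Int.units_sq x.2)
  have hcardA : Nat.card (ℤˣ × ℤˣ) = 4 := by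
    rw [Nat.card_prod, Nat.card_eq_fintype_card, Fintype.card_units_int]
  have hord : ∀ x : ℤˣ × ℤˣ, x ≠ 1 → Nat.card (Subgroup.zpowers x) = 2 := by
    intro x hx
    rw [Nat.card_zpowers]
    exact orderOf_eq_prime (hx2 x) hx
  have hidx : ∀ K : Subgroup (ℤˣ × ℤˣ), K.index = 2 ↔ Nat.card K = 2 := by
    intro K
    have h := K.card_mul_index
    rw [hcardA] at h
    constructor
    · intro h1
      rw [h1] at h
      omega
    · intro h1
      rw [h1] at h
      omega
  obtain ⟨f, hf⟩ : ∃ f : {x : ℤˣ × ℤˣ // x ≠ 1} → {K : Subgroup (ℤˣ × ℤˣ) // K.index = 2},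
      ∀ x, (f x).1 = Subgroup.zpowers x.1 :=
    ⟨fun x => ⟨Subgroup.zpowers x.1, (hidx _).2 (hord x.1 x.2)⟩, fun x => rfl⟩
  have hbij : Function.Bijective f := by
    constructor
    · intro x y hxy
      have h1 : Subgroup.zpowers x.1 = Subgroup.zpowers y.1 := by
        rw [← hf, ← hf, hxy]
      obtain ⟨z, -, hz⟩ := (Nat.card_eq_two_iff' (1 : Subgroup.zpowers y.1)).1 (hord y.1 y.2)
      have hxm : x.1 ∈ Subgroup.zpowers y.1 := by
        rw [← h1]
        exact Subgroup.mem_zpowers x.1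
      have hx' := hz ⟨x.1, hxm⟩ (fun h => x.2 (congrArg Subtype.val h))
      have hy' := hz ⟨y.1, Subgroup.mem_zpowers y.1⟩ (fun h => y.2 (congrArg Subtype.val h))
      have h5 : (⟨x.1, hxm⟩ : ↥(Subgroup.zpowers y.1)) = ⟨y.1, Subgroup.mem_zpowers y.1⟩ :=
        hx'.trans hy'.symm
      apply Subtype.ext
      exact congrArg (fun t : ↥(Subgroup.zpowers y.1) => (t : ℤˣ × ℤˣ)) h5
    · intro K
      have hK2 : Nat.card K.1 = 2 := (hidx K.1).1 K.2
      obtain ⟨z, hz1, -⟩ := (Nat.card_eq_two_iff' (1 : K.1)).1 hK2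
      have hz1' : z.1 ≠ 1 := fun h => hz1 (Subtype.ext h)
      refine ⟨⟨z.1, hz1'⟩, ?_⟩
      apply Subtype.ext
      rw [hf]
      exact Subgroup.eq_of_le_of_card_ge (Subgroup.zpowers_le.2 z.2)
        (by rw [hK2, hord z.1 hz1'])
  rw [← Nat.card_eq_of_bijective f hbij, Nat.card_eq_fintype_card]
  decide

/-- O^ε_2m(q) ≅ Ω.2² for q odd: if F is finite of odd characteristic, n ≥ 2 is even and Q has non-degenerate polar form on F^n, the isometry group of Q has exactly three subgroups of index 2. -/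
theorem result {F : Type*} [Field F] [Fintype F] (h2 : (2 : F) ≠ 0) {n : ℕ} (hn : 2 ≤ n) (heven : Even n) (Q : QuadraticForm F (Fin n → F)) (hQ : (QuadraticMap.polarBilin Q).Nondegenerate) : Nat.card {H : Subgroup ↥(Cfsg.isometryGroup F ⇑Q) // H.index = 2} = 3 := by
  obtain ⟨Ψ, hsurj, hker⟩ := Cfsg.Agent.Helper5.omega_char h2 hn Q hQ
  have hcomm : ∀ H : Subgroup ↥(Cfsg.isometryGroup F ⇑Q), H.index = 2 → Ψ.ker ≤ H := by
    intro H hH
    rw [hker, commutator_eq_closure, Subgroup.closure_le]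
    rintro _ ⟨a, b, rfl⟩
    rw [SetLike.mem_coe, commutatorElement_def, Subgroup.mul_mem_iff_of_index_two hH,
      Subgroup.mul_mem_iff_of_index_two hH, Subgroup.mul_mem_iff_of_index_two hH,
      inv_mem_iff, inv_mem_iff]
    tauto
  have e : {H : Subgroup ↥(Cfsg.isometryGroup F ⇑Q) // H.index = 2}
      ≃ {K : Subgroup (ℤˣ × ℤˣ) // K.index = 2} :=
    { toFun := fun H => ⟨H.1.map Ψ, by
        rw [Subgroup.index_map_eq H.1 hsurj (hcomm H.1 H.2)]
        exact H.2⟩
      invFun := fun K => ⟨K.1.comap Ψ, by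
        rw [Subgroup.index_comap_of_surjective _ hsurj]
        exact K.2⟩
      left_inv := fun H => Subtype.ext (Subgroup.comap_map_eq_self (hcomm H.1 H.2))
      right_inv := fun K => Subtype.ext (Subgroup.map_comap_eq_self_of_surjective hsurj K.1) }
  rw [Nat.card_congr e]
  exact klein_index_two

end Cfsg.Agent.S0797
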