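import Cfsg.Statements.S0800
-- import your own Cfsg.Agent.* helpers here
import Mathlib

set_option autoImplicit false
open Cfsg

namespace Cfsg.Agent.S0800

open Polynomial in
theorem aux {F : Type*} [Field F] [Fintype F] (p : ℕ) [hp : Fact p.Prime] [CharP F p] (t : F) :
    ∃ E : ℕ, ((X : F[X]) ^ 2 - C t * X + 1) ∣ X ^ E - 1 ∧
      (E = Fintype.card F - 1 ∨ E = Fintype.card F + 1 ∨ E = 2 * p) := by
  classical
  obtain ⟨n, hn⟩ := FiniteField.card F p
  obtain ⟨k, hk⟩ : ∃ k : ℕ, Fintype.card F = p ^ k := ⟨n, hn.2⟩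
  have hcK : CharP (AlgebraicClosure F) p :=
    charP_of_injective_algebraMap (algebraMap F (AlgebraicClosure F)).injective p
  obtain ⟨t', ht'⟩ : ∃ t' : AlgebraicClosure F, t' = algebraMap F (AlgebraicClosure F) t :=
    ⟨_, rfl⟩
  obtain ⟨l, hl⟩ : ∃ l : AlgebraicClosure F, l ^ 2 - t' * l + 1 = 0 := by
    have hdeg : (C (1 : AlgebraicClosure F) * X ^ 2 + C (-t') * X + C 1).degree ≠ 0 := by
      rw [Polynomial.degree_quadratic one_ne_zero]
      decide
    obtain ⟨l, hl⟩ := IsAlgClosed.exists_root _ hdeg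
    refine ⟨l, ?_⟩
    have h1 : Polynomial.eval l (C (1 : AlgebraicClosure F) * X ^ 2 + C (-t') * X + C 1) = 0 := hl
    simp only [Polynomial.eval_add, Polynomial.eval_mul, Polynomial.eval_C, Polynomial.eval_pow,
      Polynomial.eval_X] at h1
    linear_combination h1
  obtain ⟨u, hu⟩ : ∃ u : AlgebraicClosure F, u = t' - l := ⟨_, rfl⟩
  have hlu : l * u = 1 := by
    rw [hu]
    linear_combination -hl
  have hl0 : l ≠ 0 := fun h => by
    rw [h, zero_mul] at hlu
    exact zero_ne_one hlu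
  have ht'q : t' ^ p ^ k = t' := by
    rw [ht', ← map_pow, ← hk, FiniteField.pow_card]
  have hfrob : (l ^ p ^ k) ^ 2 - t' * l ^ p ^ k + 1 = 0 := by
    have h1 : (l ^ 2 - t' * l + 1) ^ p ^ k = 0 := by
      rw [hl, zero_pow (pow_ne_zero _ hp.out.ne_zero)]
    rw [add_pow_char_pow, sub_pow_char_pow, one_pow, mul_pow, ht'q] at h1
    rw [← h1]
    ring
  have hcase : l ^ p ^ k = l ∨ l ^ p ^ k = u := by
    have h1 : (l ^ p ^ k - l) * (l ^ p ^ k - u) = 0 := by
      rw [hu]
      linear_combination hfrob - hl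
    rcases mul_eq_zero.1 h1 with h | h
    · left
      exact sub_eq_zero.1 h
    · right
      exact sub_eq_zero.1 h
  obtain ⟨E, hE, hlE, huE⟩ : ∃ E : ℕ, (E = p ^ k - 1 ∨ E = p ^ k + 1) ∧ l ^ E = 1 ∧ u ^ E = 1 := by
    have hpk : 1 ≤ p ^ k := Nat.one_le_pow _ _ hp.out.pos
    rcases hcase with h | h
    · have h1 : l ^ (p ^ k - 1) = 1 := by
        have h2 : l ^ (p ^ k - 1) * l = 1 * l := by
          rw [← pow_succ, Nat.sub_add_cancel hpk, h, one_mul]
        exact mul_right_cancel₀ hl0 h2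
      refine ⟨p ^ k - 1, Or.inl rfl, h1, ?_⟩
      have h3 : (l * u) ^ (p ^ k - 1) = 1 := by rw [hlu, one_pow]
      rwa [mul_pow, h1, one_mul] at h3
    · have h1 : l ^ (p ^ k + 1) = 1 := by rw [pow_succ, h, mul_comm, hlu]
      refine ⟨p ^ k + 1, Or.inr rfl, h1, ?_⟩
      have h3 : (l * u) ^ (p ^ k + 1) = 1 := by rw [hlu, one_pow]
      rwa [mul_pow, h1, one_mul] at h3
  have hfac : ((X : F[X]) ^ 2 - C t * X + 1).map (algebraMap F (AlgebraicClosure F))
      = (X - C l) * (X - C u) := by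
    simp only [Polynomial.map_add, Polynomial.map_sub, Polynomial.map_mul, Polynomial.map_pow,
      Polynomial.map_X, Polynomial.map_C, Polynomial.map_one]
    rw [← ht']
    have e1 : (C t' : (AlgebraicClosure F)[X]) = C l + C u := by
      rw [← C_add, hu]
      congr 1
      ring
    have e2 : (C l * C u : (AlgebraicClosure F)[X]) = 1 := by rw [← C_mul, hlu, C_1]
    linear_combination (-X) * e1 - e2
  rw [hk]
  by_cases hlu' : l = u
  · refine ⟨2 * p, ?_, Or.inr (Or.inr rfl)⟩
    rw [← Polynomial.map_dvd_map' (algebraMap F (AlgebraicClosure F)), hfac]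
    simp only [Polynomial.map_sub, Polynomial.map_pow, Polynomial.map_X, Polynomial.map_one]
    rw [← hlu']
    have hl2 : l * l = 1 := by
      rw [← hlu'] at hlu
      exact hlu
    have e : (X : (AlgebraicClosure F)[X]) ^ (2 * p) - 1 = ((X - C l) * (X + C l)) ^ p := by
      have e3 : (X - C l) * (X + C l) = (X : (AlgebraicClosure F)[X]) ^ 2 - 1 := by
        have e4 : (C l * C l : (AlgebraicClosure F)[X]) = 1 := by rw [← C_mul, hl2, C_1]
        linear_combination -e4
      rw [e3, sub_pow_char, one_pow, ← pow_mul]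
    rw [e, mul_pow, ← sq]
    exact (pow_dvd_pow _ hp.out.two_le).mul_right _
  · refine ⟨E, ?_, by
      rcases hE with h | h
      · exact Or.inl h
      · exact Or.inr (Or.inl h)⟩
    rw [← Polynomial.map_dvd_map' (algebraMap F (AlgebraicClosure F)), hfac]
    simp only [Polynomial.map_sub, Polynomial.map_pow, Polynomial.map_X, Polynomial.map_one]
    have h1 : (X - C l) ∣ (X : (AlgebraicClosure F)[X]) ^ E - 1 := by
      rw [Polynomial.dvd_iff_isRoot]
      simp [hlE]
    have h2 : (X - C u) ∣ (X : (AlgebraicClosure F)[X]) ^ E - 1 := by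
      rw [Polynomial.dvd_iff_isRoot]
      simp [huE]
    have hcop : IsCoprime (X - C l) (X - C u) :=
      Polynomial.isCoprime_X_sub_C_of_isUnit_sub (sub_ne_zero.2 hlu').isUnit
    exact hcop.mul_dvd h1 h2

/-- Tori of SL_2(q): if g ∈ SL_2(q) has order coprime to the characteristic p, then the order of g divides q − 1 or q + 1. -/
theorem result {F : Type*} [Field F] [Fintype F] {q : ℕ} (hF : Fintype.card F = q) (p : ℕ) [Fact p.Prime] [CharP F p] (g : Matrix.SpecialLinearGroup (Fin 2) F) (hg : Nat.Coprime (orderOf g) p) : orderOf g ∣ q - 1 ∨ orderOf g ∣ q + 1 := by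
  classical
  obtain ⟨M, hM⟩ : ∃ M : Matrix (Fin 2) (Fin 2) F, M = (g : Matrix (Fin 2) (Fin 2) F) :=
    ⟨_, rfl⟩
  have hdet : M.det = 1 := by
    rw [hM]
    exact g.2
  obtain ⟨E, hdvd, hE⟩ := aux p M.trace
  have hχ : Polynomial.aeval M
      ((Polynomial.X : Polynomial F) ^ 2 - Polynomial.C M.trace * Polynomial.X + 1) = 0 := by
    have h1 := Matrix.aeval_self_charpoly M
    rw [Matrix.charpoly_fin_two, hdet, Polynomial.C_1] at h1
    exact h1
  have hME : M ^ E = 1 := by
    obtain ⟨h, hh⟩ := hdvd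
    have h1 := congrArg (Polynomial.aeval M) hh
    rw [map_mul, hχ, zero_mul] at h1
    simp only [map_sub, map_pow, Polynomial.aeval_X, map_one] at h1
    exact sub_eq_zero.1 h1
  have hgE : g ^ E = 1 := by
    apply Subtype.ext
    rw [Matrix.SpecialLinearGroup.coe_pow, ← hM, hME]
    rfl
  have hord : orderOf g ∣ E := orderOf_dvd_of_pow_eq_one hgE
  rw [← hF]
  rcases hE with h | h | h
  · left
    rw [← h]
    exact hord
  · right
    rw [← h]
    exact hord
  · left
    rw [h] at hord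
    have h2 : orderOf g ∣ 2 := Nat.Coprime.dvd_of_dvd_mul_right hg hord
    rcases (Nat.dvd_prime Nat.prime_two).1 h2 with h3 | h3
    · rw [h3]
      exact one_dvd _
    · rw [h3] at hg ⊢
      have hodd : Odd p := Nat.coprime_two_left.1 hg
      obtain ⟨n, hn⟩ := FiniteField.card F p
      have hq : Odd (Fintype.card F) := by
        rw [hn.2]
        exact hodd.pow
      obtain ⟨c, hc⟩ := hq
      rw [hc]
      exact ⟨c, by omega⟩

end Cfsg.Agent.S0800
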