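import Cfsg.Agent.Helper2.LinGroups2
import Cfsg.Agent.Helper2.PSLPerm
import Cfsg.Statements.S0805
-- import your own Cfsg.Agent.* helpers here

set_option autoImplicit false
open Cfsg

namespace Cfsg.Agent.S0805

open Cfsg.Agent.Helper2 Matrix

section emb

variable {F K : Type*} [Field F] [Field K]

theorem exists_ringHom_of_card_pow [Fintype F] [Fintype K] (m : ℕ) (hm : 1 ≤ m)
    (h : Fintype.card K ^ m = Fintype.card F) : Nonempty (K →+* F) := by
  obtain ⟨p, hp⟩ := CharP.exists K
  obtain ⟨n, hprime, hn⟩ := FiniteField.card K p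
  have : Fact p.Prime := ⟨hprime⟩
  have hFp : CharP F p := by
    rw [CharP.charP_iff_prime_eq_zero hprime]
    have h1 := FiniteField.cast_card_eq_zero F
    rw [← h, hn] at h1
    push_cast at h1
    exact pow_eq_zero_iff (n.pos.ne') |>.1 (pow_eq_zero_iff (by omega) |>.1 h1)
  let _ : Algebra (ZMod p) F := ZMod.algebra F p
  let _ : Algebra (ZMod p) K := ZMod.algebra K p
  have hdvd : Module.finrank (ZMod p) K ∣ Module.finrank (ZMod p) F := by
    have c1 : Fintype.card F = p ^ Module.finrank (ZMod p) F := by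
      rw [Module.card_eq_pow_finrank (K := ZMod p) (V := F), ZMod.card]
    have c2 : Fintype.card K = p ^ Module.finrank (ZMod p) K := by
      rw [Module.card_eq_pow_finrank (K := ZMod p) (V := K), ZMod.card]
    rw [c1, c2, ← pow_mul] at h
    have h3 := Nat.pow_right_injective hprime.two_le h
    exact ⟨m, h3.symm⟩
  obtain ⟨f⟩ := FiniteField.nonempty_algHom_of_finrank_dvd hdvd
  exact ⟨f.toRingHom⟩

theorem sl_map_inj (ι : K →+* F) :
    Function.Injective (SpecialLinearGroup.map (n := Fin 2) ι) := by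
  intro g h hgh
  apply Subtype.ext
  ext i j
  have h1 := congrArg (fun A : SpecialLinearGroup (Fin 2) F => A.1 i j) hgh
  simp only [SpecialLinearGroup.map_apply_coe, RingHom.mapMatrix_apply, Matrix.map_apply] at h1
  exact ι.injective h1

theorem gl_map_inj (ι : K →+* F) :
    Function.Injective (GeneralLinearGroup.map (n := Fin 2) ι) := by
  intro g h hgh
  apply GeneralLinearGroup.ext
  intro i j
  have h1 := congrArg (fun A : GL (Fin 2) F => A i j) hgh
  simp only [GeneralLinearGroup.map_apply] at h1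
  exact ι.injective h1

theorem psl_embed (ι : K →+* F) :
    ∃ H : Subgroup (Matrix.ProjectiveSpecialLinearGroup (Fin 2) F),
      Nonempty (H ≃* Matrix.ProjectiveSpecialLinearGroup (Fin 2) K) := by
  let f : SpecialLinearGroup (Fin 2) K →* Matrix.ProjectiveSpecialLinearGroup (Fin 2) F :=
    (QuotientGroup.mk' (Subgroup.center (SpecialLinearGroup (Fin 2) F))).comp
      (SpecialLinearGroup.map ι)
  have hker : f.ker = Subgroup.center (SpecialLinearGroup (Fin 2) K) := by
    ext g
    rw [MonoidHom.mem_ker]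
    show (QuotientGroup.mk (SpecialLinearGroup.map ι g) :
      SpecialLinearGroup (Fin 2) F ⧸ Subgroup.center _) = 1 ↔ _
    rw [QuotientGroup.eq_one_iff]
    constructor
    · intro hg
      rw [Subgroup.mem_center_iff]
      intro h
      apply sl_map_inj ι
      rw [map_mul, map_mul]
      exact Subgroup.mem_center_iff.mp hg _
    · intro hg
      obtain ⟨r, hr, hg'⟩ := Matrix.SpecialLinearGroup.mem_center_iff.mp hg
      refine Matrix.SpecialLinearGroup.mem_center_iff.mpr
        ⟨ι r, by rw [← map_pow, hr, map_one], ?_⟩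
      rw [SpecialLinearGroup.map_apply_coe, ← hg']
      ext i j
      by_cases hij : i = j <;> simp [hij]
  exact ⟨f.range, ⟨((QuotientGroup.quotientMulEquivOfEq hker).symm.trans
    (QuotientGroup.quotientKerEquivRange f)).symm⟩⟩

theorem pgl_embed (ι : K →+* F) (hsq : ∀ a : K, ∃ b : F, b ^ 2 = ι a) :
    ∃ H : Subgroup (Matrix.ProjectiveSpecialLinearGroup (Fin 2) F),
      Nonempty (H ≃* Matrix.ProjGenLinGroup (Fin 2) K) := by
  let θ : GL (Fin 2) K →* Matrix.ProjGenLinGroup (Fin 2) F :=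
    ProjGenLinGroup.mk.comp (GeneralLinearGroup.map ι)
  have hker : θ.ker = Subgroup.center (GL (Fin 2) K) := by
    ext g
    rw [MonoidHom.mem_ker]
    show ProjGenLinGroup.mk (GeneralLinearGroup.map ι g) = 1 ↔ _
    rw [ProjGenLinGroup.mk_eq_one]
    constructor
    · intro hg
      rw [Subgroup.mem_center_iff]
      intro h
      apply gl_map_inj ι
      rw [map_mul, map_mul]
      exact Subgroup.mem_center_iff.mp hg _
    · intro hg
      rw [GeneralLinearGroup.center_eq_range_scalar] at hg ⊢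
      obtain ⟨u, rfl⟩ := hg
      exact ⟨Units.map ι u, (GeneralLinearGroup.map_scalar ..).symm⟩
  have hrange : θ.range ≤ (ProjectiveSpecialLinearGroup.toPGL (n := Fin 2) (R := F)).range := by
    rintro _ ⟨g, rfl⟩
    obtain ⟨δ, hδ⟩ := hsq (g : Matrix (Fin 2) (Fin 2) K).det
    have hδ0 : δ ≠ 0 := by
      rintro rfl
      have h0 : ι (g : Matrix (Fin 2) (Fin 2) K).det = 0 := by rw [← hδ]; simp
      exact GeneralLinearGroup.det_ne_zero g ((map_eq_zero ι).mp h0)
    have hmap : ((GeneralLinearGroup.map ι g : GL (Fin 2) F) : Matrix (Fin 2) (Fin 2) F) =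
        ι.mapMatrix (g : Matrix (Fin 2) (Fin 2) K) := rfl
    have hdet : (δ⁻¹ • ((GeneralLinearGroup.map ι g : GL (Fin 2) F) :
        Matrix (Fin 2) (Fin 2) F)).det = 1 := by
      rw [Matrix.det_smul, Fintype.card_fin, hmap, ← RingHom.map_det, ← hδ]
      field_simp
    refine ⟨QuotientGroup.mk ⟨_, hdet⟩, ?_⟩
    show ProjGenLinGroup.mk (SpecialLinearGroup.toGL ⟨_, hdet⟩) =
      ProjGenLinGroup.mk (GeneralLinearGroup.map ι g)
    rw [ProjGenLinGroup.mk_eq_mk_iff]
    refine ⟨Units.mk0 δ hδ0, ?_⟩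
    have e : (δ⁻¹ • ((GeneralLinearGroup.map ι g : GL (Fin 2) F) : Matrix (Fin 2) (Fin 2) F)) *
        Matrix.scalar (Fin 2) δ =
        ((GeneralLinearGroup.map ι g : GL (Fin 2) F) : Matrix (Fin 2) (Fin 2) F) := by
      rw [Matrix.scalar_apply, ← Matrix.smul_one_eq_diagonal, Matrix.smul_mul, Matrix.mul_smul,
        mul_one, smul_smul, inv_mul_cancel₀ hδ0, one_smul]
    exact Units.ext e
  have hinj := ProjectiveSpecialLinearGroup.toPGL_injective (n := Fin 2) (R := F)
  let c : θ.range.comap (ProjectiveSpecialLinearGroup.toPGL (n := Fin 2) (R := F)) →* θ.range :=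
    (ProjectiveSpecialLinearGroup.toPGL (n := Fin 2) (R := F)).subgroupComap θ.range
  have hc : Function.Bijective c := by
    constructor
    · intro x y hxy
      apply Subtype.ext
      apply hinj
      exact congrArg Subtype.val hxy
    · rintro ⟨y, hy⟩
      obtain ⟨x, hx⟩ := hrange hy
      exact ⟨⟨x, by rw [Subgroup.mem_comap, hx]; exact hy⟩, Subtype.ext hx⟩
  exact ⟨θ.range.comap (ProjectiveSpecialLinearGroup.toPGL (n := Fin 2) (R := F)),
    ⟨(MulEquiv.ofBijective c hc).trans
      ((QuotientGroup.quotientKerEquivRange θ).symm.trans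
        (QuotientGroup.quotientMulEquivOfEq hker))⟩⟩

theorem odd_of_pow_odd (r m : ℕ) (hm : 1 ≤ m) (h : Odd (r ^ m)) : Odd r := by
  by_contra hne
  rw [Nat.not_odd_iff_even] at hne
  exact (Nat.not_even_iff_odd.mpr h) (Nat.even_pow.mpr ⟨hne, by omega⟩)

theorem sq_of_even [Fintype F] [Fintype K] (ι : K →+* F) (k : ℕ) (hk : 1 ≤ k)
    (hq : Fintype.card K ^ (2 * k) = Fintype.card F) (hodd : Odd (Fintype.card F)) (a : K) :
    ∃ b : F, b ^ 2 = ι a := by
  by_cases ha : a = 0
  · exact ⟨0, by simp [ha]⟩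
  have hF2 : ringChar F ≠ 2 := by
    intro h
    have := FiniteField.even_card_iff_char_two.mp h
    rcases hodd with ⟨c, hc⟩
    omega
  have hιa : ι a ≠ 0 := (map_ne_zero ι).mpr ha
  have h1 : a ^ (Fintype.card K - 1) = 1 := FiniteField.pow_card_sub_one_eq_one a ha
  have hdiv : (Fintype.card K - 1) ∣ Fintype.card F / 2 := by
    have hr2 : 2 ≤ Fintype.card K := Fintype.one_lt_card
    have hrodd : Odd (Fintype.card K) := odd_of_pow_odd _ (2 * k) (by omega) (hq ▸ hodd)
    have h2 : Fintype.card K ^ 2 - 1 ∣ (Fintype.card K ^ 2) ^ k - 1 :=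
      Nat.sub_one_dvd_pow_sub_one _ _
    rw [← pow_mul, hq] at h2
    obtain ⟨c, hc⟩ := hrodd
    obtain ⟨d, hd⟩ := h2
    have h3 : Fintype.card K ^ 2 - 1 = (Fintype.card K - 1) * (2 * (c + 1)) := by
      have e1 : Fintype.card K - 1 = 2 * c := by omega
      rw [e1, hc]
      have e2 : (2 * c + 1) ^ 2 = 2 * c * (2 * (c + 1)) + 1 := by ring
      rw [e2]; omega
    refine ⟨(c + 1) * d, ?_⟩
    have hF1 : Fintype.card F = (Fintype.card K - 1) * (2 * (c + 1)) * d + 1 := by
      have : 1 ≤ Fintype.card F := Fintype.card_pos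
      rw [← h3, ← hd]; omega
    rw [hF1]
    have e3 : (Fintype.card K - 1) * (2 * (c + 1)) * d + 1 =
        2 * ((Fintype.card K - 1) * ((c + 1) * d)) + 1 := by ring
    rw [e3]; omega
  obtain ⟨t, ht⟩ := hdiv
  have h4 : (ι a) ^ (Fintype.card F / 2) = 1 := by
    rw [ht, pow_mul, ← map_pow, h1, map_one, one_pow]
  obtain ⟨b, hb⟩ := (FiniteField.isSquare_iff hF2 hιa).mpr h4
  exact ⟨b, by rw [hb, sq]⟩

theorem not_pgl_of_odd [Fintype F] [Fintype K] (m : ℕ) (hm : Odd m)
    (hq : Fintype.card K ^ m = Fintype.card F) (hodd : Odd (Fintype.card F))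
    (H : Subgroup (Matrix.ProjectiveSpecialLinearGroup (Fin 2) F))
    (e : H ≃* Matrix.ProjGenLinGroup (Fin 2) K) : False := by
  have hr2 : 2 ≤ Fintype.card K := Fintype.one_lt_card
  have hq2 : 2 ≤ Fintype.card F := Fintype.one_lt_card
  have hm1 : 1 ≤ m := by rcases hm with ⟨c, hc⟩; omega
  have hrodd : Odd (Fintype.card K) := odd_of_pow_odd _ m hm1 (hq ▸ hodd)
  have c1 : Nat.card H = Nat.card (SpecialLinearGroup (Fin 2) K) := by
    rw [Nat.card_congr e.toEquiv, card_PGL_eq_card_SL]
  have c2 := card_SL2 K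
  have c3 := card_SL2 F
  have c4 := card_PSL_mul F 2 (by norm_num)
  have hg : Nat.gcd 2 (Fintype.card F - 1) = 2 := by
    obtain ⟨c, hc⟩ := hodd
    have : Fintype.card F - 1 = 2 * c := by omega
    rw [this]; simp
  rw [hg] at c4
  obtain ⟨t, ht⟩ := Subgroup.card_subgroup_dvd_card H
  rw [c1] at ht
  -- orders
  have eK : Fintype.card K ^ 2 - Fintype.card K = Fintype.card K * (Fintype.card K - 1) := by
    rw [Nat.mul_sub, mul_one, sq]
  have eF : Fintype.card F ^ 2 - Fintype.card F = Fintype.card F * (Fintype.card F - 1) := by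
    rw [Nat.mul_sub, mul_one, sq]
  rw [eK, ← mul_assoc] at c2
  rw [eF, ← mul_assoc] at c3
  have nK := Nat.eq_of_mul_eq_mul_right (by omega) c2
  have nF := Nat.eq_of_mul_eq_mul_right (by omega) c3
  -- geometric sum
  have hgs := geom_sum_mul_add (Fintype.card K ^ 2 - 1) m
  have hsq1 : Fintype.card K ^ 2 - 1 + 1 = Fintype.card K ^ 2 :=
    Nat.sub_add_cancel (Nat.one_le_pow _ _ (by omega))
  rw [hsq1, ← pow_mul, mul_comm 2 m, pow_mul, hq] at hgs
  have hS : Odd (∑ i ∈ Finset.range m, (Fintype.card K ^ 2) ^ i) := by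
    rw [Finset.odd_sum_iff_odd_card_odd]
    have : (Finset.range m).filter (fun x => Odd ((Fintype.card K ^ 2) ^ x)) = Finset.range m := by
      apply Finset.filter_true_of_mem
      intro x _
      exact (hrodd.pow).pow
    rw [this, Finset.card_range]
    exact hm
  have hqF : Fintype.card F ^ 2 - 1 =
      (∑ i ∈ Finset.range m, (Fintype.card K ^ 2) ^ i) * (Fintype.card K ^ 2 - 1) := by
    omega
  have hpos : 0 < Fintype.card K ^ 2 - 1 := by
    have : 2 ^ 2 ≤ Fintype.card K ^ 2 := Nat.pow_le_pow_left hr2 2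
    omega
  have key : (Fintype.card K * t * 2) * (Fintype.card K ^ 2 - 1) =
      ((∑ i ∈ Finset.range m, (Fintype.card K ^ 2) ^ i) * Fintype.card F) *
        (Fintype.card K ^ 2 - 1) := by
    calc (Fintype.card K * t * 2) * (Fintype.card K ^ 2 - 1)
        = ((Fintype.card K ^ 2 - 1) * Fintype.card K * t) * 2 := by ring
      _ = Nat.card (Matrix.ProjectiveSpecialLinearGroup (Fin 2) F) * 2 := by rw [ht, nK]
      _ = (Fintype.card F ^ 2 - 1) * Fintype.card F := by rw [c4, nF]
      _ = _ := by rw [hqF]; ring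
  have key2 := Nat.eq_of_mul_eq_mul_right hpos key
  have hodd2 : Odd ((∑ i ∈ Finset.range m, (Fintype.card K ^ 2) ^ i) * Fintype.card F) :=
    hS.mul hodd
  rw [← key2] at hodd2
  exact (Nat.not_even_iff_odd.mpr hodd2) ⟨Fintype.card K * t, by ring⟩

end emb

/-- Subfield subgroups: let F be a finite field of odd order q and K a finite field with |K|^m = q, m ≥ 1. Then PSL_2(F) has a subgroup isomorphic to PSL_2(K), and has a subgroup isomorphic to PGL_2(K) if and only if m is even. -/
theorem result {F K : Type*} [Field F] [Fintype F] [Field K] [Fintype K] {q : ℕ} (hF : Fintype.card F = q) (hodd : Odd q) (m : ℕ) (hm : 1 ≤ m) (hK : Fintype.card K ^ m = q) : (∃ H : Subgroup (Matrix.ProjectiveSpecialLinearGroup (Fin 2) F), Nonempty (H ≃* Matrix.ProjectiveSpecialLinearGroup (Fin 2) K)) ∧ ((∃ H : Subgroup (Matrix.ProjectiveSpecialLinearGroup (Fin 2) F), Nonempty (H ≃* Matrix.ProjGenLinGroup (Fin 2) K)) ↔ Even m) := by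
  classical
  subst hF
  obtain ⟨ι⟩ := exists_ringHom_of_card_pow m hm hK
  refine ⟨psl_embed ι, ?_, ?_⟩
  · rintro ⟨H, ⟨e⟩⟩
    by_contra hne
    rw [Nat.not_even_iff_odd] at hne
    exact not_pgl_of_odd m hne hK hodd H e
  · rintro ⟨k, hk⟩
    have hk' : m = 2 * k := by omega
    subst hk'
    exact pgl_embed ι (sq_of_even ι k (by omega) hK hodd)

end Cfsg.Agent.S0805
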