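import Mathlib
import Cfsg.Statements.S0806
import Cfsg.Agent.Helper14.GF

set_option autoImplicit false
open Cfsg

namespace Cfsg.Agent.S0806

open Cfsg.Agent.Helper14.Mat2 Cfsg.Agent.Helper14.SL2Odd Cfsg.Agent.Helper14.PSL2
  Cfsg.Agent.Helper14.SL2Conj Cfsg.Agent.Helper14.Torus Cfsg.Agent.Helper14.TorusB
  Cfsg.Agent.Helper14.TorusC Cfsg.Agent.Helper14.TorusD Cfsg.Agent.Helper14.TorusE
  Cfsg.Agent.Helper14.SL2T Cfsg.Agent.Helper14.SubA Cfsg.Agent.Helper14.SubD
  Cfsg.Agent.Helper14.A4Sub Cfsg.Agent.Helper14.DA Cfsg.Agent.Helper14.DB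
  Cfsg.Agent.Helper14.GB Cfsg.Agent.Helper14.GE Cfsg.Agent.Helper14.GF

theorem ar_idx (q k i : ℕ) (hq : 2 ≤ q) (h : k * i = q * (q ^ 2 - 1)) (hi : i < q + 1) :
    q * (q - 1) < k := by
  by_contra hcon
  push Not at hcon
  obtain ⟨s, rfl⟩ : ∃ s, q = s + 1 := ⟨q - 1, by omega⟩
  rw [Nat.add_sub_cancel] at hcon
  have e : (s + 1) ^ 2 - 1 = s * (s + 2) := by
    have : (s + 1) ^ 2 = s * (s + 2) + 1 := by ring
    rw [this, Nat.add_sub_cancel]
  rw [e] at h
  have h1 : k * i ≤ (s + 1) * s * (s + 1) := Nat.mul_le_mul hcon (by omega)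
  have h2 : (s + 1) * (s * (s + 2)) = (s + 1) * s * (s + 1) + (s + 1) * s := by ring
  have h3 : 0 < (s + 1) * s := Nat.mul_pos (by omega) (by omega)
  omega

/-- Minimal index (Galois): if q ∉ {2, 3, 5, 7, 9, 11} then every proper subgroup of PSL_2(q) has index ≥ q + 1, and some subgroup has index exactly q + 1. -/
theorem result {F : Type*} [Field F] [Fintype F] {q : ℕ} (hF : Fintype.card F = q) (hq : q ∉ ({2, 3, 5, 7, 9, 11} : Finset ℕ)) : (∀ H : Subgroup (Matrix.ProjectiveSpecialLinearGroup (Fin 2) F), H ≠ ⊤ → q + 1 ≤ H.index) ∧ ∃ H : Subgroup (Matrix.ProjectiveSpecialLinearGroup (Fin 2) F), H.index = q + 1 := by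
  classical
  have hq1 : 1 < q := by
    rw [← hF]
    exact Fintype.one_lt_card
  have hqn : ∀ m ∈ ({2, 3, 5, 7, 9, 11} : Finset ℕ), q ≠ m := by
    intro m hm h
    apply hq
    rw [h]
    exact hm
  have hq2 : q ≠ 2 := hqn 2 (by simp)
  have hq3 : q ≠ 3 := hqn 3 (by simp)
  have hq5 : q ≠ 5 := hqn 5 (by simp)
  have hq7 : q ≠ 7 := hqn 7 (by simp)
  have hq9 : q ≠ 9 := hqn 9 (by simp)
  have hq11 : q ≠ 11 := hqn 11 (by simp)
  have hq4 : 4 ≤ q := by omega
  have hq4F : 4 ≤ Fintype.card F := by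
    rw [hF]
    exact hq4
  have hq9F : Fintype.card F ≠ 9 := by
    rw [hF]
    exact hq9
  obtain ⟨p, hchar⟩ := CharP.exists F
  have := hchar
  obtain ⟨n, hpp, hn⟩ := FiniteField.card F p
  have : Fact p.Prime := ⟨hpp⟩
  have hpar : ((2 : F) = 0 ∧ Even (Fintype.card F)) ∨ Odd (Fintype.card F) := by
    rcases Nat.even_or_odd q with heven | hodd
    · left
      have hp2 : p = 2 := by
        have h2q : 2 ∣ q := even_iff_two_dvd.mp heven
        rw [← hF, hn] at h2q
        exact ((Nat.prime_dvd_prime_iff_eq Nat.prime_two hpp).mp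
          (Nat.prime_two.dvd_of_dvd_pow h2q)).symm
      subst hp2
      exact ⟨CharTwo.two_eq_zero, by rw [hF]; exact heven⟩
    · right
      rw [hF]
      exact hodd
  obtain ⟨π, hπ⟩ : ∃ π : Matrix.SpecialLinearGroup (Fin 2) F →*
      Matrix.ProjectiveSpecialLinearGroup (Fin 2) F,
      π = QuotientGroup.mk' (Subgroup.center (Matrix.SpecialLinearGroup (Fin 2) F)) := ⟨_, rfl⟩
  have hsurj : Function.Surjective π := by
    rw [hπ]
    exact QuotientGroup.mk'_surjective _
  have hker : π.ker = Subgroup.center (Matrix.SpecialLinearGroup (Fin 2) F) := by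
    rw [hπ]
    exact QuotientGroup.ker_mk' _
  refine ⟨?_, ?_⟩
  · intro H hH
    by_contra hlt
    push Not at hlt
    obtain ⟨M, hM⟩ : ∃ M : Subgroup (Matrix.SpecialLinearGroup (Fin 2) F), M = H.comap π :=
      ⟨_, rfl⟩
    have hidx : M.index = H.index := by
      rw [hM]
      exact Subgroup.index_comap_of_surjective H hsurj
    have hMtop : M ≠ ⊤ := by
      intro h
      apply hH
      rw [← Subgroup.map_comap_eq_self_of_surjective hsurj H, ← hM, h]
      exact Subgroup.map_top_of_surjective π hsurj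
    have hneg : negOne ∈ M := by
      rw [hM, Subgroup.mem_comap]
      have h1 : π negOne = 1 := by
        rw [← MonoidHom.mem_ker, hker]
        exact negOne_mem_center
      rw [h1]
      exact H.one_mem
    have hcard := Subgroup.card_mul_index M
    rw [card_SL2, hidx, hF] at hcard
    have hbig := ar_idx q (Nat.card M) H.index (by omega) hcard hlt
    rw [← hF] at hbig
    by_cases hpM : p ∣ Nat.card M
    · exact hMtop (big_p p hpar hq4F hq9F M hneg hpM hbig)
    · rcases hpar with ⟨h2F, -⟩ | hodd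
      · have hp2 : p = 2 := by
          have h : ((2 : ℕ) : F) = 0 := by exact_mod_cast h2F
          exact (Nat.prime_dvd_prime_iff_eq hpp Nat.prime_two).mp
            ((CharP.cast_eq_zero_iff F p 2).mp h)
        rw [hp2] at hpM
        have h5 := big_pp_even h2F hq4F M hpM
        omega
      · have hq13 : 13 ≤ Fintype.card F := by
          obtain ⟨j, hj⟩ := hodd
          rw [hF] at hj ⊢
          omega
        have h5 := big_pp_odd hodd p hq13 M hneg hpM
        omega
  · have hcov : ∀ g : Matrix.SpecialLinearGroup (Fin 2) F,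
        ∃ m ∈ (⊤ : Subgroup (Matrix.SpecialLinearGroup (Fin 2) F)),
          ((m * g : Matrix.SpecialLinearGroup (Fin 2) F) : Matrix (Fin 2) (Fin 2) F) 1 0 = 0 := by
      intro g
      refine ⟨g⁻¹, Subgroup.mem_top _, ?_⟩
      rw [inv_mul_cancel]
      simp
    have hk : Nat.card (⊤ : Subgroup (Matrix.SpecialLinearGroup (Fin 2) F)) =
        (Fintype.card F + 1) *
          Nat.card (borM (⊤ : Subgroup (Matrix.SpecialLinearGroup (Fin 2) F))) :=
      le_antisymm (pt_bound ⊤) (cover_bound ⊤ hcov)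
    have hidx : (borM (⊤ : Subgroup (Matrix.SpecialLinearGroup (Fin 2) F))).index = q + 1 := by
      have h1 := Subgroup.card_mul_index
        (borM (⊤ : Subgroup (Matrix.SpecialLinearGroup (Fin 2) F)))
      rw [hk, hF] at h1
      have hpos : 0 < Nat.card (borM (⊤ : Subgroup (Matrix.SpecialLinearGroup (Fin 2) F))) :=
        Nat.card_pos
      rw [mul_comm (q + 1)] at h1
      exact Nat.eq_of_mul_eq_mul_left hpos h1
    obtain ⟨Bor, hBor⟩ : ∃ Bor : Subgroup (Matrix.SpecialLinearGroup (Fin 2) F),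
        Bor = (borM (⊤ : Subgroup (Matrix.SpecialLinearGroup (Fin 2) F))).map
          (Subgroup.subtype ⊤) := ⟨_, rfl⟩
    have hBidx : Bor.index = q + 1 := by
      rw [hBor, Subgroup.index_map_subtype, hidx, Subgroup.index_top, mul_one]
    have hcen : Subgroup.center (Matrix.SpecialLinearGroup (Fin 2) F) ≤ Bor := by
      intro z hz
      rw [hBor]
      refine ⟨⟨z, Subgroup.mem_top z⟩, ?_, rfl⟩
      show (z : Matrix (Fin 2) (Fin 2) F) 1 0 = 0
      obtain ⟨r, -, hr⟩ := Matrix.SpecialLinearGroup.mem_center_iff.mp hz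
      rw [← hr]
      simp
    refine ⟨Bor.map π, ?_⟩
    rw [← Subgroup.index_comap_of_surjective _ hsurj, Subgroup.comap_map_eq, hker,
      sup_eq_left.mpr hcen, hBidx]

end Cfsg.Agent.S0806
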