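import Cfsg.Agent.Helper14.TorusC
import Cfsg.Statements.S0809
-- import your own Cfsg.Agent.* helpers here

set_option autoImplicit false
open Cfsg

namespace Cfsg.Agent.S0809

open Cfsg.Agent.Helper14

section aux

variable {F : Type*} [Field F]

local notation "SL2" => Matrix.SpecialLinearGroup (Fin 2) F
local notation "M2" => Matrix (Fin 2) (Fin 2) F

theorem tr_zero_of_sq (a : SL2) (ha : a * a = SL2Odd.negOne) : (a : M2).trace = 0 := by
  have h1 := SL2Conj.sq_eq a
  have h3 : (a : M2) ^ 2 = -1 := by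
    rw [pow_two, ← Matrix.SpecialLinearGroup.coe_mul, ha, SL2Odd.coe_negOne]
    ext i j
    fin_cases i <;> fin_cases j <;> simp
  rw [h3] at h1
  have h4 : (a : M2).trace • (a : M2) = 0 := by
    have h5 : (a : M2).trace • (a : M2) - 1 = -1 := h1.symm
    have h6 := congrArg (fun M : M2 => M + 1) h5
    simpa using h6
  by_contra htr
  have h5 : (a : M2) = 0 := (smul_eq_zero.1 h4).resolve_left htr
  have h6 := a.det_coe
  have h7 : Matrix.det (0 : M2) = 0 := Matrix.det_zero
  rw [h5, h7] at h6
  exact zero_ne_one h6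

theorem exists_gen [Fintype F] (h2 : (2 : F) ≠ 0) (A : Subgroup SL2) (hA : Nat.card A = 4) :
    ∃ a : SL2, A = Subgroup.zpowers a ∧ a * a = SL2Odd.negOne := by
  classical
  have hex : ∃ a ∈ A, a * a ≠ 1 := by
    by_contra hcon
    push Not at hcon
    have hsub : A ≤ Subgroup.zpowers (SL2Odd.negOne : SL2) := by
      intro x hx
      rcases TorusC.sq_one h2 x (hcon x hx) with h | h
      · rw [h]
        exact one_mem _
      · rw [h]
        exact Subgroup.mem_zpowers _
    have ho : orderOf (SL2Odd.negOne : SL2) ≤ 2 :=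
      orderOf_le_of_pow_eq_one (by norm_num) (by rw [pow_two]; exact TorusC.negOne_mul_self)
    have h1 := Subgroup.card_le_of_le hsub
    rw [Nat.card_zpowers] at h1
    omega
  obtain ⟨a, haA, ha⟩ := hex
  have ha4 : a ^ 4 = 1 := by
    have h1 := pow_card_eq_one' (G := A) (x := ⟨a, haA⟩)
    rw [hA] at h1
    exact congrArg Subtype.val h1
  have haa : a * a = SL2Odd.negOne := by
    rcases TorusC.sq_one h2 (a * a) (by rw [← pow_two, ← pow_two, ← pow_mul]; exact ha4) with h | h
    · exact absurd h ha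
    · exact h
  have ho : orderOf a = 4 := by
    have hne : ¬ a ^ 2 ^ 1 = 1 := by
      rw [pow_one, pow_two]
      exact ha
    exact orderOf_eq_prime_pow (p := 2) (n := 1) hne ha4
  refine ⟨a, ?_, haa⟩
  symm
  apply Subgroup.eq_of_le_of_card_ge
  · rw [Subgroup.zpowers_le]
    exact haA
  · rw [Nat.card_zpowers, ho, hA]

theorem card_cent_conj {G : Type*} [Group G] (c d : G) :
    Nat.card (Subgroup.centralizer ({c * d * c⁻¹} : Set G))
      = Nat.card (Subgroup.centralizer ({d} : Set G)) := by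
  apply Nat.card_congr
  exact
    { toFun := fun x => ⟨c⁻¹ * x.1 * c, by
        have hx := Subgroup.mem_centralizer_singleton_iff.1 x.2
        rw [Subgroup.mem_centralizer_singleton_iff]
        calc c⁻¹ * x.1 * c * d = c⁻¹ * (x.1 * (c * d * c⁻¹)) * c := by group
          _ = c⁻¹ * ((c * d * c⁻¹) * x.1) * c := by rw [hx]
          _ = d * (c⁻¹ * x.1 * c) := by group⟩
      invFun := fun y => ⟨c * y.1 * c⁻¹, by
        have hy := Subgroup.mem_centralizer_singleton_iff.1 y.2
        rw [Subgroup.mem_centralizer_singleton_iff]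
        calc c * y.1 * c⁻¹ * (c * d * c⁻¹) = c * (y.1 * d) * c⁻¹ := by group
          _ = c * (d * y.1) * c⁻¹ := by rw [hy]
          _ = c * d * c⁻¹ * (c * y.1 * c⁻¹) := by group⟩
      left_inv := fun x => by
        apply Subtype.ext
        show c * (c⁻¹ * x.1 * c) * c⁻¹ = x.1
        group
      right_inv := fun y => by
        apply Subtype.ext
        show c⁻¹ * (c * y.1 * c⁻¹) * c = y.1
        group }

theorem card_cent_of_torus [Fintype F] (hodd : Odd (Fintype.card F)) (T : Subgroup SL2) (m : ℕ)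
    (hT : TorusB.IsTorus T m) (h4 : 4 ∣ m) (a : SL2) (haa : a * a = SL2Odd.negOne) :
    Nat.card (Subgroup.centralizer ({a} : Set SL2)) = m := by
  classical
  have h2 : (2 : F) ≠ 0 := SL2Conj.two_ne_zero_of_odd hodd
  obtain ⟨hcyc, hcard, hcent⟩ := hT
  obtain ⟨t, ht⟩ := IsCyclic.exists_generator (α := T)
  have hot : orderOf t = m := by
    rw [orderOf_eq_card_of_forall_mem_zpowers ht, hcard]
  obtain ⟨k, hk⟩ := h4
  have hm0 : 0 < m := by
    rw [← hcard]
    exact Nat.card_pos
  have hk0 : k ≠ 0 := by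
    rintro rfl
    omega
  have hod : orderOf (t ^ k) = 4 := by
    rw [orderOf_pow_of_dvd hk0 (by rw [hot, hk]; exact Dvd.intro_left 4 rfl), hot, hk]
    exact Nat.mul_div_cancel 4 (Nat.pos_of_ne_zero hk0)
  obtain ⟨d, hd⟩ : ∃ d : SL2, d = ((t ^ k : T) : SL2) := ⟨_, rfl⟩
  have hdT : d ∈ T := by
    rw [hd]
    exact (t ^ k).2
  have hod' : orderOf d = 4 := by
    rw [hd, Subgroup.orderOf_coe]
    exact hod
  have hd4 : d ^ 4 = 1 := by
    rw [← hod']
    exact pow_orderOf_eq_one d
  have hd2 : d * d ≠ 1 := by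
    intro h
    have h1 : orderOf d ∣ 2 := orderOf_dvd_of_pow_eq_one (by rw [pow_two]; exact h)
    rw [hod'] at h1
    omega
  have hdd : d * d = SL2Odd.negOne := by
    rcases TorusC.sq_one h2 (d * d) (by rw [← pow_two, ← pow_two, ← pow_mul]; exact hd4) with h | h
    · exact absurd h hd2
    · exact h
  have hns : TorusB.NS (d : M2) := by
    by_contra hns
    rcases TorusC.scalar_of_not_NS d hns with h | h
    · apply hd2
      rw [h, mul_one]
    · apply hd2
      rw [h]
      exact TorusC.negOne_mul_self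
  have htr : (d : M2).trace = (a : M2).trace := by
    rw [tr_zero_of_sq d hdd, tr_zero_of_sq a haa]
  have h40 : (d : M2).trace ^ 2 ≠ 4 := by
    rw [tr_zero_of_sq d hdd]
    intro h
    apply h2
    have h5 : (2 : F) * 2 = 0 := by linear_combination -h
    rcases mul_eq_zero.1 h5 with h6 | h6 <;> exact h6
  obtain ⟨c, hc⟩ := isConj_iff.1 (SL2Conj.isConj_of_trace_eq hodd d a htr h40)
  rw [← hc, card_cent_conj, hcent d hdT hns, hcard]

end aux

/-- In SL_2(q), q odd: any two subgroups of order 4 are conjugate, and the normaliser of a subgroup of order 4 has order 2(q − 1) if q ≡ 1 (mod 4) and 2(q + 1) if q ≡ 3 (mod 4); consequently all involutions of PSL_2(q) are conjugate. -/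
theorem result {F : Type*} [Field F] [Fintype F] {q : ℕ} (hF : Fintype.card F = q) (hodd : Odd q) (A : Subgroup (Matrix.SpecialLinearGroup (Fin 2) F)) (hA : Nat.card A = 4) : (∀ B : Subgroup (Matrix.SpecialLinearGroup (Fin 2) F), Nat.card B = 4 → ∃ g : Matrix.SpecialLinearGroup (Fin 2) F, B = A.map (MulAut.conj g).toMonoidHom) ∧ (q % 4 = 1 → Nat.card ↥(Subgroup.normalizer (A : Set (Matrix.SpecialLinearGroup (Fin 2) F))) = 2 * (q - 1)) ∧ (q % 4 = 3 → Nat.card ↥(Subgroup.normalizer (A : Set (Matrix.SpecialLinearGroup (Fin 2) F))) = 2 * (q + 1)) ∧ (∀ x y : Matrix.ProjectiveSpecialLinearGroup (Fin 2) F, orderOf x = 2 → orderOf y = 2 → IsConj x y) := by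
  subst hF
  have h2 : (2 : F) ≠ 0 := SL2Conj.two_ne_zero_of_odd hodd
  have h40 : ((0 : F)) ^ 2 ≠ 4 := by
    intro h
    apply h2
    have h5 : (2 : F) * 2 = 0 := by linear_combination -h
    rcases mul_eq_zero.1 h5 with h6 | h6 <;> exact h6
  obtain ⟨a, hAa, haa⟩ := exists_gen h2 A hA
  have htra := tr_zero_of_sq a haa
  have hq1 : 1 < Fintype.card F := Fintype.one_lt_card
  have hN : Nat.card (Subgroup.normalizer (A : Set (Matrix.SpecialLinearGroup (Fin 2) F)))
      = 2 * Nat.card (Subgroup.centralizer ({a} : Set (Matrix.SpecialLinearGroup (Fin 2) F))) := by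
    rw [hAa]
    exact TorusB.card_normalizer hodd a (by rw [htra]; exact h40)
  refine ⟨?_, ?_, ?_, ?_⟩
  · intro B hB
    obtain ⟨b, hBb, hbb⟩ := exists_gen h2 B hB
    have htrb := tr_zero_of_sq b hbb
    obtain ⟨c, hc⟩ := isConj_iff.1 (SL2Conj.isConj_of_trace_eq hodd a b (by rw [htra, htrb])
      (by rw [htra]; exact h40))
    refine ⟨c, ?_⟩
    rw [hAa, hBb, MonoidHom.map_zpowers]
    congr 1
    exact hc.symm
  · intro hq
    rw [hN, card_cent_of_torus hodd _ _ TorusB.torus_split (by omega) a haa]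
  · intro hq
    obtain ⟨T, hT⟩ := TorusB.torus_nonsplit (F := F)
    rw [hN, card_cent_of_torus hodd T _ hT (by omega) a haa]
  · intro x y hx hy
    obtain ⟨X, rfl⟩ := QuotientGroup.mk_surjective x
    obtain ⟨Y, rfl⟩ := QuotientGroup.mk_surjective y
    have key : ∀ Z : Matrix.SpecialLinearGroup (Fin 2) F,
        orderOf (QuotientGroup.mk Z : Matrix.ProjectiveSpecialLinearGroup (Fin 2) F) = 2 →
        Z * Z = SL2Odd.negOne := by
      intro Z hZ
      have h1 := pow_orderOf_eq_one (QuotientGroup.mk Z : Matrix.ProjectiveSpecialLinearGroup (Fin 2) F)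
      rw [hZ] at h1
      rw [Torus.mk_pow_eq_one_iff h2] at h1
      have h3 : ¬ (QuotientGroup.mk Z : Matrix.ProjectiveSpecialLinearGroup (Fin 2) F) ^ 1 = 1 := by
        intro h
        have h4 := orderOf_dvd_of_pow_eq_one h
        rw [hZ] at h4
        omega
      rw [Torus.mk_pow_eq_one_iff h2] at h3
      rcases TorusC.sq_one h2 (Z * Z) (by rw [← pow_two, ← pow_two, ← pow_mul]; exact h1) with h | h
      · exfalso
        apply h3
        rw [mul_one, pow_two]
        exact h
      · exact h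
    have hX := tr_zero_of_sq X (key X hx)
    have hY := tr_zero_of_sq Y (key Y hy)
    have hconj := SL2Conj.isConj_of_trace_eq hodd X Y (by rw [hX, hY]) (by rw [hX]; exact h40)
    exact (QuotientGroup.mk' _).map_isConj hconj

end Cfsg.Agent.S0809
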