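import Mathlib
import Cfsg.Statements.S0811
import Cfsg.Agent.Helper14.DH

set_option autoImplicit false
open Cfsg

namespace Cfsg.Agent.S0811

open Cfsg.Agent.Helper14.Mat2 Cfsg.Agent.Helper14.SL2Odd Cfsg.Agent.Helper14.PSL2
  Cfsg.Agent.Helper14.SL2Conj Cfsg.Agent.Helper14.Torus Cfsg.Agent.Helper14.TorusB
  Cfsg.Agent.Helper14.TorusC Cfsg.Agent.Helper14.TorusD Cfsg.Agent.Helper14.TorusE
  Cfsg.Agent.Helper14.SL2T Cfsg.Agent.Helper14.SubA Cfsg.Agent.Helper14.SubD
  Cfsg.Agent.Helper14.A4Sub Cfsg.Agent.Helper14.DA Cfsg.Agent.Helper14.DH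

/-- For q ∉ {2, 7, 9}, PSL_2(q) has a maximal subgroup isomorphic to the dihedral group of order 2(q + 1)/d, d = gcd(2, q − 1). -/
theorem result {F : Type*} [Field F] [Fintype F] {q : ℕ} (hF : Fintype.card F = q) (hq : q ∉ ({2, 7, 9} : Finset ℕ)) : ∃ H : Subgroup (Matrix.ProjectiveSpecialLinearGroup (Fin 2) F), IsCoatom H ∧ Nonempty (H ≃* DihedralGroup ((q + 1) / Nat.gcd 2 (q - 1))) := by
  classical
  have hq1 : 1 < q := by
    rw [← hF]
    exact Fintype.one_lt_card
  have hq2 : q ≠ 2 := by
    intro h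
    apply hq
    rw [h]
    simp
  have hq7 : q ≠ 7 := by
    intro h
    apply hq
    rw [h]
    simp
  have hq9 : q ≠ 9 := by
    intro h
    apply hq
    rw [h]
    simp
  obtain ⟨p, hchar⟩ := CharP.exists F
  have := hchar
  obtain ⟨n, hpp, hn⟩ := FiniteField.card F p
  have : Fact p.Prime := ⟨hpp⟩
  have hpq : p ∣ q := by
    rw [← hF, hn]
    exact dvd_pow_self p n.pos.ne'
  rcases Nat.even_or_odd q with heven | hodd
  · have hp2 : p = 2 := by
      have h2q : 2 ∣ q := even_iff_two_dvd.mp heven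
      rw [← hF, hn] at h2q
      exact ((Nat.prime_dvd_prime_iff_eq Nat.prime_two hpp).mp
        (Nat.prime_two.dvd_of_dvd_pow h2q)).symm
    subst hp2
    have h2 : (2 : F) = 0 := CharTwo.two_eq_zero
    have hq4 : 4 ≤ q := by
      obtain ⟨m, hm⟩ := heven
      omega
    obtain ⟨A, n0, hA, hn0A, hn02⟩ := data_even (F := F)
    rw [hF] at hA
    have hn02' : n0 * n0 = negOne := by
      rw [negOne_eq_one h2]
      exact hn02
    have hcen : ∀ z ∈ Subgroup.center (Matrix.SpecialLinearGroup (Fin 2) F), z = 1 ∨ z = negOne :=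
      fun z hz => Or.inl (center_eq_one_char_two h2 z hz)
    have hinj : Function.Injective
        (QuotientGroup.mk' (Subgroup.center (Matrix.SpecialLinearGroup (Fin 2) F))) := by
      rw [← MonoidHom.ker_eq_bot_iff, QuotientGroup.ker_mk', eq_bot_iff]
      intro z hz
      rw [Subgroup.mem_bot]
      exact center_eq_one_char_two h2 z hz
    have hord : orderOf (QuotientGroup.mk' (Subgroup.center (Matrix.SpecialLinearGroup (Fin 2) F)) A)
        = q + 1 := by
      rw [orderOf_injective _ hinj, hA]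
    have hiso := pkg_iso q (by omega) A n0 hA hn0A hn02' hcen (q + 1) hord
    have hHt : Nat.card (Subgroup.closure ({n0, n0 * A} : Set (Matrix.SpecialLinearGroup (Fin 2) F)))
        = 2 * (q + 1) := by
      obtain ⟨e⟩ := hiso
      rw [← Subgroup.card_map_of_injective hinj, Nat.card_congr e.toEquiv, DihedralGroup.nat_card]
    have hgcd : (q + 1) / Nat.gcd 2 (q - 1) = q + 1 := by
      have hg : Nat.gcd 2 (q - 1) = 1 := by
        obtain ⟨m, hm⟩ := heven
        have e : q - 1 = 2 * (m - 1) + 1 := by omega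
        rw [e]
        simp
      rw [hg, Nat.div_one]
    rw [hgcd]
    refine ⟨_, pkg_coatom q hF (by omega) A n0 hn02' hcen hHt ?_, hiso⟩
    intro M hAM hn0M hM
    exact core_even q hF hq4 A n0 hA hn0A hn02 M hAM hn0M hM
  · have hoddF : Odd (Fintype.card F) := by
      rw [hF]
      exact hodd
    have h2 := two_ne_zero_of_odd hoddF
    have hq3 : 3 ≤ q := by
      obtain ⟨m, hm⟩ := hodd
      omega
    obtain ⟨A, n0, hA, hn0N, hn0A, hn02, hNc⟩ := data_odd hoddF p
    rw [hF] at hA hNc
    have hcen : ∀ z ∈ Subgroup.center (Matrix.SpecialLinearGroup (Fin 2) F), z = 1 ∨ z = negOne :=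
      fun z hz => sq_one h2 z (center_sq2 z hz)
    obtain ⟨m, hm⟩ : ∃ m, q + 1 = 2 * m := by
      obtain ⟨j, hj⟩ := hodd
      exact ⟨j + 1, by omega⟩
    have hord : orderOf (QuotientGroup.mk' (Subgroup.center (Matrix.SpecialLinearGroup (Fin 2) F)) A)
        = m := orderOf_mk_of_two_mul h2 A m (by rw [hA, hm])
    have hiso := pkg_iso q (by omega) A n0 hA hn0A hn02 hcen m hord
    have hnc := nc_of_inv q (by omega) A n0 hA hn0A
    have hn0cl : n0 ∈ Subgroup.closure ({n0, n0 * A} : Set (Matrix.SpecialLinearGroup (Fin 2) F)) :=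
      Subgroup.subset_closure (by simp)
    have hn0Acl : n0 * A ∈
        Subgroup.closure ({n0, n0 * A} : Set (Matrix.SpecialLinearGroup (Fin 2) F)) :=
      Subgroup.subset_closure (by simp)
    have hAcl : A ∈ Subgroup.closure ({n0, n0 * A} : Set (Matrix.SpecialLinearGroup (Fin 2) F)) := by
      have h := mul_mem (inv_mem hn0cl) hn0Acl
      rwa [inv_mul_cancel_left] at h
    have hHtN : Subgroup.closure ({n0, n0 * A} : Set (Matrix.SpecialLinearGroup (Fin 2) F)) =
        Subgroup.normalizer ((Subgroup.zpowers A : Subgroup (Matrix.SpecialLinearGroup (Fin 2) F)) :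
          Set (Matrix.SpecialLinearGroup (Fin 2) F)) := by
      have hle : Subgroup.closure ({n0, n0 * A} : Set (Matrix.SpecialLinearGroup (Fin 2) F)) ≤
          Subgroup.normalizer ((Subgroup.zpowers A : Subgroup (Matrix.SpecialLinearGroup (Fin 2) F)) :
            Set (Matrix.SpecialLinearGroup (Fin 2) F)) := by
        rw [Subgroup.closure_le]
        have hAN : A ∈ Subgroup.normalizer
            ((Subgroup.zpowers A : Subgroup (Matrix.SpecialLinearGroup (Fin 2) F)) :
              Set (Matrix.SpecialLinearGroup (Fin 2) F)) :=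
          Subgroup.le_normalizer (Subgroup.mem_zpowers A)
        intro x hx
        rcases hx with hx | hx
        · rw [hx]
          exact hn0N
        · rw [Set.mem_singleton_iff.mp hx]
          exact mul_mem hn0N hAN
      apply Subgroup.eq_of_le_of_card_ge hle
      rw [hNc]
      exact card_ge q A n0 hA hnc _ hAcl hn0cl
    have hHt : Nat.card (Subgroup.closure ({n0, n0 * A} : Set (Matrix.SpecialLinearGroup (Fin 2) F)))
        = 2 * (q + 1) := by
      rw [hHtN, hNc]
    have hgcd : (q + 1) / Nat.gcd 2 (q - 1) = m := by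
      have hg : Nat.gcd 2 (q - 1) = 2 := by
        obtain ⟨j, hj⟩ := hodd
        have e : q - 1 = 2 * j := by omega
        rw [e]
        simp
      rw [hg, hm]
      simp
    rw [hgcd]
    refine ⟨_, pkg_coatom q hF hq3 A n0 hn02 hcen hHt ?_, hiso⟩
    intro M hAM hn0M hM
    have hNM : Subgroup.normalizer
        ((Subgroup.zpowers A : Subgroup (Matrix.SpecialLinearGroup (Fin 2) F)) :
          Set (Matrix.SpecialLinearGroup (Fin 2) F)) ≤ M := by
      rw [← hHtN, Subgroup.closure_le]
      intro x hx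
      rcases hx with hx | hx
      · rw [hx]
        exact hn0M
      · rw [Set.mem_singleton_iff.mp hx]
        exact mul_mem hn0M hAM
    exact core_odd hoddF p q hF hpq hq3 hq7 hq9 A n0 hA hn0A hNc M hAM hn0M hNM hM

end Cfsg.Agent.S0811
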