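import Mathlib
import Cfsg.Statements.S0812
import Cfsg.Agent.Helper14.DM

set_option autoImplicit false
open Cfsg

namespace Cfsg.Agent.S0812

open Cfsg.Agent.Helper14.Mat2 Cfsg.Agent.Helper14.SL2Odd Cfsg.Agent.Helper14.PSL2
  Cfsg.Agent.Helper14.SL2Conj Cfsg.Agent.Helper14.Torus Cfsg.Agent.Helper14.TorusB
  Cfsg.Agent.Helper14.TorusC Cfsg.Agent.Helper14.TorusD Cfsg.Agent.Helper14.TorusE
  Cfsg.Agent.Helper14.SL2T Cfsg.Agent.Helper14.SubA Cfsg.Agent.Helper14.SubD
  Cfsg.Agent.Helper14.A4Sub Cfsg.Agent.Helper14.DA Cfsg.Agent.Helper14.DH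
  Cfsg.Agent.Helper14.DL Cfsg.Agent.Helper14.DM

/-- For q ∉ {2, 3, 5, 7, 9, 11}, PSL_2(q) has a maximal subgroup isomorphic to the dihedral group of order 2(q − 1)/d, d = gcd(2, q − 1). -/
theorem result {F : Type*} [Field F] [Fintype F] {q : ℕ} (hF : Fintype.card F = q) (hq : q ∉ ({2, 3, 5, 7, 9, 11} : Finset ℕ)) : ∃ H : Subgroup (Matrix.ProjectiveSpecialLinearGroup (Fin 2) F), IsCoatom H ∧ Nonempty (H ≃* DihedralGroup ((q - 1) / Nat.gcd 2 (q - 1))) := by
  classical
  have hq1 : 1 < q := by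
    rw [← hF]
    exact Fintype.one_lt_card
  have hqn : q ≠ 2 ∧ q ≠ 3 ∧ q ≠ 5 ∧ q ≠ 7 ∧ q ≠ 9 ∧ q ≠ 11 := by
    refine ⟨?_, ?_, ?_, ?_, ?_, ?_⟩ <;>
    · intro h
      apply hq
      rw [h]
      simp
  obtain ⟨hq2, hq3, hq5, hq7, hq9, hq11⟩ := hqn
  obtain ⟨s, rfl⟩ : ∃ s, q = s + 2 := ⟨q - 2, by omega⟩
  have hs2 : 2 ≤ s := by omega
  have es : s + 2 - 1 = s + 1 := by omega
  rw [es]
  obtain ⟨p, hchar⟩ := CharP.exists F
  have := hchar
  obtain ⟨n, hpp, hn⟩ := FiniteField.card F p
  have : Fact p.Prime := ⟨hpp⟩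
  have hpq : p ∣ s + 2 := by
    rw [← hF, hn]
    exact dvd_pow_self p n.pos.ne'
  obtain ⟨A, n0, hA, hn0A, hn02, hcentA, hself⟩ := split_data (F := F) s hF hs2
  have hclt := card_lt (F := F) s hF hs2
  rcases Nat.even_or_odd (s + 2) with heven | hodd
  · have hp2 : p = 2 := by
      have h2q : 2 ∣ s + 2 := even_iff_two_dvd.mp heven
      rw [← hF, hn] at h2q
      exact ((Nat.prime_dvd_prime_iff_eq Nat.prime_two hpp).mp
        (Nat.prime_two.dvd_of_dvd_pow h2q)).symm
    subst hp2
    have h2 : (2 : F) = 0 := CharTwo.two_eq_zero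
    have hn02' : n0 * n0 = 1 := by
      rw [hn02]
      exact negOne_eq_one h2
    have hcen : ∀ z ∈ Subgroup.center (Matrix.SpecialLinearGroup (Fin 2) F), z = 1 ∨ z = negOne :=
      fun z hz => Or.inl (center_eq_one_char_two h2 z hz)
    have hinj : Function.Injective
        (QuotientGroup.mk' (Subgroup.center (Matrix.SpecialLinearGroup (Fin 2) F))) := by
      rw [← MonoidHom.ker_eq_bot_iff, QuotientGroup.ker_mk', eq_bot_iff]
      intro z hz
      rw [Subgroup.mem_bot]
      exact center_eq_one_char_two h2 z hz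
    have hord : orderOf (QuotientGroup.mk' (Subgroup.center (Matrix.SpecialLinearGroup (Fin 2) F)) A)
        = s + 1 := by
      rw [orderOf_injective _ hinj, hA]
    have hiso := pkg_iso s hs2 A n0 hA hn0A hn02 hcen (s + 1) hord
    have hHt : Nat.card (Subgroup.closure ({n0, n0 * A} : Set (Matrix.SpecialLinearGroup (Fin 2) F)))
        = 2 * (s + 1) := by
      obtain ⟨e⟩ := hiso
      rw [← Subgroup.card_map_of_injective hinj, Nat.card_congr e.toEquiv, DihedralGroup.nat_card]
    have hgcd : (s + 1) / Nat.gcd 2 (s + 1) = s + 1 := by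
      have hg : Nat.gcd 2 (s + 1) = 1 := by
        obtain ⟨m, hm⟩ := heven
        have e : s + 1 = 2 * (m - 1) + 1 := by omega
        rw [e]
        simp
      rw [hg, Nat.div_one]
    rw [hgcd]
    refine ⟨_, pkg_coatom_g (2 * (s + 1)) hclt A n0 hn02 hcen hHt ?_, hiso⟩
    intro M hAM hn0M hM
    exact core_even_s s hF hs2 A n0 hA hn0A hcentA hn02' M hAM hn0M hM
  · have hoddF : Odd (Fintype.card F) := by
      rw [hF]
      exact hodd
    have h2 := two_ne_zero_of_odd hoddF
    have hs11 : 11 ≤ s := by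
      obtain ⟨m, hm⟩ := hodd
      omega
    have hcen : ∀ z ∈ Subgroup.center (Matrix.SpecialLinearGroup (Fin 2) F), z = 1 ∨ z = negOne :=
      fun z hz => sq_one h2 z (center_sq2 z hz)
    obtain ⟨m, hm⟩ : ∃ m, s + 1 = 2 * m := by
      obtain ⟨j, hj⟩ := hodd
      exact ⟨j, by omega⟩
    have hord : orderOf (QuotientGroup.mk' (Subgroup.center (Matrix.SpecialLinearGroup (Fin 2) F)) A)
        = m := orderOf_mk_of_two_mul h2 A m (by rw [hA, hm])
    have hiso := pkg_iso s hs2 A n0 hA hn0A hn02 hcen m hord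
    have hn0cl : n0 ∈ Subgroup.closure ({n0, n0 * A} : Set (Matrix.SpecialLinearGroup (Fin 2) F)) :=
      Subgroup.subset_closure (by simp)
    have hcenle : Subgroup.center (Matrix.SpecialLinearGroup (Fin 2) F) ≤
        Subgroup.closure ({n0, n0 * A} : Set (Matrix.SpecialLinearGroup (Fin 2) F)) := by
      intro z hz
      rcases hcen z hz with h | h
      · rw [h]
        exact Subgroup.one_mem _
      · rw [h, ← hn02]
        exact mul_mem hn0cl hn0cl
    have hHt : Nat.card (Subgroup.closure ({n0, n0 * A} : Set (Matrix.SpecialLinearGroup (Fin 2) F)))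
        = 2 * (s + 1) := by
      obtain ⟨e⟩ := hiso
      have h1 := Cfsg.Agent.Helper14.PSLMax.card_comap hoddF
        ((Subgroup.closure ({n0, n0 * A} : Set (Matrix.SpecialLinearGroup (Fin 2) F))).map
          (QuotientGroup.mk' (Subgroup.center (Matrix.SpecialLinearGroup (Fin 2) F))))
      rw [Subgroup.comap_map_eq, QuotientGroup.ker_mk', sup_eq_left.mpr hcenle,
        Nat.card_congr e.toEquiv, DihedralGroup.nat_card] at h1
      rw [h1, hm]
    have hτ := tau_ne_s p s hpq hs2 A hA
    have hHtN : Subgroup.closure ({n0, n0 * A} : Set (Matrix.SpecialLinearGroup (Fin 2) F)) =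
        Subgroup.normalizer ((Subgroup.zpowers A : Subgroup (Matrix.SpecialLinearGroup (Fin 2) F)) :
          Set (Matrix.SpecialLinearGroup (Fin 2) F)) := by
      apply le_antisymm
      · rw [Subgroup.closure_le]
        have hAN : A ∈ Subgroup.normalizer
            ((Subgroup.zpowers A : Subgroup (Matrix.SpecialLinearGroup (Fin 2) F)) :
              Set (Matrix.SpecialLinearGroup (Fin 2) F)) :=
          Subgroup.le_normalizer (Subgroup.mem_zpowers A)
        have hn0N := mem_norm_of_inv n0 A hn0A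
        intro x hx
        rcases hx with hx | hx
        · rw [hx]
          exact hn0N
        · rw [Set.mem_singleton_iff.mp hx]
          exact mul_mem hn0N hAN
      · exact norm_le_closure hoddF A n0 hτ hcentA hn0A
    have hNc : Nat.card (Subgroup.normalizer
        ((Subgroup.zpowers A : Subgroup (Matrix.SpecialLinearGroup (Fin 2) F)) :
          Set (Matrix.SpecialLinearGroup (Fin 2) F))) = 2 * (s + 1) := by
      rw [← hHtN, hHt]
    have hgcd : (s + 1) / Nat.gcd 2 (s + 1) = m := by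
      have hg : Nat.gcd 2 (s + 1) = 2 := by
        rw [hm]
        simp
      rw [hg, hm]
      simp
    rw [hgcd]
    refine ⟨_, pkg_coatom_g (2 * (s + 1)) hclt A n0 hn02 hcen hHt ?_, hiso⟩
    intro M hAM hn0M hM
    have hNM : Subgroup.normalizer
        ((Subgroup.zpowers A : Subgroup (Matrix.SpecialLinearGroup (Fin 2) F)) :
          Set (Matrix.SpecialLinearGroup (Fin 2) F)) ≤ M := by
      rw [← hHtN, Subgroup.closure_le]
      intro x hx
      rcases hx with hx | hx
      · rw [hx]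
        exact hn0M
      · rw [Set.mem_singleton_iff.mp hx]
        exact mul_mem hn0M hAM
    exact core_odd_s hoddF p s hF hpq hs11 A n0 hA hn0A hcentA hself hNc M hAM hn0M hNM hM

end Cfsg.Agent.S0812
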