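import Cfsg.Statements.S0824
-- import your own Cfsg.Agent.* helpers here
import Mathlib
import Cfsg.Agent.Helper5.Sym5Orth
import Cfsg.Agent.Helper5.FieldTransfer
import Cfsg.Agent.S0288

set_option autoImplicit false
open Cfsg

namespace Cfsg.Agent.S0824

/-- O⁻_4(2) ≅ S_5: the isometry group of the form x y + z_1² + z_1 z_2 + z_2² over the field with 2 elements is isomorphic to the symmetric group on 5 letters. -/
theorem result {F : Type*} [Field F] [Fintype F] (hF : Fintype.card F = 2) : Nonempty (↥(Cfsg.isometryGroup F (Cfsg.quadFormMinus 1 F 1 1)) ≃* Equiv.Perm (Fin 5)) := by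
  classical
  obtain ⟨φ0, hφ0⟩ := Cfsg.Agent.Helper5.sym5_orth_embed
  obtain ⟨ψ, hψdef⟩ : ∃ ψ : ZMod 2 ≃+* F, ψ = ZMod.ringEquivOfPrime F Nat.prime_two hF :=
    ⟨_, rfl⟩
  obtain ⟨Φ, hΦ⟩ := Cfsg.Agent.Helper5.iso_transfer ψ
    (Cfsg.quadFormMinus 1 (ZMod 2) 1 1) (Cfsg.quadFormMinus 1 F 1 1) (fun v => by
      unfold Cfsg.quadFormMinus
      simp only [map_add, map_sum, map_mul, map_pow, map_one])
  refine Cfsg.Agent.Helper5.mulEquiv_of_injective_of_card (Φ.comp φ0) (hΦ.comp hφ0) ?_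
  have h2 : (2 : F) = 0 := by
    have h1 : ψ 2 = 2 := map_ofNat ψ 2
    have h0 : (2 : ZMod 2) = 0 := by decide
    rw [← h1, h0, map_zero]
  have hcases : ∀ z : F, z = 0 ∨ z = 1 := by
    intro z
    obtain ⟨c, rfl⟩ := ψ.surjective z
    rcases Cfsg.Agent.Helper15.zmod2_cases c with h | h
    · left
      rw [h, map_zero]
    · right
      rw [h, map_one]
  have hab : ∀ z₁ z₂ : F, z₁ ^ 2 + 1 * z₁ * z₂ + 1 * z₂ ^ 2 = 0 → z₁ = 0 ∧ z₂ = 0 := by
    intro z₁ z₂ h
    rcases hcases z₁ with rfl | rfl <;> rcases hcases z₂ with rfl | rfl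
    · exact ⟨rfl, rfl⟩
    · exfalso
      apply one_ne_zero (α := F)
      linear_combination h
    · exfalso
      apply one_ne_zero (α := F)
      linear_combination h
    · exfalso
      apply one_ne_zero (α := F)
      linear_combination h - h2
  have hcard : Nat.card ↥(Cfsg.isometryGroup F (Cfsg.quadFormMinus 1 F 1 1)) = _ :=
    Cfsg.Agent.S0288.result hF 2 (by norm_num) 1 1 hab
  rw [hcard, Nat.card_eq_fintype_card, Fintype.card_perm, Fintype.card_fin]
  norm_num [Finset.prod_range_succ, Nat.factorial]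

end Cfsg.Agent.S0824
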