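import Cfsg.Statements.S0825
-- import your own Cfsg.Agent.* helpers here
import Mathlib
import Cfsg.Agent.Helper5.FieldTransfer
import Cfsg.Agent.Helper15.SymOrth
import Cfsg.Agent.S0287

set_option autoImplicit false
open Cfsg

namespace Cfsg.Agent.S0825

/-- O⁺_6(2) ≅ S_8: the isometry group of the hyperbolic form x_1y_1 + x_2y_2 + x_3y_3 over the field with 2 elements is isomorphic to the symmetric group on 8 letters. -/
theorem result {F : Type*} [Field F] [Fintype F] (hF : Fintype.card F = 2) : Nonempty (↥(Cfsg.isometryGroup F (Cfsg.quadFormPlus 3 F)) ≃* Equiv.Perm (Fin 8)) := by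
  classical
  obtain ⟨φ0, hφ0⟩ : ∃ φ : Equiv.Perm (Fin 8) →*
      ↥(Cfsg.isometryGroup (ZMod 2) (Cfsg.quadFormPlus 3 (ZMod 2))), Function.Injective φ :=
    (Cfsg.Agent.Helper15.sym_orth_embed 1 le_rfl).1 odd_one
  obtain ⟨Φ, hΦ⟩ := Cfsg.Agent.Helper5.iso_transfer (ZMod.ringEquivOfPrime F Nat.prime_two hF)
    (Cfsg.quadFormPlus 3 (ZMod 2)) (Cfsg.quadFormPlus 3 F) (fun v => by
      unfold Cfsg.quadFormPlus
      rw [map_sum]
      exact Finset.sum_congr rfl (fun i _ => (map_mul _ _ _).symm))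
  refine Cfsg.Agent.Helper5.mulEquiv_of_injective_of_card (Φ.comp φ0) (hΦ.comp hφ0) ?_
  rw [Cfsg.Agent.S0287.result hF 3 (by norm_num), Nat.card_eq_fintype_card, Fintype.card_perm,
    Fintype.card_fin]
  norm_num [Finset.prod_range_succ, Nat.factorial]

end Cfsg.Agent.S0825
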