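import Cfsg.Statements.S0832
-- import your own Cfsg.Agent.* helpers here
import Mathlib
import Cfsg.Agent.S0750
import Cfsg.Agent.Helper15.Gram
import Cfsg.Agent.Helper15.Witt

set_option autoImplicit false
open Cfsg

namespace Cfsg.Agent.S0832

theorem exQ (F : Type*) [Field F] (m : ℕ) :
    ∃ Q : QuadraticForm F (Fin m ⊕ Fin m → F), (∀ v, Q v = Cfsg.quadFormPlus m F v) ∧
      (QuadraticMap.polarBilin Q).Nondegenerate := by
  obtain ⟨Q, hQ⟩ : ∃ Q : QuadraticForm F (Fin m ⊕ Fin m → F),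
      ∀ v, Q v = Cfsg.quadFormPlus m F v := by
    refine ⟨QuadraticMap.ofPolar (Cfsg.quadFormPlus m F) ?_ ?_ ?_, fun v => rfl⟩
    · intro a x
      simp only [Cfsg.quadFormPlus, Pi.smul_apply, smul_eq_mul, Finset.mul_sum]
      exact Finset.sum_congr rfl fun i _ => by ring
    · intro x x' y
      rw [Cfsg.Agent.Helper15.polar_quadFormPlus, Cfsg.Agent.Helper15.polar_quadFormPlus,
        Cfsg.Agent.Helper15.polar_quadFormPlus, add_dotProduct]
    · intro a x y
      rw [Cfsg.Agent.Helper15.polar_quadFormPlus, Cfsg.Agent.Helper15.polar_quadFormPlus,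
        smul_dotProduct]
  refine ⟨Q, hQ, ?_⟩
  have hfun : (⇑Q : (Fin m ⊕ Fin m → F) → F) = Cfsg.quadFormPlus m F := funext hQ
  have h : QuadraticMap.polarBilin Q = Matrix.toBilin'
      (Matrix.fromBlocks 0 1 1 0 : Matrix (Fin m ⊕ Fin m) (Fin m ⊕ Fin m) F) :=
    LinearMap.ext₂ (fun u v => by
      rw [Matrix.toBilin'_apply', QuadraticMap.polarBilin_apply_apply, hfun]
      exact Cfsg.Agent.Helper15.polar_quadFormPlus m u v)
  rw [h]
  apply LinearMap.BilinForm.nondegenerate_toBilin'_of_det_ne_zero'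
  rw [Cfsg.Agent.Helper15.det_swapBlocks]
  exact pow_ne_zero _ (neg_ne_zero.2 one_ne_zero)

theorem ext_max {F V : Type*} [Field F] [AddCommGroup V] [Module F V] [FiniteDimensional F V]
    (Q : QuadraticForm F V) (hQ : (QuadraticMap.polarBilin Q).Nondegenerate) (m : ℕ)
    (hV : Module.finrank F V = 2 * m) (U₀ : Submodule F V) (hU₀dim : Module.finrank F U₀ = m)
    (hU₀ : ∀ w ∈ U₀, Q w = 0) (U : Submodule F V) (hU : ∀ w ∈ U, Q w = 0) :
    ∃ W₀ : Submodule F V, Module.finrank F W₀ = m ∧ (∀ w ∈ W₀, Q w = 0) ∧ U ≤ W₀ := by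
  obtain ⟨B, hBdef⟩ : ∃ B : LinearMap.BilinForm F V, B = QuadraticMap.polarBilin Q := ⟨_, rfl⟩
  rw [← hBdef] at hQ
  have hQ1 : ∀ u v, Q (u + v) = Q u + Q v + B u v := by
    intro u v
    rw [hBdef, QuadraticMap.polarBilin_apply_apply]
    exact QuadraticMap.map_add Q u v
  have hsym : ∀ u v, B u v = B v u := by
    intro u v
    rw [hBdef, QuadraticMap.polarBilin_apply_apply, QuadraticMap.polarBilin_apply_apply,
      QuadraticMap.polar_comm]
  have hts : ∀ W : Submodule F V, (∀ w ∈ W, Q w = 0) → ∀ u ∈ W, ∀ v ∈ W, B u v = 0 := by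
    intro W hW u hu v hv
    have h1 := hQ1 u v
    rw [hW _ (W.add_mem hu hv), hW u hu, hW v hv] at h1
    linear_combination -h1
  have hO : ∀ W : Submodule F V, (∀ w ∈ W, Q w = 0) → W ≤ B.orthogonal W := by
    intro W hW w hw
    rw [LinearMap.BilinForm.mem_orthogonal_iff]
    intro n hn
    exact hts W hW n hn w hw
  have hle_m : ∀ W : Submodule F V, (∀ w ∈ W, Q w = 0) → Module.finrank F W ≤ m := by
    intro W hW
    have h1 := Submodule.finrank_mono (hO W hW)
    rw [LinearMap.BilinForm.finrank_orthogonal hQ W, hV] at h1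
    omega
  have hU₀O : B.orthogonal U₀ = U₀ := by
    symm
    apply Submodule.eq_of_le_of_finrank_eq (hO U₀ hU₀)
    rw [LinearMap.BilinForm.finrank_orthogonal hQ U₀, hV, hU₀dim]
    omega
  obtain ⟨T, hTdef⟩ : ∃ T : Submodule F V, T = U₀ ⊓ B.orthogonal U := ⟨_, rfl⟩
  have hT1 : B.orthogonal (U₀ ⊔ U) ≤ T := by
    intro x hx
    rw [LinearMap.BilinForm.mem_orthogonal_iff] at hx
    rw [hTdef, Submodule.mem_inf]
    constructor
    · rw [← hU₀O, LinearMap.BilinForm.mem_orthogonal_iff]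
      exact fun n hn => hx n (Submodule.mem_sup_left hn)
    · rw [LinearMap.BilinForm.mem_orthogonal_iff]
      exact fun n hn => hx n (Submodule.mem_sup_right hn)
  have hT2 := Submodule.finrank_mono hT1
  rw [LinearMap.BilinForm.finrank_orthogonal hQ (U₀ ⊔ U), hV] at hT2
  have h3 := Submodule.finrank_sup_add_finrank_inf_eq U₀ U
  rw [hU₀dim] at h3
  have h4 := Submodule.finrank_sup_add_finrank_inf_eq T U
  have h5 : Module.finrank F ↥(T ⊓ U) ≤ Module.finrank F ↥(U₀ ⊓ U) :=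
    Submodule.finrank_mono (inf_le_inf_right U (by rw [hTdef]; exact inf_le_left))
  have hts' : ∀ w ∈ T ⊔ U, Q w = 0 := by
    intro w hw
    obtain ⟨t, ht, u, hu, rfl⟩ := Submodule.mem_sup.1 hw
    rw [hTdef, Submodule.mem_inf, LinearMap.BilinForm.mem_orthogonal_iff] at ht
    rw [hQ1, hU₀ t ht.1, hU u hu, hsym, ht.2 u hu]
    ring
  have h6 := hle_m (T ⊔ U) hts'
  have h8 : Module.finrank F ↥(U₀ ⊔ U) ≤ 2 * m := by
    rw [← hV]
    exact Submodule.finrank_le _
  refine ⟨T ⊔ U, ?_, hts', le_sup_right⟩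
  omega

theorem two_max {F V : Type*} [Field F] [AddCommGroup V] [Module F V] [FiniteDimensional F V]
    (Q : QuadraticForm F V) (hQ : (QuadraticMap.polarBilin Q).Nondegenerate) (m : ℕ)
    (hV : Module.finrank F V = 2 * m)
    (U W₀ : Submodule F V) (hUdim : Module.finrank F U + 1 = m)
    (hW₀dim : Module.finrank F W₀ = m)
    (hW₀ : ∀ w ∈ W₀, Q w = 0) (hUW₀ : U ≤ W₀) :
    ∃ W₁ : Submodule F V, W₁ ≠ W₀ ∧ Module.finrank F W₁ = m ∧ (∀ w ∈ W₁, Q w = 0) ∧ U ≤ W₁ ∧
      ∀ W : Submodule F V, Module.finrank F W = m → (∀ w ∈ W, Q w = 0) → U ≤ W →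
        W = W₀ ∨ W = W₁ := by
  classical
  obtain ⟨B, hBdef⟩ : ∃ B : LinearMap.BilinForm F V, B = QuadraticMap.polarBilin Q := ⟨_, rfl⟩
  rw [← hBdef] at hQ
  have hQ1 : ∀ u v, Q (u + v) = Q u + Q v + B u v := by
    intro u v
    rw [hBdef, QuadraticMap.polarBilin_apply_apply]
    exact QuadraticMap.map_add Q u v
  have hQ2 : ∀ (c : F) u, Q (c • u) = c * c * Q u := by
    intro c u
    rw [QuadraticMap.map_smul, smul_eq_mul]
  have hsym : ∀ u v, B u v = B v u := by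
    intro u v
    rw [hBdef, QuadraticMap.polarBilin_apply_apply, QuadraticMap.polarBilin_apply_apply,
      QuadraticMap.polar_comm]
  have hself : ∀ u, B u u = 2 * Q u := by
    intro u
    rw [hBdef, QuadraticMap.polarBilin_apply_apply, QuadraticMap.polar_self]
    simp
  have E1 : ∀ (v : V) (α : F) (d : V), Q (v + α • d) = Q v + α * α * Q d + α * B v d := by
    intro v α d
    rw [hQ1, hQ2, map_smul, smul_eq_mul]
  have E2 : ∀ (v : V) (α : F) (d : V) (γ : F) (e : V), Q (v + α • d + γ • e)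
      = Q v + α * α * Q d + γ * γ * Q e + α * B v d + γ * B v e + α * γ * B d e := by
    intro v α d γ e
    rw [E1 (v + α • d) γ e, E1 v α d]
    simp only [map_add, map_smul, LinearMap.add_apply, LinearMap.smul_apply, smul_eq_mul]
    ring
  have hts : ∀ W : Submodule F V, (∀ w ∈ W, Q w = 0) → ∀ u ∈ W, ∀ v ∈ W, B u v = 0 := by
    intro W hW u hu v hv
    have h1 := hQ1 u v
    rw [hW _ (W.add_mem hu hv), hW u hu, hW v hv] at h1
    linear_combination -h1
  have hdim1 : ∀ (X : Submodule F V) (v : V), v ∉ X →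
      Module.finrank F ↥(X ⊔ Submodule.span F {v}) = Module.finrank F X + 1 := by
    intro X v hv
    have hv0 : v ≠ 0 := fun h => hv (h ▸ X.zero_mem)
    have h1 := Submodule.finrank_sup_add_finrank_inf_eq X (Submodule.span F {v})
    have h2 : X ⊓ Submodule.span F {v} = ⊥ := by
      rw [Submodule.eq_bot_iff]
      rintro w ⟨hwX, hwv⟩
      obtain ⟨t, rfl⟩ := Submodule.mem_span_singleton.1 hwv
      by_cases ht : t = 0
      · rw [ht, zero_smul]
      · exfalso
        apply hv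
        have h3 := X.smul_mem t⁻¹ hwX
        rwa [smul_smul, inv_mul_cancel₀ ht, one_smul] at h3
    rw [h2, finrank_bot, add_zero, finrank_span_singleton hv0] at h1
    exact h1
  have hlt : U < W₀ := lt_of_le_of_ne hUW₀ (fun h => by
    rw [h] at hUdim
    omega)
  obtain ⟨u₀, hu₀W, hu₀U⟩ := SetLike.exists_of_lt hlt
  have hQu₀ : Q u₀ = 0 := hW₀ u₀ hu₀W
  have hW₀eq : W₀ = U ⊔ Submodule.span F {u₀} := by
    symm
    apply Submodule.eq_of_le_of_finrank_eq
    · exact sup_le hUW₀ ((Submodule.span_singleton_le_iff_mem _ _).2 hu₀W)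
    · rw [hdim1 U u₀ hu₀U, hW₀dim, hUdim]
  obtain ⟨z, hzU, hu₀z⟩ := Cfsg.Agent.S0750.hperpB B hQ hsym U u₀ hu₀U
  obtain ⟨u₁, hu₁def⟩ : ∃ u₁ : V, u₁ = z + (-(Q z / B u₀ z)) • u₀ := ⟨_, rfl⟩
  have hQu₁ : Q u₁ = 0 := by
    rw [hu₁def, E1, hQu₀, hsym z u₀]
    field_simp
    ring
  have hUu₀ : ∀ w ∈ U, B w u₀ = 0 := fun w hw => hts W₀ hW₀ w (hUW₀ hw) u₀ hu₀W
  have hUu₁ : ∀ w ∈ U, B w u₁ = 0 := fun w hw => by
    rw [hu₁def, map_add, map_smul, hzU w hw, hUu₀ w hw, smul_zero, add_zero]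
  have hu₀u₁ : B u₀ u₁ ≠ 0 := by
    rw [hu₁def, map_add, map_smul, hself, hQu₀, mul_zero, smul_zero, add_zero]
    exact hu₀z
  have hu₁W₀ : u₁ ∉ W₀ := fun h => hu₀u₁ (hts W₀ hW₀ u₀ hu₀W u₁ h)
  have hu₁U : u₁ ∉ U := fun h => hu₁W₀ (hUW₀ h)
  obtain ⟨W₁, hW₁def⟩ : ∃ W₁ : Submodule F V, W₁ = U ⊔ Submodule.span F {u₁} := ⟨_, rfl⟩
  have hmemW₁ : ∀ w, w ∈ W₁ ↔ ∃ u ∈ U, ∃ b : F, w = u + b • u₁ := by
    intro w
    rw [hW₁def, Submodule.mem_sup]
    constructor
    · rintro ⟨u, hu, y, hy, rfl⟩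
      obtain ⟨b, rfl⟩ := Submodule.mem_span_singleton.1 hy
      exact ⟨u, hu, b, rfl⟩
    · rintro ⟨u, hu, b, rfl⟩
      exact ⟨u, hu, b • u₁, Submodule.mem_span_singleton.2 ⟨b, rfl⟩, rfl⟩
  have hW₁ts : ∀ w ∈ W₁, Q w = 0 := by
    intro w hw
    obtain ⟨u, hu, b, rfl⟩ := (hmemW₁ w).1 hw
    rw [E1, hW₀ u (hUW₀ hu), hQu₁, hUu₁ u hu]
    ring
  have hW₁dim : Module.finrank F W₁ = m := by rw [hW₁def, hdim1 U u₁ hu₁U, hUdim]
  refine ⟨W₁, ?_, hW₁dim, hW₁ts, by rw [hW₁def]; exact le_sup_left, ?_⟩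
  · intro h
    apply hu₁W₀
    rw [← h, hW₁def]
    exact Submodule.mem_sup_right (Submodule.mem_span_singleton_self u₁)
  · intro W hWdim hWts hUW
    have hXle : W₀ ⊔ Submodule.span F {u₁} ≤ B.orthogonal U := by
      refine sup_le ?_ ?_
      · intro w hw
        rw [LinearMap.BilinForm.mem_orthogonal_iff]
        intro n hn
        exact hts W₀ hW₀ n (hUW₀ hn) w hw
      · rw [Submodule.span_singleton_le_iff_mem, LinearMap.BilinForm.mem_orthogonal_iff]
        exact hUu₁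
    have hXeq : W₀ ⊔ Submodule.span F {u₁} = B.orthogonal U := by
      apply Submodule.eq_of_le_of_finrank_eq hXle
      rw [hdim1 W₀ u₁ hu₁W₀, LinearMap.BilinForm.finrank_orthogonal hQ U, hW₀dim, hV]
      omega
    have hdecomp : ∀ w ∈ W, ∃ u ∈ U, ∃ a b : F, w = u + a • u₀ + b • u₁ := by
      intro w hw
      have h1 : w ∈ B.orthogonal U := by
        rw [LinearMap.BilinForm.mem_orthogonal_iff]
        intro n hn
        exact hts W hWts n (hUW hn) w hw
      rw [← hXeq, Submodule.mem_sup] at h1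
      obtain ⟨w₀, hw₀, y, hy, rfl⟩ := h1
      obtain ⟨b, rfl⟩ := Submodule.mem_span_singleton.1 hy
      rw [hW₀eq, Submodule.mem_sup] at hw₀
      obtain ⟨u, hu, y', hy', rfl⟩ := hw₀
      obtain ⟨a, rfl⟩ := Submodule.mem_span_singleton.1 hy'
      exact ⟨u, hu, a, b, rfl⟩
    have hin : ∀ w ∈ W, w ∈ W₀ ∨ w ∈ W₁ := by
      intro w hw
      obtain ⟨u, hu, a, b, rfl⟩ := hdecomp w hw
      have h1 := hWts _ hw
      rw [E2, hW₀ u (hUW₀ hu), hQu₀, hQu₁, hUu₀ u hu, hUu₁ u hu] at h1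
      have h2 : a * b * B u₀ u₁ = 0 := by linear_combination h1
      rcases mul_eq_zero.1 h2 with h3 | h3
      · rcases mul_eq_zero.1 h3 with ha | hb
        · right
          rw [ha, zero_smul, add_zero]
          exact (hmemW₁ _).2 ⟨u, hu, b, rfl⟩
        · left
          rw [hb, zero_smul, add_zero, hW₀eq]
          exact Submodule.add_mem _ (Submodule.mem_sup_left hu) (Submodule.smul_mem _ _
            (Submodule.mem_sup_right (Submodule.mem_span_singleton_self u₀)))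
      · exact absurd h3 hu₀u₁
    by_cases hle : W ≤ W₀
    · left
      exact Submodule.eq_of_le_of_finrank_eq hle (by rw [hWdim, hW₀dim])
    · right
      obtain ⟨w, hwW, hwW₀⟩ := SetLike.not_le_iff_exists.1 hle
      have hwW₁ : w ∈ W₁ := (hin w hwW).resolve_left hwW₀
      refine Submodule.eq_of_le_of_finrank_eq ?_ (by rw [hWdim, hW₁dim])
      intro w' hw'
      rcases hin w' hw' with h | h
      · rcases hin (w + w') (W.add_mem hwW hw') with h' | h'
        · exfalso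
          apply hwW₀
          have h9 := W₀.sub_mem h' h
          rwa [add_sub_cancel_right] at h9
        · have h9 := W₁.sub_mem h' hwW₁
          rwa [add_sub_cancel_left] at h9
      · exact h

/-- For the form Σ x_i y_i on F^(2m) over a finite field, m ≥ 1: an (m−1)-dimensional subspace on which the form vanishes is contained in exactly two m-dimensional subspaces on which it vanishes. -/
theorem result {F : Type*} [Field F] [Finite F] (m : ℕ) (hm : 1 ≤ m) (U : Submodule F (Fin m ⊕ Fin m → F)) (hU : Module.finrank F U + 1 = m ∧ ∀ u ∈ U, Cfsg.quadFormPlus m F u = 0) : Nat.card {W : Submodule F (Fin m ⊕ Fin m → F) // Module.finrank F W = m ∧ (∀ w ∈ W, Cfsg.quadFormPlus m F w = 0) ∧ U ≤ W} = 2 := by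
  classical
  obtain ⟨Q, hQv, hnd⟩ := exQ F m
  have hV : Module.finrank F (Fin m ⊕ Fin m → F) = 2 * m := by
    rw [Module.finrank_fintype_fun_eq_card, Fintype.card_sum, Fintype.card_fin]
    omega
  obtain ⟨U₀, hU₀, hU₀dim⟩ := Cfsg.Agent.Helper15.plus_singular_exists (F := F) m
  obtain ⟨W₀, hW₀dim, hW₀, hUW₀⟩ := ext_max Q hnd m hV U₀ hU₀dim
    (fun w hw => by rw [hQv]; exact hU₀ w hw) U (fun w hw => by rw [hQv]; exact hU.2 w hw)
  obtain ⟨W₁, hne, hW₁dim, hW₁, hUW₁, huniq⟩ :=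
    two_max Q hnd m hV U W₀ hU.1 hW₀dim hW₀ hUW₀
  rw [Nat.card_eq_two_iff]
  refine ⟨⟨W₀, hW₀dim, fun w hw => by rw [← hQv]; exact hW₀ w hw, hUW₀⟩,
    ⟨W₁, hW₁dim, fun w hw => by rw [← hQv]; exact hW₁ w hw, hUW₁⟩, ?_, ?_⟩
  · intro h
    exact hne (congrArg Subtype.val h).symm
  · rw [Set.eq_univ_iff_forall]
    rintro ⟨W, hWdim, hWts, hUW⟩
    rcases huniq W hWdim (fun w hw => by rw [hQv]; exact hWts w hw) hUW with h | h
    · exact Set.mem_insert_iff.2 (Or.inl (Subtype.ext h))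
    · exact Set.mem_insert_iff.2 (Or.inr (Set.mem_singleton_iff.2 (Subtype.ext h)))

end Cfsg.Agent.S0832
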