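import Cfsg.Statements.S0831
-- import your own Cfsg.Agent.* helpers here
import Mathlib
import Cfsg.Agent.S0832

set_option autoImplicit false
open Cfsg

namespace Cfsg.Agent.S0831

theorem nbr {F V : Type*} [Field F] [AddCommGroup V] [Module F V] [FiniteDimensional F V]
    (Q : QuadraticForm F V) (hQ : (QuadraticMap.polarBilin Q).Nondegenerate) (m : ℕ)
    (hV : Module.finrank F V = 2 * m) (U : Submodule F V) (hUdim : Module.finrank F U = m)
    (hU : ∀ x ∈ U, Q x = 0) (w : V) (hw : Q w = 0) (hwU : w ∉ U) :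
    ∃ U₁ : Submodule F V, Module.finrank F U₁ = m ∧ (∀ x ∈ U₁, Q x = 0) ∧ w ∈ U₁ ∧
      Module.finrank F ↥(U ⊓ U₁) + 1 = m ∧
      (∀ x ∈ U, QuadraticMap.polarBilin Q w x = 0 → x ∈ U₁) := by
  obtain ⟨B, hBdef⟩ : ∃ B : LinearMap.BilinForm F V, B = QuadraticMap.polarBilin Q := ⟨_, rfl⟩
  rw [← hBdef] at hQ ⊢
  have hQ1 : ∀ u v, Q (u + v) = Q u + Q v + B u v := by
    intro u v
    rw [hBdef, QuadraticMap.polarBilin_apply_apply]
    exact QuadraticMap.map_add Q u v
  have hsym : ∀ u v, B u v = B v u := by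
    intro u v
    rw [hBdef, QuadraticMap.polarBilin_apply_apply, QuadraticMap.polarBilin_apply_apply,
      QuadraticMap.polar_comm]
  have hts : ∀ W : Submodule F V, (∀ w ∈ W, Q w = 0) → ∀ u ∈ W, ∀ v ∈ W, B u v = 0 := by
    intro W hW u hu v hv
    have h1 := hQ1 u v
    rw [hW _ (W.add_mem hu hv), hW u hu, hW v hv] at h1
    linear_combination -h1
  have hO : ∀ W : Submodule F V, (∀ w ∈ W, Q w = 0) → W ≤ B.orthogonal W := by
    intro W hW w hw
    rw [LinearMap.BilinForm.mem_orthogonal_iff]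
    intro n hn
    exact hts W hW n hn w hw
  have hUO : B.orthogonal U = U := by
    symm
    apply Submodule.eq_of_le_of_finrank_eq (hO U hU)
    rw [LinearMap.BilinForm.finrank_orthogonal hQ U, hV, hUdim]
    omega
  obtain ⟨K, hKdef⟩ : ∃ K : Submodule F V, K = U ⊓ LinearMap.ker (B w) := ⟨_, rfl⟩
  have hKmem : ∀ x, x ∈ K ↔ x ∈ U ∧ B w x = 0 := by
    intro x
    rw [hKdef, Submodule.mem_inf, LinearMap.mem_ker]
  obtain ⟨u₀, hu₀U, hu₀⟩ : ∃ u ∈ U, B w u ≠ 0 := by
    by_contra hcon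
    push Not at hcon
    apply hwU
    rw [← hUO, LinearMap.BilinForm.mem_orthogonal_iff]
    intro n hn
    show B n w = 0
    rw [hsym]
    exact hcon n hn
  have hKdim : Module.finrank F K + 1 = m := by
    have hker : Module.finrank F (LinearMap.ker (B w)) + 1 = 2 * m := by
      rw [← hV]
      exact Module.Dual.finrank_ker_add_one_of_ne_zero (fun h0 => hu₀ (by rw [h0]; rfl))
    have hsup : U ⊔ LinearMap.ker (B w) = ⊤ := by
      apply Submodule.eq_top_of_finrank_eq
      have hlt : LinearMap.ker (B w) < U ⊔ LinearMap.ker (B w) := by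
        refine lt_of_le_of_ne le_sup_right (fun heq => hu₀ ?_)
        have : u₀ ∈ LinearMap.ker (B w) := by
          rw [heq]
          exact Submodule.mem_sup_left hu₀U
        exact LinearMap.mem_ker.1 this
      have h1 := Submodule.finrank_lt_finrank_of_lt hlt
      have h2 : Module.finrank F ↥(U ⊔ LinearMap.ker (B w)) ≤ 2 * m := by
        rw [← hV]
        exact Submodule.finrank_le _
      omega
    have h3 := Submodule.finrank_sup_add_finrank_inf_eq U (LinearMap.ker (B w))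
    rw [hsup, finrank_top, hV, hUdim, ← hKdef] at h3
    omega
  obtain ⟨U₁, hU₁def⟩ : ∃ U₁ : Submodule F V, U₁ = K ⊔ Submodule.span F {w} := ⟨_, rfl⟩
  have hKU : K ≤ U := by
    rw [hKdef]
    exact inf_le_left
  have hwK : ∀ a : F, a • w ∈ U → a = 0 := by
    intro a ha
    by_contra ha0
    apply hwU
    have := U.smul_mem a⁻¹ ha
    rwa [smul_smul, inv_mul_cancel₀ ha0, one_smul] at this
  have hdisj : K ⊓ Submodule.span F {w} = ⊥ := by
    rw [eq_bot_iff]
    rintro x ⟨hxK, hxw⟩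
    obtain ⟨a, rfl⟩ := Submodule.mem_span_singleton.1 hxw
    have := hwK a (hKU hxK)
    rw [this, zero_smul]
    exact Submodule.zero_mem _
  have hw0 : w ≠ 0 := fun h => hwU (by rw [h]; exact U.zero_mem)
  have hU₁dim : Module.finrank F U₁ = m := by
    have h1 := Submodule.finrank_sup_add_finrank_inf_eq K (Submodule.span F {w})
    rw [hdisj, finrank_bot, finrank_span_singleton hw0, ← hU₁def] at h1
    omega
  have hU₁ts : ∀ x ∈ U₁, Q x = 0 := by
    intro x hx
    rw [hU₁def] at hx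
    obtain ⟨k, hk, y, hy, rfl⟩ := Submodule.mem_sup.1 hx
    obtain ⟨a, rfl⟩ := Submodule.mem_span_singleton.1 hy
    rw [hQ1, hU k (hKU hk), QuadraticMap.map_smul, hw, hsym]
    simp [((hKmem k).1 hk).2]
  have hinf : U ⊓ U₁ = K := by
    apply le_antisymm
    · rintro x ⟨hxU, hxU₁⟩
      rw [hU₁def] at hxU₁
      obtain ⟨k, hk, y, hy, rfl⟩ := Submodule.mem_sup.1 hxU₁
      obtain ⟨a, rfl⟩ := Submodule.mem_span_singleton.1 hy
      have h1 : a • w ∈ U := by
        have := U.sub_mem hxU (hKU hk)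
        rwa [add_sub_cancel_left] at this
      rw [hwK a h1, zero_smul, add_zero]
      exact hk
    · exact le_inf hKU (by rw [hU₁def]; exact le_sup_left)
  refine ⟨U₁, hU₁dim, hU₁ts, ?_, ?_, ?_⟩
  · rw [hU₁def]
    exact Submodule.mem_sup_right (Submodule.mem_span_singleton_self w)
  · rw [hinf]
    exact hKdim
  · intro x hx hx0
    rw [hU₁def]
    exact Submodule.mem_sup_left ((hKmem x).2 ⟨hx, hx0⟩)

theorem nbr_parity {F V : Type*} [Field F] [AddCommGroup V] [Module F V] [FiniteDimensional F V]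
    (Q : QuadraticForm F V) (hQ : (QuadraticMap.polarBilin Q).Nondegenerate) (m : ℕ)
    (hV : Module.finrank F V = 2 * m) (U U₁ X : Submodule F V)
    (hUdim : Module.finrank F U = m) (hU : ∀ x ∈ U, Q x = 0)
    (hU₁dim : Module.finrank F U₁ = m) (hU₁ : ∀ x ∈ U₁, Q x = 0)
    (hXdim : Module.finrank F X = m) (hX : ∀ x ∈ X, Q x = 0)
    (hne : U ≠ U₁) (hD : Module.finrank F ↥(U ⊓ U₁) + 1 = m) :
    Module.finrank F ↥(X ⊓ U) = Module.finrank F ↥(X ⊓ U₁) + 1 ∨
      Module.finrank F ↥(X ⊓ U₁) = Module.finrank F ↥(X ⊓ U) + 1 := by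
  obtain ⟨W₁, hW₁ne, hW₁dim, hW₁, hDW₁, huniq0⟩ :=
    Cfsg.Agent.S0832.two_max Q hQ m hV (U ⊓ U₁) U hD hUdim hU inf_le_left
  have hU₁W₁ : U₁ = W₁ := by
    rcases huniq0 U₁ hU₁dim hU₁ inf_le_right with h | h
    · exact absurd h.symm hne
    · exact h
  have huniq : ∀ W : Submodule F V, Module.finrank F W = m → (∀ w ∈ W, Q w = 0) → U ⊓ U₁ ≤ W →
      W = U ∨ W = U₁ := by
    intro W a b c
    rcases huniq0 W a b c with h | h
    · exact Or.inl h
    · exact Or.inr (h.trans hU₁W₁.symm)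
  obtain ⟨B, hBdef⟩ : ∃ B : LinearMap.BilinForm F V, B = QuadraticMap.polarBilin Q := ⟨_, rfl⟩
  rw [← hBdef] at hQ
  have hQ1 : ∀ u v, Q (u + v) = Q u + Q v + B u v := by
    intro u v
    rw [hBdef, QuadraticMap.polarBilin_apply_apply]
    exact QuadraticMap.map_add Q u v
  have hsym : ∀ u v, B u v = B v u := by
    intro u v
    rw [hBdef, QuadraticMap.polarBilin_apply_apply, QuadraticMap.polarBilin_apply_apply,
      QuadraticMap.polar_comm]
  have hts : ∀ W : Submodule F V, (∀ w ∈ W, Q w = 0) → ∀ u ∈ W, ∀ v ∈ W, B u v = 0 := by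
    intro W hW u hu v hv
    have h1 := hQ1 u v
    rw [hW _ (W.add_mem hu hv), hW u hu, hW v hv] at h1
    linear_combination -h1
  have hO : ∀ W : Submodule F V, (∀ w ∈ W, Q w = 0) → W ≤ B.orthogonal W := by
    intro W hW w hw
    rw [LinearMap.BilinForm.mem_orthogonal_iff]
    intro n hn
    exact hts W hW n hn w hw
  have hXO : B.orthogonal X = X := by
    symm
    apply Submodule.eq_of_le_of_finrank_eq (hO X hX)
    rw [LinearMap.BilinForm.finrank_orthogonal hQ X, hV, hXdim]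
    omega
  obtain ⟨D, hDdef⟩ : ∃ D : Submodule F V, D = U ⊓ U₁ := ⟨_, rfl⟩
  rw [← hDdef] at hD huniq
  have hDU : D ≤ U := by
    rw [hDdef]
    exact inf_le_left
  have hDU₁ : D ≤ U₁ := by
    rw [hDdef]
    exact inf_le_right
  obtain ⟨Dp, hDpdef⟩ : ∃ Dp : Submodule F V, Dp = B.orthogonal D := ⟨_, rfl⟩
  have hmemDp : ∀ x, x ∈ Dp ↔ ∀ n ∈ D, B n x = 0 := by
    intro x
    rw [hDpdef]
    exact LinearMap.BilinForm.mem_orthogonal_iff
  have hUDp : U ≤ Dp := fun x hx => (hmemDp x).2 (fun n hn => hts U hU n (hDU hn) x hx)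
  have hU₁Dp : U₁ ≤ Dp := fun x hx => (hmemDp x).2 (fun n hn => hts U₁ hU₁ n (hDU₁ hn) x hx)
  have hDDp : D ≤ Dp := hDU.trans hUDp
  have hsup : B.orthogonal (X ⊔ D) = X ⊓ Dp := by
    apply le_antisymm
    · intro x hx
      rw [LinearMap.BilinForm.mem_orthogonal_iff] at hx
      refine Submodule.mem_inf.2
        ⟨?_, (hmemDp x).2 (fun n hn => hx n (Submodule.mem_sup_right hn))⟩
      have h1 : x ∈ B.orthogonal X := by
        rw [LinearMap.BilinForm.mem_orthogonal_iff]
        exact fun n hn => hx n (Submodule.mem_sup_left hn)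
      rwa [hXO] at h1
    · rintro x ⟨hxX, hxD⟩
      rw [LinearMap.BilinForm.mem_orthogonal_iff]
      intro n hn
      obtain ⟨a, ha, d, hd, rfl⟩ := Submodule.mem_sup.1 hn
      show B (a + d) x = 0
      rw [map_add, LinearMap.add_apply, hts X hX a ha x hxX, (hmemDp x).1 hxD d hd, add_zero]
  have h1 : Module.finrank F ↥(X ⊓ Dp) = Module.finrank F ↥(X ⊓ D) + 1 := by
    have e1 := LinearMap.BilinForm.finrank_orthogonal hQ (X ⊔ D)
    rw [hsup, hV] at e1
    have e2 := Submodule.finrank_sup_add_finrank_inf_eq X D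
    have e3 : Module.finrank F ↥(X ⊔ D) ≤ 2 * m := by
      rw [← hV]
      exact Submodule.finrank_le _
    omega
  obtain ⟨X', hX'def⟩ : ∃ X' : Submodule F V, X' = (X ⊓ Dp) ⊔ D := ⟨_, rfl⟩
  have hX'ts : ∀ x ∈ X', Q x = 0 := by
    intro x hx
    rw [hX'def] at hx
    obtain ⟨a, ha, d, hd, rfl⟩ := Submodule.mem_sup.1 hx
    rw [hQ1, hX a ha.1, hU d (hDU hd), hsym, (hmemDp a).1 ha.2 d hd]
    ring
  have hX'dim : Module.finrank F X' = m := by
    have e1 := Submodule.finrank_sup_add_finrank_inf_eq (X ⊓ Dp) D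
    have e2 : (X ⊓ Dp) ⊓ D = X ⊓ D := by
      rw [inf_assoc, inf_eq_right.2 hDDp]
    rw [e2, ← hX'def] at e1
    omega
  have hcase : ∀ A A' : Submodule F V, X' = A → A ≤ Dp → A' ≤ Dp → D ≤ A' → A ⊓ A' ≤ D →
      Module.finrank F ↥(X ⊓ A) = Module.finrank F ↥(X ⊓ A') + 1 := by
    intro A A' hXA hA hA' hDA' hAA'
    have e1 : X ⊓ A = X ⊓ Dp := by
      apply le_antisymm (inf_le_inf_left X hA)
      refine le_inf inf_le_left ?_
      rw [← hXA, hX'def]
      exact le_sup_left
    have e2 : X ⊓ A' = X ⊓ D := by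
      apply le_antisymm
      · rintro x ⟨hxX, hxA'⟩
        have h2 : x ∈ X ⊓ A := by
          rw [e1]
          exact ⟨hxX, hA' hxA'⟩
        exact ⟨hxX, hAA' ⟨h2.2, hxA'⟩⟩
      · exact inf_le_inf_left X hDA'
    rw [e1, e2, h1]
  rcases huniq X' hX'dim hX'ts (by rw [hX'def]; exact le_sup_right) with h | h
  · left
    exact hcase U U₁ h hUDp hU₁Dp hDU₁ (by rw [hDdef])
  · right
    exact hcase U₁ U h hU₁Dp hUDp hDU (by rw [hDdef, inf_comm])

theorem parity {F V : Type*} [Field F] [AddCommGroup V] [Module F V] [FiniteDimensional F V]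
    (Q : QuadraticForm F V) (hQ : (QuadraticMap.polarBilin Q).Nondegenerate) (m : ℕ)
    (hV : Module.finrank F V = 2 * m) :
    ∀ (r : ℕ) (U W X : Submodule F V), Module.finrank F U = m → (∀ x ∈ U, Q x = 0) →
      Module.finrank F W = m → (∀ x ∈ W, Q x = 0) → Module.finrank F X = m →
      (∀ x ∈ X, Q x = 0) → m - Module.finrank F ↥(U ⊓ W) = r →
      Even ((m - Module.finrank F ↥(U ⊓ W)) + (m - Module.finrank F ↥(W ⊓ X))
        + (m - Module.finrank F ↥(U ⊓ X))) := by
  intro r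
  induction r with
  | zero =>
    intro U W X hUdim hU hWdim hW hXdim hX hr
    have h1 : Module.finrank F ↥(U ⊓ W) ≤ m := by
      rw [← hUdim]
      exact Submodule.finrank_mono inf_le_left
    have h2 : Module.finrank F ↥(U ⊓ W) = m := by omega
    have h3 : U ⊓ W = U := Submodule.eq_of_le_of_finrank_eq inf_le_left (by rw [h2, hUdim])
    have h4 : U ⊓ W = W := Submodule.eq_of_le_of_finrank_eq inf_le_right (by rw [h2, hWdim])
    have h5 : U = W := h3.symm.trans h4
    rw [h5, inf_idem, hWdim, Nat.even_iff]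
    omega
  | succ r ih =>
    intro U W X hUdim hU hWdim hW hXdim hX hr
    obtain ⟨w, hwW, hwU⟩ : ∃ w ∈ W, w ∉ U := by
      by_contra hcon
      push Not at hcon
      have h1 : U ⊓ W = W := inf_eq_right.2 (fun x hx => hcon x hx)
      rw [h1, hWdim] at hr
      omega
    obtain ⟨U₁, hU₁dim, hU₁, hwU₁, hD, hK⟩ := nbr Q hQ m hV U hUdim hU w (hW w hwW) hwU
    have hne : U ≠ U₁ := fun h => hwU (by rw [h]; exact hwU₁)
    have hge : Module.finrank F ↥(U ⊓ W) + 1 ≤ Module.finrank F ↥(U₁ ⊓ W) := by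
      have hle : (U ⊓ W) ⊔ Submodule.span F {w} ≤ U₁ ⊓ W := by
        apply sup_le
        · rintro x ⟨hxU, hxW⟩
          refine ⟨hK x hxU ?_, hxW⟩
          rw [QuadraticMap.polarBilin_apply_apply, QuadraticMap.polar,
            hW _ (W.add_mem hwW hxW), hW w hwW, hW x hxW]
          simp
        · rw [Submodule.span_singleton_le_iff_mem]
          exact ⟨hwU₁, hwW⟩
      have h1 := Submodule.finrank_mono hle
      have h2 := Submodule.finrank_sup_add_finrank_inf_eq (U ⊓ W) (Submodule.span F {w})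
      have hw0 : w ≠ 0 := fun h => hwU (by rw [h]; exact U.zero_mem)
      have h3 : (U ⊓ W) ⊓ Submodule.span F {w} = ⊥ := by
        rw [eq_bot_iff]
        rintro x ⟨hx1, hx2⟩
        obtain ⟨a, rfl⟩ := Submodule.mem_span_singleton.1 hx2
        by_cases ha : a = 0
        · rw [ha, zero_smul]
          exact Submodule.zero_mem _
        · exfalso
          apply hwU
          have := U.smul_mem a⁻¹ hx1.1
          rwa [smul_smul, inv_mul_cancel₀ ha, one_smul] at this
      rw [h3, finrank_bot, finrank_span_singleton hw0] at h2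
      omega
    have hp1 := nbr_parity Q hQ m hV U U₁ W hUdim hU hU₁dim hU₁ hWdim hW hne hD
    rw [inf_comm W U, inf_comm W U₁] at hp1
    have hp2 := nbr_parity Q hQ m hV U U₁ X hUdim hU hU₁dim hU₁ hXdim hX hne hD
    rw [inf_comm X U, inf_comm X U₁] at hp2
    have hb1 : Module.finrank F ↥(U₁ ⊓ W) ≤ m := by
      rw [← hWdim]
      exact Submodule.finrank_mono inf_le_right
    have hb2 : Module.finrank F ↥(U ⊓ X) ≤ m := by
      rw [← hXdim]
      exact Submodule.finrank_mono inf_le_right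
    have hb3 : Module.finrank F ↥(U₁ ⊓ X) ≤ m := by
      rw [← hXdim]
      exact Submodule.finrank_mono inf_le_right
    have hih := ih U₁ W X hU₁dim hU₁ hWdim hW hXdim hX (by omega)
    rw [Nat.even_iff] at hih ⊢
    omega

/-- The two families of maximal totally singular subspaces of the hyperbolic quadric: for the form Σ x_i y_i on F^(2m), m ≥ 1, and m-dimensional subspaces U, W, X on which it vanishes, the parities of m − dim(U ∩ W), m − dim(W ∩ X) and m − dim(U ∩ X) sum to an even number (so 'even codimension of the intersection' is an equivalence relation), and there exist two such subspaces meeting in codimension 1 (so there are exactly two classes). -/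
theorem result {F : Type*} [Field F] (m : ℕ) (hm : 1 ≤ m) : (∀ U W X : Submodule F (Fin m ⊕ Fin m → F), (Module.finrank F U = m ∧ ∀ w ∈ U, Cfsg.quadFormPlus m F w = 0) → (Module.finrank F W = m ∧ ∀ w ∈ W, Cfsg.quadFormPlus m F w = 0) → (Module.finrank F X = m ∧ ∀ w ∈ X, Cfsg.quadFormPlus m F w = 0) → Even ((m - Module.finrank F ↥(U ⊓ W)) + (m - Module.finrank F ↥(W ⊓ X)) + (m - Module.finrank F ↥(U ⊓ X)))) ∧ ∃ U W : Submodule F (Fin m ⊕ Fin m → F), (Module.finrank F U = m ∧ ∀ w ∈ U, Cfsg.quadFormPlus m F w = 0) ∧ (Module.finrank F W = m ∧ ∀ w ∈ W, Cfsg.quadFormPlus m F w = 0) ∧ Module.finrank F ↥(U ⊓ W) + 1 = m := by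
  classical
  obtain ⟨Q, hQv, hnd⟩ := Cfsg.Agent.S0832.exQ F m
  have hV : Module.finrank F (Fin m ⊕ Fin m → F) = 2 * m := by
    rw [Module.finrank_fintype_fun_eq_card, Fintype.card_sum, Fintype.card_fin]
    omega
  constructor
  · rintro U W X ⟨hUdim, hU⟩ ⟨hWdim, hW⟩ ⟨hXdim, hX⟩
    exact parity Q hnd m hV _ U W X hUdim (fun x hx => by rw [hQv]; exact hU x hx) hWdim
      (fun x hx => by rw [hQv]; exact hW x hx) hXdim (fun x hx => by rw [hQv]; exact hX x hx) rfl
  · obtain ⟨U₀, hU₀, hU₀dim⟩ := Cfsg.Agent.Helper15.plus_singular_exists (F := F) m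
    obtain ⟨i, hi⟩ : ∃ i : Fin m ⊕ Fin m, (Pi.single i 1 : Fin m ⊕ Fin m → F) ∉ U₀ := by
      by_contra hcon
      push Not at hcon
      have htop : U₀ = ⊤ := by
        rw [eq_top_iff, ← (Pi.basisFun F (Fin m ⊕ Fin m)).span_eq, Submodule.span_le]
        rintro _ ⟨i, rfl⟩
        rw [Pi.basisFun_apply]
        exact hcon i
      rw [htop, finrank_top, hV] at hU₀dim
      omega
    have hQi : Q (Pi.single i 1) = 0 := by
      rw [hQv]
      unfold Cfsg.quadFormPlus
      apply Finset.sum_eq_zero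
      intro j _
      rcases i with i | i
      · simp
      · simp
    obtain ⟨U₁, hU₁dim, hU₁, hwU₁, hD, -⟩ := nbr Q hnd m hV U₀ hU₀dim
      (fun x hx => by rw [hQv]; exact hU₀ x hx) _ hQi hi
    exact ⟨U₀, U₁, ⟨hU₀dim, hU₀⟩, ⟨hU₁dim, fun x hx => by rw [← hQv]; exact hU₁ x hx⟩, hD⟩

end Cfsg.Agent.S0831
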