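import Cfsg.Statements.S0833
-- import your own Cfsg.Agent.* helpers here
import Mathlib
import Cfsg.Agent.S0752

set_option autoImplicit false
open Cfsg

namespace Cfsg.Agent.S0833

open scoped TensorProduct

theorem tmul_pure {F U W : Type*} [Field F] [AddCommGroup U] [Module F U] [AddCommGroup W]
    [Module F W] (B₁ : LinearMap.BilinForm F U) (B₂ : LinearMap.BilinForm F W) (x₁ y₁ : U)
    (x₂ y₂ : W) :
    (B₁.tmul B₂) (x₁ ⊗ₜ[F] x₂) (y₁ ⊗ₜ[F] y₂) = B₂ x₂ y₂ * B₁ x₁ y₁ := rfl

/-- If B₁, B₂ are non-degenerate alternating forms on U (dim 2k) and W (dim 2l), then B₁ ⊗ B₂ on U ⊗ W is symmetric, non-degenerate, and vanishes identically on some subspace of dimension 2kl (half of dim U ⊗ W). -/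
theorem result {F U W : Type*} [Field F] [Fintype F] [AddCommGroup U] [Module F U] [FiniteDimensional F U] [AddCommGroup W] [Module F W] [FiniteDimensional F W] (B₁ : LinearMap.BilinForm F U) (B₂ : LinearMap.BilinForm F W) (h₁ : B₁.Nondegenerate) (h₂ : B₂.Nondegenerate) (hA₁ : B₁.IsAlt) (hA₂ : B₂.IsAlt) (k l : ℕ) (hU : Module.finrank F U = 2 * k) (hW : Module.finrank F W = 2 * l) : (B₁.tmul B₂).IsSymm ∧ (B₁.tmul B₂).Nondegenerate ∧ (∃ X : Submodule F (TensorProduct F U W), Module.finrank F X = 2 * k * l ∧ ∀ x ∈ X, ∀ y ∈ X, (B₁.tmul B₂) x y = 0) := by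
  classical
  have hsymm : ∀ x y : TensorProduct F U W, (B₁.tmul B₂) x y = (B₁.tmul B₂) y x := by
    intro x y
    induction x using TensorProduct.induction_on with
    | zero => simp
    | tmul x₁ x₂ =>
      induction y using TensorProduct.induction_on with
      | zero => simp
      | tmul y₁ y₂ =>
        rw [tmul_pure, tmul_pure, ← hA₁.neg_eq y₁ x₁, ← hA₂.neg_eq y₂ x₂]
        ring
      | add y y' hy hy' => rw [map_add, hy, hy', map_add, LinearMap.add_apply]
    | add x x' hx hx' => rw [map_add, LinearMap.add_apply, hx, hx', map_add]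
  refine ⟨⟨fun x y => hsymm x y⟩, ?_, ?_⟩
  · obtain ⟨b₁⟩ : Nonempty (Module.Basis (Fin (Module.finrank F U)) F U) :=
      ⟨Module.finBasis F U⟩
    obtain ⟨b₂⟩ : Nonempty (Module.Basis (Fin (Module.finrank F W)) F W) :=
      ⟨Module.finBasis F W⟩
    refine (LinearMap.BilinForm.nondegenerate_iff_det_ne_zero (B := B₁.tmul B₂)
      (b₁.tensorProduct b₂)).2 ?_
    have hM : LinearMap.BilinForm.toMatrix (b₁.tensorProduct b₂) (B₁.tmul B₂)
        = Matrix.kroneckerMap (fun x1 x2 => x1 * x2) (LinearMap.BilinForm.toMatrix b₁ B₁)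
          (LinearMap.BilinForm.toMatrix b₂ B₂) := by
      ext ⟨i, j⟩ ⟨i', j'⟩
      rw [LinearMap.BilinForm.toMatrix_apply, Module.Basis.tensorProduct_apply,
        Module.Basis.tensorProduct_apply, tmul_pure, Matrix.kroneckerMap_apply,
        LinearMap.BilinForm.toMatrix_apply, LinearMap.BilinForm.toMatrix_apply, mul_comm]
    rw [hM, Matrix.det_kronecker]
    exact mul_ne_zero
      (pow_ne_zero _ ((LinearMap.BilinForm.nondegenerate_iff_det_ne_zero b₁).1 h₁))
      (pow_ne_zero _ ((LinearMap.BilinForm.nondegenerate_iff_det_ne_zero b₂).1 h₂))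
  · obtain ⟨m, k', b, hef, hee, hff, hrad⟩ := Cfsg.Agent.S0752.result B₁ hA₁
    have hk' : k' = 0 := by
      by_contra hne
      have h0 : b (Sum.inr (⟨0, Nat.pos_of_ne_zero hne⟩ : Fin k')) = 0 :=
        h₁.1 _ (fun v => hrad _ v)
      exact b.ne_zero _ h0
    have hm : m = k := by
      have h1 := Module.finrank_eq_card_basis b
      rw [hU] at h1
      simp at h1
      omega
    obtain ⟨b₂⟩ : Nonempty (Module.Basis (Fin (Module.finrank F W)) F W) :=
      ⟨Module.finBasis F W⟩
    obtain ⟨v, hv⟩ : ∃ v : Fin m × Fin (Module.finrank F W) → TensorProduct F U W,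
        ∀ p, v p = b (Sum.inl (Sum.inl p.1)) ⊗ₜ[F] b₂ p.2 := ⟨_, fun _ => rfl⟩
    have hli : LinearIndependent F v := by
      have h1 := (b.tensorProduct b₂).linearIndependent
      have h2 : v = (b.tensorProduct b₂) ∘
          (fun p : Fin m × Fin (Module.finrank F W) => (Sum.inl (Sum.inl p.1), p.2)) := by
        funext p
        rw [hv, Function.comp_apply, Module.Basis.tensorProduct_apply]
      rw [h2]
      exact h1.comp _ (fun p q hpq => by
        have h3 := congrArg Prod.fst hpq
        have h4 := congrArg Prod.snd hpq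
        simp only [Sum.inl.injEq] at h3 h4
        exact Prod.ext h3 h4)
    refine ⟨Submodule.span F (Set.range v), ?_, ?_⟩
    · rw [finrank_span_eq_card hli, Fintype.card_prod, Fintype.card_fin, Fintype.card_fin, hW,
        hm]
      ring
    · have h1 : ∀ p q, (B₁.tmul B₂) (v p) (v q) = 0 := by
        intro p q
        rw [hv, hv, tmul_pure, hee, mul_zero]
      have h2 : ∀ p, ∀ y ∈ Submodule.span F (Set.range v), (B₁.tmul B₂) (v p) y = 0 :=
        fun p => by
          have h3 : Submodule.span F (Set.range v) ≤ LinearMap.ker ((B₁.tmul B₂) (v p)) :=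
            Submodule.span_le.2 (by
              rintro _ ⟨q, rfl⟩
              exact h1 p q)
          exact fun y hy => h3 hy
      intro x hx y hy
      have h3 : Submodule.span F (Set.range v) ≤ LinearMap.ker ((B₁.tmul B₂).flip y) :=
        Submodule.span_le.2 (by
          rintro _ ⟨p, rfl⟩
          exact h2 p y hy)
      exact h3 hx

end Cfsg.Agent.S0833
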