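import Cfsg.Statements.S0834
-- import your own Cfsg.Agent.* helpers here
import Mathlib
import Cfsg.Agent.Helper5.Disc

set_option autoImplicit false
open Cfsg

namespace Cfsg.Agent.S0834

/-- Over a finite field with 2 ≠ 0: if B₁ on U (dim 2k, k ≥ 1) and B₂ on W (dim 2l, l ≥ 1) are non-degenerate symmetric forms admitting no totally isotropic subspaces of dimensions k, resp. l (minus type), then B₁ ⊗ B₂ admits a totally isotropic subspace of dimension 2kl (plus type). -/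
theorem result {F U W : Type*} [Field F] [Fintype F] [AddCommGroup U] [Module F U] [FiniteDimensional F U] [AddCommGroup W] [Module F W] [FiniteDimensional F W] (h2 : (2 : F) ≠ 0) (B₁ : LinearMap.BilinForm F U) (B₂ : LinearMap.BilinForm F W) (h₁ : B₁.Nondegenerate) (h₂ : B₂.Nondegenerate) (hS₁ : B₁.IsSymm) (hS₂ : B₂.IsSymm) (k l : ℕ) (hk : 1 ≤ k) (hl : 1 ≤ l) (hU : Module.finrank F U = 2 * k) (hW : Module.finrank F W = 2 * l) (hm₁ : ¬ (∃ X : Submodule F (U), Module.finrank F X = k ∧ ∀ x ∈ X, ∀ y ∈ X, (B₁) x y = 0)) (hm₂ : ¬ (∃ X : Submodule F (W), Module.finrank F X = l ∧ ∀ x ∈ X, ∀ y ∈ X, (B₂) x y = 0)) : (∃ X : Submodule F (TensorProduct F U W), Module.finrank F X = 2 * k * l ∧ ∀ x ∈ X, ∀ y ∈ X, (B₁.tmul B₂) x y = 0) := by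
  classical
  obtain ⟨b₁⟩ : Nonempty (Module.Basis (Fin (2 * k)) F U) :=
    ⟨Module.finBasisOfFinrankEq F U hU⟩
  obtain ⟨b₂⟩ : Nonempty (Module.Basis (Fin (2 * l)) F W) :=
    ⟨Module.finBasisOfFinrankEq F W hW⟩
  have hsymm := Cfsg.Agent.Helper5.tmul_symm B₁ B₂ (fun x y => hS₁.eq x y)
    (fun x y => hS₂.eq x y)
  have hd₁ := (LinearMap.BilinForm.nondegenerate_iff_det_ne_zero b₁).1 h₁
  have hd₂ := (LinearMap.BilinForm.nondegenerate_iff_det_ne_zero b₂).1 h₂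
  have hdet := Cfsg.Agent.Helper5.tmul_gram_det B₁ B₂ b₁ b₂
  rw [Fintype.card_fin, Fintype.card_fin] at hdet
  have hnd : LinearMap.BilinForm.Nondegenerate (B₁.tmul B₂) := by
    refine (LinearMap.BilinForm.nondegenerate_iff_det_ne_zero (B := B₁.tmul B₂)
      (b₁.tensorProduct b₂)).2 ?_
    rw [hdet]
    exact mul_ne_zero (pow_ne_zero _ hd₁) (pow_ne_zero _ hd₂)
  refine Cfsg.Agent.Helper5.isotropic_of_disc h2 (B₁.tmul B₂) ⟨hsymm⟩ hnd (2 * k * l)
    (b₁.tensorProduct b₂) ?_ ?_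
  · rw [Fintype.card_prod, Fintype.card_fin, Fintype.card_fin]
    ring
  · rw [hdet]
    refine ⟨(LinearMap.BilinForm.toMatrix b₁ B₁).det ^ l
      * (LinearMap.BilinForm.toMatrix b₂ B₂).det ^ k, ?_⟩
    have h1 : ((-1 : F)) ^ (2 * k * l) = 1 := by
      rw [mul_assoc, pow_mul]
      simp
    rw [h1]
    ring

end Cfsg.Agent.S0834
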