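import Cfsg.Statements.S0835
-- import your own Cfsg.Agent.* helpers here
import Mathlib
import Cfsg.Agent.Helper5.Disc

set_option autoImplicit false
open Cfsg

namespace Cfsg.Agent.S0835

/-- Over a finite field with 2 ≠ 0: if B₁ on U (dim 2k, k ≥ 1) is non-degenerate symmetric of minus type (no totally isotropic k-subspace) and B₂ on W (dim 2l + 1) is non-degenerate symmetric, then B₁ ⊗ B₂ (dimension 2k(2l+1)) admits no totally isotropic subspace of dimension k(2l+1) (minus type). -/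
theorem result {F U W : Type*} [Field F] [Fintype F] [AddCommGroup U] [Module F U] [FiniteDimensional F U] [AddCommGroup W] [Module F W] [FiniteDimensional F W] (h2 : (2 : F) ≠ 0) (B₁ : LinearMap.BilinForm F U) (B₂ : LinearMap.BilinForm F W) (h₁ : B₁.Nondegenerate) (h₂ : B₂.Nondegenerate) (hS₁ : B₁.IsSymm) (hS₂ : B₂.IsSymm) (k l : ℕ) (hk : 1 ≤ k) (hU : Module.finrank F U = 2 * k) (hW : Module.finrank F W = 2 * l + 1) (hm₁ : ¬ (∃ X : Submodule F (U), Module.finrank F X = k ∧ ∀ x ∈ X, ∀ y ∈ X, (B₁) x y = 0)) : ¬ (∃ X : Submodule F (TensorProduct F U W), Module.finrank F X = k * (2 * l + 1) ∧ ∀ x ∈ X, ∀ y ∈ X, (B₁.tmul B₂) x y = 0) := by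
  classical
  rintro ⟨X, hX, hiso⟩
  obtain ⟨b₁⟩ : Nonempty (Module.Basis (Fin (2 * k)) F U) :=
    ⟨Module.finBasisOfFinrankEq F U hU⟩
  obtain ⟨b₂⟩ : Nonempty (Module.Basis (Fin (2 * l + 1)) F W) :=
    ⟨Module.finBasisOfFinrankEq F W hW⟩
  have hsymm := Cfsg.Agent.Helper5.tmul_symm B₁ B₂ (fun x y => hS₁.eq x y)
    (fun x y => hS₂.eq x y)
  have hd₁ := (LinearMap.BilinForm.nondegenerate_iff_det_ne_zero b₁).1 h₁
  have hd₂ := (LinearMap.BilinForm.nondegenerate_iff_det_ne_zero b₂).1 h₂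
  have hdet := Cfsg.Agent.Helper5.tmul_gram_det B₁ B₂ b₁ b₂
  rw [Fintype.card_fin, Fintype.card_fin] at hdet
  have hfin : Module.finrank F (TensorProduct F U W) = 2 * (k * (2 * l + 1)) := by
    rw [Module.finrank_tensorProduct, hU, hW]
    ring
  have h1 := Cfsg.Agent.Helper5.disc_of_isotropic (B₁.tmul B₂) hsymm (k * (2 * l + 1)) hfin X
    hX hiso (b₁.tensorProduct b₂)
  rw [hdet] at h1
  apply hm₁
  refine Cfsg.Agent.Helper5.isotropic_of_disc h2 B₁ hS₁ h₁ k b₁ (Fintype.card_fin _) ?_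
  obtain ⟨r, hr⟩ := h1
  obtain ⟨d₁, hd₁'⟩ : ∃ d, d = (LinearMap.BilinForm.toMatrix b₁ B₁).det := ⟨_, rfl⟩
  obtain ⟨d₂, hd₂'⟩ : ∃ d, d = (LinearMap.BilinForm.toMatrix b₂ B₂).det := ⟨_, rfl⟩
  rw [← hd₁'] at hr hd₁ ⊢
  rw [← hd₂'] at hr hd₂
  have hs : ((-1 : F)) ^ (k * (2 * l + 1)) = (-1) ^ k := by
    rw [pow_mul', Odd.neg_one_pow ⟨l, rfl⟩]
  rw [hs] at hr
  have ht : d₁ ^ l * d₂ ^ k ≠ 0 := mul_ne_zero (pow_ne_zero _ hd₁) (pow_ne_zero _ hd₂)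
  refine ⟨r / (d₁ ^ l * d₂ ^ k), ?_⟩
  rw [div_mul_div_comm, ← hr, eq_div_iff (mul_ne_zero ht ht)]
  ring

end Cfsg.Agent.S0835
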