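import Cfsg.Statements.S0836
import Mathlib

set_option autoImplicit false
open Cfsg

namespace Cfsg.Agent.S0836

open Matrix
open scoped commutatorElement

theorem comm3 {F : Type*} [Field F] {ι : Type*} [Fintype ι] [DecidableEq ι] {i j k : ι}
    (hij : i ≠ j) (hik : i ≠ k) (hkj : k ≠ j) (c : F) :
    ⁅SpecialLinearGroup.transvection hik c, SpecialLinearGroup.transvection hkj (1 : F)⁆ =
      SpecialLinearGroup.transvection hij c := by
  rw [commutatorElement_def, SpecialLinearGroup.transvection_inv,
    SpecialLinearGroup.transvection_inv]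
  apply SpecialLinearGroup.coeMonoidHom_injective
  simp only [map_mul, SpecialLinearGroup.coeMonoidHom_apply, SpecialLinearGroup.transvection_coe]
  simp only [mul_add, add_mul,
    one_mul, mul_one, Matrix.single_mul_single_same,
    Matrix.single_mul_single_of_ne _ _ _ _ hik.symm, Matrix.single_mul_single_of_ne _ _ _ _ hkj.symm,
    Matrix.single_mul_single_of_ne _ _ _ _ hij.symm, ← Matrix.single_neg, Matrix.single_zero,
    add_zero, zero_add, Matrix.zero_mul, Matrix.mul_zero, neg_zero, mul_neg, neg_neg, neg_mul]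
  abel

theorem diagonal_mul_single' {F : Type*} [Field F] {ι : Type*} [Fintype ι] [DecidableEq ι]
    (d : ι → F) (i j : ι) (b : F) :
    Matrix.diagonal d * Matrix.single i j b = Matrix.single i j (d i * b) := by
  ext a b'
  rw [Matrix.diagonal_mul, Matrix.single_apply, Matrix.single_apply]
  by_cases h : i = a ∧ j = b'
  · rw [if_pos h, if_pos h, h.1]
  · rw [if_neg h, if_neg h, mul_zero]

theorem single_mul_diagonal' {F : Type*} [Field F] {ι : Type*} [Fintype ι] [DecidableEq ι]
    (d : ι → F) (i j : ι) (b : F) :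
    Matrix.single i j b * Matrix.diagonal d = Matrix.single i j (b * d j) := by
  ext a b'
  rw [Matrix.mul_diagonal, Matrix.single_apply, Matrix.single_apply]
  by_cases h : i = a ∧ j = b'
  · rw [if_pos h, if_pos h, h.2]
  · rw [if_neg h, if_neg h, zero_mul]

theorem comm2 {F : Type*} [Field F] {ι : Type*} [Fintype ι] [DecidableEq ι] {i j : ι}
    (hij : i ≠ j) (x : F) (hx : x ≠ 0) (b : F) :
    ⁅SpecialLinearGroup.diag2n hij x hx, SpecialLinearGroup.transvection hij b⁆ =
      SpecialLinearGroup.transvection hij (b * (x ^ 2 - 1)) := by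
  rw [commutatorElement_def, mul_inv_eq_iff_eq_mul, mul_inv_eq_iff_eq_mul,
    ← SpecialLinearGroup.transvection_add]
  apply SpecialLinearGroup.coeMonoidHom_injective
  simp only [map_mul, SpecialLinearGroup.coeMonoidHom_apply, SpecialLinearGroup.transvection_coe,
    SpecialLinearGroup.diag2n_coe]
  rw [mul_add, add_mul, mul_one, one_mul, diagonal_mul_single', single_mul_diagonal']
  congr 2
  simp only [if_true, if_neg hij.symm]
  field_simp
  ring

/-- For i ≠ j and any scalar c, the elementary transvection 1 + c E_ij is a commutator ⁅g, h⁆ of two elements of SL_n(F) provided n ≥ 3, or n = 2 and F contains x ≠ 0 with x² ≠ 1. -/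
theorem result {F : Type*} [Field F] (n : ℕ) (hn : 3 ≤ n ∨ (n = 2 ∧ ∃ x : F, x ≠ 0 ∧ x ^ 2 ≠ 1)) (i j : Fin n) (hij : i ≠ j) (c : F) (t : Matrix.SpecialLinearGroup (Fin n) F) (ht : (t : Matrix (Fin n) (Fin n) F) = Matrix.transvection i j c) : t ∈ commutatorSet (Matrix.SpecialLinearGroup (Fin n) F) := by
  have ht' : t = SpecialLinearGroup.transvection hij c := Subtype.ext ht
  rw [ht']
  rcases hn with hn | ⟨-, x, hx, hx2⟩
  · have hk : ∃ k : Fin n, k ≠ i ∧ k ≠ j := by
      by_contra hcon
      push Not at hcon
      have hsub : (Finset.univ : Finset (Fin n)) ⊆ {i, j} := by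
        intro k _
        by_cases hki : k = i
        · simp [hki]
        · simp [hcon k hki]
      have := Finset.card_le_card hsub
      rw [Finset.card_univ, Fintype.card_fin] at this
      have h2 : ({i, j} : Finset (Fin n)).card ≤ 2 := Finset.card_le_two
      omega
    obtain ⟨k, hki, hkj⟩ := hk
    rw [← comm3 hij (Ne.symm hki) hkj c]
    exact commutator_mem_commutatorSet _ _
  · have hx1 : x ^ 2 - 1 ≠ 0 := sub_ne_zero_of_ne hx2
    have := comm2 hij x hx (c / (x ^ 2 - 1))
    rw [div_mul_cancel₀ c hx1] at this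
    rw [← this]
    exact commutator_mem_commutatorSet _ _

end Cfsg.Agent.S0836
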