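import Cfsg.Statements.S0837
-- import your own Cfsg.Agent.* helpers here
import Mathlib
import Cfsg.Agent.Helper5.StabProd
import Cfsg.Agent.S0755

set_option autoImplicit false
open Cfsg

namespace Cfsg.Agent.S0837

open Matrix in
theorem gu_char {F : Type*} [Field F] (n q : ℕ) (M : Matrix (Fin n) (Fin n) F) :
    (∃ h : ↥(Cfsg.GU n F q), ((Cfsg.glToMat (Fin n) F).comp (Cfsg.GU n F q).subtype) h = M) ↔
      (IsUnit M ∧ ∀ u v, Cfsg.hermForm n F q (M *ᵥ u) (M *ᵥ v) = Cfsg.hermForm n F q u v) := by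
  constructor
  · rintro ⟨h, rfl⟩
    exact ⟨h.1.isUnit, h.2⟩
  · rintro ⟨hu, hp⟩
    obtain ⟨g, hg⟩ := hu
    refine ⟨⟨g, ?_⟩, hg⟩
    show ∀ u v, Cfsg.hermForm n F q ((g : Matrix (Fin n) (Fin n) F) *ᵥ u)
      ((g : Matrix (Fin n) (Fin n) F) *ᵥ v) = Cfsg.hermForm n F q u v
    intro u v
    rw [hg]
    exact hp u v

open Polynomial in
theorem exists_sigma {F : Type*} [Field F] [Fintype F] {q : ℕ} (hF : Fintype.card F = q ^ 2) :
    ∃ σ : F →+* F, (∀ x, σ x = x ^ q) ∧ σ ≠ RingHom.id F ∧ ∀ a, σ (σ a) = a := by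
  classical
  obtain ⟨p, hp⟩ := CharP.exists F
  have hpp : p.Prime := CharP.char_is_prime F p
  have : Fact p.Prime := ⟨hpp⟩
  obtain ⟨e, -, he⟩ := FiniteField.card F p
  have hq : q ∣ p ^ (e : ℕ) := by
    rw [← he, hF]
    exact dvd_pow_self q two_ne_zero
  obtain ⟨j, -, hj⟩ := (Nat.dvd_prime_pow hpp).1 hq
  have : ExpChar F p := ExpChar.prime hpp
  have hq2 : 1 < q := by
    have h1 : 1 < Fintype.card F := Fintype.one_lt_card
    rw [hF] at h1
    by_contra hlt
    have h2 : q ≤ 1 := by omega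
    interval_cases q <;> simp at h1
  refine ⟨iterateFrobenius F p j, fun x => by rw [iterateFrobenius_def, hj], ?_, ?_⟩
  · intro h
    have h1 : ∀ x : F, x ^ q = x := fun x => by
      have h2 := congrArg (fun f : F →+* F => f x) h
      simp only [iterateFrobenius_def, RingHom.id_apply] at h2
      rw [hj]
      exact h2
    have hne : (X ^ q - X : F[X]) ≠ 0 := FiniteField.X_pow_card_sub_X_ne_zero F hq2
    have hsub : (Finset.univ : Finset F).val ⊆ (X ^ q - X : F[X]).roots := by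
      intro a _
      rw [Polynomial.mem_roots hne]
      simp [h1 a]
    have hle := Polynomial.card_le_degree_of_subset_roots hsub
    rw [FiniteField.X_pow_card_sub_X_natDegree_eq F hq2, Finset.card_univ, hF] at hle
    nlinarith
  · intro a
    rw [iterateFrobenius_def, iterateFrobenius_def, ← hj, ← pow_mul, ← sq, ← hF,
      FiniteField.pow_card]

theorem herm_coord {F V : Type*} [Field F] [AddCommGroup V] [Module F V] (σ : F →+* F)
    (q k : ℕ) (hσ : ∀ x, σ x = x ^ q) (B : V →ₛₗ[σ] V →ₗ[F] F) (b : Module.Basis (Fin k) F V)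
    (hb : ∀ i j, B (b i) (b j) = if i = j then 1 else 0) (x y : V) :
    B x y = Cfsg.hermForm k F q (b.equivFun y) (b.equivFun x) := by
  obtain ⟨a, ha⟩ : ∃ a, a = b.equivFun x := ⟨_, rfl⟩
  obtain ⟨c, hc⟩ : ∃ c, c = b.equivFun y := ⟨_, rfl⟩
  have hx := b.sum_equivFun x
  have hy := b.sum_equivFun y
  rw [← ha] at hx ⊢
  rw [← hc] at hy ⊢
  rw [← hx, ← hy]
  simp only [map_sum, LinearMap.sum_apply, map_smulₛₗ, LinearMap.smul_apply, map_smul,
    smul_eq_mul, hb, mul_ite, mul_one, mul_zero, Finset.sum_ite_eq, Finset.mem_univ, if_true]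
  unfold Cfsg.hermForm
  refine Finset.sum_congr rfl (fun i _ => ?_)
  simp only [RingHom.id_apply, Finset.sum_ite_eq', Finset.sum_ite_eq, Finset.mem_univ, if_true,
    hσ]

/-- If W ≤ F^n (|F| = q²) is a k-dimensional subspace on which the Hermitian form Σ x_i y_i^q is non-degenerate, then the stabiliser of W in GU_n(q) is isomorphic to GU_k(q) × GU_(n−k)(q). -/
theorem result {F : Type*} [Field F] [Fintype F] {q : ℕ} (hF : Fintype.card F = q ^ 2) (n k : ℕ) (hk : k ≤ n) (W : Submodule F (Fin n → F)) (hWk : Module.finrank F W = k) (hW : ∀ u ∈ W, (∀ v ∈ W, Cfsg.hermForm n F q u v = 0) → u = 0) : Nonempty (↥((Cfsg.stabilizing (Cfsg.glToMat (Fin n) F) (W : Set (Fin n → F))).subgroupOf (Cfsg.GU n F q)) ≃* ↥(Cfsg.GU k F q) × ↥(Cfsg.GU (n - k) F q)) := by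
  classical
  obtain ⟨σ, hσ, hσne, hσ2⟩ := exists_sigma hF
  have hq0 : q ≠ 0 := by
    rintro rfl
    have h1 : 0 < Fintype.card F := Fintype.card_pos
    rw [hF] at h1
    simp at h1
  obtain ⟨Bn, hBn⟩ : ∃ Bn : (Fin n → F) →ₛₗ[σ] (Fin n → F) →ₗ[F] F,
      ∀ x y, Bn x y = Cfsg.hermForm n F q y x := by
    refine ⟨LinearMap.mk₂'ₛₗ σ (RingHom.id F) (fun x y => Cfsg.hermForm n F q y x) ?_ ?_ ?_ ?_,
      fun x y => rfl⟩
    · intro x₁ x₂ y
      simp only [Cfsg.hermForm, Pi.add_apply, ← hσ, map_add, mul_add, Finset.sum_add_distrib]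
    · intro c x y
      simp only [Cfsg.hermForm, Pi.smul_apply, smul_eq_mul, ← hσ, map_mul, Finset.mul_sum]
      exact Finset.sum_congr rfl (fun i _ => by ring)
    · intro x y₁ y₂
      simp only [Cfsg.hermForm, Pi.add_apply, add_mul, Finset.sum_add_distrib]
    · intro c x y
      simp only [Cfsg.hermForm, Pi.smul_apply, smul_eq_mul, RingHom.id_apply, Finset.mul_sum]
      exact Finset.sum_congr rfl (fun i _ => by ring)
  have hBsym : ∀ x y, σ (Bn x y) = Bn y x := by
    intro x y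
    rw [hBn, hBn]
    unfold Cfsg.hermForm
    rw [map_sum]
    exact Finset.sum_congr rfl (fun i _ => by
      simp only [map_mul, ← hσ, hσ2]
      ring)
  have hW1 : (Bn.domRestrict₁₂ W W).IsSymm := ⟨fun x y => hBsym x y⟩
  have hW2 : (Bn.domRestrict₁₂ W W).Nondegenerate := by
    refine ⟨?_, ?_⟩
    · intro x hx
      apply Subtype.ext
      apply hW x x.2
      intro v hv
      have h1 : Bn (x : Fin n → F) v = 0 := hx ⟨v, hv⟩
      have h2 := hBsym (x : Fin n → F) v
      rw [h1, map_zero, hBn] at h2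
      exact h2.symm
    · intro y hy
      apply Subtype.ext
      apply hW y y.2
      intro v hv
      have h1 : Bn v (y : Fin n → F) = 0 := hy ⟨v, hv⟩
      rw [hBn] at h1
      exact h1
  obtain ⟨b₁0, hb₁0⟩ := Cfsg.Agent.S0755.result σ hσne hσ2 (Bn.domRestrict₁₂ W W) hW1 hW2
  obtain ⟨b₁, hb₁⟩ : ∃ b₁ : Module.Basis (Fin k) F W,
      ∀ i j, Bn (b₁ i : Fin n → F) (b₁ j : Fin n → F) = if i = j then 1 else 0 := by
    refine ⟨b₁0.reindex (finCongr hWk), fun i j => ?_⟩
    rw [Module.Basis.reindex_apply, Module.Basis.reindex_apply]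
    have h := hb₁0 ((finCongr hWk).symm i) ((finCongr hWk).symm j)
    rw [LinearMap.domRestrict₁₂_apply] at h
    rw [h]
    simp
  obtain ⟨Wp, hWpmem⟩ : ∃ Wp : Submodule F (Fin n → F),
      ∀ v, v ∈ Wp ↔ ∀ i, Bn (b₁ i : Fin n → F) v = 0 := by
    refine ⟨LinearMap.ker (LinearMap.pi (fun i => Bn (b₁ i : Fin n → F))), fun v => ?_⟩
    rw [LinearMap.mem_ker]
    constructor
    · intro h i
      exact congrFun h i
    · intro h
      funext i
      exact h i
  have hWpW : ∀ v ∈ Wp, ∀ w ∈ W, Bn w v = 0 := by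
    intro v hv w hw
    have h1 := b₁.sum_equivFun ⟨w, hw⟩
    have h2 : w = ∑ i, b₁.equivFun ⟨w, hw⟩ i • (b₁ i : Fin n → F) := by
      have h3 := congrArg (Subtype.val) h1
      simp only [Submodule.coe_sum, Submodule.coe_smul] at h3
      exact h3.symm
    rw [h2, map_sum, LinearMap.sum_apply]
    apply Finset.sum_eq_zero
    intro i _
    rw [map_smulₛₗ, LinearMap.smul_apply, (hWpmem v).1 hv i, smul_zero]
  have hinf : W ⊓ Wp = ⊥ := by
    rw [eq_bot_iff]
    rintro x ⟨hxW, hxWp⟩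
    have h0 : x = 0 := hW x hxW (fun v hv => by
      have h1 := hWpW x hxWp v hv
      rw [hBn] at h1
      exact h1)
    rw [h0]
    exact Submodule.zero_mem _
  have hsup : W ⊔ Wp = ⊤ := by
    rw [eq_top_iff]
    intro v _
    obtain ⟨pv, hpv⟩ : ∃ pv : Fin n → F,
        pv = ∑ i, Bn (b₁ i : Fin n → F) v • (b₁ i : Fin n → F) := ⟨_, rfl⟩
    have hpvW : pv ∈ W := by
      rw [hpv]
      exact Submodule.sum_mem _ (fun i _ => W.smul_mem _ (b₁ i).2)
    have hrest : v - pv ∈ Wp := by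
      rw [hWpmem]
      intro j
      rw [map_sub, hpv, map_sum]
      simp only [map_smul, smul_eq_mul, hb₁, mul_ite, mul_one, mul_zero, Finset.sum_ite_eq,
        Finset.mem_univ, if_true, sub_self]
    have h3 : v = pv + (v - pv) := by abel
    rw [h3]
    exact Submodule.add_mem_sup hpvW hrest
  have hc : IsCompl W Wp := IsCompl.of_eq hinf hsup
  have hWpdim : Module.finrank F Wp = n - k := by
    have h1 := Submodule.finrank_add_eq_of_isCompl hc
    rw [hWk, Module.finrank_fin_fun] at h1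
    omega
  have hP1 : (Bn.domRestrict₁₂ Wp Wp).IsSymm := ⟨fun x y => hBsym x y⟩
  have hP2 : (Bn.domRestrict₁₂ Wp Wp).Nondegenerate := by
    have key : ∀ x ∈ Wp, (∀ y ∈ Wp, Bn y x = 0) → x = 0 := by
      intro x hx h
      have hall : ∀ v, Bn v x = 0 := by
        intro v
        have hv : v ∈ W ⊔ Wp := by
          rw [hsup]
          exact Submodule.mem_top
        obtain ⟨a, ha, b, hb, rfl⟩ := Submodule.mem_sup.1 hv
        rw [map_add, LinearMap.add_apply, hWpW x hx a ha, h b hb, add_zero]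
      funext i
      have h1 := hall (Pi.single i 1)
      rw [hBn] at h1
      unfold Cfsg.hermForm at h1
      rw [Finset.sum_eq_single i (fun j _ hji => by simp [hji, hq0])
        (fun h => absurd (Finset.mem_univ i) h)] at h1
      simpa using h1
    refine ⟨?_, ?_⟩
    · intro x hx
      apply Subtype.ext
      apply key x x.2
      intro y hy
      have h1 : Bn (x : Fin n → F) y = 0 := hx ⟨y, hy⟩
      have h2 := hBsym (x : Fin n → F) y
      rw [h1, map_zero] at h2
      exact h2.symm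
    · intro y hy
      apply Subtype.ext
      apply key y y.2
      intro x hx
      exact hy ⟨x, hx⟩
  obtain ⟨b₂0, hb₂0⟩ := Cfsg.Agent.S0755.result σ hσne hσ2 (Bn.domRestrict₁₂ Wp Wp) hP1 hP2
  obtain ⟨b₂, hb₂⟩ : ∃ b₂ : Module.Basis (Fin (n - k)) F Wp,
      ∀ i j, Bn (b₂ i : Fin n → F) (b₂ j : Fin n → F) = if i = j then 1 else 0 := by
    refine ⟨b₂0.reindex (finCongr hWpdim), fun i j => ?_⟩
    rw [Module.Basis.reindex_apply, Module.Basis.reindex_apply]
    have h := hb₂0 ((finCongr hWpdim).symm i) ((finCongr hWpdim).symm j)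
    rw [LinearMap.domRestrict₁₂_apply] at h
    rw [h]
    simp
  have he₁ : ∀ x y : W, Bn (x : Fin n → F) (y : Fin n → F)
      = Cfsg.hermForm k F q (b₁.equivFun y) (b₁.equivFun x) :=
    fun x y => herm_coord σ q k hσ (Bn.domRestrict₁₂ W W) b₁ (fun i j => hb₁ i j) x y
  have he₂ : ∀ x y : Wp, Bn (x : Fin n → F) (y : Fin n → F)
      = Cfsg.hermForm (n - k) F q (b₂.equivFun y) (b₂.equivFun x) :=
    fun x y => herm_coord σ q (n - k) hσ (Bn.domRestrict₁₂ Wp Wp) b₂ (fun i j => hb₂ i j) x y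
  obtain ⟨T, hTdef⟩ : ∃ T : ((Fin k → F) × (Fin (n - k) → F)) ≃ₗ[F] (Fin n → F),
      ∀ x, T x = (b₁.equivFun.symm x.1 : Fin n → F) + (b₂.equivFun.symm x.2 : Fin n → F) :=
    ⟨(b₁.equivFun.symm.prodCongr b₂.equivFun.symm).trans (Submodule.prodEquivOfIsCompl W Wp hc),
      fun x => by simp⟩
  have hT : ∀ x y, Cfsg.hermForm n F q (T x) (T y)
      = Cfsg.hermForm k F q x.1 y.1 + Cfsg.hermForm (n - k) F q x.2 y.2 := by
    intro x y
    rw [← hBn, hTdef, hTdef]
    have h1 : Bn (b₁.equivFun.symm y.1 : Fin n → F) (b₁.equivFun.symm x.1 : Fin n → F)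
        = Cfsg.hermForm k F q x.1 y.1 := by
      rw [he₁, LinearEquiv.apply_symm_apply, LinearEquiv.apply_symm_apply]
    have h2 : Bn (b₂.equivFun.symm y.2 : Fin n → F) (b₂.equivFun.symm x.2 : Fin n → F)
        = Cfsg.hermForm (n - k) F q x.2 y.2 := by
      rw [he₂, LinearEquiv.apply_symm_apply, LinearEquiv.apply_symm_apply]
    have h3 : Bn (b₁.equivFun.symm y.1 : Fin n → F) (b₂.equivFun.symm x.2 : Fin n → F) = 0 :=
      hWpW _ (b₂.equivFun.symm x.2).2 _ (b₁.equivFun.symm y.1).2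
    have h4 : Bn (b₂.equivFun.symm y.2 : Fin n → F) (b₁.equivFun.symm x.1 : Fin n → F) = 0 := by
      have h5 := hBsym (b₁.equivFun.symm x.1 : Fin n → F) (b₂.equivFun.symm y.2 : Fin n → F)
      rw [hWpW _ (b₂.equivFun.symm y.2).2 _ (b₁.equivFun.symm x.1).2, map_zero] at h5
      exact h5.symm
    rw [map_add, map_add, LinearMap.add_apply, LinearMap.add_apply, h1, h2, h3, h4]
    ring
  have hW' : ∀ v, v ∈ (W : Set (Fin n → F)) ↔ (T.symm v).2 = 0 := by
    intro v
    constructor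
    · intro hv
      have h1 : T (b₁.equivFun ⟨v, hv⟩, 0) = v := by
        rw [hTdef]
        simp
      have h2 : T.symm v = (b₁.equivFun ⟨v, hv⟩, 0) := by
        rw [LinearEquiv.symm_apply_eq]
        exact h1.symm
      simp [h2]
    · intro h
      have h1 : v = T (T.symm v) := (LinearEquiv.apply_symm_apply T v).symm
      rw [hTdef, h, map_zero] at h1
      rw [h1, Submodule.coe_zero, add_zero]
      exact (b₁.equivFun.symm (T.symm v).1).2
  have hf₁0 : ∀ x, Cfsg.hermForm k F q x 0 = 0 := by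
    intro x
    simp [Cfsg.hermForm, hq0]
  have hf₂0 : ∀ x, Cfsg.hermForm (n - k) F q 0 x = 0 := by
    intro x
    simp [Cfsg.hermForm]
  have hnd : ∀ x, (∀ y, Cfsg.hermForm k F q y x = 0) → x = 0 := by
    intro x h
    funext i
    have h1 := h (Pi.single i 1)
    unfold Cfsg.hermForm at h1
    rw [Finset.sum_eq_single i (fun j _ hji => by simp [hji])
      (fun h => absurd (Finset.mem_univ i) h)] at h1
    simpa [hq0] using h1
  have key := Cfsg.Agent.Helper5.stab_prod
    ((Cfsg.glToMat (Fin n) F).comp (Cfsg.GU n F q).subtype)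
    ((Cfsg.glToMat (Fin k) F).comp (Cfsg.GU k F q).subtype)
    ((Cfsg.glToMat (Fin (n - k)) F).comp (Cfsg.GU (n - k) F q).subtype)
    (Cfsg.hermForm n F q) (Cfsg.hermForm k F q) (Cfsg.hermForm (n - k) F q)
    (fun a b h => Subtype.ext (Units.ext h)) (fun a b h => Subtype.ext (Units.ext h))
    (fun a b h => Subtype.ext (Units.ext h))
    (gu_char n q) (gu_char k q) (gu_char (n - k) q) T hT hf₁0 hf₂0 hnd (W : Set _) hW'
  have e : (Cfsg.stabilizing (Cfsg.glToMat (Fin n) F) (W : Set (Fin n → F))).subgroupOf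
      (Cfsg.GU n F q) = Cfsg.stabilizing ((Cfsg.glToMat (Fin n) F).comp (Cfsg.GU n F q).subtype)
        (W : Set (Fin n → F)) := by
    ext g
    exact Iff.rfl
  rw [e]
  exact key

end Cfsg.Agent.S0837
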