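import Cfsg.Statements.S0838
import Cfsg.Agent.Helper6.SymmForm
import Cfsg.Agent.Helper6.SymmSim

set_option autoImplicit false
open Cfsg

namespace Cfsg.Agent.S0838

open Module

theorem polar_basis {F : Type*} [Field F] [Finite F] (h2 : (2 : F) ≠ 0) (α : F)
    (hα : ¬ IsSquare α) {m : ℕ} (P : LinearMap.BilinForm F (Fin (m + 1) → F))
    (hS : ∀ x y, P x y = P y x) (hP : P.Nondegenerate) :
    ∃ (b : Basis (Fin (m + 1)) F (Fin (m + 1) → F)) (d : F), (d = 1 ∨ d = α) ∧
      ∀ i j, P (b i) (b j) = if i = j then (if i = Fin.last m then d else 1) else 0 := by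
  have hα0 : α ≠ 0 := by rintro rfl; exact hα IsSquare.zero
  obtain ⟨b, hb1, hb2, hb3⟩ := Cfsg.Agent.Helper6.symm_exists_orthogonal_family h2 α hα m
    (Fin (m + 1) → F) P ⟨fun x y => by simpa using hS x y⟩ hP (by simp)
  have hli : LinearIndependent F b := by
    apply Cfsg.Agent.Helper6.linearIndependent_of_orthogonal P b hb1
    intro i
    by_cases hi : i = Fin.last m
    · rw [hi]
      rcases hb3 with h | h
      · rw [h]; exact one_ne_zero
      · rw [h]; exact hα0
    · rw [hb2 i hi]; exact one_ne_zero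
  refine ⟨basisOfLinearIndependentOfCardEqFinrank' b hli (by simp),
    P (b (Fin.last m)) (b (Fin.last m)), hb3, ?_⟩
  rw [coe_basisOfLinearIndependentOfCardEqFinrank']
  intro i j
  by_cases hij : i = j
  · subst hij
    rw [if_pos rfl]
    by_cases hi : i = Fin.last m
    · rw [if_pos hi, hi]
    · rw [if_neg hi, hb2 i hi]
  · rw [if_neg hij, hb1 i j hij]

/-- Over a finite field with 2 ≠ 0 and n odd: two quadratic forms Q₁, Q₂ on F^n with non-degenerate polar forms are similar — there are an invertible linear map g and a scalar c ≠ 0 with Q₂ (g v) = c · Q₁ v for all v. -/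
theorem result {F : Type*} [Field F] [Fintype F] (h2 : (2 : F) ≠ 0) {n : ℕ} (hn : Odd n) (Q₁ Q₂ : QuadraticForm F (Fin n → F)) (h₁ : (QuadraticMap.polarBilin Q₁).Nondegenerate) (h₂ : (QuadraticMap.polarBilin Q₂).Nondegenerate) : ∃ (g : (Fin n → F) ≃ₗ[F] (Fin n → F)) (c : F), c ≠ 0 ∧ ∀ v, Q₂ (g v) = c * Q₁ v := by
  obtain ⟨k, rfl⟩ := hn
  have hchar : ringChar F ≠ 2 := by
    intro h
    apply h2
    have := CharP.cast_eq_zero F (ringChar F)
    rw [h] at this
    exact_mod_cast this
  obtain ⟨α, hα⟩ := FiniteField.exists_nonsquare hchar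
  have hα0 : α ≠ 0 := by rintro rfl; exact hα IsSquare.zero
  -- quadratic form from polar form
  have hQ : ∀ (Q : QuadraticForm F (Fin (2 * k + 1) → F)) (v : Fin (2 * k + 1) → F),
      QuadraticMap.polarBilin Q v v = 2 * Q v := by
    intro Q v
    rw [QuadraticMap.polarBilin_apply_apply, QuadraticMap.polar_self]
    simp
  have hsymm : ∀ (Q : QuadraticForm F (Fin (2 * k + 1) → F)) (x y : Fin (2 * k + 1) → F),
      QuadraticMap.polarBilin Q x y = QuadraticMap.polarBilin Q y x := by
    intro Q x y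
    rw [QuadraticMap.polarBilin_apply_apply, QuadraticMap.polarBilin_apply_apply,
      QuadraticMap.polar_comm]
  -- the scaled form
  have h₃ : (α • QuadraticMap.polarBilin Q₁).Nondegenerate := by
    constructor
    · intro x hx
      apply h₁.1 x
      intro y
      have := hx y
      rw [LinearMap.smul_apply, LinearMap.smul_apply, smul_eq_mul] at this
      rcases mul_eq_zero.mp this with h | h
      · exact absurd h hα0
      · exact h
    · intro y hy
      apply h₁.2 y
      intro x
      have := hy x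
      rw [LinearMap.smul_apply, LinearMap.smul_apply, smul_eq_mul] at this
      rcases mul_eq_zero.mp this with h | h
      · exact absurd h hα0
      · exact h
  have hsymm₃ : ∀ x y : Fin (2 * k + 1) → F, (α • QuadraticMap.polarBilin Q₁) x y =
      (α • QuadraticMap.polarBilin Q₁) y x := by
    intro x y
    rw [LinearMap.smul_apply, LinearMap.smul_apply, LinearMap.smul_apply, LinearMap.smul_apply,
      hsymm Q₁ x y]
  obtain ⟨b₁, d₁, hd₁, hb₁⟩ := polar_basis h2 α hα (QuadraticMap.polarBilin Q₁) (hsymm Q₁) h₁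
  obtain ⟨b₂, d₂, hd₂, hb₂⟩ := polar_basis h2 α hα (QuadraticMap.polarBilin Q₂) (hsymm Q₂) h₂
  obtain ⟨b₃, d₃, hd₃, hb₃⟩ := polar_basis h2 α hα (α • QuadraticMap.polarBilin Q₁) hsymm₃ h₃
  by_cases h12 : d₁ = d₂
  · refine ⟨b₁.equiv b₂ (Equiv.refl _), 1, one_ne_zero, ?_⟩
    intro v
    have := Cfsg.Agent.Helper6.bilin_equiv_of_bases (QuadraticMap.polarBilin Q₁)
      (QuadraticMap.polarBilin Q₂) b₁ b₂ 1 (by
        intro i j
        rw [hb₁, hb₂, h12, one_mul]) v v
    rw [hQ, hQ] at this
    have h' : 2 * (Q₂ (b₁.equiv b₂ (Equiv.refl _) v)) = 2 * (1 * Q₁ v) := by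
      linear_combination this
    exact mul_left_cancel₀ h2 h'
  by_cases h32 : d₃ = d₂
  · refine ⟨b₃.equiv b₂ (Equiv.refl _), α, hα0, ?_⟩
    intro v
    have := Cfsg.Agent.Helper6.bilin_equiv_of_bases (α • QuadraticMap.polarBilin Q₁)
      (QuadraticMap.polarBilin Q₂) b₃ b₂ 1 (by
        intro i j
        rw [hb₃, hb₂, h32, one_mul]) v v
    rw [LinearMap.smul_apply, LinearMap.smul_apply, smul_eq_mul, hQ, hQ] at this
    have h' : 2 * (Q₂ (b₃.equiv b₂ (Equiv.refl _) v)) = 2 * (α * Q₁ v) := by
      linear_combination this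
    exact mul_left_cancel₀ h2 h'
  · exfalso
    have h13 : d₁ = d₃ := by
      rcases hd₁ with h | h <;> rcases hd₂ with h' | h' <;> rcases hd₃ with h'' | h'' <;>
        first
          | exact h.trans h''.symm
          | exact absurd (h.trans h'.symm) h12
          | exact absurd (h''.trans h'.symm) h32
    have hsim := Cfsg.Agent.Helper6.bilin_equiv_of_bases (QuadraticMap.polarBilin Q₁)
      (α • QuadraticMap.polarBilin Q₁) b₁ b₃ 1 (by
        intro i j
        rw [hb₁, hb₃, h13, one_mul])
    have hdet := Cfsg.Agent.Helper6.det_of_self_similar (QuadraticMap.polarBilin Q₁) h₁ α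
      (b₁.equiv b₃ (Equiv.refl _) : (Fin (2 * k + 1) → F) →ₗ[F] (Fin (2 * k + 1) → F)) (by
        intro x y
        have := hsim x y
        rw [LinearMap.smul_apply, LinearMap.smul_apply, smul_eq_mul, one_mul] at this
        exact this)
    rw [Fintype.card_fin] at hdet
    apply hα
    set D := (LinearMap.toMatrix'
      (b₁.equiv b₃ (Equiv.refl _) : (Fin (2 * k + 1) → F) →ₗ[F] (Fin (2 * k + 1) → F))).det
    have hD0 : α ^ k * D ≠ 0 := by
      intro h
      have : α ^ (2 * k + 1) * (D * D) = α * ((α ^ k * D) * (α ^ k * D)) := by ring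
      rw [this, h] at hdet
      simp at hdet
    refine ⟨(α ^ k * D)⁻¹, ?_⟩
    have hdet' : α * ((α ^ k * D) * (α ^ k * D)) = 1 := by
      rw [← hdet]; ring
    rw [← mul_inv]
    exact eq_inv_of_mul_eq_one_left hdet'

end Cfsg.Agent.S0838
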