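import Cfsg.Statements.S0840
import Cfsg.Agent.Helper6.ClassSum
import Cfsg.Agent.Helper2.CharInner
import Cfsg.Agent.Helper2.ConjClass
import Cfsg.Agent.Helper24.CharInv

set_option autoImplicit false
open Cfsg

namespace Cfsg.Agent.S0840

open scoped ComplexConjugate
open Cfsg.Agent

theorem isConj_conj_right {G : Type*} [Group G] (a h x : G) :
    IsConj a (h * x * h⁻¹) ↔ IsConj a x := by
  rw [isConj_iff, isConj_iff]
  constructor
  · rintro ⟨c, hc⟩
    refine ⟨h⁻¹ * c, ?_⟩
    rw [mul_inv_rev, inv_inv]
    calc h⁻¹ * c * a * (c⁻¹ * h) = h⁻¹ * (c * a * c⁻¹) * h := by group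
      _ = x := by rw [hc]; group
  · rintro ⟨c, hc⟩
    refine ⟨h * c, ?_⟩
    rw [← hc]
    group

/-- The indicator function of the conjugacy class of `a`. -/
theorem indicator_isClassFunction {G : Type*} [Group G] (a : G)
    [DecidablePred fun x : G => IsConj a x] :
    IsClassFunction G (fun x : G => if IsConj a x then (1 : ℂ) else 0) := by
  intro x h
  show (if IsConj a (h * x * h⁻¹) then (1 : ℂ) else 0) = if IsConj a x then (1 : ℂ) else 0
  simp only [isConj_conj_right]

theorem sum_indicator_mul {G : Type*} [Group G] [Fintype G] (a : G)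
    [DecidablePred fun x : G => IsConj a x] {χ : G → ℂ} (hχ : IsClassFunction G χ) :
    ∑ x : G, (if IsConj a x then (1 : ℂ) else 0) * χ x =
      (Nat.card {x : G // IsConj a x} : ℂ) * χ a := by
  classical
  have h1 := Helper2.sum_ite_isConj χ hχ a
  have h2 : Nat.card {x : G // IsConj a x} = Nat.card {x : G // IsConj x a} :=
    Nat.card_congr (Equiv.subtypeEquivRight (fun x => isConj_comm))
  rw [h2, ← h1]
  refine Finset.sum_congr rfl fun x _ => ?_
  by_cases hx : IsConj a x
  · rw [if_pos hx, if_pos (isConj_comm.mp hx), one_mul]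
  · rw [if_neg hx, if_neg (fun h => hx (isConj_comm.mp h)), zero_mul]

/-- Class multiplication coefficients from the character table: for elements a, b, c of a finite group G, the number of ordered pairs (x, y) with x conjugate to a, y conjugate to b and x * y = c equals the product of the sizes of the conjugacy classes of a and b, divided by the order of G, times the sum over the irreducible characters χ of χ a * χ b * conj (χ c) / χ 1. -/
theorem result {G : Type*} [Group G] [Finite G] (a b c : G) : (Nat.card {p : G × G // IsConj a p.1 ∧ IsConj b p.2 ∧ p.1 * p.2 = c} : ℂ) = (Nat.card {x : G // IsConj a x} : ℂ) * (Nat.card {x : G // IsConj b x} : ℂ) / (Nat.card G : ℂ) * ∑ᶠ χ : Cfsg.IrrCharacter G, (χ : G → ℂ) a * (χ : G → ℂ) b * conj ((χ : G → ℂ) c) / (χ : G → ℂ) 1 := by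
  classical
  have := Fintype.ofFinite G
  have := Helper24.finite_irrCharacter (G := G)
  have := Fintype.ofFinite (IrrCharacter G)
  rw [finsum_eq_sum_of_fintype]
  have hG0 : (Nat.card G : ℂ) ≠ 0 := by exact_mod_cast (Nat.card_pos (α := G)).ne'
  obtain ⟨fa, hfadef⟩ : ∃ fa : G → ℂ, fa = fun x => if IsConj a x then (1 : ℂ) else 0 := ⟨_, rfl⟩
  obtain ⟨fb, hfbdef⟩ : ∃ fb : G → ℂ, fb = fun x => if IsConj b x then (1 : ℂ) else 0 := ⟨_, rfl⟩
  have hfa : IsClassFunction G fa := by rw [hfadef]; exact indicator_isClassFunction a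
  have hfb : IsClassFunction G fb := by rw [hfbdef]; exact indicator_isClassFunction b
  have hfa_conj : ∀ x, conj (fa x) = fa x := by
    intro x; rw [hfadef]; dsimp only; split_ifs <;> simp
  have hfb_conj : ∀ x, conj (fb x) = fb x := by
    intro x; rw [hfbdef]; dsimp only; split_ifs <;> simp
  obtain ⟨f, hfdef⟩ : ∃ f : G → ℂ,
      f = fun g => ∑ x : G, ∑ y : G, if x * y = g then fa x * fb y else 0 := ⟨_, rfl⟩
  have hf : IsClassFunction G f := by
    intro g h
    rw [hfdef]
    dsimp only
    rw [← Equiv.sum_comp (MulAut.conj h).toEquiv]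
    refine Finset.sum_congr rfl fun x _ => ?_
    rw [← Equiv.sum_comp (MulAut.conj h).toEquiv]
    refine Finset.sum_congr rfl fun y _ => ?_
    have e1 : fa (h * x * h⁻¹) = fa x := hfa x h
    have e2 : fb (h * y * h⁻¹) = fb y := hfb y h
    have e3 : (h * x * h⁻¹ * (h * y * h⁻¹) = h * g * h⁻¹) ↔ x * y = g := by
      constructor
      · intro hh
        have : h * (x * y) * h⁻¹ = h * g * h⁻¹ := by rw [← hh]; group
        exact mul_left_cancel (mul_right_cancel this)
      · intro hh
        rw [← hh]; group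
    simp only [MulEquiv.toEquiv_eq_coe, MulEquiv.coe_toEquiv, MulAut.conj_apply, e1, e2, e3]
  have hcard : (Nat.card {p : G × G // IsConj a p.1 ∧ IsConj b p.2 ∧ p.1 * p.2 = c} : ℂ) = f c := by
    rw [Nat.card_eq_fintype_card, Fintype.card_subtype, Finset.card_filter, Nat.cast_sum,
      Fintype.sum_prod_type, hfdef]
    refine Finset.sum_congr rfl fun x _ => Finset.sum_congr rfl fun y _ => ?_
    rw [hfadef, hfbdef]
    by_cases hA : IsConj a x <;> by_cases hB : IsConj b y <;> by_cases hC : x * y = c <;>
      simp only [hA, hB, hC, true_and, and_true, false_and, and_false, if_true, if_false,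
        Nat.cast_one, Nat.cast_zero, mul_one, mul_zero, zero_mul, and_self, Nat.cast_ite]
  -- inner products with irreducible characters
  have hinner : ∀ χ : IrrCharacter G, classInner f (χ : G → ℂ) = (Nat.card G : ℂ)⁻¹ *
      conj ((Nat.card {x : G // IsConj a x} : ℂ) * (χ : G → ℂ) a *
        ((Nat.card {x : G // IsConj b x} : ℂ) * (χ : G → ℂ) b) / (χ : G → ℂ) 1) := by
    intro χ
    have hχ1 : (χ : G → ℂ) 1 ≠ 0 := by
      rw [Helper24.charDegree_spec (Helper24.isCharacter_of_irr χ.2)]
      exact_mod_cast (Helper24.irr_degree_pos χ.2).ne'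
    have hχcf := Helper2.IsIrrCharacter.isClassFunction χ.2
    have key := Helper6.class_sum_mul_char χ.2 hfa hfb
    rw [hfadef, sum_indicator_mul a hχcf, ← hfadef, hfbdef, sum_indicator_mul b hχcf,
      ← hfbdef] at key
    have key' : ∑ x : G, ∑ y : G, fa x * fb y * (χ : G → ℂ) (x * y) =
        (Nat.card {x : G // IsConj a x} : ℂ) * (χ : G → ℂ) a *
        ((Nat.card {x : G // IsConj b x} : ℂ) * (χ : G → ℂ) b) / (χ : G → ℂ) 1 := by
      rw [eq_div_iff hχ1]
      exact key
    rw [← key']
    unfold classInner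
    congr 1
    rw [hfdef]
    dsimp only
    simp_rw [Finset.sum_mul, map_sum]
    rw [Finset.sum_comm]
    refine Finset.sum_congr rfl fun x _ => ?_
    rw [Finset.sum_comm]
    refine Finset.sum_congr rfl fun y _ => ?_
    simp_rw [ite_mul, zero_mul]
    rw [Finset.sum_ite_eq Finset.univ (x * y), if_pos (Finset.mem_univ _), map_mul, map_mul,
      hfa_conj, hfb_conj]
  -- expansion
  have hexp := Helper2.class_fn_expansion hf
  have hc := congrFun hexp c
  rw [Finset.sum_apply] at hc
  simp only [Pi.smul_apply, smul_eq_mul, hinner] at hc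
  rw [hcard]
  have hreal : conj (f c) = f c := by
    rw [← hcard]; simp
  rw [← hreal, hc, map_sum, Finset.mul_sum]
  refine Finset.sum_congr rfl fun χ _ => ?_
  have hχ1 : (χ : G → ℂ) 1 ≠ 0 := by
    rw [Helper24.charDegree_spec (Helper24.isCharacter_of_irr χ.2)]
    exact_mod_cast (Helper24.irr_degree_pos χ.2).ne'
  simp only [map_mul, map_inv₀, Complex.conj_conj, map_natCast, map_div₀]
  field_simp

end Cfsg.Agent.S0840
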