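import Cfsg.Statements.S0842
import Cfsg.Agent.Helper6.BSStruct

set_option autoImplicit false
open Cfsg

namespace Cfsg.Agent.S0842

open Cfsg.Agent Cfsg.Agent.Helper6 in
/-- Suppose a Sylow 2-subgroup S of the finite group G is generalized quaternion of order at least 16, and let D be the commutator subgroup of S, C its centralizer and N its normalizer in G. Then there is a subgroup K of odd order, contained in C and normalized by N, with K ⊔ S = N and K ⊔ (S ⊓ C) = C, and C has index 2 in N. -/
theorem result {G : Type*} [Group G] [Finite G] (S : Sylow 2 G) (n : ℕ) (e : (S : Subgroup G) ≃* QuaternionGroup (2 ^ (n + 2))) (D : Subgroup G) (hD : D = ⁅(S : Subgroup G), (S : Subgroup G)⁆) : ∃ K : Subgroup G, Odd (Nat.card K) ∧ K ≤ Subgroup.centralizer (D : Set G) ∧ Subgroup.normalizer (D : Set G) ≤ Subgroup.normalizer (K : Set G) ∧ K ⊔ (S : Subgroup G) = Subgroup.normalizer (D : Set G) ∧ K ⊔ ((S : Subgroup G) ⊓ Subgroup.centralizer (D : Set G)) = Subgroup.centralizer (D : Set G) ∧ ((Subgroup.centralizer (D : Set G)).subgroupOf (Subgroup.normalizer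 (D : Set G))).index = 2 := by
  have h4 : ¬ 2 * 2 ^ (n + 2) ∣ 4 := by
    intro h
    have h1 := Nat.le_of_dvd (by norm_num) h
    have h2 : 4 ≤ 2 ^ (n + 2) := by
      calc 4 = 2 ^ 2 := by norm_num
        _ ≤ 2 ^ (n + 2) := Nat.pow_le_pow_right (by norm_num) (by omega)
    omega
  obtain ⟨K', hKn, hKmem, hKc, hKC, hKodd⟩ := BS.struct_main S ⟨n + 2, rfl⟩ h4 e D hD
  have hSN : (S : Subgroup G) ≤ Subgroup.normalizer (D : Set G) :=
    hD ▸ BS.le_normalizer_commutator
  have hKC' : K'.map (Subgroup.normalizer (D : Set G)).subtype ≤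
      Subgroup.centralizer (D : Set G) := by
    rintro _ ⟨x, hx, rfl⟩
    exact Subgroup.mem_subgroupOf.mp (hKC hx)
  have hinf : (S : Subgroup G) ⊓ Subgroup.centralizer (D : Set G) =
      Subgroup.zpowers (BS.quatHom e (QuaternionGroup.a 1)) := by
    rw [hD]
    exact BS.inf_centralizer h4 e
  refine ⟨K'.map (Subgroup.normalizer (D : Set G)).subtype, ?_, hKC', ?_, ?_, ?_, ?_⟩
  · rw [Subgroup.card_map_of_injective (Subgroup.subtype_injective _)]
    exact hKodd
  · have h1 := Subgroup.le_normalizer_map (H := K') (Subgroup.normalizer (D : Set G)).subtype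
    have hnt : Subgroup.normalizer (K' : Set ↥(Subgroup.normalizer (D : Set G))) = ⊤ :=
      Subgroup.normalizer_eq_top K'
    rw [hnt, ← MonoidHom.range_eq_map, Subgroup.range_subtype] at h1
    exact h1
  · have h1 := hKc.sup_eq_top
    have h2 := congrArg (Subgroup.map (Subgroup.normalizer (D : Set G)).subtype) h1
    rw [Subgroup.map_sup, Subgroup.subgroupOf_map_subtype, ← MonoidHom.range_eq_map,
      Subgroup.range_subtype, inf_of_le_left hSN] at h2
    exact h2
  · apply le_antisymm
    · exact sup_le hKC' inf_le_right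
    · intro c hc
      have hcN : c ∈ Subgroup.normalizer (D : Set G) :=
        Subgroup.centralizer_le_normalizer _ hc
      obtain ⟨⟨k, p⟩, hkp⟩ := hKc.2 ⟨c, hcN⟩
      have hkC : ((k : ↥(Subgroup.normalizer (D : Set G))) : G) ∈
          Subgroup.centralizer (D : Set G) := Subgroup.mem_subgroupOf.mp (hKC k.2)
      have hpS : ((p : ↥(Subgroup.normalizer (D : Set G))) : G) ∈ (S : Subgroup G) :=
        Subgroup.mem_subgroupOf.mp p.2
      have hc' : c = ((k : ↥(Subgroup.normalizer (D : Set G))) : G) *
          ((p : ↥(Subgroup.normalizer (D : Set G))) : G) := by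
        rw [← Subgroup.coe_mul]
        exact (congrArg Subtype.val hkp).symm
      have hpC : ((p : ↥(Subgroup.normalizer (D : Set G))) : G) ∈
          Subgroup.centralizer (D : Set G) := by
        have : ((p : ↥(Subgroup.normalizer (D : Set G))) : G) =
            ((k : ↥(Subgroup.normalizer (D : Set G))) : G)⁻¹ * c := by
          rw [hc']
          group
        rw [this]
        exact Subgroup.mul_mem _ (Subgroup.inv_mem _ hkC) hc
      rw [hc']
      exact Subgroup.mul_mem_sup (Subgroup.mem_map_of_mem _ k.2) ⟨hpS, hpC⟩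
  · haveI hCn : ((Subgroup.centralizer (D : Set G)).subgroupOf
        (Subgroup.normalizer (D : Set G))).Normal := by
      rw [← Subgroup.normalizerMonoidHom_ker]
      infer_instance
    have htop : (Subgroup.centralizer (D : Set G)).subgroupOf (Subgroup.normalizer (D : Set G)) ⊔
        (S : Subgroup G).subgroupOf (Subgroup.normalizer (D : Set G)) = ⊤ := by
      rw [eq_top_iff, ← hKc.sup_eq_top]
      exact sup_le_sup_right hKC _
    have h1 := Subgroup.relIndex_sup_left
      ((S : Subgroup G).subgroupOf (Subgroup.normalizer (D : Set G)))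
      ((Subgroup.centralizer (D : Set G)).subgroupOf (Subgroup.normalizer (D : Set G)))
    rw [htop, Subgroup.relIndex_top_right, ← Subgroup.inf_relIndex_right] at h1
    rw [h1]
    have h2 := Subgroup.relIndex_mul_relIndex ⊥
      ((Subgroup.centralizer (D : Set G)).subgroupOf (Subgroup.normalizer (D : Set G)) ⊓
        (S : Subgroup G).subgroupOf (Subgroup.normalizer (D : Set G)))
      ((S : Subgroup G).subgroupOf (Subgroup.normalizer (D : Set G))) bot_le inf_le_right
    rw [Subgroup.relIndex_bot_left, Subgroup.relIndex_bot_left] at h2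
    have hcP : Nat.card ((S : Subgroup G).subgroupOf (Subgroup.normalizer (D : Set G))) =
        4 * 2 ^ (n + 2) := by
      rw [Nat.card_congr (Subgroup.subgroupOfEquivOfLe hSN).toEquiv, Nat.card_congr e.toEquiv,
        Quat.card_eq]
    have hcI : Nat.card ↥((Subgroup.centralizer (D : Set G)).subgroupOf
        (Subgroup.normalizer (D : Set G)) ⊓
        (S : Subgroup G).subgroupOf (Subgroup.normalizer (D : Set G))) = 2 * 2 ^ (n + 2) := by
      have hle : (S : Subgroup G) ⊓ Subgroup.centralizer (D : Set G) ≤
          Subgroup.normalizer (D : Set G) := inf_le_left.trans hSN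
      have heq : (Subgroup.centralizer (D : Set G)).subgroupOf (Subgroup.normalizer (D : Set G)) ⊓
          (S : Subgroup G).subgroupOf (Subgroup.normalizer (D : Set G)) =
          ((S : Subgroup G) ⊓ Subgroup.centralizer (D : Set G)).subgroupOf
            (Subgroup.normalizer (D : Set G)) := by
        ext x
        simp only [Subgroup.mem_inf, Subgroup.mem_subgroupOf]
        tauto
      rw [heq, Nat.card_congr (Subgroup.subgroupOfEquivOfLe hle).toEquiv, hinf, Nat.card_zpowers,
        orderOf_injective (BS.quatHom e) (BS.quatHom_injective e), QuaternionGroup.orderOf_a_one]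
    rw [hcP, hcI] at h2
    have hpos : 0 < 2 * 2 ^ (n + 2) := by positivity
    have : 2 * 2 ^ (n + 2) * 2 = 4 * 2 ^ (n + 2) := by ring
    rw [← this] at h2
    exact Nat.eq_of_mul_eq_mul_left hpos h2

end Cfsg.Agent.S0842
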