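import Cfsg.Statements.S0843
import Cfsg.Agent.Helper6.BSKey

set_option autoImplicit false
open Cfsg

namespace Cfsg.Agent.S0843

open Cfsg.Agent Cfsg.Agent.Helper6 in
/-- Suppose a Sylow 2-subgroup S of the finite group G is generalized quaternion of order at least 16; let D be the commutator subgroup of S and X the set of elements of the centralizer of D whose order is divisible by the order of D. Then D is contained in the cyclic subgroup generated by any element of X; an element of G conjugating some element of X into the centralizer of D normalizes D; and the normalizer of D maps X to itself under conjugation. -/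
theorem result {G : Type*} [Group G] [Finite G] (S : Sylow 2 G) (n : ℕ) (e : (S : Subgroup G) ≃* QuaternionGroup (2 ^ (n + 2))) (D : Subgroup G) (hD : D = ⁅(S : Subgroup G), (S : Subgroup G)⁆) : (∀ y : G, y ∈ Subgroup.centralizer (D : Set G) → Nat.card D ∣ orderOf y → D ≤ Subgroup.zpowers y) ∧ (∀ g y : G, y ∈ Subgroup.centralizer (D : Set G) → Nat.card D ∣ orderOf y → g * y * g⁻¹ ∈ Subgroup.centralizer (D : Set G) → g ∈ Subgroup.normalizer (D : Set G)) ∧ (∀ g y : G, g ∈ Subgroup.normalizer (D : Set G) → y ∈ Subgroup.centralizer (D : Set G) → Nat.card D ∣ orderOf y → g * y * g⁻¹ ∈ Subgroup.centralizer (D : Set G) ∧ Nat.card D ∣ orderOf (g * y * g⁻¹)) := by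
  have h4 : ¬ 2 * 2 ^ (n + 2) ∣ 4 := by
    intro h
    have h1 := Nat.le_of_dvd (by norm_num) h
    have h2 : 4 ≤ 2 ^ (n + 2) := by
      calc 4 = 2 ^ 2 := by norm_num
        _ ≤ 2 ^ (n + 2) := Nat.pow_le_pow_right (by norm_num) (by omega)
    omega
  obtain ⟨π, hπ1, hπ2, hπ3⟩ := BS.exists_proj S ⟨n + 2, rfl⟩ h4 e D hD
  have key : ∀ y : G, y ∈ Subgroup.centralizer (D : Set G) → Nat.card D ∣ orderOf y →
      D ≤ Subgroup.zpowers y := fun y hyC hy =>
    BS.le_zpowers_of_centralizer e D hD π hπ1 hπ2 hπ3 ⟨n + 2, rfl⟩ h4 y hyC hy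
  have hord : ∀ g y : G, orderOf (g * y * g⁻¹) = orderOf y := by
    intro g y
    have := (MulAut.conj g).orderOf_eq y
    rwa [MulAut.conj_apply] at this
  refine ⟨key, ?_, ?_⟩
  · intro g y hyC hy hgy
    have h1 := key y hyC hy
    have h2 := key (g * y * g⁻¹) hgy (by rw [hord]; exact hy)
    exact BS.mem_normalizer_of_le_zpowers D y g h1 h2
  · intro g y hg hyC hy
    refine ⟨?_, by rw [hord]; exact hy⟩
    rw [Subgroup.mem_centralizer_iff] at hyC ⊢
    intro h hh
    have hh' : g⁻¹ * h * g ∈ D := by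
      rw [Subgroup.mem_normalizer_iff] at hg
      rw [hg (g⁻¹ * h * g)]
      have : g * (g⁻¹ * h * g) * g⁻¹ = h := by group
      rw [this]
      exact hh
    have h1 := hyC _ hh'
    calc h * (g * y * g⁻¹) = g * ((g⁻¹ * h * g) * y) * g⁻¹ := by group
      _ = g * (y * (g⁻¹ * h * g)) * g⁻¹ := by rw [h1]
      _ = g * y * g⁻¹ * h := by group

end Cfsg.Agent.S0843
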