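import Cfsg.Statements.S0849
import Cfsg.Agent.Helper2.IndFun

set_option autoImplicit false
open Cfsg

namespace Cfsg.Agent.S0849

open Cfsg.Agent.Helper2

theorem sum_subgroup_eq {G : Type*} [Group G] [Fintype G] (H : Subgroup G) [Fintype H]
    (f : G → ℂ) (hf : ∀ a, a ∉ H → f a = 0) : ∑ a : G, f a = ∑ a : H, f (a : G) := by
  classical
  have h1 : ∑ y : G, f y = ∑ y ∈ Finset.univ.filter (fun y : G => y ∈ H), f y := by
    rw [Finset.sum_filter]
    refine Finset.sum_congr rfl fun y _ => ?_
    split_ifs with hy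
    · rfl
    · exact hf y hy
  rw [h1]
  symm
  refine Finset.sum_bij (fun (h : H) _ => (h : G)) ?_ ?_ ?_ ?_
  · intro h _; simp
  · intro a _ b _ hab; exact Subtype.ext hab
  · intro y hy
    rw [Finset.mem_filter] at hy
    exact ⟨⟨y, hy.2⟩, Finset.mem_univ _, rfl⟩
  · intro h _; rfl

theorem isConj_conj_iff {G : Type*} [Group G] (u x a : G) :
    IsConj u (x * a * x⁻¹) ↔ IsConj u a := by
  rw [isConj_iff, isConj_iff]
  constructor
  · rintro ⟨c, hc⟩
    refine ⟨x⁻¹ * c, ?_⟩
    rw [mul_inv_rev, inv_inv]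
    calc x⁻¹ * c * u * (c⁻¹ * x) = x⁻¹ * (c * u * c⁻¹) * x := by group
      _ = a := by rw [hc]; group
  · rintro ⟨c, hc⟩
    refine ⟨x * c, ?_⟩
    rw [← hc]
    group

theorem sq_of_isConj {G : Type*} [Group G] {u a : G} (hu : orderOf u = 2) (h : IsConj u a) :
    a * a = 1 := by
  have hu2 : u * u = 1 := by
    have := pow_orderOf_eq_one u
    rw [hu, pow_two] at this
    exact this
  obtain ⟨c, hc⟩ := isConj_iff.mp h
  rw [← hc]
  calc c * u * c⁻¹ * (c * u * c⁻¹) = c * (u * u) * c⁻¹ := by group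
    _ = 1 := by rw [hu2]; group

/-- Let H be a subgroup of a finite group G and S a subset of H that is mapped to itself under conjugation by H, is disjoint from its conjugate by any element outside H, and is closed under inverses. Let φ be a class function of H vanishing on H away from S, and let u, v be involutions of G. Then the sum of the induced function of φ over all products a * b with a conjugate to u and b conjugate to v equals the index of H times the sum of φ (a * b) over such pairs with a and b in H. -/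
theorem result {G : Type*} [Group G] [Fintype G] (H : Subgroup G) (S : Set G) (hSH : S ⊆ H) (hHS : ∀ h ∈ H, ∀ s ∈ S, h * s * h⁻¹ ∈ S) (hTI : ∀ g : G, g ∉ H → ∀ s ∈ S, g * s * g⁻¹ ∉ S) (hinv : ∀ s ∈ S, s⁻¹ ∈ S) (φ : H → ℂ) (hφ : Cfsg.IsClassFunction H φ) (hφS : ∀ x : H, (x : G) ∉ S → φ x = 0) (u v : G) (hu : orderOf u = 2) (hv : orderOf v = 2) : ∑ᶠ p ∈ {p : G × G | IsConj u p.1 ∧ IsConj v p.2}, Cfsg.indFun H φ (p.1 * p.2) = (H.index : ℂ) * ∑ᶠ p ∈ {p : H × H | IsConj u (p.1 : G) ∧ IsConj v (p.2 : G)}, φ (p.1 * p.2) := by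
  classical
  haveI : Fintype H := Fintype.ofFinite H
  have hL : ∑ᶠ p ∈ {p : G × G | IsConj u p.1 ∧ IsConj v p.2}, Cfsg.indFun H φ (p.1 * p.2) =
      ∑ a : G, ∑ b : G, if IsConj u a ∧ IsConj v b then Cfsg.indFun H φ (a * b) else 0 := by
    rw [finsum_mem_def, finsum_eq_sum_of_fintype, Fintype.sum_prod_type]
    refine Finset.sum_congr rfl fun a _ => Finset.sum_congr rfl fun b _ => ?_
    rw [Set.indicator_apply]
    rfl
  have hR : ∑ᶠ p ∈ {p : H × H | IsConj u (p.1 : G) ∧ IsConj v (p.2 : G)}, φ (p.1 * p.2) =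
      ∑ a : H, ∑ b : H, if IsConj u (a : G) ∧ IsConj v (b : G) then φ (a * b) else 0 := by
    rw [finsum_mem_def, finsum_eq_sum_of_fintype, Fintype.sum_prod_type]
    refine Finset.sum_congr rfl fun a _ => Finset.sum_congr rfl fun b _ => ?_
    rw [Set.indicator_apply]
    rfl
  rw [hL, hR]
  -- key vanishing lemma
  have hK : ∀ a b : G, IsConj u a → IsConj v b → extendByZero H φ (a * b) ≠ 0 →
      a ∈ H ∧ b ∈ H := by
    intro a b ha hb hne
    have ha2 := sq_of_isConj hu ha
    have hb2 := sq_of_isConj hv hb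
    have hab : a * b ∈ H := by
      by_contra h
      exact hne (extendByZero_apply_not_mem H φ h)
    have habS : a * b ∈ S := by
      by_contra h
      apply hne
      rw [extendByZero_apply_mem H φ hab]
      exact hφS ⟨a * b, hab⟩ h
    have hainv : a⁻¹ = a := inv_eq_of_mul_eq_one_left ha2
    have hbinv : b⁻¹ = b := inv_eq_of_mul_eq_one_left hb2
    have hinvS := hinv _ habS
    constructor
    · by_contra h
      apply hTI a h (a * b) habS
      have : a * (a * b) * a⁻¹ = (a * b)⁻¹ := by
        rw [mul_inv_rev, hainv, hbinv, ← mul_assoc, ha2, one_mul]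
      rw [this]; exact hinvS
    · by_contra h
      apply hTI b h (a * b) habS
      have : b * (a * b) * b⁻¹ = (a * b)⁻¹ := by
        rw [mul_inv_rev, hainv, hbinv, mul_assoc, mul_assoc, hb2, mul_one]
      rw [this]; exact hinvS
  -- the constant inner sum
  have hStep3 : ∑ a : G, ∑ b : G, (if IsConj u a ∧ IsConj v b then extendByZero H φ (a * b) else 0) =
      ∑ a : H, ∑ b : H, if IsConj u (a : G) ∧ IsConj v (b : G) then φ (a * b) else 0 := by
    rw [sum_subgroup_eq H]
    · refine Finset.sum_congr rfl fun a _ => ?_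
      rw [sum_subgroup_eq H]
      · refine Finset.sum_congr rfl fun b _ => ?_
        split_ifs with h
        · rw [← Subgroup.coe_mul, extendByZero_apply_coe]
        · rfl
      · intro b hb
        split_ifs with h
        · by_contra hne
          exact hb (hK a b h.1 h.2 hne).2
        · rfl
    · intro a ha
      apply Finset.sum_eq_zero
      intro b _
      split_ifs with h
      · by_contra hne
        exact ha (hK a b h.1 h.2 hne).1
      · rfl
  have hStep2 : ∀ x : G, ∑ a : G, ∑ b : G,
      (if IsConj u a ∧ IsConj v b then extendByZero H φ (x⁻¹ * (a * b) * x) else 0) =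
      ∑ a : G, ∑ b : G, (if IsConj u a ∧ IsConj v b then extendByZero H φ (a * b) else 0) := by
    intro x
    rw [← Equiv.sum_comp (MulAut.conj x).toEquiv]
    refine Finset.sum_congr rfl fun a _ => ?_
    rw [← Equiv.sum_comp (MulAut.conj x).toEquiv]
    refine Finset.sum_congr rfl fun b _ => ?_
    have e1 := isConj_conj_iff u x a
    have e2 := isConj_conj_iff v x b
    have e3 : x⁻¹ * (x * a * x⁻¹ * (x * b * x⁻¹)) * x = a * b := by group
    simp only [MulEquiv.toEquiv_eq_coe, MulEquiv.coe_toEquiv, MulAut.conj_apply, e1, e2, e3]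
  have key : ∀ a b : G, (if IsConj u a ∧ IsConj v b then Cfsg.indFun H φ (a * b) else 0) =
      (Nat.card H : ℂ)⁻¹ * ∑ x : G,
        (if IsConj u a ∧ IsConj v b then extendByZero H φ (x⁻¹ * (a * b) * x) else 0) := by
    intro a b
    split_ifs with h
    · rfl
    · simp
  simp_rw [key, ← Finset.mul_sum]
  have hswap : ∑ a : G, ∑ b : G, ∑ x : G,
      (if IsConj u a ∧ IsConj v b then extendByZero H φ (x⁻¹ * (a * b) * x) else 0) =
      ∑ x : G, ∑ a : G, ∑ b : G,
      (if IsConj u a ∧ IsConj v b then extendByZero H φ (x⁻¹ * (a * b) * x) else 0) := by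
    have h1 : ∀ a : G, ∑ b : G, ∑ x : G,
        (if IsConj u a ∧ IsConj v b then extendByZero H φ (x⁻¹ * (a * b) * x) else 0) =
        ∑ x : G, ∑ b : G,
        (if IsConj u a ∧ IsConj v b then extendByZero H φ (x⁻¹ * (a * b) * x) else 0) :=
      fun a => Finset.sum_comm
    rw [Finset.sum_congr rfl (fun a _ => h1 a)]
    exact Finset.sum_comm
  rw [hswap]
  simp_rw [hStep2, hStep3]
  rw [Finset.sum_const, Finset.card_univ, nsmul_eq_mul, ← mul_assoc]
  congr 1
  have hidx := Subgroup.card_mul_index H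
  have hH0 : (Nat.card H : ℂ) ≠ 0 := by
    exact_mod_cast (Nat.card_pos (α := H)).ne'
  rw [← Nat.card_eq_fintype_card, ← hidx]
  push_cast
  field_simp

end Cfsg.Agent.S0849
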