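import Cfsg.Statements.S0850
import Cfsg.Agent.Helper6.Fpf
import Cfsg.Agent.S0849

set_option autoImplicit false
open Cfsg

namespace Cfsg.Agent.S0850

open Cfsg.Agent.Helper2

theorem part1 {G : Type*} [Group G] [Finite G] (K : Subgroup G)
    (hTI : ∀ g : G, g ∉ Subgroup.normalizer (K : Set G) → ∀ k ∈ K, g * k * g⁻¹ ∈ K → k = 1)
    (hC : ∀ k ∈ K, k ≠ 1 → Subgroup.centralizer ({k} : Set G) ≤ K) :
    ∀ x ∈ Subgroup.normalizer (K : Set G), x ∉ K → ∀ g : G, g * x * g⁻¹ ∉ K := by
  intro x hxN hxK g hy
  have hx1 : x ≠ 1 := fun h => hxK (h ▸ K.one_mem)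
  by_cases hg : g ∈ Subgroup.normalizer (K : Set G)
  · exact hxK ((Subgroup.mem_normalizer_iff.mp hg x).mpr hy)
  · have hord : orderOf x ≠ 1 := by rwa [Ne, orderOf_eq_one_iff]
    obtain ⟨p, hp, hpd⟩ := Nat.exists_prime_and_dvd hord
    haveI : Fact p.Prime := ⟨hp⟩
    obtain ⟨x', hx'⟩ : ∃ x', x' = x ^ (orderOf x / p) := ⟨_, rfl⟩
    have hx'ord : orderOf x' = p := by
      rw [hx']
      exact orderOf_pow_orderOf_div (orderOf_pos x).ne' hpd
    have hx'N : x' ∈ Subgroup.normalizer (K : Set G) := by
      rw [hx']; exact Subgroup.pow_mem _ hxN _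
    have hy' : g * x' * g⁻¹ ∈ K := by
      have : g * x' * g⁻¹ = (g * x * g⁻¹) ^ (orderOf x / p) := by rw [conj_pow, hx']
      rw [this]; exact K.pow_mem hy _
    have hx'1 : x' ≠ 1 := by
      intro h
      rw [h, orderOf_one] at hx'ord
      exact hp.one_lt.ne hx'ord
    have hy'1 : g * x' * g⁻¹ ≠ 1 := by
      intro h
      apply hx'1
      have : x' = g⁻¹ * (g * x' * g⁻¹) * g := by group
      rw [this, h]; group
    have hfix : ∀ k ∈ K, x' * k * x'⁻¹ = k → k = 1 := by
      intro k hk hcomm
      have hmem : g * k * g⁻¹ ∈ Subgroup.centralizer ({g * x' * g⁻¹} : Set G) := by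
        rw [Subgroup.mem_centralizer_singleton_iff]
        have hc : x' * k = k * x' := by
          calc x' * k = (x' * k * x'⁻¹) * x' := by group
            _ = k * x' := by rw [hcomm]
        calc g * k * g⁻¹ * (g * x' * g⁻¹) = g * (k * x') * g⁻¹ := by group
          _ = g * (x' * k) * g⁻¹ := by rw [hc]
          _ = g * x' * g⁻¹ * (g * k * g⁻¹) := by group
      exact hTI g hg k hk (hC _ hy' hy'1 hmem)
    have hcard := Cfsg.Agent.Helper6.card_modEq_one_of_fpf K x' p hx'ord hx'N hfix
    have hpK : p ∣ Nat.card K := by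
      have h1 : orderOf (⟨g * x' * g⁻¹, hy'⟩ : K) = p := by
        rw [← hx'ord, ← Subgroup.orderOf_coe]
        have := (MulAut.conj g).orderOf_eq x'
        rw [MulAut.conj_apply] at this
        exact this
      rw [← h1]
      exact orderOf_dvd_natCard _
    have h0 : Nat.card K ≡ 0 [MOD p] := (Nat.modEq_zero_iff_dvd).mpr hpK
    have h01 : 0 ≡ 1 [MOD p] := h0.symm.trans hcard
    have : p ∣ 1 := by
      have := (Nat.modEq_zero_iff_dvd).mp h01.symm
      exact this
    exact hp.one_lt.ne' (Nat.dvd_one.mp this)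

/-- Let K be a subgroup of the finite group G that meets each conjugate by an element outside its normalizer N trivially, is properly contained in N, and contains the centralizer of each of its non-identity elements (a T.I. subgroup with Frobenius normalizer). Then no element of N outside K is conjugate in G to an element of K, and for every class function ϑ of N that vanishes on N away from K and at the identity, the function induced from ϑ to G agrees with ϑ on all of N. -/
theorem result {G : Type*} [Group G] [Fintype G] (K : Subgroup G) (hTI : ∀ g : G, g ∉ Subgroup.normalizer (K : Set G) → ∀ k ∈ K, g * k * g⁻¹ ∈ K → k = 1) (hlt : K < Subgroup.normalizer (K : Set G)) (hC : ∀ k ∈ K, k ≠ 1 → Subgroup.centralizer ({k} : Set G) ≤ K) : (∀ x ∈ Subgroup.normalizer (K : Set G), x ∉ K → ∀ g : G, g * x * g⁻¹ ∉ K) ∧ ∀ (ϑ : Subgroup.normalizer (K : Set G) → ℂ), Cfsg.IsClassFunction (Subgroup.normalizer (K : Set G)) ϑ → (∀ x : Subgroup.normalizer (K : Set G), (x : G) ∉ K → ϑ x = 0) → ϑ 1 = 0 → ∀ x : Subgroup.normalizer (K : Set G), Cfsg.indFun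 (Subgroup.normalizer (K : Set G)) ϑ x = ϑ x := by
  have hp1 := part1 K hTI hC
  refine ⟨hp1, ?_⟩
  intro ϑ hcf hvan h1 x
  classical
  haveI : Fintype (Subgroup.normalizer (K : Set G)) := Fintype.ofFinite _
  rw [indFun_apply]
  have hN0 : (Nat.card (Subgroup.normalizer (K : Set G)) : ℂ) ≠ 0 := by
    exact_mod_cast (Nat.card_pos (α := Subgroup.normalizer (K : Set G))).ne'
  by_cases hxK : (x : G) ∈ K
  · by_cases hx1 : x = 1
    · -- all terms vanish
      rw [hx1, h1, Finset.sum_eq_zero, mul_zero]
      intro g _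
      have : g⁻¹ * ((1 : Subgroup.normalizer (K : Set G)) : G) * g = ((1 : Subgroup.normalizer (K : Set G)) : G) := by
        simp
      rw [this, extendByZero_apply_coe, h1]
    · have hx1' : (x : G) ≠ 1 := fun h => hx1 (Subtype.ext h)
      have hterm : ∀ g : G, extendByZero (Subgroup.normalizer (K : Set G)) ϑ (g⁻¹ * (x : G) * g) =
          if g ∈ Subgroup.normalizer (K : Set G) then ϑ x else 0 := by
        intro g
        split_ifs with hg
        · have hmem : g⁻¹ * (x : G) * g ∈ Subgroup.normalizer (K : Set G) :=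
            Subgroup.mul_mem _ (Subgroup.mul_mem _ (Subgroup.inv_mem _ hg) x.2) hg
          rw [extendByZero_apply_mem _ _ hmem]
          have := hcf x (⟨g, hg⟩⁻¹ : Subgroup.normalizer (K : Set G))
          rw [← this]
          congr 1
          apply Subtype.ext
          simp
        · by_cases hmem : g⁻¹ * (x : G) * g ∈ Subgroup.normalizer (K : Set G)
          · rw [extendByZero_apply_mem _ _ hmem]
            apply hvan
            intro hK
            have hg' : g⁻¹ ∉ Subgroup.normalizer (K : Set G) := fun h =>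
              hg (by simpa using Subgroup.inv_mem _ h)
            apply hx1'
            apply hTI g⁻¹ hg' (x : G) hxK
            rw [inv_inv]; exact hK
          · exact extendByZero_apply_not_mem _ _ hmem
      simp_rw [hterm]
      rw [Cfsg.Agent.S0849.sum_subgroup_eq (Subgroup.normalizer (K : Set G))]
      · have : ∀ g : Subgroup.normalizer (K : Set G),
            (if (g : G) ∈ Subgroup.normalizer (K : Set G) then ϑ x else 0) = ϑ x :=
          fun g => if_pos g.2
        simp_rw [this]
        rw [Finset.sum_const, Finset.card_univ, nsmul_eq_mul, ← Nat.card_eq_fintype_card,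
          ← mul_assoc, inv_mul_cancel₀ hN0, one_mul]
      · intro g hg
        exact if_neg hg
  · rw [hvan x hxK, Finset.sum_eq_zero, mul_zero]
    intro g _
    by_cases hmem : g⁻¹ * (x : G) * g ∈ Subgroup.normalizer (K : Set G)
    · rw [extendByZero_apply_mem _ _ hmem]
      apply hvan
      have := hp1 (x : G) x.2 hxK g⁻¹
      rw [inv_inv] at this
      exact this
    · exact extendByZero_apply_not_mem _ _ hmem

end Cfsg.Agent.S0850
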