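import Cfsg.Statements.S0859
import Cfsg.Agent.Helper6.MSylow

set_option autoImplicit false
open Cfsg

namespace Cfsg.Agent.S0859

open Cfsg.Agent Cfsg.Agent.Helper6 in
/-- Let G be a finite solvable group and N a normal subgroup such that for every prime p every Sylow p-subgroup of N is abelian. Suppose every irreducible character of G is induced from an irreducible character of some subgroup containing N whose restriction to N is irreducible. Then every irreducible character of G is induced from a character of degree 1 of some subgroup. -/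
theorem result {G : Type*} [Group G] [Fintype G] [Group.IsSolvable G] (N : Subgroup G) [N.Normal] (hab : ∀ (p : ℕ) [Fact p.Prime] (P : Sylow p N), ∀ a ∈ P, ∀ b ∈ P, a * b = b * a) (hrel : ∀ χ : G → ℂ, Cfsg.IsIrrCharacter G χ → ∃ (H : Subgroup G) (hNH : N ≤ H) (ψ : H → ℂ), Cfsg.IsIrrCharacter H ψ ∧ Cfsg.indFun H ψ = χ ∧ Cfsg.IsIrrCharacter N (fun n : N => ψ ⟨(n : G), hNH n.2⟩)) (χ : G → ℂ) (hχ : Cfsg.IsIrrCharacter G χ) : ∃ (U : Subgroup G) (lam : U → ℂ), Cfsg.IsCharacter U lam ∧ lam 1 = 1 ∧ Cfsg.indFun U lam = χ := by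
  classical
  obtain ⟨H, hNH, ψ, hψ, hind, hψN⟩ := hrel χ hχ
  have := Fintype.ofFinite H
  have := Fintype.ofFinite N
  have := Fintype.ofFinite (N.subgroupOf H)
  -- all `p`-subgroups of `N ∩ H` (inside `H`) are abelian
  have habH : ∀ (p : ℕ), p.Prime → ∀ Q : Subgroup H, Q ≤ N.subgroupOf H → IsPGroup p Q →
      ∀ a ∈ Q, ∀ b ∈ Q, a * b = b * a := by
    intro p hp Q hQN hQ a ha b hb
    haveI : Fact p.Prime := ⟨hp⟩
    have hpg : IsPGroup p ((Q.map H.subtype).subgroupOf N) :=
      (hQ.map H.subtype).comap_subtype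
    obtain ⟨P, hP⟩ := hpg.exists_le_sylow
    have haN : ((a : H) : G) ∈ N := Subgroup.mem_subgroupOf.mp (hQN ha)
    have hbN : ((b : H) : G) ∈ N := Subgroup.mem_subgroupOf.mp (hQN hb)
    have ha' : (⟨(a : G), haN⟩ : N) ∈ (P : Subgroup N) :=
      hP (Subgroup.mem_subgroupOf.mpr (Subgroup.mem_map_of_mem H.subtype ha))
    have hb' : (⟨(b : G), hbN⟩ : N) ∈ (P : Subgroup N) :=
      hP (Subgroup.mem_subgroupOf.mpr (Subgroup.mem_map_of_mem H.subtype hb))
    have h1 := hab p P _ ha' _ hb'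
    have h2 : ((a : H) : G) * ((b : H) : G) = ((b : H) : G) * ((a : H) : G) :=
      congrArg Subtype.val h1
    exact Subtype.ext h2
  -- the restriction of `ψ` to `N ∩ H` is irreducible
  have hψN' : IsIrrCharacter (N.subgroupOf H) (fun x : N.subgroupOf H => ψ x) := by
    have h1 := Helper6.isIrrCharacter_comp_mulEquiv (Subgroup.subgroupOfEquivOfLe hNH) hψN
    have h2 : (fun n : N => ψ ⟨(n : G), hNH n.2⟩) ∘ (Subgroup.subgroupOfEquivOfLe hNH) =
        fun x : N.subgroupOf H => ψ x := by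
      funext x
      rfl
    rw [h2] at h1
    exact h1
  obtain ⟨U', lam', hlam'⟩ := Helper6.msylow_aux (Nat.card H) H (N.subgroupOf H) le_rfl habH ψ hψ
    hψN'
  have hinj : Function.Injective H.subtype := Subgroup.subtype_injective H
  obtain ⟨U, hUdef⟩ : ∃ U : Subgroup G, U = U'.map H.subtype := ⟨_, rfl⟩
  have hUH : U ≤ H := by
    rw [hUdef]
    exact Subgroup.map_subtype_le U'
  have hsub : U.subgroupOf H = U' := by
    rw [hUdef]
    exact Subgroup.comap_map_eq_self_of_injective hinj U'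
  have hmemU' : ∀ (y : H), (y : G) ∈ U → y ∈ U' := by
    intro y hy
    rw [← hsub]
    exact Subgroup.mem_subgroupOf.mpr hy
  let f : U →* U' :=
    { toFun := fun h => ⟨⟨(h : G), hUH h.2⟩, hmemU' ⟨(h : G), hUH h.2⟩ h.2⟩
      map_one' := rfl
      map_mul' := fun a b => rfl }
  refine ⟨U, fun u => (((lam'.comp f) u : ℂˣ) : ℂ), Helper2.isCharacter_of_hom (lam'.comp f), ?_, ?_⟩
  · simp
  · rw [← Helper10.indFun_trans U H hUH, ← hind, hlam']
    congr 1
    apply Helper24.indFun_congr_subgroup (U.subgroupOf H) U' hsub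
    intro y hy1 hy2
    rfl

end Cfsg.Agent.S0859
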