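import Cfsg.Statements.S0860
import Cfsg.Agent.S0145
import Cfsg.Agent.Helper2.CharComplete
import Cfsg.Agent.Helper2.ConjClass

set_option autoImplicit false
open Cfsg

namespace Cfsg.Agent.S0860

open scoped ComplexConjugate
open Cfsg.Agent

/-- Summing the centralizer orders over a conjugacy class gives the group order. -/
theorem sum_card_centralizer_class {G : Type*} [Group G] [Fintype G] [DecidableEq (ConjClasses G)]
    (C : ConjClasses G) :
    ∑ g ∈ Finset.univ.filter (fun g : G => ConjClasses.mk g = C),
      (Nat.card (Subgroup.centralizer ({g} : Set G)) : ℂ) = (Nat.card G : ℂ) := by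
  classical
  obtain ⟨h, rfl⟩ := ConjClasses.mk_surjective C
  rw [Finset.sum_filter]
  have hcf : IsClassFunction G (fun g : G => (Nat.card (Subgroup.centralizer ({g} : Set G)) : ℂ)) := by
    intro g k
    show (Nat.card (Subgroup.centralizer ({k * g * k⁻¹} : Set G)) : ℂ) =
      (Nat.card (Subgroup.centralizer ({g} : Set G)) : ℂ)
    have hc : IsConj g (k * g * k⁻¹) := isConj_iff.mpr ⟨k, rfl⟩
    rw [Helper2.card_centralizer_eq_of_isConj hc]
  have h1 := Helper2.sum_ite_isConj
    (fun g : G => (Nat.card (Subgroup.centralizer ({g} : Set G)) : ℂ)) hcf h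
  have h2 : ∀ g : G, (if ConjClasses.mk g = ConjClasses.mk h then
      (Nat.card (Subgroup.centralizer ({g} : Set G)) : ℂ) else 0) =
      (if IsConj g h then (Nat.card (Subgroup.centralizer ({g} : Set G)) : ℂ) else 0) := by
    intro g
    simp only [ConjClasses.mk_eq_mk_iff_isConj]
  simp_rw [h2]
  rw [h1]
  have := Helper2.card_conj_mul_card_centralizer h
  exact_mod_cast this

/-- Let a group A act on the set of irreducible characters and on the set of conjugacy classes of a finite group G in such a way that (a • χ) evaluated on the class a • C equals χ evaluated on C, for all a, χ and C. Then every element of A fixes exactly as many irreducible characters as it fixes conjugacy classes. -/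
theorem result {G : Type*} [Group G] [Finite G] {A : Type*} [Group A] [MulAction A (Cfsg.IrrCharacter G)] [MulAction A (ConjClasses G)] (hcompat : ∀ (a : A) (χ : Cfsg.IrrCharacter G) (g g' : G), ConjClasses.mk g' = a • ConjClasses.mk g → ((a • χ : Cfsg.IrrCharacter G) : G → ℂ) g' = (χ : G → ℂ) g) (a : A) : Nat.card {χ : Cfsg.IrrCharacter G // a • χ = χ} = Nat.card {C : ConjClasses G // a • C = C} := by
  classical
  have := Fintype.ofFinite G
  have := Helper24.finite_irrCharacter (G := G)
  have := Fintype.ofFinite (IrrCharacter G)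
  have := Fintype.ofFinite (ConjClasses G)
  have hG0 : (Nat.card G : ℂ) ≠ 0 := by exact_mod_cast (Nat.card_pos (α := G)).ne'
  have hL : (Nat.card {χ : IrrCharacter G // a • χ = χ} : ℂ) =
      ∑ χ : IrrCharacter G, classInner ((a • χ : IrrCharacter G) : G → ℂ) (χ : G → ℂ) := by
    rw [Nat.card_eq_fintype_card, Fintype.card_subtype, Finset.card_filter]
    push_cast
    refine Finset.sum_congr rfl fun χ _ => ?_
    rw [Helper2.classInner_irr (a • χ).2 χ.2]
    simp only [Subtype.ext_iff]
  have hR : (Nat.card {C : ConjClasses G // a • C = C} : ℂ) =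
      ∑ C : ConjClasses G, if a • C = C then (1 : ℂ) else 0 := by
    rw [Nat.card_eq_fintype_card, Fintype.card_subtype, Finset.card_filter]
    push_cast
    rfl
  apply Nat.cast_injective (R := ℂ)
  rw [hL, hR]
  -- column orthogonality
  have hcol : ∀ g : G, ∑ χ : IrrCharacter G,
      ((a • χ : IrrCharacter G) : G → ℂ) g * conj ((χ : G → ℂ) g) =
      if a • ConjClasses.mk g = ConjClasses.mk g then
        (Nat.card (Subgroup.centralizer ({g} : Set G)) : ℂ) else 0 := by
    intro g
    obtain ⟨g₀, hg₀⟩ := ConjClasses.mk_surjective (a⁻¹ • ConjClasses.mk g)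
    have hg : ConjClasses.mk g = a • ConjClasses.mk g₀ := by
      rw [hg₀, smul_inv_smul]
    have h1 : ∀ χ : IrrCharacter G, ((a • χ : IrrCharacter G) : G → ℂ) g = (χ : G → ℂ) g₀ :=
      fun χ => hcompat a χ g₀ g hg
    simp_rw [h1]
    have hco := S0145.result g₀ g
    rw [finsum_eq_sum_of_fintype] at hco
    have hiff : IsConj g₀ g ↔ a • ConjClasses.mk g = ConjClasses.mk g := by
      rw [← ConjClasses.mk_eq_mk_iff_isConj, hg₀]
      constructor
      · intro h
        have := congrArg (fun C => a • C) h
        simp only [smul_inv_smul] at this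
        exact this.symm
      · intro h
        rw [inv_smul_eq_iff]
        exact h.symm
    by_cases hc : IsConj g₀ g
    · rw [if_pos (hiff.mp hc), hco.1 hc, Helper2.card_centralizer_eq_of_isConj hc]
    · rw [if_neg (fun h => hc (hiff.mpr h)), hco.2 hc]
  -- assemble
  have hsum : ∑ χ : IrrCharacter G, classInner ((a • χ : IrrCharacter G) : G → ℂ) (χ : G → ℂ) =
      (Nat.card G : ℂ)⁻¹ * ∑ g : G, (if a • ConjClasses.mk g = ConjClasses.mk g then
        (Nat.card (Subgroup.centralizer ({g} : Set G)) : ℂ) else 0) := by
    unfold classInner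
    rw [← Finset.mul_sum, Finset.sum_comm]
    congr 1
    exact Finset.sum_congr rfl fun g _ => hcol g
  rw [hsum]
  have hfib : ∑ g : G, (if a • ConjClasses.mk g = ConjClasses.mk g then
        (Nat.card (Subgroup.centralizer ({g} : Set G)) : ℂ) else 0) =
      ∑ C : ConjClasses G, if a • C = C then (Nat.card G : ℂ) else 0 := by
    rw [← Finset.sum_fiberwise Finset.univ (fun g : G => ConjClasses.mk g)]
    refine Finset.sum_congr rfl fun C _ => ?_
    by_cases hC : a • C = C
    · rw [if_pos hC, ← sum_card_centralizer_class C]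
      refine Finset.sum_congr rfl fun g hg => ?_
      rw [Finset.mem_filter] at hg
      rw [hg.2, if_pos hC]
    · rw [if_neg hC]
      apply Finset.sum_eq_zero
      intro g hg
      rw [Finset.mem_filter] at hg
      rw [hg.2, if_neg hC]
  rw [hfib, Finset.mul_sum]
  refine Finset.sum_congr rfl fun C _ => ?_
  split_ifs
  · exact inv_mul_cancel₀ hG0
  · exact mul_zero _

end Cfsg.Agent.S0860
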