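import Cfsg.Statements.S0861
import Cfsg.Agent.Helper6.PElemChar
import Cfsg.Agent.Helper6.Inflate
import Cfsg.Agent.Helper25.CharZeros
import Cfsg.Agent.Helper2.CharOrtho

set_option autoImplicit false
open Cfsg

namespace Cfsg.Agent.S0861

open Cfsg.Agent Cfsg.Agent.Helper6 in
/-- Let P be a normal abelian Sylow p-subgroup of the finite group G and suppose some element g of P has centralizer exactly P. Then the number of irreducible characters of G is at most the order of P, and if equality holds then G / P is abelian (the commutator subgroup lies in P). -/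
theorem result {G : Type*} [Group G] [Finite G] (p : ℕ) [Fact p.Prime] (P : Sylow p G) [(P : Subgroup G).Normal] (hab : ∀ a ∈ P, ∀ b ∈ P, a * b = b * a) (g : G) (hg : g ∈ P) (hC : Subgroup.centralizer ({g} : Set G) = P) : Nat.card (Cfsg.IrrCharacter G) ≤ Nat.card P ∧ (Nat.card (Cfsg.IrrCharacter G) = Nat.card P → commutator G ≤ P) := by
  classical
  have := Fintype.ofFinite G
  have := Helper24.finite_irrCharacter (G := G)
  have := Fintype.ofFinite (IrrCharacter G)
  have hp := (Fact.out : p.Prime)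
  let S : Set G := {x | x ∈ (P : Subgroup G) ∧ Subgroup.centralizer ({x} : Set G) = P}
  have hgS : g ∈ S := ⟨hg, hC⟩
  have hSpow : ∀ (x : G) (k : ℕ), k.Coprime (Nat.card G) → (x ^ k ∈ S ↔ x ∈ S) := by
    intro x k hk
    have hcent : Subgroup.centralizer ({x ^ k} : Set G) = Subgroup.centralizer ({x} : Set G) := by
      obtain ⟨m, hm⟩ := exists_pow_eq_self_of_coprime
        (Nat.Coprime.coprime_dvd_right (orderOf_dvd_natCard x) hk)
      ext y
      rw [Subgroup.mem_centralizer_singleton_iff, Subgroup.mem_centralizer_singleton_iff]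
      constructor
      · intro h
        have h1 : Commute y (x ^ k) := h
        have h2 : Commute y ((x ^ k) ^ m) := h1.pow_right m
        rw [hm] at h2
        exact h2
      · intro h
        have h1 : Commute y x := h
        exact h1.pow_right k
    constructor
    · rintro ⟨h1, h2⟩
      exact ⟨(Helper25.pow_coprime_mem_iff _ x k hk).mp h1, hcent ▸ h2⟩
    · rintro ⟨h1, h2⟩
      exact ⟨(Helper25.pow_coprime_mem_iff _ x k hk).mpr h1, hcent.trans h2⟩
  obtain ⟨a, ha⟩ := IsPGroup.exists_card_eq P.2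
  have hnz : ∀ (χ : G → ℂ), IsIrrCharacter G χ → ∀ x ∈ S, χ x ≠ 0 := by
    intro χ hχ x hx
    have hdvd := ito_dvd (P : Subgroup G) hab hχ
    have hnd : ¬ p ∣ charDegree χ := fun h => (Sylow.not_dvd_index P) (h.trans hdvd)
    have hxp : x ^ (p ^ a) = 1 := by
      have h1 := pow_card_eq_one' (G := (P : Subgroup G)) (x := ⟨x, hx.1⟩)
      rw [ha] at h1
      exact congrArg Subtype.val h1
    exact char_ne_zero_of_pow_prime_pow (Helper24.isCharacter_of_irr hχ) p hp a x hxp hnd
  have hB : ∀ (χ : G → ℂ), IsIrrCharacter G χ →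
      0 ≤ ∑ x : G, (if x ∈ S then ‖χ x‖ ^ 2 - 1 else 0) := by
    intro χ hχ
    apply Helper25.char_sum_normSq_sub_one_nonneg (Helper24.isCharacter_of_irr hχ) S hSpow
    · intro x hx _
      rw [if_pos hx]
    · intro x hx
      rw [if_neg]
      intro hxS
      exact hx ⟨hxS, hnz χ hχ x hxS⟩
  have hso : ∀ x ∈ S, ∑ χ : IrrCharacter G, ‖(χ : G → ℂ) x‖ ^ 2 = (Nat.card P : ℝ) := by
    intro x hx
    have h := Helper2.second_orthogonality (G := G) x x
    rw [if_pos (IsConj.refl x), hx.2] at h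
    have h2 : ((∑ χ : IrrCharacter G, ‖(χ : G → ℂ) x‖ ^ 2 : ℝ) : ℂ) = (Nat.card P : ℂ) := by
      rw [← h]
      push_cast
      apply Finset.sum_congr rfl
      intro χ _
      rw [Complex.mul_conj, Complex.normSq_eq_norm_sq]
      push_cast
      rfl
    exact_mod_cast h2
  have hScard : 0 < (Finset.univ.filter (fun x : G => x ∈ S)).card :=
    Finset.card_pos.mpr ⟨g, by simp [hgS]⟩
  obtain ⟨s, hs⟩ : ∃ s : ℕ, s = (Finset.univ.filter (fun x : G => x ∈ S)).card := ⟨_, rfl⟩
  have htotal : ∑ χ : IrrCharacter G, ∑ x : G, (if x ∈ S then ‖(χ : G → ℂ) x‖ ^ 2 - 1 else 0) =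
      (s : ℝ) * (Nat.card P : ℝ) - (s : ℝ) * (Fintype.card (IrrCharacter G) : ℝ) := by
    rw [Finset.sum_comm]
    have h1 : ∀ x : G, ∑ χ : IrrCharacter G, (if x ∈ S then ‖(χ : G → ℂ) x‖ ^ 2 - 1 else 0) =
        if x ∈ S then (Nat.card P : ℝ) - Fintype.card (IrrCharacter G) else 0 := by
      intro x
      split_ifs with hx
      · rw [Finset.sum_sub_distrib, hso x hx, Finset.sum_const, Finset.card_univ, nsmul_eq_mul,
          mul_one]
      · simp
    rw [Finset.sum_congr rfl (fun x _ => h1 x), ← Finset.sum_filter, Finset.sum_const,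
      nsmul_eq_mul, ← hs]
    ring
  have hnonneg : 0 ≤ (s : ℝ) * (Nat.card P : ℝ) -
      (s : ℝ) * (Fintype.card (IrrCharacter G) : ℝ) := by
    rw [← htotal]
    exact Finset.sum_nonneg (fun χ _ => hB χ χ.2)
  have hs0 : (0 : ℝ) < s := by
    rw [hs]
    exact_mod_cast hScard
  have hle : (Fintype.card (IrrCharacter G) : ℝ) ≤ (Nat.card P : ℝ) := by nlinarith
  constructor
  · rw [Nat.card_eq_fintype_card]
    exact_mod_cast hle
  · intro heq
    have heq' : (Fintype.card (IrrCharacter G) : ℝ) = (Nat.card P : ℝ) := by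
      rw [← heq, Nat.card_eq_fintype_card]
    have hzero : ∀ χ : IrrCharacter G,
        ∑ x : G, (if x ∈ S then ‖(χ : G → ℂ) x‖ ^ 2 - 1 else 0) = 0 := by
      have hsum0 : ∑ χ : IrrCharacter G,
          ∑ x : G, (if x ∈ S then ‖(χ : G → ℂ) x‖ ^ 2 - 1 else 0) = 0 := by
        rw [htotal, heq']
        ring
      intro χ
      exact (Finset.sum_eq_zero_iff_of_nonneg
        (fun (χ : IrrCharacter G) _ => hB χ.1 χ.2)).mp hsum0 χ (Finset.mem_univ χ)
    have hlin : ∀ ψ : IrrCharacter (G ⧸ (P : Subgroup G)),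
        (ψ : G ⧸ (P : Subgroup G) → ℂ) 1 = 1 := by
      intro ψ
      have hχ : IsIrrCharacter G
          ((ψ : G ⧸ (P : Subgroup G) → ℂ) ∘ (QuotientGroup.mk' (P : Subgroup G))) :=
        isIrrCharacter_comp_surjective (QuotientGroup.mk' (P : Subgroup G))
          (QuotientGroup.mk'_surjective _) ψ.2
      have h : ∑ x : G, (if x ∈ S then ‖((ψ : G ⧸ (P : Subgroup G) → ℂ) ∘
          (QuotientGroup.mk' (P : Subgroup G))) x‖ ^ 2 - 1 else 0) = 0 := hzero ⟨_, hχ⟩
      have hval : ∀ x ∈ S, ((ψ : G ⧸ (P : Subgroup G) → ℂ) ∘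
          (QuotientGroup.mk' (P : Subgroup G))) x = (ψ : G ⧸ (P : Subgroup G) → ℂ) 1 := by
        intro x hx
        show (ψ : G ⧸ (P : Subgroup G) → ℂ) (x : G ⧸ (P : Subgroup G)) = _
        rw [(QuotientGroup.eq_one_iff x).mpr hx.1]
      have h' : (s : ℝ) * (‖(ψ : G ⧸ (P : Subgroup G) → ℂ) 1‖ ^ 2 - 1) = 0 := by
        rw [← h, ← Finset.sum_filter, hs, ← nsmul_eq_mul, ← Finset.sum_const]
        apply Finset.sum_congr rfl
        intro x hx
        rw [hval x (Finset.mem_filter.mp hx).2]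
      have h'' : ‖(ψ : G ⧸ (P : Subgroup G) → ℂ) 1‖ ^ 2 = 1 := by
        rcases mul_eq_zero.mp h' with h3 | h3
        · exact absurd h3 hs0.ne'
        · linarith
      have hd := Helper24.charDegree_spec (Helper24.isCharacter_of_irr ψ.2)
      rw [hd] at h'' ⊢
      rw [Complex.norm_natCast] at h''
      have h4 : (charDegree (ψ : G ⧸ (P : Subgroup G) → ℂ)) ^ 2 = 1 := by exact_mod_cast h''
      have h5 : charDegree (ψ : G ⧸ (P : Subgroup G) → ℂ) = 1 := by nlinarith
      rw [h5, Nat.cast_one]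
    have hcomm := comm_of_all_linear hlin
    rw [commutator_def, Subgroup.commutator_le]
    intro a _ b _
    rw [← QuotientGroup.eq_one_iff, commutatorElement_def]
    have h1 := hcomm (a : G ⧸ (P : Subgroup G)) (b : G ⧸ (P : Subgroup G))
    rw [QuotientGroup.mk_mul, QuotientGroup.mk_mul, QuotientGroup.mk_mul, QuotientGroup.mk_inv,
      QuotientGroup.mk_inv, h1]
    group

end Cfsg.Agent.S0861
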