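import Cfsg.Statements.S0868
import Cfsg.Agent.Helper6.Kernel
import Cfsg.Agent.Helper2.CharLinear
import Cfsg.Agent.S0856

set_option autoImplicit false
open scoped ComplexConjugate
open Cfsg

namespace Cfsg.Agent.S0868

open Cfsg.Agent

/-- Let N be a normal subgroup of the finite group G, χ an irreducible character of G whose restriction ϑ to N is irreducible, and ψ an irreducible character of G. Define η on G by η g = (1 / order of N) * Σ over n in N of ψ (n * g) * conj (χ (n * g)). Then: if the restriction of ψ to N has nonzero inner product with ϑ, η is an irreducible character of G; if that inner product is zero, η vanishes identically; and if ψ = χ then η is identically 1. -/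
theorem result {G : Type*} [Group G] [Fintype G] (N : Subgroup G) [N.Normal] [Fintype N] (χ : G → ℂ) (hχ : Cfsg.IsIrrCharacter G χ) (hχN : Cfsg.IsIrrCharacter N (fun n : N => χ n)) (ψ : G → ℂ) (hψ : Cfsg.IsIrrCharacter G ψ) (η : G → ℂ) (hη : η = fun g => (Nat.card N : ℂ)⁻¹ * ∑ n : N, ψ ((n : G) * g) * conj (χ ((n : G) * g))) : (Cfsg.classInner (fun n : N => ψ n) (fun n : N => χ n) ≠ 0 → Cfsg.IsIrrCharacter G η) ∧ (Cfsg.classInner (fun n : N => ψ n) (fun n : N => χ n) = 0 → η = 0) ∧ (ψ = χ → η = fun _ => 1) := by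
  classical
  have := Helper24.finite_irrCharacter (G := G)
  have := Fintype.ofFinite (IrrCharacter G)
  have hχc := Helper24.isCharacter_of_irr hχ
  have hψc := Helper24.isCharacter_of_irr hψ
  have hχcf := Helper2.IsIrrCharacter.isClassFunction hχ
  have hψcf := Helper2.IsIrrCharacter.isClassFunction hψ
  have hN0 : (Nat.card N : ℂ) ≠ 0 := by exact_mod_cast (Nat.card_pos (α := N)).ne'
  have hone : IsIrrCharacter N (fun _ : N => (1 : ℂ)) := Helper2.isIrrCharacter_one_fun
  have honeG : IsIrrCharacter G (fun _ : G => (1 : ℂ)) := Helper2.isIrrCharacter_one_fun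
  have honeϑ : (fun _ : N => (1 : ℂ)) * (fun n : N => χ n) = (fun n : N => χ n) := by
    funext n; simp
  have hbij := S0856.result N (fun _ => 1) (fun n : N => χ n) hone hχN (fun _ _ => rfl)
    (fun g n => hχcf (n : G) g) (by rw [honeϑ]; exact hχN) χ hχ (fun n => rfl)
  rw [honeϑ] at hbij
  obtain ⟨hmaps, hinj, hsurj⟩ := hbij
  -- characterization of the source set
  have hA : ∀ β : G → ℂ, IsIrrCharacter G β →
      (classInner (indFun N (fun _ : N => (1 : ℂ))) β ≠ 0 ↔ ∀ x ∈ N, β x = β 1) := by
    intro β hβ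
    rw [Helper6.classInner_indFun_eq N (Helper24.isCharacter_of_irr hone)
      (Helper24.isCharacter_of_irr hβ)]
    unfold classInner
    constructor
    · intro hne
      by_contra hcon
      push Not at hcon
      apply hne
      have h0 := Helper25.irr_sum_normal_mul_eq_zero hβ N hcon 1
      have : ∑ n : N, β (n : G) * conj (1 : ℂ) = 0 := by
        rw [← h0]
        refine Finset.sum_congr rfl fun n _ => ?_
        simp
      rw [this, mul_zero]
    · intro hk
      have : ∑ n : N, β (n : G) * conj (1 : ℂ) = (Nat.card N : ℂ) * β 1 := by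
        rw [Finset.sum_congr rfl (fun n _ => by rw [hk n n.2, map_one, mul_one]),
          Finset.sum_const, Finset.card_univ, nsmul_eq_mul, Nat.card_eq_fintype_card]
      rw [this, ← mul_assoc, inv_mul_cancel₀ hN0, one_mul]
      obtain ⟨d, hd, hd'⟩ := Helper10.irr_one_eq hβ
      rw [hd']
      exact_mod_cast hd.ne'
  -- coset invariance of η
  have hηinv : ∀ (m : N) (g : G), η ((m : G) * g) = η g := by
    intro m g
    rw [hη]
    dsimp only
    congr 1
    rw [← Equiv.sum_comp (Equiv.mulRight m)
      (fun n : N => ψ ((n : G) * g) * conj (χ ((n : G) * g)))]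
    refine Finset.sum_congr rfl fun n _ => ?_
    rw [Equiv.coe_mulRight, Subgroup.coe_mul, mul_assoc]
  have hηcf : IsClassFunction G η := by
    intro g h
    rw [hη]
    dsimp only
    congr 1
    rw [← Equiv.sum_comp (MulAut.conjNormal h : N ≃* N).toEquiv]
    refine Finset.sum_congr rfl fun n _ => ?_
    have e : ((MulAut.conjNormal h : N ≃* N).toEquiv n : G) * (h * g * h⁻¹) =
        h * ((n : G) * g) * h⁻¹ := by
      simp only [MulEquiv.toEquiv_eq_coe, EquivLike.coe_coe, MulAut.conjNormal_apply]
      group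
    rw [e, hψcf, hχcf]
  -- inner products of η with irreducible characters
  have hinner : ∀ β : G → ℂ, IsIrrCharacter G β → classInner η β =
      if (∀ x ∈ N, β x = β 1) then classInner ψ (β * χ) else 0 := by
    intro β hβ
    split_ifs with hk
    · rw [hη]
      apply Helper6.classInner_cosetAvg N ψ χ β
      intro m g
      exact Helper6.char_mul_of_eq_degree (Helper24.isCharacter_of_irr hβ) (hk m m.2) g
    · push Not at hk
      exact Helper6.classInner_eq_zero_of_not_ker N η β hηinv hβ hk
  have hexp := Helper2.class_fn_expansion hηcf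
  -- case ψ over ϑ
  have hcase1 : ∀ β₀ : G → ℂ, IsIrrCharacter G β₀ → (∀ x ∈ N, β₀ x = β₀ 1) → β₀ * χ = ψ →
      η = β₀ := by
    intro β₀ hβ₀ hk₀ heq
    have hβ₀A : β₀ ∈ {β : G → ℂ | IsIrrCharacter G β ∧
        classInner (indFun N (fun _ : N => (1 : ℂ))) β ≠ 0} := ⟨hβ₀, (hA β₀ hβ₀).mpr hk₀⟩
    rw [hexp, Finset.sum_eq_single (⟨β₀, hβ₀⟩ : IrrCharacter G)]
    · rw [hinner β₀ hβ₀, if_pos hk₀, heq, Helper2.classInner_irr hψ hψ, if_pos rfl, one_smul]
    · intro β _ hne
      rw [hinner β β.2]
      split_ifs with hk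
      · have hβA : (β : G → ℂ) ∈ {β : G → ℂ | IsIrrCharacter G β ∧
            classInner (indFun N (fun _ : N => (1 : ℂ))) β ≠ 0} := ⟨β.2, (hA β β.2).mpr hk⟩
        have hirr := (hmaps hβA).1
        rw [Helper2.classInner_irr hψ hirr, if_neg, zero_smul]
        intro h
        apply hne
        apply Subtype.ext
        apply hinj hβA hβ₀A
        show (β : G → ℂ) * χ = β₀ * χ
        rw [heq, h]
      · rw [zero_smul]
    · intro h; exact absurd (Finset.mem_univ _) h
  refine ⟨?_, ?_, ?_⟩
  · intro hne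
    have hψB : ψ ∈ {ψ : G → ℂ | IsIrrCharacter G ψ ∧
        classInner (indFun N (fun n : N => χ n)) ψ ≠ 0} := by
      refine ⟨hψ, ?_⟩
      rw [Helper6.classInner_indFun_eq N (Helper24.isCharacter_of_irr hχN) hψc]
      exact hne
    obtain ⟨β₀, ⟨hβ₀, hβ₀ne⟩, heq⟩ := hsurj hψB
    rw [hcase1 β₀ hβ₀ ((hA β₀ hβ₀).mp hβ₀ne) heq]
    exact hβ₀
  · intro h0
    rw [hexp]
    apply Finset.sum_eq_zero
    intro β _
    rw [hinner β β.2]
    split_ifs with hk
    · have hβA : (β : G → ℂ) ∈ {β : G → ℂ | IsIrrCharacter G β ∧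
          classInner (indFun N (fun _ : N => (1 : ℂ))) β ≠ 0} := ⟨β.2, (hA β β.2).mpr hk⟩
      have hirr := (hmaps hβA).1
      rw [Helper2.classInner_irr hψ hirr, if_neg, zero_smul]
      intro h
      -- ψ = β * χ lies over ϑ
      have hne := (hmaps hβA).2
      apply hne
      show classInner (indFun N (fun n : N => χ n)) ((β : G → ℂ) * χ) = 0
      have h' : ψ = (β : G → ℂ) * χ := h
      rw [← h', Helper6.classInner_indFun_eq N (Helper24.isCharacter_of_irr hχN) hψc]
      exact h0
    · rw [zero_smul]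
  · intro heq
    apply hcase1 (fun _ => 1) honeG (fun _ _ => rfl)
    rw [heq]
    funext g
    simp

end Cfsg.Agent.S0868
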