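import Cfsg.Statements.S0869
import Mathlib

set_option autoImplicit false
open Cfsg

namespace Cfsg.Agent.S0869

/-- Let S be a nonempty finite type and R an additive subgroup of the integer-valued functions on S that is closed under pointwise multiplication. If the constant function 1 is not in R, then there exist a point x of S and a prime p such that p divides f x for every f in R. -/
theorem result {S : Type*} [Finite S] [Nonempty S] (R : AddSubgroup (S → ℤ)) (hmul : ∀ f ∈ R, ∀ g ∈ R, f * g ∈ R) (h1 : (1 : S → ℤ) ∉ R) : ∃ (x : S) (p : ℕ), p.Prime ∧ ∀ f ∈ R, (p : ℤ) ∣ f x := by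
  classical
  cases nonempty_fintype S
  by_contra hcon
  push Not at hcon
  -- for each x there is f in R with f x = 1
  have hone : ∀ x : S, ∃ f ∈ R, f x = 1 := by
    intro x
    obtain ⟨a, ha⟩ := Int.subgroup_cyclic (AddSubgroup.map (Pi.evalAddMonoidHom (fun _ : S => ℤ) x) R)
    rw [← AddSubgroup.zmultiples_eq_closure] at ha
    have hdiv : ∀ f ∈ R, a ∣ f x := by
      intro f hf
      rw [← Int.mem_zmultiples_iff, ← ha]
      exact ⟨f, hf, rfl⟩
    have habs : a.natAbs = 1 := by
      by_contra hne
      obtain ⟨p, hp, hpa⟩ := Nat.exists_prime_and_dvd hne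
      obtain ⟨f, hf, hfx⟩ := hcon x p hp
      apply hfx
      exact (Int.natCast_dvd.mpr hpa).trans (hdiv f hf)
    have hmem : a ∈ AddSubgroup.map (Pi.evalAddMonoidHom (fun _ : S => ℤ) x) R := by
      rw [ha]; exact AddSubgroup.mem_zmultiples a
    obtain ⟨f, hf, hfx⟩ := hmem
    refine ⟨f * f, hmul f hf f hf, ?_⟩
    have hfx' : f x = a := hfx
    rw [Pi.mul_apply, hfx']
    rcases Int.natAbs_eq a with h | h
    · rw [h, habs]; norm_num
    · rw [h, habs]; norm_num
  choose f hf hfx using hone
  have key : ∀ T : Finset S, ∃ h : S → ℤ, (1 - h) ∈ R ∧ ∀ x ∈ T, h x = 0 := by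
    intro T
    induction T using Finset.induction_on with
    | empty => exact ⟨1, by simpa using R.zero_mem, by simp⟩
    | insert a T _ ih =>
      obtain ⟨h, hh, hT⟩ := ih
      refine ⟨h * (1 - f a), ?_, ?_⟩
      · have e : 1 - h * (1 - f a) = (1 - h) + f a - (1 - h) * f a := by ring
        rw [e]
        exact R.sub_mem (R.add_mem hh (hf a)) (hmul _ hh _ (hf a))
      · intro x hx
        rcases Finset.mem_insert.mp hx with rfl | hx
        · simp [hfx]
        · simp [hT x hx]
  obtain ⟨h, hh, hT⟩ := key Finset.univ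
  have h0 : h = 0 := by
    funext x
    exact hT x (Finset.mem_univ x)
  rw [h0, sub_zero] at hh
  exact h1 hh

end Cfsg.Agent.S0869
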