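import Cfsg.Statements.S0873
import Cfsg.Agent.Helper6.LinChar

set_option autoImplicit false
open Cfsg

namespace Cfsg.Agent.S0873

open Cfsg.Agent.Helper6

/-- Let C be a normal subgroup of the finite group G of order prime to p and P a p-subgroup with C ⊔ P = G. Let λ be a character of C of degree 1 invariant under conjugation by G and equal to 1 at every element of C centralized by P. Then λ is identically 1. -/
theorem result {G : Type*} [Group G] [Finite G] (p : ℕ) [Fact p.Prime] (C P : Subgroup G) [hC : C.Normal] (hP : IsPGroup p P) (hcop : Nat.Coprime (Nat.card C) p) (hCP : C ⊔ P = ⊤) (lam : C → ℂ) (hlam : Cfsg.IsCharacter C lam ∧ lam 1 = 1) (hinv : ∀ (g : G) (c : C), lam ⟨g * c * g⁻¹, hC.conj_mem (c : G) c.2 g⟩ = lam c) (hker : ∀ c : C, (c : G) ∈ Subgroup.centralizer (P : Set G) → lam c = 1) : lam = fun _ => 1 := by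
  have hmul := linear_char_mul lam hlam.1 hlam.2
  have hp : p.Prime := Fact.out
  funext c
  -- the action of P on the fiber of lam through c
  letI : MulAction P {d : C // lam d = lam c} :=
    { smul := fun x d => ⟨⟨(x : G) * (d.1 : G) * (x : G)⁻¹, hC.conj_mem (d.1 : G) d.1.2 x⟩,
        (hinv x d.1).trans d.2⟩
      one_smul := by
        intro d
        apply Subtype.ext
        apply Subtype.ext
        show ((1 : P) : G) * (d.1 : G) * ((1 : P) : G)⁻¹ = (d.1 : G)
        simp
      mul_smul := by
        intro x y d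
        apply Subtype.ext
        apply Subtype.ext
        show ((x * y : P) : G) * (d.1 : G) * ((x * y : P) : G)⁻¹ =
          (x : G) * ((y : G) * (d.1 : G) * (y : G)⁻¹) * (x : G)⁻¹
        simp [mul_assoc] }
  have hmod := hP.card_modEq_card_fixedPoints {d : C // lam d = lam c}
  rw [card_fiber_eq lam hlam.2 hmul c] at hmod
  have hKdvd : Nat.card (linKer lam hlam.2 hmul) ∣ Nat.card C := Subgroup.card_subgroup_dvd_card _
  have hne : (MulAction.fixedPoints P {d : C // lam d = lam c}).Nonempty := by
    by_contra hempty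
    rw [Set.not_nonempty_iff_eq_empty] at hempty
    rw [hempty, Nat.card_coe_set_eq, Set.ncard_empty] at hmod
    have hpd : p ∣ Nat.card (linKer lam hlam.2 hmul) := (Nat.modEq_zero_iff_dvd).mp hmod
    have hpC : p ∣ Nat.card C := hpd.trans hKdvd
    exact (Nat.Prime.coprime_iff_not_dvd hp).mp hcop.symm hpC
  obtain ⟨d, hd⟩ := hne
  rw [MulAction.mem_fixedPoints] at hd
  have hcent : (d.1 : G) ∈ Subgroup.centralizer (P : Set G) := by
    rw [Subgroup.mem_centralizer_iff]
    intro x hx
    have h1 := hd ⟨x, hx⟩
    have h2 : x * (d.1 : G) * x⁻¹ = (d.1 : G) := congrArg (fun e => ((e.1 : C) : G)) h1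
    calc x * (d.1 : G) = (x * (d.1 : G) * x⁻¹) * x := by group
      _ = (d.1 : G) * x := by rw [h2]
  rw [← d.2]
  exact hker d.1 hcent

end Cfsg.Agent.S0873
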