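import Cfsg.Statements.S0879
import Cfsg.Agent.Helper6.Zass

set_option autoImplicit false
open Cfsg

namespace Cfsg.Agent.S0879

open Cfsg.Agent Cfsg.Agent.Helper6 in
/-- Let G be a Zassenhaus group on the finite set Ω and E the stabilizer of two distinct points a, b. Then an element outside the normalizer of E conjugates no non-identity element of E into E, and E has index 2 in its normalizer. -/
theorem result {G Ω : Type*} [Group G] [Finite G] [MulAction G Ω] [Fintype Ω] (hZ : Cfsg.IsZassenhausGroup G Ω) {a b : Ω} (hab : a ≠ b) : (∀ g : G, g ∉ Subgroup.normalizer ((MulAction.stabilizer G a ⊓ MulAction.stabilizer G b : Subgroup G) : Set G) → ∀ x ∈ (MulAction.stabilizer G a ⊓ MulAction.stabilizer G b : Subgroup G), g * x * g⁻¹ ∈ (MulAction.stabilizer G a ⊓ MulAction.stabilizer G b : Subgroup G) → x = 1) ∧ ((MulAction.stabilizer G a ⊓ MulAction.stabilizer G b : Subgroup G).subgroupOf (Subgroup.normalizer ((MulAction.stabilizer G a ⊓ MulAction.stabilizer G b : Subgroup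 G) : Set G))).index = 2 := by
  classical
  have h2 : Zass.TwoTrans G Ω := Zass.zass_twoTrans hZ
  have h3 := Zass.zass_noThree hZ
  have hE : ∀ g : G, g ∈ (MulAction.stabilizer G a ⊓ MulAction.stabilizer G b : Subgroup G)
      ↔ g • a = a ∧ g • b = b := fun g => by
    rw [Subgroup.mem_inf, MulAction.mem_stabilizer_iff, MulAction.mem_stabilizer_iff]
  have hconj : ∀ g h : G, ∀ c : Ω, (g * h * g⁻¹) • c = c ↔ h • (g⁻¹ • c) = g⁻¹ • c := by
    intro g h c
    rw [mul_smul, mul_smul, eq_inv_smul_iff]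
  -- F1: setwise stabilizer is in the normalizer
  have F1 : ∀ g : G, (g • a = a ∧ g • b = b) ∨ (g • a = b ∧ g • b = a) →
      g ∈ Subgroup.normalizer
        ((MulAction.stabilizer G a ⊓ MulAction.stabilizer G b : Subgroup G) : Set G) := by
    intro g hg
    rw [Subgroup.mem_normalizer_iff]
    intro h
    rw [hE, hE, hconj, hconj]
    rcases hg with ⟨hga, hgb⟩ | ⟨hga, hgb⟩
    · have h1 : g⁻¹ • a = a := by rw [inv_smul_eq_iff, hga]
      have h2' : g⁻¹ • b = b := by rw [inv_smul_eq_iff, hgb]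
      rw [h1, h2']
    · have h1 : g⁻¹ • a = b := by rw [inv_smul_eq_iff, hgb]
      have h2' : g⁻¹ • b = a := by rw [inv_smul_eq_iff, hga]
      rw [h1, h2']
      exact and_comm
  -- F2
  have F2 : ∀ g x : G, x ≠ 1 →
      x ∈ (MulAction.stabilizer G a ⊓ MulAction.stabilizer G b : Subgroup G) →
      g * x * g⁻¹ ∈ (MulAction.stabilizer G a ⊓ MulAction.stabilizer G b : Subgroup G) →
      (g • a = a ∧ g • b = b) ∨ (g • a = b ∧ g • b = a) := by
    intro g x hx1 hx hgx
    rw [hE] at hx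
    rw [hE, hconj, hconj] at hgx
    have hfix : ∀ c : Ω, x • c = c → c = a ∨ c = b := by
      intro c hc
      by_contra hcon
      push Not at hcon
      exact hx1 (h3 x a b c hab (Ne.symm hcon.2) (Ne.symm hcon.1) hx.1 hx.2 hc)
    have hne : g⁻¹ • a ≠ g⁻¹ • b := fun h => hab (smul_left_cancel g⁻¹ h)
    rcases hfix _ hgx.1 with h1 | h1 <;> rcases hfix _ hgx.2 with h2' | h2'
    · exact absurd (h1.trans h2'.symm) hne
    · left
      rw [inv_smul_eq_iff] at h1 h2'
      exact ⟨h1.symm, h2'.symm⟩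
    · right
      rw [inv_smul_eq_iff] at h1 h2'
      exact ⟨h2'.symm, h1.symm⟩
    · exact absurd (h1.trans h2'.symm) hne
  refine ⟨?_, ?_⟩
  · intro g hg x hx hgx
    by_contra hx1
    exact hg (F1 g (F2 g x hx1 hx hgx))
  · obtain ⟨x, hx1, hxa, hxb⟩ := Zass.zass_exists_tps_ne_one hZ hab
    have hxE : x ∈ (MulAction.stabilizer G a ⊓ MulAction.stabilizer G b : Subgroup G) :=
      (hE x).mpr ⟨hxa, hxb⟩
    obtain ⟨t, hta, htb⟩ := h2 hab (Ne.symm hab)
    have htN := F1 t (Or.inr ⟨hta, htb⟩)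
    rw [Subgroup.index_eq_two_iff]
    refine ⟨⟨t, htN⟩, ?_⟩
    rintro ⟨g, hg⟩
    rw [Subgroup.mem_subgroupOf, Subgroup.mem_subgroupOf]
    have hgx := (Subgroup.mem_normalizer_iff.mp hg x).mp hxE
    simp only [Subgroup.coe_mul]
    rw [hE, hE, mul_smul, mul_smul, hta, htb]
    rcases F2 g x hx1 hxE hgx with ⟨hga, hgb⟩ | ⟨hga, hgb⟩
    · right
      refine ⟨⟨hga, hgb⟩, ?_⟩
      rw [hgb]
      intro h
      exact hab h.1.symm
    · left
      refine ⟨⟨hgb, hga⟩, ?_⟩
      rw [hga]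
      intro h
      exact hab h.1.symm

end Cfsg.Agent.S0879
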