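import Cfsg.Statements.S0880
import Cfsg.Agent.Helper6.Zass

set_option autoImplicit false
open Cfsg

namespace Cfsg.Agent.S0880

open Cfsg.Agent Cfsg.Agent.Helper6 in
/-- Let G be a finite simple Zassenhaus group on Ω with n points whose two-point stabilizer E has odd order less than n - 2. Then there are two elements of G, each fixing no point of Ω, that are not conjugate. -/
theorem result {G Ω : Type*} [Group G] [Finite G] [MulAction G Ω] [Fintype Ω] (hZ : Cfsg.IsZassenhausGroup G Ω) {a b : Ω} (hab : a ≠ b) [IsSimpleGroup G] (hodd : Odd (Nat.card ↥(MulAction.stabilizer G a ⊓ MulAction.stabilizer G b : Subgroup G))) (hlt : Nat.card ↥(MulAction.stabilizer G a ⊓ MulAction.stabilizer G b : Subgroup G) < Fintype.card Ω - 2) : ∃ x y : G, (∀ c : Ω, x • c ≠ c) ∧ (∀ c : Ω, y • c ≠ c) ∧ ¬ IsConj x y := by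
  classical
  have h2 : Zass.TwoTrans G Ω := Zass.zass_twoTrans hZ
  have h3 := Zass.zass_noThree hZ
  have hn := Zass.zass_card_ge_three hZ
  have hcardG := Zass.card_group_eq h2 hab
  have hglob := Zass.global_count h2 h3 hab
  -- arithmetic core
  have arith : ∀ n k N : ℕ, 3 ≤ n → 1 ≤ k →
      2 * N + 2 + (n * n - n) = (n * n - n) * (2 * k + 1) + 2 * n →
      N ∣ (n * n - n) * (2 * k + 1) → False := by
    intro n k N hn hk h1 hdvd
    obtain ⟨m, rfl⟩ : ∃ m, n = m + 1 := ⟨n - 1, by omega⟩
    have e1 : (m + 1) * (m + 1) - (m + 1) = (m + 1) * m := by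
      rw [Nat.sub_eq_iff_eq_add (by nlinarith)]; ring
    rw [e1] at h1 hdvd
    have hN : N = m * ((m + 1) * k + 1) := by
      zify at h1 ⊢
      linarith
    rw [hN] at hdvd
    have e2 : (m + 1) * m * (2 * k + 1) = m * ((m + 1) * (2 * k + 1)) := by ring
    rw [e2] at hdvd
    have hm : 0 < m := by omega
    have hdvd2 := Nat.dvd_of_mul_dvd_mul_left hm hdvd
    have hcop : Nat.Coprime ((m + 1) * k + 1) (m + 1) := by
      simp [Nat.coprime_mul_right_add_left]
    have hdvd3 := hcop.dvd_of_dvd_mul_left hdvd2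
    have hle := Nat.le_of_dvd (by omega) hdvd3
    nlinarith
  -- the order of E
  obtain ⟨k, hk⟩ := hodd
  have hk1 : 1 ≤ k := by
    by_contra hcon
    have hk0 : k = 0 := by omega
    rw [hk0] at hk
    obtain ⟨x, hx1, hxa, hxb⟩ := Zass.zass_exists_tps_ne_one hZ hab
    have hbot := (Subgroup.card_eq_one).mp hk
    have : x ∈ (MulAction.stabilizer G a ⊓ MulAction.stabilizer G b : Subgroup G) := by
      rw [Subgroup.mem_inf, MulAction.mem_stabilizer_iff, MulAction.mem_stabilizer_iff]
      exact ⟨hxa, hxb⟩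
    rw [hbot, Subgroup.mem_bot] at this
    exact hx1 this
  rw [hk] at hcardG
  rw [hcardG] at hglob
  by_contra hcon
  push Not at hcon
  apply arith _ k _ hn hk1 hglob
  -- positivity
  have hpos : 0 < Nat.card {g : G // ∀ c : Ω, g • c ≠ c} := by
    by_contra h0
    have h0' : Nat.card {g : G // ∀ c : Ω, g • c ≠ c} = 0 := by omega
    rw [h0'] at hglob
    have : Fintype.card Ω * Fintype.card Ω - Fintype.card Ω ≥ 6 := by
      have : Fintype.card Ω * Fintype.card Ω ≥ 3 * Fintype.card Ω := Nat.mul_le_mul_right _ hn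
      omega
    nlinarith
  obtain ⟨⟨x, hx⟩⟩ := (Nat.card_pos_iff.mp hpos).1
  have hequiv : Nat.card {g : G // ∀ c : Ω, g • c ≠ c}
      = Nat.card (MulAction.orbit (ConjAct G) x) := by
    apply Nat.card_congr
    apply Equiv.subtypeEquivRight
    intro g
    rw [ConjAct.mem_orbit_conjAct]
    constructor
    · intro hg
      exact hcon g x hg hx
    · intro hgx c hc
      rw [isConj_iff] at hgx
      obtain ⟨t, ht⟩ := hgx
      apply hx (t • c)
      rw [← ht, mul_smul, mul_smul, inv_smul_smul, hc]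
  rw [hequiv, ← hcardG]
  have e := MulAction.orbitProdStabilizerEquivGroup (ConjAct G) x
  have hc : Nat.card (MulAction.orbit (ConjAct G) x)
      * Nat.card (MulAction.stabilizer (ConjAct G) x) = Nat.card G := by
    rw [← Nat.card_prod, Nat.card_congr e]
    rfl
  exact Dvd.intro _ hc

end Cfsg.Agent.S0880
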