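import Cfsg.Statements.S0881
import Cfsg.Agent.Helper6.ZassFocal
import Cfsg.Agent.Helper13.IndInner
import Cfsg.Agent.Helper24.MGroup
import Cfsg.Agent.Helper2.CharOrtho
import Cfsg.Agent.Helper2.CharNat
import Cfsg.Agent.S0878

set_option autoImplicit false
open Cfsg

namespace Cfsg.Agent.S0881

open Cfsg.Agent Cfsg.Agent.Helper6 in
/-- Let G be a finite simple Zassenhaus group on Ω with n points, a ≠ b points with two-point stabilizer E of odd order less than n - 2, and let H be the subgroup of the stabilizer of a consisting of the identity and the elements fixing no point other than a (given here as a subgroup of the stabilizer of order one less than the number of points whose non-identity elements fix only a; it is the Frobenius kernel of the stabilizer). Let μ be a character of degree 1 of the stabilizer of a that is identically 1 on H but not identically 1. Then the function induced from μ to G is an irreducible character of G, and it takes the value 1 at every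 non-identity element of H. -/
theorem result {G Ω : Type*} [Group G] [Fintype G] [MulAction G Ω] [Fintype Ω] (hZ : Cfsg.IsZassenhausGroup G Ω) {a b : Ω} (hab : a ≠ b) [IsSimpleGroup G] (hodd : Odd (Nat.card ↥(MulAction.stabilizer G a ⊓ MulAction.stabilizer G b : Subgroup G))) (hlt : Nat.card ↥(MulAction.stabilizer G a ⊓ MulAction.stabilizer G b : Subgroup G) < Fintype.card Ω - 2) (H : Subgroup G) (hHa : H ≤ MulAction.stabilizer G a) (hHcard : Nat.card H + 1 = Fintype.card Ω) (hHfix : ∀ u ∈ H, u ≠ 1 → ∀ c : Ω, u • c = c → c = a) (μ : MulAction.stabilizer G a → ℂ) (hμ : Cfsg.IsCharacter (MulAction.stabilizer G a) μ ∧ μ 1 = 1) (hμH : ∀ u : MulAction.stabilizer G a, (u : G) ∈ H → μ u = 1) (hμne : μ ≠ fun _ => 1) : Cfsg.IsIrrCharacter G (Cfsg.indFun (MulAction.stabilizer G a) μ) ∧ ∀ u ∈ H, u ≠ 1 → Cfsg.indFun (MulAction.stabilizer G a) μ u = 1 := by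
  classical
  haveI : Fintype ↥(MulAction.stabilizer G a) := Fintype.ofFinite _
  have h2 : Zass.TwoTrans G Ω := Zass.zass_twoTrans hZ
  have h3 := Zass.zass_noThree hZ
  have hst : ∀ g : G, g ∈ MulAction.stabilizer G a ↔ g • a = a :=
    fun g => MulAction.mem_stabilizer_iff
  obtain ⟨lam, hlam⟩ := Helper24.exists_hom_of_linear hμ.1 hμ.2
  -- class function
  have hμcl : ∀ y c : MulAction.stabilizer G a, μ (c * y * c⁻¹) = μ y := by
    intro y c
    rw [hlam, hlam, map_mul, map_mul, map_inv, mul_comm, inv_mul_cancel_left]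
  have hμmul : ∀ y z : MulAction.stabilizer G a, μ (y * z) = μ y * μ z := by
    intro y z
    rw [hlam, hlam, hlam, map_mul, Units.val_mul]
  -- norm one
  have hnorm : ∀ y : MulAction.stabilizer G a, μ y * (starRingEnd ℂ) (μ y) = 1 := by
    intro y
    rw [Complex.mul_conj']
    have : ‖μ y‖ = 1 := by
      rw [hlam]
      apply Complex.norm_eq_one_of_pow_eq_one (n := orderOf y) _ (orderOf_pos y).ne'
      rw [← Units.val_pow_eq_pow_val, ← map_pow, pow_orderOf_eq_one, map_one, Units.val_one]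
    rw [this]; simp
  obtain ⟨part1, hnormH⟩ := Cfsg.Agent.S0878.result hZ a H hHa hHcard hHfix
  -- the value on H
  have hval : ∀ u ∈ H, u ≠ 1 → Cfsg.indFun (MulAction.stabilizer G a) μ u = 1 := by
    intro u hu hu1
    rw [Helper2.indFun_apply]
    have hterm : ∀ x : G, Cfsg.extendByZero (MulAction.stabilizer G a) μ (x⁻¹ * u * x)
        = if x ∈ MulAction.stabilizer G a then 1 else 0 := by
      intro x
      split_ifs with hx
      · have hxinv : x⁻¹ ∈ Subgroup.normalizer (H : Set G) := by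
          rw [hnormH]; exact inv_mem hx
        have hmem : x⁻¹ * u * x ∈ H := by
          have := (Subgroup.mem_normalizer_iff.mp hxinv u).mp hu
          rwa [inv_inv] at this
        rw [Helper2.extendByZero_apply_mem _ _ (hHa hmem)]
        exact hμH ⟨_, hHa hmem⟩ hmem
      · apply Helper2.extendByZero_apply_not_mem
        intro hmem
        apply hx
        rw [hst, mul_smul, mul_smul, inv_smul_eq_iff] at hmem
        exact (hst x).mpr (hHfix u hu hu1 (x • a) hmem)
    rw [Finset.sum_congr rfl (fun x _ => hterm x), Finset.sum_boole]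
    have hc : (Finset.univ.filter (fun x : G => x ∈ MulAction.stabilizer G a)).card
        = Nat.card ↥(MulAction.stabilizer G a) := by
      rw [Nat.card_eq_fintype_card, Fintype.card_subtype]
    rw [hc]
    exact inv_mul_cancel₀ (by exact_mod_cast Nat.card_pos.ne')
  refine ⟨?_, hval⟩
  apply Helper2.isIrrCharacter_of_norm_one (Helper2.isCharacter_indFun _ hμ.1)
  obtain ⟨w, hwa, hwb⟩ := h2 hab (Ne.symm hab)
  have hwinvb : w⁻¹ • b = a := by rw [inv_smul_eq_iff, hwa]
  have hbruhat : ∀ x : G, x ∉ MulAction.stabilizer G a → ∃ b₁ ∈ MulAction.stabilizer G a,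
      ∃ b₂ ∈ MulAction.stabilizer G a, x = b₁ * w * b₂ := by
    intro x hx
    have hxa : a ≠ x • a := fun h => hx ((hst x).mpr h.symm)
    obtain ⟨b₁, hb1a, hb1b⟩ := h2 hab hxa
    refine ⟨b₁, (hst b₁).mpr hb1a, w⁻¹ * b₁⁻¹ * x, ?_, by group⟩
    rw [hst, mul_smul, mul_smul, inv_smul_eq_iff, inv_smul_eq_iff, hwa, hb1b]
  rw [Helper13.classInner_indFun_of_bruhat _ w hbruhat μ μ hμcl hμcl]
  have hinner : Cfsg.classInner μ μ = 1 := by
    unfold Cfsg.classInner
    rw [Finset.sum_congr rfl (fun y _ => hnorm y), Finset.sum_const, Finset.card_univ,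
      nsmul_eq_mul, mul_one, Nat.card_eq_fintype_card]
    exact inv_mul_cancel₀ (by exact_mod_cast Fintype.card_ne_zero)
  -- membership of w-conjugates
  have hwmem : ∀ y : G, y ∈ MulAction.stabilizer G a →
      (w⁻¹ * y * w ∈ MulAction.stabilizer G a ↔ y • b = b) := by
    intro y _
    rw [hst, mul_smul, mul_smul, hwa, inv_smul_eq_iff, hwa]
  -- a non-invariant element
  have hy0 : ∃ (y₀ : G) (hy : y₀ ∈ MulAction.stabilizer G a)
      (hyw : w⁻¹ * y₀ * w ∈ MulAction.stabilizer G a), μ ⟨w⁻¹ * y₀ * w, hyw⟩ ≠ μ ⟨y₀, hy⟩ := by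
    by_contra hcon
    push Not at hcon
    have htriv := Zass.tps_lam_trivial hZ hab hodd lam w hwa hwb (fun y hy hyw _ => by
      have := hcon y hy hyw
      rw [hlam, hlam] at this
      exact Units.ext this)
    apply hμne
    funext ⟨y, hy⟩
    by_cases hyH : y ∈ H
    · exact hμH ⟨y, hy⟩ hyH
    · have hy1 : y ≠ 1 := fun h => hyH (h ▸ H.one_mem)
      have hya : y • a = a := (hst y).mp hy
      have hex : ∃ c : Ω, y • c = c ∧ c ≠ a := by
        by_contra hcon2
        push Not at hcon2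
        exact hyH (Zass.mem_of_fix_only h2 h3 hab H hHa hHcard hHfix y hya hy1 hcon2)
      obtain ⟨c, hyc, hca⟩ := hex
      obtain ⟨v, hva, hvc⟩ := h2 (Ne.symm hca) hab
      have hvN : v ∈ MulAction.stabilizer G a := (hst v).mpr hva
      have hvinva : v⁻¹ • a = a := by rw [inv_smul_eq_iff, hva]
      have hvinvb : v⁻¹ • b = c := by rw [inv_smul_eq_iff, hvc]
      have hconjN : v * y * v⁻¹ ∈ MulAction.stabilizer G a := by
        rw [hst, mul_smul, mul_smul, hvinva, hya, hva]
      have hconjb : (v * y * v⁻¹) • b = b := by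
        rw [mul_smul, mul_smul, hvinvb, hyc, hvc]
      have h1 := htriv _ hconjN hconjb
      have h3' := hμcl ⟨y, hy⟩ ⟨v, hvN⟩
      have e1 : (⟨v, hvN⟩ : MulAction.stabilizer G a) * ⟨y, hy⟩ * (⟨v, hvN⟩)⁻¹
          = ⟨v * y * v⁻¹, hconjN⟩ := rfl
      rw [e1, hlam, h1] at h3'
      rw [← h3']
      rfl
  obtain ⟨y₀, hy₀, hyw₀, hne₀⟩ := hy0
  have hy₀b : y₀ • b = b := (hwmem y₀ hy₀).mp hyw₀
  have hmackey : Helper13.mackeySum (MulAction.stabilizer G a) μ μ w = 0 := by
    unfold Helper13.mackeySum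
    obtain ⟨c₀, hc₀⟩ : ∃ c₀ : ℂ, c₀ = μ ⟨y₀, hy₀⟩ * (starRingEnd ℂ) (μ ⟨w⁻¹ * y₀ * w, hyw₀⟩) :=
      ⟨_, rfl⟩
    have hc₀ne : c₀ ≠ 1 := by
      intro h
      apply hne₀
      have h1 := hnorm ⟨w⁻¹ * y₀ * w, hyw₀⟩
      have hz : μ ⟨w⁻¹ * y₀ * w, hyw₀⟩ ≠ 0 := by
        intro h0; rw [h0, zero_mul] at h1; exact zero_ne_one h1
      have h2' : μ ⟨y₀, hy₀⟩ * (starRingEnd ℂ) (μ ⟨w⁻¹ * y₀ * w, hyw₀⟩) = 1 := by rw [← hc₀, h]
      have h3' : (μ ⟨w⁻¹ * y₀ * w, hyw₀⟩ - μ ⟨y₀, hy₀⟩)
          * (starRingEnd ℂ) (μ ⟨w⁻¹ * y₀ * w, hyw₀⟩) = 0 := by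
        rw [sub_mul, h1, h2', sub_self]
      have hcz : (starRingEnd ℂ) (μ ⟨w⁻¹ * y₀ * w, hyw₀⟩) ≠ 0 := by
        intro h0; rw [h0, mul_zero] at h1; exact zero_ne_one h1
      rcases mul_eq_zero.mp h3' with h4 | h4
      · exact sub_eq_zero.mp h4
      · exact absurd h4 hcz
    have hshift : ∀ y : MulAction.stabilizer G a,
        μ (⟨y₀, hy₀⟩ * y) * (starRingEnd ℂ) (Cfsg.extendByZero (MulAction.stabilizer G a) μ
          (w⁻¹ * ((⟨y₀, hy₀⟩ * y : MulAction.stabilizer G a) : G) * w))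
        = c₀ * (μ y * (starRingEnd ℂ) (Cfsg.extendByZero (MulAction.stabilizer G a) μ
          (w⁻¹ * (y : G) * w))) := by
      intro y
      have e1 : w⁻¹ * ((⟨y₀, hy₀⟩ * y : MulAction.stabilizer G a) : G) * w
          = (w⁻¹ * y₀ * w) * (w⁻¹ * (y : G) * w) := by
        simp only [Subgroup.coe_mul]
        group
      by_cases hyw : w⁻¹ * (y : G) * w ∈ MulAction.stabilizer G a
      · have hprod : (w⁻¹ * y₀ * w) * (w⁻¹ * (y : G) * w) ∈ MulAction.stabilizer G a :=
          mul_mem hyw₀ hyw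
        rw [e1, Helper2.extendByZero_apply_mem _ _ hprod, Helper2.extendByZero_apply_mem _ _ hyw]
        have e2 : (⟨(w⁻¹ * y₀ * w) * (w⁻¹ * (y : G) * w), hprod⟩ : MulAction.stabilizer G a)
            = ⟨w⁻¹ * y₀ * w, hyw₀⟩ * ⟨w⁻¹ * (y : G) * w, hyw⟩ := rfl
        rw [e2, hμmul, hμmul, map_mul, hc₀]
        ring
      · have hprod : (w⁻¹ * y₀ * w) * (w⁻¹ * (y : G) * w) ∉ MulAction.stabilizer G a := by
          intro h
          apply hyw
          have := mul_mem (inv_mem hyw₀) h
          rwa [inv_mul_cancel_left] at this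
        rw [e1, Helper2.extendByZero_apply_not_mem _ _ hprod,
          Helper2.extendByZero_apply_not_mem _ _ hyw]
        simp
    have hsum := Equiv.sum_comp (Equiv.mulLeft (⟨y₀, hy₀⟩ : MulAction.stabilizer G a))
      (fun y : MulAction.stabilizer G a => μ y * (starRingEnd ℂ)
        (Cfsg.extendByZero (MulAction.stabilizer G a) μ (w⁻¹ * (y : G) * w)))
    simp only [Equiv.coe_mulLeft] at hsum
    rw [Finset.sum_congr rfl (fun y _ => hshift y), ← Finset.mul_sum] at hsum
    have h5 : (c₀ - 1) * ∑ y : MulAction.stabilizer G a, μ y * (starRingEnd ℂ)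
        (Cfsg.extendByZero (MulAction.stabilizer G a) μ (w⁻¹ * (y : G) * w)) = 0 := by
      rw [sub_mul, one_mul, hsum, sub_self]
    rcases mul_eq_zero.mp h5 with h6 | h6
    · exact absurd (sub_eq_zero.mp h6) hc₀ne
    · exact h6
  rw [hinner, hmackey, mul_zero, add_zero]

end Cfsg.Agent.S0881
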