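import Cfsg.Statements.S0883
import Cfsg.Agent.Helper6.ZassInv
import Cfsg.Agent.S0878

set_option autoImplicit false
open Cfsg

namespace Cfsg.Agent.S0883

open Cfsg.Agent Cfsg.Agent.Helper6 in
/-- Let G be a finite simple Zassenhaus group on Ω with h + 1 points whose two-point stabilizer E has odd order e with 2e < h - 1, and let H be the subgroup of the stabilizer of a consisting of the identity and the elements fixing no point other than a (given here as a subgroup of the stabilizer of order one less than the number of points whose non-identity elements fix only a; it is the Frobenius kernel of the stabilizer). If a non-identity element u of H is a product of two involutions of G, then u is an involution. -/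
theorem result {G Ω : Type*} [Group G] [Finite G] [MulAction G Ω] [Fintype Ω] (hZ : Cfsg.IsZassenhausGroup G Ω) {a b : Ω} (hab : a ≠ b) [IsSimpleGroup G] (h e : ℕ) (hh : Fintype.card Ω = h + 1) (he : Nat.card ↥(MulAction.stabilizer G a ⊓ MulAction.stabilizer G b : Subgroup G) = e) (hodd : Odd e) (hlt : 2 * e < h - 1) (H : Subgroup G) (hHa : H ≤ MulAction.stabilizer G a) (hHcard : Nat.card H + 1 = Fintype.card Ω) (hHfix : ∀ u ∈ H, u ≠ 1 → ∀ c : Ω, u • c = c → c = a) (u : G) (hu : u ∈ H) (hu1 : u ≠ 1) (x y : G) (hx : orderOf x = 2) (hy : orderOf y = 2) (hxy : x * y = u) : orderOf u = 2 := by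
  classical
  have h2 : Zass.TwoTrans G Ω := Zass.zass_twoTrans hZ
  have h3 := Zass.zass_noThree hZ
  have hn := Zass.zass_card_ge_three hZ
  have hst : ∀ g : G, g ∈ MulAction.stabilizer G a ↔ g • a = a :=
    fun g => MulAction.mem_stabilizer_iff
  obtain ⟨part1, -⟩ := Cfsg.Agent.S0878.result hZ a H hHa hHcard hHfix
  have hxx : x * x = 1 := by
    have := pow_orderOf_eq_one x
    rwa [hx, sq] at this
  have hyy : y * y = 1 := by
    have := pow_orderOf_eq_one y
    rwa [hy, sq] at this
  have hxinv : x⁻¹ = x := inv_eq_of_mul_eq_one_left hxx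
  have hyinv : y⁻¹ = y := inv_eq_of_mul_eq_one_left hyy
  have huinv : u⁻¹ = y * x := by
    rw [← hxy, mul_inv_rev, hxinv, hyinv]
  have huinvH : u⁻¹ ∈ H := H.inv_mem hu
  -- x and y stabilize a
  have hxN : x ∈ MulAction.stabilizer G a := by
    by_contra hcon
    apply hu1
    apply part1 x hcon u hu
    have : x * u * x⁻¹ = u⁻¹ := by
      rw [huinv, hxinv, ← hxy, ← mul_assoc, hxx, one_mul]
    rw [this]
    exact huinvH
  have hyN : y ∈ MulAction.stabilizer G a := by
    by_contra hcon
    apply hu1
    apply part1 y hcon u hu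
    have : y * u * y⁻¹ = u⁻¹ := by
      rw [huinv, hyinv, ← hxy, mul_assoc, mul_assoc, hyy, mul_one]
    rw [this]
    exact huinvH
  -- an involution of the stabilizer fixes only a
  have hinvH : ∀ s : G, orderOf s = 2 → s ∈ MulAction.stabilizer G a → s ∈ H := by
    intro s hs hsN
    have hs1 : s ≠ 1 := by
      rintro rfl
      rw [orderOf_one] at hs
      omega
    have hsa : s • a = a := (hst s).mp hsN
    apply Zass.mem_of_fix_only h2 h3 hab H hHa hHcard hHfix s hsa hs1
    intro c hsc
    by_contra hca
    have hmem : s ∈ (MulAction.stabilizer G a ⊓ MulAction.stabilizer G c : Subgroup G) := by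
      rw [Subgroup.mem_inf, MulAction.mem_stabilizer_iff, MulAction.mem_stabilizer_iff]
      exact ⟨hsa, hsc⟩
    have hdvd := orderOf_dvd_natCard (⟨s, hmem⟩ :
      (MulAction.stabilizer G a ⊓ MulAction.stabilizer G c : Subgroup G))
    rw [Subgroup.orderOf_mk, hs, Zass.card_tps_eq h2 hab (Ne.symm hca), he] at hdvd
    exact (Nat.not_even_iff_odd.mpr hodd) (even_iff_two_dvd.mpr hdvd)
  have hxH := hinvH x hx hxN
  have hyH := hinvH y hy hyN
  have hcomm := Zass.invol_commute h2 h3 hab hn H hHa hHcard hHfix x y hx hxH hyH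
  haveI : Fact (Nat.Prime 2) := ⟨Nat.prime_two⟩
  apply orderOf_eq_prime _ hu1
  rw [sq, ← hxy]
  calc x * y * (x * y) = x * (y * x) * y := by group
    _ = x * (x * y) * y := by rw [hcomm]
    _ = (x * x) * (y * y) := by group
    _ = 1 := by rw [hxx, hyy, one_mul]

end Cfsg.Agent.S0883
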