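import Cfsg.Statements.S0893
import Cfsg.Agent.Helper6.ExtraChar
import Cfsg.Agent.Helper6.Clifford
import Cfsg.Agent.Helper2.CharNat
import Cfsg.Agent.Helper2.CharConstituent

set_option autoImplicit false
open Cfsg

namespace Cfsg.Agent.S0893

open Cfsg.Agent Cfsg.Agent.Helper6 in
/-- Let P be an extraspecial p-group of order p ^ (2 * n + 1), A an abelian subgroup of order p ^ (n + 1), and λ a character of A of degree 1 that is not identically 1 on the elements of A lying in the centre of P. Then the function induced from λ to P is an irreducible character of P and vanishes at every element outside the centre. -/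
theorem result {P : Type*} [Group P] [Fintype P] (p n : ℕ) [Fact p.Prime] (hP : Cfsg.IsExtraspecial p P) (hcard : Nat.card P = p ^ (2 * n + 1)) (A : Subgroup P) (hab : ∀ a ∈ A, ∀ b ∈ A, a * b = b * a) (hA : Nat.card A = p ^ (n + 1)) (lam : A → ℂ) (hlam : Cfsg.IsCharacter A lam ∧ lam 1 = 1) (hZ : ∃ a : A, (a : P) ∈ Subgroup.center P ∧ lam a ≠ 1) : Cfsg.IsIrrCharacter P (Cfsg.indFun A lam) ∧ ∀ x : P, x ∉ Subgroup.center P → Cfsg.indFun A lam x = 0 := by
  classical
  obtain ⟨hlamc, hlam1⟩ := hlam
  obtain ⟨a₀, ha₀Z, ha₀ne⟩ := hZ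
  have hpp : p.Prime := Fact.out
  haveI : Fintype A := Fintype.ofFinite _
  have ha₀1 : (a₀ : P) ≠ 1 := by
    intro h
    apply ha₀ne
    have h1 : a₀ = 1 := Subtype.ext h
    rw [h1, hlam1]
  have hZA : ∀ z ∈ Subgroup.center P, z ∈ A := by
    intro z hz
    obtain ⟨i, rfl⟩ := extraspecial_center_pow hP ha₀Z ha₀1 hz
    exact A.pow_mem a₀.2 i
  have hlamZ : ∀ (z : P) (hz : z ∈ Subgroup.center P), z ≠ 1 → lam ⟨z, hZA z hz⟩ ≠ 1 := by
    intro z hz hz1 h
    obtain ⟨i, hi⟩ := extraspecial_center_pow hP hz hz1 ha₀Z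
    apply ha₀ne
    have h1 : a₀ = (⟨z, hZA z hz⟩ : A) ^ i := Subtype.ext hi
    rw [h1, Helper24.linear_char_pow hlamc hlam1, h, one_pow]
  have hθc : IsCharacter P (indFun A lam) := Helper2.isCharacter_indFun A hlamc
  have hθcf := Helper2.IsCharacter.isClassFunction hθc
  have hmulz : ∀ (x z : P) (hz : z ∈ Subgroup.center P),
      indFun A lam (x * z) = lam ⟨z, hZA z hz⟩ * indFun A lam x := by
    intro x z hz
    rw [Helper2.indFun_apply, Helper2.indFun_apply, mul_left_comm]
    congr 1
    rw [Finset.mul_sum]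
    apply Finset.sum_congr rfl
    intro t _
    have h1 : t⁻¹ * (x * z) * t = (t⁻¹ * x * t) * z := by
      have h2 := Subgroup.mem_center_iff.mp hz t
      rw [mul_assoc (t⁻¹ * x) t z, h2]
      group
    rw [h1]
    by_cases hy : t⁻¹ * x * t ∈ A
    · rw [Helper2.extendByZero_apply_mem A lam (A.mul_mem hy (hZA z hz)),
        Helper2.extendByZero_apply_mem A lam hy]
      have h3 : (⟨t⁻¹ * x * t * z, A.mul_mem hy (hZA z hz)⟩ : A) =
          ⟨t⁻¹ * x * t, hy⟩ * ⟨z, hZA z hz⟩ := rfl
      rw [h3, Helper24.linear_char_mul hlamc hlam1, mul_comm]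
    · have hy' : t⁻¹ * x * t * z ∉ A := by
        intro h
        apply hy
        have h4 := A.mul_mem h (A.inv_mem (hZA z hz))
        rwa [mul_inv_cancel_right] at h4
      rw [Helper2.extendByZero_apply_not_mem A lam hy',
        Helper2.extendByZero_apply_not_mem A lam hy, mul_zero]
  have hvan : ∀ x : P, x ∉ Subgroup.center P → indFun A lam x = 0 := by
    intro x hx
    obtain ⟨k, z, hz, hz1, hkz⟩ := extraspecial_exists_conj hP hx
    have h1 : indFun A lam x = lam ⟨z, hZA z hz⟩ * indFun A lam x := by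
      rw [← hmulz x z hz]
      have h2 : x * z = k * x * k⁻¹ := by
        rw [hkz]
        exact Subgroup.mem_center_iff.mp hz x
      rw [h2]
      exact (hθcf x k).symm
    have h2 : (1 - lam ⟨z, hZA z hz⟩) * indFun A lam x = 0 := by
      rw [sub_mul, one_mul, ← h1, sub_self]
    rcases mul_eq_zero.mp h2 with h3 | h3
    · exact absurd (sub_eq_zero.mp h3).symm (hlamZ z hz hz1)
    · exact h3
  refine ⟨?_, hvan⟩
  apply isIrr_of_norm_one hθc
  have hidx : A.index = p ^ n := by
    have h3 := Subgroup.card_mul_index A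
    rw [hA, hcard] at h3
    have h4 : p ^ (2 * n + 1) = p ^ (n + 1) * p ^ n := by
      rw [← pow_add]
      congr 1
      omega
    rw [h4] at h3
    exact Nat.eq_of_mul_eq_mul_left (pow_pos hpp.pos _) h3
  have hθ1 : indFun A lam 1 = (p : ℂ) ^ n := by
    rw [Helper2.indFun_apply_one, hidx, hlam1]
    push_cast
    ring
  have hθz : ∀ z ∈ Subgroup.center P,
      indFun A lam z * (starRingEnd ℂ) (indFun A lam z) = (p : ℂ) ^ (2 * n) := by
    intro z hz
    have h1 := hmulz 1 z hz
    rw [one_mul, hθ1] at h1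
    rw [h1, map_mul, mul_mul_mul_comm, Complex.mul_conj, Complex.normSq_eq_norm_sq,
      Helper24.linear_char_norm hlamc hlam1]
    simp
    ring
  unfold classInner
  have hsum : ∑ x : P, indFun A lam x * (starRingEnd ℂ) (indFun A lam x) = (p : ℂ) * (p : ℂ) ^ (2 * n) := by
    have h1 : ∀ x : P, indFun A lam x * (starRingEnd ℂ) (indFun A lam x) =
        if x ∈ Subgroup.center P then (p : ℂ) ^ (2 * n) else 0 := by
      intro x
      split_ifs with hx
      · exact hθz x hx
      · rw [hvan x hx, zero_mul]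
    rw [Finset.sum_congr rfl (fun x _ => h1 x), Finset.sum_ite, Finset.sum_const_zero, add_zero,
      Finset.sum_const, nsmul_eq_mul]
    congr 1
    have h2 : (Finset.univ.filter (fun g : P => g ∈ Subgroup.center P)).card = p := by
      rw [← hP.2, Nat.card_eq_fintype_card, Fintype.card_subtype]
    exact_mod_cast h2
  rw [hsum, hcard]
  push_cast
  have hp0 : (p : ℂ) ≠ 0 := by exact_mod_cast hpp.ne_zero
  rw [pow_succ]
  field_simp

end Cfsg.Agent.S0893
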