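import Cfsg.Statements.S0894
import Cfsg.Agent.Helper6.ExtraChar
import Cfsg.Agent.Helper2.CharReg
import Cfsg.Agent.Helper2.CharLinear

set_option autoImplicit false
open Cfsg

namespace Cfsg.Agent.S0894

open Cfsg.Agent Cfsg.Agent.Helper6 in
/-- Let P be an extraspecial p-group of order p ^ (2 * n + 1). Then every irreducible character of P has degree 1 or p ^ n, and exactly p - 1 of them have degree p ^ n. -/
theorem result {P : Type*} [Group P] [Finite P] (p n : ℕ) [Fact p.Prime] (hP : Cfsg.IsExtraspecial p P) (hcard : Nat.card P = p ^ (2 * n + 1)) : (∀ χ : Cfsg.IrrCharacter P, (χ : P → ℂ) 1 = 1 ∨ (χ : P → ℂ) 1 = (p : ℂ) ^ n) ∧ Nat.card {χ : Cfsg.IrrCharacter P // (χ : P → ℂ) 1 = (p : ℂ) ^ n} = p - 1 := by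
  classical
  have := Fintype.ofFinite P
  have := Helper24.finite_irrCharacter (G := P)
  have := Fintype.ofFinite (IrrCharacter P)
  have hpp : p.Prime := Fact.out
  have hn1 : 1 ≤ n := by
    obtain ⟨n', hn', hc'⟩ := Helper24.extraspecial_card hP
    rw [hcard] at hc'
    have h1 := Nat.pow_right_injective hpp.two_le hc'
    omega
  have hdeg : ∀ χ : IrrCharacter P, (χ : P → ℂ) 1 ≠ 1 → charDegree (χ : P → ℂ) = p ^ n := by
    intro χ h1
    obtain ⟨-, h2⟩ := extraspecial_nonlinear hP χ.2 h1
    rw [hcard, pow_succ p (2 * n), mul_comm (p ^ (2 * n)) p] at h2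
    have h3 : (charDegree (χ : P → ℂ)) ^ 2 = p ^ (2 * n) := Nat.eq_of_mul_eq_mul_left hpp.pos h2
    rw [pow_mul'] at h3
    exact Nat.pow_left_injective (two_ne_zero) h3
  have hpn1 : p ^ n ≠ 1 := by
    intro h
    rcases Nat.pow_eq_one.mp h with h1 | h1
    · exact hpp.one_lt.ne' h1
    · omega
  constructor
  · intro χ
    by_cases h1 : (χ : P → ℂ) 1 = 1
    · left
      exact h1
    · right
      rw [Helper24.charDegree_spec (Helper24.isCharacter_of_irr χ.2), hdeg χ h1]
      push_cast
      rfl
  · have hiff : ∀ χ : IrrCharacter P, (χ : P → ℂ) 1 = (p : ℂ) ^ n ↔ ¬ (χ : P → ℂ) 1 = 1 := by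
      intro χ
      constructor
      · intro h h1
        rw [h1] at h
        have h2 : (1 : ℕ) = p ^ n := by exact_mod_cast h
        exact hpn1 h2.symm
      · intro h1
        rw [Helper24.charDegree_spec (Helper24.isCharacter_of_irr χ.2), hdeg χ h1]
        push_cast
        rfl
    have hcount : Nat.card {χ : IrrCharacter P // (χ : P → ℂ) 1 = (p : ℂ) ^ n} =
        (Finset.univ.filter (fun χ : IrrCharacter P => ¬ (χ : P → ℂ) 1 = 1)).card := by
      rw [Nat.card_eq_fintype_card, Fintype.card_subtype]
      congr 1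
      ext χ
      simp only [Finset.mem_filter, Finset.mem_univ, true_and]
      exact hiff χ
    rw [hcount]
    have hsum : ∑ χ : IrrCharacter P, (charDegree (χ : P → ℂ)) ^ 2 = Nat.card P := by
      have h1 := Helper2.sum_degree_sq (G := P)
      rw [Finset.sum_congr rfl (fun χ _ => by
        rw [Helper24.charDegree_spec (Helper24.isCharacter_of_irr χ.2)])] at h1
      have h2 : ((∑ χ : IrrCharacter P, (charDegree (χ : P → ℂ)) ^ 2 : ℕ) : ℂ) =
          (Nat.card P : ℂ) := by
        rw [← h1]
        push_cast
        apply Finset.sum_congr rfl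
        intro χ _
        ring
      exact_mod_cast h2
    have hsplit : ∑ χ : IrrCharacter P, (charDegree (χ : P → ℂ)) ^ 2 =
        (Finset.univ.filter (fun χ : IrrCharacter P => (χ : P → ℂ) 1 = 1)).card +
        (Finset.univ.filter (fun χ : IrrCharacter P => ¬ (χ : P → ℂ) 1 = 1)).card *
          p ^ (2 * n) := by
      rw [← Finset.sum_filter_add_sum_filter_not Finset.univ
        (fun χ : IrrCharacter P => (χ : P → ℂ) 1 = 1)]
      congr 1
      · rw [Finset.card_eq_sum_ones]
        apply Finset.sum_congr rfl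
        intro χ hχ
        have h1 := (Finset.mem_filter.mp hχ).2
        rw [Helper24.charDegree_spec (Helper24.isCharacter_of_irr χ.2)] at h1
        have h2 : charDegree (χ : P → ℂ) = 1 := by exact_mod_cast h1
        rw [h2, one_pow]
      · rw [Finset.sum_congr rfl (fun χ hχ => by
          rw [hdeg χ (Finset.mem_filter.mp hχ).2, ← pow_mul, mul_comm n 2]),
          Finset.sum_const, smul_eq_mul]
    have hlin_le : (Finset.univ.filter (fun χ : IrrCharacter P => (χ : P → ℂ) 1 = 1)).card ≤
        p ^ (2 * n) := by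
      have h1 := Helper24.card_linear_le_index (G := P)
      rw [Nat.card_eq_fintype_card, Fintype.card_subtype] at h1
      have h2 : (commutator P).index = p ^ (2 * n) := by
        rw [hP.1.2.2]
        have h3 := Subgroup.card_mul_index (Subgroup.center P)
        rw [hP.2, hcard, pow_succ p (2 * n), mul_comm (p ^ (2 * n)) p] at h3
        exact Nat.eq_of_mul_eq_mul_left hpp.pos h3
      rw [h2] at h1
      exact h1
    have hlin_pos : 1 ≤ (Finset.univ.filter
        (fun χ : IrrCharacter P => (χ : P → ℂ) 1 = 1)).card := by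
      apply Finset.card_pos.mpr
      exact ⟨⟨fun _ => 1, Helper2.isIrrCharacter_one_fun⟩, by simp⟩
    rw [hsplit, hcard, pow_succ p (2 * n), mul_comm (p ^ (2 * n)) p] at hsum
    have hq : 0 < p ^ (2 * n) := pow_pos hpp.pos _
    generalize (Finset.univ.filter (fun χ : IrrCharacter P => (χ : P → ℂ) 1 = 1)).card = l
      at hsum hlin_le hlin_pos
    generalize (Finset.univ.filter (fun χ : IrrCharacter P => ¬ (χ : P → ℂ) 1 = 1)).card = m
      at hsum
    generalize p ^ (2 * n) = q at hsum hlin_le hq
    have hp1 : 1 ≤ p := hpp.pos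
    have hm_lt : m < p := by
      by_contra hge
      push Not at hge
      have h1 : p * q ≤ m * q := Nat.mul_le_mul_right q hge
      omega
    have hm_ge : p - 1 ≤ m := by
      by_contra hlt
      push Not at hlt
      have h1 : (m + 1) * q ≤ (p - 1) * q := Nat.mul_le_mul_right q (by omega)
      have h2 : (p - 1) * q + q = p * q := by
        have h3 : p = (p - 1) + 1 := by omega
        nth_rewrite 2 [h3]
        ring
      have h4 : (m + 1) * q = m * q + q := by ring
      omega
    omega

end Cfsg.Agent.S0894
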