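import Cfsg.Statements.S0895
import Cfsg.Agent.Helper6.FSOdd

set_option autoImplicit false
open Cfsg

namespace Cfsg.Agent.S0895

open Cfsg.Agent Cfsg.Agent.Helper6 in
/-- Let χ be a real-valued irreducible character of a finite group G whose degree is an odd natural number. Then the average over s in G of χ (s * s) equals 1. -/
theorem result {G : Type*} [Group G] [Fintype G] (χ : G → ℂ) (hχ : Cfsg.IsIrrCharacter G χ) (hreal : ∀ g : G, (χ g).im = 0) (d : ℕ) (hd : χ 1 = d) (hodd : Odd d) : (Nat.card G : ℂ)⁻¹ * ∑ s : G, χ (s * s) = 1 := by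
  classical
  have hfs := (Helper25.fs_indicator hχ).1 hreal
  rcases hfs with h | h
  · exact h
  · exfalso
    have hchar := Helper24.isCharacter_of_irr hχ
    have hbar := Helper25.irr_conj hχ
    have hκ : (Nat.card G : ℂ)⁻¹ * ∑ g : G, χ g ^ 2 = 1 := by
      have h1 := Helper24.irr_orthonormal hχ hbar
      have h2 : χ = (fun g => (starRingEnd ℂ) (χ g)) := by
        funext g
        exact (Complex.conj_eq_iff_im.mpr (hreal g)).symm
      rw [if_pos h2] at h1
      rw [← h1]
      congr 1
      refine Finset.sum_congr rfl fun g _ => ?_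
      show χ g ^ 2 = χ g * (starRingEnd ℂ) (χ g⁻¹)
      rw [Helper24.char_inv hchar, Complex.conj_conj, pow_two]
    obtain ⟨n, ρ, hirr, rfl⟩ := hχ
    have hMmul : ∀ g h : G, LinearMap.toMatrix' (ρ (g * h)) =
        LinearMap.toMatrix' (ρ g) * LinearMap.toMatrix' (ρ h) :=
      fun g h => by rw [map_mul, LinearMap.toMatrix'_mul]
    have htr : ∀ g : G, (LinearMap.toMatrix' (ρ g)).trace = ρ.character g := by
      intro g
      show _ = LinearMap.trace ℂ (Fin n → ℂ) (ρ g)
      rw [LinearMap.trace_eq_matrix_trace ℂ (Pi.basisFun ℂ (Fin n)),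
        LinearMap.toMatrix_eq_toMatrix']
    have htr2 : ∀ g : G, (LinearMap.toMatrix' (ρ g) * LinearMap.toMatrix' (ρ g)).trace
        = ρ.character (g * g) := by
      intro g
      rw [← htr (g * g), map_mul, LinearMap.toMatrix'_mul]
    have hκ' : (Nat.card G : ℂ)⁻¹ * ∑ g : G, (LinearMap.toMatrix' (ρ g)).trace ^ 2 = 1 := by
      simp only [htr]
      exact hκ
    have hν' : (Nat.card G : ℂ)⁻¹ *
        ∑ g : G, (LinearMap.toMatrix' (ρ g) * LinearMap.toMatrix' (ρ g)).trace = -1 := by
      simp only [htr2]
      exact h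
    obtain ⟨B, hB0, hBt, hBinv⟩ := fs_antisymm (fun g => LinearMap.toMatrix' (ρ g)) hMmul hκ' hν'
    have hn : n = d := by
      have h1 : ρ.character 1 = (n : ℂ) := by
        rw [Representation.char_one]
        simp
      rw [h1] at hd
      exact_mod_cast hd
    have hM1 : LinearMap.toMatrix' (ρ 1) = 1 := by
      rw [map_one]
      exact LinearMap.toMatrix'_one
    have hswap : ∀ g : G, LinearMap.toMatrix' (ρ g) * B =
        B * (LinearMap.toMatrix' (ρ g⁻¹)).transpose := by
      intro g
      have h1 : (LinearMap.toMatrix' (ρ g)).transpose * (LinearMap.toMatrix' (ρ g⁻¹)).transpose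
          = 1 := by
        rw [← Matrix.transpose_mul, ← hMmul, inv_mul_cancel, hM1, Matrix.transpose_one]
      calc LinearMap.toMatrix' (ρ g) * B
          = LinearMap.toMatrix' (ρ g) * B * ((LinearMap.toMatrix' (ρ g)).transpose *
              (LinearMap.toMatrix' (ρ g⁻¹)).transpose) := by rw [h1, mul_one]
        _ = (LinearMap.toMatrix' (ρ g) * B * (LinearMap.toMatrix' (ρ g)).transpose) *
              (LinearMap.toMatrix' (ρ g⁻¹)).transpose := by rw [mul_assoc, mul_assoc, mul_assoc]
        _ = B * (LinearMap.toMatrix' (ρ g⁻¹)).transpose := by rw [hBinv g]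
    let τ : Subrepresentation ρ :=
      ⟨LinearMap.range (Matrix.toLin' B), by
        rintro g _ ⟨w, rfl⟩
        refine ⟨Matrix.toLin' (LinearMap.toMatrix' (ρ g⁻¹)).transpose w, ?_⟩
        rw [← LinearMap.comp_apply, ← Matrix.toLin'_mul, ← hswap g, Matrix.toLin'_mul,
          LinearMap.comp_apply, Matrix.toLin'_toMatrix']⟩
    rcases hirr.eq_bot_or_eq_top τ with hτ | hτ
    · have h1 : LinearMap.range (Matrix.toLin' B) = ⊥ :=
        congrArg Subrepresentation.toSubmodule hτ
      rw [LinearMap.range_eq_bot] at h1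
      apply hB0
      have h2 : Matrix.toLin' B = Matrix.toLin' (0 : Matrix (Fin n) (Fin n) ℂ) := by
        rw [h1, map_zero]
      exact Matrix.toLin'.injective h2
    · have h1 : LinearMap.range (Matrix.toLin' B) = ⊤ :=
        congrArg Subrepresentation.toSubmodule hτ
      have h2 : Function.Surjective B.mulVec := by
        have h3 := LinearMap.range_eq_top.mp h1
        intro v
        obtain ⟨w, hw⟩ := h3 v
        exact ⟨w, by rw [← hw, Matrix.toLin'_apply]⟩
      have h4 : IsUnit B := Matrix.mulVec_surjective_iff_isUnit.mp h2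
      have h5 : IsUnit B.det := (Matrix.isUnit_iff_isUnit_det B).mp h4
      have h6 : B.det = -B.det := by
        have h7 : B.transpose.det = (-B).det := by rw [hBt]
        have hn' : Odd n := hn ▸ hodd
        rw [Matrix.det_transpose, Matrix.det_neg, Fintype.card_fin, Odd.neg_one_pow hn',
          neg_one_mul] at h7
        exact h7
      have h8 : B.det = 0 := by linear_combination h6 / 2
      rw [h8] at h5
      exact not_isUnit_zero h5

end Cfsg.Agent.S0895
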