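import Cfsg.Statements.S0900
import Cfsg.Agent.Helper6.Clifford

set_option autoImplicit false
open Cfsg

namespace Cfsg.Agent.S0900

open scoped ComplexConjugate
open Cfsg.Agent

section

variable {G : Type*} [Group G] [Fintype G] (N : Subgroup G) [hN : N.Normal] [Fintype N]

theorem sum_normSq_irr {G : Type*} [Group G] [Fintype G] {χ : G → ℂ} (hχ : IsIrrCharacter G χ) :
    ∑ g : G, Complex.normSq (χ g) = (Nat.card G : ℝ) := by
  have := Helper24.irr_norm_sum hχ
  rw [← this]
  refine Finset.sum_congr rfl fun g _ => ?_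
  rw [Complex.sq_norm]

theorem sum_normSq_res_of_smul {χ : G → ℂ} {ϑ : N → ℂ} (hϑ : IsIrrCharacter N ϑ) (e : ℕ)
    (h : (fun n : N => χ n) = (e : ℂ) • ϑ) :
    ∑ n : N, Complex.normSq (χ n) = (e : ℝ) ^ 2 * (Nat.card N : ℝ) := by
  rw [← sum_normSq_irr hϑ, Finset.mul_sum]
  refine Finset.sum_congr rfl fun n _ => ?_
  have := congrFun h n
  simp only [Pi.smul_apply, smul_eq_mul] at this
  rw [this, Complex.normSq_mul, Complex.normSq_natCast]
  ring

theorem vanish_iff {χ : G → ℂ} : (∀ g : G, g ∉ N → χ g = 0) ↔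
    ∑ g : G, Complex.normSq (χ g) = ∑ n : N, Complex.normSq (χ n) := by
  classical
  constructor
  · intro h
    apply Helper6.sum_subgroup_eq' N (fun g => Complex.normSq (χ g))
    intro a ha
    show Complex.normSq (χ a) = 0
    rw [h a ha, map_zero]
  · intro h g hg
    have hsplit : ∑ g : G, Complex.normSq (χ g) =
        ∑ g : G, (if g ∈ N then Complex.normSq (χ g) else 0) +
        ∑ g : G, (if g ∈ N then 0 else Complex.normSq (χ g)) := by
      rw [← Finset.sum_add_distrib]
      refine Finset.sum_congr rfl fun g _ => ?_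
      split_ifs <;> simp
    have h1 : ∑ g : G, (if g ∈ N then Complex.normSq (χ g) else 0) =
        ∑ n : N, Complex.normSq (χ n) := by
      rw [Helper6.sum_subgroup_eq' N]
      · refine Finset.sum_congr rfl fun n _ => ?_
        rw [if_pos n.2]
      · intro a ha
        exact if_neg ha
    rw [hsplit, h1] at h
    have h2 : ∑ g : G, (if g ∈ N then 0 else Complex.normSq (χ g)) = 0 := by linarith
    have hnn : ∀ g ∈ (Finset.univ : Finset G),
        0 ≤ (if g ∈ N then (0 : ℝ) else Complex.normSq (χ g)) := by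
      intro g _
      split_ifs
      · exact le_refl 0
      · exact Complex.normSq_nonneg _
    have h3 := (Finset.sum_eq_zero_iff_of_nonneg hnn).mp h2 g (Finset.mem_univ g)
    rw [if_neg hg] at h3
    exact Complex.normSq_eq_zero.mp h3

theorem inv_of_smul {χ : G → ℂ} (hχ : IsIrrCharacter G χ) {ϑ : N → ℂ} (e : ℕ) (he : e ≠ 0)
    (h : (fun n : N => χ n) = (e : ℂ) • ϑ) :
    ∀ (g : G) (n : N), ϑ ⟨g * n * g⁻¹, hN.conj_mem (n : G) n.2 g⟩ = ϑ n := by
  intro g n
  have h1 := congrFun h n
  have h2 := congrFun h ⟨g * n * g⁻¹, hN.conj_mem (n : G) n.2 g⟩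
  simp only [Pi.smul_apply, smul_eq_mul] at h1 h2
  have hcf := Helper2.IsIrrCharacter.isClassFunction hχ (n : G) g
  have he' : (e : ℂ) ≠ 0 := Nat.cast_ne_zero.mpr he
  apply mul_left_cancel₀ he'
  rw [← h1, ← h2]
  exact hcf

end

/-- Let N be a normal subgroup of the finite group G, χ an irreducible character of G and ϑ an irreducible character of N having nonzero inner product with the restriction of χ. Consider: (a) the restriction of χ to N is e • ϑ for a natural number e with e ^ 2 equal to the index of N; (b) χ vanishes outside N and ϑ is invariant under conjugation by G; (c) ϑ is invariant and every irreducible character of G having nonzero inner product with the function induced from ϑ equals χ. Then (a) ↔ (b) and (a) ↔ (c). -/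
theorem result {G : Type*} [Group G] [Fintype G] (N : Subgroup G) [hN : N.Normal] [Fintype N] (χ : G → ℂ) (hχ : Cfsg.IsIrrCharacter G χ) (ϑ : N → ℂ) (hϑ : Cfsg.IsIrrCharacter N ϑ) (hcon : Cfsg.classInner (fun n : N => χ n) ϑ ≠ 0) : ((∃ e : ℕ, (fun n : N => χ n) = (e : ℂ) • ϑ ∧ e ^ 2 = N.index) ↔ ((∀ g : G, g ∉ N → χ g = 0) ∧ ∀ (g : G) (n : N), ϑ ⟨g * n * g⁻¹, hN.conj_mem (n : G) n.2 g⟩ = ϑ n)) ∧ ((∃ e : ℕ, (fun n : N => χ n) = (e : ℂ) • ϑ ∧ e ^ 2 = N.index) ↔ (∀ (g : G) (n : N), ϑ ⟨g * n * g⁻¹, hN.conj_mem (n : G) n.2 g⟩ = ϑ n ∧ ∀ ψ : G → ℂ, Cfsg.IsIrrCharacter G ψ → Cfsg.classInner (Cfsg.indFun N ϑ) ψ ≠ 0 → ψ = χ)) := by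
  classical
  have := Helper24.finite_irrCharacter (G := G)
  have := Fintype.ofFinite (IrrCharacter G)
  have hidx : Nat.card N * N.index = Nat.card G := Subgroup.card_mul_index N
  have hNpos : 0 < Nat.card N := Nat.card_pos
  have hGpos : 0 < Nat.card G := Nat.card_pos
  have hipos : 0 < N.index := by
    rcases Nat.eq_zero_or_pos N.index with h | h
    · rw [h, mul_zero] at hidx; omega
    · exact h
  have hϑc := Helper24.isCharacter_of_irr hϑ
  have hχc := Helper24.isCharacter_of_irr hχ
  have ha_inv : (∃ e : ℕ, (fun n : N => χ n) = (e : ℂ) • ϑ ∧ e ^ 2 = N.index) →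
      ∀ (g : G) (n : N), ϑ ⟨g * n * g⁻¹, hN.conj_mem (n : G) n.2 g⟩ = ϑ n := by
    rintro ⟨e, he, he2⟩
    have he0 : e ≠ 0 := by
      rintro rfl
      rw [zero_pow (by norm_num)] at he2
      omega
    exact inv_of_smul N hχ e he0 he
  obtain ⟨m, hm⟩ := Helper2.classInner_char_nat (Helper24.isCharacter_restrict N hχc) hϑc
  have hres : (∀ (g : G) (n : N), ϑ ⟨g * n * g⁻¹, hN.conj_mem (n : G) n.2 g⟩ = ϑ n) →
      (fun n : N => χ n) = (m : ℂ) • ϑ := by
    intro hinv
    have := Helper6.res_eq_smul_of_invariant N hϑ hinv hχ hcon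
    rw [hm] at this
    exact this
  have hem : ∀ e : ℕ, (fun n : N => χ n) = (e : ℂ) • ϑ → e = m := by
    intro e he
    have h1 : classInner (fun n : N => χ n) ϑ = (e : ℂ) := by
      rw [he, Helper2.classInner_smul_left, Helper2.classInner_irr hϑ hϑ, if_pos rfl, mul_one]
    rw [hm] at h1
    exact_mod_cast h1.symm
  have hfrob : ∀ ψ : G → ℂ, IsIrrCharacter G ψ → classInner (indFun N ϑ) ψ =
      classInner (fun n : N => ψ n) ϑ := fun ψ hψ =>
    Helper6.classInner_indFun_eq N hϑc (Helper24.isCharacter_of_irr hψ)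
  have hnat : ∀ ψ : IrrCharacter G, ∃ k : ℕ, classInner (indFun N ϑ) (ψ : G → ℂ) *
      classInner (fun n : N => (ψ : G → ℂ) n) ϑ = (k : ℂ) := by
    intro ψ
    rw [hfrob ψ ψ.2]
    obtain ⟨b, hb⟩ := Helper2.classInner_char_nat
      (Helper24.isCharacter_restrict N (Helper24.isCharacter_of_irr ψ.2)) hϑc
    exact ⟨b * b, by rw [hb]; push_cast; ring⟩
  constructor
  · constructor
    · intro ha
      have hinv := ha_inv ha
      obtain ⟨e, he, he2⟩ := ha
      refine ⟨?_, hinv⟩
      rw [vanish_iff N, sum_normSq_irr hχ, sum_normSq_res_of_smul N hϑ e he, ← hidx]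
      have : (N.index : ℝ) = (e : ℝ) ^ 2 := by exact_mod_cast he2.symm
      push_cast
      rw [this]
      ring
    · rintro ⟨hvan, hinv⟩
      refine ⟨m, hres hinv, ?_⟩
      have h1 := (vanish_iff N).mp hvan
      rw [sum_normSq_irr hχ, sum_normSq_res_of_smul N hϑ m (hres hinv)] at h1
      have h2 : Nat.card N * N.index = Nat.card N * m ^ 2 := by
        rw [hidx]
        have : (Nat.card G : ℝ) = ((Nat.card N * m ^ 2 : ℕ) : ℝ) := by
          rw [h1]; push_cast; ring
        exact_mod_cast this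
      exact (Nat.eq_of_mul_eq_mul_left hNpos h2).symm
  · constructor
    · intro ha
      have hinv := ha_inv ha
      obtain ⟨e, he, he2⟩ := ha
      have hem' := hem e he
      intro g n
      refine ⟨hinv g n, ?_⟩
      intro ψ hψ hψne
      by_contra hne
      have hsum := Helper6.sum_inner_mul_eq_index N hϑ hinv
      rw [← Finset.add_sum_erase Finset.univ _ (Finset.mem_univ (⟨χ, hχ⟩ : IrrCharacter G))]
        at hsum
      have hχterm : classInner (indFun N ϑ) χ * classInner (fun n : N => χ n) ϑ =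
          (N.index : ℂ) := by
        rw [hfrob χ hχ, hm, ← he2, hem']
        push_cast
        ring
      have hrest : ∑ ψ' ∈ Finset.univ.erase (⟨χ, hχ⟩ : IrrCharacter G),
          classInner (indFun N ϑ) (ψ' : G → ℂ) *
            classInner (fun n : N => (ψ' : G → ℂ) n) ϑ = 0 := by
        have h' := hsum
        simp only [] at h'
        linear_combination h' - hχterm
      have hz := Helper6.sum_nat_eq_zero _ _ (fun ψ' _ => hnat ψ') hrest ⟨ψ, hψ⟩
        (Finset.mem_erase.mpr ⟨fun h => hne (congrArg Subtype.val h), Finset.mem_univ _⟩)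
      simp only [] at hz
      rw [← hfrob ψ hψ] at hz
      exact hψne (mul_self_eq_zero.mp hz)
    · intro hc
      have hinv : ∀ (g : G) (n : N), ϑ ⟨g * n * g⁻¹, hN.conj_mem (n : G) n.2 g⟩ = ϑ n :=
        fun g n => (hc g n).1
      have huniq := (hc 1 1).2
      refine ⟨m, hres hinv, ?_⟩
      have hsum := Helper6.sum_inner_mul_eq_index N hϑ hinv
      rw [Finset.sum_eq_single (⟨χ, hχ⟩ : IrrCharacter G)] at hsum
      · simp only [] at hsum
        rw [hfrob χ hχ, hm] at hsum
        have : ((m ^ 2 : ℕ) : ℂ) = (N.index : ℂ) := by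
          push_cast
          rw [← hsum]
          ring
        exact_mod_cast this
      · intro ψ' _ hne
        have : classInner (indFun N ϑ) (ψ' : G → ℂ) = 0 := by
          by_contra h
          exact hne (Subtype.ext (huniq ψ' ψ'.2 h))
        rw [this, zero_mul]
      · intro h
        exact absurd (Finset.mem_univ _) h

end Cfsg.Agent.S0900
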