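import Cfsg.Statements.S0901
import Mathlib

set_option autoImplicit false
open Cfsg

namespace Cfsg.Agent.S0901

theorem isIntegral_of_pow_eq_one {z : ℂ} {m : ℕ} (hm : 0 < m) (h : z ^ m = 1) :
    IsIntegral ℤ z := by
  refine ⟨Polynomial.X ^ m - Polynomial.C 1, Polynomial.monic_X_pow_sub_C 1 hm.ne', ?_⟩
  simp [h]

theorem part1 (p : ℕ) (M : Ideal Cfsg.AlgInt) (hM : Cfsg.IsPModular p M)
    (ε₁ ε₂ : Cfsg.AlgInt) (h1 : ∃ m : ℕ, ¬ p ∣ m ∧ (ε₁ : ℂ) ^ m = 1)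
    (h2 : ∃ m : ℕ, ¬ p ∣ m ∧ (ε₂ : ℂ) ^ m = 1) (h : ε₁ - ε₂ ∈ M) : ε₁ = ε₂ := by
  obtain ⟨hp, hmax, hpM⟩ := hM
  obtain ⟨m₁, hm₁, he₁⟩ := h1
  obtain ⟨m₂, hm₂, he₂⟩ := h2
  have he₁' : ε₁ ^ m₁ = 1 := Subtype.ext (by simpa using he₁)
  have he₂' : ε₂ ^ m₂ = 1 := Subtype.ext (by simpa using he₂)
  obtain ⟨m, hmdef⟩ : ∃ m, m = m₁ * m₂ := ⟨_, rfl⟩
  have hpm : ¬ p ∣ m := by
    rw [hmdef, Nat.Prime.dvd_mul hp]
    exact not_or.mpr ⟨hm₁, hm₂⟩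
  have hmpos : 0 < m := Nat.pos_of_ne_zero (by rintro h0; exact hpm (h0 ▸ dvd_zero p))
  have h1m : ε₁ ^ m = 1 := by rw [hmdef, pow_mul, he₁', one_pow]
  have h2m : ε₂ ^ m = 1 := by rw [hmdef, mul_comm, pow_mul, he₂', one_pow]
  by_contra hne
  obtain ⟨ζ, hζ⟩ : ∃ ζ, ζ = ε₁ * ε₂ ^ (m - 1) := ⟨_, rfl⟩
  have hε₂inv : ε₂ * ε₂ ^ (m - 1) = 1 := by
    rw [← pow_succ', Nat.sub_add_cancel hmpos, h2m]
  have hζm : ζ ^ m = 1 := by
    rw [hζ, mul_pow, h1m, ← pow_mul, mul_comm (m - 1) m, pow_mul, h2m, one_pow, one_mul]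
  have hζ1 : ζ - 1 ∈ M := by
    have : ζ - 1 = (ε₁ - ε₂) * ε₂ ^ (m - 1) := by rw [sub_mul, hε₂inv, hζ]
    rw [this]; exact M.mul_mem_right _ h
  have hζne : ζ ≠ 1 := by
    intro h1
    apply hne
    calc ε₁ = ε₁ * (ε₂ * ε₂ ^ (m - 1)) := by rw [hε₂inv, mul_one]
      _ = (ε₁ * ε₂ ^ (m - 1)) * ε₂ := by ring
      _ = ε₂ := by rw [← hζ, h1, one_mul]
  have hgeom : (∑ i ∈ Finset.range m, ζ ^ i) * (ζ - 1) = ζ ^ m - 1 := geom_sum_mul ζ m
  have hsum0 : ∑ i ∈ Finset.range m, ζ ^ i = 0 := by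
    rw [hζm, sub_self] at hgeom
    rcases mul_eq_zero.mp hgeom with h' | h'
    · exact h'
    · exact absurd (sub_eq_zero.mp h') hζne
  have hmM : (m : Cfsg.AlgInt) ∈ M := by
    have e1 : (m : Cfsg.AlgInt) = ∑ i ∈ Finset.range m, (1 - ζ ^ i) := by
      rw [Finset.sum_sub_distrib, hsum0, sub_zero]
      simp
    rw [e1]
    apply M.sum_mem
    intro i _
    have : (1 : Cfsg.AlgInt) - ζ ^ i = -((∑ j ∈ Finset.range i, ζ ^ j) * (ζ - 1)) := by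
      rw [geom_sum_mul]; ring
    rw [this]
    exact M.neg_mem (M.mul_mem_left _ hζ1)
  have hcop : IsCoprime (m : ℤ) (p : ℤ) := by
    rw [Int.isCoprime_iff_gcd_eq_one]
    have : Nat.Coprime m p := ((Nat.Prime.coprime_iff_not_dvd hp).mpr hpm).symm
    simpa using this
  obtain ⟨u, v, huv⟩ := hcop
  have h1M : (1 : Cfsg.AlgInt) ∈ M := by
    have : (1 : Cfsg.AlgInt) = (u : Cfsg.AlgInt) * (m : Cfsg.AlgInt) + (v : Cfsg.AlgInt) * (p : Cfsg.AlgInt) := by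
      have := congrArg (Int.cast : ℤ → Cfsg.AlgInt) huv.symm
      push_cast at this
      exact this
    rw [this]
    exact M.add_mem (M.mul_mem_left _ hmM) (M.mul_mem_left _ hpM)
  exact hmax.ne_top ((Ideal.eq_top_iff_one M).mpr h1M)

theorem part2 (p : ℕ) (M : Ideal Cfsg.AlgInt) (hM : Cfsg.IsPModular p M)
    (a : Cfsg.AlgInt) (ha : a ∉ M) :
    ∃ ε : Cfsg.AlgInt, (∃ m : ℕ, ¬ p ∣ m ∧ (ε : ℂ) ^ m = 1) ∧ a - ε ∈ M := by
  obtain ⟨hp, hmax, hpM⟩ := hM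
  haveI := hmax
  haveI : Fact p.Prime := ⟨hp⟩
  letI : Field (Cfsg.AlgInt ⧸ M) := Ideal.Quotient.field M
  have hp0 : ((p : ℕ) : Cfsg.AlgInt ⧸ M) = 0 := by
    have := Ideal.Quotient.eq_zero_iff_mem.mpr hpM
    simpa using this
  haveI hchar : CharP (Cfsg.AlgInt ⧸ M) p := (CharP.charP_iff_prime_eq_zero hp).mpr hp0
  letI : Algebra (ZMod p) (Cfsg.AlgInt ⧸ M) := ZMod.algebra _ p
  have hint0 : IsIntegral ℤ a := by
    have h := a.2
    have h' : IsIntegral ℤ (algebraMap Cfsg.AlgInt ℂ a) := h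
    exact (isIntegral_algebraMap_iff (Subtype.val_injective)).mp h'
  have hint1 : IsIntegral ℤ (Ideal.Quotient.mk M a) :=
    hint0.map (Ideal.Quotient.mkₐ ℤ M)
  have hint2 : IsIntegral (ZMod p) (Ideal.Quotient.mk M a) := hint1.tower_top
  have hfd : FiniteDimensional (ZMod p) (IntermediateField.adjoin (ZMod p) {Ideal.Quotient.mk M a}) :=
    IntermediateField.adjoin.finiteDimensional hint2
  have hfin : Finite (IntermediateField.adjoin (ZMod p) {Ideal.Quotient.mk M a}) :=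
    Module.finite_of_finite (ZMod p)
  have hFt : Fintype (IntermediateField.adjoin (ZMod p) {Ideal.Quotient.mk M a}) :=
    Fintype.ofFinite _
  obtain ⟨n, -, hcard⟩ := FiniteField.card
    (IntermediateField.adjoin (ZMod p) {Ideal.Quotient.mk M a}) p
  have hne : (⟨Ideal.Quotient.mk M a, IntermediateField.mem_adjoin_simple_self (ZMod p) _⟩ :
      IntermediateField.adjoin (ZMod p) {Ideal.Quotient.mk M a}) ≠ 0 := by
    intro h
    have h' := congrArg Subtype.val h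
    simp only [ZeroMemClass.coe_zero] at h'
    exact ha (Ideal.Quotient.eq_zero_iff_mem.mp h')
  have hpow := FiniteField.pow_card_sub_one_eq_one _ hne
  rw [hcard] at hpow
  obtain ⟨m, hmdef⟩ : ∃ m, m = p ^ (n : ℕ) - 1 := ⟨_, rfl⟩
  rw [← hmdef] at hpow
  have hpow' : (Ideal.Quotient.mk M a) ^ m = 1 := by
    have h' := congrArg Subtype.val hpow
    simpa using h'
  have ham : a ^ m - 1 ∈ M := by
    rw [← Ideal.Quotient.eq_zero_iff_mem, map_sub, map_pow, hpow', map_one, sub_self]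
  have hpn : p ∣ p ^ (n : ℕ) := dvd_pow_self p n.pos.ne'
  have hpn2 : 2 ≤ p ^ (n : ℕ) := le_trans hp.two_le (Nat.le_of_dvd (pow_pos hp.pos _) hpn)
  have hm0 : 0 < m := by omega
  have hpm : ¬ p ∣ m := by
    intro h
    have h1 : p ∣ m + 1 := by
      have : m + 1 = p ^ (n : ℕ) := by omega
      rw [this]; exact hpn
    have h2 : p ∣ 1 := (Nat.dvd_add_right h).mp h1
    exact hp.one_lt.ne' (Nat.dvd_one.mp h2)
  have hprod := Polynomial.X_pow_sub_one_eq_prod hm0 (Complex.isPrimitiveRoot_exp m hm0.ne')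
  have hev := congrArg (Polynomial.eval (a : ℂ)) hprod
  simp only [Polynomial.eval_sub, Polynomial.eval_pow, Polynomial.eval_X, Polynomial.eval_one,
    Polynomial.eval_prod, Polynomial.eval_C] at hev
  have hS : ∀ ζ ∈ Polynomial.nthRootsFinset m (1 : ℂ), IsIntegral ℤ ζ := fun ζ hζ =>
    isIntegral_of_pow_eq_one hm0 ((Polynomial.mem_nthRootsFinset hm0 1).mp hζ)
  classical
  obtain ⟨f, hfdef⟩ : ∃ f : ℂ → Cfsg.AlgInt,
      f = fun z => if h : IsIntegral ℤ z then ⟨z, h⟩ else 0 := ⟨_, rfl⟩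
  have hf : ∀ ζ ∈ Polynomial.nthRootsFinset m (1 : ℂ), ((f ζ : Cfsg.AlgInt) : ℂ) = ζ := by
    intro ζ hζ
    rw [hfdef]
    simp [hS ζ hζ]
  have hprod' : a ^ m - 1 = ∏ ζ ∈ Polynomial.nthRootsFinset m (1 : ℂ), (a - f ζ) := by
    apply Subtype.ext
    push_cast
    rw [hev]
    apply Finset.prod_congr rfl
    intro ζ hζ
    rw [hf ζ hζ]
  rw [hprod'] at ham
  obtain ⟨ζ, hζS, hζM⟩ := (Ideal.IsPrime.prod_mem_iff).mp ham
  refine ⟨f ζ, ⟨m, hpm, ?_⟩, hζM⟩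
  rw [hf ζ hζS]
  exact (Polynomial.mem_nthRootsFinset hm0 1).mp hζS

/-- Let M be a maximal ideal of the ring of algebraic integers containing the prime p, and let U be the set of complex roots of unity of order prime to p. Then reduction modulo M is injective on U, and every algebraic integer not in M is congruent modulo M to an element of U (so U maps bijectively onto the nonzero residues). -/
theorem result (p : ℕ) [Fact p.Prime] (M : Ideal Cfsg.AlgInt) (hM : Cfsg.IsPModular p M) : (∀ ε₁ ε₂ : Cfsg.AlgInt, (∃ m : ℕ, ¬ p ∣ m ∧ (ε₁ : ℂ) ^ m = 1) → (∃ m : ℕ, ¬ p ∣ m ∧ (ε₂ : ℂ) ^ m = 1) → ε₁ - ε₂ ∈ M → ε₁ = ε₂) ∧ (∀ a : Cfsg.AlgInt, a ∉ M → ∃ ε : Cfsg.AlgInt, (∃ m : ℕ, ¬ p ∣ m ∧ (ε : ℂ) ^ m = 1) ∧ a - ε ∈ M) := by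
  exact ⟨fun ε₁ ε₂ h1 h2 h => part1 p M hM ε₁ ε₂ h1 h2 h, fun a ha => part2 p M hM a ha⟩

end Cfsg.Agent.S0901
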