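import Cfsg.Statements.S0902
import Cfsg.Agent.Helper25.GaloisConj
import Cfsg.Agent.Helper25.HeightZero2
import Cfsg.Agent.Helper24.CharValues
open Cfsg.Agent.Helper25
open Cfsg.Agent

set_option autoImplicit false
open Cfsg

namespace Cfsg.Agent.S0902

/-- If two irreducible characters of a finite group lie in the same block relative to one maximal ideal M of the algebraic integers containing the prime p, then at every element the difference of their central characters is an algebraic integer lying in every maximal ideal containing p; in particular they lie in the same block relative to any such ideal. -/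
theorem result {G : Type*} [Group G] [Finite G] (p : ℕ) [Fact p.Prime] (M : Ideal Cfsg.AlgInt) (hM : Cfsg.IsPModular p M) (χ ψ : Cfsg.IrrCharacter G) (h : Cfsg.SameBlock M (χ : G → ℂ) (ψ : G → ℂ)) (M' : Ideal Cfsg.AlgInt) (hM' : Cfsg.IsPModular p M') (g : G) : ∃ r : Cfsg.AlgInt, r ∈ M' ∧ (r : ℂ) = Cfsg.centralChar (χ : G → ℂ) g - Cfsg.centralChar (ψ : G → ℂ) g := by
  classical
  have : Fintype G := Fintype.ofFinite G
  have hMp := hM.2.1.isPrime
  obtain ⟨N, hNdef⟩ : ∃ N, N = Nat.card G := ⟨_, rfl⟩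
  have hN : 0 < N := hNdef ▸ Nat.card_pos
  obtain ⟨ζ, hζdef⟩ : ∃ ζ : ℂ, ζ = Complex.exp (2 * Real.pi * Complex.I / N) := ⟨_, rfl⟩
  have hζ : IsPrimitiveRoot ζ N := hζdef ▸ Complex.isPrimitiveRoot_exp N hN.ne'
  have hgN : g ^ N = 1 := by
    rw [hNdef]
    exact pow_card_eq_one'
  have hχc : IsCharacter G (χ : G → ℂ) := by
    obtain ⟨n, ρ, _, h⟩ := χ.2
    exact ⟨n, ρ, h⟩
  have hψc : IsCharacter G (ψ : G → ℂ) := by
    obtain ⟨n, ρ, _, h⟩ := ψ.2
    exact ⟨n, ρ, h⟩
  obtain ⟨dχ, hdχ⟩ := Helper24.char_pow_expansion hχc g N hN hgN ζ hζ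
  obtain ⟨dψ, hdψ⟩ := Helper24.char_pow_expansion hψc g N hN hgN ζ hζ
  have hχ1 := Helper24.charDegree_spec hχc
  have hψ1 := Helper24.charDegree_spec hψc
  have hχ0 : (charDegree (χ : G → ℂ) : ℂ) ≠ 0 := Nat.cast_ne_zero.mpr (charDegree_irr_ne_zero χ)
  have hψ0 : (charDegree (ψ : G → ℂ) : ℂ) ≠ 0 := Nat.cast_ne_zero.mpr (charDegree_irr_ne_zero ψ)
  obtain ⟨R, hRdef⟩ : ∃ R : Polynomial ℚ, R = ∑ j ∈ Finset.range N,
      Polynomial.C (((Subgroup.centralizer ({g} : Set G)).index : ℚ)
          / (charDegree (χ : G → ℂ) : ℚ) * (dχ j : ℚ)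
        - ((Subgroup.centralizer ({g} : Set G)).index : ℚ)
          / (charDegree (ψ : G → ℂ) : ℚ) * (dψ j : ℚ)) * Polynomial.X ^ j := ⟨_, rfl⟩
  have hR : ∀ k : ℕ, k.Coprime N → Polynomial.aeval (ζ ^ k) R
      = centralChar (χ : G → ℂ) (g ^ k) - centralChar (ψ : G → ℂ) (g ^ k) := by
    intro k hk
    have hcop : k.Coprime (orderOf g) :=
      hk.coprime_dvd_right (hNdef ▸ orderOf_dvd_natCard g)
    obtain ⟨m, hm⟩ := exists_pow_eq_self_of_coprime hcop
    have hcent : Subgroup.centralizer ({g ^ k} : Set G) = Subgroup.centralizer ({g} : Set G) := by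
      ext x
      simp only [Subgroup.mem_centralizer_iff, Set.mem_singleton_iff, forall_eq]
      constructor
      · intro hx
        have h1 : (g ^ k) ^ m * x = x * (g ^ k) ^ m :=
          (Commute.pow_left (show Commute (g ^ k) x from hx) m).eq
        rwa [hm] at h1
      · intro hx
        exact (Commute.pow_left (show Commute g x from hx) k).eq
    rw [hRdef, map_sum]
    unfold centralChar
    rw [hcent, hdχ k, hdψ k, hχ1, hψ1, Finset.mul_sum, Finset.mul_sum, Finset.sum_div,
      Finset.sum_div, ← Finset.sum_sub_distrib]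
    refine Finset.sum_congr rfl fun j _ => ?_
    simp only [map_mul, map_pow, Polynomial.aeval_C, Polynomial.aeval_X, eq_ratCast]
    rw [← pow_mul, mul_comm k j]
    push_cast
    field_simp
  have hα : centralChar (χ : G → ℂ) g - centralChar (ψ : G → ℂ) g = Polynomial.aeval ζ R := by
    have h1 := hR 1 (Nat.coprime_one_left N)
    rw [pow_one, pow_one] at h1
    exact h1.symm
  refine ⟨⟨centralChar (χ : G → ℂ) g - centralChar (ψ : G → ℂ) g,
    (centralChar_isIntegral χ g).sub (centralChar_isIntegral ψ g)⟩, ?_, rfl⟩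
  refine mem_of_roots_mem hM hM' _ ?_
  intro β hβ
  simp only [] at hβ
  rw [hα] at hβ
  obtain ⟨k, hk, rfl⟩ := root_minpoly_aeval_primitiveRoot N hN ζ hζ R β hβ
  rw [hR k hk]
  refine ⟨⟨_, (centralChar_isIntegral χ (g ^ k)).sub (centralChar_isIntegral ψ (g ^ k))⟩, ?_, rfl⟩
  exact (memLocalIdeal_coe_iff hMp _).mp (h (g ^ k))

end Cfsg.Agent.S0902
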