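import Cfsg.Statements.S0903
import Mathlib

set_option autoImplicit false
open Cfsg

namespace Cfsg.Agent.S0903

/-- Let P be a p-subgroup of the finite group G, let c centralize P and let g, h ∈ G. The number of pairs (x, y) with x conjugate to g, y conjugate to h and x * y = c is congruent modulo p to the number of such pairs in which x and y both centralize P. (This is why the Brauer map on class sums is multiplicative.) -/
theorem result {G : Type*} [Group G] [Finite G] (p : ℕ) [Fact p.Prime] (P : Subgroup G) (hP : IsPGroup p P) (c : G) (hc : c ∈ Subgroup.centralizer (P : Set G)) (g h : G) : Nat.card {xy : G × G // IsConj g xy.1 ∧ IsConj h xy.2 ∧ xy.1 * xy.2 = c} ≡ Nat.card {xy : G × G // IsConj g xy.1 ∧ IsConj h xy.2 ∧ xy.1 * xy.2 = c ∧ xy.1 ∈ Subgroup.centralizer (P : Set G) ∧ xy.2 ∈ Subgroup.centralizer (P : Set G)} [MOD p] := by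
  classical
  let X := {xy : G × G // IsConj g xy.1 ∧ IsConj h xy.2 ∧ xy.1 * xy.2 = c}
  have hcc : ∀ u : P, (u : G) * c * (u : G)⁻¹ = c := by
    intro u
    have := Subgroup.mem_centralizer_iff.mp hc (u : G) u.2
    rw [this]; group
  have hmem : ∀ (u : P) (xy : X),
      IsConj g ((u : G) * xy.1.1 * (u : G)⁻¹) ∧ IsConj h ((u : G) * xy.1.2 * (u : G)⁻¹) ∧
        ((u : G) * xy.1.1 * (u : G)⁻¹) * ((u : G) * xy.1.2 * (u : G)⁻¹) = c := by
    intro u xy
    refine ⟨xy.2.1.trans (isConj_iff.mpr ⟨(u : G), rfl⟩),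
      xy.2.2.1.trans (isConj_iff.mpr ⟨(u : G), rfl⟩), ?_⟩
    have h3 : xy.1.1 * xy.1.2 = c := xy.2.2.2
    calc ((u : G) * xy.1.1 * (u : G)⁻¹) * ((u : G) * xy.1.2 * (u : G)⁻¹)
        = (u : G) * (xy.1.1 * xy.1.2) * (u : G)⁻¹ := by group
      _ = c := by rw [h3, hcc]
  let act : MulAction P X :=
    { smul := fun u xy => ⟨((u : G) * xy.1.1 * (u : G)⁻¹, (u : G) * xy.1.2 * (u : G)⁻¹), hmem u xy⟩
      one_smul := by
        intro xy
        apply Subtype.ext
        apply Prod.ext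
        · show ((1 : P) : G) * xy.1.1 * ((1 : P) : G)⁻¹ = xy.1.1
          simp
        · show ((1 : P) : G) * xy.1.2 * ((1 : P) : G)⁻¹ = xy.1.2
          simp
      mul_smul := by
        intro u v xy
        apply Subtype.ext
        apply Prod.ext
        · show ((u * v : P) : G) * xy.1.1 * ((u * v : P) : G)⁻¹ = (u : G) * ((v : G) * xy.1.1 * (v : G)⁻¹) * (u : G)⁻¹
          simp [mul_assoc]
        · show ((u * v : P) : G) * xy.1.2 * ((u * v : P) : G)⁻¹ = (u : G) * ((v : G) * xy.1.2 * (v : G)⁻¹) * (u : G)⁻¹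
          simp [mul_assoc] }
  have hsmul1 : ∀ (u : P) (xy : X), (u • xy).1.1 = (u : G) * xy.1.1 * (u : G)⁻¹ := fun u xy => rfl
  have hsmul2 : ∀ (u : P) (xy : X), (u • xy).1.2 = (u : G) * xy.1.2 * (u : G)⁻¹ := fun u xy => rfl
  have key := hP.card_modEq_card_fixedPoints X
  refine key.trans ?_
  suffices hsuff : Nat.card (MulAction.fixedPoints P X) = Nat.card {xy : G × G // IsConj g xy.1 ∧ IsConj h xy.2 ∧ xy.1 * xy.2 = c ∧ xy.1 ∈ Subgroup.centralizer (P : Set G) ∧ xy.2 ∈ Subgroup.centralizer (P : Set G)} by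
    rw [hsuff]
  apply Nat.card_congr
  refine
    { toFun := fun z => ⟨z.1.1, z.1.2.1, z.1.2.2.1, z.1.2.2.2, ?_, ?_⟩
      invFun := fun z => ⟨⟨z.1, z.2.1, z.2.2.1, z.2.2.2.1⟩, ?_⟩
      left_inv := fun z => rfl
      right_inv := fun z => rfl }
  · rw [Subgroup.mem_centralizer_iff]
    intro u hu
    have := z.2 ⟨u, hu⟩
    have h1 := congrArg (fun t : X => t.1.1) this
    simp only [hsmul1] at h1
    calc u * z.1.1.1 = (u * z.1.1.1 * u⁻¹) * u := by group
      _ = z.1.1.1 * u := by rw [h1]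
  · rw [Subgroup.mem_centralizer_iff]
    intro u hu
    have := z.2 ⟨u, hu⟩
    have h1 := congrArg (fun t : X => t.1.2) this
    simp only [hsmul2] at h1
    calc u * z.1.1.2 = (u * z.1.1.2 * u⁻¹) * u := by group
      _ = z.1.1.2 * u := by rw [h1]
  · intro u
    apply Subtype.ext
    apply Prod.ext
    · rw [hsmul1]
      have := Subgroup.mem_centralizer_iff.mp z.2.2.2.2.1 (u : G) u.2
      show (u : G) * z.1.1 * (u : G)⁻¹ = z.1.1
      rw [this]; group
    · rw [hsmul2]
      have := Subgroup.mem_centralizer_iff.mp z.2.2.2.2.2 (u : G) u.2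
      show (u : G) * z.1.2 * (u : G)⁻¹ = z.1.2
      rw [this]; group

end Cfsg.Agent.S0903
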