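import Cfsg.Statements.S0905
import Cfsg.Agent.Helper6.AugNil
import Cfsg.Agent.Helper9.Layer

set_option autoImplicit false
open Cfsg

namespace Cfsg.Agent.S0905

open Cfsg.Agent Cfsg.Agent.Helper6 in
/-- Let F be a field of characteristic p and let g be an element of the finite group G no conjugate of which centralizes O_p(G). Then the class sum of g is a nilpotent element of the group algebra F[G]. -/
theorem result {G : Type*} [Group G] [Finite G] (p : ℕ) [Fact p.Prime] (F : Type*) [Field F] [CharP F p] (g : G) (hg : ∀ x : G, IsConj g x → x ∉ Subgroup.centralizer (Cfsg.pCore p G : Set G)) : IsNilpotent (∑ᶠ x ∈ ConjClasses.carrier (ConjClasses.mk g), MonoidAlgebra.single x (1 : F) : MonoidAlgebra F G) := by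
  classical
  haveI : Fintype G := Fintype.ofFinite G
  haveI hPn : (Cfsg.pCore p G).Normal := Subgroup.normal_of_characteristic _
  have hP : IsPGroup p (Cfsg.pCore p G) := Helper9.pCore_isPGroup p
  obtain ⟨C, hC⟩ : ∃ C : Finset G, C = Finset.univ.filter (fun x => IsConj g x) := ⟨_, rfl⟩
  have hfin : (∑ᶠ x ∈ ConjClasses.carrier (ConjClasses.mk g), MonoidAlgebra.single x (1 : F)
      : MonoidAlgebra F G) = ∑ x ∈ C, MonoidAlgebra.single x (1 : F) := by
    rw [finsum_mem_eq_finite_toFinset_sum _ (Set.toFinite _)]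
    congr 1
    ext x
    rw [hC]
    simp only [Set.Finite.mem_toFinset, Finset.mem_filter, Finset.mem_univ, true_and]
    rw [ConjClasses.mem_carrier_iff_mk_eq, ConjClasses.mk_eq_mk_iff_isConj]
    exact ⟨fun h => h.symm, fun h => h.symm⟩
  rw [hfin]
  -- the class sum over the prime field
  have hK0 : MonoidAlgebra.mapDomain (QuotientGroup.mk : G → G ⧸ Cfsg.pCore p G)
      (∑ x ∈ C, MonoidAlgebra.single x (1 : ZMod p)) = 0 := by
    have e1 : MonoidAlgebra.mapDomain (QuotientGroup.mk : G → G ⧸ Cfsg.pCore p G)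
        (∑ x ∈ C, MonoidAlgebra.single x (1 : ZMod p))
        = MonoidAlgebra.mapDomainRingHom (ZMod p) (QuotientGroup.mk' (Cfsg.pCore p G))
          (∑ x ∈ C, MonoidAlgebra.single x (1 : ZMod p)) := rfl
    rw [e1, map_sum]
    apply MonoidAlgebra.coeff_injective
    ext q
    rw [MonoidAlgebra.coeff_sum, Finsupp.finsetSum_apply]
    have e2 : ∀ x ∈ C, (MonoidAlgebra.mapDomainRingHom (ZMod p)
        (QuotientGroup.mk' (Cfsg.pCore p G)) (MonoidAlgebra.single x (1 : ZMod p))).coeff q
        = if (QuotientGroup.mk x : G ⧸ Cfsg.pCore p G) = q then 1 else 0 := by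
      intro x _
      rw [MonoidAlgebra.mapDomainRingHom_apply, MonoidAlgebra.mapDomain_single,
        MonoidAlgebra.coeff_single, Finsupp.single_apply]
      rfl
    rw [Finset.sum_congr rfl e2, Finset.sum_boole]
    show ((C.filter (fun x => (QuotientGroup.mk x : G ⧸ Cfsg.pCore p G) = q)).card : ZMod p) = 0
    rw [ZMod.natCast_eq_zero_iff]
    -- the action of the p-core on the fibre
    have hcardS : Nat.card {x : G // IsConj g x ∧ (QuotientGroup.mk x : G ⧸ Cfsg.pCore p G) = q}
        = (C.filter (fun x => (QuotientGroup.mk x : G ⧸ Cfsg.pCore p G) = q)).card := by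
      rw [Nat.card_eq_fintype_card, Fintype.card_subtype, hC, Finset.filter_filter]
    rw [← hcardS]
    letI : MulAction (Cfsg.pCore p G)
        {x : G // IsConj g x ∧ (QuotientGroup.mk x : G ⧸ Cfsg.pCore p G) = q} :=
      { smul := fun u x => ⟨(u : G) * x.1 * (u : G)⁻¹, by
          refine ⟨x.2.1.trans (isConj_iff.mpr ⟨(u : G), rfl⟩), ?_⟩
          have hu : (QuotientGroup.mk (u : G) : G ⧸ Cfsg.pCore p G) = 1 :=
            (QuotientGroup.eq_one_iff _).mpr u.2
          rw [QuotientGroup.mk_mul, QuotientGroup.mk_mul, QuotientGroup.mk_inv, hu, x.2.2]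
          simp⟩
        one_smul := fun x => by
          apply Subtype.ext
          show ((1 : Cfsg.pCore p G) : G) * x.1 * ((1 : Cfsg.pCore p G) : G)⁻¹ = x.1
          simp
        mul_smul := fun u v x => by
          apply Subtype.ext
          show ((u * v : Cfsg.pCore p G) : G) * x.1 * ((u * v : Cfsg.pCore p G) : G)⁻¹
            = (u : G) * ((v : G) * x.1 * (v : G)⁻¹) * (u : G)⁻¹
          simp only [Subgroup.coe_mul]
          group }
    have hmod := hP.card_modEq_card_fixedPoints
      {x : G // IsConj g x ∧ (QuotientGroup.mk x : G ⧸ Cfsg.pCore p G) = q}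
    have hfp : MulAction.fixedPoints (Cfsg.pCore p G)
        {x : G // IsConj g x ∧ (QuotientGroup.mk x : G ⧸ Cfsg.pCore p G) = q} = ∅ := by
      ext x
      simp only [MulAction.mem_fixedPoints, Set.mem_empty_iff_false, iff_false]
      intro hx
      apply hg x.1 x.2.1
      rw [Subgroup.mem_centralizer_iff]
      intro u hu
      have h1 := congrArg Subtype.val (hx ⟨u, hu⟩)
      have h2 : u * x.1 * u⁻¹ = x.1 := h1
      calc u * x.1 = (u * x.1 * u⁻¹) * u := by group
        _ = x.1 * u := by rw [h2]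
    rw [hfp] at hmod
    have h0 : Nat.card ↥(∅ : Set {x : G // IsConj g x ∧
        (QuotientGroup.mk x : G ⧸ Cfsg.pCore p G) = q}) = 0 := by simp
    rw [h0] at hmod
    exact (Nat.modEq_zero_iff_dvd).mp hmod
  have hnil := Helper6.AugNil.isNilpotent_of_mapDomain_eq_zero p (Cfsg.pCore p G) hP _ hK0
  letI : Algebra (ZMod p) F := ZMod.algebra F p
  have himg : MonoidAlgebra.mapRingHom G (algebraMap (ZMod p) F)
      (∑ x ∈ C, MonoidAlgebra.single x (1 : ZMod p)) = ∑ x ∈ C, MonoidAlgebra.single x (1 : F) := by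
    rw [map_sum]
    apply Finset.sum_congr rfl
    intro x _
    rw [MonoidAlgebra.mapRingHom_single, map_one]
  rw [← himg]
  exact hnil.map _

end Cfsg.Agent.S0905
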