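import Cfsg.Statements.S0910
import Cfsg.Agent.Helper25.BlockBase
import Cfsg.Agent.Helper24.MGroup
import Cfsg.Agent.Helper24.ClassSum
import Cfsg.Agent.Helper2.CharGalois
import Cfsg.Agent.Helper2.CharBound
import Cfsg.Agent.Helper2.CharLinear
import Cfsg.Agent.Helper2.CharComplete

set_option autoImplicit false
open Cfsg

namespace Cfsg.Agent.S0910

open Cfsg.Agent Cfsg.Agent.Helper6 in
/-- Let G be a non-abelian finite simple group and p a prime. If an irreducible character χ lies in the principal block (relative to a maximal ideal of the algebraic integers containing p) and χ 1 is a power of p, then χ is the principal character. -/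
theorem result {G : Type*} [Group G] [Finite G] (p : ℕ) [Fact p.Prime] (M : Ideal Cfsg.AlgInt) (hM : Cfsg.IsPModular p M) [IsSimpleGroup G] (hna : ∃ a b : G, a * b ≠ b * a) (χ : Cfsg.IrrCharacter G) (hχ : χ ∈ Cfsg.principalBlock M G) (k : ℕ) (hdeg : (χ : G → ℂ) 1 = (p : ℂ) ^ k) : (χ : G → ℂ) = fun _ => 1 := by
  classical
  cases nonempty_fintype G
  have hMp : M.IsPrime := Helper25.IsPModular.isPrime hM
  have hp : p.Prime := Fact.out
  obtain ⟨n, ρ, hρ, hρχ⟩ := χ.2
  haveI := hρ
  have hχc : IsCharacter G (χ : G → ℂ) := Helper24.isCharacter_of_irr χ.2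
  have hn : (χ : G → ℂ) 1 = (n : ℂ) := by
    rw [← hρχ, Representation.char_one]
    simp
  have hfr : Module.finrank ℂ (Fin n → ℂ) = n := by simp
  have hnk : n = p ^ k := by
    have h1 : (n : ℂ) = ((p ^ k : ℕ) : ℂ) := by
      rw [← hn, hdeg]
      push_cast
      rfl
    exact_mod_cast h1
  rcases (Helper24.charKerSubgroup_normal hχc).eq_bot_or_eq_top with hK | hK
  swap
  · have hconst : ∀ g, (χ : G → ℂ) g = (χ : G → ℂ) 1 := fun g => by
      have h1 : g ∈ Helper24.charKerSubgroup hχc := by
        rw [hK]
        trivial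
      exact h1
    have hG0 : (Nat.card G : ℂ) ≠ 0 := by exact_mod_cast Nat.card_pos.ne'
    have hne : classInner (χ : G → ℂ) (fun _ => 1) ≠ 0 := by
      rw [classInner]
      simp only [map_one, mul_one]
      rw [Finset.sum_congr rfl (fun g _ => hconst g), Finset.sum_const, Finset.card_univ,
        nsmul_eq_mul, ← Nat.card_eq_fintype_card, ← mul_assoc, inv_mul_cancel₀ hG0, one_mul]
      exact Helper24.irr_one_ne_zero χ.2
    have h2 := Helper2.classInner_irr χ.2 (Helper2.isIrrCharacter_one_fun (G := G))
    by_contra hcon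
    rw [if_neg hcon] at h2
    exact hne h2
  · exfalso
    have hfaith : ∀ g : G, (χ : G → ℂ) g = (χ : G → ℂ) 1 → g = 1 := by
      intro g hg
      have h1 : g ∈ Helper24.charKerSubgroup hχc := hg
      rw [hK, Subgroup.mem_bot] at h1
      exact h1
    obtain ⟨z, hz1, hzc⟩ : ∃ z : G, z ≠ 1 ∧
        ¬ p ∣ (Subgroup.centralizer ({z} : Set G)).index := by
      obtain ⟨P⟩ : Nonempty (Sylow p G) := inferInstance
      by_cases hP : (P : Subgroup G) = ⊥
      · obtain ⟨a, b, hab⟩ := hna
        have ha : a ≠ 1 := by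
          rintro rfl
          simp at hab
        refine ⟨a, ha, ?_⟩
        intro hdvd
        have h1 : p ∣ Nat.card G := dvd_trans hdvd (Subgroup.index_dvd_card _)
        have h2 := P.not_dvd_index
        rw [hP, Subgroup.index_bot] at h2
        exact h2 h1
      · haveI : Nontrivial (P : Subgroup G) := (Subgroup.nontrivial_iff_ne_bot _).mpr hP
        haveI hc := IsPGroup.center_nontrivial P.isPGroup'
        obtain ⟨⟨z, hz⟩, hz1⟩ := exists_ne (1 : Subgroup.center (P : Subgroup G))
        refine ⟨(z : G), ?_, ?_⟩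
        · intro h
          apply hz1
          apply Subtype.ext
          apply Subtype.ext
          exact h
        · intro hdvd
          have hle : (P : Subgroup G) ≤ Subgroup.centralizer ({(z : G)} : Set G) := by
            intro x hx
            rw [Subgroup.mem_centralizer_iff]
            intro y hy
            rw [Set.mem_singleton_iff] at hy
            rw [hy]
            have h1 := Subgroup.mem_center_iff.mp hz ⟨x, hx⟩
            have h2 := congrArg Subtype.val h1
            exact h2.symm
          exact P.not_dvd_index (dvd_trans hdvd (Subgroup.index_dvd_of_le hle))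
    obtain ⟨c, hc⟩ : ∃ c : ℕ, c = (Subgroup.centralizer ({z} : Set G)).index := ⟨_, rfl⟩
    rw [← hc] at hzc
    have hcop : Nat.Coprime c (p ^ k) :=
      Nat.Coprime.pow_right k (Nat.Coprime.symm ((Nat.Prime.coprime_iff_not_dvd hp).mpr hzc))
    have hbez : (c : ℤ) * Int.gcdA c (p ^ k : ℕ) + ((p ^ k : ℕ) : ℤ) * Int.gcdB c (p ^ k : ℕ)
        = 1 := by
      have h1 := Int.gcd_eq_gcd_ab (c : ℤ) ((p ^ k : ℕ) : ℤ)
      rw [Int.gcd_natCast_natCast, hcop] at h1
      exact_mod_cast h1.symm
    have hn0' : (n : ℂ) ≠ 0 := by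
      rw [hnk]
      exact_mod_cast (pow_pos hp.pos k).ne'
    have hint : IsIntegral ℤ ((χ : G → ℂ) z / (n : ℂ)) := by
      have h1 := Helper25.centralChar_isIntegral χ z
      have h2 := Helper2.IsCharacter.isIntegral hχc z
      have hb : ((c : ℂ) * (Int.gcdA c (p ^ k : ℕ) : ℂ) +
          (n : ℂ) * (Int.gcdB c (p ^ k : ℕ) : ℂ)) = 1 := by
        rw [hnk]
        exact_mod_cast hbez
      have e : (χ : G → ℂ) z / (n : ℂ) =
          (Int.gcdA c (p ^ k : ℕ) : ℂ) * centralChar (χ : G → ℂ) z +
            (Int.gcdB c (p ^ k : ℕ) : ℂ) * (χ : G → ℂ) z := by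
        unfold centralChar
        rw [hn, ← hc]
        field_simp
        linear_combination (-((χ : G → ℂ) z)) * hb
      rw [e]
      exact (IsIntegral.mul (isIntegral_algebraMap (R := ℤ) (A := ℂ)) h1).add
        (IsIntegral.mul (isIntegral_algebraMap (R := ℤ) (A := ℂ)) h2)
    have hn0 : Module.finrank ℂ (Fin n → ℂ) ≠ 0 := by
      rw [hfr, hnk]
      exact (pow_pos hp.pos k).ne'
    have hint' : IsIntegral ℤ (ρ.character z / (Module.finrank ℂ (Fin n → ℂ) : ℂ)) := by
      rw [hfr, hρχ]
      exact hint
    rcases Helper2.character_eq_zero_or_norm_eq_of_integral ρ z hn0 hint' with h0 | hnorm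
    · have hb := hχ z
      have e : centralChar (fun _ : G => (1 : ℂ)) z - centralChar (χ : G → ℂ) z = (c : ℂ) := by
        unfold centralChar
        rw [← hρχ, h0, ← hc]
        simp
      rw [e] at hb
      exact hzc ((Helper25.memLocalIdeal_natCast_iff hM c).mp hb)
    · obtain ⟨ω, hω, -⟩ := Helper2.character_scalar_of_norm_eq ρ z hnorm
      have hcentral : ∀ g : G, z * g = g * z := by
        intro g
        have h1 : ρ (z * g) = ρ (g * z) := by
          rw [map_mul, map_mul, hω, smul_mul_assoc, one_mul, mul_smul_comm, mul_one]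
        have h2 : ρ ((z * g) * (g * z)⁻¹) = 1 := by
          rw [map_mul, h1, ← map_mul, mul_inv_cancel, map_one]
        have h3 : (χ : G → ℂ) ((z * g) * (g * z)⁻¹) = (χ : G → ℂ) 1 := by
          rw [← hρχ]
          show LinearMap.trace _ _ (ρ _) = LinearMap.trace _ _ (ρ 1)
          rw [h2, map_one ρ]
        exact mul_inv_eq_one.mp (hfaith _ h3)
      have hzcen : z ∈ Subgroup.center G :=
        Subgroup.mem_center_iff.mpr (fun g => (hcentral g).symm)
      rcases (inferInstance : (Subgroup.center G).Normal).eq_bot_or_eq_top with h | h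
      · rw [h, Subgroup.mem_bot] at hzcen
        exact hz1 hzcen
      · obtain ⟨a, b, hab⟩ := hna
        have ha : a ∈ Subgroup.center G := by
          rw [h]
          trivial
        exact hab ((Subgroup.mem_center_iff.mp ha b).symm)

end Cfsg.Agent.S0910
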