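import Cfsg.Statements.S0911
import Cfsg.Agent.Helper25.BlockMinMax2
open Cfsg.Agent.Helper25

set_option autoImplicit false
open Cfsg

namespace Cfsg.Agent.S0911

/-- The min–max Theorem for defect classes. Let B be a block of the finite group G relative to a maximal ideal M of the algebraic integers containing the prime p, let g represent a defect class of B and let D be a Sylow p-subgroup of the centralizer of g (viewed in G). For any h: (a) if the idempotent coefficient of B at h is a local integer outside the local ideal, then some conjugate of D contains a Sylow p-subgroup of the centralizer of h; (b) if the central character of some member of B at h is outside the local ideal, then some conjugate of D is contained in a Sylow p-subgroup of the centralizer of h. -/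
theorem result {G : Type*} [Group G] [Finite G] (p : ℕ) [Fact p.Prime] (M : Ideal Cfsg.AlgInt) (hM : Cfsg.IsPModular p M) (B : Set (Cfsg.IrrCharacter G)) (hB : Cfsg.IsPBlock M B) (g : G) (hg : Cfsg.IsDefectClass M B g) (D : Sylow p (Subgroup.centralizer ({g} : Set G))) (h : G) : (Cfsg.MemLocalRing M (Cfsg.blockCoeff B h) → ¬ Cfsg.MemLocalIdeal M (Cfsg.blockCoeff B h) → ∃ (x : G) (Q : Sylow p (Subgroup.centralizer ({h} : Set G))), (Q : Subgroup (Subgroup.centralizer ({h} : Set G))).map (Subgroup.centralizer ({h} : Set G)).subtype ≤ ((D : Subgroup (Subgroup.centralizer ({g} : Set G))).map (Subgroup.centralizer ({g} : Set G)).subtype).map (MulAut.conj x).toMonoidHom) ∧ ((∃ χ ∈ B, ¬ Cfsg.MemLocalIdeal M (Cfsg.centralChar (χ : G → ℂ) h)) → ∃ (x : G) (Q : Sylow p (Subgroup.centralizer ({h} : Set G))), ((D : Subgroup (Subgroup.centralizer ({g} : Set G))).map (Subgroup.centralizer ({g} : Set G)).subtype).map (MulAut.conj x).toMonoidHom ≤ (Q : Subgroup (Subgroup.centralizer ({h} : Set G))).map (Subgroup.centralizer ({h} : Set G)).subtype)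 := by
  classical
  have : Fintype G := Fintype.ofFinite G
  obtain ⟨hgR, hgJ, hgω⟩ := hg
  obtain ⟨χ₀, hχ₀B⟩ : ∃ χ₀ : IrrCharacter G, χ₀ ∈ B := by
    obtain ⟨χ₁, hBeq⟩ := id hB
    exact ⟨χ₁, by rw [hBeq]; exact mem_blockOf_self hM.2.1.isPrime.ne_top χ₁⟩
  constructor
  · intro _ hhJ
    obtain ⟨Q⟩ : Nonempty (Sylow p (Subgroup.centralizer ({h} : Set G))) := inferInstance
    have hQp : IsPGroup p ((Q : Subgroup (Subgroup.centralizer ({h} : Set G))).map
        (Subgroup.centralizer ({h} : Set G)).subtype) := Q.isPGroup'.map _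
    have hQle : (Q : Subgroup (Subgroup.centralizer ({h} : Set G))).map
        (Subgroup.centralizer ({h} : Set G)).subtype ≤ Subgroup.centralizer ({h} : Set G) := by
      rintro _ ⟨q, _, rfl⟩
      exact q.2
    obtain ⟨x, hx, hPx⟩ := minmax_core hM hB χ₀ hχ₀B g (hgω χ₀ hχ₀B) h hhJ _ hQp hQle
    obtain ⟨y, hy⟩ := exists_conj_le_of_centralizer g D _ hQp x hx hPx
    exact ⟨y, Q, hy⟩
  · rintro ⟨χ, hχ, hχh⟩
    have hDp : IsPGroup p ((D : Subgroup (Subgroup.centralizer ({g} : Set G))).map
        (Subgroup.centralizer ({g} : Set G)).subtype) := D.isPGroup'.map _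
    have hDle : (D : Subgroup (Subgroup.centralizer ({g} : Set G))).map
        (Subgroup.centralizer ({g} : Set G)).subtype ≤ Subgroup.centralizer ({g} : Set G) := by
      rintro _ ⟨q, _, rfl⟩
      exact q.2
    obtain ⟨x, hx, hPx⟩ := minmax_core hM hB χ hχ h hχh g hgJ _ hDp hDle
    obtain ⟨y, Q, hy⟩ := exists_sylow_ge_conj h _ hDp x hx hPx
    exact ⟨y, Q, hy⟩

end Cfsg.Agent.S0911
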