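import Cfsg.Statements.S0912
import Cfsg.Agent.Helper25.BlockQuot
import Cfsg.Agent.Helper16.PCore
open Cfsg.Agent.Helper25

set_option autoImplicit false
open Cfsg

namespace Cfsg.Agent.S0912

/-- Let B be a block of the finite group G relative to a maximal ideal M of the algebraic integers containing the prime p. Every defect group of B contains the largest normal p-subgroup O_p(G). -/
theorem result {G : Type*} [Group G] [Finite G] (p : ℕ) [Fact p.Prime] (M : Ideal Cfsg.AlgInt) (hM : Cfsg.IsPModular p M) (B : Set (Cfsg.IrrCharacter G)) (hB : Cfsg.IsPBlock M B) (D : Subgroup G) (hD : Cfsg.IsDefectGroup p M B D) : Cfsg.pCore p G ≤ D := by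
  classical
  have : Fintype G := Fintype.ofFinite G
  have hn : (Cfsg.pCore p G).Normal := Helper16.pCore_normal p G
  have hp : IsPGroup p (Cfsg.pCore p G) := Helper16.pCore_isPGroup p G
  obtain ⟨g, hdc, P, rfl⟩ := hD
  obtain ⟨χ₀, rfl⟩ := hB
  have hχ₀ := mem_blockOf_self hM.2.1.isPrime.ne_top χ₀
  have hgC : g ∈ Subgroup.centralizer ((Cfsg.pCore p G : Subgroup G) : Set G) := by
    by_contra hg
    exact hdc.2.2 χ₀ hχ₀ (centralChar_mem_of_not_centralizer hM _ hp χ₀ g hg)
  have hle : Cfsg.pCore p G ≤ Subgroup.centralizer ({g} : Set G) := by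
    intro q hq
    rw [Subgroup.mem_centralizer_singleton_iff]
    exact Subgroup.mem_centralizer_iff.1 hgC q hq
  have hp' : IsPGroup p ((Cfsg.pCore p G).subgroupOf (Subgroup.centralizer ({g} : Set G))) :=
    hp.comap_subtype
  have hle2 := IsPGroup.le_sylow_of_normal hp' P
  intro q hq
  exact ⟨⟨q, hle hq⟩, hle2 (Subgroup.mem_subgroupOf.2 hq), rfl⟩

end Cfsg.Agent.S0912
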