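import Cfsg.Statements.S0916
-- import your own Cfsg.Agent.* helpers here
import Cfsg.Agent.Helper24.SylowSub

set_option autoImplicit false
open Cfsg

namespace Cfsg.Agent.S0916

open Cfsg.Agent.Helper24
open scoped Pointwise

/-- Let P be a p-subgroup of the finite group G, C its centralizer and N its normalizer. Say that a conjugacy class (of G, or of N) has defect group P when P is a Sylow p-subgroup of the centralizer (in G, respectively in N) of some element of the class. Then: (i) if the class of g in G has defect group P, the elements of that class lying in C form a single N-class, again with defect group P; (ii) every N-class with defect group P arises this way from exactly one G-class with defect group P. -/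
theorem result {G : Type*} [Group G] [Finite G] (p : ℕ) [Fact p.Prime] (P : Subgroup G) (hP : IsPGroup p P) : (∀ g : G, (∃ S : Sylow p (Subgroup.centralizer ({g} : Set G)), (S : Subgroup (Subgroup.centralizer ({g} : Set G))).map (Subgroup.centralizer ({g} : Set G)).subtype = P) → (∃ c : G, IsConj g c ∧ c ∈ Subgroup.centralizer (P : Set G)) ∧ (∀ c₁ c₂ : G, IsConj g c₁ → IsConj g c₂ → c₁ ∈ Subgroup.centralizer (P : Set G) → c₂ ∈ Subgroup.centralizer (P : Set G) → ∃ n ∈ Subgroup.normalizer (P : Set G), n * c₁ * n⁻¹ = c₂)) ∧ (∀ c : G, c ∈ Subgroup.centralizer (P : Set G) → (∃ S : Sylow p (Subgroup.centralizer ({c} : Set G) ⊓ Subgroup.normalizer (P : Set G) : Subgroup G), (S : Subgroup ↥(Subgroup.centralizer ({c} : Set G) ⊓ Subgroup.normalizer (P : Set G))).map (Subgroup.centralizer ({c} : Set G) ⊓ Subgroup.normalizer (P : Set G)).subtype = P) → ∃ S : Sylow p (Subgroup.centralizer ({c} : Set G)), (S : Subgroup (Subgroup.centralizer ({c} : Set G))).map (Subgroup.centralizer ({c} : Set G)).subtype = P) := by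
  classical
  have hp : p.Prime := Fact.out
  refine ⟨fun g hS => ?_, fun c hc hS => ?_⟩
  · obtain ⟨S, hSP⟩ := hS
    have hPH : P ≤ Subgroup.centralizer ({g} : Set G) := by
      have h0 := Subgroup.map_subtype_le (S : Subgroup ↥(Subgroup.centralizer ({g} : Set G)))
      rw [hSP] at h0
      exact h0
    have hcardP : Nat.card P
        = p ^ (Nat.card (Subgroup.centralizer ({g} : Set G))).factorization p := by
      have e := Subgroup.card_map_of_injective
        (K := (S : Subgroup ↥(Subgroup.centralizer ({g} : Set G))))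
        (Subgroup.subtype_injective (Subgroup.centralizer ({g} : Set G)))
      rw [hSP] at e
      exact e.trans S.card_eq_multiplicity
    have hcomm : ∀ u ∈ P, g * u = u * g := fun u hu =>
      (Subgroup.mem_centralizer_iff.mp (hPH hu)) g (Set.mem_singleton g)
    refine ⟨⟨g, IsConj.refl g, ?_⟩, ?_⟩
    · rw [Subgroup.mem_centralizer_iff]
      intro u hu
      exact (hcomm u hu).symm
    · intro c₁ c₂ h1 h2 hc1 hc2
      obtain ⟨a, ha⟩ := isConj_iff.mp h1
      obtain ⟨b, hb⟩ := isConj_iff.mp h2
      have hQ : ∀ (a c : G), a * g * a⁻¹ = c → c ∈ Subgroup.centralizer (P : Set G) →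
          MulAut.conj a⁻¹ • P ≤ Subgroup.centralizer ({g} : Set G) := by
        intro a c hac hcC y hy
        rw [Cfsg.Agent.Helper1.mem_conj_smul, inv_inv] at hy
        have h3 : (a * y * a⁻¹) * c = c * (a * y * a⁻¹) :=
          (Subgroup.mem_centralizer_iff.mp hcC) _ hy
        rw [← hac] at h3
        have e1 : a * (y * g) * a⁻¹ = a * (g * y) * a⁻¹ := by
          calc a * (y * g) * a⁻¹ = (a * y * a⁻¹) * (a * g * a⁻¹) := by group
            _ = (a * g * a⁻¹) * (a * y * a⁻¹) := h3
            _ = a * (g * y) * a⁻¹ := by group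
        rw [Subgroup.mem_centralizer_iff]
        intro h hh
        rw [Set.mem_singleton_iff] at hh
        rw [hh]
        exact (mul_left_cancel (mul_right_cancel e1)).symm
      have hcard : ∀ a : G, Nat.card (MulAut.conj a⁻¹ • P : Subgroup G)
          = p ^ (Nat.card (Subgroup.centralizer ({g} : Set G))).factorization p := by
        intro a
        rw [← hcardP]
        exact Nat.card_congr (Subgroup.equivSMul (MulAut.conj a⁻¹) P).toEquiv.symm
      obtain ⟨x, hxH, hx⟩ := sylow_conj_in_subgroup p (Subgroup.centralizer ({g} : Set G))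
        (MulAut.conj a⁻¹ • P) (MulAut.conj b⁻¹ • P) (hQ a c₁ ha hc1) (hQ b c₂ hb hc2)
        (hcard a) (hcard b)
      have hxg : g * x = x * g :=
        (Subgroup.mem_centralizer_iff.mp hxH) g (Set.mem_singleton g)
      have k1 : ∀ y, y ∈ MulAut.conj a⁻¹ • P ↔ a * y * a⁻¹ ∈ P := fun y => by
        rw [Cfsg.Agent.Helper1.mem_conj_smul, inv_inv]
      have k2 : ∀ y, y ∈ MulAut.conj b⁻¹ • P ↔ b * y * b⁻¹ ∈ P := fun y => by
        rw [Cfsg.Agent.Helper1.mem_conj_smul, inv_inv]
      refine ⟨b * x * a⁻¹, ?_, ?_⟩
      · rw [Subgroup.mem_normalizer_iff]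
        intro h
        have e1 : b * x * a⁻¹ * h * (b * x * a⁻¹)⁻¹
            = b * (x * (a⁻¹ * h * a) * x⁻¹) * b⁻¹ := by group
        have e2 : a * (x⁻¹ * (x * (a⁻¹ * h * a) * x⁻¹) * x) * a⁻¹ = h := by group
        rw [e1, ← k2, hx, k1, e2]
      · rw [← ha, ← hb]
        calc b * x * a⁻¹ * (a * g * a⁻¹) * (b * x * a⁻¹)⁻¹
            = b * (x * g) * x⁻¹ * b⁻¹ := by group
          _ = b * (g * x) * x⁻¹ * b⁻¹ := by rw [hxg]
          _ = b * g * b⁻¹ := by group
  · obtain ⟨S, hSP⟩ := hS
    have hPM : P ≤ (Subgroup.centralizer ({c} : Set G)) := by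
      intro u hu
      rw [Subgroup.mem_centralizer_iff]
      intro h hh
      rw [Set.mem_singleton_iff] at hh
      rw [hh]
      exact ((Subgroup.mem_centralizer_iff.mp hc) u hu).symm
    have hcardP : Nat.card P = p ^ (Nat.card ((Subgroup.centralizer ({c} : Set G) ⊓ Subgroup.normalizer (P : Set G)) : Subgroup G)).factorization p := by
      have e := Subgroup.card_map_of_injective
        (K := (S : Subgroup ↥((Subgroup.centralizer ({c} : Set G) ⊓ Subgroup.normalizer (P : Set G)) : Subgroup G)))
        (Subgroup.subtype_injective ((Subgroup.centralizer ({c} : Set G) ⊓ Subgroup.normalizer (P : Set G)) : Subgroup G))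
      rw [hSP] at e
      exact e.trans S.card_eq_multiplicity
    have hclaim : Nat.card P = p ^ (Nat.card (Subgroup.centralizer ({c} : Set G))).factorization p := by
      by_contra hne
      have hdvdM : Nat.card P ∣ Nat.card (Subgroup.centralizer ({c} : Set G)) := Subgroup.card_dvd_of_le hPM
      rw [hcardP] at hdvdM hne
      have hle : (Nat.card ((Subgroup.centralizer ({c} : Set G) ⊓ Subgroup.normalizer (P : Set G)) : Subgroup G)).factorization p ≤ (Nat.card (Subgroup.centralizer ({c} : Set G))).factorization p :=
        (hp.pow_dvd_iff_le_factorization (Nat.card_pos.ne')).mp hdvdM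
      have hlt : (Nat.card ((Subgroup.centralizer ({c} : Set G) ⊓ Subgroup.normalizer (P : Set G)) : Subgroup G)).factorization p < (Nat.card (Subgroup.centralizer ({c} : Set G))).factorization p :=
        lt_of_le_of_ne hle (fun h => hne (by rw [h]))
      have hdvd2 : p ^ ((Nat.card ((Subgroup.centralizer ({c} : Set G) ⊓ Subgroup.normalizer (P : Set G)) : Subgroup G)).factorization p + 1) ∣ Nat.card (Subgroup.centralizer ({c} : Set G)) :=
        (hp.pow_dvd_iff_le_factorization (Nat.card_pos.ne')).mpr hlt
      have hH : Nat.card (P.subgroupOf (Subgroup.centralizer ({c} : Set G))) = p ^ (Nat.card ((Subgroup.centralizer ({c} : Set G) ⊓ Subgroup.normalizer (P : Set G)) : Subgroup G)).factorization p := by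
        rw [← hcardP]; exact Nat.card_congr (Subgroup.subgroupOfEquivOfLe hPM).toEquiv
      have h5 := Sylow.prime_pow_dvd_card_normalizer hdvd2 hH
      have hmem : ∀ m : Subgroup.normalizer ((P.subgroupOf (Subgroup.centralizer ({c} : Set G)) : Subgroup (Subgroup.centralizer ({c} : Set G))) : Set (Subgroup.centralizer ({c} : Set G))),
          ((m : (Subgroup.centralizer ({c} : Set G))) : G) ∈ ((Subgroup.centralizer ({c} : Set G) ⊓ Subgroup.normalizer (P : Set G)) : Subgroup G) := by
        intro m
        refine Subgroup.mem_inf.mpr ⟨(m : (Subgroup.centralizer ({c} : Set G))).2, ?_⟩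
        rw [Subgroup.mem_normalizer_iff]
        intro h
        have hm := Subgroup.mem_normalizer_iff.mp m.2
        constructor
        · intro hh
          have h9 := (hm ⟨h, hPM hh⟩).mp (Subgroup.mem_subgroupOf.mpr hh)
          exact Subgroup.mem_subgroupOf.mp h9
        · intro hh
          have hhM : h ∈ (Subgroup.centralizer ({c} : Set G)) := by
            have h8 := ((Subgroup.centralizer ({c} : Set G))).mul_mem (((Subgroup.centralizer ({c} : Set G))).mul_mem (((Subgroup.centralizer ({c} : Set G))).inv_mem (m : (Subgroup.centralizer ({c} : Set G))).2) (hPM hh)) (m : (Subgroup.centralizer ({c} : Set G))).2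
            have e : ((m : (Subgroup.centralizer ({c} : Set G))) : G)⁻¹ * (((m : (Subgroup.centralizer ({c} : Set G))) : G) * h * ((m : (Subgroup.centralizer ({c} : Set G))) : G)⁻¹) * ((m : (Subgroup.centralizer ({c} : Set G))) : G)
                = h := by group
            rwa [e] at h8
          have h9 := (hm ⟨h, hhM⟩).mpr (Subgroup.mem_subgroupOf.mpr hh)
          exact Subgroup.mem_subgroupOf.mp h9
      let φ : ↥(Subgroup.normalizer ((P.subgroupOf (Subgroup.centralizer ({c} : Set G)) : Subgroup (Subgroup.centralizer ({c} : Set G))) : Set (Subgroup.centralizer ({c} : Set G))))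
          →* ↥((Subgroup.centralizer ({c} : Set G) ⊓ Subgroup.normalizer (P : Set G)) : Subgroup G) :=
        { toFun := fun m => ⟨((m : (Subgroup.centralizer ({c} : Set G))) : G), hmem m⟩
          map_one' := rfl
          map_mul' := fun _ _ => rfl }
      have hφ : Function.Injective φ := fun m m' h =>
        Subtype.ext (Subtype.ext (congrArg (fun z : ↥((Subgroup.centralizer ({c} : Set G) ⊓ Subgroup.normalizer (P : Set G)) : Subgroup G) => (z : G)) h))
      have h6 := Subgroup.card_dvd_of_injective φ hφ
      have h7 := (hp.pow_dvd_iff_le_factorization (Nat.card_pos.ne')).mp (h5.trans h6)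
      omega
    refine ⟨Sylow.ofCard (P.subgroupOf (Subgroup.centralizer ({c} : Set G))) (by
      rw [← hclaim]; exact Nat.card_congr (Subgroup.subgroupOfEquivOfLe hPM).toEquiv), ?_⟩
    rw [Sylow.coe_ofCard]
    exact Subgroup.map_subgroupOf_eq_of_le hPM

end Cfsg.Agent.S0916
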