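import Cfsg.Statements.S0922
import Cfsg.Agent.Helper25.SecondMainIdem
import Cfsg.Agent.Helper25.SectionSum
open Cfsg.Agent.Helper25
open Cfsg.Agent

set_option autoImplicit false
open Cfsg

namespace Cfsg.Agent.S0922

/-- Let H be a subgroup of the finite group G and let the block b of H induce the block B of G (relative to a maximal ideal M of the algebraic integers containing the prime p). Let h ∈ H be such that the centralizer in G of the p-part of h lies in H, and let χ be an irreducible character of G not in B. Then the sum over k ∈ H of (the idempotent coefficient of b at k) times χ (k * h) vanishes; that is, χ annihilates f_b h where f_b is the sum of the central idempotents of the members of b. -/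
theorem result {G : Type*} [Group G] [Finite G] (p : ℕ) [Fact p.Prime] (M : Ideal Cfsg.AlgInt) (hM : Cfsg.IsPModular p M) (H : Subgroup G) (b : Set (Cfsg.IrrCharacter H)) (B : Set (Cfsg.IrrCharacter G)) (hind : Cfsg.IsInducedBlock M H b B) (h : H) (hC : ∀ z : G, Cfsg.IsPPart p (h : G) z → Subgroup.centralizer ({z} : Set G) ≤ H) (χ : Cfsg.IrrCharacter G) (hχ : χ ∉ B) : ∑ᶠ k : H, Cfsg.blockCoeff b k * (χ : G → ℂ) ((k : G) * (h : G)) = 0 := by
  classical
  have : Fintype G := Fintype.ofFinite G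
  have hMp := hM.2.1.isPrime
  have := Helper24.finite_irrCharacter (G := G)
  have : Fintype (IrrCharacter G) := Fintype.ofFinite _
  have := Helper24.finite_irrCharacter (G := H)
  have : Fintype (IrrCharacter H) := Fintype.ofFinite _
  obtain ⟨z, hz⟩ := exists_isPPart p (h : G)
  have hCz := hC z hz
  obtain ⟨w, hzw, hcomm, hzord, hword⟩ := hz
  have hzmem : z ∈ H := hCz (by
    rw [Subgroup.mem_centralizer_iff]
    intro t ht
    rw [Set.mem_singleton_iff] at ht
    subst ht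
    rfl)
  have hwmem : w ∈ H := hCz (by
    rw [Subgroup.mem_centralizer_iff]
    intro t ht
    rw [Set.mem_singleton_iff] at ht
    subst ht
    exact hcomm.eq)
  obtain ⟨zH, hzH⟩ : ∃ zH : H, (zH : G) = z := ⟨⟨z, hzmem⟩, rfl⟩
  obtain ⟨wH, hwH⟩ : ∃ wH : H, (wH : G) = w := ⟨⟨w, hwmem⟩, rfl⟩
  have hzwH : zH * wH = h := Subtype.ext (by rw [Subgroup.coe_mul, hzH, hwH, hzw])
  have hzHord : ∃ k : ℕ, orderOf zH = p ^ k := by
    obtain ⟨k, hk⟩ := hzord
    exact ⟨k, by rw [← hk, ← hzH, Subgroup.orderOf_coe]⟩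
  have hwHmem : wH ∈ Subgroup.centralizer ({zH} : Set H) := by
    rw [Subgroup.mem_centralizer_iff]
    intro t ht
    rw [Set.mem_singleton_iff] at ht
    subst ht
    apply Subtype.ext
    rw [Subgroup.coe_mul, Subgroup.coe_mul, hzH, hwH]
    exact hcomm.eq
  obtain ⟨wC, hwC⟩ : ∃ wC : Subgroup.centralizer ({zH} : Set H), (wC : H) = wH :=
    ⟨⟨wH, hwHmem⟩, rfl⟩
  have hwCord : ¬ p ∣ orderOf wC := by
    rw [← Subgroup.orderOf_coe, hwC, ← Subgroup.orderOf_coe, hwH]
    exact hword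
  have : Fintype (Subgroup.centralizer ({zH} : Set H)) := Fintype.ofFinite _
  have := Helper24.finite_irrCharacter (G := Subgroup.centralizer ({zH} : Set H))
  have : Fintype (IrrCharacter (Subgroup.centralizer ({zH} : Set H))) := Fintype.ofFinite _
  obtain ⟨A, hAdef⟩ : ∃ A : Set (IrrCharacter (Subgroup.centralizer ({zH} : Set H))),
      A = {ψ : IrrCharacter (Subgroup.centralizer ({zH} : Set H)) |
        IsInducedBlock M (Subgroup.centralizer ({zH} : Set H))
        (blockOf M (ψ : Subgroup.centralizer ({zH} : Set H) → ℂ)) b} := ⟨_, rfl⟩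
  have hA : ∀ ψ : IrrCharacter (Subgroup.centralizer ({zH} : Set H)), ψ ∈ A ↔
      IsInducedBlock M (Subgroup.centralizer ({zH} : Set H))
        (blockOf M (ψ : Subgroup.centralizer ({zH} : Set H) → ℂ)) b := by
    intro ψ
    rw [hAdef]
    exact Iff.rfl
  have hϑ : IsClassFunction H (fun k : H => (χ : G → ℂ) (k : G)) :=
    isClassFunction_restrict H _ (Helper2.IsIrrCharacter.isClassFunction χ.2)
  have hkey := block_part_idem hM zH hzHord (fun k : H => (χ : G → ℂ) (k : G)) hϑ b hind.1 A hA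
    wC hwCord
  have hgoal : (∑ᶠ k : H, blockCoeff b k * (χ : G → ℂ) ((k : G) * (h : G)))
      = ∑ᶠ k : H, blockCoeff b k * (fun k : H => (χ : G → ℂ) (k : G)) (k * (zH * (wC : H))) := by
    refine finsum_congr fun k => ?_
    show _ = blockCoeff b k * (χ : G → ℂ) (((k * (zH * (wC : H)) : H) : G))
    rw [hwC, hzwH, Subgroup.coe_mul]
  rw [hgoal, hkey]
  obtain ⟨C', e, heC, hC'⟩ : ∃ (C' : Subgroup G)
      (e : Subgroup.centralizer ({zH} : Set H) ≃* C'),
      (∀ c, (e c : G) = ((c : H) : G)) ∧ (∀ g : G, g ∈ C' ↔ z * g * z⁻¹ = g) := by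
    refine ⟨(Subgroup.centralizer ({zH} : Set H)).map H.subtype,
      (Subgroup.centralizer ({zH} : Set H)).equivMapOfInjective H.subtype
        (Subgroup.subtype_injective H), fun c => rfl, fun g => ?_⟩
    rw [Subgroup.mem_map]
    constructor
    · rintro ⟨c, hc, rfl⟩
      have h1 := Subgroup.mem_centralizer_iff.mp hc zH (Set.mem_singleton zH)
      have h2 : z * (c : G) = (c : G) * z := by
        rw [← hzH, ← Subgroup.coe_mul, h1, Subgroup.coe_mul]
      show z * (c : G) * z⁻¹ = (c : G)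
      rw [h2]
      group
    · intro hg
      have hgC : g ∈ Subgroup.centralizer ({z} : Set G) :=
        (mem_centralizer_singleton_iff' z g).2 hg
      have hgH : g ∈ H := hCz hgC
      refine ⟨⟨g, hgH⟩, ?_, rfl⟩
      rw [Subgroup.mem_centralizer_iff]
      intro t ht
      rw [Set.mem_singleton_iff] at ht
      subst ht
      apply Subtype.ext
      rw [Subgroup.coe_mul, Subgroup.coe_mul, hzH]
      exact comm_of_conj_eq hg
  have : Fintype C' := Fintype.ofFinite _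
  have := Helper24.finite_irrCharacter (G := C')
  have : Fintype (IrrCharacter C') := Fintype.ofFinite _
  obtain ⟨ΦA, hΦAdef⟩ : ∃ ΦA : IrrCharacter (Subgroup.centralizer ({zH} : Set H)) → ℂ,
      ΦA = fun ψ => if ψ ∈ A then (1 : ℂ) else 0 := ⟨_, rfl⟩
  rw [← hΦAdef]
  have hAcl : ∀ ψ ∈ A, ∀ ψ₁ : IrrCharacter (Subgroup.centralizer ({zH} : Set H)),
      SameBlock M (ψ : Subgroup.centralizer ({zH} : Set H) → ℂ)
        (ψ₁ : Subgroup.centralizer ({zH} : Set H) → ℂ) → ψ₁ ∈ A := by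
    intro ψ hψ ψ₁ hs
    rw [hA] at hψ ⊢
    rw [← blockOf_eq_of_mem hMp hs]
    exact hψ
  have hΦA : ΦA ∈ specRing _ M hMp := by
    rw [hΦAdef]
    exact indicator_union_mem hMp A hAcl
  obtain ⟨ΦA', hΦA'def⟩ : ∃ ΦA' : IrrCharacter C' → ℂ,
      ΦA' = fun ψ' => ΦA (irrCongr e ψ') := ⟨_, rfl⟩
  have hcoef : ∀ c : Subgroup.centralizer ({zH} : Set H), coeffT ΦA' (e c) = coeffT ΦA c := by
    intro c
    rw [hΦA'def]
    exact coeffT_irrCongr e ΦA c
  have hΦA' : ΦA' ∈ specRing C' M hMp := by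
    rw [mem_specRing]
    intro c'
    obtain ⟨c, rfl⟩ := e.surjective c'
    rw [hcoef]
    exact mem_specRing.1 hΦA c
  have hidem : ∀ ψ', ΦA' ψ' * ΦA' ψ' = ΦA' ψ' := by
    intro ψ'
    have h01 : ΦA' ψ' = 1 ∨ ΦA' ψ' = 0 := by
      rw [hΦA'def, hΦAdef]
      by_cases h : irrCongr e ψ' ∈ A
      · left
        exact if_pos h
      · right
        exact if_neg h
    rcases h01 with h | h <;> rw [h] <;> ring
  obtain ⟨Φ', hΦ'def⟩ : ∃ Φ' : IrrCharacter G → ℂ,
      Φ' = fun χ' => if χ' ∈ blockOf M (χ : G → ℂ) then (1 : ℂ) else 0 := ⟨_, rfl⟩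
  have hΦ' : Φ' ∈ specRing G M hMp := by
    rw [hΦ'def]
    exact block_indicator_mem hMp ⟨χ, rfl⟩
  have hχ1 : Φ' χ = 1 := by
    rw [hΦ'def]
    exact if_pos (mem_blockOf_self hMp.ne_top χ)
  obtain ⟨ξ₀, hξ₀⟩ := block_nonempty hMp hind.1
  obtain ⟨χ₀, hχ₀⟩ := block_nonempty hMp hind.2.1
  have hχ₀0 : Φ' χ₀ = 0 := by
    rw [hΦ'def]
    apply if_neg
    intro hmem
    apply hχ
    obtain ⟨χ₁, hχ₁⟩ := hind.2.1
    have h1 : blockOf M (χ₁ : G → ℂ) = blockOf M (χ₀ : G → ℂ) :=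
      blockOf_eq_of_mem hMp (hχ₁ ▸ hχ₀)
    have h2 : blockOf M (χ : G → ℂ) = blockOf M (χ₀ : G → ℂ) := blockOf_eq_of_mem hMp hmem
    rw [hχ₁, h1, ← h2]
    exact mem_blockOf_self hMp.ne_top χ
  obtain ⟨Φ₂, hΦ₂def⟩ : ∃ Φ₂ : IrrCharacter H → ℂ, Φ₂ = fun ξ : IrrCharacter H =>
      ∑ k : H, coeffT Φ' (k : G) * ((ξ : H → ℂ) k / (ξ : H → ℂ) 1) := ⟨_, rfl⟩
  have hcoef₂ : ∀ k : H, coeffT Φ₂ k = coeffT Φ' (k : G) := by
    intro k
    rw [hΦ₂def]
    exact coeffT_forward (fun k : H => coeffT Φ' (k : G))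
      (isClassFunction_restrict H _ (coeffT_isClassFunction Φ')) k
  have hΦ₂ : Φ₂ ∈ specRing H M hMp := by
    rw [mem_specRing]
    intro k
    rw [hcoef₂]
    exact mem_specRing.1 hΦ' _
  have hΦ₂ξ₀ : MemLocalIdeal M (Φ₂ ξ₀) := by
    have h1 := brLam_congr_of_induced hMp H hind ξ₀ hξ₀ χ₀ hχ₀ Φ' hΦ'
    rw [hχ₀0, sub_zero] at h1
    rw [hΦ₂def]
    exact h1
  have hH : ∀ ψ' : IrrCharacter C', MemLocalIdeal M
      (ΦA' ψ' * ∑ c : C', coeffT Φ' (c : G) * ((ψ' : C' → ℂ) c / (ψ' : C' → ℂ) 1)) := by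
    intro ψ'
    by_cases hψ : irrCongr e ψ' ∈ A
    · have e1 : ΦA' ψ' = 1 := by
        rw [hΦA'def, hΦAdef]
        exact if_pos hψ
      rw [e1, one_mul]
      have e2 : ∑ c : C', coeffT Φ' (c : G) * ((ψ' : C' → ℂ) c / (ψ' : C' → ℂ) 1)
          = brLam (Subgroup.centralizer ({zH} : Set H)) (irrCongr e ψ') Φ₂ := by
        unfold brLam
        refine (Fintype.sum_equiv e.toEquiv _ _ fun c => ?_).symm
        show coeffT Φ₂ (c : H) * ((irrCongr e ψ' : Subgroup.centralizer ({zH} : Set H) → ℂ) c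
            / (irrCongr e ψ' : Subgroup.centralizer ({zH} : Set H) → ℂ) 1)
          = coeffT Φ' ((e c : C') : G) * ((ψ' : C' → ℂ) (e c) / (ψ' : C' → ℂ) 1)
        rw [hcoef₂, irrCongr_apply, irrCongr_apply, map_one, heC]
      rw [e2]
      have h1 := brLam_congr_of_induced hMp (Subgroup.centralizer ({zH} : Set H))
        ((hA _).1 hψ) (irrCongr e ψ') (mem_blockOf_self hMp.ne_top _) ξ₀ hξ₀ Φ₂ hΦ₂
      have h2 := MemLocalIdeal.add hMp h1 hΦ₂ξ₀
      rwa [sub_add_cancel] at h2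
    · have e1 : ΦA' ψ' = 0 := by
        rw [hΦA'def, hΦAdef]
        exact if_neg hψ
      rw [e1, zero_mul]
      exact MemLocalIdeal.zero hMp.ne_top
  obtain ⟨a, ha⟩ := hzord
  have hza : z ^ (p ^ a) = 1 := by
    rw [← ha]
    exact pow_orderOf_eq_one z
  have hy' : ¬ p ∣ orderOf (e wC) := by
    rw [MulEquiv.orderOf_eq]
    exact hwCord
  have hcore := second_main_core hM z a hza C' hC' ΦA' hΦA' hidem Φ' hΦ' hH χ hχ1 (e wC) hy'
  rw [← hcore]
  refine Fintype.sum_equiv e.toEquiv _ _ fun c => ?_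
  show coeffT ΦA c * (χ : G → ℂ) (((zH * ((wC : H) * (c : H)) : H) : G))
    = coeffT ΦA' (e c) * (χ : G → ℂ) (z * (((e wC : C') : G) * ((e c : C') : G)))
  rw [hcoef, heC, heC, Subgroup.coe_mul, Subgroup.coe_mul, hzH]

end Cfsg.Agent.S0922
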