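import Cfsg.Statements.S0926
import Cfsg.Agent.Helper25.DefectConj
import Cfsg.Agent.S0924
open Cfsg.Agent.Helper25

set_option autoImplicit false
open Cfsg

namespace Cfsg.Agent.S0926

/-- Let B be a block of the finite group G with defect group D (relative to a maximal ideal M of the algebraic integers containing p), let χ ∈ B have height zero, and let x be a p-element. Then some conjugate of x lies in D if and only if χ does not vanish on the whole p-section of x (the elements whose p-part is conjugate to x). -/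
theorem result {G : Type*} [Group G] [Finite G] (p : ℕ) [Fact p.Prime] (M : Ideal Cfsg.AlgInt) (hM : Cfsg.IsPModular p M) (B : Set (Cfsg.IrrCharacter G)) (hB : Cfsg.IsPBlock M B) (D : Subgroup G) (hD : Cfsg.IsDefectGroup p M B D) (χ : Cfsg.IrrCharacter G) (hχ : χ ∈ B) (h0 : Cfsg.blockHeight p B (χ : G → ℂ) = 0) (x : G) (hx : ∃ k : ℕ, orderOf x = p ^ k) : (∃ g : G, g * x * g⁻¹ ∈ D) ↔ ∃ u : G, (∃ z : G, Cfsg.IsPPart p u z ∧ IsConj x z) ∧ (χ : G → ℂ) u ≠ 0 := by
  classical
  have : Fintype G := Fintype.ofFinite G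
  have hMp : M.IsPrime := hM.2.1.isPrime
  have hBχ : B = blockOf M (χ : G → ℂ) := by
    obtain ⟨χ₁, hχ₁⟩ := id hB
    rw [hχ₁]
    rw [hχ₁] at hχ
    exact blockOf_eq_of_mem hMp hχ
  constructor
  · rintro ⟨g, hg⟩
    obtain ⟨k, hk, P, hDP⟩ := id hD
    have hkreg : ¬ p ∣ orderOf k := by
      intro hdvd
      apply hk.2.1
      rw [osima hM hB k hdvd]
      exact MemLocalIdeal.zero hMp.ne_top
    have hcomm : (g * x * g⁻¹) * k = k * (g * x * g⁻¹) := by
      rw [hDP] at hg
      obtain ⟨q, _, hq⟩ := Subgroup.mem_map.1 hg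
      have h1 := Subgroup.mem_centralizer_iff.mp q.2 k (Set.mem_singleton k)
      rw [← hq]
      exact h1.symm
    obtain ⟨k', hk'⟩ : ∃ k' : G, k' = g⁻¹ * k * g := ⟨_, rfl⟩
    have hxk' : Commute x k' := by
      show x * k' = k' * x
      rw [hk']
      calc x * (g⁻¹ * k * g) = g⁻¹ * ((g * x * g⁻¹) * k) * g := by group
        _ = g⁻¹ * (k * (g * x * g⁻¹)) * g := by rw [hcomm]
        _ = g⁻¹ * k * g * x := by group
    have hk'reg : ¬ p ∣ orderOf k' := by
      have h2 := orderOf_injective (MulAut.conj g⁻¹).toMonoidHom (MulAut.conj g⁻¹).injective k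
      have h3 : (MulAut.conj g⁻¹).toMonoidHom k = k' := by
        rw [hk']
        simp
      rw [h3] at h2
      rw [h2]
      exact hkreg
    refine ⟨x * k', ⟨x, ⟨k', rfl, hxk', hx, hk'reg⟩, IsConj.refl x⟩, ?_⟩
    intro h0'
    obtain ⟨a, ha⟩ := hx
    have hcong := Cfsg.Agent.Helper6.PRegular.char_ppart_congr hM (Helper24.isCharacter_of_irr χ.2) x k' hxk' a ha
    rw [h0', zero_sub] at hcong
    have hχk' : (χ : G → ℂ) k' = (χ : G → ℂ) k := by
      rw [hk']
      have h4 := (Helper2.IsIrrCharacter.isClassFunction χ.2) k g⁻¹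
      rw [inv_inv] at h4
      exact h4
    rw [hχk'] at hcong
    have h5 := MemLocalIdeal.neg hcong
    rw [neg_neg] at h5
    exact height_zero_not_mem hM hB χ hχ h0 k hk h5
  · rintro ⟨u, ⟨z, hz, hxz⟩, hne⟩
    by_contra hcon
    push Not at hcon
    apply hne
    apply Cfsg.Agent.S0924.result p M hM χ u z hz
    intro D' hD' hzD'
    rw [← hBχ] at hD'
    obtain ⟨y, hy⟩ := defectGroup_le_conj hM hB hD hD'
    obtain ⟨d, hd, hdz⟩ := Subgroup.mem_map.1 (hy hzD')
    obtain ⟨c, hc⟩ := isConj_iff.1 hxz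
    apply hcon (y⁻¹ * c)
    have h6 : y⁻¹ * c * x * (y⁻¹ * c)⁻¹ = d := by
      have h1 : y * d * y⁻¹ = z := hdz
      rw [← hc] at h1
      calc y⁻¹ * c * x * (y⁻¹ * c)⁻¹ = y⁻¹ * (c * x * c⁻¹) * y := by group
        _ = y⁻¹ * (y * d * y⁻¹) * y := by rw [h1]
        _ = d := by group
    rw [h6]
    exact hd

end Cfsg.Agent.S0926
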