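import Cfsg.Statements.S0927
import Cfsg.Agent.Helper25.HeightZero
open Cfsg.Agent.Helper25

set_option autoImplicit false
open Cfsg

namespace Cfsg.Agent.S0927

/-- Let B be a block of the finite group G relative to a maximal ideal M of the algebraic integers containing p, let y represent a defect class of B and let P be a Sylow p-subgroup of the centralizer of y. (a) If x ∈ P and χ ∈ B has height zero, then χ (x * y) is not in the local ideal at M. (b) If x lies in the centre of P, then for every χ ∈ B the central character of χ at x * y is not in the local ideal at M. -/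
theorem result {G : Type*} [Group G] [Finite G] (p : ℕ) [Fact p.Prime] (M : Ideal Cfsg.AlgInt) (hM : Cfsg.IsPModular p M) (B : Set (Cfsg.IrrCharacter G)) (hB : Cfsg.IsPBlock M B) (y : G) (hy : Cfsg.IsDefectClass M B y) (P : Sylow p (Subgroup.centralizer ({y} : Set G))) (x : Subgroup.centralizer ({y} : Set G)) (hx : x ∈ (P : Subgroup (Subgroup.centralizer ({y} : Set G)))) : (∀ χ ∈ B, Cfsg.blockHeight p B (χ : G → ℂ) = 0 → ¬ Cfsg.MemLocalIdeal M ((χ : G → ℂ) ((x : G) * y))) ∧ ((∀ w ∈ (P : Subgroup (Subgroup.centralizer ({y} : Set G))), x * w = w * x) → ∀ χ ∈ B, ¬ Cfsg.MemLocalIdeal M (Cfsg.centralChar (χ : G → ℂ) ((x : G) * y))) := by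
  classical
  have : Fintype G := Fintype.ofFinite G
  have hMp : M.IsPrime := hM.2.1.isPrime
  have hp : p.Prime := Fact.out
  obtain ⟨k, hk⟩ : ∃ k : ℕ, orderOf (x : G) = p ^ k := by
    obtain ⟨k, hk⟩ := P.isPGroup' ⟨x, hx⟩
    have h1 : x ^ (p ^ k) = 1 := by
      have h0 := congrArg Subtype.val hk
      simpa using h0
    have h2 : orderOf x ∣ p ^ k := orderOf_dvd_of_pow_eq_one h1
    obtain ⟨m, _, hm⟩ := (Nat.dvd_prime_pow hp).1 h2
    exact ⟨m, by rw [Subgroup.orderOf_coe]; exact hm⟩
  have hcomm : Commute (x : G) y :=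
    (Subgroup.mem_centralizer_iff.mp x.2 y (Set.mem_singleton y)).symm
  have parta : ∀ χ ∈ B, Cfsg.blockHeight p B (χ : G → ℂ) = 0 →
      ¬ Cfsg.MemLocalIdeal M ((χ : G → ℂ) ((x : G) * y)) := by
    intro χ hχ h0 hmem
    have hc := Cfsg.Agent.Helper6.PRegular.char_ppart_congr hM
      (Helper24.isCharacter_of_irr χ.2) (x : G) y hcomm k hk
    have h1 := MemLocalIdeal.sub hMp hmem hc
    rw [sub_sub_cancel] at h1
    exact height_zero_not_mem hM hB χ hχ h0 y hy h1
  refine ⟨parta, ?_⟩
  intro hcen χ hχ hmem
  obtain ⟨χ₁, hχ₁⟩ := id hB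
  have hne : B.Nonempty := ⟨χ₁, by rw [hχ₁]; exact mem_blockOf_self hMp.ne_top χ₁⟩
  obtain ⟨ψ, hψ, hψ0⟩ := exists_height_zero p hne
  have hs : SameBlock M (χ : G → ℂ) (ψ : G → ℂ) := by
    rw [hχ₁] at hχ hψ
    exact sameBlock_trans hMp (sameBlock_symm hχ) hψ
  have hψmem : MemLocalIdeal M (centralChar (ψ : G → ℂ) ((x : G) * y)) := by
    have h1 := MemLocalIdeal.sub hMp hmem (hs ((x : G) * y))
    rw [sub_sub_cancel] at h1
    exact h1
  apply parta ψ hψ hψ0
  apply char_mem_of_centralChar_mem hM ψ _ ?_ hψmem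
  have h1 := idx_le_degree_of_centralChar hM ψ y (hy.2.2 ψ hψ)
  have h2 := factorization_card_eq (p := p) y
  have h3 := factorization_card_eq (p := p) ((x : G) * y)
  have h4 : (Nat.card (Subgroup.centralizer ({y} : Set G))).factorization p
      ≤ (Nat.card (Subgroup.centralizer ({(x : G) * y} : Set G))).factorization p := by
    have hle : (P : Subgroup (Subgroup.centralizer ({y} : Set G))).map
        (Subgroup.centralizer ({y} : Set G)).subtype
        ≤ Subgroup.centralizer ({(x : G) * y} : Set G) := by
      rintro _ ⟨q, hq, rfl⟩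
      rw [Subgroup.mem_centralizer_iff]
      intro t ht
      rw [Set.mem_singleton_iff] at ht
      subst ht
      have hqy : y * (q : G) = (q : G) * y :=
        Subgroup.mem_centralizer_iff.mp q.2 y (Set.mem_singleton y)
      have hqx : (x : G) * (q : G) = (q : G) * (x : G) := by
        have h0 := congrArg Subtype.val (hcen q hq)
        simpa using h0
      show (x : G) * y * (q : G) = (q : G) * ((x : G) * y)
      calc (x : G) * y * (q : G) = (x : G) * (y * (q : G)) := by group
        _ = (x : G) * ((q : G) * y) := by rw [hqy]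
        _ = ((x : G) * (q : G)) * y := by group
        _ = ((q : G) * (x : G)) * y := by rw [hqx]
        _ = (q : G) * ((x : G) * y) := by group
    have hcard : Nat.card ((P : Subgroup (Subgroup.centralizer ({y} : Set G))).map
        (Subgroup.centralizer ({y} : Set G)).subtype)
        = p ^ (Nat.card (Subgroup.centralizer ({y} : Set G))).factorization p := by
      rw [Subgroup.card_map_of_injective (Subgroup.subtype_injective _)]
      exact Sylow.card_eq_multiplicity P
    have hdvd := Subgroup.card_dvd_of_le hle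
    rw [hcard] at hdvd
    exact (Nat.Prime.pow_dvd_iff_le_factorization hp Nat.card_pos.ne').1 hdvd
  omega

end Cfsg.Agent.S0927
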