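import Cfsg.Statements.S0935
import Cfsg.Agent.Helper25.HeightZero3
import Cfsg.Agent.Helper25.InducedPart2
open Cfsg.Agent.Helper25
open Cfsg.Agent

set_option autoImplicit false
open Cfsg

namespace Cfsg.Agent.S0935

/-- Let H be a subgroup of the finite group G and χ an irreducible character of G whose restriction to H is irreducible; fix a maximal ideal M of the algebraic integers containing the prime p and suppose χ and its restriction have height zero in their blocks B and b. If e is a block of H whose induced block is defined, then e induces B if and only if e = b. -/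
theorem result {G : Type*} [Group G] [Finite G] (p : ℕ) [Fact p.Prime] (M : Ideal Cfsg.AlgInt) (hM : Cfsg.IsPModular p M) (H : Subgroup G) (χ : Cfsg.IrrCharacter G) (hres : Cfsg.IsIrrCharacter H (fun h : H => (χ : G → ℂ) h)) (hχ0 : Cfsg.blockHeight p (Cfsg.blockOf M (χ : G → ℂ)) (χ : G → ℂ) = 0) (hψ0 : Cfsg.blockHeight p (Cfsg.blockOf M (fun h : H => (χ : G → ℂ) h)) (fun h : H => (χ : G → ℂ) h) = 0) (e : Set (Cfsg.IrrCharacter H)) (he : Cfsg.InducedBlockDefined M H e) : Cfsg.IsInducedBlock M H e (Cfsg.blockOf M (χ : G → ℂ)) ↔ e = Cfsg.blockOf M (fun h : H => (χ : G → ℂ) h) := by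
  classical
  have : Fintype G := Fintype.ofFinite G
  have : Fintype H := Fintype.ofFinite H
  have hMp := hM.2.1.isPrime
  obtain ⟨ψ₀, hψ₀⟩ : ∃ ψ₀ : IrrCharacter H, (ψ₀ : H → ℂ) = fun h : H => (χ : G → ℂ) h :=
    ⟨⟨_, hres⟩, rfl⟩
  rw [← hψ₀] at hψ0 ⊢
  have hbH : IsPBlock M (blockOf M (ψ₀ : H → ℂ)) := ⟨ψ₀, rfl⟩
  have hψmem : ψ₀ ∈ blockOf M (ψ₀ : H → ℂ) := mem_blockOf_self hMp.ne_top ψ₀
  have hχmem := mem_blockOf_self hMp.ne_top χ
  have hfun : (fun h : H => if p ∣ orderOf h then (0 : ℂ)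
      else ((p ^ (Nat.card H).factorization p : ℕ) : ℂ) * (χ : G → ℂ) h)
      = tildeFun p (ψ₀ : H → ℂ) := by
    rw [hψ₀]
    rfl
  constructor
  · intro hind
    obtain ⟨ξ, hξ⟩ := block_nonempty hMp hind.1
    have h1 := restrict_tilde_not_mem hM H hind χ ξ hξ hχmem hχ0
    rw [hfun] at h1
    have h2 : SameBlock M (ψ₀ : H → ℂ) (ξ : H → ℂ) := by
      by_contra hns
      apply h1
      rw [classInner_tildeFun_eq_zero hM ψ₀ ξ hns, zero_div]
      exact MemLocalIdeal.zero hMp.ne_top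
    obtain ⟨ξ₁, he1⟩ := hind.1
    rw [he1] at hξ ⊢
    rw [blockOf_eq_of_mem hMp hξ]
    exact (blockOf_eq_of_mem hMp (mem_blockOf.2 h2)).symm
  · intro heq
    obtain ⟨B', hind⟩ := he
    have hχB' : χ ∈ B' := by
      by_contra hn
      have h1 := restrict_tilde_mem hM H hind χ ψ₀ (heq ▸ hψmem) hn
      rw [hfun] at h1
      exact height_zero_ratio_not_mem hM hbH ψ₀ hψmem hψ0 ψ₀ hψmem h1
    obtain ⟨χ₁, hB'⟩ := hind.2.1
    have hBeq : B' = blockOf M (χ : G → ℂ) := by
      rw [hB'] at hχB' ⊢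
      exact blockOf_eq_of_mem hMp hχB'
    rw [← hBeq]
    exact hind

end Cfsg.Agent.S0935
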