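import Cfsg.Statements.S0937
import Cfsg.Agent.Helper25.HeightZero3
import Cfsg.Agent.Helper25.InducedPart2
import Cfsg.Agent.Helper24.CharBasic
open Cfsg.Agent.Helper25
open Cfsg.Agent

set_option autoImplicit false
open Cfsg

namespace Cfsg.Agent.S0937

/-- Let H be a subgroup of the finite group G and fix a maximal ideal M of the algebraic integers containing the prime p. If the block b of H induces the block B of G and χ ∈ B has height zero, then there is ξ ∈ b of height zero whose multiplicity in the restriction of χ to H is a natural number not divisible by p. -/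
theorem result {G : Type*} [Group G] [Fintype G] (p : ℕ) [Fact p.Prime] (M : Ideal Cfsg.AlgInt) (hM : Cfsg.IsPModular p M) (H : Subgroup G) [Fintype H] (b : Set (Cfsg.IrrCharacter H)) (B : Set (Cfsg.IrrCharacter G)) (hind : Cfsg.IsInducedBlock M H b B) (χ : Cfsg.IrrCharacter G) (hχ : χ ∈ B) (h0 : Cfsg.blockHeight p B (χ : G → ℂ) = 0) : ∃ ξ ∈ b, Cfsg.blockHeight p b (ξ : H → ℂ) = 0 ∧ ∃ n : ℕ, Cfsg.classInner (fun h : H => (χ : G → ℂ) h) (ξ : H → ℂ) = (n : ℂ) ∧ ¬ p ∣ n := by
  classical
  have := Helper24.finite_irrCharacter (G := H)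
  have : Fintype (IrrCharacter H) := Fintype.ofFinite _
  have hMp := hM.2.1.isPrime
  have hp : p.Prime := Fact.out
  obtain ⟨ψ, hψ⟩ := block_nonempty hMp hind.1
  have h1 := restrict_tilde_not_mem hM H hind χ ψ hψ hχ h0
  have hres : IsCharacter H (fun h : H => (χ : G → ℂ) h) :=
    Helper24.isCharacter_restrict H (Helper24.isCharacter_of_irr χ.2)
  have hm : ∀ ξ : IrrCharacter H, ∃ n : ℕ,
      classInner (fun h : H => (χ : G → ℂ) h) (ξ : H → ℂ) = (n : ℂ) :=
    fun ξ => Helper2.classInner_char_nat hres (Helper24.isCharacter_of_irr ξ.2)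
  choose m hmdef using hm
  have hcl : IsClassFunction H (fun h : H => (χ : G → ℂ) h) :=
    Helper2.IsCharacter.isClassFunction hres
  have hexp : ∀ t : H, (χ : G → ℂ) t = ∑ ξ : IrrCharacter H, (m ξ : ℂ) * (ξ : H → ℂ) t := by
    intro t
    have h := congrFun (Helper2.class_fn_expansion hcl) t
    rw [Finset.sum_apply] at h
    simp only [Pi.smul_apply, smul_eq_mul, hmdef] at h
    exact h
  have hlin : classInner (fun h : H => if p ∣ orderOf h then (0 : ℂ)
        else ((p ^ (Nat.card H).factorization p : ℕ) : ℂ) * (χ : G → ℂ) h) (ψ : H → ℂ)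
      = ∑ ξ : IrrCharacter H, (m ξ : ℂ) * classInner (tildeFun p (ξ : H → ℂ)) (ψ : H → ℂ) := by
    unfold classInner tildeFun
    have e : ∀ h : H, (if p ∣ orderOf h then (0 : ℂ)
          else ((p ^ (Nat.card H).factorization p : ℕ) : ℂ) * (χ : G → ℂ) h)
          * (starRingEnd ℂ) ((ψ : H → ℂ) h)
        = ∑ ξ : IrrCharacter H, (m ξ : ℂ) * ((if p ∣ orderOf h then (0 : ℂ)
          else ((p ^ (Nat.card H).factorization p : ℕ) : ℂ) * (ξ : H → ℂ) h)
          * (starRingEnd ℂ) ((ψ : H → ℂ) h)) := by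
      intro h
      by_cases hh : p ∣ orderOf h
      · simp only [if_pos hh, zero_mul, mul_zero, Finset.sum_const_zero]
      · simp only [if_neg hh]
        rw [hexp h, Finset.mul_sum, Finset.sum_mul]
        refine Finset.sum_congr rfl fun ξ _ => ?_
        ring
    rw [Finset.sum_congr rfl (fun h _ => e h), Finset.sum_comm, Finset.mul_sum]
    refine Finset.sum_congr rfl fun ξ _ => ?_
    rw [← Finset.mul_sum]
    ring
  by_contra hcon
  push Not at hcon
  apply h1
  rw [hlin, Finset.sum_div]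
  refine memLocalIdeal_sum hMp _ _ fun ξ _ => ?_
  rw [mul_div_assoc]
  by_cases hξ : ξ ∈ b
  · by_cases hht : blockHeight p b (ξ : H → ℂ) = 0
    · have hdvd : p ∣ m ξ := hcon ξ hξ hht (m ξ) (hmdef ξ)
      exact MemLocalIdeal.mul_right hMp ((memLocalIdeal_natCast_iff hM _).2 hdvd)
        (tildeRatio_memLocalRing hM ξ ψ)
    · have hJ : MemLocalIdeal M (classInner (tildeFun p (ξ : H → ℂ)) (ψ : H → ℂ)
          / (ψ : H → ℂ) 1) := by
        by_contra hu
        exact hht (height_zero_of_ratio_not_mem hM hind.1 ξ hξ ψ hψ hu)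
      exact MemLocalIdeal.mul_left hMp (memLocalRing_natCast hMp.ne_top _) hJ
  · have hns : ¬ SameBlock M (ξ : H → ℂ) (ψ : H → ℂ) := by
      intro hs
      exact hξ (mem_block_of_sameBlock hMp hind.1 hψ (sameBlock_symm hs))
    rw [classInner_tildeFun_eq_zero hM ξ ψ hns, zero_div, mul_zero]
    exact MemLocalIdeal.zero hMp.ne_top

end Cfsg.Agent.S0937
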