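import Cfsg.Statements.S0944
import Cfsg.Agent.Helper24.CharValues
import Mathlib
open Cfsg.Agent

set_option autoImplicit false
open Cfsg

namespace Cfsg.Agent.S0944

/-- Let χ be an irreducible character of the finite group G and u an involution. Then χ u is a rational integer n with n ≡ χ 1 (mod 2). -/
theorem result {G : Type*} [Group G] [Finite G] (χ : Cfsg.IrrCharacter G) (u : G) (hu : orderOf u = 2) : ∃ n : ℤ, (χ : G → ℂ) u = (n : ℂ) ∧ (2 : ℤ) ∣ (Cfsg.charDegree (χ : G → ℂ) : ℤ) - n := by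
  classical
  have hspec := Helper24.charDegree_spec (Helper24.isCharacter_of_irr χ.2)
  obtain ⟨n, ρ, hρ, hχ⟩ := χ.2
  have h1 : ρ.character 1 = (n : ℂ) := by
    rw [Representation.char_one]
    simp
  have hdeg : Cfsg.charDegree (χ : G → ℂ) = n := by
    have h2 : ((Cfsg.charDegree (χ : G → ℂ) : ℕ) : ℂ) = (n : ℂ) := by
      rw [← hspec, ← hχ, h1]
    exact_mod_cast h2
  have hu2 : u * u = 1 := by
    rw [← pow_two, ← hu]
    exact pow_orderOf_eq_one u
  have hAA : ρ u * ρ u = 1 := by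
    rw [← map_mul, hu2, map_one]
  obtain ⟨P, hPdef⟩ : ∃ P : Module.End ℂ (Fin n → ℂ), P = (1 / 2 : ℂ) • (1 + ρ u) := ⟨_, rfl⟩
  have hPP : IsIdempotentElem P := by
    unfold IsIdempotentElem
    rw [hPdef, smul_mul_smul_comm, add_mul, mul_add, mul_add, hAA, one_mul, mul_one, one_mul]
    have e : (1 : Module.End ℂ (Fin n → ℂ)) + ρ u + (ρ u + 1) = (2 : ℂ) • (1 + ρ u) := by
      rw [two_smul]
      abel
    rw [e, smul_smul]
    norm_num
  obtain ⟨S, hS⟩ := (LinearMap.isProj_iff_isIdempotentElem P).2 hPP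
  have htr := hS.trace
  have htr2 : LinearMap.trace ℂ (Fin n → ℂ) P = (1 / 2 : ℂ) * ((n : ℂ) + (χ : G → ℂ) u) := by
    rw [hPdef, map_smul, map_add, LinearMap.trace_one, ← hχ]
    simp [Representation.character]
  rw [htr2] at htr
  refine ⟨2 * (Module.finrank ℂ S : ℤ) - (n : ℤ), ?_, ?_⟩
  · push_cast
    linear_combination 2 * htr
  · rw [hdeg]
    exact ⟨(n : ℤ) - (Module.finrank ℂ S : ℤ), by ring⟩

end Cfsg.Agent.S0944
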