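import Cfsg.Statements.S0945
import Mathlib
import Cfsg.Agent.Lead.Homocyclic

set_option autoImplicit false
open Cfsg

namespace Cfsg.Agent.S0945

/-- Let P be a Sylow 2-subgroup of the finite group G isomorphic to Z/2^m × Z/2^m with m ≥ 1. Then (i) the index of C_G(P) in N_G(P) is 1 or 3, and (ii) if it is not 1, then for every z ≠ 1 in P, C_G(z) ∩ N_G(P) = C_G(P). -/
theorem result {G : Type*} [Group G] [Finite G] (P : Sylow 2 G) (m : ℕ) (hm : 1 ≤ m) (e : (P : Subgroup G) ≃* Multiplicative (ZMod (2 ^ m) × ZMod (2 ^ m))) : ((Subgroup.centralizer (P : Set G)).relIndex (Subgroup.normalizer (P : Set G)) = 1 ∨ (Subgroup.centralizer (P : Set G)).relIndex (Subgroup.normalizer (P : Set G)) = 3) ∧ ((Subgroup.centralizer (P : Set G)).relIndex (Subgroup.normalizer (P : Set G)) ≠ 1 → ∀ z ∈ (P : Subgroup G), z ≠ 1 → Subgroup.centralizer ({z} : Set G) ⊓ Subgroup.normalizer (P : Set G) = Subgroup.centralizer (P : Set G)) := by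
  classical
  obtain ⟨s, t, hF⟩ := Cfsg.Agent.Lead.fourInv_of_equiv (P : Subgroup G) m hm e
  obtain ⟨hcomm, hs, ht, hs1, ht1, hst, hs2, ht2, hall⟩ := id hF
  have hCN : Subgroup.centralizer ((P : Subgroup G) : Set G) ≤
      Subgroup.normalizer ((P : Subgroup G) : Set G) := Subgroup.centralizer_le_normalizer _
  have hPC : (P : Subgroup G) ≤ Subgroup.centralizer ((P : Subgroup G) : Set G) := fun x hx =>
    Subgroup.mem_centralizer_iff.mpr (fun y hy => hcomm y hy x hx)
  have hPN : (P : Subgroup G) ≤ Subgroup.normalizer ((P : Subgroup G) : Set G) :=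
    Subgroup.le_normalizer
  constructor
  · have hodd : Odd ((Subgroup.centralizer ((P : Subgroup G) : Set G)).relIndex
        (Subgroup.normalizer ((P : Subgroup G) : Set G))) := by
      have h1 : (Subgroup.centralizer ((P : Subgroup G) : Set G)).relIndex
          (Subgroup.normalizer ((P : Subgroup G) : Set G)) ∣
          (P : Subgroup G).relIndex (Subgroup.normalizer ((P : Subgroup G) : Set G)) :=
        Subgroup.relIndex_dvd_of_le_left _ hPC
      have h2 : (P : Subgroup G).relIndex (Subgroup.normalizer ((P : Subgroup G) : Set G)) ∣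
          (P : Subgroup G).index := Dvd.intro _ (Subgroup.relIndex_mul_index hPN)
      have h3 : ¬ 2 ∣ (P : Subgroup G).index := P.not_dvd_index
      rw [← Nat.not_even_iff_odd, even_iff_two_dvd]
      exact fun h => h3 (h.trans (h1.trans h2))
    have hle : (Subgroup.centralizer ((P : Subgroup G) : Set G)).relIndex
        (Subgroup.normalizer ((P : Subgroup G) : Set G)) ≤ 3 := by
      have hval : ∀ q : (Subgroup.normalizer ((P : Subgroup G) : Set G)) ⧸
          (Subgroup.centralizer ((P : Subgroup G) : Set G)).subgroupOf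
            (Subgroup.normalizer ((P : Subgroup G) : Set G)),
          ((q.out : G) * s * (q.out : G)⁻¹) ∈ ({s, t, s * t} : Finset G) := by
        intro q
        have hqN : (q.out : G) ∈ Subgroup.normalizer ((P : Subgroup G) : Set G) := q.out.2
        have hP' : (q.out : G) * s * (q.out : G)⁻¹ ∈ (P : Subgroup G) :=
          (Subgroup.mem_normalizer_iff.mp hqN s).mp hs
        have h2' : ((q.out : G) * s * (q.out : G)⁻¹) ^ 2 = 1 := by
          rw [conj_pow, hs2, mul_one, mul_inv_cancel]
        have h1' : (q.out : G) * s * (q.out : G)⁻¹ ≠ 1 := by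
          intro h
          apply hs1
          have hback : (q.out : G)⁻¹ * ((q.out : G) * s * (q.out : G)⁻¹) * (q.out : G) = s := by
            group
          rw [← hback, h]; group
        rcases hall _ hP' h2' with h | h | h | h
        · exact absurd h h1'
        · rw [h]; simp
        · rw [h]; simp
        · rw [h]; simp
      have hinj : Function.Injective (fun q : (Subgroup.normalizer ((P : Subgroup G) : Set G)) ⧸
          (Subgroup.centralizer ((P : Subgroup G) : Set G)).subgroupOf
            (Subgroup.normalizer ((P : Subgroup G) : Set G)) =>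
          (⟨(q.out : G) * s * (q.out : G)⁻¹, hval q⟩ : ↥({s, t, s * t} : Finset G))) := by
        intro q₁ q₂ h
        have h' : (q₁.out : G) * s * (q₁.out : G)⁻¹ = (q₂.out : G) * s * (q₂.out : G)⁻¹ :=
          congrArg Subtype.val h
        have hx : ((q₁.out)⁻¹ * q₂.out : Subgroup.normalizer ((P : Subgroup G) : Set G)) ∈
            (Subgroup.centralizer ((P : Subgroup G) : Set G)).subgroupOf
              (Subgroup.normalizer ((P : Subgroup G) : Set G)) := by
          rw [Subgroup.mem_subgroupOf]
          refine hF.centralizes _ ((q₁.out)⁻¹ * q₂.out).2 s hs hs1 hs2 ?_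
          rw [Subgroup.coe_mul, Subgroup.coe_inv]
          calc (q₁.out : G)⁻¹ * (q₂.out : G) * s
              = (q₁.out : G)⁻¹ * ((q₂.out : G) * s * (q₂.out : G)⁻¹) * (q₂.out : G) := by group
            _ = (q₁.out : G)⁻¹ * ((q₁.out : G) * s * (q₁.out : G)⁻¹) * (q₂.out : G) := by rw [h']
            _ = s * ((q₁.out : G)⁻¹ * (q₂.out : G)) := by group
        have h3 := QuotientGroup.eq.mpr hx
        rwa [QuotientGroup.out_eq', QuotientGroup.out_eq'] at h3
      have h4 := Nat.card_le_card_of_injective _ hinj
      rw [Nat.card_eq_fintype_card (α := ↥({s, t, s * t} : Finset G)), Fintype.card_coe] at h4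
      have h5 : ({s, t, s * t} : Finset G).card ≤ 3 := Finset.card_le_three
      rw [Subgroup.relIndex, Subgroup.index_eq_card]
      exact h4.trans h5
    have hpos : (Subgroup.centralizer ((P : Subgroup G) : Set G)).relIndex
        (Subgroup.normalizer ((P : Subgroup G) : Set G)) ≠ 0 :=
      Subgroup.index_ne_zero_of_finite
    have hfin : (Subgroup.centralizer ((P : Subgroup G) : Set G)).relIndex
        (Subgroup.normalizer ((P : Subgroup G) : Set G)) = 1 ∨
        (Subgroup.centralizer ((P : Subgroup G) : Set G)).relIndex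
        (Subgroup.normalizer ((P : Subgroup G) : Set G)) = 3 := by
      obtain ⟨k, hk⟩ := hodd
      omega
    exact hfin
  · intro _ z hz hz1
    apply le_antisymm
    · rintro n ⟨hnz, hnN⟩
      have hnz' : n * z = z * n := Subgroup.mem_centralizer_singleton_iff.mp hnz
      have hex : ∃ k : ℕ, z ^ 2 ^ k = 1 := by
        obtain ⟨k, hk⟩ := P.2 ⟨z, hz⟩
        refine ⟨k, ?_⟩
        have h2 := congrArg Subtype.val hk
        rwa [Subgroup.coe_pow, Subgroup.coe_one] at h2
      have hk0 : Nat.find hex ≠ 0 := by
        intro h0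
        have h1 := Nat.find_spec hex
        rw [h0, pow_zero, pow_one] at h1
        exact hz1 h1
      obtain ⟨k, hk⟩ : ∃ k, Nat.find hex = k + 1 := ⟨Nat.find hex - 1, by omega⟩
      have ha1 : z ^ 2 ^ k ≠ 1 := by
        intro h
        have := Nat.find_min hex (m := k) (by omega)
        exact this h
      have ha2 : (z ^ 2 ^ k) ^ 2 = 1 := by
        have h1 := Nat.find_spec hex
        rw [hk, pow_succ, pow_mul] at h1
        exact h1
      have hc : Commute n (z ^ 2 ^ k) := (show Commute n z from hnz').pow_right _
      exact hF.centralizes n hnN (z ^ 2 ^ k) (pow_mem hz _) ha1 ha2 hc.eq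
    · exact le_inf (Subgroup.centralizer_le (Set.singleton_subset_iff.mpr hz)) hCN

end Cfsg.Agent.S0945
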