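import Cfsg.Statements.S0946
import Mathlib
import Cfsg.Agent.Lead.Homocyclic
import Cfsg.Agent.Lead.Fusion
import Cfsg.Agent.Lead.AbelianSylow

set_option autoImplicit false
open Cfsg

namespace Cfsg.Agent.S0946

/-- Let P be a Sylow 2-subgroup of the finite group G isomorphic to Z/2^m × Z/2^m with m ≥ 1. Then either P has a normal complement in G, or all involutions of G are conjugate. -/
theorem result {G : Type*} [Group G] [Finite G] (P : Sylow 2 G) (m : ℕ) (hm : 1 ≤ m) (e : (P : Subgroup G) ≃* Multiplicative (ZMod (2 ^ m) × ZMod (2 ^ m))) : (∃ N : Subgroup G, N.Normal ∧ Subgroup.IsComplement' N (P : Subgroup G)) ∨ ∀ s t : G, orderOf s = 2 → orderOf t = 2 → IsConj s t := by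
  classical
  obtain ⟨s₀, t₀, hF⟩ := Cfsg.Agent.Lead.fourInv_of_equiv (P : Subgroup G) m hm e
  by_cases hNC : Subgroup.normalizer ((P : Subgroup G) : Set G) ≤
      Subgroup.centralizer ((P : Subgroup G) : Set G)
  · left
    exact ⟨(MonoidHom.transferSylow P hNC).ker, inferInstance,
      MonoidHom.ker_transferSylow_isComplement' P hNC⟩
  · right
    obtain ⟨n, hnN, hnC⟩ := SetLike.not_le_iff_exists.mp hNC
    have hmove : ∀ a ∈ (P : Subgroup G), a ≠ 1 → a ^ 2 = 1 → n * a * n⁻¹ ≠ a := by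
      intro a ha ha1 ha2 hfix
      apply hnC
      refine hF.centralizes n hnN a ha ha1 ha2 ?_
      calc n * a = n * a * n⁻¹ * n := by group
        _ = a * n := by rw [hfix]
    have hconj : ∀ x ∈ (P : Subgroup G), n * x * n⁻¹ ∈ (P : Subgroup G) := fun x hx =>
      (Subgroup.mem_normalizer_iff.mp hnN x).mp hx
    have hne1 : ∀ x : G, x ≠ 1 → n * x * n⁻¹ ≠ 1 := by
      intro x hx h
      apply hx
      have hback : n⁻¹ * (n * x * n⁻¹) * n = x := by group
      rw [← hback, h]; group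
    have hP : ∀ s t : G, s ∈ (P : Subgroup G) → t ∈ (P : Subgroup G) → s ≠ 1 → t ≠ 1 →
        s ^ 2 = 1 → t ^ 2 = 1 → IsConj s t := by
      intro s t hs ht hs1 ht1 hs2 ht2
      by_cases hst : s = t
      · rw [hst]
      have h1P := hconj s hs
      have h12 : (n * s * n⁻¹) ^ 2 = 1 := by rw [conj_pow, hs2, mul_one, mul_inv_cancel]
      have h11 : n * s * n⁻¹ ≠ 1 := hne1 s hs1
      by_cases hnt : n * s * n⁻¹ = t
      · exact isConj_iff.mpr ⟨n, hnt⟩
      · have h3 : n * s * n⁻¹ = s * t :=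
          hF.third s t (n * s * n⁻¹) hs ht h1P hs2 ht2 h12 hs1 ht1 h11 hst
            (hmove s hs hs1 hs2) hnt
        have h2P := hconj t ht
        have h22 : (n * t * n⁻¹) ^ 2 = 1 := by rw [conj_pow, ht2, mul_one, mul_inv_cancel]
        have h21 : n * t * n⁻¹ ≠ 1 := hne1 t ht1
        have h2s : n * t * n⁻¹ = s := by
          by_contra hne
          have h4 : n * t * n⁻¹ = t * s :=
            hF.third t s (n * t * n⁻¹) ht hs h2P ht2 hs2 h22 ht1 hs1 h21 (Ne.symm hst)
              (hmove t ht ht1 ht2) hne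
          apply hst
          have h5 : n * s * n⁻¹ = n * t * n⁻¹ := by rw [h3, h4]; exact hF.1 s hs t ht
          exact mul_left_cancel (mul_right_cancel h5)
        refine isConj_iff.mpr ⟨n * n, ?_⟩
        calc n * n * s * (n * n)⁻¹ = n * (n * s * n⁻¹) * n⁻¹ := by group
          _ = n * (s * t) * n⁻¹ := by rw [h3]
          _ = (n * s * n⁻¹) * (n * t * n⁻¹) := by group
          _ = s * t * s := by rw [h3, h2s]
          _ = t := by rw [hF.1 s hs t ht, mul_assoc, ← pow_two, hs2, mul_one]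
    have hinto : ∀ x : G, orderOf x = 2 → ∃ y ∈ (P : Subgroup G), IsConj x y ∧ y ≠ 1 ∧ y ^ 2 = 1 := by
      intro x hx
      have hx2 : x ^ 2 = 1 := by rw [← hx]; exact pow_orderOf_eq_one x
      have hx1 : x ≠ 1 := by
        rintro rfl
        rw [orderOf_one] at hx
        omega
      have hZ : IsPGroup 2 (Subgroup.zpowers x) :=
        Cfsg.Agent.Lead.isPGroup_zpowers_of_pow x 1 (by rw [pow_one]; exact hx2)
      obtain ⟨Q, hQ⟩ := hZ.exists_le_sylow
      obtain ⟨c, hc⟩ := MulAction.exists_smul_eq G Q P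
      refine ⟨c * x * c⁻¹, ?_, isConj_iff.mpr ⟨c, rfl⟩, ?_, ?_⟩
      · rw [← hc, Cfsg.Agent.Lead.mem_smul_sylow]
        have hback : c⁻¹ * (c * x * c⁻¹) * c = x := by group
        rw [hback]; exact hQ (Subgroup.mem_zpowers x)
      · intro h
        apply hx1
        have hback : c⁻¹ * (c * x * c⁻¹) * c = x := by group
        rw [← hback, h]; group
      · rw [conj_pow, hx2, mul_one, mul_inv_cancel]
    intro s t hs ht
    obtain ⟨s', hs'P, hss', hs'1, hs'2⟩ := hinto s hs
    obtain ⟨t', ht'P, htt', ht'1, ht'2⟩ := hinto t ht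
    exact hss'.trans ((hP s' t' hs'P ht'P hs'1 ht'1 hs'2 ht'2).trans htt'.symm)

end Cfsg.Agent.S0946
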