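import Cfsg.Statements.S0948
import Cfsg.Agent.Helper6.KleinFour2

set_option autoImplicit false
open Cfsg

namespace Cfsg.Agent.S0948

open Cfsg.Agent Cfsg.Agent.Helper6 in
/-- Let the finite group G have a Sylow 2-subgroup P that is a Klein four-group, suppose all involutions of G are conjugate, and fix a maximal ideal M of the algebraic integers containing 2. Then the principal block consists of exactly four irreducible characters, the principal character and ζ₂, ζ₃, ζ₄, and there is a sign ε such that for every involution z: ζ₂ z = 1, ζ₃ z = ε, ζ₄ z = -1; moreover ζ₂ 1 ≡ 1, ζ₃ 1 ≡ ε, ζ₄ 1 ≡ -1 (mod 4), and 1 + ζ₂ y + ε ζ₃ y - ζ₄ y = 0 for every y of odd order. -/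
theorem result {G : Type*} [Group G] [Finite G] (M : Ideal Cfsg.AlgInt) (hM : Cfsg.IsPModular 2 M) (P : Sylow 2 G) (hP : IsKleinFour (P : Subgroup G)) (hone : ∀ s t : G, orderOf s = 2 → orderOf t = 2 → IsConj s t) : ∃ ζ₂ ζ₃ ζ₄ : Cfsg.IrrCharacter G, ∃ ε : ℤ, (ε = 1 ∨ ε = -1) ∧ (ζ₂ : G → ℂ) ≠ (fun _ => 1) ∧ (ζ₃ : G → ℂ) ≠ (fun _ => 1) ∧ ζ₂ ≠ ζ₃ ∧ ζ₂ ≠ ζ₄ ∧ ζ₃ ≠ ζ₄ ∧ Cfsg.principalBlock M G = {χ : Cfsg.IrrCharacter G | (χ : G → ℂ) = (fun _ => 1) ∨ χ = ζ₂ ∨ χ = ζ₃ ∨ χ = ζ₄} ∧ (∀ z : G, orderOf z = 2 → (ζ₂ : G → ℂ) z = 1 ∧ (ζ₃ : G → ℂ) z = (ε : ℂ) ∧ (ζ₄ : G → ℂ) z = -1) ∧ (4 : ℤ) ∣ (Cfsg.charDegree (ζ₂ : G → ℂ) : ℤ) - 1 ∧ (4 : ℤ) ∣ (Cfsg.charDegree (ζ₃ : G → ℂ) : ℤ) - ε ∧ (4 : ℤ) ∣ (Cfsg.charDegree (ζ₄ : G → ℂ) : ℤ) + 1 ∧ ∀ y : G, Odd (orderOf y) → 1 + (ζ₂ : G → ℂ) y + (ε : ℂ) * (ζ₃ : G → ℂ) y - (ζ₄ : G → ℂ) y = 0 := by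
  classical
  haveI : Fintype G := Fintype.ofFinite G
  have := Helper24.finite_irrCharacter (G := G)
  haveI : Fintype (IrrCharacter G) := Fintype.ofFinite _
  have hP4 : Nat.card P = 4 := hP.card_four
  have hexp : ∀ x : P, x * x = 1 := by
    intro x
    have h : (x : (P : Subgroup G)) ^ Monoid.exponent (P : Subgroup G) = 1 :=
      Monoid.pow_exponent_eq_one _
    rw [hP.exponent_two, pow_two] at h
    exact h
  obtain ⟨J, hJP, hJ, ha, haC, hsec⟩ := kf_setup P hP4 hexp hone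
  obtain ⟨ψ₁, ψ₂, ψ₃, k₁, k₂, k₃, hk₁, hk₂, hk₃, hψ₁, hψ₂, hψ₃, h12, h13, h23, hBiff, hv₁, hv₂,
    hv₃, horth, -⟩ := kf_main hM J hJ ha haC hsec
  have hdeg := horth 1 (by rw [orderOf_one]; norm_num)
  rw [Helper25.irr_one_eq_degree ψ₁, Helper25.irr_one_eq_degree ψ₂,
    Helper25.irr_one_eq_degree ψ₃] at hdeg
  have hdegZ : 1 + k₁ * (charDegree (ψ₁ : G → ℂ) : ℤ) + k₂ * (charDegree (ψ₂ : G → ℂ) : ℤ)
      + k₃ * (charDegree (ψ₃ : G → ℂ) : ℤ) = 0 := by exact_mod_cast hdeg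
  have hx₁ : 0 < charDegree (ψ₁ : G → ℂ) :=
    Nat.pos_of_ne_zero (Helper25.charDegree_irr_ne_zero ψ₁)
  have hx₂ : 0 < charDegree (ψ₂ : G → ℂ) :=
    Nat.pos_of_ne_zero (Helper25.charDegree_irr_ne_zero ψ₂)
  have hx₃ : 0 < charDegree (ψ₃ : G → ℂ) :=
    Nat.pos_of_ne_zero (Helper25.charDegree_irr_ne_zero ψ₃)
  rcases hk₁ with rfl | rfl <;> rcases hk₂ with rfl | rfl <;> rcases hk₃ with rfl | rfl
  · exfalso
    omega
  · exact kf_assemble P hP4 hexp hone J hJ ψ₁ ψ₂ ψ₃ 1 (Or.inl rfl) hψ₁ hψ₂ h12 h13 h23 hBiff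
      (by rw [hv₁]; simp) (by rw [hv₂]) (by rw [hv₃]; simp)
      (fun y hy => by have h := horth y hy; push_cast at h ⊢; linear_combination h)
  · exact kf_assemble P hP4 hexp hone J hJ ψ₁ ψ₃ ψ₂ 1 (Or.inl rfl) hψ₁ hψ₃ h13 h12 h23.symm
      (fun φ => by rw [hBiff φ]; tauto)
      (by rw [hv₁]; simp) (by rw [hv₃]) (by rw [hv₂]; simp)
      (fun y hy => by have h := horth y hy; push_cast at h ⊢; linear_combination h)
  · exact kf_assemble P hP4 hexp hone J hJ ψ₁ ψ₂ ψ₃ (-1) (Or.inr rfl) hψ₁ hψ₂ h12 h13 h23 hBiff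
      (by rw [hv₁]; simp) (by rw [hv₂]) (by rw [hv₃]; simp)
      (fun y hy => by have h := horth y hy; push_cast at h ⊢; linear_combination h)
  · exact kf_assemble P hP4 hexp hone J hJ ψ₂ ψ₃ ψ₁ 1 (Or.inl rfl) hψ₂ hψ₃ h23 h12.symm h13.symm
      (fun φ => by rw [hBiff φ]; tauto)
      (by rw [hv₂]; simp) (by rw [hv₃]) (by rw [hv₁]; simp)
      (fun y hy => by have h := horth y hy; push_cast at h ⊢; linear_combination h)
  · exact kf_assemble P hP4 hexp hone J hJ ψ₂ ψ₁ ψ₃ (-1) (Or.inr rfl) hψ₂ hψ₁ h12.symm h23 h13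
      (fun φ => by rw [hBiff φ]; tauto)
      (by rw [hv₂]; simp) (by rw [hv₁]) (by rw [hv₃]; simp)
      (fun y hy => by have h := horth y hy; push_cast at h ⊢; linear_combination h)
  · exact kf_assemble P hP4 hexp hone J hJ ψ₃ ψ₁ ψ₂ (-1) (Or.inr rfl) hψ₃ hψ₁ h13.symm h23.symm
      h12 (fun φ => by rw [hBiff φ]; tauto)
      (by rw [hv₃]; simp) (by rw [hv₁]) (by rw [hv₂]; simp)
      (fun y hy => by have h := horth y hy; push_cast at h ⊢; linear_combination h)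
  · exfalso
    omega

end Cfsg.Agent.S0948
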