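import Cfsg.Statements.S0950
import Mathlib
import Cfsg.Agent.Helper20.Conj
import Cfsg.Agent.Helper20.SylowAux
import Cfsg.Agent.Helper17.Npc4
import Cfsg.Agent.Helper12.Syl
import Cfsg.Agent.Lead.Transfer

set_option autoImplicit false
open Cfsg
set_option maxHeartbeats 1600000

namespace Cfsg.Agent.S0950

def qcls : QuaternionGroup 2 → ℕ
  | QuaternionGroup.a i => if i = 0 ∨ i = 2 then 0 else 1
  | QuaternionGroup.xa i => if i = 0 ∨ i = 2 then 2 else 3

theorem qcls_le : ∀ x : QuaternionGroup 2, qcls x ≤ 3 := by decide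

theorem qcls_zero : ∀ x : QuaternionGroup 2, qcls x = 0 → x = 1 ∨ x = QuaternionGroup.a 2 := by
  decide

theorem qcls_eq : ∀ x y : QuaternionGroup 2, qcls x = qcls y → qcls x ≠ 0 → y = x ∨ y = x⁻¹ := by
  decide

theorem qcls_one : qcls 1 = 0 ∧ qcls (QuaternionGroup.a 2) = 0 := by decide

theorem q_z : (QuaternionGroup.a 2 : QuaternionGroup 2) ≠ 1 ∧
    (QuaternionGroup.a 2 : QuaternionGroup 2) ^ 2 = 1 := by decide

theorem q_pow4 : ∀ x : QuaternionGroup 2, x ^ 4 = 1 := by decide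

theorem q_sq : ∀ x : QuaternionGroup 2, x ^ 2 = 1 → x = 1 ∨ x = QuaternionGroup.a 2 := by decide

open Cfsg.Agent.Helper20 in
theorem fuse_step {G : Type*} [Group G] [Finite G] (S : Sylow 2 G)
    (hnorm : ∀ D : Subgroup G, D ≤ (S : Subgroup G) → Nat.card D = 4 →
      (S : Subgroup G) ≤ Subgroup.normalizer (D : Set G))
    (D : Subgroup G) (g : G) (hD : D ≤ (S : Subgroup G)) (hD4 : Nat.card D = 4)
    (hDg : D.map (MulAut.conj g).toMonoidHom ≤ (S : Subgroup G)) :
    ∃ n ∈ Subgroup.normalizer ((S : Subgroup G) : Set G),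
      D.map (MulAut.conj n).toMonoidHom = D.map (MulAut.conj g).toMonoidHom := by
  have hD'4 : Nat.card (D.map (MulAut.conj g).toMonoidHom) = 4 := by
    rw [card_map_conj]; exact hD4
  have h1 : (S : Subgroup G) ≤
      Subgroup.normalizer ((D.map (MulAut.conj g).toMonoidHom : Subgroup G) : Set G) :=
    hnorm _ hDg hD'4
  have h2 : (S : Subgroup G).map (MulAut.conj g).toMonoidHom ≤
      Subgroup.normalizer ((D.map (MulAut.conj g).toMonoidHom : Subgroup G) : Set G) := by
    intro y hy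
    rw [mem_map_conj] at hy
    have hyN : g⁻¹ * y * g ∈ Subgroup.normalizer (D : Set G) := hnorm D hD hD4 hy
    rw [mem_normalizer_iff_map_conj] at hyN ⊢
    rw [map_conj_mul]
    have e1 : y * g = g * (g⁻¹ * y * g) := by group
    rw [e1, ← map_conj_mul, hyN]
  have hQ : IsPGroup 2 ((S : Subgroup G).map (MulAut.conj g).toMonoidHom) := S.isPGroup'.map _
  obtain ⟨h, hhN, hh⟩ := Cfsg.Agent.Helper12.exists_conj_mem_sylow_of_le S h1 hQ h2
  refine ⟨h * g, ?_, ?_⟩
  · rw [mem_normalizer_iff_map_conj]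
    apply Subgroup.eq_of_le_of_card_ge
    · intro y hy
      rw [mem_map_conj] at hy
      have h3 : g * ((h * g)⁻¹ * y * (h * g)) * g⁻¹ ∈
          (S : Subgroup G).map (MulAut.conj g).toMonoidHom := conj_mem_map_conj _ g _ hy
      have h4 : h * (g * ((h * g)⁻¹ * y * (h * g)) * g⁻¹) * h⁻¹ ∈ (S : Subgroup G) := hh _ h3
      have e1 : h * (g * ((h * g)⁻¹ * y * (h * g)) * g⁻¹) * h⁻¹ = y := by group
      rwa [e1] at h4
    · exact (card_map_conj _ _).ge
  · rw [← map_conj_mul]
    exact map_conj_eq_of_mem_normalizer _ h hhN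

open Cfsg.Agent.Helper20 in
theorem trans_step {G : Type*} [Group G] [Finite G] (S : Sylow 2 G)
    (hnorm : ∀ D : Subgroup G, D ≤ (S : Subgroup G) → Nat.card D = 4 →
      (S : Subgroup G) ≤ Subgroup.normalizer (D : Set G))
    (hthree : ∀ D1 D2 D3 X : Subgroup G, D1 ≤ (S : Subgroup G) → Nat.card D1 = 4 →
      D2 ≤ (S : Subgroup G) → Nat.card D2 = 4 → D3 ≤ (S : Subgroup G) → Nat.card D3 = 4 →
      X ≤ (S : Subgroup G) → Nat.card X = 4 → D1 ≠ D2 → D1 ≠ D3 → D2 ≠ D3 →
      X = D1 ∨ X = D2 ∨ X = D3)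
    (D : Subgroup G) (n : G) (hD : D ≤ (S : Subgroup G)) (hD4 : Nat.card D = 4)
    (hn : n ∈ Subgroup.normalizer ((S : Subgroup G) : Set G))
    (hne : D.map (MulAut.conj n).toMonoidHom ≠ D)
    (X Y : Subgroup G) (hX : X ≤ (S : Subgroup G)) (hX4 : Nat.card X = 4)
    (hY : Y ≤ (S : Subgroup G)) (hY4 : Nat.card Y = 4) :
    ∃ m ∈ Subgroup.normalizer ((S : Subgroup G) : Set G),
      Y = X.map (MulAut.conj m).toMonoidHom := by
  have hcjP : ∀ (E : Subgroup G) (m : G), E ≤ (S : Subgroup G) →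
      m ∈ Subgroup.normalizer ((S : Subgroup G) : Set G) →
      E.map (MulAut.conj m).toMonoidHom ≤ (S : Subgroup G) := by
    intro E m hE hm
    have h1 := map_conj_mono m hE
    rwa [map_conj_eq_of_mem_normalizer _ m hm] at h1
  have hD1 : D.map (MulAut.conj n).toMonoidHom ≤ (S : Subgroup G) := hcjP D n hD hn
  have hD14 : Nat.card (D.map (MulAut.conj n).toMonoidHom) = 4 := by
    rw [card_map_conj]; exact hD4
  have hnn : n * n ∈ Subgroup.normalizer ((S : Subgroup G) : Set G) := Subgroup.mul_mem _ hn hn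
  have hD2 : D.map (MulAut.conj (n * n)).toMonoidHom ≤ (S : Subgroup G) := hcjP D (n * n) hD hnn
  have hD24 : Nat.card (D.map (MulAut.conj (n * n)).toMonoidHom) = 4 := by
    rw [card_map_conj]; exact hD4
  have h12 : D.map (MulAut.conj n).toMonoidHom ≠ D.map (MulAut.conj (n * n)).toMonoidHom := by
    intro h
    apply hne
    have h1 : (D.map (MulAut.conj n).toMonoidHom).map (MulAut.conj n).toMonoidHom
        = D.map (MulAut.conj n).toMonoidHom := by
      rw [map_conj_mul]; exact h.symm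
    have h2 := map_conj_inv_eq _ _ n h1
    rw [map_conj_mul, inv_mul_cancel, map_conj_one] at h2
    exact h2.symm
  have h02 : D ≠ D.map (MulAut.conj (n * n)).toMonoidHom := by
    intro h
    apply hne
    have hnnD1 : n * n ∈ Subgroup.normalizer
        ((D.map (MulAut.conj n).toMonoidHom : Subgroup G) : Set G) := by
      rw [mem_normalizer_iff_map_conj, map_conj_mul]
      have e1 : n * n * n = n * (n * n) := by group
      rw [e1, ← map_conj_mul, ← h]
    obtain ⟨k, m, hm2, hkm⟩ :=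
      Nat.exists_eq_pow_mul_and_not_dvd (orderOf_pos n).ne' 2 (by norm_num)
    have hmS : n ^ m ∈ (S : Subgroup G) := by
      refine Cfsg.Agent.Lead.mem_sylow_of_mem_normalizer S (n ^ m) k ?_ (Subgroup.pow_mem _ hn m)
      rw [← pow_mul, mul_comm, ← hkm, pow_orderOf_eq_one]
    have hmD : n ^ m ∈ Subgroup.normalizer (D : Set G) := hnorm D hD hD4 hmS
    obtain ⟨j, hj⟩ : ∃ j, m = 2 * j + 1 := ⟨m / 2, by omega⟩
    have e2 : n ^ m = (n * n) ^ j * n := by
      rw [hj, pow_succ, pow_mul, pow_two]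
    rw [mem_normalizer_iff_map_conj, e2, ← map_conj_mul] at hmD
    rw [map_conj_eq_of_mem_normalizer _ _ (Subgroup.pow_mem _ hnnD1 j)] at hmD
    exact hmD
  have hX' := hthree D (D.map (MulAut.conj n).toMonoidHom)
    (D.map (MulAut.conj (n * n)).toMonoidHom) X hD hD4 hD1 hD14 hD2 hD24 hX hX4
    (Ne.symm hne) h02 h12
  have hY' := hthree D (D.map (MulAut.conj n).toMonoidHom)
    (D.map (MulAut.conj (n * n)).toMonoidHom) Y hD hD4 hD1 hD14 hD2 hD24 hY hY4
    (Ne.symm hne) h02 h12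
  have hex : ∀ Z : Subgroup G, (Z = D ∨ Z = D.map (MulAut.conj n).toMonoidHom ∨
      Z = D.map (MulAut.conj (n * n)).toMonoidHom) →
      ∃ i ∈ Subgroup.normalizer ((S : Subgroup G) : Set G),
        Z = D.map (MulAut.conj i).toMonoidHom := by
    rintro Z (h | h | h)
    · exact ⟨1, Subgroup.one_mem _, by rw [map_conj_one]; exact h⟩
    · exact ⟨n, hn, h⟩
    · exact ⟨n * n, hnn, h⟩
  obtain ⟨i, hi, hXi⟩ := hex X hX'
  obtain ⟨j, hj, hYj⟩ := hex Y hY'
  refine ⟨j * i⁻¹, Subgroup.mul_mem _ hj (Subgroup.inv_mem _ hi), ?_⟩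
  rw [hXi, map_conj_mul, inv_mul_cancel_right]
  exact hYj

/-- Let S be a Sylow 2-subgroup of the finite group G that is isomorphic to the quaternion group of order 8, and suppose S has no normal complement in G. Then any two subgroups of order 4 of S are conjugate by an element of the normalizer of S. -/
theorem result {G : Type*} [Group G] [Finite G] (S : Sylow 2 G) (e : (S : Subgroup G) ≃* QuaternionGroup 2) (hnc : ∀ N : Subgroup G, N.Normal → ¬ Subgroup.IsComplement' N (S : Subgroup G)) (A B : Subgroup G) (hA : A ≤ S) (hB : B ≤ S) (hA4 : Nat.card A = 4) (hB4 : Nat.card B = 4) : ∃ n ∈ Subgroup.normalizer ((S : Subgroup G) : Set G), B = A.map (MulAut.conj n).toMonoidHom := by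
  classical
  by_contra hcon
  have hS8 : Nat.card (S : Subgroup G) = 8 := by
    rw [Nat.card_congr e.toEquiv, Nat.card_eq_fintype_card, QuaternionGroup.card]
  obtain ⟨z, hz⟩ : ∃ z : ↥(S : Subgroup G), z = e.symm (QuaternionGroup.a 2) := ⟨_, rfl⟩
  have hez : e z = QuaternionGroup.a 2 := by rw [hz, MulEquiv.apply_symm_apply]
  have hzS : (z : G) ∈ (S : Subgroup G) := z.2
  have hF1 : ∀ x ∈ (S : Subgroup G), x ^ 4 = 1 := by
    intro x hx
    have h1 : (⟨x, hx⟩ : ↥(S : Subgroup G)) ^ 4 = 1 := by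
      apply e.injective
      rw [map_pow, map_one]
      exact q_pow4 _
    exact congrArg Subtype.val h1
  have hF2 : ∀ x ∈ (S : Subgroup G), x ^ 2 = 1 → x = 1 ∨ x = (z : G) := by
    intro x hx hx2
    have h1 : (e ⟨x, hx⟩) ^ 2 = 1 := by
      rw [← map_pow]
      have h0 : (⟨x, hx⟩ : ↥(S : Subgroup G)) ^ 2 = 1 := Subtype.ext hx2
      rw [h0, map_one]
    rcases q_sq _ h1 with h | h
    · left
      have h3 : (⟨x, hx⟩ : ↥(S : Subgroup G)) = 1 := e.injective (by rw [h, map_one])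
      exact congrArg Subtype.val h3
    · right
      have h3 : (⟨x, hx⟩ : ↥(S : Subgroup G)) = z := e.injective (by rw [h, hez])
      exact congrArg Subtype.val h3
  obtain ⟨K, hK⟩ : ∃ K : G → ℕ, ∀ (x : G) (hx : x ∈ (S : Subgroup G)),
      K x = qcls (e ⟨x, hx⟩) :=
    ⟨fun x => if hx : x ∈ (S : Subgroup G) then qcls (e ⟨x, hx⟩) else 0, fun x hx => dif_pos hx⟩
  have hK0 : ∀ x ∈ (S : Subgroup G), K x = 0 → x = 1 ∨ x = (z : G) := by
    intro x hx h0
    rw [hK x hx] at h0
    rcases qcls_zero _ h0 with h | h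
    · left
      have h3 : (⟨x, hx⟩ : ↥(S : Subgroup G)) = 1 := e.injective (by rw [h, map_one])
      exact congrArg Subtype.val h3
    · right
      have h3 : (⟨x, hx⟩ : ↥(S : Subgroup G)) = z := e.injective (by rw [h, hez])
      exact congrArg Subtype.val h3
  have hK1 : K 1 = 0 := by
    rw [hK 1 (Subgroup.one_mem _)]
    have h3 : (⟨1, Subgroup.one_mem _⟩ : ↥(S : Subgroup G)) = 1 := rfl
    rw [h3, map_one]; exact qcls_one.1
  have hKz : K (z : G) = 0 := by
    rw [hK _ hzS]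
    have h3 : (⟨(z : G), hzS⟩ : ↥(S : Subgroup G)) = z := rfl
    rw [h3, hez]; exact qcls_one.2
  have hKle : ∀ x ∈ (S : Subgroup G), K x ≤ 3 := fun x hx => by
    rw [hK x hx]; exact qcls_le _
  have hKeq : ∀ x ∈ (S : Subgroup G), ∀ y ∈ (S : Subgroup G), K x = K y → K x ≠ 0 →
      y = x ∨ y = x⁻¹ := by
    intro x hx y hy hxy hx0
    rw [hK x hx, hK y hy] at hxy
    rw [hK x hx] at hx0
    rcases qcls_eq _ _ hxy hx0 with h | h
    · left
      have h3 : (⟨y, hy⟩ : ↥(S : Subgroup G)) = ⟨x, hx⟩ := e.injective h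
      exact congrArg Subtype.val h3
    · right
      have h3 : (⟨y, hy⟩ : ↥(S : Subgroup G)) = (⟨x, hx⟩ : ↥(S : Subgroup G))⁻¹ :=
        e.injective (by rw [h, map_inv])
      exact congrArg Subtype.val h3
  have hz2 : (z : G) ^ 2 = 1 := by
    have h1 : z ^ 2 = 1 := by
      apply e.injective
      rw [map_pow, hez, map_one]; exact q_z.2
    exact congrArg Subtype.val h1
  have hord4 : ∀ x ∈ (S : Subgroup G), K x ≠ 0 → orderOf x = 4 := by
    intro x hx hx0
    have hx2 : x ^ 2 ≠ 1 := by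
      intro h
      rcases hF2 x hx h with h1 | h1
      · rw [h1] at hx0; exact hx0 hK1
      · rw [h1] at hx0; exact hx0 hKz
    have hdvd : orderOf x ∣ 2 ^ 2 := by
      norm_num
      exact orderOf_dvd_of_pow_eq_one (hF1 x hx)
    obtain ⟨m, hm, hxm⟩ := (Nat.dvd_prime_pow Nat.prime_two).mp hdvd
    have hm' : m = 0 ∨ m = 1 ∨ m = 2 := by omega
    rcases hm' with rfl | rfl | rfl
    · exfalso; apply hx2
      rw [pow_zero, orderOf_eq_one_iff] at hxm
      rw [hxm, one_pow]
    · exfalso; apply hx2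
      rw [pow_one] at hxm
      rw [← hxm]; exact pow_orderOf_eq_one x
    · rw [hxm]; norm_num
  have hgen : ∀ D : Subgroup G, D ≤ (S : Subgroup G) → Nat.card D = 4 →
      ∃ d ∈ D, K d ≠ 0 ∧ D = Subgroup.zpowers d := by
    intro D hD hD4
    have hex : ∃ d ∈ D, K d ≠ 0 := by
      by_contra hno
      push Not at hno
      have hle : D ≤ Subgroup.zpowers (z : G) := by
        intro d hd
        rcases hK0 d (hD hd) (hno d hd) with h | h
        · rw [h]; exact Subgroup.one_mem _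
        · rw [h]; exact Subgroup.mem_zpowers _
      have h1 := Subgroup.card_le_of_le hle
      rw [hD4, Nat.card_zpowers] at h1
      have h2 : orderOf (z : G) ≤ 2 :=
        Nat.le_of_dvd (by norm_num) (orderOf_dvd_of_pow_eq_one hz2)
      omega
    obtain ⟨d, hd, hd0⟩ := hex
    refine ⟨d, hd, hd0, ?_⟩
    symm
    apply Subgroup.eq_of_le_of_card_ge
    · exact Subgroup.zpowers_le.mpr hd
    · rw [Nat.card_zpowers, hord4 d (hD hd) hd0, hD4]
  have hthree : ∀ D1 D2 D3 X : Subgroup G, D1 ≤ (S : Subgroup G) → Nat.card D1 = 4 →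
      D2 ≤ (S : Subgroup G) → Nat.card D2 = 4 → D3 ≤ (S : Subgroup G) → Nat.card D3 = 4 →
      X ≤ (S : Subgroup G) → Nat.card X = 4 → D1 ≠ D2 → D1 ≠ D3 → D2 ≠ D3 →
      X = D1 ∨ X = D2 ∨ X = D3 := by
    intro D1 D2 D3 X h1 h14 h2' h24 h3 h34 hX hX4 n12 n13 n23
    obtain ⟨d1, hd1, hk1, e1⟩ := hgen D1 h1 h14
    obtain ⟨d2, hd2, hk2, e2⟩ := hgen D2 h2' h24
    obtain ⟨d3, hd3, hk3, e3⟩ := hgen D3 h3 h34
    obtain ⟨x, hx, hkx, ex⟩ := hgen X hX hX4
    have hcl : ∀ (u v : G), u ∈ (S : Subgroup G) → v ∈ (S : Subgroup G) → K u ≠ 0 →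
        K u = K v → Subgroup.zpowers u = Subgroup.zpowers v := by
      intro u v hu hv hu0 huv
      rcases hKeq u hu v hv huv hu0 with h | h
      · rw [h]
      · rw [h, Subgroup.zpowers_inv]
    have l1 := hKle d1 (h1 hd1)
    have l2 := hKle d2 (h2' hd2)
    have l3 := hKle d3 (h3 hd3)
    have lx := hKle x (hX hx)
    have m12 : K d1 ≠ K d2 := fun h => n12 (by
      rw [e1, e2]; exact hcl d1 d2 (h1 hd1) (h2' hd2) hk1 h)
    have m13 : K d1 ≠ K d3 := fun h => n13 (by
      rw [e1, e3]; exact hcl d1 d3 (h1 hd1) (h3 hd3) hk1 h)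
    have m23 : K d2 ≠ K d3 := fun h => n23 (by
      rw [e2, e3]; exact hcl d2 d3 (h2' hd2) (h3 hd3) hk2 h)
    have hcase : K x = K d1 ∨ K x = K d2 ∨ K x = K d3 := by omega
    rcases hcase with h | h | h
    · left; rw [ex, e1]; exact hcl x d1 (hX hx) (h1 hd1) hkx h
    · right; left; rw [ex, e2]; exact hcl x d2 (hX hx) (h2' hd2) hkx h
    · right; right; rw [ex, e3]; exact hcl x d3 (hX hx) (h3 hd3) hkx h
  have hnorm : ∀ D : Subgroup G, D ≤ (S : Subgroup G) → Nat.card D = 4 →
      (S : Subgroup G) ≤ Subgroup.normalizer (D : Set G) := by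
    intro D hD hD4
    have h1 := Cfsg.Agent.Helper20.card_mul_relIndex_of_le hD
    rw [hD4, hS8] at h1
    have h2 : (D.subgroupOf (S : Subgroup G)).index = 2 := by
      show D.relIndex (S : Subgroup G) = 2
      omega
    exact (Subgroup.normal_subgroupOf_iff_le_normalizer hD).mp
      (Subgroup.normal_of_index_eq_two h2)
  have hnofuse : ∀ (D : Subgroup G) (g : G), D ≤ (S : Subgroup G) → Nat.card D = 4 →
      D.map (MulAut.conj g).toMonoidHom ≤ (S : Subgroup G) →
      D.map (MulAut.conj g).toMonoidHom = D := by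
    intro D g hD hD4 hDg
    by_contra hne
    obtain ⟨n, hn, hnD⟩ := fuse_step S hnorm D g hD hD4 hDg
    rw [← hnD] at hne
    exact hcon (trans_step S hnorm hthree D n hD hD4 hn hne A B hA hA4 hB hB4)
  have hfus : ∀ M : Subgroup G, M ≤ (S : Subgroup G) →
      (S : Subgroup G) ≤ Subgroup.normalizer (M : Set G) → M.relIndex (S : Subgroup G) = 2 →
      ∀ (a g : G), a ∈ (S : Subgroup G) → g⁻¹ * a * g ∈ (S : Subgroup G) →
        a⁻¹ * (g⁻¹ * a * g) ∈ M := by
    intro M hM _ hidx a g ha hb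
    have hsq : ∀ x ∈ (S : Subgroup G), x ^ 2 ∈ M := by
      intro x hx
      have h1 := Subgroup.sq_mem_of_index_two (H := M.subgroupOf (S : Subgroup G)) hidx ⟨x, hx⟩
      exact Subgroup.mem_subgroupOf.mp h1
    have hmem : g⁻¹ * a * g ∈ Subgroup.zpowers a := by
      by_cases hKa : K a = 0
      · rcases hK0 a ha hKa with h | h
        · rw [h]; simp
        · have hb2 : (g⁻¹ * a * g) ^ 2 = 1 := by
            have e1 : (g⁻¹ * a * g) ^ 2 = g⁻¹ * a ^ 2 * g := by rw [pow_two, pow_two]; group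
            rw [e1, h, hz2]; group
          rcases hF2 _ hb hb2 with h' | h'
          · rw [h']; exact Subgroup.one_mem _
          · rw [h', ← h]; exact Subgroup.mem_zpowers _
      · have h4 := hord4 a ha hKa
        have hD4 : Nat.card (Subgroup.zpowers a) = 4 := by rw [Nat.card_zpowers, h4]
        have hD : Subgroup.zpowers a ≤ (S : Subgroup G) := Subgroup.zpowers_le.mpr ha
        have hmap : (Subgroup.zpowers a).map (MulAut.conj g⁻¹).toMonoidHom
            = Subgroup.zpowers (g⁻¹ * a * g) := by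
          rw [MonoidHom.map_zpowers]
          congr 1
          show MulAut.conj g⁻¹ a = _
          rw [MulAut.conj_apply, inv_inv]
        have h5 := hnofuse (Subgroup.zpowers a) g⁻¹ hD hD4
          (by rw [hmap]; exact Subgroup.zpowers_le.mpr hb)
        rw [hmap] at h5
        rw [← h5]; exact Subgroup.mem_zpowers _
    obtain ⟨k, hk⟩ := Subgroup.mem_zpowers_iff.mp hmem
    rw [← hk]
    rcases Int.even_or_odd k with ⟨j, hj⟩ | ⟨j, hj⟩
    · have hc4 : (a ^ j) ^ (4 : ℕ) = 1 := by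
        rw [← zpow_natCast, ← zpow_mul, mul_comm, zpow_mul, zpow_natCast, hF1 a ha, one_zpow]
      have hb2 : (a ^ k) ^ 2 = 1 := by
        rw [hj, zpow_add, ← pow_two, ← pow_mul]; exact hc4
      have ha2 : a ^ 2 = 1 := by
        have e1 : a ^ 2 = g * (g⁻¹ * a * g) ^ 2 * g⁻¹ := by rw [pow_two, pow_two]; group
        rw [e1, ← hk, hb2]; group
      have hak : a ^ k = 1 := by
        rw [hj, ← two_mul, zpow_mul, zpow_two, ← pow_two, ha2, one_zpow]
      have ha1 : a = 1 := by
        have e1 : a = g * (g⁻¹ * a * g) * g⁻¹ := by group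
        rw [e1, ← hk, hak]; group
      rw [hak, ha1]; simp
    · rw [hj, add_comm, zpow_one_add, inv_mul_cancel_left, zpow_mul, zpow_two, ← pow_two]
      exact Subgroup.zpow_mem _ (hsq a ha) j
  have hnpc := Cfsg.Agent.Helper17.npc_of_fusion_inv S hfus
  obtain ⟨P', N, hN, hc⟩ := hnpc
  have hc1 := hc.card_mul_card
  have hP' : Nat.card (P' : Subgroup G) = Nat.card (S : Subgroup G) := by
    rw [Sylow.card_eq_multiplicity, Sylow.card_eq_multiplicity]
  have hidx : (P' : Subgroup G).index = Nat.card N := by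
    have h3 := Subgroup.card_mul_index (P' : Subgroup G)
    have hpos : 0 < Nat.card (P' : Subgroup G) := Nat.card_pos
    have h4 : Nat.card (P' : Subgroup G) * (P' : Subgroup G).index
        = Nat.card (P' : Subgroup G) * Nat.card N := by
      rw [h3, mul_comm, hc1]
    exact Nat.eq_of_mul_eq_mul_left hpos h4
  have hcop := Sylow.card_coprime_index P'
  rw [hidx, hP'] at hcop
  apply hnc N hN
  apply Subgroup.isComplement'_of_coprime
  · rw [← hP']; exact hc1
  · exact hcop.symm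

end Cfsg.Agent.S0950
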