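import Cfsg.Statements.S0953
import Cfsg.Agent.S0920
import Cfsg.Agent.Helper6.SylowBlockCount

set_option autoImplicit false
open Cfsg

namespace Cfsg.Agent.S0953

open Cfsg.Agent Cfsg.Agent.Helper6 in
/-- Let P be a Sylow p-subgroup of the finite group G with normalizer N, and fix a maximal ideal M of the algebraic integers containing p. The number of blocks of G having P as a defect group equals the number of conjugacy classes of N consisting of elements of order prime to p that centralize P. -/
theorem result {G : Type*} [Group G] [Finite G] (p : ℕ) [Fact p.Prime] (M : Ideal Cfsg.AlgInt) (hM : Cfsg.IsPModular p M) (P : Sylow p G) : Nat.card {B : Set (Cfsg.IrrCharacter G) // Cfsg.IsPBlock M B ∧ Cfsg.IsDefectGroup p M B (P : Subgroup G)} = Nat.card {C : ConjClasses (Subgroup.normalizer ((P : Subgroup G) : Set G)) // ∀ n : Subgroup.normalizer ((P : Subgroup G) : Set G), ConjClasses.mk n = C → ¬ p ∣ orderOf n ∧ (n : G) ∈ Subgroup.centralizer ((P : Subgroup G) : Set G)} := by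
  classical
  have hMp := hM.2.1.isPrime
  have : Fintype (Subgroup.normalizer ((P : Subgroup G) : Set G)) := Fintype.ofFinite _
  obtain ⟨Q, hQdef⟩ : ∃ Q : Subgroup (Subgroup.normalizer ((P : Subgroup G) : Set G)),
      Q = (P : Subgroup G).subgroupOf (Subgroup.normalizer ((P : Subgroup G) : Set G)) :=
    ⟨_, rfl⟩
  have hQn : Q.Normal := by
    rw [hQdef]
    infer_instance
  have hQp : IsPGroup p Q := by
    rw [hQdef]
    exact P.isPGroup'.comap_subtype
  have hQi : ¬ p ∣ Nat.card ((Subgroup.normalizer ((P : Subgroup G) : Set G)) ⧸ Q) := by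
    rw [← Subgroup.index_eq_card, hQdef]
    intro hdvd
    have h1 : (P : Subgroup G).relIndex (Subgroup.normalizer ((P : Subgroup G) : Set G))
        ∣ (P : Subgroup G).index := Subgroup.relIndex_dvd_index_of_le Subgroup.le_normalizer
    exact P.not_dvd_index (dvd_trans hdvd h1)
  have h920 := Cfsg.Agent.S0920.result p M hM (P : Subgroup G) P.isPGroup'
  have e1 : Nat.card {B : Set (Cfsg.IrrCharacter G) //
        Cfsg.IsPBlock M B ∧ Cfsg.IsDefectGroup p M B (P : Subgroup G)}
      = Nat.card {b : Set (Cfsg.IrrCharacter (Subgroup.normalizer ((P : Subgroup G) : Set G))) //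
        Cfsg.IsPBlock M b ∧ Cfsg.IsDefectGroup p M b Q} := by
    have hex : ∀ B : {B : Set (Cfsg.IrrCharacter G) //
        Cfsg.IsPBlock M B ∧ Cfsg.IsDefectGroup p M B (P : Subgroup G)},
        ∃ b : Set (Cfsg.IrrCharacter (Subgroup.normalizer ((P : Subgroup G) : Set G))),
          (Cfsg.IsPBlock M b ∧ Cfsg.IsDefectGroup p M b Q ∧
            Cfsg.IsInducedBlock M (Subgroup.normalizer ((P : Subgroup G) : Set G)) b B.1) ∧
          ∀ y : Set (Cfsg.IrrCharacter (Subgroup.normalizer ((P : Subgroup G) : Set G))),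
            (Cfsg.IsPBlock M y ∧ Cfsg.IsDefectGroup p M y Q ∧
              Cfsg.IsInducedBlock M (Subgroup.normalizer ((P : Subgroup G) : Set G)) y B.1)
              → y = b := by
      intro B
      rw [hQdef]
      exact h920.2 B.1 B.2.1 B.2.2
    choose f hf hfu using hex
    refine Nat.card_eq_of_bijective (fun B => ⟨f B, (hf B).1, (hf B).2.1⟩) ⟨?_, ?_⟩
    · intro B B' h
      have h1 : f B = f B' := congrArg Subtype.val h
      apply Subtype.ext
      have hi := (hf B).2.2
      have hi' := (hf B').2.2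
      rw [← h1] at hi'
      exact Helper25.isInducedBlock_unique hMp _ _ _ _ hi hi'
    · rintro ⟨b, hb1, hb2⟩
      obtain ⟨B, hB1, hB2, hB3⟩ := h920.1 b hb1 (by rw [← hQdef]; exact hb2)
      refine ⟨⟨B, hB1, hB2⟩, ?_⟩
      apply Subtype.ext
      exact (hfu ⟨B, hB1, hB2⟩ b ⟨hb1, hb2, hB3⟩).symm
  have e2 : Nat.card {b : Set (Cfsg.IrrCharacter (Subgroup.normalizer ((P : Subgroup G) : Set G))) //
        Cfsg.IsPBlock M b ∧ Cfsg.IsDefectGroup p M b Q}
      = Nat.card {b : Set (Cfsg.IrrCharacter (Subgroup.normalizer ((P : Subgroup G) : Set G))) //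
        Cfsg.IsPBlock M b} :=
    Nat.card_congr (Equiv.subtypeEquivRight
      (fun b => ⟨fun h => h.1, fun h => ⟨h, sbc_defect hM Q hQp hQi h⟩⟩))
  have e3 : Nat.card {b : Set (Cfsg.IrrCharacter (Subgroup.normalizer ((P : Subgroup G) : Set G))) //
        Cfsg.IsPBlock M b}
      = Nat.card {C : ConjClasses (Subgroup.normalizer ((P : Subgroup G) : Set G)) //
        ∀ n : Subgroup.normalizer ((P : Subgroup G) : Set G), ConjClasses.mk n = C →
          ¬ p ∣ orderOf n ∧ n ∈ Subgroup.centralizer (Q : Set _)} :=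
    le_antisymm (sbc_le hM Q hQp) (sbc_ge hM Q hQp hQi)
  have key : ∀ n : Subgroup.normalizer ((P : Subgroup G) : Set G),
      n ∈ Subgroup.centralizer (Q : Set _)
        ↔ (n : G) ∈ Subgroup.centralizer ((P : Subgroup G) : Set G) := by
    intro n
    rw [Subgroup.mem_centralizer_iff, Subgroup.mem_centralizer_iff]
    constructor
    · intro h g hg
      have hgN : g ∈ Subgroup.normalizer ((P : Subgroup G) : Set G) :=
        Subgroup.le_normalizer hg
      have h2 := h ⟨g, hgN⟩ (by rw [hQdef]; exact Subgroup.mem_subgroupOf.2 hg)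
      exact congrArg Subtype.val h2
    · intro h q hq
      rw [hQdef] at hq
      have h2 := h (q : G) (Subgroup.mem_subgroupOf.1 hq)
      exact Subtype.ext h2
  have e4 : Nat.card {C : ConjClasses (Subgroup.normalizer ((P : Subgroup G) : Set G)) //
        ∀ n : Subgroup.normalizer ((P : Subgroup G) : Set G), ConjClasses.mk n = C →
          ¬ p ∣ orderOf n ∧ n ∈ Subgroup.centralizer (Q : Set _)}
      = Nat.card {C : ConjClasses (Subgroup.normalizer ((P : Subgroup G) : Set G)) //
        ∀ n : Subgroup.normalizer ((P : Subgroup G) : Set G), ConjClasses.mk n = C →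
          ¬ p ∣ orderOf n ∧ (n : G) ∈ Subgroup.centralizer ((P : Subgroup G) : Set G)} := by
    refine Nat.card_congr (Equiv.subtypeEquivRight (fun C => ?_))
    constructor
    · intro h n hn
      exact ⟨(h n hn).1, (key n).1 (h n hn).2⟩
    · intro h n hn
      exact ⟨(h n hn).1, (key n).2 (h n hn).2⟩
  rw [e1, e2, e3, e4]

end Cfsg.Agent.S0953
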