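import Cfsg.Statements.S0955
import Cfsg.Agent.Helper25.FirstMain1
open Cfsg.Agent.Helper25
open Cfsg.Agent

set_option autoImplicit false
open Cfsg

namespace Cfsg.Agent.S0955

/-- Let D be a defect group of a block of the finite group G relative to a maximal ideal M of the algebraic integers containing the prime p. Then D is the largest normal p-subgroup of its own normalizer: O_p(N_G(D)) = D. -/
theorem result {G : Type*} [Group G] [Finite G] (p : ℕ) [Fact p.Prime] (M : Ideal Cfsg.AlgInt) (hM : Cfsg.IsPModular p M) (B : Set (Cfsg.IrrCharacter G)) (hB : Cfsg.IsPBlock M B) (D : Subgroup G) (hD : Cfsg.IsDefectGroup p M B D) : (Cfsg.pCore p (Subgroup.normalizer (D : Set G))).map (Subgroup.normalizer (D : Set G)).subtype = D := by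
  classical
  have : Fintype G := Fintype.ofFinite G
  have := Helper24.finite_irrCharacter (G := G)
  have : Fintype (IrrCharacter G) := Fintype.ofFinite _
  have : Fintype (Subgroup.normalizer (D : Set G)) := Fintype.ofFinite _
  have hMp := hM.2.1.isPrime
  have hDN : D ≤ Subgroup.normalizer (D : Set G) := Subgroup.le_normalizer
  have hCN : Subgroup.centralizer (D : Set G) ≤ Subgroup.normalizer (D : Set G) :=
    Subgroup.centralizer_le_normalizer (D : Set G)
  obtain ⟨g, hg, S, hDS⟩ := id hD
  have hDp : IsPGroup p D := by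
    rw [hDS]
    exact S.isPGroup'.map _
  have hnormal : (D.subgroupOf (Subgroup.normalizer (D : Set G))).Normal := by
    refine ⟨fun n hn g => ?_⟩
    rw [Subgroup.mem_subgroupOf] at hn ⊢
    have hg := g.2
    rw [Subgroup.mem_normalizer_iff] at hg
    exact (hg (n : G)).1 hn
  apply le_antisymm
  · obtain ⟨b, hb, hind⟩ := exists_induced_defect hM D (Subgroup.normalizer (D : Set G)) hDN hCN
      le_rfl B hB hD
    have hQn := Helper16.pCore_normal p (Subgroup.normalizer (D : Set G))
    have hle := normal_pgroup_le_defectGroup hM (pCore p (Subgroup.normalizer (D : Set G)))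
      (Helper16.pCore_isPGroup p _) hind.1 hb
    rintro _ ⟨q, hq, rfl⟩
    have h1 := hle hq
    rw [Subgroup.mem_subgroupOf] at h1
    exact h1
  · intro u hu
    have h1 : D.subgroupOf (Subgroup.normalizer (D : Set G))
        ≤ pCore p (Subgroup.normalizer (D : Set G)) := le_sSup ⟨hnormal, hDp.comap_subtype⟩
    exact ⟨⟨u, hDN hu⟩, h1 (by rw [Subgroup.mem_subgroupOf]; exact hu), rfl⟩

end Cfsg.Agent.S0955
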