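import Cfsg.Statements.S0957
-- import your own Cfsg.Agent.* helpers here
import Cfsg.Agent.Helper24.OrbitDvd

set_option autoImplicit false
open Cfsg

namespace Cfsg.Agent.S0957

open Cfsg.Agent.Helper24

/-- Let P be a Sylow p-subgroup of the finite group G, let g, h ∈ G and let p ^ d be the order of a Sylow p-subgroup of the centralizer of g. Then the number of pairs (y, z) with y conjugate to g, z conjugate to h and z * y⁻¹ ∈ P is divisible by the order of P divided by p ^ d. -/
theorem result {G : Type*} [Group G] [Finite G] (p : ℕ) [Fact p.Prime] (P : Sylow p G) (g h : G) (S : Sylow p (Subgroup.centralizer ({g} : Set G))) : Nat.card P / Nat.card S ∣ Nat.card {yz : G × G // IsConj g yz.1 ∧ IsConj h yz.2 ∧ yz.2 * yz.1⁻¹ ∈ (P : Subgroup G)} := by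
  classical
  letI act := pairConjAct (P : Subgroup G) g h
  have hp : p.Prime := Fact.out
  have hSa : Nat.card S ∣ Nat.card P := by
    obtain ⟨n, hn⟩ := IsPGroup.iff_card.mp S.isPGroup'
    have h1 : Nat.card S ∣ Nat.card G :=
      Subgroup.card_dvd_of_injective
        (((Subgroup.centralizer ({g} : Set G)).subtype).comp (S.toSubgroup).subtype)
        (fun a b hab => Subtype.ext (Subtype.ext hab))
    rw [P.card_eq_multiplicity, hn]
    rw [hn] at h1
    exact pow_dvd_pow p ((hp.pow_dvd_iff_le_factorization (Nat.card_pos.ne')).mp h1)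
  obtain ⟨k, hk⟩ := hSa
  have hSpos : 0 < Nat.card S := Nat.card_pos
  have hdiv : Nat.card P / Nat.card S = k := by
    rw [hk]; exact Nat.mul_div_cancel_left k hSpos
  rw [hdiv]
  refine dvd_card_of_dvd_orbits (M := ↥(P : Subgroup G)) k (fun x => ?_)
  have hos : Nat.card (MulAction.orbit (↥(P : Subgroup G)) x)
      * Nat.card (MulAction.stabilizer (↥(P : Subgroup G)) x) = Nat.card P := by
    rw [Nat.card_congr (MulAction.orbitEquivQuotientStabilizer _ x)]
    exact (Subgroup.card_eq_card_quotient_mul_card_subgroup _).symm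
  have hts : Nat.card (MulAction.stabilizer (↥(P : Subgroup G)) x) ∣ Nat.card S := by
    obtain ⟨c, hc⟩ := isConj_iff.mp x.2.1
    have hstabP : IsPGroup p (MulAction.stabilizer (↥(P : Subgroup G)) x) :=
      P.isPGroup'.to_subgroup _
    obtain ⟨m, hm⟩ := IsPGroup.iff_card.mp hstabP
    have hmem : ∀ u : MulAction.stabilizer (↥(P : Subgroup G)) x,
        c⁻¹ * ((u : ↥(P : Subgroup G)) : G) * c ∈ Subgroup.centralizer ({g} : Set G) := by
      intro u
      have hu : (u : ↥(P : Subgroup G)) • x = x := u.2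
      have hu1 : ((u : ↥(P : Subgroup G)) : G) * x.1.1 * ((u : ↥(P : Subgroup G)) : G)⁻¹
          = x.1.1 := congrArg (fun w => w.1.1) hu
      rw [Subgroup.mem_centralizer_iff]
      intro y hy
      rw [Set.mem_singleton_iff] at hy
      subst hy
      rw [← hc] at hu1
      have hcomm : ((u : ↥(P : Subgroup G)) : G) * (c * y * c⁻¹)
          = c * y * c⁻¹ * ((u : ↥(P : Subgroup G)) : G) := mul_inv_eq_iff_eq_mul.mp hu1
      calc y * (c⁻¹ * ((u : ↥(P : Subgroup G)) : G) * c)
          = c⁻¹ * (c * y * c⁻¹ * ((u : ↥(P : Subgroup G)) : G)) * c := by group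
        _ = c⁻¹ * (((u : ↥(P : Subgroup G)) : G) * (c * y * c⁻¹)) * c := by rw [hcomm]
        _ = c⁻¹ * ((u : ↥(P : Subgroup G)) : G) * c * y := by group
    let φ : MulAction.stabilizer (↥(P : Subgroup G)) x →* Subgroup.centralizer ({g} : Set G) :=
      { toFun := fun u => ⟨c⁻¹ * ((u : ↥(P : Subgroup G)) : G) * c, hmem u⟩
        map_one' := Subtype.ext (by simp)
        map_mul' := fun u v => Subtype.ext (by
          show c⁻¹ * (((u * v : MulAction.stabilizer (↥(P : Subgroup G)) x) :
              ↥(P : Subgroup G)) : G) * c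
            = (c⁻¹ * ((u : ↥(P : Subgroup G)) : G) * c) * (c⁻¹ * ((v : ↥(P : Subgroup G)) : G) * c)
          rw [Subgroup.coe_mul, Subgroup.coe_mul]; group) }
    have hφ : Function.Injective φ := by
      intro u v huv
      have h1 : c⁻¹ * ((u : ↥(P : Subgroup G)) : G) * c
          = c⁻¹ * ((v : ↥(P : Subgroup G)) : G) * c := congrArg Subtype.val huv
      exact Subtype.ext (Subtype.ext (mul_left_cancel (mul_right_cancel h1)))
    have h2 : Nat.card (MulAction.stabilizer (↥(P : Subgroup G)) x)
        ∣ Nat.card (Subgroup.centralizer ({g} : Set G)) := Subgroup.card_dvd_of_injective φ hφ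
    rw [hm] at h2 ⊢
    rw [S.card_eq_multiplicity]
    exact pow_dvd_pow p ((hp.pow_dvd_iff_le_factorization (Nat.card_pos.ne')).mp h2)
  obtain ⟨m, hm⟩ := hts
  have ht : 0 < Nat.card (MulAction.stabilizer (↥(P : Subgroup G)) x) := Nat.card_pos
  have h3 : Nat.card (MulAction.stabilizer (↥(P : Subgroup G)) x)
      * Nat.card (MulAction.orbit (↥(P : Subgroup G)) x)
      = Nat.card (MulAction.stabilizer (↥(P : Subgroup G)) x) * (m * k) := by
    rw [mul_comm, hos, hk, hm, mul_assoc]
  have h4 : Nat.card (MulAction.orbit (↥(P : Subgroup G)) x) = m * k :=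
    Nat.eq_of_mul_eq_mul_left ht h3
  exact ⟨m, by rw [h4, mul_comm]⟩

end Cfsg.Agent.S0957
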