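import Cfsg.Statements.S0958
import Cfsg.Agent.Helper25.FirstMain1
open Cfsg.Agent.Helper25
open Cfsg.Agent

set_option autoImplicit false
open Cfsg

namespace Cfsg.Agent.S0958

/-- Let P be a p-subgroup of the finite group G and H a subgroup with P ⊔ C_G(P) ≤ H ≤ N_G(P); fix a maximal ideal M of the algebraic integers containing p. Then a block B of G is induced by some block of H if and only if some conjugate of P is contained in a defect group of B. -/
theorem result {G : Type*} [Group G] [Finite G] (p : ℕ) [Fact p.Prime] (M : Ideal Cfsg.AlgInt) (hM : Cfsg.IsPModular p M) (P H : Subgroup G) (hP : IsPGroup p P) (hPH : P ⊔ Subgroup.centralizer (P : Set G) ≤ H) (hHN : H ≤ Subgroup.normalizer (P : Set G)) (B : Set (Cfsg.IrrCharacter G)) (hB : Cfsg.IsPBlock M B) : (∃ b : Set (Cfsg.IrrCharacter H), Cfsg.IsInducedBlock M H b B) ↔ ∃ D : Subgroup G, Cfsg.IsDefectGroup p M B D ∧ ∃ x : G, P.map (MulAut.conj x).toMonoidHom ≤ D := by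
  classical
  have : Fintype G := Fintype.ofFinite G
  have := Helper24.finite_irrCharacter (G := G)
  have : Fintype (IrrCharacter G) := Fintype.ofFinite _
  have : Fintype H := Fintype.ofFinite _
  have hMp := hM.2.1.isPrime
  have hPH' : P ≤ H := le_sup_left.trans hPH
  have hCH : Subgroup.centralizer (P : Set G) ≤ H := le_sup_right.trans hPH
  constructor
  · rintro ⟨b, hind⟩
    obtain ⟨y, hy⟩ := exists_defectClass hMp hind.1
    obtain ⟨Sb⟩ : Nonempty (Sylow p (Subgroup.centralizer ({y} : Set H))) := inferInstance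
    have hDb : IsDefectGroup p M b ((Sb : Subgroup (Subgroup.centralizer ({y} : Set H))).map
        (Subgroup.centralizer ({y} : Set H)).subtype) := ⟨y, hy, Sb, rfl⟩
    have hnormal : (P.subgroupOf H).Normal := by
      refine ⟨fun n hn g => ?_⟩
      rw [Subgroup.mem_subgroupOf] at hn ⊢
      have hg := hHN g.2
      rw [Subgroup.mem_normalizer_iff] at hg
      exact (hg (n : G)).1 hn
    have hle := normal_pgroup_le_defectGroup hM (P.subgroupOf H) hP.comap_subtype hind.1 hDb
    obtain ⟨E, hE, hDbE⟩ := induced_defectGroup_le hM H hind.1 hB hind _ hDb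
    refine ⟨E, hE, 1, ?_⟩
    rintro _ ⟨u, hu, rfl⟩
    have h1 : (⟨u, hPH' hu⟩ : H) ∈ P.subgroupOf H := by
      rw [Subgroup.mem_subgroupOf]
      exact hu
    have h2 := hDbE (Subgroup.mem_map_of_mem H.subtype (hle h1))
    simpa using h2
  · rintro ⟨D, hD, x, hx⟩
    obtain ⟨g, hg, S, hDS⟩ := id hD
    have hc : x⁻¹ * g * x ∈ Subgroup.centralizer (P : Set G) := by
      rw [Subgroup.mem_centralizer_iff]
      intro u hu
      have h1 : x * u * x⁻¹ ∈ D := hx ⟨u, hu, by simp [MulAut.conj_apply]⟩
      rw [hDS] at h1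
      obtain ⟨s, _, hs⟩ := h1
      have h2 := Subgroup.mem_centralizer_singleton_iff.1 s.2
      have h3 : x * u * x⁻¹ * g = g * (x * u * x⁻¹) := by
        rw [← hs]
        exact h2
      calc u * (x⁻¹ * g * x) = x⁻¹ * (x * u * x⁻¹ * g) * x := by group
        _ = x⁻¹ * (g * (x * u * x⁻¹)) * x := by rw [h3]
        _ = x⁻¹ * g * x * u := by group
    have hcoef : ¬ MemLocalIdeal M (blockCoeff B (x⁻¹ * g * x)) := by
      have e := blockCoeff_conj B g x⁻¹
      rw [inv_inv] at e
      rw [e]
      exact hg.2.1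
    exact exists_induced_of_coeff hM P H hP hPH' hCH hHN B hB _ hc hcoef

end Cfsg.Agent.S0958
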