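import Cfsg.Statements.S0959
import Cfsg.Agent.Helper25.BlockMinMax2
open Cfsg.Agent.Helper25

set_option autoImplicit false
open Cfsg

namespace Cfsg.Agent.S0959

/-- Let B be a block of the finite group G with defect group D (relative to a maximal ideal M of the algebraic integers containing the prime p), and let P be a p-subgroup. Then there is an element g whose idempotent coefficient for B is a local integer outside the local ideal at M and which has a conjugate centralizing P, if and only if some conjugate of P is contained in D. -/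
theorem result {G : Type*} [Group G] [Finite G] (p : ℕ) [Fact p.Prime] (M : Ideal Cfsg.AlgInt) (hM : Cfsg.IsPModular p M) (B : Set (Cfsg.IrrCharacter G)) (hB : Cfsg.IsPBlock M B) (D : Subgroup G) (hD : Cfsg.IsDefectGroup p M B D) (P : Subgroup G) (hP : IsPGroup p P) : (∃ g : G, Cfsg.MemLocalRing M (Cfsg.blockCoeff B g) ∧ ¬ Cfsg.MemLocalIdeal M (Cfsg.blockCoeff B g) ∧ ∃ c : G, IsConj g c ∧ c ∈ Subgroup.centralizer (P : Set G)) ↔ ∃ x : G, P.map (MulAut.conj x).toMonoidHom ≤ D := by
  classical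
  have : Fintype G := Fintype.ofFinite G
  obtain ⟨g₀, hdc, D₀, rfl⟩ := hD
  obtain ⟨hgR, hgJ, hgω⟩ := hdc
  obtain ⟨χ₀, hχ₀B⟩ : ∃ χ₀ : IrrCharacter G, χ₀ ∈ B := by
    obtain ⟨χ₁, hBeq⟩ := id hB
    exact ⟨χ₁, by rw [hBeq]; exact mem_blockOf_self hM.2.1.isPrime.ne_top χ₁⟩
  constructor
  · rintro ⟨g, _, hgJ', c, hc, hcP⟩
    have hcJ : ¬ MemLocalIdeal M (blockCoeff B c) := by
      obtain ⟨w, hw⟩ := isConj_iff.1 hc
      have e : blockCoeff B c = blockCoeff B g := by
        rw [← hw]
        unfold blockCoeff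
        congr 1
        refine finsum_mem_congr rfl fun χ _ => ?_
        rw [(Helper2.IsIrrCharacter.isClassFunction χ.2) g w]
      rw [e]
      exact hgJ'
    have hPc : P ≤ Subgroup.centralizer ({c} : Set G) := by
      intro u hu
      rw [Subgroup.mem_centralizer_singleton_iff]
      exact (Subgroup.mem_centralizer_iff.1 hcP u hu)
    obtain ⟨x, hx, hPx⟩ := minmax_core hM hB χ₀ hχ₀B g₀ (hgω χ₀ hχ₀B) c hcJ P hP hPc
    obtain ⟨y, hy⟩ := exists_conj_le_of_centralizer g₀ D₀ P hP x hx hPx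
    refine ⟨y⁻¹, ?_⟩
    rintro _ ⟨u, hu, rfl⟩
    obtain ⟨d, hd, hdu⟩ := hy hu
    have e : (MulAut.conj y⁻¹).toMonoidHom u = d := by
      rw [← hdu]
      simp [MulAut.conj_apply]
      group
    rw [e]
    exact hd
  · rintro ⟨x, hx⟩
    refine ⟨g₀, hgR, hgJ, x⁻¹ * g₀ * x, isConj_iff.2 ⟨x⁻¹, by simp⟩, ?_⟩
    rw [Subgroup.mem_centralizer_iff]
    intro u hu
    have h1 : (MulAut.conj x).toMonoidHom u ∈
        (D₀ : Subgroup (Subgroup.centralizer ({g₀} : Set G))).map
          (Subgroup.centralizer ({g₀} : Set G)).subtype := hx (Subgroup.mem_map_of_mem _ hu)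
    obtain ⟨q, _, hq⟩ := h1
    have h2 : x * u * x⁻¹ ∈ Subgroup.centralizer ({g₀} : Set G) := by
      have : (q : G) = x * u * x⁻¹ := by
        rw [show ((Subgroup.centralizer ({g₀} : Set G)).subtype q) = (q : G) from rfl] at hq
        rw [hq]
        simp [MulAut.conj_apply]
      rw [← this]
      exact q.2
    rw [Subgroup.mem_centralizer_singleton_iff] at h2
    calc u * (x⁻¹ * g₀ * x) = x⁻¹ * (x * u * x⁻¹ * g₀) * x := by group
      _ = x⁻¹ * (g₀ * (x * u * x⁻¹)) * x := by rw [h2]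
      _ = x⁻¹ * g₀ * x * u := by group

end Cfsg.Agent.S0959
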