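import Cfsg.Statements.S0965
import Cfsg.Agent.Helper25.BlockCover
open Cfsg.Agent.Helper25

set_option autoImplicit false
open Cfsg

namespace Cfsg.Agent.S0965

/-- Let N be a normal subgroup of the finite group G and let B, b be blocks of G and of N relative to a maximal ideal M of the algebraic integers containing the prime p. Then some χ ∈ B has a constituent in b on restriction to N if and only if, for all χ ∈ B, θ ∈ b and n ∈ N, the central character of χ at n is congruent modulo the local ideal at M to the sum of θ m / θ 1 over the elements m ∈ N conjugate in G to n. -/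
theorem result {G : Type*} [Group G] [Fintype G] (p : ℕ) [Fact p.Prime] (M : Ideal Cfsg.AlgInt) (hM : Cfsg.IsPModular p M) (N : Subgroup G) [N.Normal] [Fintype N] (B : Set (Cfsg.IrrCharacter G)) (hB : Cfsg.IsPBlock M B) (b : Set (Cfsg.IrrCharacter N)) (hb : Cfsg.IsPBlock M b) : (∃ χ ∈ B, ∃ θ ∈ b, Cfsg.classInner (fun n : N => (χ : G → ℂ) n) (θ : N → ℂ) ≠ 0) ↔ ∀ χ ∈ B, ∀ θ ∈ b, ∀ n : N, Cfsg.MemLocalIdeal M (Cfsg.centralChar (χ : G → ℂ) (n : G) - Cfsg.inducedCentralChar N (θ : N → ℂ) (n : G)) := by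
  classical
  have := Helper24.finite_irrCharacter (G := G)
  have : Fintype (IrrCharacter G) := Fintype.ofFinite _
  have hMp := hM.2.1.isPrime
  constructor
  · rintro ⟨χ₀, hχ₀, θ₀, hθ₀, hcon⟩ χ hχ θ hθ n
    have h1 := (constituent_iff_centralChar N χ₀ θ₀).1 hcon n
    obtain ⟨χ₁, rfl⟩ := hB
    obtain ⟨θ₁, rfl⟩ := hb
    have hs : SameBlock M (χ : G → ℂ) (χ₀ : G → ℂ) :=
      sameBlock_trans hMp (sameBlock_symm (mem_blockOf.1 hχ)) (mem_blockOf.1 hχ₀)
    have hs2 : SameBlock M (θ₀ : N → ℂ) (θ : N → ℂ) :=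
      sameBlock_trans hMp (sameBlock_symm (mem_blockOf.1 hθ₀)) (mem_blockOf.1 hθ)
    have h2 := inducedCentralChar_sub_mem hMp N θ₀ θ hs2 (n : G)
    have e : centralChar (χ : G → ℂ) (n : G) - inducedCentralChar N (θ : N → ℂ) (n : G)
        = (centralChar (χ : G → ℂ) (n : G) - centralChar (χ₀ : G → ℂ) (n : G))
          + (inducedCentralChar N (θ₀ : N → ℂ) (n : G)
            - inducedCentralChar N (θ : N → ℂ) (n : G)) := by
      rw [h1]
      ring
    rw [e]
    exact MemLocalIdeal.add hMp (hs (n : G)) h2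
  · intro h
    obtain ⟨χ₁, rfl⟩ := hB
    obtain ⟨θ₁, hbeq⟩ := id hb
    have hθ₁ : θ₁ ∈ b := by
      rw [hbeq]
      exact mem_blockOf_self hMp.ne_top θ₁
    have hχ₁ : χ₁ ∈ blockOf M (χ₁ : G → ℂ) := mem_blockOf_self hMp.ne_top χ₁
    obtain ⟨ψ, hψ⟩ := exists_under N χ₁
    have hc := (constituent_iff_centralChar N χ₁ ψ).1 hψ
    have hcong : ∀ n : N, MemLocalIdeal M (inducedCentralChar N (θ₁ : N → ℂ) (n : G)
        - inducedCentralChar N (ψ : N → ℂ) (n : G)) := by
      intro n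
      have h3 := h χ₁ hχ₁ θ₁ hθ₁ n
      rw [hc n] at h3
      have e : inducedCentralChar N (θ₁ : N → ℂ) (n : G)
          - inducedCentralChar N (ψ : N → ℂ) (n : G)
          = -(inducedCentralChar N (ψ : N → ℂ) (n : G)
            - inducedCentralChar N (θ₁ : N → ℂ) (n : G)) := by ring
      rw [e]
      exact MemLocalIdeal.neg h3
    obtain ⟨g, θ', hθ', hψeq⟩ := cover_conj_ind hMp N hb hθ₁ hcong
    refine ⟨χ₁, hχ₁, θ', hθ', ?_⟩
    have h4 := Helper6.classInner_res_conjFun N g (θ' : N → ℂ)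
      (Helper2.IsIrrCharacter.isClassFunction χ₁.2)
    rw [← h4]
    rw [hψeq] at hψ
    exact hψ

end Cfsg.Agent.S0965
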