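import Cfsg.Statements.S0968
import Cfsg.Agent.Helper25.DCBlock
open Cfsg.Agent.Helper25
open Cfsg.Agent

set_option autoImplicit false
open Cfsg

namespace Cfsg.Agent.S0968

/-- Let P be a p-subgroup of the finite group G with P ⊔ C_G(P) = G, and let B be a block with defect group P relative to a maximal ideal M of the algebraic integers containing p. Then there is exactly one θ ∈ B with θ x = θ 1 for all x ∈ P; for this θ the exponent of p in θ(1) equals the exponent of p in the index of P; and the number of members of B equals the number of conjugacy classes of P. -/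
theorem result {G : Type*} [Group G] [Finite G] (p : ℕ) [Fact p.Prime] (M : Ideal Cfsg.AlgInt) (hM : Cfsg.IsPModular p M) (P : Subgroup G) (hP : IsPGroup p P) (hG : P ⊔ Subgroup.centralizer (P : Set G) = ⊤) (B : Set (Cfsg.IrrCharacter G)) (hB : Cfsg.IsPBlock M B) (hD : Cfsg.IsDefectGroup p M B P) : (∃! θ : Cfsg.IrrCharacter G, θ ∈ B ∧ ∀ x ∈ P, (θ : G → ℂ) x = (θ : G → ℂ) 1) ∧ (∀ θ ∈ B, (∀ x ∈ P, (θ : G → ℂ) x = (θ : G → ℂ) 1) → (Cfsg.charDegree (θ : G → ℂ)).factorization p = P.index.factorization p) ∧ Nat.card B = Nat.card (ConjClasses P) := by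
  classical
  have : Fintype G := Fintype.ofFinite G
  have := Helper24.finite_irrCharacter (G := G)
  have : Fintype (IrrCharacter G) := Fintype.ofFinite _
  have : Fintype P := Fintype.ofFinite _
  have hp : p.Prime := Fact.out
  haveI hPn : P.Normal := normal_of_sup_centralizer P hG
  obtain ⟨θ, hθ, hker, hu⟩ := exists_canonical_char hM P hP
    (centralizer_index_pow P hP hG) B hB hD
  refine ⟨⟨θ, ⟨hθ, hker⟩, fun θ' h => (hu θ' h.1 h.2).1⟩,
    fun θ' h1 h2 => (hu θ' h1 h2).2, ?_⟩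
  obtain ⟨h1, h2, h3⟩ := dc_block_main hM P hP hG hB hD θ hθ hker
  rw [← Helper2.card_irrCharacter]
  have hθ0 := irr_one_ne_zero' θ
  have hp1 : ¬ p ∣ orderOf (1 : G) := by
    rw [orderOf_one]
    exact fun h => hp.one_lt.ne' (Nat.dvd_one.1 h)
  have hinjχ : ∀ χ ∈ B, ∀ χ' ∈ B, ∀ ζ : IrrCharacter P,
      (∀ (d : P) (c : G), ¬ p ∣ orderOf c →
        (χ : G → ℂ) ((d : G) * c) = (ζ : P → ℂ) d * (θ : G → ℂ) c) →
      (∀ (d : P) (c : G), ¬ p ∣ orderOf c →
        (χ' : G → ℂ) ((d : G) * c) = (ζ : P → ℂ) d * (θ : G → ℂ) c) → χ = χ' := by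
    intro χ hχ χ' hχ' ζ hf hf'
    apply Subtype.ext
    funext g
    obtain ⟨y, hy⟩ := exists_isPPart p g
    by_cases hyD : y ∈ P
    · obtain ⟨x, hyx, -, -, hx⟩ := hy
      rw [← hyx]
      exact (hf ⟨y, hyD⟩ x hx).trans (hf' ⟨y, hyD⟩ x hx).symm
    · rw [h3 χ hχ g y hy hyD, h3 χ' hχ' g y hy hyD]
  have hinjζ : ∀ χ : IrrCharacter G, ∀ ζ ζ' : IrrCharacter P,
      (∀ (d : P) (c : G), ¬ p ∣ orderOf c →
        (χ : G → ℂ) ((d : G) * c) = (ζ : P → ℂ) d * (θ : G → ℂ) c) →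
      (∀ (d : P) (c : G), ¬ p ∣ orderOf c →
        (χ : G → ℂ) ((d : G) * c) = (ζ' : P → ℂ) d * (θ : G → ℂ) c) → ζ = ζ' := by
    intro χ ζ ζ' hf hf'
    apply Subtype.ext
    funext d
    have e1 := hf d 1 hp1
    have e2 := hf' d 1 hp1
    rw [e1] at e2
    exact mul_right_cancel₀ hθ0 e2
  choose f hf using h2
  apply Nat.card_eq_of_bijective (fun χ : B => f χ.1 χ.2)
  constructor
  · intro χ χ' hχχ'
    apply Subtype.ext
    simp only at hχχ'
    refine hinjχ χ.1 χ.2 χ'.1 χ'.2 (f χ.1 χ.2) (hf χ.1 χ.2) ?_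
    rw [hχχ']
    exact hf χ'.1 χ'.2
  · intro ζ
    obtain ⟨χ, hχ, hform⟩ := h1 ζ
    exact ⟨⟨χ, hχ⟩, hinjζ χ _ _ (hf χ hχ) hform⟩

end Cfsg.Agent.S0968
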