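import Cfsg.Statements.S0969
import Cfsg.Agent.Helper6.Laradji

set_option autoImplicit false
open Cfsg

namespace Cfsg.Agent.S0969

open Cfsg.Agent Cfsg.Agent.Helper6 in
/-- Let D be a central p-subgroup of the finite group G and χ an irreducible character with the exponent of p in χ(1) equal to the exponent of p in the index of D; fix a maximal ideal M of the algebraic integers containing p. Then D is a defect group of the block of χ, and χ g = 0 whenever the p-part of g does not lie in D. -/
theorem result {G : Type*} [Group G] [Finite G] (p : ℕ) [Fact p.Prime] (M : Ideal Cfsg.AlgInt) (hM : Cfsg.IsPModular p M) (D : Subgroup G) (hD : IsPGroup p D) (hDZ : D ≤ Subgroup.center G) (χ : Cfsg.IrrCharacter G) (hdeg : (Cfsg.charDegree (χ : G → ℂ)).factorization p = D.index.factorization p) : Cfsg.IsDefectGroup p M (Cfsg.blockOf M (χ : G → ℂ)) D ∧ ∀ g x : G, Cfsg.IsPPart p g x → x ∉ D → (χ : G → ℂ) g = 0 := by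
  classical
  haveI : Fintype G := Fintype.ofFinite G
  have hp : p.Prime := Fact.out
  have hM' := hM.2.1.isPrime
  refine ⟨?_, (Helper6.lar_main hM D hD hDZ χ hdeg).1⟩
  have hB : IsPBlock M (blockOf M (χ : G → ℂ)) := ⟨χ, rfl⟩
  obtain ⟨g₀, hg₀⟩ := Helper25.exists_defectClass hM' hB
  obtain ⟨P₀⟩ : Nonempty (Sylow p (Subgroup.centralizer ({g₀} : Set G))) := inferInstance
  have hD' : IsDefectGroup p M (blockOf M (χ : G → ℂ))
      ((P₀ : Subgroup (Subgroup.centralizer ({g₀} : Set G))).map
        (Subgroup.centralizer ({g₀} : Set G)).subtype) := ⟨g₀, hg₀, P₀, rfl⟩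
  haveI : D.Normal := ⟨fun n hn g => by
    have h1 := Subgroup.mem_center_iff.1 (hDZ hn) g
    rw [h1, mul_inv_cancel_right]
    exact hn⟩
  have hle := Helper25.normal_pgroup_le_defectGroup hM D hD hB hD'
  have hcard := Helper25.card_defectGroup hM hB _ hD'
  rw [Helper6.lar_defect hM D hD hDZ χ hdeg] at hcard
  have hDc : p ^ (Nat.card D).factorization p = Nat.card D := by
    obtain ⟨d, hd⟩ := hD.exists_card_eq
    rw [hd, hp.factorization_pow, Finsupp.single_eq_same]
  have heq : D = (P₀ : Subgroup (Subgroup.centralizer ({g₀} : Set G))).map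
        (Subgroup.centralizer ({g₀} : Set G)).subtype :=
    Subgroup.eq_of_le_of_card_ge hle (by rw [hcard, hDc])
  rw [heq]
  exact hD'

end Cfsg.Agent.S0969
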