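import Cfsg.Statements.S0972
import Cfsg.Agent.Helper25.Reynolds
open Cfsg.Agent.Helper25
open Cfsg.Agent
open scoped commutatorElement

set_option autoImplicit false
open Cfsg

namespace Cfsg.Agent.S0972

/-- Let B be a block of the finite group G (relative to a maximal ideal M of the algebraic integers containing the prime p) with a defect group P that is normal in G. Then P is commutative if and only if every member of B has height zero. -/
theorem result {G : Type*} [Group G] [Finite G] (p : ℕ) [Fact p.Prime] (M : Ideal Cfsg.AlgInt) (hM : Cfsg.IsPModular p M) (B : Set (Cfsg.IrrCharacter G)) (hB : Cfsg.IsPBlock M B) (P : Subgroup G) [P.Normal] (hP : Cfsg.IsDefectGroup p M B P) : (∀ a ∈ P, ∀ c ∈ P, a * c = c * a) ↔ ∀ χ ∈ B, Cfsg.blockHeight p B (χ : G → ℂ) = 0 := by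
  classical
  have : Fintype G := Fintype.ofFinite G
  have := Helper24.finite_irrCharacter (G := G)
  have : Fintype (IrrCharacter G) := Fintype.ofFinite _
  have : Fintype P := Fintype.ofFinite _
  have hp : p.Prime := Fact.out
  have hMp := hM.2.1.isPrime
  have hPp : IsPGroup p P := IsPGroup.of_card (card_defectGroup hM hB P hP)
  constructor
  · intro hab χ hχ
    unfold blockHeight
    apply Nat.sub_eq_zero_of_le
    refine le_csInf (Set.Nonempty.image _ ⟨χ, hχ⟩) ?_
    rintro _ ⟨ψ, hψ, rfl⟩
    have h1 : charDegree (χ : G → ℂ) ∣ P.index := Helper6.ito_dvd P hab χ.2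
    have h2 : (charDegree (χ : G → ℂ)).factorization p ≤ P.index.factorization p :=
      ((Nat.factorization_le_iff_dvd (charDegree_irr_ne_zero χ)
        Subgroup.index_ne_zero_of_finite).2 h1) p
    exact h2.trans (degree_ge_of_mem_block hM hB P hP ψ hψ)
  · intro hht
    by_contra hnc
    have hc : commutator P ≠ ⊥ := by
      intro hb
      apply hnc
      intro a ha c hc'
      have h1 : ⁅(⟨a, ha⟩ : P), ⟨c, hc'⟩⁆ ∈ commutator P := by
        rw [commutator_def]
        exact Subgroup.commutator_mem_commutator (Subgroup.mem_top _) (Subgroup.mem_top _)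
      rw [hb, Subgroup.mem_bot, commutatorElement_eq_one_iff_mul_comm] at h1
      exact congrArg Subtype.val h1
    obtain ⟨ζ₀, hζ1⟩ := Helper24.exists_nonlinear_irr hc
    obtain ⟨n, hn⟩ := hPp.exists_card_eq
    have hζp : p ∣ charDegree (ζ₀ : P → ℂ) := by
      have hd := Helper2.irr_degree_dvd_card ζ₀.2
      rw [hn] at hd
      obtain ⟨j, hj, hdj⟩ := (Nat.dvd_prime_pow hp).1 hd
      rw [hdj]
      apply dvd_pow_self
      rintro rfl
      apply hζ1
      rw [irr_one_eq_degree ζ₀, hdj]
      simp
    obtain ⟨χ, hχ, hcon⟩ := exists_mem_block_over hM P hPp hB ζ₀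
    obtain ⟨k, hk, Q, hQ⟩ := hP
    have hkP : ∀ x ∈ P, x * k = k * x := by
      intro x hx
      rw [hQ] at hx
      obtain ⟨q, -, rfl⟩ := Subgroup.mem_map.1 hx
      have hq := q.2
      rw [Subgroup.mem_centralizer_iff] at hq
      exact (hq k rfl).symm
    have hmem := char_mem_localIdeal_of_nonlinear hM P χ ζ₀ hcon hζp k hkP
    have hidx := defectClass_idx_val hM hB χ hχ (hht χ hχ) k hk
    apply hk.2.2 χ hχ
    have e : centralChar (χ : G → ℂ) k
        = (((Subgroup.centralizer ({k} : Set G)).index : ℂ) / (charDegree (χ : G → ℂ) : ℂ))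
          * (χ : G → ℂ) k := by
      unfold centralChar
      rw [irr_one_eq_degree χ]
      ring
    rw [e]
    exact MemLocalIdeal.mul_left hMp (natCast_div_memLocalRing hM (charDegree_irr_ne_zero χ)
      (le_of_eq hidx.symm)) hmem

end Cfsg.Agent.S0972
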