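import Mathlib
import Cfsg.Statements.S0985

set_option autoImplicit false
open Cfsg

namespace Cfsg.Agent.S0985

theorem card_modEq_one_of_orbits {H Ω : Type*} [Group H] [MulAction H Ω] [Finite Ω] (m : ℕ)
    (x₀ : Ω) (hfix : ∀ h : H, h • x₀ = x₀)
    (hdiv : ∀ x : Ω, x ≠ x₀ → m ∣ (MulAction.stabilizer H x).index) :
    Nat.card Ω ≡ 1 [MOD m] := by
  classical
  have := Fintype.ofFinite (MulAction.orbitRel.Quotient H Ω)
  rw [Nat.card_congr (MulAction.selfEquivSigmaOrbits' H Ω), Nat.card_sigma]
  rw [← Finset.add_sum_erase Finset.univ _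
    (Finset.mem_univ (Quotient.mk'' x₀ : MulAction.orbitRel.Quotient H Ω))]
  have h0 : Nat.card (MulAction.orbitRel.Quotient.orbit (Quotient.mk'' x₀ : MulAction.orbitRel.Quotient H Ω)) = 1 := by
    rw [MulAction.orbitRel.Quotient.orbit_mk, Nat.card_eq_one_iff_unique]
    have key : ∀ a : MulAction.orbit H x₀, (a : Ω) = x₀ := by
      intro a
      obtain ⟨h, hh⟩ := a.2
      rw [← hh]; exact hfix h
    exact ⟨⟨fun a b => Subtype.ext ((key a).trans (key b).symm)⟩,
      ⟨⟨x₀, MulAction.mem_orbit_self x₀⟩⟩⟩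
  have hrest : m ∣ ∑ ω ∈ Finset.univ.erase (Quotient.mk'' x₀ : MulAction.orbitRel.Quotient H Ω),
      Nat.card (MulAction.orbitRel.Quotient.orbit ω) := by
    apply Finset.dvd_sum
    intro ω hω
    obtain ⟨x, rfl⟩ := Quotient.mk''_surjective ω
    rw [MulAction.orbitRel.Quotient.orbit_mk, Nat.card_coe_set_eq, ← MulAction.index_stabilizer]
    apply hdiv
    intro hx
    exact (Finset.ne_of_mem_erase hω) (by subst hx; rfl)
  rw [h0]
  obtain ⟨c, hc⟩ := hrest
  rw [hc]
  show (1 + m * c) % m = 1 % m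
  rw [Nat.add_mul_mod_self_left]

/-- If the number of Sylow p-subgroups of a finite group is not congruent to 1 modulo p^k, then there are two distinct Sylow p-subgroups P and R such that the index of P ∩ R in P is at most p^(k-1). -/
theorem result {G : Type*} [Group G] [Finite G] (p k : ℕ) [Fact p.Prime] (h : ¬ Nat.card (Sylow p G) ≡ 1 [MOD p ^ k]) : ∃ P R : Sylow p G, P ≠ R ∧ ((R : Subgroup G).subgroupOf (P : Subgroup G)).index ≤ p ^ (k - 1) := by
  have hp : p.Prime := Fact.out
  by_contra hcon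
  push Not at hcon
  obtain ⟨P⟩ : Nonempty (Sylow p G) := inferInstance
  apply h
  apply card_modEq_one_of_orbits (H := ↥(P : Subgroup G)) (p ^ k) P
  · intro g
    show (g : G) • P = P
    exact Sylow.smul_eq_iff_mem_normalizer.mpr (Subgroup.le_normalizer g.2)
  · intro R hR
    have hstab : MulAction.stabilizer (↥(P : Subgroup G)) R
        = (R : Subgroup G).subgroupOf (P : Subgroup G) := by
      ext g
      rw [MulAction.mem_stabilizer_iff, Subgroup.mem_subgroupOf]
      show (g : G) • R = R ↔ (g : G) ∈ (R : Subgroup G)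
      rw [Sylow.smul_eq_iff_mem_normalizer]
      constructor
      · intro hg
        have h1 : (g : G) ∈ (P : Subgroup G) ⊓ (R : Subgroup G) := by
          rw [← IsPGroup.inf_normalizer_sylow P.2 R]
          exact Subgroup.mem_inf.mpr ⟨g.2, hg⟩
        exact (Subgroup.mem_inf.mp h1).2
      · intro hg
        exact Subgroup.le_normalizer hg
    rw [hstab]
    have hlt := hcon P R (Ne.symm hR)
    have hdvd : ((R : Subgroup G).subgroupOf (P : Subgroup G)).index ∣
        Nat.card (P : Subgroup G) := Subgroup.index_dvd_card _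
    obtain ⟨n, hn⟩ := IsPGroup.iff_card.mp P.2
    rw [hn] at hdvd
    obtain ⟨j, hj, hj'⟩ := (Nat.dvd_prime_pow hp).mp hdvd
    rw [hj'] at hlt ⊢
    apply pow_dvd_pow
    have := (pow_lt_pow_iff_right₀ hp.one_lt).mp hlt
    omega

end Cfsg.Agent.S0985
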