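import Mathlib
import Cfsg.Statements.S0986

set_option autoImplicit false
open Cfsg

namespace Cfsg.Agent.S0986

/-- Let P and Q be distinct Sylow p-subgroups of a finite group G chosen so that the order of P ∩ Q is as large as possible among intersections of two distinct Sylow p-subgroups, and let N be the normalizer of P ∩ Q. Then N has more than one Sylow p-subgroup, any two distinct Sylow p-subgroups of N intersect exactly in P ∩ Q, and each Sylow p-subgroup of N lies in exactly one Sylow p-subgroup of G. -/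
theorem result {G : Type*} [Group G] [Finite G] (p : ℕ) [Fact p.Prime] (P Q : Sylow p G) (hPQ : P ≠ Q) (hmax : ∀ P' Q' : Sylow p G, P' ≠ Q' → Nat.card ↥((P' : Subgroup G) ⊓ (Q' : Subgroup G)) ≤ Nat.card ↥((P : Subgroup G) ⊓ (Q : Subgroup G))) : 1 < Nat.card (Sylow p ↥(Subgroup.normalizer (((P : Subgroup G) ⊓ (Q : Subgroup G) : Subgroup G) : Set G))) ∧ (∀ S T : Sylow p ↥(Subgroup.normalizer (((P : Subgroup G) ⊓ (Q : Subgroup G) : Subgroup G) : Set G)), S ≠ T → (S : Subgroup _) ⊓ (T : Subgroup _) = ((P : Subgroup G) ⊓ (Q : Subgroup G)).subgroupOf (Subgroup.normalizer (((P : Subgroup G) ⊓ (Q : Subgroup G) : Subgroup G) : Set G))) ∧ ∀ S : Sylow p ↥(Subgroup.normalizer (((P : Subgroup G) ⊓ (Q : Subgroup G) : Subgroup G) : Set G)), ∃! T : Sylow p G, (S : Subgroup _).map (Subgroup.normalizer (((P : Subgroup G) ⊓ (Q : Subgroup G) : Subgroup G) : Set G)).subtype ≤ (T : Subgroup G) := by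
  have hp : p.Prime := Fact.out
  generalize hD : (P : Subgroup G) ⊓ (Q : Subgroup G) = D at hmax ⊢
  generalize hN : Subgroup.normalizer (D : Set G) = N
  have hDP : D ≤ (P : Subgroup G) := by rw [← hD]; exact inf_le_left
  have hDQ : D ≤ (Q : Subgroup G) := by rw [← hD]; exact inf_le_right
  have hDN : D ≤ N := by rw [← hN]; exact Subgroup.le_normalizer
  have hDnormal : (D.subgroupOf N).Normal := by
    subst hN; exact Subgroup.normal_in_normalizer
  have hDneT : ∀ T : Sylow p G, D ≠ (T : Subgroup G) := by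
    intro T hDT
    have h1 : (P : Subgroup G) = T := T.3 P.2 (by rw [← hDT]; exact hDP)
    have h2 : (Q : Subgroup G) = T := T.3 Q.2 (by rw [← hDT]; exact hDQ)
    exact hPQ (Sylow.ext (h1.trans h2.symm))
  have hgrow : ∀ R : Sylow p G, D ≤ (R : Subgroup G) → D ≠ (R : Subgroup G) →
      ∃ u : G, u ∈ (R : Subgroup G) ∧ u ∈ N ∧ u ∉ D := by
    intro R hDR hne
    have hnil : Group.IsNilpotent ↥(R : Subgroup G) := R.2.isNilpotent
    have hlt : D.subgroupOf (R : Subgroup G) < ⊤ := by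
      rw [lt_top_iff_ne_top]
      intro htop
      rw [Subgroup.subgroupOf_eq_top] at htop
      exact hne (le_antisymm hDR htop)
    have hnc := Group.normalizerCondition_of_isNilpotent (G := ↥(R : Subgroup G))
      (D.subgroupOf (R : Subgroup G)) hlt
    obtain ⟨u, hu1, hu2⟩ := SetLike.exists_of_lt hnc
    refine ⟨(u : G), u.2, ?_, ?_⟩
    · rw [← hN]
      rw [← Subgroup.subgroupOf_normalizer_eq hDR] at hu1
      exact Subgroup.mem_subgroupOf.mp hu1
    · exact fun h => hu2 (Subgroup.mem_subgroupOf.mpr h)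
  have hbig : ∀ R : Sylow p G, D ≤ (R : Subgroup G) →
      Nat.card D < Nat.card ↥((R : Subgroup G) ⊓ N) := by
    intro R hDR
    obtain ⟨u, hu1, hu2, hu3⟩ := hgrow R hDR (hDneT R)
    by_contra hle
    push Not at hle
    have heq := Subgroup.eq_of_le_of_card_ge (le_inf hDR hDN) hle
    exact hu3 (by rw [heq]; exact Subgroup.mem_inf.mpr ⟨hu1, hu2⟩)
  have hDp : IsPGroup p D := P.2.to_le hDP
  have hDNp : IsPGroup p (D.subgroupOf N) := hDp.comap_subtype
  have hDS : ∀ S : Sylow p ↥N, D.subgroupOf N ≤ (S : Subgroup ↥N) := by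
    intro S
    have h1 : IsPGroup p ((S : Subgroup ↥N) ⊔ D.subgroupOf N : Subgroup ↥N) :=
      IsPGroup.to_sup_of_normal_right S.2 hDNp
    have h2 := S.3 h1 le_sup_left
    calc D.subgroupOf N ≤ (S : Subgroup ↥N) ⊔ D.subgroupOf N := le_sup_right
      _ = (S : Subgroup ↥N) := h2
  have hkey : ∀ (S : Sylow p ↥N) (T : Sylow p G),
      (S : Subgroup ↥N).map N.subtype ≤ (T : Subgroup G) →
      ((T : Subgroup G) ⊓ N).subgroupOf N = (S : Subgroup ↥N) := by
    intro S T hST
    apply S.3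
    · exact (T.2.to_le inf_le_left).comap_subtype
    · intro x hx
      rw [Subgroup.mem_subgroupOf]
      exact Subgroup.mem_inf.mpr ⟨hST (Subgroup.mem_map_of_mem _ hx), x.2⟩
  have hcardlt : ∀ (S : Sylow p ↥N) (T : Sylow p G),
      (S : Subgroup ↥N).map N.subtype ≤ (T : Subgroup G) →
      Nat.card D < Nat.card (S : Subgroup ↥N) := by
    intro S T hST
    have hDT : D ≤ (T : Subgroup G) := by
      intro x hx
      exact hST (Subgroup.mem_map.mpr
        ⟨⟨x, hDN hx⟩, hDS S (Subgroup.mem_subgroupOf.mpr hx), rfl⟩)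
    have hcard := hbig T hDT
    rw [← hkey S T hST, Nat.card_congr (Subgroup.subgroupOfEquivOfLe inf_le_right).toEquiv]
    exact hcard
  have huniq : ∀ (S : Sylow p ↥N) (T₁ T₂ : Sylow p G),
      (S : Subgroup ↥N).map N.subtype ≤ (T₁ : Subgroup G) →
      (S : Subgroup ↥N).map N.subtype ≤ (T₂ : Subgroup G) → T₁ = T₂ := by
    intro S T₁ T₂ h1 h2
    by_contra hne
    have hm := hmax T₁ T₂ hne
    have hle : Nat.card ↥((S : Subgroup ↥N).map N.subtype) ≤
        Nat.card ↥((T₁ : Subgroup G) ⊓ (T₂ : Subgroup G)) :=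
      Subgroup.card_le_of_le (le_inf h1 h2)
    rw [Subgroup.card_subtype] at hle
    have := hcardlt S T₁ h1
    omega
  have hex : ∀ S : Sylow p ↥N, ∃ T : Sylow p G,
      (S : Subgroup ↥N).map N.subtype ≤ (T : Subgroup G) :=
    fun S => (S.2.map N.subtype).exists_le_sylow
  have hTeq : ∀ (R T : Sylow p G), D ≤ (R : Subgroup G) →
      (R : Subgroup G) ⊓ N ≤ (T : Subgroup G) → T = R := by
    intro R T hDR hRT
    by_contra hne
    have hm := hmax T R hne
    have hle : Nat.card ↥((R : Subgroup G) ⊓ N) ≤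
        Nat.card ↥((T : Subgroup G) ⊓ (R : Subgroup G)) :=
      Subgroup.card_le_of_le (le_inf hRT inf_le_left)
    have := hbig R hDR
    omega
  refine ⟨?_, ?_, ?_⟩
  · by_contra hle
    push Not at hle
    have hsub : Subsingleton (Sylow p ↥N) := (Finite.card_le_one_iff_subsingleton).mp hle
    obtain ⟨SP, hSP⟩ := ((P.2.to_le (inf_le_left : (P : Subgroup G) ⊓ N ≤ P)).comap_subtype
      (K := N)).exists_le_sylow
    obtain ⟨SQ, hSQ⟩ := ((Q.2.to_le (inf_le_left : (Q : Subgroup G) ⊓ N ≤ Q)).comap_subtype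
      (K := N)).exists_le_sylow
    obtain ⟨T, hT⟩ := hex SP
    have hSPQ : SQ = SP := Subsingleton.elim _ _
    rw [hSPQ] at hSQ
    have hPT : (P : Subgroup G) ⊓ N ≤ (T : Subgroup G) := by
      intro x hx
      exact hT (Subgroup.mem_map.mpr
        ⟨⟨x, (Subgroup.mem_inf.mp hx).2⟩, hSP (Subgroup.mem_subgroupOf.mpr hx), rfl⟩)
    have hQT : (Q : Subgroup G) ⊓ N ≤ (T : Subgroup G) := by
      intro x hx
      exact hT (Subgroup.mem_map.mpr
        ⟨⟨x, (Subgroup.mem_inf.mp hx).2⟩, hSQ (Subgroup.mem_subgroupOf.mpr hx), rfl⟩)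
    exact hPQ ((hTeq P T hDP hPT).symm.trans (hTeq Q T hDQ hQT))
  · intro S T' hne
    obtain ⟨U, hU⟩ := hex S
    obtain ⟨V, hV⟩ := hex T'
    have hUV : U ≠ V := by
      intro hUV
      rw [← hUV] at hV
      exact hne (Sylow.ext ((hkey S U hU).symm.trans (hkey T' U hV)))
    have hm := hmax U V hUV
    symm
    apply Subgroup.eq_of_le_of_card_ge (le_inf (hDS S) (hDS T'))
    have h1 : Nat.card ↥(((S : Subgroup ↥N) ⊓ (T' : Subgroup ↥N)).map N.subtype) ≤
        Nat.card ↥((U : Subgroup G) ⊓ (V : Subgroup G)) := by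
      apply Subgroup.card_le_of_le
      exact le_inf ((Subgroup.map_mono inf_le_left).trans hU)
        ((Subgroup.map_mono inf_le_right).trans hV)
    rw [Subgroup.card_subtype] at h1
    have h2 : Nat.card ↥(D.subgroupOf N) = Nat.card D :=
      Nat.card_congr (Subgroup.subgroupOfEquivOfLe hDN).toEquiv
    omega
  · intro S
    obtain ⟨T, hT⟩ := hex S
    exact ⟨T, hT, fun T' hT' => huniq S T' T hT' hT⟩

end Cfsg.Agent.S0986
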