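import Mathlib
import Cfsg.Statements.S0987

set_option autoImplicit false
open Cfsg

namespace Cfsg.Agent.S0987

theorem fact_mul_self {a m : ℕ} (ha : a.Prime) (hm : m ≠ 0) (hndvd : ¬ a ∣ m) :
    (a * m).factorization a = 1 := by
  rw [Nat.factorization_mul ha.ne_zero hm, Finsupp.add_apply, ha.factorization_self,
    Nat.factorization_eq_zero_of_not_dvd hndvd]

/-- If a finite group has order pqr for primes p < q < r, then its Sylow r-subgroups are normal. -/
theorem result {G : Type*} [Group G] [Finite G] (p q r : ℕ) (hp : p.Prime) (hq : q.Prime) [Fact r.Prime] (hpq : p < q) (hqr : q < r) (hG : Nat.card G = p * q * r) (R : Sylow r G) : (R : Subgroup G).Normal := by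
  have hr : r.Prime := Fact.out
  have hpr : p < r := hpq.trans hqr
  have hp' : Fact p.Prime := ⟨hp⟩
  have hnp_q : ¬ p ∣ q := fun h => hpq.ne ((Nat.prime_dvd_prime_iff_eq hp hq).1 h)
  have hnp_r : ¬ p ∣ r := fun h => hpr.ne ((Nat.prime_dvd_prime_iff_eq hp hr).1 h)
  have hnr_p : ¬ r ∣ p := fun h => hpr.ne' ((Nat.prime_dvd_prime_iff_eq hr hp).1 h)
  have hmin : (Nat.card G).minFac = p := by
    rw [hG]
    have hne1 : p * q * r ≠ 1 := by
      have h1 := hp.two_le
      have h2 := hq.two_le
      have h3 := hr.two_le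
      nlinarith [Nat.mul_le_mul h1 h2]
    have hm := Nat.minFac_prime hne1
    have hdvd := Nat.minFac_dvd (p * q * r)
    have hle : (p * q * r).minFac ≤ p :=
      Nat.minFac_le_of_dvd hp.two_le (Dvd.intro (q * r) (mul_assoc p q r).symm)
    rcases (Nat.Prime.dvd_mul hm).1 hdvd with h | h
    · rcases (Nat.Prime.dvd_mul hm).1 h with h | h
      · exact (Nat.prime_dvd_prime_iff_eq hm hp).1 h
      · have h4 := (Nat.prime_dvd_prime_iff_eq hm hq).1 h
        omega
    · have h4 := (Nat.prime_dvd_prime_iff_eq hm hr).1 h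
      omega
  obtain ⟨P⟩ : Nonempty (Sylow p G) := inferInstance
  have hfp : (Nat.card G).factorization p = 1 := by
    rw [hG, mul_assoc]
    refine fact_mul_self hp (Nat.mul_ne_zero hq.ne_zero hr.ne_zero) (fun h => ?_)
    rcases (Nat.Prime.dvd_mul hp).1 h with h | h
    · exact hnp_q h
    · exact hnp_r h
  have hPc : Nat.card P = p := (Sylow.card_eq_multiplicity P).trans (by rw [hfp, pow_one])
  have hcyc : IsCyclic P := isCyclic_of_prime_card hPc
  have hcompl := hcyc.isComplement' hmin
  obtain ⟨K, hK⟩ : ∃ K : Subgroup G,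
      K = (MonoidHom.transferSylow P (hcyc.normalizer_le_centralizer hmin)).ker := ⟨_, rfl⟩
  rw [← hK] at hcompl
  have hKn : K.Normal := by rw [hK]; infer_instance
  have hPc' : Nat.card (P : Subgroup G) = p := hPc
  have hKc : Nat.card K = q * r := by
    have h1 := hcompl.card_mul_card
    rw [hG, hPc'] at h1
    have h3 : p * Nat.card K = p * (q * r) := by rw [mul_comm, h1, mul_assoc]
    exact Nat.eq_of_mul_eq_mul_left hp.pos h3
  obtain ⟨R'⟩ : Nonempty (Sylow r K) := inferInstance
  have hidx : (R' : Subgroup K).index ∣ q := by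
    have h1 := Subgroup.card_mul_index (R' : Subgroup K)
    rw [hKc] at h1
    have h2 : (R' : Subgroup K).index ∣ q * r := Dvd.intro_left _ h1
    have h3 : ((R' : Subgroup K).index).Coprime r :=
      Nat.Coprime.symm ((Nat.Prime.coprime_iff_not_dvd hr).2 R'.not_dvd_index)
    exact h3.dvd_of_dvd_mul_right h2
  have hn1 : Nat.card (Sylow r K) = 1 := by
    have h1 : Nat.card (Sylow r K) ∣ q := (R'.card_dvd_index).trans hidx
    have h2 : Nat.card (Sylow r K) % r = 1 % r := card_sylow_modEq_one r K
    rcases (Nat.dvd_prime hq).1 h1 with h | h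
    · exact h
    · rw [h, Nat.mod_eq_of_lt hqr, Nat.mod_eq_of_lt hr.one_lt] at h2
      exact absurd h2 hq.one_lt.ne'
  have hsub : Subsingleton (Sylow r K) := (Nat.card_eq_one_iff_unique.1 hn1).1
  have hchar : (R' : Subgroup K).Characteristic := Sylow.characteristic_of_subsingleton R'
  have hR₁n : ((R' : Subgroup K).map K.subtype).Normal := inferInstance
  have hR₁p : IsPGroup r ((R' : Subgroup K).map K.subtype : Subgroup G) := R'.2.map K.subtype
  have hR₁i : ¬ r ∣ ((R' : Subgroup K).map K.subtype).index := by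
    rw [Subgroup.index_map_subtype, hcompl.symm.index_eq_card, hPc']
    intro h
    rcases (Nat.Prime.dvd_mul hr).1 h with h | h
    · exact R'.not_dvd_index h
    · exact hnr_p h
  obtain ⟨g, hg⟩ := MulAction.exists_smul_eq G (hR₁p.toSylow hR₁i) R
  have hRR : R = hR₁p.toSylow hR₁i := by
    rw [← hg]; exact Sylow.smul_eq_of_normal (h := hR₁n)
  rw [hRR]
  exact hR₁n

end Cfsg.Agent.S0987
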