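import Cfsg.Statements.S0991
-- import your own Cfsg.Agent.* helpers here

set_option autoImplicit false
open Cfsg

namespace Cfsg.Agent.S0991

/-- Embedding Theorem: if a non-abelian finite simple group has a proper subgroup of index n, then it is isomorphic to a subgroup of the alternating group of degree n. -/
theorem result {G : Type*} [Group G] [Finite G] [IsSimpleGroup G] (hG : ¬ IsMulCommutative G) (H : Subgroup G) (hH : H ≠ ⊤) : ∃ f : G →* ↥(alternatingGroup (Fin H.index)), Function.Injective f := by
  classical
  haveI : Fintype (G ⧸ H) := Fintype.ofFinite _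
  have hcard : Fintype.card (G ⧸ H) = H.index := by
    rw [Subgroup.index, Nat.card_eq_fintype_card]
  let e : (G ⧸ H) ≃ Fin H.index := Fintype.equivFinOfCardEq hcard
  let f0 : G →* Equiv.Perm (Fin H.index) :=
    (e.permCongrHom.toMonoidHom).comp (MulAction.toPermHom G (G ⧸ H))
  have hker : f0.ker = ⊥ := by
    rcases (f0.normal_ker).eq_bot_or_eq_top with h | h
    · exact h
    · exfalso
      apply hH
      rw [eq_top_iff]
      intro g _
      have hg : g ∈ f0.ker := by rw [h]; trivial
      rw [MonoidHom.mem_ker] at hg
      have h1 : MulAction.toPermHom G (G ⧸ H) g = 1 := by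
        apply e.permCongrHom.injective
        rw [map_one]
        exact hg
      have h2 : g • (QuotientGroup.mk 1 : G ⧸ H) = QuotientGroup.mk 1 := by
        have := congrArg (fun σ : Equiv.Perm (G ⧸ H) => σ (QuotientGroup.mk 1)) h1
        simpa using this
      rw [MulAction.Quotient.smul_mk, QuotientGroup.eq] at h2
      simpa using h2
  have hinj : Function.Injective f0 := (MonoidHom.ker_eq_bot_iff f0).mp hker
  have hsign : ∀ g : G, Equiv.Perm.sign (f0 g) = 1 := by
    let s : G →* ℤˣ := Equiv.Perm.sign.comp f0
    rcases (s.normal_ker).eq_bot_or_eq_top with h | h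
    · exfalso
      apply hG
      have hsinj : Function.Injective s := (MonoidHom.ker_eq_bot_iff s).mp h
      refine ⟨⟨fun a b => ?_⟩⟩
      apply hsinj
      rw [map_mul, map_mul, mul_comm]
    · intro g
      have hg : g ∈ s.ker := by rw [h]; trivial
      exact hg
  refine ⟨f0.codRestrict (alternatingGroup (Fin H.index)) (fun g => ?_), ?_⟩
  · rw [Equiv.Perm.mem_alternatingGroup]
    exact hsign g
  · intro a b hab
    apply hinj
    have := congrArg Subtype.val hab
    simpa using this

end Cfsg.Agent.S0991
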