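import Cfsg.Statements.S1004
import Mathlib
import Cfsg.Agent.Helper18.S168B

set_option autoImplicit false
open Cfsg

namespace Cfsg.Agent.S1004

/-- Let G be a simple group of order 168 and T a Sylow 2-subgroup. Then T is dihedral of order 8, T is its own normalizer, and T is the centralizer of any non-identity element of T that commutes with every element of T. -/
theorem result {G : Type*} [Group G] [Finite G] [IsSimpleGroup G] (h : Nat.card G = 168) (T : Sylow 2 G) : Nonempty (↥(T : Subgroup G) ≃* DihedralGroup 4) ∧ Subgroup.normalizer ((T : Subgroup G) : Set G) = T ∧ ∀ z : G, z ∈ (T : Subgroup G) → z ≠ 1 → (∀ t ∈ (T : Subgroup G), t * z = z * t) → Subgroup.centralizer ({z} : Set G) = T := by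
  obtain ⟨r, s, hd⟩ := Cfsg.Agent.Helper18.S168.s168_data h T
  refine ⟨Cfsg.Agent.Helper18.S168.s168_sylow2_dih h T,
    (Cfsg.Agent.Helper18.S168.s168_syl2 h T).2.2.2, ?_⟩
  intro z hzT hz1 hzc
  have hr4 := Cfsg.Agent.Helper18.S168.s168_r4 hd
  have hz : z = r ^ 2 := by
    rcases hd.cases z hzT with ⟨k, rfl⟩ | ⟨k, rfl⟩
    · have hs := hzc s hd.s_mem
      rcases Cfsg.Agent.Helper18.S168.s168_pow_cases r hr4 (r ^ k)
        (Subgroup.pow_mem _ (Subgroup.mem_zpowers r) k) with h1 | h1 | h1 | h1
      · exact absurd h1 hz1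
      · exfalso
        rw [h1] at hs
        exact Cfsg.Agent.Helper18.S168.s168_s_not_comm hd hs
      · exact h1
      · exfalso
        rw [h1, Cfsg.Agent.Helper18.S168.s168_cube r hr4] at hs
        apply Cfsg.Agent.Helper18.S168.s168_s_not_comm hd
        calc s * r = r * (r⁻¹ * s) * r := by group
          _ = r * (s * r⁻¹) * r := by rw [hs]
          _ = r * s := by group
    · exfalso
      have hr := hzc r hd.r_mem
      exact Cfsg.Agent.Helper18.S168.s168_r_not_comm hd k hr
  rw [hz]
  exact Cfsg.Agent.Helper18.S168.s168_cent_z h hd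

end Cfsg.Agent.S1004
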