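import Cfsg.Statements.S1005
import Mathlib
import Cfsg.Agent.Helper18.S168B

set_option autoImplicit false
open Cfsg

namespace Cfsg.Agent.S1005

/-- In a simple group of order 168 every element has order 1, 2, 3, 4 or 7; there are exactly 21 elements of order 2, and any two of them are conjugate. -/
theorem result {G : Type*} [Group G] [Finite G] [IsSimpleGroup G] (h : Nat.card G = 168) : (∀ g : G, orderOf g = 1 ∨ orderOf g = 2 ∨ orderOf g = 3 ∨ orderOf g = 4 ∨ orderOf g = 7) ∧ Nat.card {g : G // orderOf g = 2} = 21 ∧ ∀ s t : G, orderOf s = 2 → orderOf t = 2 → IsConj s t := by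
  classical
  have : Fact (Nat.Prime 2) := ⟨by norm_num⟩
  obtain ⟨T⟩ : Nonempty (Sylow 2 G) := inferInstance
  obtain ⟨r, s, hd⟩ := Cfsg.Agent.Helper18.S168.s168_data h T
  refine ⟨Cfsg.Agent.Helper18.S168.s168_orders h, ?_, ?_⟩
  · have hall : ∀ g : G, orderOf g = 2 ↔ ∃ c : G, c * r ^ 2 * c⁻¹ = g := by
      intro g
      constructor
      · intro hg
        obtain ⟨c, hc⟩ := Cfsg.Agent.Helper18.S168.s168_invol_conj h hd g hg
        refine ⟨c⁻¹, ?_⟩
        rw [← hc]
        group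
      · rintro ⟨c, rfl⟩
        rw [Cfsg.Agent.Helper18.S168.s168_order_conj]
        exact Cfsg.Agent.Helper18.S168.s168_z2 hd
    have h1 := Cfsg.Agent.Helper18.S168.s168_count_class (fun g : G => orderOf g = 2) (r ^ 2) hall
    rw [Cfsg.Agent.Helper18.S168.s168_cent_z h hd,
      (Cfsg.Agent.Helper18.S168.s168_syl2 h T).1, h] at h1
    omega
  · intro s' t hs ht
    obtain ⟨c, hc⟩ := Cfsg.Agent.Helper18.S168.s168_invol_conj h hd s' hs
    obtain ⟨d, hd'⟩ := Cfsg.Agent.Helper18.S168.s168_invol_conj h hd t ht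
    rw [isConj_iff]
    refine ⟨d⁻¹ * c, ?_⟩
    have h2 : d⁻¹ * c * s' * (d⁻¹ * c)⁻¹ = d⁻¹ * (c * s' * c⁻¹) * d := by group
    rw [h2, hc, ← hd']
    group

end Cfsg.Agent.S1005
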