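import Cfsg.Statements.S1006
import Mathlib
import Cfsg.Agent.Helper18.S168C

set_option autoImplicit false
open Cfsg

namespace Cfsg.Agent.S1006

/-- In a simple group of order 168 there are 56 elements of order 3, all conjugate; 42 elements of order 4, all conjugate; and 48 elements of order 7 falling into two conjugacy classes of size 24, an element of order 7 not being conjugate to its inverse. -/
theorem result {G : Type*} [Group G] [Finite G] [IsSimpleGroup G] (h : Nat.card G = 168) : Nat.card {g : G // orderOf g = 3} = 56 ∧ (∀ s t : G, orderOf s = 3 → orderOf t = 3 → IsConj s t) ∧ Nat.card {g : G // orderOf g = 4} = 42 ∧ (∀ s t : G, orderOf s = 4 → orderOf t = 4 → IsConj s t) ∧ Nat.card {g : G // orderOf g = 7} = 48 ∧ ∀ x : G, orderOf x = 7 → Nat.card {g : G // IsConj x g} = 24 ∧ ¬ IsConj x x⁻¹ := by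
  classical
  have : Fact (Nat.Prime 2) := ⟨by norm_num⟩
  obtain ⟨T⟩ : Nonempty (Sylow 2 G) := inferInstance
  obtain ⟨r, s, hd⟩ := Cfsg.Agent.Helper18.S168.s168_data h T
  refine ⟨Cfsg.Agent.Helper18.S168.s168_count3 h, ?_, ?_, ?_,
    Cfsg.Agent.Helper18.S168.s168_count7 h, ?_⟩
  · intro s' t hs ht
    rw [isConj_iff]
    exact Cfsg.Agent.Helper18.S168.s168_three_conj h s' t hs ht
  · have hall : ∀ g : G, orderOf g = 4 ↔ ∃ c : G, c * r * c⁻¹ = g := by
      intro g
      constructor
      · intro hg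
        obtain ⟨c, hc⟩ := Cfsg.Agent.Helper18.S168.s168_four_conj_r h hd g hg
        refine ⟨c⁻¹, ?_⟩
        rw [← hc]
        group
      · rintro ⟨c, rfl⟩
        rw [Cfsg.Agent.Helper18.S168.s168_order_conj]
        exact Cfsg.Agent.Helper18.S168.s168_r4 hd
    have h1 := Cfsg.Agent.Helper18.S168.s168_count_class (fun g : G => orderOf g = 4) r hall
    rw [Cfsg.Agent.Helper18.S168.s168_cent_r h hd, h] at h1
    omega
  · intro s' t hs ht
    obtain ⟨c, hc⟩ := Cfsg.Agent.Helper18.S168.s168_four_conj_r h hd s' hs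
    obtain ⟨d, hd'⟩ := Cfsg.Agent.Helper18.S168.s168_four_conj_r h hd t ht
    rw [isConj_iff]
    refine ⟨d⁻¹ * c, ?_⟩
    have h2 : d⁻¹ * c * s' * (d⁻¹ * c)⁻¹ = d⁻¹ * (c * s' * c⁻¹) * d := by group
    rw [h2, hc, ← hd']
    group
  · intro x hx
    constructor
    · have h1 := Cfsg.Agent.Helper18.S168.s168_count_class (fun g : G => IsConj x g) x
        (fun g => isConj_iff)
      rw [Cfsg.Agent.Helper18.S168.s168_cent7 h x hx, Nat.card_zpowers, hx, h] at h1
      omega
    · exact Cfsg.Agent.Helper18.S168.s168_seven_not_inv h x hx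

end Cfsg.Agent.S1006
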