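import Cfsg.Statements.S1007
import Mathlib
import Cfsg.Agent.Helper18.S168B

set_option autoImplicit false
open Cfsg

namespace Cfsg.Agent.S1007

/-- Let G be a simple group of order 168 and T a Sylow 2-subgroup. Then T contains exactly two subgroups that are Klein four-groups; they are not conjugate in G; and the normalizer of every Klein four-subgroup of G is isomorphic to the symmetric group of degree 4. -/
theorem result {G : Type*} [Group G] [Finite G] [IsSimpleGroup G] (h : Nat.card G = 168) (T : Sylow 2 G) : Nat.card {U : Subgroup G // U ≤ (T : Subgroup G) ∧ IsKleinFour ↥U} = 2 ∧ (∀ U W : Subgroup G, U ≤ (T : Subgroup G) → W ≤ (T : Subgroup G) → IsKleinFour ↥U → IsKleinFour ↥W → U ≠ W → ∀ g : G, U.map (MulAut.conj g).toMonoidHom ≠ W) ∧ ∀ U : Subgroup G, IsKleinFour ↥U → Nonempty (↥(Subgroup.normalizer (U : Set G)) ≃* Equiv.Perm (Fin 4)) := by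
  classical
  obtain ⟨r, s, hd⟩ := Cfsg.Agent.Helper18.S168.s168_data h T
  refine ⟨?_, ?_, fun U hU => Cfsg.Agent.Helper18.S168.s168_klein_S4 h U hU⟩
  · have hset : {U : Subgroup G | U ≤ (T : Subgroup G) ∧ IsKleinFour ↥U} =
        {hd.four 0, hd.four 1} := by
      ext U
      simp only [Set.mem_setOf_eq, Set.mem_insert_iff, Set.mem_singleton_iff]
      constructor
      · rintro ⟨hle, hU⟩
        exact Cfsg.Agent.Helper18.S168.s168_klein_le hd U hU hle
      · rintro (rfl | rfl)
        · exact ⟨Cfsg.Agent.Helper18.S168.s168_four_le hd 0, hd.four_kf 0⟩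
        · exact ⟨Cfsg.Agent.Helper18.S168.s168_four_le hd 1, hd.four_kf 1⟩
    have hc : Nat.card {U : Subgroup G // U ≤ (T : Subgroup G) ∧ IsKleinFour ↥U} =
        Set.ncard {U : Subgroup G | U ≤ (T : Subgroup G) ∧ IsKleinFour ↥U} :=
      Nat.card_coe_set_eq _
    rw [hc, hset, Set.ncard_pair (Cfsg.Agent.Helper18.S168.s168_four_ne hd)]
  · intro U W hU hW hUk hWk hne g hg
    rcases Cfsg.Agent.Helper18.S168.s168_klein_le hd U hUk hU with hU0 | hU1 <;>
      rcases Cfsg.Agent.Helper18.S168.s168_klein_le hd W hWk hW with hW0 | hW1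
    · exact hne (hU0.trans hW0.symm)
    · apply Cfsg.Agent.Helper18.DihKlein.dk_not_conj T hd
      exact ⟨g, by rw [← hU0, ← hW1]; exact hg⟩
    · apply Cfsg.Agent.Helper18.DihKlein.dk_not_conj T hd
      refine ⟨g⁻¹, ?_⟩
      rw [← hW0, ← hU1, ← hg, Cfsg.Agent.Helper18.KleinClass.kk_map_map, inv_mul_cancel,
        Cfsg.Agent.Helper18.KleinClass.kk_map_one]
    · exact hne (hU1.trans hW1.symm)

end Cfsg.Agent.S1007
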