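import Cfsg.Statements.S1008
import Mathlib
import Cfsg.Agent.Helper18.S168D

set_option autoImplicit false
open Cfsg

namespace Cfsg.Agent.S1008

/-- In a simple group of order 168 every maximal subgroup is either isomorphic to the symmetric group of degree 4 or non-abelian of order 21; the maximal subgroups of order 21 form one conjugacy class and those isomorphic to the symmetric group of degree 4 form exactly two conjugacy classes. -/
theorem result {G : Type*} [Group G] [Finite G] [IsSimpleGroup G] (h : Nat.card G = 168) : (∀ M : Subgroup G, IsCoatom M → Nonempty (↥M ≃* Equiv.Perm (Fin 4)) ∨ (Nat.card ↥M = 21 ∧ ¬ IsMulCommutative ↥M)) ∧ (∀ M M' : Subgroup G, IsCoatom M → IsCoatom M' → Nat.card ↥M = 21 → Nat.card ↥M' = 21 → ∃ g : G, M' = M.map (MulAut.conj g).toMonoidHom) ∧ ∃ M₁ M₂ : Subgroup G, IsCoatom M₁ ∧ IsCoatom M₂ ∧ Nonempty (↥M₁ ≃* Equiv.Perm (Fin 4)) ∧ Nonempty (↥M₂ ≃* Equiv.Perm (Fin 4)) ∧ (∀ g : G, M₂ ≠ M₁.map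 (MulAut.conj g).toMonoidHom) ∧ ∀ M : Subgroup G, IsCoatom M → Nonempty (↥M ≃* Equiv.Perm (Fin 4)) → ∃ g : G, M = M₁.map (MulAut.conj g).toMonoidHom ∨ M = M₂.map (MulAut.conj g).toMonoidHom := by
  classical
  have : Fact (Nat.Prime 2) := ⟨by norm_num⟩
  obtain ⟨T⟩ : Nonempty (Sylow 2 G) := inferInstance
  obtain ⟨r, s, hd⟩ := Cfsg.Agent.Helper18.S168.s168_data h T
  refine ⟨fun M hM => Cfsg.Agent.Helper18.S168.s168_coatom_cases h M hM,
    fun M M' _ _ hc hc' => Cfsg.Agent.Helper18.S168.s168_order21_conj h M M' hc hc', ?_⟩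
  refine ⟨Subgroup.normalizer ((hd.four 0 : Subgroup G) : Set G),
    Subgroup.normalizer ((hd.four 1 : Subgroup G) : Set G),
    Cfsg.Agent.Helper18.S168.s168_coatom24 h _ (Cfsg.Agent.Helper18.S168.s168_four_norm h hd 0),
    Cfsg.Agent.Helper18.S168.s168_coatom24 h _ (Cfsg.Agent.Helper18.S168.s168_four_norm h hd 1),
    Cfsg.Agent.Helper18.S168.s168_s4_of_card h _ (Cfsg.Agent.Helper18.S168.s168_four_norm h hd 0),
    Cfsg.Agent.Helper18.S168.s168_s4_of_card h _ (Cfsg.Agent.Helper18.S168.s168_four_norm h hd 1),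
    fun g => Cfsg.Agent.Helper18.S168.s168_not_conj h hd g, ?_⟩
  rintro M hM ⟨e⟩
  have hM24 : Nat.card M = 24 := by
    rw [Nat.card_congr e.toEquiv, Nat.card_perm, Nat.card_fin]
    rfl
  obtain ⟨U, hU, hMU⟩ := Cfsg.Agent.Helper18.S168.s168_s4_klein h M hM24
  rcases Cfsg.Agent.Helper18.DihKlein.dk_conj_four T hd U hU with ⟨x, hx⟩ | ⟨x, hx⟩
  · refine ⟨x⁻¹, Or.inl ?_⟩
    rw [Subgroup.map_equiv_normalizer_eq, ← hx, Cfsg.Agent.Helper18.KleinClass.kk_map_map,
      inv_mul_cancel, Cfsg.Agent.Helper18.KleinClass.kk_map_one]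
    exact hMU
  · refine ⟨x⁻¹, Or.inr ?_⟩
    rw [Subgroup.map_equiv_normalizer_eq, ← hx, Cfsg.Agent.Helper18.KleinClass.kk_map_map,
      inv_mul_cancel, Cfsg.Agent.Helper18.KleinClass.kk_map_one]
    exact hMU

end Cfsg.Agent.S1008
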