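import Cfsg.Statements.S1009
import Mathlib
import Cfsg.Agent.Helper20.SylowAux

set_option autoImplicit false
open Cfsg

namespace Cfsg.Agent.S1009

/-- Brodkey's Theorem: if a finite group has abelian Sylow p-subgroups, then there are two Sylow p-subgroups whose intersection equals the intersection of all Sylow p-subgroups. -/
theorem result {G : Type*} [Group G] [Finite G] (p : ℕ) [Fact p.Prime] (hab : ∀ P : Sylow p G, IsMulCommutative ↥(P : Subgroup G)) : ∃ P Q : Sylow p G, (P : Subgroup G) ⊓ (Q : Subgroup G) = ⨅ R : Sylow p G, (R : Subgroup G) := by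
  classical
  obtain ⟨⟨P, Q⟩, hmin⟩ := Finite.exists_min
    (fun PQ : Sylow p G × Sylow p G => Nat.card ↥((PQ.1 : Subgroup G) ⊓ (PQ.2 : Subgroup G)))
  refine ⟨P, Q, ?_⟩
  have hcommP : ∀ x ∈ (P : Subgroup G), ∀ y ∈ (P : Subgroup G), x * y = y * x := by
    intro x hx y hy
    have h := (isMulCommutative_iff.mp (hab P)) ⟨x, hx⟩ ⟨y, hy⟩
    have h' := congrArg Subtype.val h
    exact h'
  have hcommQ : ∀ x ∈ (Q : Subgroup G), ∀ y ∈ (Q : Subgroup G), x * y = y * x := by
    intro x hx y hy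
    have h := (isMulCommutative_iff.mp (hab Q)) ⟨x, hx⟩ ⟨y, hy⟩
    have h' := congrArg Subtype.val h
    exact h'
  have hPC : (P : Subgroup G) ≤
      Subgroup.centralizer ((((P : Subgroup G) ⊓ (Q : Subgroup G) : Subgroup G)) : Set G) := by
    intro x hx
    rw [Subgroup.mem_centralizer_iff]
    intro d hd
    exact hcommP d (Subgroup.mem_inf.mp hd).1 x hx
  have hQC : (Q : Subgroup G) ≤
      Subgroup.centralizer ((((P : Subgroup G) ⊓ (Q : Subgroup G) : Subgroup G)) : Set G) := by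
    intro x hx
    rw [Subgroup.mem_centralizer_iff]
    intro d hd
    exact hcommQ d (Subgroup.mem_inf.mp hd).2 x hx
  have hall : ∀ R : Sylow p G, (P : Subgroup G) ⊓ (Q : Subgroup G) ≤ (R : Subgroup G) := by
    intro R
    have hidx : ¬ p ∣ (P : Subgroup G).relIndex
        (Subgroup.centralizer ((((P : Subgroup G) ⊓ (Q : Subgroup G) : Subgroup G)) : Set G)) :=
      fun h => P.not_dvd_index (h.trans (Subgroup.relIndex_dvd_index_of_le hPC))
    obtain ⟨k, hk, hle⟩ := Cfsg.Agent.Helper20.exists_conj_le_of_isPGroup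
      (Subgroup.centralizer ((((P : Subgroup G) ⊓ (Q : Subgroup G) : Subgroup G)) : Set G))
      (P : Subgroup G)
      ((R : Subgroup G) ⊓
        Subgroup.centralizer ((((P : Subgroup G) ⊓ (Q : Subgroup G) : Subgroup G)) : Set G))
      P.2 hPC inf_le_right (R.2.to_le inf_le_left) hidx
    have hsub : ((k⁻¹ • R : Sylow p G) : Subgroup G) ⊓ (Q : Subgroup G)
        ≤ (P : Subgroup G) ⊓ (Q : Subgroup G) := by
      intro y hy
      obtain ⟨hy1, hy2⟩ := Subgroup.mem_inf.mp hy
      rw [Sylow.coe_subgroup_smul, Cfsg.Agent.Helper20.mem_conj_smul_iff, inv_inv] at hy1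
      have hyC := hQC hy2
      have hrC : k * y * k⁻¹ ∈
          Subgroup.centralizer ((((P : Subgroup G) ⊓ (Q : Subgroup G) : Subgroup G)) : Set G) :=
        Subgroup.mul_mem _ (Subgroup.mul_mem _ hk hyC) (Subgroup.inv_mem _ hk)
      have h1 := hle (Subgroup.mem_inf.mpr ⟨hy1, hrC⟩)
      rw [Cfsg.Agent.Helper20.mem_map_conj] at h1
      have h2 : k⁻¹ * (k * y * k⁻¹) * k = y := by group
      rw [h2] at h1
      exact Subgroup.mem_inf.mpr ⟨h1, hy2⟩
    have hcard : Nat.card ↥((P : Subgroup G) ⊓ (Q : Subgroup G))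
        ≤ Nat.card ↥(((k⁻¹ • R : Sylow p G) : Subgroup G) ⊓ (Q : Subgroup G)) :=
      hmin (k⁻¹ • R, Q)
    have heq := Subgroup.eq_of_le_of_card_ge hsub hcard
    intro d hd
    have hd1 : d ∈ ((k⁻¹ • R : Sylow p G) : Subgroup G) ⊓ (Q : Subgroup G) := by
      rw [heq]; exact hd
    have hd2 := (Subgroup.mem_inf.mp hd1).1
    rw [Sylow.coe_subgroup_smul, Cfsg.Agent.Helper20.mem_conj_smul_iff, inv_inv] at hd2
    have hkd : d * k = k * d := Subgroup.mem_centralizer_iff.mp hk d hd
    have h3 : k * d * k⁻¹ = d := by rw [← hkd]; group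
    rw [h3] at hd2
    exact hd2
  apply le_antisymm
  · exact le_iInf hall
  · exact le_inf (iInf_le _ P) (iInf_le _ Q)

end Cfsg.Agent.S1009
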