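import Cfsg.Statements.S1013
import Mathlib
import Cfsg.Agent.Helper20.PrimeDegree

set_option autoImplicit false
open Cfsg

namespace Cfsg.Agent.S1013

/-- Let G be a transitive permutation group of prime degree p having more than one Sylow p-subgroup, and suppose a Sylow p-subgroup P has prime index in its normalizer. Then G is simple. -/
theorem result {α : Type*} [Fintype α] [DecidableEq α] {p : ℕ} [Fact p.Prime] (hα : Fintype.card α = p) (G : Subgroup (Equiv.Perm α)) [MulAction.IsPretransitive ↥G α] (P : Sylow p ↥G) (hn : 1 < Nat.card (Sylow p ↥G)) (ht : (((P : Subgroup ↥G).subgroupOf (Subgroup.normalizer ((P : Subgroup ↥G) : Set ↥G))).index).Prime) : IsSimpleGroup ↥G := by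
  have hp : p.Prime := Fact.out
  have hcardα : Nat.card α = p := by rw [Nat.card_eq_fintype_card, hα]
  have hfG : ∀ g : ↥G, (∀ a : α, g • a = a) → g = 1 := by
    intro g hg
    apply Subtype.ext
    apply Equiv.ext
    intro a
    exact hg a
  have hcard : ¬ p ^ 2 ∣ Nat.card ↥G := by
    intro h
    have h1 : Nat.card ↥G ∣ Nat.card (Equiv.Perm α) := Subgroup.card_subgroup_dvd_card G
    have h0 : Nat.card (Equiv.Perm α) = p.factorial := by
      rw [Nat.card_eq_fintype_card, Fintype.card_perm, hα]
    rw [h0] at h1
    have h2 : p ^ 2 ∣ p.factorial := h.trans h1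
    rw [← Nat.mul_factorial_pred hp.ne_zero, pow_two] at h2
    have h3 : p ∣ (p - 1).factorial := Nat.dvd_of_mul_dvd_mul_left hp.pos h2
    have h4 : p ≤ p - 1 := (Nat.Prime.dvd_factorial hp).mp h3
    have := hp.pos
    omega
  exact Cfsg.Agent.Helper20.simple_of_prime_degree hcardα hfG hcard P hn ht

end Cfsg.Agent.S1013
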