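import Cfsg.Statements.S1014
import Mathlib
import Cfsg.Agent.S1010
import Cfsg.Agent.S4304

set_option autoImplicit false
open Cfsg

namespace Cfsg.Agent.S1014

/-- No finite simple group has order 1104 = 2^4 * 3 * 23. -/
theorem result {G : Type*} [Group G] [Finite G] [IsSimpleGroup G] : Nat.card G ≠ 1104 := by
  classical
  intro h
  haveI : Fact (Nat.Prime 23) := ⟨by norm_num⟩
  haveI : Fact (Nat.Prime 2) := ⟨by norm_num⟩
  haveI : Fintype (Sylow 23 G) := Fintype.ofFinite _
  obtain ⟨P⟩ : Nonempty (Sylow 23 G) := inferInstance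
  have hPcard : Nat.card (P : Subgroup G) = 23 := by
    obtain ⟨k, hk⟩ := IsPGroup.iff_card.1 P.isPGroup'
    have h1 := Subgroup.card_mul_index (P : Subgroup G)
    have h2 : ¬ 23 ∣ (P : Subgroup G).index := P.not_dvd_index
    rw [h, hk] at h1
    rcases k with _ | _ | k
    · exfalso
      apply h2
      rw [pow_zero, one_mul] at h1
      rw [h1]
      norm_num
    · rw [hk]; norm_num
    · exfalso
      have : 529 ∣ 1104 := ⟨23 ^ k * (P : Subgroup G).index, by rw [← h1]; ring⟩
      omega
  have hPidx : (P : Subgroup G).index = 48 := by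
    have h2 := Subgroup.card_mul_index (P : Subgroup G)
    rw [hPcard, h] at h2
    omega
  have hmod : Nat.card (Sylow 23 G) ≡ 1 [MOD 23] := card_sylow_modEq_one 23 G
  have hdvd : Nat.card (Sylow 23 G) ∣ 48 := by
    have h1 := Sylow.card_dvd_index P
    rwa [hPidx] at h1
  have hn : Nat.card (Sylow 23 G) = 1 ∨ Nat.card (Sylow 23 G) = 24 := by
    obtain ⟨n, hn⟩ : ∃ n, n = Nat.card (Sylow 23 G) := ⟨_, rfl⟩
    rw [← hn] at hmod hdvd ⊢
    have hle : n ≤ 48 := Nat.le_of_dvd (by norm_num) hdvd
    have hmod' : n % 23 = 1 := hmod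
    interval_cases n <;> omega
  have hidxN : (Subgroup.normalizer ((P : Subgroup G) : Set G)).index = Nat.card (Sylow 23 G) :=
    (Sylow.card_eq_index_normalizer P).symm
  rcases hn with hn1 | hn24
  · have hnorm : Subgroup.normalizer ((P : Subgroup G) : Set G) = ⊤ := by
      rw [hn1] at hidxN
      exact Subgroup.index_eq_one.1 hidxN
    have hPn : (P : Subgroup G).Normal := Subgroup.normalizer_eq_top_iff.1 hnorm
    rcases hPn.eq_bot_or_eq_top with hb | ht
    · rw [hb, Subgroup.card_bot] at hPcard
      omega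
    · rw [ht, Subgroup.card_top, h] at hPcard
      omega
  · have hr : 1 < 23 := by norm_num
    have hcard : Nat.card (Sylow 23 G) = 1 * 23 + 1 := by rw [hn24]
    rw [hn24] at hidxN
    have hfaith : ∀ g : G, (∀ Q : Sylow 23 G, g • Q = Q) → g = 1 := by
      intro g hg
      have hgK : g ∈ (MulAction.toPermHom G (Sylow 23 G)).ker := by
        rw [MonoidHom.mem_ker]
        ext Q
        simp only [MulAction.toPermHom_apply, MulAction.toPerm_apply, Equiv.Perm.coe_one, id_eq]
        rw [hg Q]
      rcases (MonoidHom.normal_ker (MulAction.toPermHom G (Sylow 23 G))).eq_bot_or_eq_top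
        with hb | ht
      · rw [hb, Subgroup.mem_bot] at hgK
        exact hgK
      · exfalso
        have hall : ∀ g' : G, g' ∈ Subgroup.normalizer ((P : Subgroup G) : Set G) := by
          intro g'
          have h1 : g' ∈ (MulAction.toPermHom G (Sylow 23 G)).ker := by
            rw [ht]; exact Subgroup.mem_top g'
          rw [MonoidHom.mem_ker] at h1
          have h2 := congrArg (fun σ : Equiv.Perm (Sylow 23 G) => σ P) h1
          simp only [MulAction.toPermHom_apply, MulAction.toPerm_apply, Equiv.Perm.coe_one,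
            id_eq] at h2
          exact Sylow.smul_eq_iff_mem_normalizer.1 h2
        have h3 : Subgroup.normalizer ((P : Subgroup G) : Set G) = ⊤ :=
          eq_top_iff.2 fun g' _ => hall g'
        rw [h3, Subgroup.index_top] at hidxN
        omega
    have hmin : ∀ H : Subgroup G, (∀ Q : Sylow 23 G, (Q : Subgroup G) ≤ H) → H = ⊤ := by
      intro H hH
      have hle : (P : Subgroup G) ≤ H.normalCore := by
        intro u hu b
        have h1 : b * u * b⁻¹ ∈ ((b • P : Sylow 23 G) : Subgroup G) := by
          rw [Cfsg.Agent.S4304.mem_smul_sylow]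
          have e : b⁻¹ * (b * u * b⁻¹) * b = u := by group
          rw [e]
          exact hu
        exact hH _ h1
      rcases (inferInstance : H.normalCore.Normal).eq_bot_or_eq_top with hb | ht
      · exfalso
        rw [hb, le_bot_iff] at hle
        rw [hle, Subgroup.card_bot] at hPcard
        omega
      · exact top_unique (ht ▸ Subgroup.normalCore_le H)
    have hNcard : Nat.card (Subgroup.normalizer ((P : Subgroup G) : Set G)) = 46 := by
      have h2 := Subgroup.card_mul_index (Subgroup.normalizer ((P : Subgroup G) : Set G))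
      rw [hidxN, h] at h2
      omega
    obtain ⟨t', ht'⟩ := exists_prime_orderOf_dvd_card'
      (G := ↥(Subgroup.normalizer ((P : Subgroup G) : Set G))) 2 (by rw [hNcard]; norm_num)
    obtain ⟨t, htdef⟩ : ∃ t : G, t = (t' : G) := ⟨_, rfl⟩
    have hto : orderOf t = 2 := by rw [htdef, Subgroup.orderOf_coe]; exact ht'
    have htN : t ∈ Subgroup.normalizer ((P : Subgroup G) : Set G) := by rw [htdef]; exact t'.2
    have ht2 : t ^ 2 = 1 := by rw [← hto]; exact pow_orderOf_eq_one t
    have ht1 : t ≠ 1 := by
      intro h1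
      rw [h1, orderOf_one] at hto
      omega
    have htP : t • P = P := Sylow.smul_eq_iff_mem_normalizer.2 htN
    obtain ⟨c, hc⟩ : ∃ c, c = Nat.card {Q : Sylow 23 G // t • Q = Q} := ⟨_, rfl⟩
    have hcmod : c % 2 = 0 := by
      have h1 := Cfsg.Agent.S4304.fix_modEq (p := 23) t 2 1 (by simpa using ht2)
      rw [← hc, hn24] at h1
      exact h1
    have hcpos : 1 ≤ c := by
      rw [hc]
      haveI : Nonempty {Q : Sylow 23 G // t • Q = Q} := ⟨⟨P, htP⟩⟩
      exact Nat.card_pos
    have hF : ∀ Q1 Q2 : Sylow 23 G, t • Q1 = Q1 → t • Q2 = Q2 → Q1 ≠ P → Q2 ≠ P → Q1 = Q2 := by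
      intro Q1 Q2 h1 h2 hQ1 hQ2
      by_contra hne
      obtain ⟨ho1, ho2, -, -⟩ := Cfsg.Agent.S1010.orbit_facts hr hcard P Q1 (Ne.symm hQ1)
      have horb : MulAction.orbit ↥(P : Subgroup G) Q1 = {P}ᶜ := by
        apply Set.eq_of_subset_of_ncard_le
        · intro Z hZ
          rw [Set.mem_compl_iff, Set.mem_singleton_iff]
          rintro rfl
          exact ho2 hZ
        · rw [ho1, Set.ncard_compl, Set.ncard_singleton, hn24]
        · exact Set.toFinite _
      have hQ2mem : Q2 ∈ MulAction.orbit ↥(P : Subgroup G) Q1 := by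
        rw [horb]; exact hQ2
      obtain ⟨⟨u, hu⟩, huQ⟩ := hQ2mem
      have huQ' : u • Q1 = Q2 := huQ
      have hu1 : u ≠ 1 := by
        rintro rfl
        rw [one_smul] at huQ'
        exact hne huQ'
      have htu : t * u * t⁻¹ ∈ (P : Subgroup G) := (Subgroup.mem_normalizer_iff.1 htN u).1 hu
      have hfix : (u⁻¹ * (t * u * t⁻¹)) • Q1 = Q1 := by
        rw [mul_smul, mul_smul, mul_smul]
        have e1 : t⁻¹ • Q1 = Q1 := by
          rw [inv_smul_eq_iff]; exact h1.symm
        rw [e1, huQ', h2, ← huQ', inv_smul_smul]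
      have hcomm : u⁻¹ * (t * u * t⁻¹) = 1 := by
        by_contra hx1
        exact hQ1 (Cfsg.Agent.S1010.fix_eq hr hcard hfaith P Q1 _
          (Subgroup.mul_mem _ (Subgroup.inv_mem _ hu) htu) hx1 hfix)
      have htu' : t * u = u * t := by
        have h5 : t * u * t⁻¹ = u := by
          rw [inv_mul_eq_one] at hcomm
          exact hcomm.symm
        rwa [mul_inv_eq_iff_eq_mul] at h5
      obtain ⟨k, hk, hkc⟩ := Cfsg.Agent.S1010.fix_count hr le_rfl hcard hfaith P u hu hu1 t htu'
      rw [← hc] at hkc
      have hk1 : k = 1 := by omega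
      rw [hk1] at hkc
      apply ht1
      apply Cfsg.Agent.S4304.eq_one_of_fix_all hfaith t
      rw [← hc, hkc, hn24]
    have hc2 : c = 2 := by
      by_contra hcon
      have hc3 : 3 ≤ c := by omega
      obtain ⟨F, hFdef⟩ : ∃ F : Set (Sylow 23 G), F = {Q | t • Q = Q} := ⟨_, rfl⟩
      have hcF : F.ncard = c := by
        rw [hc, hFdef]
        exact (Nat.card_coe_set_eq _).symm
      obtain ⟨Q1, hQ1F, hQ1P⟩ : ∃ Q1 : Sylow 23 G, t • Q1 = Q1 ∧ Q1 ≠ P := by
        by_contra hno
        push Not at hno
        have h1 : F ⊆ {P} := by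
          intro Q hQ
          rw [hFdef] at hQ
          exact hno Q hQ
        have h2 := Set.ncard_le_ncard h1 (Set.toFinite _)
        rw [Set.ncard_singleton] at h2
        omega
      have h1 : F ⊆ {P, Q1} := by
        intro Q hQ
        rw [hFdef] at hQ
        by_cases hQP : Q = P
        · left; exact hQP
        · right; exact (hF Q1 Q hQ1F hQ hQ1P hQP).symm
      have h3 := Set.ncard_le_ncard h1 (Set.toFinite _)
      have h4 : ({P, Q1} : Set (Sylow 23 G)).ncard ≤ 2 := by
        have h5 := Set.ncard_insert_le P ({Q1} : Set (Sylow 23 G))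
        rw [Set.ncard_singleton] at h5
        exact h5
      omega
    obtain ⟨σ, hσ⟩ : ∃ σ : Equiv.Perm (Sylow 23 G), σ = MulAction.toPerm t := ⟨_, rfl⟩
    have hσ' : σ = MulAction.toPermHom G (Sylow 23 G) t := hσ
    have hσ2 : σ ^ 2 = 1 := by rw [hσ', ← map_pow, ht2, map_one]
    have hσ1 : σ ≠ 1 := by
      intro h1
      apply ht1
      apply hfaith
      intro Q
      have h2 := congrArg (fun τ : Equiv.Perm (Sylow 23 G) => τ Q) h1
      rw [hσ] at h2
      simpa using h2
    have hσo : orderOf σ = 2 := orderOf_eq_prime hσ2 hσ1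
    obtain ⟨n, hn⟩ := Equiv.Perm.cycleType_prime_order (σ := σ) (by rw [hσo]; norm_num)
    rw [hσo] at hn
    have hsupp : σ.support.card = 22 := by
      have h1 := Cfsg.Agent.S4304.card_compl_support (p := 23) t
      rw [← hσ, ← hc, hc2] at h1
      have h2 := Finset.card_add_card_compl σ.support
      rw [h1, ← Nat.card_eq_fintype_card, hn24] at h2
      omega
    have hsum : σ.cycleType.sum = 22 := by rw [Equiv.Perm.sum_cycleType, hsupp]
    have hn11 : n + 1 = 11 := by
      rw [hn, Multiset.sum_replicate, smul_eq_mul] at hsum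
      omega
    have hsign : Equiv.Perm.sign σ = -1 := by
      rw [Equiv.Perm.sign_of_cycleType, hsum, hn, Multiset.card_replicate, hn11]
      decide
    have heven := Cfsg.Agent.S4304.all_even (p := 23) (by norm_num) hmin t
    rw [← hσ, hsign] at heven
    exact absurd heven (by decide)

end Cfsg.Agent.S1014
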