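import Cfsg.Statements.S1015
import Mathlib
import Cfsg.Agent.S1010

set_option autoImplicit false
open Cfsg

namespace Cfsg.Agent.S1015

/-- No finite simple group has order 1200 = 2^4 * 3 * 5^2. -/
theorem result {G : Type*} [Group G] [Finite G] [IsSimpleGroup G] : Nat.card G ≠ 1200 := by
  classical
  intro h
  haveI : Fact (Nat.Prime 5) := ⟨by norm_num⟩
  obtain ⟨P⟩ : Nonempty (Sylow 5 G) := inferInstance
  have hPcard : Nat.card (P : Subgroup G) = 25 := by
    obtain ⟨k, hk⟩ := IsPGroup.iff_card.1 P.isPGroup'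
    have h1 := Subgroup.card_mul_index (P : Subgroup G)
    have h2 : ¬ 5 ∣ (P : Subgroup G).index := P.not_dvd_index
    rw [h, hk] at h1
    rcases k with _ | _ | _ | k
    · exfalso
      apply h2
      rw [pow_zero, one_mul] at h1
      rw [h1]
      norm_num
    · exfalso
      apply h2
      have h3 : (P : Subgroup G).index = 240 := by omega
      rw [h3]
      norm_num
    · rw [hk]; norm_num
    · exfalso
      have : 125 ∣ 1200 := ⟨5 ^ k * (P : Subgroup G).index, by rw [← h1]; ring⟩
      omega
  have hPidx : (P : Subgroup G).index = 48 := by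
    have h2 := Subgroup.card_mul_index (P : Subgroup G)
    rw [hPcard, h] at h2
    omega
  have hmod : Nat.card (Sylow 5 G) ≡ 1 [MOD 5] := card_sylow_modEq_one 5 G
  have hdvd : Nat.card (Sylow 5 G) ∣ 48 := by
    have h1 := Sylow.card_dvd_index P
    rwa [hPidx] at h1
  have hn : Nat.card (Sylow 5 G) = 1 ∨ Nat.card (Sylow 5 G) = 6 ∨ Nat.card (Sylow 5 G) = 16 := by
    obtain ⟨n, hn⟩ : ∃ n, n = Nat.card (Sylow 5 G) := ⟨_, rfl⟩
    rw [← hn] at hmod hdvd ⊢
    have hle : n ≤ 48 := Nat.le_of_dvd (by norm_num) hdvd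
    have hmod' : n % 5 = 1 := hmod
    interval_cases n <;> omega
  have hidxN : (Subgroup.normalizer ((P : Subgroup G) : Set G)).index = Nat.card (Sylow 5 G) :=
    (Sylow.card_eq_index_normalizer P).symm
  have hfaith : Nat.card (Sylow 5 G) ≠ 1 →
      ∀ g : G, (∀ Q : Sylow 5 G, g • Q = Q) → g = 1 := by
    intro hne g hg
    have hgK : g ∈ (MulAction.toPermHom G (Sylow 5 G)).ker := by
      rw [MonoidHom.mem_ker]
      ext Q
      simp only [MulAction.toPermHom_apply, MulAction.toPerm_apply, Equiv.Perm.coe_one, id_eq]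
      rw [hg Q]
    rcases (MonoidHom.normal_ker (MulAction.toPermHom G (Sylow 5 G))).eq_bot_or_eq_top
      with hb | ht
    · rw [hb, Subgroup.mem_bot] at hgK
      exact hgK
    · exfalso
      have hall : ∀ g' : G, g' ∈ Subgroup.normalizer ((P : Subgroup G) : Set G) := by
        intro g'
        have h1 : g' ∈ (MulAction.toPermHom G (Sylow 5 G)).ker := by
          rw [ht]; exact Subgroup.mem_top g'
        rw [MonoidHom.mem_ker] at h1
        have h2 := congrArg (fun σ : Equiv.Perm (Sylow 5 G) => σ P) h1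
        simp only [MulAction.toPermHom_apply, MulAction.toPerm_apply, Equiv.Perm.coe_one,
          id_eq] at h2
        exact Sylow.smul_eq_iff_mem_normalizer.1 h2
      have h3 : Subgroup.normalizer ((P : Subgroup G) : Set G) = ⊤ :=
        eq_top_iff.2 fun g' _ => hall g'
      rw [h3, Subgroup.index_top] at hidxN
      exact hne hidxN.symm
  rcases hn with hn1 | hn6 | hn16
  · have hnorm : Subgroup.normalizer ((P : Subgroup G) : Set G) = ⊤ := by
      rw [hn1] at hidxN
      exact Subgroup.index_eq_one.1 hidxN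
    have hPn : (P : Subgroup G).Normal := Subgroup.normalizer_eq_top_iff.1 hnorm
    rcases hPn.eq_bot_or_eq_top with hb | ht
    · rw [hb, Subgroup.card_bot] at hPcard
      omega
    · rw [ht, Subgroup.card_top, h] at hPcard
      omega
  · have h1 := Cfsg.Agent.S1010.card_sylow_eq (p := 5) (r := 1) (by norm_num) le_rfl
      (by rw [hn6]) (hfaith (by rw [hn6]; norm_num)) P
    rw [hPcard] at h1
    omega
  · have h1 := Cfsg.Agent.S1010.card_sylow_eq (p := 5) (r := 3) (by norm_num) (by norm_num)
      (by rw [hn16]) (hfaith (by rw [hn16]; norm_num)) P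
    rw [hPcard] at h1
    omega

end Cfsg.Agent.S1015
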