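import Cfsg.Statements.S1019
import Mathlib

set_option autoImplicit false
open Cfsg

namespace Cfsg.Agent.S1019

theorem card_fib {α β : Type*} [Finite α] [Finite β] (f : α → β) (k : ℕ)
    (h : ∀ b : β, Nat.card {a : α // f a = b} = k) : Nat.card α = Nat.card β * k := by
  have := Fintype.ofFinite β
  rw [Nat.card_congr (Equiv.sigmaFiberEquiv f).symm, Nat.card_sigma]
  simp only [h, Finset.sum_const, Finset.card_univ, smul_eq_mul, Nat.card_eq_fintype_card]

theorem conj_count {G : Type*} [Group G] [Finite G] (x : G) (p : G → Prop) :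
    Nat.card {g : G // p (g⁻¹ * x * g)}
      = Nat.card {y : G // IsConj x y ∧ p y} * Nat.card ↥(Subgroup.centralizer ({x} : Set G)) := by
  apply card_fib (fun g : {g : G // p (g⁻¹ * x * g)} =>
    (⟨g.1⁻¹ * x * g.1, ⟨isConj_iff.mpr ⟨g.1⁻¹, by rw [inv_inv]⟩, g.2⟩⟩ :
      {y : G // IsConj x y ∧ p y}))
  rintro ⟨y, hy1, hy2⟩
  obtain ⟨c, hc⟩ := isConj_iff.mp hy1
  have key : ∀ z : ↥(Subgroup.centralizer ({x} : Set G)),
      (z.1 * c⁻¹)⁻¹ * x * (z.1 * c⁻¹) = y := by
    intro z
    have hz : x * z.1 = z.1 * x := Subgroup.mem_centralizer_iff.mp z.2 x rfl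
    calc (z.1 * c⁻¹)⁻¹ * x * (z.1 * c⁻¹) = c * (z.1⁻¹ * (x * z.1)) * c⁻¹ := by group
      _ = c * x * c⁻¹ := by rw [hz]; group
      _ = y := hc
  refine Nat.card_congr (Equiv.symm ?_)
  refine
    { toFun := fun z => ⟨⟨z.1 * c⁻¹, by rw [key z]; exact hy2⟩, Subtype.ext (key z)⟩
      invFun := fun g => ⟨g.1.1 * c, ?_⟩
      left_inv := ?_
      right_inv := ?_ }
  · have e1 : g.1.1⁻¹ * x * g.1.1 = y := congrArg Subtype.val g.2
    have e : g.1.1⁻¹ * x * g.1.1 = c * x * c⁻¹ := e1.trans hc.symm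
    rw [Subgroup.mem_centralizer_iff]
    intro h hh
    rw [Set.mem_singleton_iff] at hh
    subst hh
    calc h * (g.1.1 * c) = g.1.1 * (g.1.1⁻¹ * h * g.1.1) * c := by group
      _ = g.1.1 * (c * h * c⁻¹) * c := by rw [e]
      _ = g.1.1 * c * h := by group
  · intro z
    apply Subtype.ext
    show z.1 * c⁻¹ * c = z.1
    group
  · intro g
    apply Subtype.ext
    apply Subtype.ext
    show g.1.1 * c * c⁻¹ = g.1.1
    group

theorem fixed_iff {G : Type*} [Group G] (H : Subgroup G) (x g : G) :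
    x • (g : G ⧸ H) = (g : G ⧸ H) ↔ g⁻¹ * x * g ∈ H := by
  rw [MulAction.Quotient.smul_mk, QuotientGroup.eq, smul_eq_mul]
  have e : ((x * g)⁻¹ * g)⁻¹ = g⁻¹ * x * g := by group
  constructor
  · intro h
    rw [← e]
    exact H.inv_mem h
  · intro h
    have h2 := H.inv_mem h
    rw [← e, inv_inv] at h2
    exact h2

theorem fixed_count {G : Type*} [Group G] [Finite G] (H : Subgroup G) (x : G) :
    Nat.card {g : G // g⁻¹ * x * g ∈ H}
      = Nat.card ↥(MulAction.fixedBy (G ⧸ H) x) * Nat.card ↥H := by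
  apply card_fib (fun g : {g : G // g⁻¹ * x * g ∈ H} =>
    (⟨(g.1 : G ⧸ H), MulAction.mem_fixedBy.mpr ((fixed_iff H x g.1).mpr g.2)⟩ :
      ↥(MulAction.fixedBy (G ⧸ H) x)))
  rintro ⟨q, hq⟩
  obtain ⟨g₀, rfl⟩ := QuotientGroup.mk_surjective q
  have hq' : x • (g₀ : G ⧸ H) = (g₀ : G ⧸ H) := MulAction.mem_fixedBy.mp hq
  have key : ∀ h : ↥H, ((g₀ * h.1 : G) : G ⧸ H) = (g₀ : G ⧸ H) :=
    fun h => QuotientGroup.mk_mul_of_mem g₀ h.2
  refine Nat.card_congr (Equiv.symm ?_)
  refine
    { toFun := fun h => ⟨⟨g₀ * h.1, (fixed_iff H x (g₀ * h.1)).mp (by rw [key h]; exact hq')⟩,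
        Subtype.ext (key h)⟩
      invFun := fun g => ⟨g₀⁻¹ * g.1.1, ?_⟩
      left_inv := ?_
      right_inv := ?_ }
  · have e1 : ((g.1.1 : G) : G ⧸ H) = (g₀ : G ⧸ H) := congrArg Subtype.val g.2
    exact QuotientGroup.eq.mp e1.symm
  · intro h
    apply Subtype.ext
    show g₀⁻¹ * (g₀ * h.1) = h.1
    group
  · intro g
    apply Subtype.ext
    apply Subtype.ext
    show g₀ * (g₀⁻¹ * g.1.1) = g.1.1
    group

/-- Let H be a subgroup of a finite group G and x an element of H. In the action of G on the left cosets of H, the number of cosets fixed by x, multiplied by the size of the conjugacy class of x, equals the index of H multiplied by the number of conjugates of x that lie in H. -/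
theorem result {G : Type*} [Group G] [Finite G] (H : Subgroup G) (x : G) (hx : x ∈ H) : Nat.card (MulAction.fixedBy (G ⧸ H) x) * Nat.card {g : G // IsConj x g} = H.index * Nat.card {g : G // IsConj x g ∧ g ∈ H} := by
  have hA := fixed_count H x
  have hB : Nat.card {g : G // g⁻¹ * x * g ∈ H}
      = Nat.card {y : G // IsConj x y ∧ y ∈ H} * Nat.card ↥(Subgroup.centralizer ({x} : Set G)) :=
    conj_count x (fun y => y ∈ H)
  have hC : Nat.card {g : G // True}
      = Nat.card {y : G // IsConj x y ∧ True} * Nat.card ↥(Subgroup.centralizer ({x} : Set G)) :=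
    conj_count x (fun _ => True)
  have e1 : Nat.card {g : G // True} = Nat.card G :=
    Nat.card_congr (Equiv.subtypeUnivEquiv (fun _ => trivial))
  have e2 : Nat.card {y : G // IsConj x y ∧ True} = Nat.card {y : G // IsConj x y} :=
    Nat.card_congr (Equiv.subtypeEquivRight (fun y => ⟨fun h => h.1, fun h => ⟨h, trivial⟩⟩))
  rw [e1, e2] at hC
  have hD := Subgroup.card_mul_index H
  have hpos : 0 < Nat.card ↥H * Nat.card ↥(Subgroup.centralizer ({x} : Set G)) :=
    Nat.mul_pos Nat.card_pos Nat.card_pos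
  apply Nat.eq_of_mul_eq_mul_right hpos
  calc Nat.card ↥(MulAction.fixedBy (G ⧸ H) x) * Nat.card {g : G // IsConj x g}
        * (Nat.card ↥H * Nat.card ↥(Subgroup.centralizer ({x} : Set G)))
      = (Nat.card ↥(MulAction.fixedBy (G ⧸ H) x) * Nat.card ↥H)
        * (Nat.card {g : G // IsConj x g} * Nat.card ↥(Subgroup.centralizer ({x} : Set G))) := by
        ring
    _ = (Nat.card {y : G // IsConj x y ∧ y ∈ H} * Nat.card ↥(Subgroup.centralizer ({x} : Set G)))
        * (Nat.card ↥H * H.index) := by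
        rw [← hA, hB, ← hC, ← hD]
    _ = H.index * Nat.card {g : G // IsConj x g ∧ g ∈ H}
        * (Nat.card ↥H * Nat.card ↥(Subgroup.centralizer ({x} : Set G))) := by
        ring

end Cfsg.Agent.S1019
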