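import Cfsg.Statements.S1018
import Mathlib
import Cfsg.Agent.S1019
import Cfsg.Agent.S4304

set_option autoImplicit false
open Cfsg

namespace Cfsg.Agent.S1018

theorem pelt_mem {G : Type*} [Group G] [Finite G] {p : ℕ} [Fact p.Prime] (P : Sylow p G) (z : G)
    (hz : z ∈ Subgroup.normalizer ((P : Subgroup G) : Set G))
    (hzp : IsPGroup p (Subgroup.zpowers z)) :
    z ∈ (P : Subgroup G) := by
  have hle : Subgroup.zpowers z ≤ Subgroup.normalizer ((P : Subgroup G) : Set G) := by
    rw [Subgroup.zpowers_le]; exact hz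
  have hsup : IsPGroup p ((Subgroup.zpowers z ⊔ (P : Subgroup G) : Subgroup G)) :=
    hzp.to_sup_of_normal_right' P.isPGroup' hle
  have h5 := P.is_maximal' hsup le_sup_right
  have hk' : z ∈ Subgroup.zpowers z ⊔ (P : Subgroup G) :=
    (le_sup_left : Subgroup.zpowers z ≤ _) (Subgroup.mem_zpowers z)
  rw [h5] at hk'
  exact hk'

theorem eq_zpowers_of_mem {G : Type*} [Group G] [Finite G] {p : ℕ} [Fact p.Prime]
    (Q : Subgroup G) (hQ : Nat.card Q = p) (w : G) (hw : w ∈ Q) (hw1 : w ≠ 1) :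
    Subgroup.zpowers w = Q := by
  apply Subgroup.eq_of_le_of_card_ge
  · rw [Subgroup.zpowers_le]; exact hw
  · rw [hQ, Nat.card_zpowers]
    have h1 : orderOf w ∣ p := by
      have h2 := orderOf_dvd_natCard (⟨w, hw⟩ : Q)
      rw [hQ, ← Subgroup.orderOf_coe] at h2
      exact h2
    rcases (Nat.dvd_prime (Fact.out : p.Prime)).1 h1 with h2 | h2
    · exact absurd (orderOf_eq_one_iff.1 h2) hw1
    · rw [h2]

theorem card_sylow_all {G : Type*} [Group G] [Finite G] (p : ℕ) [Fact p.Prime] (P : Sylow p G)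
    (hP : Nat.card ↥(P : Subgroup G) = p) (Q : Sylow p G) : Nat.card ↥(Q : Subgroup G) = p := by
  have h1 : Nat.card (Q : Subgroup G) = p ^ (Nat.card G).factorization p :=
    Sylow.card_eq_multiplicity Q
  have h2 : Nat.card (P : Subgroup G) = p ^ (Nat.card G).factorization p :=
    Sylow.card_eq_multiplicity P
  rw [h1, ← h2, hP]

theorem part_a {G : Type*} [Group G] [Finite G] (p : ℕ) [Fact p.Prime] (P : Sylow p G)
    (hP : Nat.card ↥(P : Subgroup G) = p) (N : Subgroup G)
    (hN : N = Subgroup.normalizer ((P : Subgroup G) : Set G)) (y : G) (hy : orderOf y = p) :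
    Nat.card (MulAction.fixedBy (G ⧸ N) y) = 1 := by
  classical
  have hp : p.Prime := Fact.out
  have hy1 : y ≠ 1 := by
    intro h
    rw [h, orderOf_one] at hy
    exact hp.one_lt.ne hy
  have hcardS := card_sylow_all p P hP
  have hconj_order : ∀ g : G, orderOf (g⁻¹ * y * g) = p := by
    intro g
    have h1 := MulEquiv.orderOf_eq (MulAut.conj g⁻¹) y
    rw [MulAut.conj_apply, inv_inv, hy] at h1
    exact h1
  have hmemP : ∀ g : G, g⁻¹ * y * g ∈ N → g⁻¹ * y * g ∈ (P : Subgroup G) := by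
    intro g hg
    rw [hN] at hg
    apply pelt_mem P _ hg
    exact IsPGroup.of_card (n := 1) (by rw [Nat.card_zpowers, hconj_order g, pow_one])
  have hfix : ∀ g : G, (g : G ⧸ N) ∈ MulAction.fixedBy (G ⧸ N) y ↔
      y ∈ ((g • P : Sylow p G) : Subgroup G) := by
    intro g
    rw [MulAction.mem_fixedBy, Cfsg.Agent.S1019.fixed_iff, Cfsg.Agent.S4304.mem_smul_sylow]
    constructor
    · exact hmemP g
    · intro h
      rw [hN]
      exact Subgroup.le_normalizer h
  rw [Nat.card_eq_one_iff_unique]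
  constructor
  · constructor
    rintro ⟨q1, h1⟩ ⟨q2, h2⟩
    obtain ⟨g1, rfl⟩ := QuotientGroup.mk_surjective q1
    obtain ⟨g2, rfl⟩ := QuotientGroup.mk_surjective q2
    apply Subtype.ext
    show (g1 : G ⧸ N) = (g2 : G ⧸ N)
    rw [hfix] at h1 h2
    have e1 := eq_zpowers_of_mem _ (hcardS (g1 • P)) y h1 hy1
    have e2 := eq_zpowers_of_mem _ (hcardS (g2 • P)) y h2 hy1
    have e3 : g1 • P = g2 • P := Sylow.ext (e1.symm.trans e2)
    rw [QuotientGroup.eq, hN]
    apply Sylow.smul_eq_iff_mem_normalizer.1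
    rw [mul_smul, ← e3, inv_smul_smul]
  · obtain ⟨Q, hQ⟩ := (IsPGroup.of_card (n := 1) (by rw [Nat.card_zpowers, hy, pow_one]) :
      IsPGroup p (Subgroup.zpowers y)).exists_le_sylow
    obtain ⟨g, hg⟩ := MulAction.exists_smul_eq G P Q
    refine ⟨⟨(g : G ⧸ N), ?_⟩⟩
    rw [hfix, hg]
    exact hQ (Subgroup.mem_zpowers y)

theorem part_b {G : Type*} [Group G] [Finite G] (p : ℕ) [Fact p.Prime] (P : Sylow p G)
    (hP : Nat.card ↥(P : Subgroup G) = p) (N : Subgroup G)
    (hN : N = Subgroup.normalizer ((P : Subgroup G) : Set G)) (x : G) (hxN : x ∈ N)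
    (hxC : x ∉ Subgroup.centralizer ((P : Subgroup G) : Set G)) :
    Nat.card (MulAction.fixedBy (G ⧸ N) x) ≤
      Nat.card (MulAction.orbitRel.Quotient ↥(P : Subgroup G) (G ⧸ N)) := by
  classical
  have hp : p.Prime := Fact.out
  have hcardS := card_sylow_all p P hP
  apply Nat.card_le_card_of_injective (fun q : MulAction.fixedBy (G ⧸ N) x =>
    (Quotient.mk'' q.1 : MulAction.orbitRel.Quotient ↥(P : Subgroup G) (G ⧸ N)))
  rintro ⟨q1, h1⟩ ⟨q2, h2⟩ heq
  apply Subtype.ext
  show q1 = q2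
  have heq' : (Quotient.mk'' q1 : MulAction.orbitRel.Quotient ↥(P : Subgroup G) (G ⧸ N)) =
      Quotient.mk'' q2 := heq
  have hrel : q1 ∈ MulAction.orbit ↥(P : Subgroup G) q2 :=
    MulAction.orbitRel_apply.1 (Quotient.exact' heq')
  obtain ⟨⟨u, hu⟩, huq⟩ := hrel
  obtain ⟨g, rfl⟩ := QuotientGroup.mk_surjective q2
  have huq' : ((u * g : G) : G ⧸ N) = q1 := by
    rw [← huq]; rfl
  subst huq'
  rw [MulAction.mem_fixedBy, Cfsg.Agent.S1019.fixed_iff] at h1 h2
  rw [QuotientGroup.eq]
  have hxu : x * u * x⁻¹ ∈ (P : Subgroup G) := by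
    rw [hN] at hxN
    exact (Subgroup.mem_normalizer_iff.1 hxN u).1 hu
  obtain ⟨w, hw⟩ : ∃ w : G, w = u⁻¹ * (x * u * x⁻¹) := ⟨_, rfl⟩
  have hwP : w ∈ (P : Subgroup G) := by
    rw [hw]; exact Subgroup.mul_mem _ (Subgroup.inv_mem _ hu) hxu
  have hwN : g⁻¹ * w * g ∈ N := by
    have e : g⁻¹ * w * g = (u * g)⁻¹ * x * (u * g) * (g⁻¹ * x * g)⁻¹ := by rw [hw]; group
    rw [e]
    exact N.mul_mem h1 (N.inv_mem h2)
  have hwgP : g⁻¹ * w * g ∈ (P : Subgroup G) := by
    rw [hN] at hwN
    apply pelt_mem P _ hwN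
    have ho : orderOf (g⁻¹ * w * g) = orderOf w := by
      have h := MulEquiv.orderOf_eq (MulAut.conj g⁻¹) w
      rw [MulAut.conj_apply, inv_inv] at h
      exact h
    have hdvd : orderOf w ∣ p := by
      have h2 := orderOf_dvd_natCard (⟨w, hwP⟩ : (P : Subgroup G))
      rw [hP, ← Subgroup.orderOf_coe] at h2
      exact h2
    rcases (Nat.dvd_prime hp).1 hdvd with h3 | h3
    · exact IsPGroup.of_card (n := 0) (by rw [Nat.card_zpowers, ho, h3, pow_zero])
    · exact IsPGroup.of_card (n := 1) (by rw [Nat.card_zpowers, ho, h3, pow_one])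
  by_cases hw1 : w = 1
  · have hcomm : x * u * x⁻¹ = u := by
      rw [hw1] at hw
      exact (inv_mul_eq_one.1 hw.symm).symm
    by_cases hu1 : u = 1
    · rw [hu1, one_mul, inv_mul_cancel]
      exact N.one_mem
    · exfalso
      apply hxC
      rw [Subgroup.mem_centralizer_iff]
      intro z hz
      have hzu : Subgroup.zpowers u = (P : Subgroup G) := eq_zpowers_of_mem _ hP u hu hu1
      rw [SetLike.mem_coe, ← hzu] at hz
      obtain ⟨k, rfl⟩ := Subgroup.mem_zpowers_iff.1 hz
      have hc : Commute x u := mul_inv_eq_iff_eq_mul.1 hcomm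
      exact (hc.zpow_right k).eq.symm
  · have e1 : Subgroup.zpowers w = (P : Subgroup G) := eq_zpowers_of_mem _ hP w hwP hw1
    have hwgP' : w ∈ ((g • P : Sylow p G) : Subgroup G) := by
      rw [Cfsg.Agent.S4304.mem_smul_sylow]; exact hwgP
    have e2 : Subgroup.zpowers w = ((g • P : Sylow p G) : Subgroup G) :=
      eq_zpowers_of_mem _ (hcardS (g • P)) w hwgP' hw1
    have e3 : g • P = P := Sylow.ext (e2.symm.trans e1)
    have hgN : g ∈ N := by rw [hN]; exact Sylow.smul_eq_iff_mem_normalizer.1 e3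
    have huN : u ∈ N := by rw [hN]; exact Subgroup.le_normalizer hu
    exact N.mul_mem (N.inv_mem (N.mul_mem huN hgN)) hgN

/-- Let P be a Sylow p-subgroup of order p of a finite group G, and consider the action of G on the left cosets of the normalizer N of P. Then every element of order p fixes exactly one coset, and an element of N that does not centralize P fixes at most as many cosets as there are orbits of P. -/
theorem result {G : Type*} [Group G] [Finite G] (p : ℕ) [Fact p.Prime] (P : Sylow p G) (hP : Nat.card ↥(P : Subgroup G) = p) : (∀ y : G, orderOf y = p → Nat.card (MulAction.fixedBy (G ⧸ Subgroup.normalizer ((P : Subgroup G) : Set G)) y) = 1) ∧ ∀ x : G, x ∈ Subgroup.normalizer ((P : Subgroup G) : Set G) → x ∉ Subgroup.centralizer ((P : Subgroup G) : Set G) → Nat.card (MulAction.fixedBy (G ⧸ Subgroup.normalizer ((P : Subgroup G) : Set G)) x) ≤ Nat.card (MulAction.orbitRel.Quotient ↥(P : Subgroup G) (G ⧸ Subgroup.normalizer ((P : Subgroup G) : Set G)))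 := by
  exact ⟨fun y hy => part_a p P hP _ rfl y hy, fun x hx hxC => part_b p P hP _ rfl x hx hxC⟩

end Cfsg.Agent.S1018
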