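import Cfsg.Statements.S1027
-- import your own Cfsg.Agent.* helpers here
import Cfsg.Agent.Helper7.ChkOrdU
import Cfsg.Agent.Helper7.ChkUp

set_option autoImplicit false
open Cfsg

namespace Cfsg.Agent.S1027

/-- For the subgroup `U` generated by the root elements `x_r(t)` of the positive roots `r`: `|U| = q^N` over a field with `q` elements, where `N` is the number of positive roots (half the number of roots). -/
theorem result {F : Type*} [Field F] [Fintype F] (D : Cfsg.Lie.ChevalleyDatum) (hD : D ∈ [Cfsg.Lie.chevG2, Cfsg.Lie.chevB2, Cfsg.Lie.chevD4, Cfsg.Lie.chevF4, Cfsg.Lie.chevE6, Cfsg.Lie.chevE7, Cfsg.Lie.chevE8]) :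
    Nat.card (D.posUnipotent F) = Fintype.card F ^ (D.nroots / 2) := by
  obtain ⟨adj, L, V⟩ := Cfsg.Agent.Helper7.vok_of_mem hD
  exact Cfsg.Agent.Helper7.card_posU V (Cfsg.Agent.Helper7.cf_of_mem hD)

end Cfsg.Agent.S1027
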