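import Cfsg.Statements.S1031
-- import your own Cfsg.Agent.* helpers here
import Cfsg.Agent.Helper7.ChkNG

set_option autoImplicit false
open Cfsg

namespace Cfsg.Agent.S1031

/-- For a fundamental root `p = p_{i+1}` and any root `s`: `n_p x_s(t) n_p⁻¹ = x_{w_p(s)}(η t)` with a sign `η = ±1` independent of `t`, where `w_p(s)` is the reflected root (`reflectRoot`). Stated as `n_p x_s(t) = x_{w_p(s)}(η t) n_p`. -/
theorem result {F : Type*} [Field F] (D : Cfsg.Lie.ChevalleyDatum) (hD : D ∈ [Cfsg.Lie.chevG2, Cfsg.Lie.chevB2, Cfsg.Lie.chevD4, Cfsg.Lie.chevF4, Cfsg.Lie.chevE6, Cfsg.Lie.chevE7, Cfsg.Lie.chevE8]) (i s : ℕ) (hi : i < D.rank) (hs : s < D.nroots) :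
    ∃ η : ℤ, (η = 1 ∨ η = -1) ∧
      ∀ t : F, D.nMat F (D.simple i) 1 * D.x F s t = D.x F (D.reflectRoot i s) ((η : F) * t) * D.nMat F (D.simple i) 1 := by
  have h := Cfsg.Agent.Helper7.fdOK_of_mem hD
  have hn := Cfsg.Agent.Helper7.nOK_of_mem hD
  have hg := Cfsg.Agent.Helper7.gOK_of_mem hD
  refine ⟨Cfsg.Agent.Helper7.nsgn D i s, Cfsg.Agent.Helper7.sg_cases _, fun t => ?_⟩
  rw [← Cfsg.Agent.Helper7.frefl_eq h, ← Cfsg.Agent.Helper7.fw_eq hn hi hs]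
  exact Cfsg.Agent.Helper7.nconj h hn hg hi hs t

end Cfsg.Agent.S1031
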