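import Cfsg.Statements.S1041
-- import your own Cfsg.Agent.* helpers here
import Cfsg.Agent.Helper7.ChevBasic

set_option autoImplicit false
open Cfsg

namespace Cfsg.Agent.S1041

/-- `U` and `V` generate the whole Chevalley group. -/
theorem result {F : Type*} [Field F] (D : Cfsg.Lie.ChevalleyDatum) (hD : D ∈ [Cfsg.Lie.chevG2, Cfsg.Lie.chevB2, Cfsg.Lie.chevD4, Cfsg.Lie.chevF4, Cfsg.Lie.chevE6, Cfsg.Lie.chevE7, Cfsg.Lie.chevE8]) : D.posUnipotent F ⊔ D.negUnipotent F = D.group F := by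
  have hpn := Cfsg.Agent.Helper7.posnegOK_of_mem hD
  apply le_antisymm
  · apply sup_le
    · apply Subgroup.closure_mono
      rintro g ⟨r, t, hr, hg⟩
      exact ⟨⟨r, hr.1⟩, t, by rw [hg, Cfsg.Agent.Helper7.x_of_lt D F hr.1]⟩
    · apply Subgroup.closure_mono
      rintro g ⟨r, t, hr, hg⟩
      exact ⟨⟨r, hr.1⟩, t, by rw [hg, Cfsg.Agent.Helper7.x_of_lt D F hr.1]⟩
  · unfold Cfsg.Lie.ChevalleyDatum.group
    rw [Subgroup.closure_le]
    rintro g ⟨r, t, hg⟩
    rcases Cfsg.Agent.Helper7.posnegOK_spec hpn r.isLt with h | h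
    · apply Subgroup.mem_sup_left
      apply Subgroup.subset_closure
      exact ⟨r.val, t, h, by rw [hg, Cfsg.Agent.Helper7.x_of_lt D F r.isLt]⟩
    · apply Subgroup.mem_sup_right
      apply Subgroup.subset_closure
      exact ⟨r.val, t, h, by rw [hg, Cfsg.Agent.Helper7.x_of_lt D F r.isLt]⟩

end Cfsg.Agent.S1041
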