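import Cfsg.Statements.S1054
-- import your own Cfsg.Agent.* helpers here
import Cfsg.Agent.Helper7.ChkSimple

set_option autoImplicit false
open Cfsg

namespace Cfsg.Agent.S1054

/-- The Chevalley groups of types D₄, F₄, E₆, E₇, E₈ are simple over every field. -/
theorem result {F : Type*} [Field F] (D : Cfsg.Lie.ChevalleyDatum)
    (hD : D ∈ [Cfsg.Lie.chevD4, Cfsg.Lie.chevF4, Cfsg.Lie.chevE6, Cfsg.Lie.chevE7, Cfsg.Lie.chevE8]) :
    IsSimpleGroup ↥(D.group F) ∧ ¬ IsMulCommutative ↥(D.group F) := by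
  have key : ∀ D' : Cfsg.Lie.ChevalleyDatum,
      D' ∈ [Cfsg.Lie.chevG2, Cfsg.Lie.chevB2, Cfsg.Lie.chevD4, Cfsg.Lie.chevF4,
        Cfsg.Lie.chevE6, Cfsg.Lie.chevE7, Cfsg.Lie.chevE8] →
      D'.nroots ≠ 12 → D'.nroots ≠ 8 →
      IsSimpleGroup ↥(D'.group F) ∧ ¬ IsMulCommutative ↥(D'.group F) := by
    intro D' hD' h12 h8
    apply Cfsg.Agent.Helper7.simple_of_mem hD'
    rintro (h | h)
    · exact absurd (by rw [h]; decide +kernel) h12
    · exact absurd (by rw [h]; decide +kernel) h8
  simp only [List.mem_cons, List.not_mem_nil, or_false] at hD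
  rcases hD with rfl | rfl | rfl | rfl | rfl
  · exact key _ (by simp) (by decide +kernel) (by decide +kernel)
  · exact key _ (by simp) (by decide +kernel) (by decide +kernel)
  · exact key _ (by simp) (by decide +kernel) (by decide +kernel)
  · exact key _ (by simp) (by decide +kernel) (by decide +kernel)
  · exact key _ (by simp) (by decide +kernel) (by decide +kernel)

end Cfsg.Agent.S1054
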