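import Cfsg.Statements.S1060
-- import your own Cfsg.Agent.* helpers here
import Cfsg.Agent.Helper7.ChkOrder

set_option autoImplicit false
open Cfsg

namespace Cfsg.Agent.S1060

/-- `gcd(2, q-1) · |B₂(q)| = q⁴ (q² - 1)(q⁴ - 1)`. -/
theorem result {F : Type*} [Field F] [Fintype F] {q : ℕ} (hq : Fintype.card F = q) : Nat.gcd 2 (q - 1) * Nat.card ↥(Cfsg.Lie.chevB2.group F) = q ^ 4 * (q ^ 2 - 1) * (q ^ 4 - 1) := by
  subst hq
  have h := Cfsg.Agent.Helper7.order_B2 (F := F)
  simp only [List.map_cons, List.map_nil, List.prod_cons, List.prod_nil, one_mul, mul_one] at h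
  rw [h]
  have hn : Cfsg.Lie.chevB2.nroots / 2 = 4 := by decide
  rw [hn]
  ring

end Cfsg.Agent.S1060
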