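import Cfsg.Statements.S1071
-- import your own Cfsg.Agent.* helpers here
import Cfsg.Agent.Helper7.ChkTwSimple

set_option autoImplicit false
open Cfsg

namespace Cfsg.Agent.S1071

/-- ³D₄(q) is simple for every `q`. -/
theorem result {K : Type*} [Field K] [Fintype K] {q : ℕ} (hq : IsPrimePow q) (hK : Fintype.card K = q ^ 3) :
    IsSimpleGroup ↥(Cfsg.Lie.twistedD4 K q) ∧ ¬ IsMulCommutative ↥(Cfsg.Lie.twistedD4 K q) := by
  exact Cfsg.Agent.Helper7.simple_3D4 hq hK

end Cfsg.Agent.S1071
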