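import Cfsg.Statements.S1093
import Cfsg.Agent.Helper8.CoxDataE2

set_option autoImplicit false
open Cfsg

namespace Cfsg.Agent.S1093

open Cfsg.Agent.Helper8.Cox in
/-- `|W(E₆)| = 51840`, `|W(E₇)| = 2903040`, `|W(E₈)| = 696729600` for Mathlib's presented Coxeter groups. -/
theorem result (p : (Σ n : ℕ, CoxeterMatrix (Fin n)) × ℕ)
    (hp : p ∈ [(⟨6, CoxeterMatrix.E₆⟩, 51840), (⟨7, CoxeterMatrix.E₇⟩, 2903040), (⟨8, CoxeterMatrix.E₈⟩, 696729600)]) :
    Nat.card p.1.2.Group = p.2 := by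
  simp only [List.mem_cons, List.mem_nil_iff, or_false] at hp
  rcases hp with rfl | rfl | rfl
  · exact E6_main.1
  · exact E7_main.1
  · exact E8_main.1

end Cfsg.Agent.S1093
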