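import Cfsg.Statements.S1096
-- import your own Cfsg.Agent.* helpers here
import Cfsg.Agent.Helper7.ChkW

set_option autoImplicit false
open Cfsg

namespace Cfsg.Agent.S1096

/-- `n_p h_{p_j}(t) n_p⁻¹ = h_{w_p(p_j)}(t)` for fundamental `p`, `p_j` and `t ≠ 0`, stated as `n_p h_{p_j}(t) = h_{w_p(p_j)}(t) n_p`. -/
theorem result {F : Type*} [Field F] (D : Cfsg.Lie.ChevalleyDatum) (hD : D ∈ [Cfsg.Lie.chevG2, Cfsg.Lie.chevB2, Cfsg.Lie.chevD4, Cfsg.Lie.chevF4, Cfsg.Lie.chevE6, Cfsg.Lie.chevE7, Cfsg.Lie.chevE8]) (i j : ℕ) (hi : i < D.rank) (hj : j < D.rank) (t : F) (ht : t ≠ 0) :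
    D.nMat F (D.simple i) 1 * D.hMat F (D.simple j) t = D.hMat F (D.reflectRoot i (D.simple j)) t * D.nMat F (D.simple i) 1 := by
  have W : Cfsg.Agent.Helper7.WOK D := Cfsg.Agent.Helper7.wok_of_mem hD
  obtain ⟨hp, hnp⟩ := Cfsg.Agent.Helper7.simple_lt W.fd W.n hj
  have hm : ∀ c : Fˣ, D.hMat F (D.simple j) (c : F) =
      (Cfsg.Agent.Helper7.DgU D (fun u => c ^ Cfsg.Agent.Helper7.Bm D
        (fun k => if k = j then 1 else 0) u) : Matrix D.Idx D.Idx F) := by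
    intro c
    rw [Cfsg.Agent.Helper7.hMat_simple_U W.fd W.hc hj c]
    exact congrArg Units.val (Cfsg.Agent.Helper7.DgU_congr D
      (fun u _ => by rw [Cfsg.Agent.Helper7.Bm_single D hj]))
  have h2 := Cfsg.Agent.Helper7.hMat_step W hi hp _ hm
  obtain ⟨c, rfl⟩ : ∃ c : Fˣ, (c : F) = t := ⟨Units.mk0 t ht, rfl⟩
  rw [← Cfsg.Agent.Helper7.frefl_eq W.fd, ← Cfsg.Agent.Helper7.fw_eq W.n hi hp, h2 c, hm c]
  exact Cfsg.Agent.Helper7.nDg W.fd W.n hi _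

end Cfsg.Agent.S1096
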