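import Cfsg.Statements.S1118
import Cfsg.Agent.Helper8.RankOne

set_option autoImplicit false
open Cfsg

namespace Cfsg.Agent.S1118

open Cfsg.Agent.Helper8 in
/-- In the rank-one set-up (`G` finite and doubly transitive on `Ω`, `t` an involution moving `a`, `Q` normal in `G_a` with `G_a = Q D`, `Q ⊓ D = 1` for the two-point stabiliser `D = G_a ⊓ G_{t • a}`, `|Q|` even, `|D|` odd), the normaliser of a subset of `Q` containing a non-identity element lies in `G_a`; consequently `N_G(Q) = N_G(G_a) = G_a`. -/
theorem result {G Ω : Type*} [Group G] [Finite G] [MulAction G Ω] {a : Ω} {t : G} {Q : Subgroup G}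
    (hS : Cfsg.IsRankOneSetup G Ω a t Q) :
    (∀ X : Set G, X ⊆ (Q : Set G) → (∃ x ∈ X, x ≠ 1) → Subgroup.normalizer X ≤ MulAction.stabilizer G a) ∧
      Subgroup.normalizer (Q : Set G) = MulAction.stabilizer G a ∧
      Subgroup.normalizer (MulAction.stabilizer G a : Set G) = MulAction.stabilizer G a := by
  have key : ∀ X : Set G, X ⊆ (Q : Set G) → (∃ x ∈ X, x ≠ 1) →
      Subgroup.normalizer X ≤ MulAction.stabilizer G a := by
    intro X hXQ ⟨x, hx, hx1⟩ n hn
    rw [MulAction.mem_stabilizer_iff]
    by_contra hna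
    have h1 : n * x * n⁻¹ ∈ X := (hn x).mp hx
    have h2 : (n * x * n⁻¹) • (n • a) = n • a := by
      rw [mul_smul, mul_smul, inv_smul_smul, r1_Q_fix hS (hXQ hx)]
    have h3 := r1_Q_free hS (hXQ h1) hna h2
    apply hx1
    calc x = n⁻¹ * (n * x * n⁻¹) * n := by group
      _ = 1 := by rw [h3]; group
  refine ⟨key, ?_, ?_⟩
  · apply le_antisymm
    · exact key _ (le_refl _) (r1_Q_ne_bot hS)
    · exact r1_stab_le_normalizer hS
  · apply le_antisymm
    · intro n hn
      obtain ⟨x, hx, hx1⟩ := r1_Q_ne_bot hS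
      rw [MulAction.mem_stabilizer_iff]
      by_contra hna
      have h1 : n⁻¹ * x * n ∈ MulAction.stabilizer G a :=
        (Subgroup.mem_normalizer_iff''.mp hn x).mp (hS.le hx)
      have h2 : x • (n • a) = n • a := by
        have := MulAction.mem_stabilizer_iff.mp h1
        rw [mul_smul, mul_smul, inv_smul_eq_iff] at this
        exact this
      exact hx1 (r1_Q_free hS hx hna h2)
    · exact Subgroup.le_normalizer

end Cfsg.Agent.S1118
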