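import Cfsg.Statements.S1120
import Cfsg.Agent.Helper8.RankOne3

set_option autoImplicit false
open Cfsg

namespace Cfsg.Agent.S1120

open Cfsg.Agent.Helper8 in
/-- In the rank-one set-up (`G` finite and doubly transitive on `Ω`, `t` an involution moving `a`, `Q` normal in `G_a` with `G_a = Q D`, `Q ⊓ D = 1` for the two-point stabiliser `D = G_a ⊓ G_{t • a}`, `|Q|` even, `|D|` odd), if `G` has 2-rank at least 2 then `O_{2'}(G)` equals the normal core of `G_a`. -/
theorem result {G Ω : Type*} [Group G] [Finite G] [MulAction G Ω] {a : Ω} {t : G} {Q : Subgroup G}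
    (hS : Cfsg.IsRankOneSetup G Ω a t Q)
    (h2 : ∃ x y : G, x ≠ 1 ∧ y ≠ 1 ∧ x ≠ y ∧ x * x = 1 ∧ y * y = 1 ∧ x * y = y * x) :
    Cfsg.pPrimeCore 2 G = (MulAction.stabilizer G a).normalCore := by
  apply le_antisymm
  · apply sSup_le
    rintro M ⟨hMn, hMc⟩
    have hodd : Odd (Nat.card M) := Nat.coprime_two_right.mp hMc
    have := hMn
    exact Subgroup.normal_le_normalCore.mpr (r1_odd_normal_le hS h2 hMn hodd)
  · apply le_sSup
    refine ⟨inferInstance, ?_⟩
    have hle : (MulAction.stabilizer G a).normalCore ≤ r1D G a t := by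
      intro n hn
      rw [r1_mem_D_iff]
      have hna : n • a = a := MulAction.mem_stabilizer_iff.mp (Subgroup.normalCore_le _ hn)
      refine ⟨hna, ?_⟩
      have hn' : t⁻¹ * n * t⁻¹⁻¹ ∈ (MulAction.stabilizer G a).normalCore :=
        (Subgroup.normalCore_normal (MulAction.stabilizer G a)).conj_mem n hn t⁻¹
      have := MulAction.mem_stabilizer_iff.mp (Subgroup.normalCore_le _ hn')
      rw [inv_inv, mul_smul, mul_smul, inv_smul_eq_iff] at this
      exact this
    have hdvd := Subgroup.card_dvd_of_le hle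
    have hodd : Odd (Nat.card ↥(MulAction.stabilizer G a).normalCore) :=
      hS.odd_card.of_dvd_nat hdvd
    exact Nat.coprime_two_right.mpr hodd

end Cfsg.Agent.S1120
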