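import Cfsg.Statements.S1121
import Cfsg.Agent.Helper8.RankOne

set_option autoImplicit false
open Cfsg

namespace Cfsg.Agent.S1121

open Cfsg.Agent.Helper8 in
/-- In the rank-one set-up (`G` finite and doubly transitive on `Ω`, `t` an involution moving `a`, `Q` normal in `G_a` with `G_a = Q D`, `Q ⊓ D = 1` for the two-point stabiliser `D = G_a ⊓ G_{t • a}`, `|Q|` even, `|D|` odd): if `s` is an involution of `G_a` and `u` an involution outside `G_a`, then `s u` has odd order; and any two involutions of `G` are conjugate. -/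
theorem result {G Ω : Type*} [Group G] [Finite G] [MulAction G Ω] {a : Ω} {t : G} {Q : Subgroup G}
    (hS : Cfsg.IsRankOneSetup G Ω a t Q) :
    (∀ s u : G, s ∈ MulAction.stabilizer G a → s ≠ 1 → s * s = 1 → u ∉ MulAction.stabilizer G a → u ≠ 1 → u * u = 1 → Odd (orderOf (s * u))) ∧
      ∀ u v : G, u ≠ 1 → u * u = 1 → v ≠ 1 → v * v = 1 → ∃ g : G, g * u * g⁻¹ = v := by
  have huf := r1_uf hS
  constructor
  · intro s u hs hs1 hss hu hu1 huu
    have hsa := MulAction.mem_stabilizer_iff.mp hs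
    rcases invol_dichotomy hss huu (orderOf_pos _) with ⟨j, hj, -⟩ | ⟨k, -, hc1, hcc, hsc, huc⟩
    · rw [hj]; exact odd_two_mul_add_one j
    · exfalso
      obtain ⟨y, hy, -⟩ := huf u hu1 huu
      have h1 : (s * u) ^ k • a = a := commute_fix huf hs1 hss hsc hsa
      have h2 : (s * u) ^ k • y = y := commute_fix huf hu1 huu huc hy
      have h3 : a = y := uf_eq huf hc1 hcc h1 h2
      apply hu
      rw [MulAction.mem_stabilizer_iff, h3]; exact hy
  · intro u v hu1 huu hv1 hvv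
    obtain ⟨x, hx, -⟩ := huf u hu1 huu
    obtain ⟨y, hy, -⟩ := huf v hv1 hvv
    have key : ∀ (u v : G) (x y : Ω), u ∈ invFix G x → v ∈ invFix G y → x ≠ y →
        ∃ g : G, g * u * g⁻¹ = v := by
      intro u v x y hu hv hxy
      obtain ⟨w, -, h1, -, -⟩ := exists_invSwap huf hxy hu hv
      exact ⟨w, h1⟩
    by_cases hxy : x = y
    · subst hxy
      obtain ⟨z, hz⟩ : ∃ z : Ω, z ≠ x := by
        by_cases hxa : x = a
        · exact ⟨t • a, by rw [hxa]; exact r1_b_ne hS⟩
        · exact ⟨a, Ne.symm hxa⟩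
      obtain ⟨g, hg⟩ := r1_trans hS x z
      have hu' : g * u * g⁻¹ ∈ invFix G z := invFix_conj hg ⟨hu1, huu, hx⟩
      obtain ⟨g₂, hg₂⟩ := key _ v z x hu' ⟨hv1, hvv, hy⟩ hz
      refine ⟨g₂ * g, ?_⟩
      rw [← hg₂]; group
    · exact key u v x y ⟨hu1, huu, hx⟩ ⟨hv1, hvv, hy⟩ hxy

end Cfsg.Agent.S1121
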