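import Cfsg.Statements.S1124
import Cfsg.Agent.Helper8.OddInv

set_option autoImplicit false
open scoped Pointwise
open Cfsg

namespace Cfsg.Agent.S1124

open Cfsg.Agent.Helper8 in
/-- Let `t` be an element of order 2 of a finite group normalising a subgroup `X` of odd order, `Y = C_X(t)` and `Z` the set of elements of `X` inverted by `t`. Then `(y, z) ↦ y z` is a bijection `Y × Z → X`, so `|X| = |Y| |Z|`, and the subgroup generated by `Z` is normal in `X`. -/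
theorem result {M : Type*} [Group M] [Finite M]
    (t : M) (ht : orderOf t = 2) (X : Subgroup M) (hodd : Odd (Nat.card X))
    (hnorm : ∀ x ∈ X, t * x * t⁻¹ ∈ X) :
    (∀ x ∈ X, ∃! p : M × M, p.1 ∈ X ⊓ Subgroup.centralizer {t} ∧ p.2 ∈ Cfsg.invertedBy X t ∧ x = p.1 * p.2) ∧
      Nat.card X = Nat.card ↥(X ⊓ Subgroup.centralizer {t}) * Nat.card (Cfsg.invertedBy X t) ∧
      ∀ x ∈ X, MulAut.conj x • Subgroup.closure (Cfsg.invertedBy X t) = Subgroup.closure (Cfsg.invertedBy X t) := by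
  have htt : t * t = 1 := by
    have := pow_orderOf_eq_one t
    rwa [ht, pow_two] at this
  have hti : t⁻¹ = t := inv_eq_of_mul_eq_one_left htt
  have memC : ∀ y : M, y ∈ X ⊓ Subgroup.centralizer {t} ↔ y ∈ X ∧ t * y * t⁻¹ = y := by
    intro y
    rw [Subgroup.mem_inf, Subgroup.mem_centralizer_iff]
    simp only [Set.mem_singleton_iff, forall_eq]
    constructor
    · rintro ⟨h1, h2⟩; exact ⟨h1, by rw [h2]; group⟩
    · rintro ⟨h1, h2⟩
      refine ⟨h1, ?_⟩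
      calc t * y = (t * y * t⁻¹) * t := by group
        _ = y * t := by rw [h2]
  have memI : ∀ z : M, z ∈ Cfsg.invertedBy X t ↔ z ∈ X ∧ t * z * t⁻¹ = z⁻¹ := fun z => Iff.rfl
  have key : ∀ x ∈ X, ∃! p : M × M, p.1 ∈ X ⊓ Subgroup.centralizer {t} ∧ p.2 ∈ Cfsg.invertedBy X t ∧ x = p.1 * p.2 := by
    intro x hx
    obtain ⟨y, z, hy, hyt, hz, hzt, hxyz⟩ := odd_inv_decomp_exists t htt X hodd hnorm x hx
    refine ⟨(y, z), ⟨(memC y).mpr ⟨hy, hyt⟩, (memI z).mpr ⟨hz, hzt⟩, hxyz⟩, ?_⟩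
    rintro ⟨y', z'⟩ ⟨h1, h2, h3⟩
    obtain ⟨hy', hyt'⟩ := (memC y').mp h1
    obtain ⟨hz', hzt'⟩ := (memI z').mp h2
    simp only at h3
    obtain ⟨e1, e2⟩ := odd_inv_decomp_unique t htt X hodd hyt' hz' hzt' hyt hz hzt (h3.symm.trans hxyz)
    rw [e1, e2]
  refine ⟨key, ?_, ?_⟩
  · -- cardinality
    let f : ↥(X ⊓ Subgroup.centralizer {t}) × ↥(Cfsg.invertedBy X t) → X :=
      fun p => ⟨p.1.1 * p.2.1, X.mul_mem ((memC _).mp p.1.2).1 ((memI _).mp p.2.2).1⟩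
    have hf : Function.Bijective f := by
      constructor
      · rintro ⟨⟨y, hy⟩, ⟨z, hz⟩⟩ ⟨⟨y', hy'⟩, ⟨z', hz'⟩⟩ h
        have h' : y * z = y' * z' := congrArg Subtype.val h
        obtain ⟨e1, e2⟩ := odd_inv_decomp_unique t htt X hodd ((memC y).mp hy).2 ((memI z).mp hz).1
          ((memI z).mp hz).2 ((memC y').mp hy').2 ((memI z').mp hz').1 ((memI z').mp hz').2 h'
        subst e1; subst e2; rfl
      · rintro ⟨x, hx⟩
        obtain ⟨y, z, hy, hyt, hz, hzt, hxyz⟩ := odd_inv_decomp_exists t htt X hodd hnorm x hx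
        exact ⟨(⟨y, (memC y).mpr ⟨hy, hyt⟩⟩, ⟨z, (memI z).mpr ⟨hz, hzt⟩⟩), Subtype.ext hxyz.symm⟩
    rw [← Nat.card_prod]
    exact (Nat.card_congr (Equiv.ofBijective f hf)).symm
  · intro x hx
    obtain ⟨y, z, hy, hyt, hz, hzt, hxyz⟩ := odd_inv_decomp_exists t htt X hodd hnorm x hx
    have hzmem : z ∈ Subgroup.closure (Cfsg.invertedBy X t) :=
      Subgroup.subset_closure ((memI z).mpr ⟨hz, hzt⟩)
    have conjy : ∀ y : M, y ∈ X → t * y * t⁻¹ = y → ∀ v ∈ Cfsg.invertedBy X t, y * v * y⁻¹ ∈ Cfsg.invertedBy X t := by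
      intro y hy hyt v hv
      obtain ⟨hv1, hv2⟩ := (memI v).mp hv
      refine (memI _).mpr ⟨X.mul_mem (X.mul_mem hy hv1) (X.inv_mem hy), ?_⟩
      calc t * (y * v * y⁻¹) * t⁻¹ = (t * y * t⁻¹) * (t * v * t⁻¹) * (t * y * t⁻¹)⁻¹ := by group
        _ = (y * v * y⁻¹)⁻¹ := by rw [hyt, hv2]; group
    have hyset : MulAut.conj y • (Cfsg.invertedBy X t) = Cfsg.invertedBy X t := by
      ext v
      constructor
      · rintro ⟨u, hu, rfl⟩
        exact conjy y hy hyt u hu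
      · intro hv
        refine ⟨y⁻¹ * v * y, ?_, ?_⟩
        · have hyt' : t * y⁻¹ * t⁻¹ = y⁻¹ := by
            calc t * y⁻¹ * t⁻¹ = (t * y * t⁻¹)⁻¹ := by group
              _ = y⁻¹ := by rw [hyt]
          have := conjy y⁻¹ (X.inv_mem hy) hyt' v hv
          simpa using this
        · simp [MulAut.smul_def, mul_assoc]
    rw [hxyz, map_mul, mul_smul, Subgroup.conj_smul_eq_self_of_mem hzmem, Subgroup.smul_closure, hyset]

end Cfsg.Agent.S1124
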