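import Cfsg.Statements.S1127
import Cfsg.Agent.Helper8.RankOne2

set_option autoImplicit false
open Cfsg

namespace Cfsg.Agent.S1127

open Cfsg.Agent.Helper8 in
/-- In the rank-one set-up (`G` finite and doubly transitive on `Ω`, `t` an involution moving `a`, `Q` normal in `G_a` with `G_a = Q D`, `Q ⊓ D = 1` for the two-point stabiliser `D = G_a ⊓ G_{t • a}`, `|Q|` even, `|D|` odd): if `s` is an involution of `G_a` and `r ∈ Q` satisfy `t s t = r⁻¹ t r`, then `C_D(t) = C_D(s)`; moreover `C_D(t) ⊓ C_D(K) = C_D(I ∩ G_a)`, where `K` is the set of elements of `D` inverted by `t` and `I ∩ G_a` the set of involutions of `G_a`. -/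
theorem result {G Ω : Type*} [Group G] [Finite G] [MulAction G Ω] {a : Ω} {t : G} {Q : Subgroup G}
    (hS : Cfsg.IsRankOneSetup G Ω a t Q) :
    (∀ s r : G, s ∈ Cfsg.involutionsIn (MulAction.stabilizer G a : Set G) → r ∈ Q → t * s * t = r⁻¹ * t * r →
        (MulAction.stabilizer G a ⊓ MulAction.stabilizer G (t • a)) ⊓ Subgroup.centralizer {t} = (MulAction.stabilizer G a ⊓ MulAction.stabilizer G (t • a)) ⊓ Subgroup.centralizer {s}) ∧
      (MulAction.stabilizer G a ⊓ MulAction.stabilizer G (t • a)) ⊓ Subgroup.centralizer {t} ⊓ Subgroup.centralizer (Cfsg.invertedBy (MulAction.stabilizer G a ⊓ MulAction.stabilizer G (t • a)) t) =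
        (MulAction.stabilizer G a ⊓ MulAction.stabilizer G (t • a)) ⊓ Subgroup.centralizer (Cfsg.involutionsIn (MulAction.stabilizer G a : Set G)) := by
  constructor
  · intro s r hs hr h
    have hs' := (r1_invIn_iff s).mp hs
    have hR : r1R Q a t s := ⟨hs', r, hr, h⟩
    ext d
    constructor
    · intro hd
      obtain ⟨hdD, hdt⟩ := Subgroup.mem_inf.mp hd
      refine Subgroup.mem_inf.mpr ⟨hdD, ?_⟩
      rw [Subgroup.mem_centralizer_iff]
      intro x hx
      rw [Set.mem_singleton_iff] at hx
      rw [hx]
      have h1 : t * d = d * t := Subgroup.mem_centralizer_iff.mp hdt t rfl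
      exact ((r1_cent_iff hS (r1_t_swap hS) hR hdD).mp h1.symm).symm
    · intro hd
      obtain ⟨hdD, hds⟩ := Subgroup.mem_inf.mp hd
      refine Subgroup.mem_inf.mpr ⟨hdD, ?_⟩
      rw [Subgroup.mem_centralizer_iff]
      intro x hx
      rw [Set.mem_singleton_iff] at hx
      rw [hx]
      have h1 : s * d = d * s := Subgroup.mem_centralizer_iff.mp hds s rfl
      exact ((r1_cent_iff hS (r1_t_swap hS) hR hdD).mpr h1.symm).symm
  · ext d
    constructor
    · intro hd
      obtain ⟨hd', hdK⟩ := Subgroup.mem_inf.mp hd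
      obtain ⟨hdD, hdt⟩ := Subgroup.mem_inf.mp hd'
      refine Subgroup.mem_inf.mpr ⟨hdD, ?_⟩
      rw [Subgroup.mem_centralizer_iff]
      intro s hs
      have hs' := (r1_invIn_iff s).mp hs
      obtain ⟨w, hw, hR⟩ := r1R_surj hS hs'
      have hk : t * w ∈ Cfsg.invertedBy (r1D G a t) t :=
        (r1_K_iff hS _).mpr (by rw [r1_tt_mul hS]; exact hw)
      have h1 : t * d = d * t := Subgroup.mem_centralizer_iff.mp hdt t rfl
      have h2 : (t * w) * d = d * (t * w) := Subgroup.mem_centralizer_iff.mp hdK _ hk
      have h3 : d * w = w * d := by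
        calc d * w = d * (t * (t * w)) := by rw [r1_tt_mul hS]
          _ = (d * t) * (t * w) := by group
          _ = (t * d) * (t * w) := by rw [h1]
          _ = t * (d * (t * w)) := by group
          _ = t * ((t * w) * d) := by rw [h2]
          _ = (t * (t * w)) * d := by group
          _ = w * d := by rw [r1_tt_mul hS]
      exact ((r1_cent_iff hS hw hR hdD).mp h3).symm
    · intro hd
      obtain ⟨hdD, hdI⟩ := Subgroup.mem_inf.mp hd
      have hall : ∀ w ∈ invSwap G a (t • a), d * w = w * d := by
        intro w hw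
        obtain ⟨s, hR⟩ := r1R_exists (r1_setup_swap hS hw)
        have hs : s ∈ Cfsg.involutionsIn (MulAction.stabilizer G a : Set G) :=
          (r1_invIn_iff s).mpr hR.1
        have := Subgroup.mem_centralizer_iff.mp hdI s hs
        exact (r1_cent_iff hS hw hR hdD).mpr this.symm
      refine Subgroup.mem_inf.mpr ⟨Subgroup.mem_inf.mpr ⟨hdD, ?_⟩, ?_⟩
      · rw [Subgroup.mem_centralizer_iff]
        intro x hx
        rw [Set.mem_singleton_iff] at hx
        rw [hx]
        exact (hall t (r1_t_swap hS)).symm
      · rw [Subgroup.mem_centralizer_iff]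
        intro k hk
        have hw := (r1_K_iff hS k).mp hk
        have h1 := hall t (r1_t_swap hS)
        have h2 := hall _ hw
        calc k * d = t * (t * k) * d := by rw [r1_tt_mul hS]
          _ = t * ((t * k) * d) := by group
          _ = t * (d * (t * k)) := by rw [h2]
          _ = (t * d) * (t * k) := by group
          _ = (d * t) * (t * k) := by rw [h1]
          _ = d * (t * (t * k)) := by group
          _ = d * k := by rw [r1_tt_mul hS]

end Cfsg.Agent.S1127
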