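import Cfsg.Statements.S1128
import Cfsg.Agent.Helper8.RankOne3

set_option autoImplicit false
open Cfsg

namespace Cfsg.Agent.S1128

open Cfsg.Agent.Helper8 in
/-- In the rank-one set-up (`G` finite and doubly transitive on `Ω`, `t` an involution moving `a`, `Q` normal in `G_a` with `G_a = Q D`, `Q ⊓ D = 1` for the two-point stabiliser `D = G_a ⊓ G_{t • a}`, `|Q|` even, `|D|` odd), with the action faithful and `G` containing two distinct commuting involutions: every non-identity element of `D` inverted by `t` acts fixed-point-freely on `Q`. -/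
theorem result {G Ω : Type*} [Group G] [Finite G] [MulAction G Ω] [FaithfulSMul G Ω] {a : Ω} {t : G} {Q : Subgroup G}
    (hS : Cfsg.IsRankOneSetup G Ω a t Q)
    (h2 : ∃ x y : G, x ≠ 1 ∧ y ≠ 1 ∧ x ≠ y ∧ x * x = 1 ∧ y * y = 1 ∧ x * y = y * x)
    (x : G) (hx : x ∈ Cfsg.invertedBy (MulAction.stabilizer G a ⊓ MulAction.stabilizer G (t • a)) t) (hx1 : x ≠ 1) :
    Q ⊓ Subgroup.centralizer {x} = ⊥ := by
  by_contra hne
  obtain ⟨q, hq, hq1⟩ : ∃ q ∈ Q ⊓ Subgroup.centralizer {x}, q ≠ 1 := by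
    by_contra hcon
    apply hne
    rw [Subgroup.eq_bot_iff_forall]
    intro q hq
    by_contra h1
    exact hcon ⟨q, hq, h1⟩
  obtain ⟨hqQ, hqC⟩ := Subgroup.mem_inf.mp hq
  have hxq : x * q = q * x := Subgroup.mem_centralizer_iff.mp hqC x rfl
  obtain ⟨hxD, hxt⟩ := hx
  have hX : ({x} : Set G) ⊆ (r1D G a t : Set G) := by
    intro y hy
    rw [Set.mem_singleton_iff] at hy
    rw [hy]; exact hxD
  have hqb : q • (t • a) ≠ t • a := fun h => hq1 (r1_Q_inter hS hqQ h)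
  have hqa : q • (t • a) ≠ a := by
    intro h
    apply r1_b_ne hS
    have : q • (t • a) = q • a := by rw [h, r1_Q_fix hS hqQ]
    exact smul_left_cancel q this
  have h3 : ∃ b c d : Ω, b ≠ c ∧ b ≠ d ∧ c ≠ d ∧
      ∀ y ∈ ({x} : Set G), y • b = b ∧ y • c = c ∧ y • d = d := by
    refine ⟨a, t • a, q • (t • a), (r1_b_ne hS).symm, Ne.symm hqa, Ne.symm hqb, ?_⟩
    intro y hy
    rw [Set.mem_singleton_iff] at hy
    rw [hy]
    refine ⟨r1_D_fix_a hS hxD, r1_D_fix_b hS hxD, ?_⟩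
    rw [← mul_smul, hxq, mul_smul, r1_D_fix_b hS hxD]
  have heven := r1_cent_Q_even hS {x} hX h3
  obtain ⟨z, hz, hz1, hzz⟩ := exists_invol_of_even _ heven
  obtain ⟨hzC, hzQ⟩ := Subgroup.mem_inf.mp hz
  have hxz : x * z = z * x := Subgroup.mem_centralizer_iff.mp hzC x rfl
  obtain ⟨j, hj⟩ := r1_odd_order hS hz1 hzz (r1_Q_fix hS hzQ) hS.ne_one hS.mul_self (r1_b_ne hS)
  have hr : (z * t) ^ (2 * j + 1) = 1 := by rw [← hj]; exact pow_orderOf_eq_one _
  have hconj : (z * t) * x * (z * t)⁻¹ = x⁻¹ := by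
    calc (z * t) * x * (z * t)⁻¹ = z * (t * x * t⁻¹) * z⁻¹ := by group
      _ = z * x⁻¹ * z⁻¹ := by rw [hxt]
      _ = (z * x * z⁻¹)⁻¹ := by group
      _ = (x * z * z⁻¹)⁻¹ := by rw [hxz]
      _ = x⁻¹ := by group
  have hxx := sq_eq_one_of_conj_inv_of_odd hconj hr
  exact hx1 (eq_one_of_sq_of_odd_card _ hS.odd_card hxD hxx)

end Cfsg.Agent.S1128
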