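import Cfsg.Statements.S1137
import Cfsg.Agent.Helper8.SuzTwo

set_option autoImplicit false
open Cfsg

namespace Cfsg.Agent.S1137

open Cfsg.Agent.Helper8 in
/-- In a Suzuki 2-group `P` (a finite non-abelian 2-group with more than one involution admitting a cyclic group of automorphisms regular on its involutions) the involutions are exactly the non-identity central elements, and `Z(P)` is elementary abelian. -/
theorem result {P : Type*} [Group P] (hP : Cfsg.IsSuzukiTwoGroup P) :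
    (∀ x : P, (x ≠ 1 ∧ x * x = 1) ↔ (x ∈ Subgroup.center P ∧ x ≠ 1)) ∧
      ∀ z ∈ Subgroup.center P, z * z = 1 := by

  obtain ⟨hfin, h2, hnab, -, K, hKc, hreg⟩ := hP
  haveI : Finite P := hfin
  haveI : Nontrivial P := by
    obtain ⟨x, y, hxy⟩ := hnab
    exact ⟨⟨x * y, y * x, hxy⟩⟩
  have htr : ∀ x y : P, x ≠ 1 → x * x = 1 → y ≠ 1 → y * y = 1 → ∃ k ∈ K, k x = y := by
    intro x y hx1 hx2 hy1 hy2
    obtain ⟨k, hk, -⟩ := hreg x y hx1 hx2 hy1 hy2
    exact ⟨k.1, k.2, hk⟩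
  have hfree : ∀ k ∈ K, ∀ x : P, x ≠ 1 → x * x = 1 → k x = x → k = 1 := by
    intro k hk x hx1 hx2 hkx
    have h := (hreg x x hx1 hx2 hx1 hx2).unique (y₁ := ⟨k, hk⟩) (y₂ := 1) hkx rfl
    exact congrArg Subtype.val h
  have hcomm : ∀ a ∈ K, ∀ b ∈ K, a * b = b * a := by
    intro a ha b hb
    obtain ⟨g, hg⟩ := IsCyclic.exists_generator (α := K)
    obtain ⟨i, hi⟩ := Subgroup.mem_zpowers_iff.1 (hg ⟨a, ha⟩)
    obtain ⟨j, hj⟩ := Subgroup.mem_zpowers_iff.1 (hg ⟨b, hb⟩)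
    have h : (⟨a, ha⟩ : K) * ⟨b, hb⟩ = ⟨b, hb⟩ * ⟨a, ha⟩ := by
      rw [← hi, ← hj, ← zpow_add, ← zpow_add, add_comm]
    exact congrArg Subtype.val h
  have hic : ∀ x : P, x * x = 1 → x ∈ Subgroup.center P :=
    fun x hx => suz_inv_central h2 K htr x hx
  have hmain := suz_main (Nat.card P) P rfl h2 hnab K hcomm htr hfree
  refine ⟨fun x => ⟨fun hx => ⟨hic x hx.2, hx.1⟩, fun hx => ⟨hx.2, hmain x hx.1⟩⟩, hmain⟩

end Cfsg.Agent.S1137
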