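import Cfsg.Statements.S1139
import Cfsg.Agent.Helper8.SuzTypeA

set_option autoImplicit false
open Cfsg

namespace Cfsg.Agent.S1139

open Cfsg.Agent.Helper8 in
/-- A Suzuki 2-group `P` with `|P| = |Z(P)|²` is of type A: for some finite field `F` with `|F| = |Z(P)|` and some field automorphism `φ ≠ 1` of odd order, `P` is isomorphic to the group of lower unitriangular matrices with rows `(1,0,0)`, `(x,1,0)`, `(y, φ x, 1)`. -/
theorem result {P : Type*} [Group P] (hP : Cfsg.IsSuzukiTwoGroup P)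
    (hcard : Nat.card P = Nat.card (Subgroup.center P) ^ 2) :
    ∃ (F : Type) (_ : Field F) (_ : Fintype F) (φ : F ≃+* F), Fintype.card F = Nat.card (Subgroup.center P) ∧
      φ ≠ RingEquiv.refl F ∧ Odd (orderOf φ) ∧ Nonempty (P ≃* Cfsg.suzukiTypeA F (φ : F →+* F)) := by

  obtain ⟨hfin, h2, hnab, -, K, hKc, hreg⟩ := hP
  haveI : Finite P := hfin
  haveI : Fact (Nat.Prime 2) := ⟨Nat.prime_two⟩
  haveI : Nontrivial P := by
    obtain ⟨x, y, hxy⟩ := hnab
    exact ⟨⟨x * y, y * x, hxy⟩⟩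
  have htr : ∀ x y : P, x ≠ 1 → x * x = 1 → y ≠ 1 → y * y = 1 → ∃ k ∈ K, k x = y := by
    intro x y hx1 hx2 hy1 hy2
    obtain ⟨k, hk, -⟩ := hreg x y hx1 hx2 hy1 hy2
    exact ⟨k.1, k.2, hk⟩
  have hfree : ∀ k ∈ K, ∀ x : P, x ≠ 1 → x * x = 1 → k x = x → k = 1 := by
    intro k hk x hx1 hx2 hkx
    have h := (hreg x x hx1 hx2 hx1 hx2).unique (y₁ := ⟨k, hk⟩) (y₂ := 1) hkx rfl
    exact congrArg Subtype.val h
  have hcomm : ∀ a ∈ K, ∀ b ∈ K, a * b = b * a := by
    intro a ha b hb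
    obtain ⟨g, hg⟩ := IsCyclic.exists_generator (α := K)
    obtain ⟨i, hi⟩ := Subgroup.mem_zpowers_iff.1 (hg ⟨a, ha⟩)
    obtain ⟨j, hj⟩ := Subgroup.mem_zpowers_iff.1 (hg ⟨b, hb⟩)
    have h : (⟨a, ha⟩ : K) * ⟨b, hb⟩ = ⟨b, hb⟩ * ⟨a, ha⟩ := by
      rw [← hi, ← hj, ← zpow_add, ← zpow_add, add_comm]
    exact congrArg Subtype.val h
  obtain ⟨n, hn⟩ := (h2.to_subgroup (Subgroup.center P)).exists_card_eq
  have hn0 : n ≠ 0 := by
    rintro rfl
    haveI := IsPGroup.center_nontrivial h2 (G := P)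
    have h1 : 1 < Nat.card (Subgroup.center P) := Finite.one_lt_card_iff_nontrivial.2 inferInstance
    rw [hn, pow_zero] at h1
    exact lt_irrefl _ h1
  obtain ⟨φ, hφne, hodd, Θ, hΘinj, hΘ⟩ :=
    suz_typeA h2 hnab K hcomm htr hfree n hn0 hn (by rw [hcard, hn])
  letI : Fintype (GaloisField 2 n) := Fintype.ofFinite _
  refine ⟨GaloisField 2 n, inferInstance, inferInstance, φ, ?_, hφne, hodd, ?_⟩
  · rw [← Nat.card_eq_fintype_card, GaloisField.card 2 n hn0, hn]
  · have hmem : ∀ g, Θ g ∈ Cfsg.suzukiTypeA (GaloisField 2 n)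
        (φ : GaloisField 2 n →+* GaloisField 2 n) := fun g => by
      obtain ⟨x, y, h⟩ := hΘ g
      rw [h]; exact suzMat_mem _ x y
    have hinj' : Function.Injective (Θ.codRestrict _ hmem) :=
      fun g h hgh => hΘinj (congrArg Subtype.val hgh)
    have hcardle : Nat.card (Cfsg.suzukiTypeA (GaloisField 2 n)
        (φ : GaloisField 2 n →+* GaloisField 2 n)) ≤ Nat.card P := by
      have hf : Function.Surjective (fun p : GaloisField 2 n × GaloisField 2 n =>
          (⟨suzMat (φ : GaloisField 2 n →+* GaloisField 2 n) p.1 p.2, suzMat_mem _ _ _⟩ :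
            Cfsg.suzukiTypeA (GaloisField 2 n) (φ : GaloisField 2 n →+* GaloisField 2 n))) := by
        rintro ⟨g, hg⟩
        obtain ⟨x, y, rfl⟩ := suzMat_of_mem _ (fun x => CharTwo.add_self_eq_zero x) g hg
        exact ⟨(x, y), rfl⟩
      have h1 := Nat.card_le_card_of_surjective _ hf
      rw [Nat.card_prod, GaloisField.card 2 n hn0] at h1
      rw [hcard, hn, pow_two]; exact h1
    exact ⟨MulEquiv.ofBijective (Θ.codRestrict _ hmem) (hinj'.bijective_of_nat_card_le hcardle)⟩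

end Cfsg.Agent.S1139
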