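import Cfsg.Statements.S1140
import Cfsg.Agent.Helper8.FieldAdd

set_option autoImplicit false
open Cfsg

namespace Cfsg.Agent.S1140

open Cfsg.Agent.Helper8 in
/-- For a finite field `F` of characteristic 2, the automorphisms of `F`, viewed as additive maps `F → F`, are linearly independent over `F` (acting on values) every additive endomorphism of `F` is an `F`-linear combination of them, and every biadditive map `F → F → F` is an `F`-combination of the maps `(x, y) ↦ σ(x) τ(y)`. -/
theorem result {F : Type*} [Field F] [Fintype F] [CharP F 2] :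
    LinearIndependent F (fun σ : F ≃+* F => ((σ : F →+* F) : F → F)) ∧
      (∀ f : F →+ F, ∃ (s : Finset (F ≃+* F)) (c : (F ≃+* F) → F), ∀ x : F, f x = ∑ σ ∈ s, c σ * σ x) ∧
      ∀ B : F →+ F →+ F, ∃ (s : Finset ((F ≃+* F) × (F ≃+* F))) (c : (F ≃+* F) × (F ≃+* F) → F),
        ∀ x y : F, B x y = ∑ p ∈ s, c p * (p.1 x * p.2 y) := by
  classical
  let _ : Algebra (ZMod 2) F := ZMod.algebra F 2
  refine ⟨?_, ?_, ?_⟩
  · have h := linearIndependent_monoidHom F F
    have hinj : Function.Injective (fun σ : F ≃+* F => (σ : F →+* F).toMonoidHom) := by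
      intro σ τ h
      ext x
      exact DFunLike.congr_fun h x
    exact h.comp _ hinj
  · intro f
    obtain ⟨c', hc'⟩ := fa_add_eq_sum f
    obtain ⟨s, c, hsc⟩ := fa_sum_reindex (fun σ : F ≃ₐ[ZMod 2] F => (σ : F ≃+* F))
      (fun σ τ h => by ext x; exact DFunLike.congr_fun h x) c'
    refine ⟨s, c, fun x => ?_⟩
    rw [hc' x, hsc (fun ρ => ρ x)]
    rfl
  · intro B
    obtain ⟨c', hc'⟩ := fa_biadd_eq_sum B
    obtain ⟨s, c, hsc⟩ := fa_sum_reindex
      (fun p : (F ≃ₐ[ZMod 2] F) × (F ≃ₐ[ZMod 2] F) => ((p.1 : F ≃+* F), (p.2 : F ≃+* F)))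
      (fun p p' h => by
        have h1 := congrArg Prod.fst h
        have h2 := congrArg Prod.snd h
        apply Prod.ext
        · ext x; exact DFunLike.congr_fun h1 x
        · ext x; exact DFunLike.congr_fun h2 x) c'
    refine ⟨s, c, fun x y => ?_⟩
    rw [hc' x y, hsc (fun p => p.1 x * p.2 y)]
    rfl

end Cfsg.Agent.S1140
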