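import Cfsg.Statements.S1168
import Cfsg.Agent.Helper8.FieldAdd

set_option autoImplicit false
open Cfsg

namespace Cfsg.Agent.S1168


open Module Cfsg.Agent.Helper8 in
theorem quad_mem {F : Type*} [Field F] [Fintype F] [CharP F 2] [Algebra (ZMod 2) F] (q : F → F)
    (hq : ∀ x y z : F, q (x + y + z) + q (x + y) + q (x + z) + q (y + z) + q x + q y + q z = 0) :
    q ∈ Submodule.span F (Set.range (fun p : (F ≃ₐ[ZMod 2] F) × (F ≃ₐ[ZMod 2] F) =>
      fun x : F => p.1 x * p.2 x)) := by
  classical
  obtain ⟨𝒬, h𝒬⟩ : ∃ 𝒬 : Submodule F (F → F), 𝒬 = Submodule.span F (Set.range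
      (fun p : (F ≃ₐ[ZMod 2] F) × (F ≃ₐ[ZMod 2] F) => fun x : F => p.1 x * p.2 x)) := ⟨_, rfl⟩
  rw [← h𝒬]
  have hprod : ∀ f g : F →+ F, (fun x => f x * g x) ∈ 𝒬 := by
    intro f g
    obtain ⟨a, ha⟩ := fa_add_eq_sum f
    obtain ⟨b, hb⟩ := fa_add_eq_sum g
    have e : (fun x => f x * g x) =
        ∑ σ, ∑ τ, (a σ * b τ) • (fun x : F => σ x * τ x) := by
      ext x
      simp only [Finset.sum_apply, Pi.smul_apply, smul_eq_mul]
      rw [ha, hb, Finset.sum_mul_sum]
      apply Finset.sum_congr rfl; intro σ _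
      apply Finset.sum_congr rfl; intro τ _
      ring
    rw [e, h𝒬]
    exact Submodule.sum_mem _ (fun σ _ => Submodule.sum_mem _ (fun τ _ =>
      Submodule.smul_mem _ _ (Submodule.subset_span ⟨(σ, τ), rfl⟩)))
  have c2 : ∀ a : F, a + a = 0 := CharTwo.add_self_eq_zero
  have q0 : q 0 = 0 := by
    have h := hq 0 0 0
    simp only [add_zero] at h
    linear_combination h - 3 * c2 (q 0)
  have hBadd : ∀ u v v' : F, q (u + (v + v')) + q u + q (v + v') =
      (q (u + v) + q u + q v) + (q (u + v') + q u + q v') := by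
    intro u v v'
    have h := hq u v v'
    rw [← add_assoc]
    linear_combination h - c2 (q (u + v)) - c2 (q v) - c2 (q (u + v')) - c2 (q u) - c2 (q v')
  have hBhom : ∀ u : F, ∃ Bu : F →+ F, ∀ v, Bu v = q (u + v) + q u + q v := fun u =>
    ⟨AddMonoidHom.mk' (fun v => q (u + v) + q u + q v) (hBadd u), fun v => rfl⟩
  choose Bh hBh using hBhom
  have hz2 : ∀ c : ZMod 2, c = 0 ∨ c = 1 := by decide
  have Q1 : ∀ (c : ZMod 2) (v : F), q (c • v) =
      algebraMap (ZMod 2) F c * algebraMap (ZMod 2) F c * q v := by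
    intro c v
    rcases hz2 c with rfl | rfl
    · simp [q0]
    · simp
  have Q2 : ∀ (c d : ZMod 2) (v w : F), Bh (c • v) (d • w) =
      algebraMap (ZMod 2) F c * algebraMap (ZMod 2) F d * Bh v w := by
    intro c d v w
    rw [hBh, hBh]
    rcases hz2 c with rfl | rfl <;> rcases hz2 d with rfl | rfl
    · simp [q0]
    · simp [q0, c2]
    · simp [q0, c2]
    · simp
  obtain ⟨e⟩ : Nonempty (Basis (Fin (finrank (ZMod 2) F)) (ZMod 2) F) :=
    ⟨Module.finBasis (ZMod 2) F⟩
  have hlam : ∀ i, ∃ l : F →+ F, ∀ x, l x = algebraMap (ZMod 2) F (e.repr x i) := fun i =>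
    ⟨(algebraMap (ZMod 2) F).toAddMonoidHom.comp (e.coord i).toAddMonoidHom, fun x => rfl⟩
  choose lam hlam' using hlam
  have hind : ∀ s : Finset (Fin (finrank (ZMod 2) F)),
      (fun x => q (∑ i ∈ s, (e.repr x i) • e i)) ∈ 𝒬 := by
    intro s
    induction s using Finset.induction_on with
    | empty =>
      have : (fun x : F => q (∑ i ∈ (∅ : Finset (Fin (finrank (ZMod 2) F))),
          (e.repr x i) • e i)) = 0 := by
        ext x; simp [q0]
      rw [this]; exact Submodule.zero_mem _
    | insert a s ha ih =>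
      have key : (fun x => q (∑ i ∈ insert a s, (e.repr x i) • e i)) =
          q (e a) • (fun x => lam a x * lam a x) +
            (fun x => q (∑ i ∈ s, (e.repr x i) • e i)) +
            ∑ i ∈ s, Bh (e a) (e i) • (fun x => lam a x * lam i x) := by
        ext x
        simp only [Pi.add_apply, Pi.smul_apply, Finset.sum_apply, smul_eq_mul]
        rw [Finset.sum_insert ha]
        have hB : ∀ u v : F, q (u + v) = q u + q v + Bh u v := by
          intro u v
          rw [hBh]
          linear_combination -(c2 (q u)) - c2 (q v)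
        rw [hB, Q1, map_sum]
        simp only [Q2, hlam']
        congr 1
        · congr 1
          ring
        · apply Finset.sum_congr rfl
          intro i _
          ring
      rw [key]
      refine Submodule.add_mem _ (Submodule.add_mem _ (Submodule.smul_mem _ _ (hprod _ _)) ih)
        (Submodule.sum_mem _ (fun i _ => Submodule.smul_mem _ _ (hprod _ _)))
  have hfin := hind Finset.univ
  have : (fun x => q (∑ i, (e.repr x i) • e i)) = q := by
    ext x; rw [e.sum_repr]
  rwa [this] at hfin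

open Cfsg.Agent.Helper8 in
/-- For a finite field `F` of characteristic 2: if `q : F → F` is quadratic over the prime field, i.e. `(x, y) ↦ q (x + y) + q x + q y` is additive in each variable, then `q x = Σ c_{σ,τ} σ(x) τ(x)` for some coefficients indexed by pairs of field automorphisms. -/
theorem result {F : Type*} [Field F] [Fintype F] [CharP F 2]
    (q : F → F)
    (hq : ∀ x y z : F, q (x + y + z) + q (x + y) + q (x + z) + q (y + z) + q x + q y + q z = 0) :
    ∃ (s : Finset ((F ≃+* F) × (F ≃+* F))) (c : (F ≃+* F) × (F ≃+* F) → F),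
      ∀ x : F, q x = ∑ p ∈ s, c p * (p.1 x * p.2 x) := by
  classical
  let _ : Algebra (ZMod 2) F := ZMod.algebra F 2
  have hmem := quad_mem q hq
  obtain ⟨c', hc'⟩ := (Submodule.mem_span_range_iff_exists_fun F).mp hmem
  obtain ⟨s, c, hsc⟩ := fa_sum_reindex
    (fun p : (F ≃ₐ[ZMod 2] F) × (F ≃ₐ[ZMod 2] F) => ((p.1 : F ≃+* F), (p.2 : F ≃+* F)))
    (fun p p' h => by
      have h1 := congrArg Prod.fst h
      have h2 := congrArg Prod.snd h
      apply Prod.ext
      · ext x; exact DFunLike.congr_fun h1 x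
      · ext x; exact DFunLike.congr_fun h2 x) c'
  refine ⟨s, c, fun x => ?_⟩
  rw [hsc (fun p => p.1 x * p.2 x)]
  have h3 := congrFun hc' x
  simp only [Finset.sum_apply, Pi.smul_apply, smul_eq_mul] at h3
  rw [← h3]
  rfl

end Cfsg.Agent.S1168
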