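import Cfsg.Statements.S1176

set_option autoImplicit false
open Cfsg

namespace Cfsg.Agent.S1176

open scoped commutatorElement

theorem inv_pow_conj {G : Type*} [Group G] {x r : G} (hx : x * x = 1) (hr : x * r * x = r⁻¹) (n : ℕ) :
    x * r ^ n * x = (r ^ n)⁻¹ := by
  have hx' : x⁻¹ = x := inv_eq_of_mul_eq_one_left hx
  induction n with
  | zero => simp [hx]
  | succ n ih =>
    have : x * r ^ (n + 1) * x = (x * r ^ n * x) * (x * r * x) := by
      rw [pow_succ]
      calc x * (r ^ n * r) * x = x * r ^ n * (x * x) * r * x := by rw [hx]; group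
        _ = (x * r ^ n * x) * (x * r * x) := by group
    rw [this, ih, hr, pow_succ', mul_inv_rev]

/-- Let x₀ be an involution of the finite group G and D its conjugacy class. Assume (a) for each x ∈ D the subgroup W(x) generated by the members of D commuting with x is a 2-group of nilpotency class at most 2, and (b) the product of two distinct commuting members of D again lies in D. Then for all x, y ∈ D, if xy has even order greater than 2, its order is 4. -/
theorem result {G : Type*} [Group G] [Finite G] (x₀ : G) (hx₀ : orderOf x₀ = 2) (ha : ∀ x : G, IsConj x₀ x → IsPGroup 2 ↥(Subgroup.closure {y : G | IsConj x₀ y ∧ Commute y x}) ∧ ⁅⁅Subgroup.closure {y : G | IsConj x₀ y ∧ Commute y x}, Subgroup.closure {y : G | IsConj x₀ y ∧ Commute y x}⁆, Subgroup.closure {y : G | IsConj x₀ y ∧ Commute y x}⁆ = ⊥) (hb : ∀ x y : G, IsConj x₀ x → IsConj x₀ y → x ≠ y → Commute x y → IsConj x₀ (x * y)) (x y : G) (hx : IsConj x₀ x) (hy : IsConj x₀ y) (heven : Even (orderOf (x * y))) (hgt : 2 < orderOf (x * y)) : orderOf (x * y)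 = 4 := by
  have hx₀2 : x₀ * x₀ = 1 := by
    have := pow_orderOf_eq_one x₀
    rw [hx₀, pow_two] at this; exact this
  have sq : ∀ w : G, IsConj x₀ w → w * w = 1 := by
    intro w hw
    obtain ⟨c, hc⟩ := isConj_iff.mp hw
    rw [← hc]
    calc c * x₀ * c⁻¹ * (c * x₀ * c⁻¹) = c * (x₀ * x₀) * c⁻¹ := by group
      _ = 1 := by rw [hx₀2]; group
  have hxx := sq x hx
  have hyy := sq y hy
  have hxi : x⁻¹ = x := inv_eq_of_mul_eq_one_left hxx
  have hyi : y⁻¹ = y := inv_eq_of_mul_eq_one_left hyy
  set r := x * y with hr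
  have hxr : x * r * x = r⁻¹ := by
    rw [hr, mul_inv_rev, hxi, hyi]
    calc x * (x * y) * x = (x * x) * y * x := by group
      _ = y * x := by rw [hxx, one_mul]
  have hyr : y * r * y = r⁻¹ := by
    rw [hr, mul_inv_rev, hxi, hyi]
    calc y * (x * y) * y = y * x * (y * y) := by group
      _ = y * x := by rw [hyy, mul_one]
  obtain ⟨k, hk⟩ := heven
  have hk2 : 2 ≤ k := by omega
  set u := r ^ k with hu
  have hu1 : u ≠ 1 := by
    intro h
    have := orderOf_dvd_of_pow_eq_one h
    have := Nat.le_of_dvd (by omega) this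
    omega
  have huu : u * u = 1 := by
    rw [hu, ← pow_add, ← hk, pow_orderOf_eq_one]
  have hui : u⁻¹ = u := inv_eq_of_mul_eq_one_left huu
  have hxu : x * u * x = u := by rw [hu, inv_pow_conj hxx hxr, ← hu, hui]
  have hyu : y * u * y = u := by rw [hu, inv_pow_conj hyy hyr, ← hu, hui]
  have cxu : Commute x u := by
    show x * u = u * x
    calc x * u = (x * u * x) * x⁻¹ := by group
      _ = u * x := by rw [hxu, hxi]
  have cyu : Commute y u := by
    show y * u = u * y
    calc y * u = (y * u * y) * y⁻¹ := by group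
      _ = u * y := by rw [hyu, hyi]
  -- u * x is conjugate to x₀
  have hux : IsConj x₀ (u * x) := by
    rcases Nat.even_or_odd' k with ⟨i, rfl | rfl⟩
    · -- k = 2 i
      have : u * x = r ^ i * x * (r ^ i)⁻¹ := by
        have h1 := inv_pow_conj hxx hxr i
        have h2 : x * (r ^ i)⁻¹ = r ^ i * x := by
          have : x * (r ^ i)⁻¹ * x = r ^ i := by
            have := congrArg (fun t => t⁻¹) h1
            simp only [mul_inv_rev, inv_inv, hxi] at this
            rw [← mul_assoc] at this
            exact this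
          calc x * (r ^ i)⁻¹ = (x * (r ^ i)⁻¹ * x) * x⁻¹ := by group
            _ = r ^ i * x := by rw [this, hxi]
        rw [mul_assoc, h2, hu, ← mul_assoc, ← pow_add]; congr 2; ring
      rw [this]
      exact hx.trans (isConj_iff.mpr ⟨r ^ i, rfl⟩)
    · -- k = 2 i + 1
      have hxyx : IsConj x₀ (x * y * x) := by
        refine hy.trans (isConj_iff.mpr ⟨x, ?_⟩)
        rw [hxi]
      have h3 : x * y * x * (x * y * x) = 1 := sq _ hxyx
      have h4 : (x * y * x) * r * (x * y * x) = r⁻¹ := by
        rw [hr, mul_inv_rev, hxi, hyi]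
        calc x * y * x * (x * y) * (x * y * x) = x * y * (x * x) * y * (x * y * x) := by group
          _ = x * (y * y) * (x * y * x) := by rw [hxx]; group
          _ = (x * x) * y * x := by rw [hyy]; group
          _ = y * x := by rw [hxx, one_mul]
      have : u * x = r ^ i * (x * y * x) * (r ^ i)⁻¹ := by
        have h1 := inv_pow_conj h3 h4 i
        have hi' : (x * y * x)⁻¹ = x * y * x := inv_eq_of_mul_eq_one_left h3
        have h2 : (x * y * x) * (r ^ i)⁻¹ = r ^ i * (x * y * x) := by
          have : (x * y * x) * (r ^ i)⁻¹ * (x * y * x) = r ^ i := by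
            have := congrArg (fun t => t⁻¹) h1
            simp only [mul_inv_rev, inv_inv, hi'] at this
            rw [← mul_assoc] at this
            exact this
          calc (x * y * x) * (r ^ i)⁻¹ = ((x * y * x) * (r ^ i)⁻¹ * (x * y * x)) * (x * y * x)⁻¹ := by group
            _ = r ^ i * (x * y * x) := by rw [this, hi']
        rw [mul_assoc, h2, hu]
        have : x * y * x = r * x := by rw [hr]
        rw [this, ← mul_assoc, ← mul_assoc, ← pow_add, ← pow_succ]; congr 2; ring
      rw [this]
      exact hxyx.trans (isConj_iff.mpr ⟨r ^ i, rfl⟩)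
  have hne : x ≠ u * x := by
    intro h
    apply hu1
    have : u * x = 1 * x := by rw [one_mul]; exact h.symm
    exact mul_right_cancel this
  have hcomm : Commute x (u * x) := by
    show x * (u * x) = u * x * x
    rw [← mul_assoc, cxu.eq]
  have huconj : IsConj x₀ u := by
    have := hb x (u * x) hx hux hne hcomm
    have e : x * (u * x) = u := by rw [← mul_assoc]; exact hxu
    rwa [e] at this
  obtain ⟨-, hW⟩ := ha u huconj
  set W := Subgroup.closure {y : G | IsConj x₀ y ∧ Commute y u} with hWdef
  have hxW : x ∈ W := Subgroup.subset_closure ⟨hx, cxu⟩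
  have hyW : y ∈ W := Subgroup.subset_closure ⟨hy, cyu⟩
  have h1 : ⁅x, y⁆ ∈ ⁅W, W⁆ := Subgroup.commutator_mem_commutator hxW hyW
  have h2 : ⁅⁅x, y⁆, x⁆ ∈ ⁅⁅W, W⁆, W⁆ := Subgroup.commutator_mem_commutator h1 hxW
  rw [hW, Subgroup.mem_bot] at h2
  have h3 : ⁅x, y⁆ = r ^ 2 := by
    rw [commutatorElement_def, hxi, hyi, hr, pow_two]; group
  have h4 : r ^ 4 = 1 := by
    rw [h3, commutatorElement_def, hxi] at h2
    have h5 : x * (r ^ 2)⁻¹ * x = r ^ 2 := by
      have := congrArg (fun t => t⁻¹) (inv_pow_conj hxx hxr 2)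
      simp only [mul_inv_rev, inv_inv, hxi] at this
      rw [← mul_assoc] at this
      exact this
    calc r ^ 4 = r ^ 2 * (x * (r ^ 2)⁻¹ * x) := by rw [h5, ← pow_add]
      _ = r ^ 2 * x * (r ^ 2)⁻¹ * x := by group
      _ = 1 := h2
  have h5 : orderOf r ∣ 4 := orderOf_dvd_of_pow_eq_one h4
  have h6 : orderOf r ≤ 4 := Nat.le_of_dvd (by norm_num) h5
  have : orderOf r = 3 ∨ orderOf r = 4 := by omega
  rcases this with h | h
  · rw [h] at h5; norm_num at h5
  · exact h

end Cfsg.Agent.S1176
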