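import Cfsg.Statements.S1177

set_option autoImplicit false
open Cfsg

namespace Cfsg.Agent.S1177

/-- Let A be a nontrivial elementary abelian 2-subgroup of a finite group G which is a T.I. set (each conjugate of A meets A trivially or equals A) and which does not commute elementwise with any conjugate of A other than A itself. Then for every a ∈ A, a ≠ 1, every conjugate of A contained in C_G(a) is equal to A (A is weakly closed in C_G(a)). -/
theorem result {G : Type*} [Group G] [Finite G] (A : Subgroup G) (hA : Cfsg.IsElementaryAbelian 2 A) (hA1 : A ≠ ⊥) (hTI : ∀ g : G, A.map (MulAut.conj g).toMonoidHom ⊓ A = ⊥ ∨ A.map (MulAut.conj g).toMonoidHom = A) (hb : ∀ g : G, (∀ a ∈ A, ∀ b ∈ A.map (MulAut.conj g).toMonoidHom, a * b = b * a) → A.map (MulAut.conj g).toMonoidHom = A) (a : G) (ha : a ∈ A) (ha1 : a ≠ 1) (g : G) (hg : A.map (MulAut.conj g).toMonoidHom ≤ Subgroup.centralizer ({a} : Set G)) : A.map (MulAut.conj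 g).toMonoidHom = A := by
  obtain ⟨hcomm, hexp⟩ := hA
  have hAc : ∀ x ∈ A, ∀ y ∈ A, x * y = y * x := by
    intro x hx y hy
    have := mul_comm' (⟨x, hx⟩ : A) ⟨y, hy⟩
    exact congrArg Subtype.val this
  have hsq : ∀ x ∈ A, x * x = 1 := fun x hx => by rw [← pow_two]; exact hexp x hx
  have mem_map : ∀ (y x : G), x ∈ A.map (MulAut.conj y).toMonoidHom ↔ ∃ c ∈ A, y * c * y⁻¹ = x := by
    intro y x
    simp [Subgroup.mem_map]
  set B := A.map (MulAut.conj g).toMonoidHom with hB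
  by_contra hne
  have hdisj : B ⊓ A = ⊥ := (hTI g).resolve_right hne
  have hBsq : ∀ b ∈ B, b * b = 1 := by
    intro b hb'
    obtain ⟨c, hc, rfl⟩ := (mem_map g b).mp hb'
    calc g * c * g⁻¹ * (g * c * g⁻¹) = g * (c * c) * g⁻¹ := by group
      _ = 1 := by rw [hsq c hc]; group
  -- (1) B normalizes A
  have h1 : ∀ b ∈ B, ∀ a' ∈ A, b * a' * b⁻¹ ∈ A := by
    intro b hb' a' ha'
    have hba : b * a * b⁻¹ = a := by
      have := hg hb'
      rw [Subgroup.mem_centralizer_iff] at this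
      have := this a (Set.mem_singleton a)
      rw [← this]; group
    have : A.map (MulAut.conj b).toMonoidHom = A := by
      refine (hTI b).resolve_left ?_
      intro h
      have : a ∈ A.map (MulAut.conj b).toMonoidHom ⊓ A := ⟨(mem_map b a).mpr ⟨a, ha, hba⟩, ha⟩
      rw [h, Subgroup.mem_bot] at this
      exact ha1 this
    rw [← this]
    exact (mem_map b _).mpr ⟨a', ha', rfl⟩
  -- (2') elements of A commuting with a nontrivial element of B normalize B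
  have h2 : ∀ a' ∈ A, ∀ b ∈ B, b ≠ 1 → a' * b = b * a' → ∀ b' ∈ B, a' * b' * a'⁻¹ ∈ B := by
    intro a' ha' b hb' hb1 hab b' hb''
    obtain ⟨a₁, ha₁, rfl⟩ := (mem_map g b).mp hb'
    obtain ⟨a₂, ha₂, rfl⟩ := (mem_map g b').mp hb''
    have ha₁1 : a₁ ≠ 1 := by
      rintro rfl
      apply hb1; group
    have hy : (g⁻¹ * a' * g) * a₁ * (g⁻¹ * a' * g)⁻¹ = a₁ := by
      have : (g⁻¹ * a' * g) * a₁ * (g⁻¹ * a' * g)⁻¹ = g⁻¹ * (a' * (g * a₁ * g⁻¹)) * a'⁻¹ * g := by group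
      rw [this, hab]; group
    have : A.map (MulAut.conj (g⁻¹ * a' * g)).toMonoidHom = A := by
      refine (hTI _).resolve_left ?_
      intro h
      have : a₁ ∈ A.map (MulAut.conj (g⁻¹ * a' * g)).toMonoidHom ⊓ A :=
        ⟨(mem_map _ a₁).mpr ⟨a₁, ha₁, hy⟩, ha₁⟩
      rw [h, Subgroup.mem_bot] at this
      exact ha₁1 this
    have h3 : (g⁻¹ * a' * g) * a₂ * (g⁻¹ * a' * g)⁻¹ ∈ A := by
      rw [← this]
      exact (mem_map _ _).mpr ⟨a₂, ha₂, rfl⟩
    refine (mem_map g _).mpr ⟨_, h3, ?_⟩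
    group
  -- (3)
  have h3 : ∀ a' ∈ A, ∀ b ∈ B, b ≠ 1 → a' * b = b * a' → ∀ b' ∈ B, a' * b' = b' * a' := by
    intro a' ha' b hb' hb1 hab b' hb''
    have m1 : a' * b' * a'⁻¹ * b'⁻¹ ∈ B := B.mul_mem (h2 a' ha' b hb' hb1 hab b' hb'') (B.inv_mem hb'')
    have m2 : a' * b' * a'⁻¹ * b'⁻¹ ∈ A := by
      have : a' * b' * a'⁻¹ * b'⁻¹ = a' * (b' * a'⁻¹ * b'⁻¹) := by group
      rw [this]
      exact A.mul_mem ha' (h1 b' hb'' _ (A.inv_mem ha'))
    have : a' * b' * a'⁻¹ * b'⁻¹ ∈ B ⊓ A := ⟨m1, m2⟩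
    rw [hdisj, Subgroup.mem_bot] at this
    calc a' * b' = (a' * b' * a'⁻¹ * b'⁻¹) * b' * a' := by group
      _ = b' * a' := by rw [this, one_mul]
  -- (4)
  have h4 : ∃ a' ∈ A, ¬ ∀ b ∈ B, a' * b = b * a' := by
    by_contra hcon
    apply hne
    apply hb g
    intro a' ha' b hb'
    by_contra h
    exact hcon ⟨a', ha', fun hall => h (hall b hb')⟩
  obtain ⟨a', ha', hna'⟩ := h4
  -- (5) counting
  let Cs : Set G := {c | c ∈ A ∧ ∀ b ∈ B, c * b = b * c}
  have hCsA : Cs ⊂ (A : Set G) := by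
    refine ⟨fun c hc => hc.1, fun h => hna' (h ha').2⟩
  have hlt : Nat.card Cs < Nat.card A := by
    have := Set.ncard_lt_ncard hCsA (Set.toFinite _)
    rw [← Nat.card_coe_set_eq, ← Nat.card_coe_set_eq] at this
    exact this
  have hfmem : ∀ b ∈ B, a' * (b * a' * b⁻¹) ∈ Cs := by
    intro b hb'
    have hmA : a' * (b * a' * b⁻¹) ∈ A := A.mul_mem ha' (h1 b hb' a' ha')
    refine ⟨hmA, ?_⟩
    by_cases hb1 : b = 1
    · subst hb1
      intro b' _
      have : a' * (1 * a' * 1⁻¹) = 1 := by simp [hsq a' ha']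
      rw [this]; simp
    · apply h3 _ hmA b hb' hb1
      have hbi : b⁻¹ = b := inv_eq_of_mul_eq_one_left (hBsq b hb')
      have e1 : b * (a' * (b * a' * b⁻¹)) = (b * a' * b⁻¹) * a' * b := by
        rw [hbi]; group
      rw [e1, hAc _ (h1 b hb' a' ha') a' ha']
  let f : B → Cs := fun b => ⟨a' * (b.1 * a' * b.1⁻¹), hfmem b.1 b.2⟩
  have hf : Function.Injective f := by
    intro b₁ b₂ h
    have h' : a' * (b₁.1 * a' * b₁.1⁻¹) = a' * (b₂.1 * a' * b₂.1⁻¹) := congrArg Subtype.val h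
    have h'' : b₁.1 * a' * b₁.1⁻¹ = b₂.1 * a' * b₂.1⁻¹ := mul_left_cancel h'
    by_contra hneq
    have hb1 : b₂.1⁻¹ * b₁.1 ≠ 1 := by
      intro h1'
      apply hneq
      apply Subtype.ext
      have : b₂.1 * (b₂.1⁻¹ * b₁.1) = b₂.1 * 1 := by rw [h1']
      simpa using this
    have hcomm' : a' * (b₂.1⁻¹ * b₁.1) = (b₂.1⁻¹ * b₁.1) * a' := by
      calc a' * (b₂.1⁻¹ * b₁.1) = b₂.1⁻¹ * (b₂.1 * a' * b₂.1⁻¹) * b₁.1 := by group
        _ = b₂.1⁻¹ * (b₁.1 * a' * b₁.1⁻¹) * b₁.1 := by rw [h'']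
        _ = (b₂.1⁻¹ * b₁.1) * a' := by group
    exact hna' (h3 a' ha' _ (B.mul_mem (B.inv_mem b₂.2) b₁.2) hb1 hcomm')
  have hle : Nat.card B ≤ Nat.card Cs := Nat.card_le_card_of_injective f hf
  have hBA : Nat.card B = Nat.card A :=
    Subgroup.card_map_of_injective (MulAut.conj g).injective
  omega

end Cfsg.Agent.S1177
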