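import Cfsg.Statements.S1178

set_option autoImplicit false
open Cfsg

namespace Cfsg.Agent.S1178

/-- Let A be a subgroup of a Sylow 2-subgroup S of the finite group G which is weakly closed in S. If a conjugate g A g⁻¹ commutes elementwise with A, then g A g⁻¹ = A. -/
theorem result {G : Type*} [Group G] [Finite G] (S : Sylow 2 G) (A : Subgroup G) (hW : Cfsg.IsWeaklyClosed A (S : Subgroup G)) (g : G) (hc : ∀ a ∈ A, ∀ b ∈ A.map (MulAut.conj g).toMonoidHom, a * b = b * a) : A.map (MulAut.conj g).toMonoidHom = A := by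
  obtain ⟨hAS, hwc⟩ := hW
  have hA : IsPGroup 2 A := S.isPGroup'.to_le hAS
  have hBp : IsPGroup 2 (A.map (MulAut.conj g).toMonoidHom) := hA.map _
  have hnorm : A ≤ Subgroup.normalizer ((A.map (MulAut.conj g).toMonoidHom : Subgroup G) : Set G) := by
    rw [Subgroup.le_normalizer_iff]
    intro a ha b hb
    have e : a * b * a⁻¹ = b := by rw [hc a ha b hb]; group
    rw [e]; exact hb
  obtain ⟨Q, hQ⟩ := (hA.to_sup_of_normal_right' hBp hnorm).exists_le_sylow
  obtain ⟨h, hh⟩ := MulAction.exists_smul_eq G Q S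
  have hQS : ∀ x ∈ Q, h * x * h⁻¹ ∈ S := by
    intro x hx
    rw [← hh]
    exact Subgroup.smul_mem_pointwise_smul x (MulAut.conj h) (Q : Subgroup G) hx
  have h1 : A.map (MulAut.conj h).toMonoidHom = A := by
    apply hwc
    rintro _ ⟨a, ha, rfl⟩
    exact hQS a (hQ (Subgroup.mem_sup_left ha))
  have h2 : A.map (MulAut.conj (h * g)).toMonoidHom = A := by
    apply hwc
    rintro _ ⟨a, ha, rfl⟩
    have : (MulAut.conj (h * g)).toMonoidHom a = h * (g * a * g⁻¹) * h⁻¹ := by
      simp [MulAut.conj_apply, mul_assoc]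
    rw [this]
    exact hQS _ (hQ (Subgroup.mem_sup_right ⟨a, ha, rfl⟩))
  apply le_antisymm
  · rintro _ ⟨a, ha, rfl⟩
    have h3 : (MulAut.conj (h * g)).toMonoidHom a ∈ A := by
      rw [← h2]; exact ⟨a, ha, rfl⟩
    rw [← h1] at h3
    obtain ⟨a', ha', e⟩ := h3
    have : (MulAut.conj g).toMonoidHom a = a' := by
      simp only [MulEquiv.toMonoidHom_eq_coe, MonoidHom.coe_coe, MulAut.conj_apply] at e ⊢
      have : h * a' * h⁻¹ = h * (g * a * g⁻¹) * h⁻¹ := by rw [e]; group
      exact (mul_left_cancel (mul_right_cancel this)).symm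
    rw [this]; exact ha'
  · intro a ha
    have h3 : (MulAut.conj h).toMonoidHom a ∈ A := by
      rw [← h1]; exact ⟨a, ha, rfl⟩
    rw [← h2] at h3
    obtain ⟨a', ha', e⟩ := h3
    refine ⟨a', ha', ?_⟩
    simp only [MulEquiv.toMonoidHom_eq_coe, MonoidHom.coe_coe, MulAut.conj_apply] at e ⊢
    have : h * (g * a' * g⁻¹) * h⁻¹ = h * a * h⁻¹ := by rw [← e]; group
    exact mul_left_cancel (mul_right_cancel this)

end Cfsg.Agent.S1178
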