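import Cfsg.Statements.S1181
import Cfsg.Agent.Helper8.Isolated

set_option autoImplicit false
open Cfsg

namespace Cfsg.Agent.S1181

/-- Let z be an isolated involution of the finite group G and N a normal subgroup with z ∉ N. Then the centralizer of zN in G/N is the image of C_G(z), and zN is an isolated involution of G/N. -/
theorem result {G : Type*} [Group G] [Finite G] (z : G) (hz : Cfsg.IsIsolatedInvolution z) (N : Subgroup G) [N.Normal] (hzN : z ∉ N) : Subgroup.centralizer ({(QuotientGroup.mk z : G ⧸ N)} : Set (G ⧸ N)) = (Subgroup.centralizer ({z} : Set G)).map (QuotientGroup.mk' N) ∧ Cfsg.IsIsolatedInvolution (QuotientGroup.mk z : G ⧸ N) := by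
  have hzz := Cfsg.Agent.Helper8.sq_of_orderOf_two hz.1
  have hzi : z⁻¹ = z := Cfsg.Agent.Helper8.inv_eq_self_of_sq hzz
  have memC : ∀ x : G, x ∈ Subgroup.centralizer ({z} : Set G) ↔ z * x = x * z := by
    intro x
    rw [Subgroup.mem_centralizer_iff]
    simp
  have mk1 : ∀ x : G, (QuotientGroup.mk x : G ⧸ N) = 1 ↔ x ∈ N := fun x => QuotientGroup.eq_one_iff x
  constructor
  · apply le_antisymm
    · intro xbar hx
      obtain ⟨g, rfl⟩ := QuotientGroup.mk_surjective xbar
      rw [Subgroup.mem_centralizer_iff] at hx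
      have hx' := hx _ (Set.mem_singleton _)
      -- z * (g z g⁻¹) ∈ N
      have h1 : z * (g * z * g⁻¹) ∈ N := by
        rw [← mk1]
        have e : (QuotientGroup.mk (z * (g * z * g⁻¹)) : G ⧸ N)
            = (QuotientGroup.mk z : G ⧸ N) * ((QuotientGroup.mk g : G ⧸ N) * QuotientGroup.mk z) * (QuotientGroup.mk g : G ⧸ N)⁻¹ := by
          simp [mul_assoc]
        rw [e, ← hx']
        have : (QuotientGroup.mk z : G ⧸ N) * (QuotientGroup.mk z) = 1 := by
          rw [← QuotientGroup.mk_mul, hzz]; rfl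
        calc (QuotientGroup.mk z : G ⧸ N) * ((QuotientGroup.mk z : G ⧸ N) * QuotientGroup.mk g) * (QuotientGroup.mk g : G ⧸ N)⁻¹
            = ((QuotientGroup.mk z : G ⧸ N) * (QuotientGroup.mk z)) * (QuotientGroup.mk g * (QuotientGroup.mk g : G ⧸ N)⁻¹) := by group
          _ = 1 := by rw [this]; group
      obtain ⟨k, hk, -, -, hkz⟩ := Cfsg.Agent.Helper8.isolated_conj_exists hz g
      have hkN : k ∈ N := (Subgroup.zpowers_le.mpr h1) hk
      refine ⟨k⁻¹ * g, ?_, ?_⟩
      · rw [SetLike.mem_coe, memC]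
        calc z * (k⁻¹ * g) = k⁻¹ * (k * z * k⁻¹) * g := by group
          _ = k⁻¹ * (g * z * g⁻¹) * g := by rw [hkz]
          _ = k⁻¹ * g * z := by group
      · have : (QuotientGroup.mk k : G ⧸ N) = 1 := (mk1 k).mpr hkN
        simp [this]
    · rintro _ ⟨c, hc, rfl⟩
      rw [SetLike.mem_coe, memC] at hc
      rw [Subgroup.mem_centralizer_iff]
      intro w hw
      rw [Set.mem_singleton_iff] at hw
      subst hw
      simp only [QuotientGroup.mk'_apply]
      rw [← QuotientGroup.mk_mul, ← QuotientGroup.mk_mul, hc]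
  · constructor
    · apply Cfsg.Agent.Helper8.orderOf_two_of_sq
      · intro h
        exact hzN ((mk1 z).mp h)
      · rw [← QuotientGroup.mk_mul, hzz]; rfl
    · intro gbar hcomm
      obtain ⟨g, rfl⟩ := QuotientGroup.mk_surjective gbar
      obtain ⟨j, hj⟩ := Cfsg.Agent.Helper8.isolated_odd hz g
      set r := z * (g * z * g⁻¹) with hr
      -- r * r ∈ N
      have htt : (g * z * g⁻¹) * (g * z * g⁻¹) = 1 := by
        calc g * z * g⁻¹ * (g * z * g⁻¹) = g * (z * z) * g⁻¹ := by group
          _ = 1 := by rw [hzz]; group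
      have h1 : r * r ∈ N := by
        rw [← mk1]
        have e : (QuotientGroup.mk (r * r) : G ⧸ N)
            = ((QuotientGroup.mk z : G ⧸ N) * ((QuotientGroup.mk g : G ⧸ N) * QuotientGroup.mk z * (QuotientGroup.mk g : G ⧸ N)⁻¹)) * (QuotientGroup.mk (z * (g * z * g⁻¹)) : G ⧸ N) := by
          simp [hr, mul_assoc]
        rw [e, hcomm.eq]
        have e2 : ((QuotientGroup.mk g : G ⧸ N) * QuotientGroup.mk z * (QuotientGroup.mk g : G ⧸ N)⁻¹) * (QuotientGroup.mk z : G ⧸ N) * (QuotientGroup.mk (z * (g * z * g⁻¹)) : G ⧸ N)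
            = (QuotientGroup.mk ((g * z * g⁻¹) * (z * z) * (g * z * g⁻¹)) : G ⧸ N) := by
          simp [mul_assoc]
        rw [e2, hzz, mul_one, htt]; rfl
      have h2 : r ∈ N := by
        have : r = (r * r) ^ (j + 1) := by
          have h3 : r ^ (2 * j + 1) = 1 := by rw [← hj]; exact pow_orderOf_eq_one _
          calc r = r ^ (2 * j + 1) * r := by rw [h3, one_mul]
            _ = (r * r) ^ (j + 1) := by
              rw [← pow_two, ← pow_mul, ← pow_succ]; congr 1
        rw [this]
        exact N.pow_mem h1 _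
      have h3 : (QuotientGroup.mk r : G ⧸ N) = 1 := (mk1 r).mpr h2
      have h4 : (QuotientGroup.mk z : G ⧸ N) * ((QuotientGroup.mk g : G ⧸ N) * QuotientGroup.mk z * (QuotientGroup.mk g : G ⧸ N)⁻¹) = 1 := by
        rw [← h3, hr]; simp [mul_assoc]
      have h5 : (QuotientGroup.mk z : G ⧸ N) * (QuotientGroup.mk z) = 1 := by
        rw [← QuotientGroup.mk_mul, hzz]; rfl
      calc (QuotientGroup.mk g : G ⧸ N) * QuotientGroup.mk z * (QuotientGroup.mk g : G ⧸ N)⁻¹
          = ((QuotientGroup.mk z : G ⧸ N) * (QuotientGroup.mk z)) * ((QuotientGroup.mk g : G ⧸ N) * QuotientGroup.mk z * (QuotientGroup.mk g : G ⧸ N)⁻¹) := by rw [h5, one_mul]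
        _ = (QuotientGroup.mk z : G ⧸ N) * ((QuotientGroup.mk z : G ⧸ N) * ((QuotientGroup.mk g : G ⧸ N) * QuotientGroup.mk z * (QuotientGroup.mk g : G ⧸ N)⁻¹)) := by group
        _ = QuotientGroup.mk z := by rw [h4, mul_one]

end Cfsg.Agent.S1181
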