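import Cfsg.Statements.S1182
import Cfsg.Agent.Helper8.Isolated

set_option autoImplicit false
open Cfsg

namespace Cfsg.Agent.S1182

/-- Let z be an isolated involution of the finite group G and H a subgroup normalized by z. If x, y ∈ H both commute with z and y = h x h⁻¹ for some h ∈ H, then y = c x c⁻¹ for some c ∈ H commuting with z. -/
theorem result {G : Type*} [Group G] [Finite G] (z : G) (hz : Cfsg.IsIsolatedInvolution z) (H : Subgroup G) (hzH : z ∈ Subgroup.normalizer (H : Set G)) (x y : G) (hx : x ∈ H) (hy : y ∈ H) (hxz : Commute x z) (hyz : Commute y z) (h : G) (hh : h ∈ H) (hconj : h * x * h⁻¹ = y) : ∃ c ∈ H, Commute c z ∧ c * x * c⁻¹ = y := by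
  obtain ⟨k, hk, -, -, hkz⟩ := Cfsg.Agent.Helper8.isolated_conj_exists hz h⁻¹
  rw [inv_inv] at hk hkz
  have hzz := Cfsg.Agent.Helper8.sq_of_orderOf_two hz.1
  have hzi : z⁻¹ = z := Cfsg.Agent.Helper8.inv_eq_self_of_sq hzz
  have hxz' : x * z = z * x := hxz
  have hyz' : y * z = z * y := hyz
  -- z * (h⁻¹ z h) lies in H and commutes with x
  have h1 : z * (h⁻¹ * z * h) ∈ H := by
    have : z * (h⁻¹ * z * h) = (z * h⁻¹ * z⁻¹) * h := by rw [hzi]; group
    rw [this]
    exact H.mul_mem ((Subgroup.mem_normalizer_iff.mp hzH h⁻¹).mp (H.inv_mem hh)) hh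
  have h2 : z * (h⁻¹ * z * h) ∈ Subgroup.centralizer ({x} : Set G) := by
    rw [Subgroup.mem_centralizer_iff]
    intro w hw
    rw [Set.mem_singleton_iff] at hw
    subst hw
    have e : h * w = y * h := by rw [← hconj]; group
    have e' : w * h⁻¹ = h⁻¹ * y := by rw [← hconj]; group
    calc w * (z * (h⁻¹ * z * h)) = (w * z) * h⁻¹ * z * h := by group
      _ = z * (w * h⁻¹) * z * h := by rw [hxz']; group
      _ = z * h⁻¹ * (y * z) * h := by rw [e']; group
      _ = z * h⁻¹ * z * (y * h) := by rw [hyz']; group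
      _ = z * (h⁻¹ * z * h) * w := by rw [← e]; group
  have hkH : k ∈ H := (Subgroup.zpowers_le.mpr h1) hk
  have hkx : k ∈ Subgroup.centralizer ({x} : Set G) := (Subgroup.zpowers_le.mpr h2) hk
  have hkx' : x * k = k * x := by
    rw [Subgroup.mem_centralizer_iff] at hkx
    exact hkx x (Set.mem_singleton x)
  refine ⟨h * k, H.mul_mem hh hkH, ?_, ?_⟩
  · show h * k * z = z * (h * k)
    calc h * k * z = h * (k * z * k⁻¹) * k := by group
      _ = h * (h⁻¹ * z * h) * k := by rw [hkz]
      _ = z * (h * k) := by group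
  · calc h * k * x * (h * k)⁻¹ = h * (k * x) * k⁻¹ * h⁻¹ := by group
      _ = h * (x * k) * k⁻¹ * h⁻¹ := by rw [hkx']
      _ = h * x * h⁻¹ := by group
      _ = y := hconj

end Cfsg.Agent.S1182
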