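import Cfsg.Statements.S1183
import Cfsg.Agent.Helper8.Isolated2

set_option autoImplicit false
open Cfsg

namespace Cfsg.Agent.S1183

open Cfsg.Agent.Helper8 in
open scoped commutatorElement in
/-- Let z be an isolated involution of the finite group G and C = C_G(z). Then the subgroup of G generated by its elements of odd order is all of G if and only if the subgroup of C generated by its elements of odd order is all of C. -/
theorem result {G : Type*} [Group G] [Finite G] (z : G) (hz : Cfsg.IsIsolatedInvolution z) : Cfsg.pResidual 2 G = ⊤ ↔ Cfsg.pResidual 2 ↥(Subgroup.centralizer ({z} : Set G)) = ⊤ := by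
  have : Fact (Nat.Prime 2) := ⟨Nat.prime_two⟩
  have hzz := sq_of_orderOf_two hz.1
  constructor
  · intro hG
    by_contra hC
    have hRn : (Cfsg.pResidual 2 ↥(Subgroup.centralizer ({z} : Set G))).Normal := pres_two_normal _
    have hQp : IsPGroup 2 (↥(Subgroup.centralizer ({z} : Set G)) ⧸
        Cfsg.pResidual 2 ↥(Subgroup.centralizer ({z} : Set G))) := by
      intro q
      obtain ⟨c, rfl⟩ := QuotientGroup.mk_surjective q
      obtain ⟨j, hj⟩ := exists_two_pow_mem_pres c
      exact ⟨j, by rw [← QuotientGroup.mk_pow]; exact (QuotientGroup.eq_one_iff _).mpr hj⟩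
    have hQnt : Nontrivial (↥(Subgroup.centralizer ({z} : Set G)) ⧸
        Cfsg.pResidual 2 ↥(Subgroup.centralizer ({z} : Set G))) := by
      obtain ⟨c, -, hc⟩ := SetLike.exists_of_lt (lt_top_iff_ne_top.mpr hC)
      exact ⟨⟨(c : ↥(Subgroup.centralizer ({z} : Set G)) ⧸ _), 1,
        fun h => hc ((QuotientGroup.eq_one_iff c).mp h)⟩⟩
    have hQnil : Group.IsNilpotent (↥(Subgroup.centralizer ({z} : Set G)) ⧸
        Cfsg.pResidual 2 ↥(Subgroup.centralizer ({z} : Set G))) := hQp.isNilpotent
    have hlt := Group.IsSolvable.commutator_lt_top_of_nontrivial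
      (G := ↥(Subgroup.centralizer ({z} : Set G)) ⧸
        Cfsg.pResidual 2 ↥(Subgroup.centralizer ({z} : Set G)))
    obtain ⟨q, -, hq⟩ := SetLike.exists_of_lt hlt
    obtain ⟨c, rfl⟩ := QuotientGroup.mk_surjective q
    let χ : ↥(Subgroup.centralizer ({z} : Set G)) →* Abelianization
        (↥(Subgroup.centralizer ({z} : Set G)) ⧸
          Cfsg.pResidual 2 ↥(Subgroup.centralizer ({z} : Set G))) :=
      Abelianization.of.comp (QuotientGroup.mk' _)
    have hχc : χ c ≠ 1 := by
      intro h
      apply hq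
      have h1 : (QuotientGroup.mk' (Cfsg.pResidual 2 ↥(Subgroup.centralizer ({z} : Set G))) c) ∈
          (Abelianization.of).ker := h
      rwa [Abelianization.ker_of] at h1
    have hχ2 : ∀ a : Abelianization (↥(Subgroup.centralizer ({z} : Set G)) ⧸
        Cfsg.pResidual 2 ↥(Subgroup.centralizer ({z} : Set G))), ∃ i : ℕ, a ^ (2 ^ i) = 1 := by
      intro a
      obtain ⟨q, rfl⟩ : ∃ q, Abelianization.of q = a := QuotientGroup.mk_surjective a
      obtain ⟨i, hi⟩ := hQp q
      exact ⟨i, by rw [← map_pow, hi, map_one]⟩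
    obtain ⟨j, m, hm, e⟩ := Nat.exists_eq_two_pow_mul_odd (orderOf_pos c).ne'
    have hc2 : χ (c ^ m) ≠ 1 := by
      intro h
      apply hχc
      obtain ⟨i, hi⟩ := hχ2 (χ c)
      rw [map_pow] at h
      have h1 : orderOf (χ c) ∣ m := orderOf_dvd_of_pow_eq_one h
      have h2 : orderOf (χ c) ∣ 2 ^ i := orderOf_dvd_of_pow_eq_one hi
      have h3 : Nat.Coprime m (2 ^ i) := (Nat.coprime_two_right.mpr hm).pow_right i
      exact orderOf_eq_one_iff.mp ((Nat.Coprime.coprime_dvd_left h1 h3).eq_one_of_dvd h2)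
    have hc2pow : ((c ^ m : ↥(Subgroup.centralizer ({z} : Set G))) : G) ^ (2 ^ j) = 1 := by
      have h1 : (c ^ m) ^ (2 ^ j) = 1 := by
        rw [← pow_mul, mul_comm, ← e, pow_orderOf_eq_one]
      have h2 := congrArg Subtype.val h1
      simpa using h2
    have hczcomm : ((c ^ m : ↥(Subgroup.centralizer ({z} : Set G))) : G) * z =
        z * ((c ^ m : ↥(Subgroup.centralizer ({z} : Set G))) : G) :=
      (Subgroup.mem_centralizer_iff.mp (c ^ m).2 z (Set.mem_singleton z)).symm
    have hP1 : IsPGroup 2 (Subgroup.zpowers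
        ((c ^ m : ↥(Subgroup.centralizer ({z} : Set G))) : G)) := by
      rintro ⟨y, hy⟩
      obtain ⟨n, rfl⟩ := Subgroup.mem_zpowers_iff.mp hy
      refine ⟨j, Subtype.ext ?_⟩
      show (((c ^ m : ↥(Subgroup.centralizer ({z} : Set G))) : G) ^ n) ^ (2 ^ j) = 1
      rw [← zpow_natCast, ← zpow_mul, mul_comm, zpow_mul, zpow_natCast, hc2pow, one_zpow]
    have hP2 : IsPGroup 2 (Subgroup.zpowers z) := by
      rintro ⟨y, hy⟩
      obtain ⟨n, rfl⟩ := Subgroup.mem_zpowers_iff.mp hy
      refine ⟨1, Subtype.ext ?_⟩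
      show (z ^ n) ^ (2 ^ 1) = 1
      rw [← zpow_natCast, ← zpow_mul, mul_comm, zpow_mul, zpow_natCast, pow_one, pow_two, hzz,
        one_zpow]
    have hnorm : Subgroup.zpowers ((c ^ m : ↥(Subgroup.centralizer ({z} : Set G))) : G) ≤
        Subgroup.normalizer (Subgroup.zpowers z : Set G) := by
      refine le_trans ?_ (Subgroup.centralizer_le_normalizer _)
      rw [Subgroup.zpowers_le, Subgroup.mem_centralizer_iff]
      intro h hh
      obtain ⟨n, rfl⟩ := Subgroup.mem_zpowers_iff.mp hh
      exact ((Commute.zpow_left (show Commute z _ from hczcomm.symm) n)).eq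
    obtain ⟨S, hTS⟩ := (IsPGroup.to_sup_of_normal_right' hP1 hP2 hnorm).exists_le_sylow
    have hzS : z ∈ (S : Subgroup G) := hTS (Subgroup.mem_sup_right (Subgroup.mem_zpowers z))
    have hc2S : ((c ^ m : ↥(Subgroup.centralizer ({z} : Set G))) : G) ∈ (S : Subgroup G) :=
      hTS (Subgroup.mem_sup_left (Subgroup.mem_zpowers _))
    have hSC : ∀ s ∈ (S : Subgroup G), s ∈ Subgroup.centralizer ({z} : Set G) := by
      intro s hs
      rw [Subgroup.mem_centralizer_iff]
      intro h hh
      rw [Set.mem_singleton_iff] at hh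
      subst hh
      exact (isolated_sylow_comm hz S hzS hs).symm
    have hker : (S : Subgroup G).transferFocal.ker = ⊤ := by
      rw [eq_top_iff, ← hG]
      exact pres_two_le_ker _ (S.2.to_quotient _)
    have hfoc : (S : Subgroup G).focalSubgroup = (S : Subgroup G) := by
      rw [← Subgroup.ker_transferFocal_inf_eq_focalSubgroup S, hker, top_inf_eq]
    have key : ∀ g ∈ (S : Subgroup G).focalSubgroup,
        ∀ hg : g ∈ Subgroup.centralizer ({z} : Set G), χ ⟨g, hg⟩ = 1 := by
      intro g hgf
      have hgf' := hgf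
      rw [Subgroup.focalSubgroup_def] at hgf'
      induction hgf' using Subgroup.closure_induction with
      | mem g hgen =>
        obtain ⟨hgS, x, hxS, u, rfl⟩ := hgen
        intro hg
        have hxC := hSC x hxS
        have hxz : z * x⁻¹ = x⁻¹ * z := by
          have h1 := Subgroup.mem_centralizer_iff.mp (Subgroup.inv_mem _ hxC) z (Set.mem_singleton z)
          exact h1
        have hconjS : u * x⁻¹ * u⁻¹ ∈ (S : Subgroup G) := by
          have h1 := Subgroup.mul_mem _ (Subgroup.inv_mem _ hxS) hgS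
          have e1 : x⁻¹ * ⁅x, u⁆ = u * x⁻¹ * u⁻¹ := by rw [commutatorElement_def]; group
          rwa [e1] at h1
        have hconjz : z * (u * x⁻¹ * u⁻¹) = (u * x⁻¹ * u⁻¹) * z :=
          Subgroup.mem_centralizer_iff.mp (hSC _ hconjS) z (Set.mem_singleton z)
        obtain ⟨c', hc'z, hc'⟩ := isolated_fusion hz hxz hconjz
        have hc'C : c' ∈ Subgroup.centralizer ({z} : Set G) := by
          rw [Subgroup.mem_centralizer_iff]
          intro h hh
          rw [Set.mem_singleton_iff] at hh
          subst hh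
          exact hc'z.symm
        have e3 : ⁅x, u⁆ = ⁅x, c'⁆ := by
          rw [commutatorElement_def, commutatorElement_def]
          calc x * u * x⁻¹ * u⁻¹ = x * (u * x⁻¹ * u⁻¹) := by group
            _ = x * (c' * x⁻¹ * c'⁻¹) := by rw [hc']
            _ = x * c' * x⁻¹ * c'⁻¹ := by group
        have e2 : (⟨⁅x, u⁆, hg⟩ : ↥(Subgroup.centralizer ({z} : Set G))) =
            ⁅(⟨x, hxC⟩ : ↥(Subgroup.centralizer ({z} : Set G))), ⟨c', hc'C⟩⁆ :=
          Subtype.ext e3
        rw [e2, map_commutatorElement]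
        exact commutatorElement_eq_one_iff_commute.mpr (Commute.all _ _)
      | one =>
        intro hg
        exact map_one χ
      | mul a b ha hb iha ihb =>
        intro hg
        have haf : a ∈ (S : Subgroup G).focalSubgroup := by rw [Subgroup.focalSubgroup_def]; exact ha
        have hbf : b ∈ (S : Subgroup G).focalSubgroup := by rw [Subgroup.focalSubgroup_def]; exact hb
        have haC := hSC a (Subgroup.focalSubgroup_le _ haf)
        have hbC := hSC b (Subgroup.focalSubgroup_le _ hbf)
        have e2 : (⟨a * b, hg⟩ : ↥(Subgroup.centralizer ({z} : Set G))) = ⟨a, haC⟩ * ⟨b, hbC⟩ := rfl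
        rw [e2, map_mul, iha haf haC, ihb hbf hbC, one_mul]
      | inv a ha iha =>
        intro hg
        have haf : a ∈ (S : Subgroup G).focalSubgroup := by rw [Subgroup.focalSubgroup_def]; exact ha
        have haC := hSC a (Subgroup.focalSubgroup_le _ haf)
        have e2 : (⟨a⁻¹, hg⟩ : ↥(Subgroup.centralizer ({z} : Set G))) = (⟨a, haC⟩)⁻¹ := rfl
        rw [e2, map_inv, iha haf haC, inv_one]
    apply hc2
    have h1 := key _ (by rw [hfoc]; exact hc2S) (c ^ m).2
    exact h1
  · intro hC
    rw [eq_top_iff]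
    intro g _
    obtain ⟨k, -, hkodd, -, hkz⟩ := isolated_conj_exists hz g
    have hc : k⁻¹ * g ∈ Subgroup.centralizer ({z} : Set G) := by
      rw [Subgroup.mem_centralizer_iff]
      intro h hh
      rw [Set.mem_singleton_iff] at hh
      subst hh
      calc h * (k⁻¹ * g) = k⁻¹ * (k * h * k⁻¹) * g := by group
        _ = k⁻¹ * (g * h * g⁻¹) * g := by rw [hkz]
        _ = k⁻¹ * g * h := by group
    have h1 : ∀ c : ↥(Subgroup.centralizer ({z} : Set G)), (c : G) ∈ Cfsg.pResidual 2 G := by
      intro c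
      have hc' : c ∈ Cfsg.pResidual 2 ↥(Subgroup.centralizer ({z} : Set G)) := by
        rw [hC]; exact Subgroup.mem_top c
      unfold Cfsg.pResidual at hc'
      induction hc' using Subgroup.closure_induction with
      | mem x hx =>
        exact Subgroup.subset_closure
          (show Nat.Coprime (orderOf (x : G)) 2 by rw [Subgroup.orderOf_coe]; exact hx)
      | one => exact Subgroup.one_mem _
      | mul x y _ _ ihx ihy => exact Subgroup.mul_mem _ ihx ihy
      | inv x _ ih => exact Subgroup.inv_mem _ ih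
    have h2 := Subgroup.mul_mem _ (mem_pres_two_of_odd hkodd) (h1 ⟨_, hc⟩)
    rwa [mul_inv_cancel_left] at h2

end Cfsg.Agent.S1183
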