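import Cfsg.Statements.S1184
import Cfsg.Agent.Helper8.Isolated

set_option autoImplicit false
open Cfsg

namespace Cfsg.Agent.S1184

/-- Let z be an isolated involution of the finite group G. If s and t are distinct conjugates of z, then st does not commute with z. -/
theorem result {G : Type*} [Group G] [Finite G] (z : G) (hz : Cfsg.IsIsolatedInvolution z) (g h : G) (hne : g * z * g⁻¹ ≠ h * z * h⁻¹) : ¬ Commute (g * z * g⁻¹ * (h * z * h⁻¹)) z := by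
  intro hcomm
  obtain ⟨a, -, hao, hai, haz⟩ := Cfsg.Agent.Helper8.isolated_conj_exists hz g
  obtain ⟨b, -, hbo, hbi, hbz⟩ := Cfsg.Agent.Helper8.isolated_conj_exists hz h
  have hzz := Cfsg.Agent.Helper8.sq_of_orderOf_two hz.1
  have hzi : z⁻¹ = z := Cfsg.Agent.Helper8.inv_eq_self_of_sq hzz
  have hai' : z * a⁻¹ * z⁻¹ = a := by
    calc z * a⁻¹ * z⁻¹ = (z * a * z⁻¹)⁻¹ := by group
      _ = a := by rw [hai, inv_inv]
  have hbi' : z * b⁻¹ * z⁻¹ = b := by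
    calc z * b⁻¹ * z⁻¹ = (z * b * z⁻¹)⁻¹ := by group
      _ = b := by rw [hbi, inv_inv]
  -- s = a a z, t = b b z
  have hs : g * z * g⁻¹ = a * a * z := by
    rw [← haz]
    calc a * z * a⁻¹ = a * (z * a⁻¹ * z⁻¹) * z := by group
      _ = a * a * z := by rw [hai']
  have ht : h * z * h⁻¹ = b * b * z := by
    rw [← hbz]
    calc b * z * b⁻¹ = b * (z * b⁻¹ * z⁻¹) * z := by group
      _ = b * b * z := by rw [hbi']
  have hzb : z * b = b⁻¹ * z := by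
    calc z * b = (z * b * z⁻¹) * z := by group
      _ = b⁻¹ * z := by rw [hbi]
  have hzb' : ∀ u : G, z * (b * u) = b⁻¹ * (z * u) := fun u => by
    rw [← mul_assoc, hzb, mul_assoc]
  have hst : g * z * g⁻¹ * (h * z * h⁻¹) = (a⁻¹ * a⁻¹)⁻¹ * (b⁻¹ * b⁻¹) := by
    rw [hs, ht]
    simp only [mul_assoc, hzb', hzb, hzz, mul_one, mul_inv_rev, inv_inv]
  have oa : Odd (orderOf (a⁻¹ * a⁻¹)) := by
    have : orderOf (a⁻¹ * a⁻¹) ∣ orderOf a := by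
      rw [← pow_two, ← orderOf_inv a]
      exact orderOf_pow_dvd 2
    exact Odd.of_dvd_nat hao this
  have ob : Odd (orderOf (b⁻¹ * b⁻¹)) := by
    have : orderOf (b⁻¹ * b⁻¹) ∣ orderOf b := by
      rw [← pow_two, ← orderOf_inv b]
      exact orderOf_pow_dvd 2
    exact Odd.of_dvd_nat hbo this
  have ia : z * (a⁻¹ * a⁻¹) * z⁻¹ = (a⁻¹ * a⁻¹)⁻¹ := by
    calc z * (a⁻¹ * a⁻¹) * z⁻¹ = (z * a⁻¹ * z⁻¹) * (z * a⁻¹ * z⁻¹) := by group
      _ = (a⁻¹ * a⁻¹)⁻¹ := by rw [hai', mul_inv_rev, inv_inv]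
  have ib : z * (b⁻¹ * b⁻¹) * z⁻¹ = (b⁻¹ * b⁻¹)⁻¹ := by
    calc z * (b⁻¹ * b⁻¹) * z⁻¹ = (z * b⁻¹ * z⁻¹) * (z * b⁻¹ * z⁻¹) := by group
      _ = (b⁻¹ * b⁻¹)⁻¹ := by rw [hbi', mul_inv_rev, inv_inv]
  have hc : z * ((a⁻¹ * a⁻¹)⁻¹ * (b⁻¹ * b⁻¹)) = ((a⁻¹ * a⁻¹)⁻¹ * (b⁻¹ * b⁻¹)) * z := by
    rw [← hst]; exact hcomm.eq.symm
  have heq := Cfsg.Agent.Helper8.inverted_unique oa ia ob ib hc
  apply hne
  rw [hs, ht]
  have : a * a = b * b := by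
    have := congrArg (fun u => u⁻¹) heq
    simpa using this
  rw [this]

end Cfsg.Agent.S1184
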