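import Cfsg.Statements.S1185
import Cfsg.Agent.Helper8.Isolated

set_option autoImplicit false
open Cfsg

namespace Cfsg.Agent.S1185

/-- Let z be an isolated involution of the finite group G with centralizer C. Then for every g ∈ G there is exactly one element k in the coset gC that has odd order and is inverted by z. -/
theorem result {G : Type*} [Group G] [Finite G] (z : G) (hz : Cfsg.IsIsolatedInvolution z) (g : G) : ∃! k : G, (Odd (orderOf k) ∧ z * k * z⁻¹ = k⁻¹) ∧ g⁻¹ * k ∈ Subgroup.centralizer ({z} : Set G) := by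
  obtain ⟨k, -, hodd, hinv, hkz⟩ := Cfsg.Agent.Helper8.isolated_conj_exists hz g
  have memC : ∀ x : G, x ∈ Subgroup.centralizer ({z} : Set G) ↔ z * x = x * z := by
    intro x
    rw [Subgroup.mem_centralizer_iff]
    simp
  have hk : g⁻¹ * k ∈ Subgroup.centralizer ({z} : Set G) := by
    rw [memC]
    calc z * (g⁻¹ * k) = g⁻¹ * (g * z * g⁻¹) * k := by group
      _ = g⁻¹ * (k * z * k⁻¹) * k := by rw [hkz]
      _ = g⁻¹ * k * z := by group
  refine ⟨k, ⟨⟨hodd, hinv⟩, hk⟩, ?_⟩
  rintro k' ⟨⟨hodd', hinv'⟩, hk'⟩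
  symm
  apply Cfsg.Agent.Helper8.inverted_unique hodd hinv hodd' hinv'
  have : k⁻¹ * k' = (g⁻¹ * k)⁻¹ * (g⁻¹ * k') := by group
  rw [this]
  exact ((memC _).mp (Subgroup.mul_mem _ (Subgroup.inv_mem _ hk) hk'))

end Cfsg.Agent.S1185
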