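import Cfsg.Statements.S1186
import Cfsg.Agent.Helper8.IsoCount

set_option autoImplicit false
open Cfsg

namespace Cfsg.Agent.S1186

open Cfsg.Agent.Helper8 in
/-- Let z be an isolated involution of the finite group G, C = C_G(z), K the set of elements of odd order inverted by z, and s an involution of C. Then |G| = |C| · |C_K(sz)| · |C_K(s)|. -/
theorem result {G : Type*} [Group G] [Finite G] (z : G) (hz : Cfsg.IsIsolatedInvolution z) (s : G) (hs : orderOf s = 2) (hsz : Commute s z) : Nat.card G = Nat.card (Subgroup.centralizer ({z} : Set G)) * Nat.card {k : G // Odd (orderOf k) ∧ z * k * z⁻¹ = k⁻¹ ∧ Commute k (s * z)} * Nat.card {k : G // Odd (orderOf k) ∧ z * k * z⁻¹ = k⁻¹ ∧ Commute k s} := by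
  have hss := sq_of_orderOf_two hs
  have hzz := sq_of_orderOf_two hz.1
  have hK1 := isoK_card hz (x := s * z) (hsz.mul_left (Commute.refl z))
  have hK2 := isoK_card hz (x := s) hsz
  rw [hK1, hK2, isoZ_card_mul z, mul_assoc]
  congr 1
  by_cases h : s = z
  · have e1 : Nat.card {y : G // y ∈ isoZ z ∧ Commute y (s * z)} =
        Nat.card {y : G // y ∈ isoZ z} := by
      refine Nat.card_congr (Equiv.subtypeEquivRight ?_)
      intro y
      rw [h, hzz]
      exact ⟨fun h => h.1, fun h => ⟨h, Commute.one_right y⟩⟩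
    have e2 : Nat.card {y : G // y ∈ isoZ z ∧ Commute y s} = 1 := by
      rw [Nat.card_eq_one_iff_unique]
      refine ⟨⟨?_⟩, ⟨⟨z, isoZ_self z, hsz.symm⟩⟩⟩
      rintro ⟨a, ⟨g, rfl⟩, ha⟩ ⟨b, ⟨g', rfl⟩, hb⟩
      apply Subtype.ext
      rw [h] at ha hb
      show g * z * g⁻¹ = g' * z * g'⁻¹
      rw [hz.2 g ha.symm, hz.2 g' hb.symm]
    rw [e1, e2, mul_one]
  · rw [isoZ_card_fiber hz hss hsz h, mul_comm]

end Cfsg.Agent.S1186
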