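import Cfsg.Statements.S1224
import Cfsg.Agent.Helper8.StronglyEmbedded

set_option autoImplicit false
open Cfsg

namespace Cfsg.Agent.S1224

open Cfsg.Agent.Helper8 in
/-- Let H be a strongly embedded subgroup of the finite group G and x ≠ y two cosets in G/H. Then the number of involutions i of G with i • x = y equals the number of involutions lying in H. -/
theorem result {G : Type*} [Group G] [Finite G] (H : Subgroup G) (hH : Cfsg.IsStronglyEmbedded H) (x y : G ⧸ H) (hxy : x ≠ y) : Nat.card {i : G // orderOf i = 2 ∧ i • x = y} = Nat.card {t : G // orderOf t = 2 ∧ t ∈ H} := by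
  have huf := se_uf hH
  obtain ⟨a, rfl⟩ := QuotientGroup.mk_surjective x
  obtain ⟨b, rfl⟩ := QuotientGroup.mk_surjective y
  have e1 : Nat.card {i : G // orderOf i = 2 ∧ i • (QuotientGroup.mk a : G ⧸ H) = QuotientGroup.mk b}
      = Nat.card (invSwap G (QuotientGroup.mk a : G ⧸ H) (QuotientGroup.mk b)) := by
    apply Nat.card_congr
    apply Equiv.subtypeEquivRight
    intro i
    show _ ↔ (i ≠ 1 ∧ i * i = 1 ∧ _)
    rw [orderOf_two_iff, and_assoc]
  have e2 : Nat.card {t : G // orderOf t = 2 ∧ t ∈ H}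
      = Nat.card (invFix G (QuotientGroup.mk 1 : G ⧸ H)) := by
    apply Nat.card_congr
    apply Equiv.subtypeEquivRight
    intro t
    show _ ↔ (t ≠ 1 ∧ t * t = 1 ∧ _)
    rw [orderOf_two_iff, and_assoc, smul_mk_eq_iff]
    simp
  have ha : a • (QuotientGroup.mk 1 : G ⧸ H) = QuotientGroup.mk a := by
    rw [MulAction.Quotient.smul_mk]; simp
  have hg : (b * a⁻¹) • (QuotientGroup.mk a : G ⧸ H) = QuotientGroup.mk b := by
    rw [MulAction.Quotient.smul_mk]; simp
  obtain ⟨t, htH, ht1, htt⟩ := se_exists_invol hH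
  have ht : t ∈ invFix G (QuotientGroup.mk 1 : G ⧸ H) :=
    ⟨ht1, htt, by rw [smul_mk_eq_iff]; simpa using htH⟩
  have hne : (invFix G (QuotientGroup.mk a : G ⧸ H)).Nonempty := ⟨_, invFix_conj ha ht⟩
  rw [e1, e2, card_invSwap_eq huf hxy hg hne, card_invFix_eq ha]

end Cfsg.Agent.S1224
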