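import Cfsg.Statements.S1225
import Cfsg.Agent.Helper8.StronglyEmbedded

set_option autoImplicit false
open Cfsg

namespace Cfsg.Agent.S1225

open Cfsg.Agent.Helper8 in
/-- Let H be a strongly embedded subgroup of the finite group G, u an involution outside H and D = H ∩ uHu⁻¹. Then any two involutions of H are conjugate by an element of D, and any two involutions of G are conjugate in G. -/
theorem result {G : Type*} [Group G] [Finite G] (H : Subgroup G) (hH : Cfsg.IsStronglyEmbedded H) (u : G) (hu : orderOf u = 2) (huH : u ∉ H) (s t : G) (hs : orderOf s = 2) (hsH : s ∈ H) (ht : orderOf t = 2) (htH : t ∈ H) : (∃ d ∈ (H ⊓ H.map (MulAut.conj u).toMonoidHom), d * s * d⁻¹ = t) ∧ ∀ a b : G, orderOf a = 2 → orderOf b = 2 → IsConj a b := by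
  have huf := se_uf hH
  have hsmul : ∀ g : G, g • (QuotientGroup.mk 1 : G ⧸ H) = QuotientGroup.mk g := by
    intro g; rw [MulAction.Quotient.smul_mk]; simp
  have fix1 : ∀ v : G, v ≠ 1 → v * v = 1 → v ∈ H → v ∈ invFix G (QuotientGroup.mk 1 : G ⧸ H) := by
    intro v h1 h2 h3
    exact ⟨h1, h2, by rw [smul_mk_eq_iff]; simpa using h3⟩
  have hs' := fix1 s (ne_one_of_orderOf_two hs) (sq_of_orderOf_two hs) hsH
  have ht' := fix1 t (ne_one_of_orderOf_two ht) (sq_of_orderOf_two ht) htH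
  have hne : ∀ g : G, g ∉ H → (QuotientGroup.mk 1 : G ⧸ H) ≠ QuotientGroup.mk g := by
    intro g hg h
    rw [QuotientGroup.eq] at h
    apply hg; simpa using h
  constructor
  · have hxy := hne u huH
    have hney : (invFix G (QuotientGroup.mk u : G ⧸ H)).Nonempty := ⟨_, invFix_conj (hsmul u) hs'⟩
    obtain ⟨d, hdx, hdy, hd⟩ := exists_conj_invFix huf hxy hs' ht' hney
    refine ⟨d, Subgroup.mem_inf.mpr ⟨?_, ?_⟩, hd⟩
    · rw [smul_mk_eq_iff] at hdx; simpa using hdx
    · rw [mem_map_conj_iff]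
      rw [smul_mk_eq_iff] at hdy; exact hdy
  · intro a b ha hb
    have ha1 := ne_one_of_orderOf_two ha
    have haa := sq_of_orderOf_two ha
    have hb1 := ne_one_of_orderOf_two hb
    have hbb := sq_of_orderOf_two hb
    obtain ⟨p, hp, -⟩ := huf a ha1 haa
    obtain ⟨q, hq, -⟩ := huf b hb1 hbb
    have hap : a ∈ invFix G p := ⟨ha1, haa, hp⟩
    have hbq : b ∈ invFix G q := ⟨hb1, hbb, hq⟩
    by_cases hpq : p = q
    · subst hpq
      obtain ⟨g, rfl⟩ := QuotientGroup.mk_surjective p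
      have hne' : (QuotientGroup.mk g : G ⧸ H) ≠ QuotientGroup.mk (g * u) := by
        intro h
        rw [QuotientGroup.eq] at h
        apply huH; simpa using h
      have hs'' : (g * u) * s * (g * u)⁻¹ ∈ invFix G (QuotientGroup.mk (g * u) : G ⧸ H) :=
        invFix_conj (hsmul (g * u)) hs'
      obtain ⟨w₁, -, h1, -, -⟩ := exists_invSwap huf hne' hap hs''
      obtain ⟨w₂, -, -, h2, -⟩ := exists_invSwap huf hne' hbq hs''
      rw [isConj_iff]
      refine ⟨w₂ * w₁, ?_⟩
      calc w₂ * w₁ * a * (w₂ * w₁)⁻¹ = w₂ * (w₁ * a * w₁⁻¹) * w₂⁻¹ := by group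
        _ = b := by rw [h1, h2]
    · obtain ⟨w, -, h1, -, -⟩ := exists_invSwap huf hpq hap hbq
      rw [isConj_iff]
      exact ⟨w, h1⟩

end Cfsg.Agent.S1225
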