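import Cfsg.Statements.S1227
import Cfsg.Agent.Helper8.ElemCent2

set_option autoImplicit false
open Cfsg

namespace Cfsg.Agent.S1227

open Cfsg.Agent.Helper8 in
/-- Let G be a finite group with a Sylow 2-subgroup T that is neither cyclic nor normal, such that the centralizer of every involution is an elementary abelian 2-group; put H = N_G(T), let u be an involution outside H and D = H ∩ uHu⁻¹. Then u inverts every element of D, |H| = |T|·(|T| − 1), and D is a complement to T in H. -/
theorem result {G : Type*} [Group G] [Finite G] (T : Sylow 2 G) (hnc : ¬ IsCyclic (T : Subgroup G)) (hnn : ¬ (T : Subgroup G).Normal) (hC : ∀ t : G, orderOf t = 2 → IsMulCommutative (Subgroup.centralizer ({t} : Set G)) ∧ ∀ c ∈ Subgroup.centralizer ({t} : Set G), c ^ 2 = 1) (u : G) (hu : orderOf u = 2) (huH : u ∉ Subgroup.normalizer ((T : Subgroup G) : Set G)) : (∀ d ∈ Subgroup.normalizer ((T : Subgroup G) : Set G) ⊓ (Subgroup.normalizer ((T : Subgroup G) : Set G)).map (MulAut.conj u).toMonoidHom, u * d * u⁻¹ = d⁻¹) ∧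 Nat.card (Subgroup.normalizer ((T : Subgroup G) : Set G)) = Nat.card T * (Nat.card T - 1) ∧ Subgroup.IsComplement' ((Subgroup.normalizer ((T : Subgroup G) : Set G) ⊓ (Subgroup.normalizer ((T : Subgroup G) : Set G)).map (MulAut.conj u).toMonoidHom).subgroupOf (Subgroup.normalizer ((T : Subgroup G) : Set G))) ((T : Subgroup G).subgroupOf (Subgroup.normalizer ((T : Subgroup G) : Set G))) := by
  have hu2 : u * u = 1 := sq_of_orderOf_two hu
  have hcompl : Subgroup.IsComplement' ((ecD T u).subgroupOf (ecH T))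
      ((T : Subgroup G).subgroupOf (ecH T)) := by
    apply Subgroup.isComplement'_of_disjoint_and_mul_eq_univ
    · rw [Subgroup.disjoint_def]
      intro x hx1 hx2
      rw [Subgroup.mem_subgroupOf] at hx1 hx2
      exact Subtype.ext (ec_D_inter_T T hnc hnn hC huH hx1 hx2)
    · rw [Set.eq_univ_iff_forall]
      intro h
      obtain ⟨d, hd, t, ht, hfac⟩ := ec_factor T hnc hnn hC huH h.2
      refine Set.mem_mul.mpr ⟨⟨d, (Subgroup.mem_inf.mp hd).1⟩, ?_, ⟨t, Subgroup.le_normalizer ht⟩, ?_, ?_⟩
      · exact Subgroup.mem_subgroupOf.mpr hd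
      · exact Subgroup.mem_subgroupOf.mpr ht
      · exact Subtype.ext hfac.symm
  refine ⟨fun d hd => ec_inverts T hnc hnn hC hu2 huH hd, ?_, hcompl⟩
  have h1 := hcompl.card_mul_card
  have h2 : Nat.card ((ecD T u).subgroupOf (ecH T)) = Nat.card (ecD T u) :=
    Nat.card_congr (Subgroup.subgroupOfEquivOfLe inf_le_left).toEquiv
  have h3 : Nat.card ((T : Subgroup G).subgroupOf (ecH T)) = Nat.card (T : Subgroup G) :=
    Nat.card_congr (Subgroup.subgroupOfEquivOfLe Subgroup.le_normalizer).toEquiv
  rw [h2, h3, ec_card_D T hnc hnn hC huH, mul_comm] at h1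
  exact h1.symm

end Cfsg.Agent.S1227
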