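import Cfsg.Statements.S1228
import Cfsg.Agent.Helper8.ElemCent2

set_option autoImplicit false
open Cfsg

namespace Cfsg.Agent.S1228

open Cfsg.Agent.Helper8 in
/-- Let G be a finite group with a Sylow 2-subgroup T that is neither cyclic nor normal, such that the centralizer of every involution is an elementary abelian 2-group; put H = N_G(T), let u be an involution outside H and D = H ∩ uHu⁻¹. Then N_G(D) = D ⊔ ⟨u⟩, and a coset gH is fixed by every element of D exactly when gH = H or gH = uH. -/
theorem result {G : Type*} [Group G] [Finite G] (T : Sylow 2 G) (hnc : ¬ IsCyclic (T : Subgroup G)) (hnn : ¬ (T : Subgroup G).Normal) (hC : ∀ t : G, orderOf t = 2 → IsMulCommutative (Subgroup.centralizer ({t} : Set G)) ∧ ∀ c ∈ Subgroup.centralizer ({t} : Set G), c ^ 2 = 1) (u : G) (hu : orderOf u = 2) (huH : u ∉ Subgroup.normalizer ((T : Subgroup G) : Set G)) : Subgroup.normalizer ((Subgroup.normalizer ((T : Subgroup G) : Set G) ⊓ (Subgroup.normalizer ((T : Subgroup G) : Set G)).map (MulAut.conj u).toMonoidHom : Subgroup G) : Set G) = (Subgroup.normalizer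 ((T : Subgroup G) : Set G) ⊓ (Subgroup.normalizer ((T : Subgroup G) : Set G)).map (MulAut.conj u).toMonoidHom) ⊔ Subgroup.zpowers u ∧ ∀ g : G, ((∀ d ∈ Subgroup.normalizer ((T : Subgroup G) : Set G) ⊓ (Subgroup.normalizer ((T : Subgroup G) : Set G)).map (MulAut.conj u).toMonoidHom, d • (QuotientGroup.mk g : G ⧸ Subgroup.normalizer ((T : Subgroup G) : Set G)) = QuotientGroup.mk g) ↔ (QuotientGroup.mk g : G ⧸ Subgroup.normalizer ((T : Subgroup G) : Set G)) = QuotientGroup.mk 1 ∨ (QuotientGroup.mk g : G ⧸ Subgroup.normalizer ((T : Subgroup G) : Set G)) = QuotientGroup.mk u) := by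
  have hu2 : u * u = 1 := sq_of_orderOf_two hu
  have hui : u⁻¹ = u := inv_eq_self_of_sq hu2
  have hinv : ∀ d ∈ ecD T u, u * d * u⁻¹ = d⁻¹ :=
    fun d hd => ec_inverts T hnc hnn hC hu2 huH hd
  have hxy := ec_x_ne_y T huH
  have husw := ec_u_swap T hu2 huH
  constructor
  · apply le_antisymm
    · intro n hn
      have hfix : ∀ q : G ⧸ ecH T, (∀ d ∈ ecD T u, d • q = q) →
          ∀ d ∈ ecD T u, d • (n • q) = n • q := by
        intro q hq d hd
        have hd' : n⁻¹ * d * n ∈ ecD T u := (Subgroup.mem_normalizer_iff''.mp hn d).mp hd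
        have : d * n = n * (n⁻¹ * d * n) := by group
        rw [← mul_smul, this, mul_smul, hq _ hd']
      have hx : ∀ d ∈ ecD T u, d • (QuotientGroup.mk 1 : G ⧸ ecH T) = QuotientGroup.mk 1 :=
        fun d hd => ((mem_ecD_iff T u d).mp hd).1
      have hy : ∀ d ∈ ecD T u, d • (u • (QuotientGroup.mk 1 : G ⧸ ecH T)) =
          u • (QuotientGroup.mk 1 : G ⧸ ecH T) :=
        fun d hd => ((mem_ecD_iff T u d).mp hd).2
      have h1 := ec_fix_D T hnc hnn hC hu2 huH (hfix _ hx)
      have h2 := ec_fix_D T hnc hnn hC hu2 huH (hfix _ hy)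
      rcases h1 with h1 | h1
      · have h2' : n • (u • (QuotientGroup.mk 1 : G ⧸ ecH T)) =
            u • (QuotientGroup.mk 1 : G ⧸ ecH T) := by
          rcases h2 with h2 | h2
          · exfalso
            apply hxy
            exact smul_left_cancel n (h1.trans h2.symm)
          · exact h2
        exact Subgroup.mem_sup_left ((mem_ecD_iff T u n).mpr ⟨h1, h2'⟩)
      · have h2' : n • (u • (QuotientGroup.mk 1 : G ⧸ ecH T)) = QuotientGroup.mk 1 := by
          rcases h2 with h2 | h2
          · exact h2
          · exfalso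
            apply hxy
            exact smul_left_cancel n (h2.trans h1.symm).symm
        have hmem : u * n ∈ ecD T u := by
          rw [mem_ecD_iff, mul_smul, mul_smul, h1, h2']
          exact ⟨invSwap_symm husw, rfl⟩
        have : n = u * (u * n) := by rw [← mul_assoc, hu2, one_mul]
        rw [this]
        exact Subgroup.mul_mem _ (Subgroup.mem_sup_right (Subgroup.mem_zpowers u))
          (Subgroup.mem_sup_left hmem)
    · apply sup_le
      · exact Subgroup.le_normalizer
      · rw [Subgroup.zpowers_le, Subgroup.mem_normalizer_iff]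
        intro d
        constructor
        · intro hd
          rw [hinv d hd]
          exact Subgroup.inv_mem _ hd
        · intro hd
          have := hinv _ hd
          have e : u * (u * d * u⁻¹) * u⁻¹ = d := by
            rw [hui]
            simp only [mul_assoc]
            rw [hu2, mul_one, ← mul_assoc, hu2, one_mul]
          rw [e] at this
          rw [this]
          exact Subgroup.inv_mem _ hd
  · intro g
    constructor
    · intro h
      have := ec_fix_D T hnc hnn hC hu2 huH h
      rwa [smul_mk_one] at this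
    · rintro (h | h) d hd
      · rw [h]; exact ((mem_ecD_iff T u d).mp hd).1
      · rw [h, ← smul_mk_one (ecH T) u]; exact ((mem_ecD_iff T u d).mp hd).2

end Cfsg.Agent.S1228
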