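import Cfsg.Statements.S1231
import Cfsg.Agent.Helper8.PRank

set_option autoImplicit false
open Cfsg

namespace Cfsg.Agent.S1231

open Cfsg.Agent.Helper8 in
/-- Let H be a subgroup of the finite group G, p a prime, k ≥ 1, and P a Sylow p-subgroup of H whose p-rank is at least k. Then N_G(X) ≤ H for every subgroup X of P of p-rank at least k if and only if H ∩ gHg⁻¹ has p-rank less than k for every g ∉ H. -/
theorem result {G : Type*} [Group G] [Finite G] {p : ℕ} [Fact p.Prime] (k : ℕ) (hk : 1 ≤ k) (H : Subgroup G) (P : Sylow p ↥H) (hP : ¬ Cfsg.PRankLE p (k - 1) ↥(P : Subgroup ↥H)) : (∀ X : Subgroup G, X ≤ (P : Subgroup ↥H).map H.subtype → ¬ Cfsg.PRankLE p (k - 1) ↥X → Subgroup.normalizer (X : Set G) ≤ H) ↔ (∀ g : G, g ∉ H → Cfsg.PRankLE p (k - 1) ↥(H ⊓ H.map (MulAut.conj g).toMonoidHom)) := by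
  set P' : Subgroup G := (P : Subgroup ↥H).map H.subtype with hP'
  have hP'H : P' ≤ H := Subgroup.map_subtype_le _
  have hP'p : IsPGroup p P' := P.isPGroup'.map _
  have hP'EA : HasEA p (k - 1) P' := by
    obtain ⟨A, hAP, hc, he, hcard⟩ := (not_prankLE_iff (P : Subgroup ↥H)).mp hP
    refine ⟨A.map H.subtype, Subgroup.map_mono hAP, inferInstance, ?_, ?_⟩
    · rintro _ ⟨a, ha, rfl⟩
      rw [← map_pow, he a ha, map_one]
    · rw [Subgroup.card_map_of_injective H.subtype_injective]
      exact hcard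
  constructor
  · intro hN g hg
    by_contra hrank
    rw [not_prankLE_iff] at hrank
    have key : ∀ n : ℕ, ∀ U : Subgroup G, Nat.card G - Nat.card U = n → IsPGroup p U →
        HasEA p (k - 1) U → (∃ g : G, g ∉ H ∧ U ≤ H ∧ ∀ u ∈ U, g⁻¹ * u * g ∈ H) → False := by
      intro n
      induction n using Nat.strong_induction_on with
      | _ n ih =>
        intro U hn hUp hUEA ⟨g, hg, hUH, hUg⟩
        obtain ⟨h, hh, hhU⟩ := sylow_conj_into P hUp hUH
        have hVp : IsPGroup p (U.map (MulAut.conj g⁻¹).toMonoidHom) := hUp.map _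
        have hVH : U.map (MulAut.conj g⁻¹).toMonoidHom ≤ H := by
          rintro _ ⟨u, hu, rfl⟩
          have := hUg u hu
          simpa using this
        obtain ⟨h', hh', hh'U⟩ := sylow_conj_into P hVp hVH
        set g₁ := h * g * h'⁻¹ with hg₁
        have hg₁H : g₁ ∉ H := by
          intro hmem
          apply hg
          have : g = h⁻¹ * g₁ * h' := by rw [hg₁]; group
          rw [this]
          exact Subgroup.mul_mem _ (Subgroup.mul_mem _ (Subgroup.inv_mem _ hh) hmem) hh'
        set U₁ := U.map (MulAut.conj h).toMonoidHom with hU₁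
        have hU₁P : U₁ ≤ P' := by
          rintro _ ⟨u, hu, rfl⟩
          exact hhU u hu
        have hU₁g : ∀ v ∈ U₁, g₁⁻¹ * v * g₁ ∈ P' := by
          rintro _ ⟨u, hu, rfl⟩
          have := hh'U (g⁻¹ * u * g) ⟨u, hu, by simp⟩
          have e : g₁⁻¹ * ((MulAut.conj h).toMonoidHom u) * g₁ = h' * (g⁻¹ * u * g) * h'⁻¹ := by
            simp [hg₁, mul_assoc]
          rw [e]; exact this
        have hU₁EA : HasEA p (k - 1) U₁ := hasEA_conj h hUEA
        have hNU₁ : Subgroup.normalizer (U₁ : Set G) ≤ H :=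
          hN U₁ hU₁P ((not_prankLE_iff U₁).mpr hU₁EA)
        set P₁ := P'.map (MulAut.conj g₁).toMonoidHom with hP₁
        have hP₁p : IsPGroup p P₁ := hP'p.map _
        have hU₁P₁ : U₁ ≤ P₁ := by
          intro v hv
          rw [hP₁, mem_map_conj_iff]
          exact hU₁g v hv
        have hne : U₁ ≠ P₁ := by
          intro heq
          have hle : P₁ ≤ P' := heq ▸ hU₁P
          have hcard : Nat.card P₁ = Nat.card P' :=
            Subgroup.card_map_of_injective (MulAut.conj g₁).injective
          have heq2 : P₁ = P' := Subgroup.eq_of_le_of_card_ge hle hcard.ge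
          have hmem : g₁ ∈ Subgroup.normalizer (P' : Set G) :=
            Subgroup.mem_normalizer_iff_map_conj_eq.mpr heq2
          exact hg₁H (hN P' le_rfl ((not_prankLE_iff P').mpr hP'EA) hmem)
        obtain ⟨s, hsP₁, hsU₁, hsN⟩ := exists_normalizer_of_lt hP₁p (lt_of_le_of_ne hU₁P₁ hne)
        set U₂ := P₁ ⊓ Subgroup.normalizer (U₁ : Set G) with hU₂
        have hU₁U₂ : U₁ ≤ U₂ := le_inf hU₁P₁ Subgroup.le_normalizer
        have hU₂p : IsPGroup p U₂ := hP₁p.to_le inf_le_left
        have hcardU : Nat.card U₁ = Nat.card U :=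
          Subgroup.card_map_of_injective (MulAut.conj h).injective
        have hlt : Nat.card U₁ < Nat.card U₂ := by
          by_contra hle
          have := Subgroup.eq_of_le_of_card_ge hU₁U₂ (not_lt.mp hle)
          apply hsU₁
          rw [this]
          exact Subgroup.mem_inf.mpr ⟨hsP₁, hsN⟩
        have hU₂G := Subgroup.card_le_card_group U₂
        have hUG := Subgroup.card_le_card_group U
        refine ih (Nat.card G - Nat.card U₂) (by omega) U₂ rfl hU₂p (hasEA_mono hU₁U₂ hU₁EA)
          ⟨g₁, hg₁H, inf_le_right.trans hNU₁, ?_⟩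
        intro u hu
        have : u ∈ P₁ := (Subgroup.mem_inf.mp hu).1
        rw [hP₁, mem_map_conj_iff] at this
        exact hP'H this
    obtain ⟨A, hA, hc, he, hcard⟩ := hrank
    have hAp : IsPGroup p A := by
      intro a
      refine ⟨1, ?_⟩
      apply Subtype.ext
      simpa using he a.1 a.2
    refine key _ A rfl hAp ⟨A, le_rfl, hc, he, hcard⟩ ⟨g, hg, hA.trans inf_le_left, ?_⟩
    intro u hu
    have := (Subgroup.mem_inf.mp (hA hu)).2
    rwa [mem_map_conj_iff] at this
  · intro hR X hX hrank n hn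
    by_contra hnH
    have h1 := hR n hnH
    apply (not_prankLE_iff _).mpr _ h1
    refine hasEA_mono ?_ ((not_prankLE_iff X).mp hrank)
    intro x hx
    refine Subgroup.mem_inf.mpr ⟨hP'H (hX hx), ?_⟩
    rw [mem_map_conj_iff]
    exact hP'H (hX ((Subgroup.mem_normalizer_iff''.mp hn x).mp hx))

end Cfsg.Agent.S1231
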