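import Cfsg.Statements.S1236
import Cfsg.Agent.Helper8.QD

set_option autoImplicit false
open Cfsg

namespace Cfsg.Agent.S1236


open Cfsg.Agent.Helper8 in
theorem cent_eq_of_small {D : Type*} [Group D] [Finite D] (V : Subgroup D) (hV4 : Nat.card V = 4)
    (hcomm : ∀ a ∈ V, ∀ b ∈ V, a * b = b * a) (u : D) (hu : u ∈ V)
    (T : Finset D) (hT : T.card ≤ 4) (hC : ∀ c : D, u * c = c * u → c ∈ T) :
    Subgroup.centralizer (V : Set D) = V := by
  have h1 : V ≤ Subgroup.centralizer ({u} : Set D) := by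
    intro v hv
    rw [Subgroup.mem_centralizer_iff]
    intro w hw
    rw [Set.mem_singleton_iff] at hw
    subst hw
    exact hcomm _ hu _ hv
  have h2 : Nat.card (Subgroup.centralizer ({u} : Set D)) ≤ 4 := by
    calc Nat.card (Subgroup.centralizer ({u} : Set D))
        = ((Subgroup.centralizer ({u} : Set D) : Subgroup D) : Set D).ncard :=
          Nat.card_coe_set_eq _
      _ ≤ (T : Set D).ncard := Set.ncard_le_ncard (fun c hc =>
          hC c (Subgroup.mem_centralizer_iff.mp hc u (Set.mem_singleton u))) T.finite_toSet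
      _ = T.card := Set.ncard_coe_finset T
      _ ≤ 4 := hT
  have h3 : V = Subgroup.centralizer ({u} : Set D) :=
    Subgroup.eq_of_le_of_card_ge h1 (by rw [hV4]; exact h2)
  apply le_antisymm
  · intro c hc
    rw [h3, Subgroup.mem_centralizer_iff]
    intro w hw
    rw [Set.mem_singleton_iff] at hw
    subst hw
    exact Subgroup.mem_centralizer_iff.mp hc _ hu
  · intro v hv
    rw [Subgroup.mem_centralizer_iff]
    intro w hw
    exact hcomm _ hw _ hv

theorem card_le_two_of_subset {D : Type*} [Group D] (V : Subgroup D) (a b : D)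
    (h : ∀ v ∈ V, v = a ∨ v = b) : Nat.card V ≤ 2 := by
  classical
  calc Nat.card V = (V : Set D).ncard := Nat.card_coe_set_eq _
    _ ≤ (({a, b} : Finset D) : Set D).ncard := Set.ncard_le_ncard (fun v hv => by
        rcases h v hv with h | h <;> simp [h]) (Finset.finite_toSet _)
    _ = ({a, b} : Finset D).card := Set.ncard_coe_finset _
    _ ≤ 2 := Finset.card_le_two

theorem qd_div_aux (q k : ℤ) (h : 8 * q ∣ k * (4 * q - 2)) : 4 * q ∣ k := by
  obtain ⟨c, hc⟩ := h
  have hc' : k * (2 * q - 1) = 4 * q * c := by linarith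
  exact ⟨q * k - c * (2 * q + 1), by linear_combination (-(2 * q + 1)) * hc'⟩

theorem zmod_double_zero {m : ℕ} [NeZero m] (j : ZMod m) (hj : j + j = 0) :
    j = 0 ∨ j = ((m / 2 : ℕ) : ZMod m) := by
  have h : ((j.val + j.val : ℕ) : ZMod m) = 0 := by
    rw [Nat.cast_add, ZMod.natCast_zmod_val]; exact hj
  rw [ZMod.natCast_eq_zero_iff] at h
  obtain ⟨k, hk⟩ := h
  have hlt := ZMod.val_lt j
  rcases k with _ | _ | k
  · left
    have : j.val = 0 := by rw [Nat.mul_zero] at hk; omega
    exact (ZMod.val_eq_zero j).mp this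
  · right
    have : j.val = m / 2 := by rw [Nat.zero_add, Nat.mul_one] at hk; omega
    rw [← this, ZMod.natCast_zmod_val]
  · exfalso
    have : m * (k + 1 + 1) ≥ m * 2 := Nat.mul_le_mul_left m (by omega)
    omega

open Cfsg.Agent.Helper8 in
theorem qd_four_self_cent {D : Type*} [Group D] [Finite D] (hD : Cfsg.IsQuasiDihedral D)
    (V : Subgroup D) (hV4 : Nat.card V = 4) (hcomm : ∀ a ∈ V, ∀ b ∈ V, a * b = b * a)
    (hsq : ∀ v ∈ V, v * v = 1) : Subgroup.centralizer (V : Set D) = V := by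
  classical
  obtain ⟨n, x, y, h⟩ := exists_QD hD
  have hex : ∃ u ∈ V, ∃ a : ℤ, u = x ^ a * y := by
    by_contra hno
    push Not at hno
    have : Nat.card V ≤ 2 := by
      apply card_le_two_of_subset V 1 (x ^ (4 * qdq n))
      intro v hv
      rcases h.cases v with ⟨a, rfl⟩ | ⟨a, rfl⟩
      · exact h.x_sq_eq_one a (hsq _ hv)
      · exact absurd rfl (hno _ hv a)
    omega
  obtain ⟨u, hu, a, rfl⟩ := hex
  have hzz : ∀ b : ℤ, 4 * qdq n ∣ b → x ^ b = 1 ∨ x ^ b = x ^ (4 * qdq n) := by
    intro b hb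
    apply h.x_sq_eq_one b
    rw [← zpow_add, h.x_zpow_eq_one_iff]
    obtain ⟨c, rfl⟩ := hb
    exact ⟨c, by ring⟩
  apply cent_eq_of_small V hV4 hcomm (x ^ a * y) hu
    {1, x ^ (4 * qdq n), x ^ a * y, x ^ (4 * qdq n) * (x ^ a * y)} Finset.card_le_four
  intro c hc
  rcases h.cases c with ⟨b, rfl⟩ | ⟨b, rfl⟩
  · rw [h.xy_mul_x a b, h.x_mul_xy b a, h.xy_eq_iff] at hc
    have hd : 4 * qdq n ∣ b := by
      apply qd_div_aux (qdq n) b
      have e : a + b * (4 * qdq n - 1) - (b + a) = b * (4 * qdq n - 2) := by ring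
      rwa [e] at hc
    rcases hzz b hd with h1 | h1 <;> simp [h1]
  · rw [h.xy_mul_xy a b, h.xy_mul_xy b a, h.x_zpow_eq_iff] at hc
    have hd : 4 * qdq n ∣ b - a := by
      apply qd_div_aux (qdq n) (b - a)
      have e : a + b * (4 * qdq n - 1) - (b + a * (4 * qdq n - 1)) = (b - a) * (4 * qdq n - 2) := by
        ring
      rwa [e] at hc
    have e2 : x ^ b * y = x ^ (b - a) * (x ^ a * y) := by rw [h.x_mul_xy, sub_add_cancel]
    rw [e2]
    rcases hzz (b - a) hd with h1 | h1 <;> rw [h1] <;> simp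

theorem dih_four_self_cent {D : Type*} [Group D] [Finite D] {m : ℕ} (hm : 2 ≤ m)
    (e : D ≃* DihedralGroup m)
    (V : Subgroup D) (hV4 : Nat.card V = 4) (hcomm : ∀ a ∈ V, ∀ b ∈ V, a * b = b * a)
    (hsq : ∀ v ∈ V, v * v = 1) : Subgroup.centralizer (V : Set D) = V := by
  classical
  have : NeZero m := ⟨by omega⟩
  have hex : ∃ u ∈ V, ∃ i : ZMod m, e u = DihedralGroup.sr i := by
    by_contra hno
    push Not at hno
    have : Nat.card V ≤ 2 := by
      apply card_le_two_of_subset V (e.symm (DihedralGroup.r 0))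
        (e.symm (DihedralGroup.r ((m / 2 : ℕ) : ZMod m)))
      intro v hv
      have hv2 : e v * e v = 1 := by rw [← map_mul, hsq v hv, map_one]
      cases hev : e v with
      | r j =>
        rw [hev, DihedralGroup.r_mul_r, DihedralGroup.one_def] at hv2
        have hjj : j + j = 0 := DihedralGroup.r.inj hv2
        rcases zmod_double_zero j hjj with h0 | h0
        · left; rw [← h0, ← hev, e.symm_apply_apply]
        · right; rw [← h0, ← hev, e.symm_apply_apply]
      | sr j => exact absurd hev (hno v hv j)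
    omega
  obtain ⟨u, hu, i, hui⟩ := hex
  apply cent_eq_of_small V hV4 hcomm u hu
    {e.symm (DihedralGroup.r 0), e.symm (DihedralGroup.r ((m / 2 : ℕ) : ZMod m)),
      e.symm (DihedralGroup.sr i), e.symm (DihedralGroup.sr (i + ((m / 2 : ℕ) : ZMod m)))}
    Finset.card_le_four
  intro c hc
  have hc' : e u * e c = e c * e u := by rw [← map_mul, ← map_mul, hc]
  rw [hui] at hc'
  cases hec : e c with
  | r j =>
    rw [hec, DihedralGroup.sr_mul_r, DihedralGroup.r_mul_sr] at hc'
    have h1 : i + j = i - j := DihedralGroup.sr.inj hc'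
    have hjj : j + j = 0 := by linear_combination h1
    have hc2 : c = e.symm (DihedralGroup.r j) := by rw [← hec, e.symm_apply_apply]
    rcases zmod_double_zero j hjj with h0 | h0
    · rw [hc2, h0]; simp
    · rw [hc2, h0]; simp
  | sr j =>
    rw [hec, DihedralGroup.sr_mul_sr, DihedralGroup.sr_mul_sr] at hc'
    have h1 : j - i = i - j := DihedralGroup.r.inj hc'
    have hjj : (j - i) + (j - i) = 0 := by linear_combination h1
    have hc2 : c = e.symm (DihedralGroup.sr j) := by rw [← hec, e.symm_apply_apply]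
    rcases zmod_double_zero (j - i) hjj with h2 | h2
    · have : j = i := sub_eq_zero.mp h2
      rw [hc2, this]; simp
    · have : j = i + ((m / 2 : ℕ) : ZMod m) := by rw [← h2]; ring
      rw [hc2, this]; simp

open Cfsg.Agent.Helper8 in
/-- Let R be a finite group, t a central involution of R such that R ⧸ ⟨t⟩ is dihedral (of order ≥ 4) or quasi-dihedral, and A ≤ R an elementary abelian subgroup of order 8 containing t. Then C_R(A) = A. -/
theorem result {R : Type*} [Group R] [Finite R] (t : R) (ht : orderOf t = 2) (htz : t ∈ Subgroup.center R) [(Subgroup.zpowers t).Normal] (hq : (∃ m : ℕ, 2 ≤ m ∧ Nonempty (R ⧸ Subgroup.zpowers t ≃* DihedralGroup m)) ∨ Cfsg.IsQuasiDihedral (R ⧸ Subgroup.zpowers t)) (A : Subgroup R) (hA : Cfsg.IsElementaryAbelian 2 A) (hA8 : Nat.card A = 8) (htA : t ∈ A) : Subgroup.centralizer (A : Set R) = A := by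
  classical
  have hNA : Subgroup.zpowers t ≤ A := Subgroup.zpowers_le.mpr htA
  have hcommA : ∀ a ∈ A, ∀ b ∈ A, a * b = b * a := fun a ha b hb =>
    congrArg Subtype.val (hA.1.is_comm.comm ⟨a, ha⟩ ⟨b, hb⟩)
  obtain ⟨π, hπs, hker⟩ : ∃ π : R →* R ⧸ Subgroup.zpowers t, Function.Surjective π ∧
      π.ker = Subgroup.zpowers t :=
    ⟨QuotientGroup.mk' _, QuotientGroup.mk'_surjective _, QuotientGroup.ker_mk' _⟩
  obtain ⟨V, hVdef⟩ : ∃ V : Subgroup (R ⧸ Subgroup.zpowers t), V = A.map π := ⟨_, rfl⟩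
  have hcomap : V.comap π = A := by
    rw [hVdef, Subgroup.comap_map_eq, hker]; exact sup_eq_left.mpr hNA
  have hV4 : Nat.card V = 4 := by
    have h1 := Subgroup.index_comap_of_surjective V hπs
    rw [hcomap] at h1
    have h2 := Subgroup.card_mul_index A
    have h3 := Subgroup.card_mul_index V
    have h4 := Subgroup.card_eq_card_quotient_mul_card_subgroup (Subgroup.zpowers t)
    rw [Nat.card_zpowers, ht] at h4
    have h5 : V.index ≠ 0 := Subgroup.index_ne_zero_of_finite
    rw [hA8, h1] at h2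
    have h6 : 4 * V.index = Nat.card V * V.index := by
      have : 8 * V.index = (Nat.card V * V.index) * 2 := by rw [h2, h4, ← h3]
      omega
    exact (Nat.eq_of_mul_eq_mul_right (Nat.pos_of_ne_zero h5) h6).symm
  have hVcomm : ∀ a ∈ V, ∀ b ∈ V, a * b = b * a := by
    rw [hVdef]
    rintro _ ⟨a, ha, rfl⟩ _ ⟨b, hb, rfl⟩
    rw [← map_mul, ← map_mul, hcommA a ha b hb]
  have hVsq : ∀ v ∈ V, v * v = 1 := by
    rw [hVdef]
    rintro _ ⟨a, ha, rfl⟩
    rw [← map_mul, ← pow_two, hA.2 a ha, map_one]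
  have key : Subgroup.centralizer (V : Set (R ⧸ Subgroup.zpowers t)) = V := by
    rcases hq with ⟨m, hm, ⟨e⟩⟩ | hqd
    · exact dih_four_self_cent hm e V hV4 hVcomm hVsq
    · exact qd_four_self_cent hqd V hV4 hVcomm hVsq
  apply le_antisymm
  · intro c hc
    rw [← hcomap, Subgroup.mem_comap, ← key, Subgroup.mem_centralizer_iff, hVdef]
    rintro _ ⟨a, ha, rfl⟩
    rw [← map_mul, ← map_mul, Subgroup.mem_centralizer_iff.mp hc a ha]
  · intro a ha
    rw [Subgroup.mem_centralizer_iff]
    intro b hb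
    exact hcommA b hb a ha
end Cfsg.Agent.S1236
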