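import Cfsg.Statements.S1241
import Mathlib.GroupTheory.Transfer
import Mathlib.GroupTheory.Abelianization.Defs

set_option autoImplicit false
open Cfsg

namespace Cfsg.Agent.S1241


/-- Let G be a finite group, p a prime, H a subgroup of index prime to p, K a subgroup of H normal in H with H/K commutative, and g ∈ H ∖ K an element of p-power order such that for all integers m and all a ∈ G with a g^m a⁻¹ ∈ H one has a g^m a⁻¹ ∈ g^m K. Then g ∉ G'. -/
theorem result {G : Type*} [Group G] [Finite G] {p : ℕ} [Fact p.Prime] (H K : Subgroup G) (hHK : K ≤ H) (hKn : (K.subgroupOf H).Normal) (hab : ∀ x ∈ H, ∀ y ∈ H, x * y * x⁻¹ * y⁻¹ ∈ K) (hidx : Nat.Coprime p H.index) (g : G) (hgH : g ∈ H) (hgK : g ∉ K) (hgp : ∃ k : ℕ, orderOf g = p ^ k) (hctrl : ∀ (m : ℤ) (a : G), a * g ^ m * a⁻¹ ∈ H → (a * g ^ m * a⁻¹) * (g ^ m)⁻¹ ∈ K) : g ∉ commutator G := by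
  classical
  intro hgc
  have := hKn
  let instA : CommGroup (H ⧸ K.subgroupOf H) :=
    { (inferInstance : Group (H ⧸ K.subgroupOf H)) with
      mul_comm := by
        intro x y
        induction x using QuotientGroup.induction_on with | _ x => ?_
        induction y using QuotientGroup.induction_on with | _ y => ?_
        rw [← QuotientGroup.mk_mul, ← QuotientGroup.mk_mul, QuotientGroup.eq,
          Subgroup.mem_subgroupOf]
        have h := hab (y⁻¹ : H) (Subgroup.inv_mem _ y.2) (x⁻¹ : H) (Subgroup.inv_mem _ x.2)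
        have e : (((x * y)⁻¹ * (y * x) : H) : G) = (y⁻¹ : H) * (x⁻¹ : H) * ((y⁻¹ : H) : G)⁻¹ * ((x⁻¹ : H) : G)⁻¹ := by
          simp [mul_assoc]
        rw [e]
        exact h }
  let ϕ : H →* H ⧸ K.subgroupOf H := QuotientGroup.mk' (K.subgroupOf H)
  have hker : commutator G ≤ (MonoidHom.transfer ϕ).ker := Abelianization.commutator_subset_ker _
  have h1 : MonoidHom.transfer ϕ g = 1 := hker hgc
  have hϕ : ∀ (n : ℕ) (a : G) (hmem : a⁻¹ * g ^ n * a ∈ H),
      ϕ ⟨a⁻¹ * g ^ n * a, hmem⟩ = (ϕ ⟨g, hgH⟩) ^ n := by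
    intro n a hmem
    have hm : a⁻¹ * g ^ (n : ℤ) * a⁻¹⁻¹ ∈ H := by rw [inv_inv, zpow_natCast]; exact hmem
    have h := hctrl n a⁻¹ hm
    rw [inv_inv, zpow_natCast] at h
    rw [← map_pow]
    have e : ϕ (⟨a⁻¹ * g ^ n * a, hmem⟩ * (⟨g, hgH⟩ ^ n)⁻¹) = 1 := by
      rw [QuotientGroup.mk'_apply, QuotientGroup.eq_one_iff, Subgroup.mem_subgroupOf]
      exact h
    rw [map_mul, map_inv, mul_inv_eq_one] at e
    exact e
  have : Fintype (Quotient (MulAction.orbitRel (Subgroup.zpowers g) (G ⧸ H))) := Fintype.ofFinite _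
  rw [MonoidHom.transfer_eq_prod_quotient_orbitRel_zpowers_quot] at h1
  simp only [hϕ] at h1
  rw [Finset.prod_pow_eq_pow_sum, ← Subgroup.index_eq_sum_minimalPeriod H g] at h1
  rw [← map_pow, QuotientGroup.mk'_apply, QuotientGroup.eq_one_iff, Subgroup.mem_subgroupOf] at h1
  obtain ⟨k, hk⟩ := hgp
  have hcop : Nat.Coprime H.index (orderOf g) := by
    rw [hk]; exact (Nat.Coprime.pow_left k hidx).symm
  obtain ⟨m, hm⟩ := exists_pow_eq_self_of_coprime hcop
  apply hgK
  rw [← hm]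
  exact Subgroup.pow_mem _ h1 m

end Cfsg.Agent.S1241
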