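import Cfsg.Statements.S1242
import Mathlib.GroupTheory.Transfer
import Mathlib.GroupTheory.Abelianization.Defs
import Mathlib.Tactic.Group

set_option autoImplicit false
open Cfsg

namespace Cfsg.Agent.S1242


open scoped commutatorElement in
/-- Let G be a finite group, p a prime and H a subgroup of index prime to p such that any two elements of H of p-power order that are conjugate in G are conjugate in H. Then (O^p(G)·G') ∩ H = O^p(H)·H', where O^p denotes the subgroup generated by the elements of order prime to p. -/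
theorem result {G : Type*} [Group G] [Finite G] {p : ℕ} [Fact p.Prime] (H : Subgroup G) (hidx : Nat.Coprime p H.index) (hfus : ∀ g ∈ H, (∃ k : ℕ, orderOf g = p ^ k) → ∀ a : G, a * g * a⁻¹ ∈ H → ∃ h ∈ H, h * g * h⁻¹ = a * g * a⁻¹) : (Cfsg.pResidual p G ⊔ commutator G) ⊓ H = (Cfsg.pResidual p ↥H ⊔ commutator ↥H).map H.subtype := by
  classical
  have hp := (Fact.out : p.Prime)
  have hRn : (Cfsg.pResidual p ↥H).Normal := by
    constructor
    intro n hn g
    unfold Cfsg.pResidual at hn ⊢
    induction hn using Subgroup.closure_induction with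
    | mem x hx =>
      apply Subgroup.subset_closure
      show Nat.Coprime (orderOf (g * x * g⁻¹)) p
      have : orderOf (g * x * g⁻¹) = orderOf x := (MulAut.conj g).orderOf_eq x
      rw [this]; exact hx
    | one => simp
    | mul x y _ _ hx hy =>
      have : g * (x * y) * g⁻¹ = (g * x * g⁻¹) * (g * y * g⁻¹) := by group
      rw [this]; exact Subgroup.mul_mem _ hx hy
    | inv x _ hx =>
      have : g * x⁻¹ * g⁻¹ = (g * x * g⁻¹)⁻¹ := by group
      rw [this]; exact Subgroup.inv_mem _ hx
  set N : Subgroup H := Cfsg.pResidual p ↥H ⊔ commutator ↥H with hN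
  have hNn : N.Normal := Subgroup.sup_normal _ _
  have hRN : Cfsg.pResidual p ↥H ≤ N := le_sup_left
  have hCN : commutator ↥H ≤ N := le_sup_right
  let instA : CommGroup (H ⧸ N) :=
    { (inferInstance : Group (H ⧸ N)) with
      mul_comm := by
        intro x y
        induction x using QuotientGroup.induction_on with | _ x => ?_
        induction y using QuotientGroup.induction_on with | _ y => ?_
        rw [← QuotientGroup.mk_mul, ← QuotientGroup.mk_mul, QuotientGroup.eq]
        apply hCN
        have e : (x * y)⁻¹ * (y * x) = ⁅y⁻¹, x⁻¹⁆ := by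
          rw [commutatorElement_def]; group
        rw [e, commutator_def]
        exact Subgroup.commutator_mem_commutator (Subgroup.mem_top _) (Subgroup.mem_top _) }
  let ϕ : H →* H ⧸ N := QuotientGroup.mk' N
  have hϕp' : ∀ h : H, Nat.Coprime (orderOf h) p → ϕ h = 1 := fun h hh =>
    (QuotientGroup.eq_one_iff h).mpr (hRN (Subgroup.subset_closure hh))
  have hordconj : ∀ a y : G, orderOf (a⁻¹ * y * a) = orderOf y := by
    intro a y
    have := (MulAut.conj a⁻¹).orderOf_eq y
    simpa using this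
  have hV1 : ∀ g : G, Nat.Coprime (orderOf g) p → MonoidHom.transfer ϕ g = 1 := by
    intro g hg
    have : Fintype (Quotient (MulAction.orbitRel (Subgroup.zpowers g) (G ⧸ H))) :=
      Fintype.ofFinite _
    rw [MonoidHom.transfer_eq_prod_quotient_orbitRel_zpowers_quot]
    apply Finset.prod_eq_one
    intro q _
    apply hϕp'
    rw [Subgroup.orderOf_mk, hordconj]
    exact Nat.Coprime.coprime_dvd_left (orderOf_pow_dvd _) hg
  have hker : Cfsg.pResidual p G ⊔ commutator G ≤ (MonoidHom.transfer ϕ).ker :=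
    sup_le ((Subgroup.closure_le _).mpr (fun g hg => hV1 g hg))
      (Abelianization.commutator_subset_ker _)
  apply le_antisymm
  · rintro x ⟨hxA, hxH⟩
    have hVx : MonoidHom.transfer ϕ x = 1 := hker hxA
    obtain ⟨k, m, hm, hn⟩ := Nat.exists_eq_pow_mul_and_not_dvd (orderOf_pos x).ne' p hp.ne_one
    have hm0 : m ≠ 0 := by rintro rfl; simp at hm
    set xh : H := ⟨x, hxH⟩ with hxh
    have hy_ord : orderOf (x ^ m) = p ^ k := by
      rw [orderOf_pow' x hm0, hn, Nat.gcd_mul_left_left]
      exact Nat.mul_div_cancel _ (Nat.pos_of_ne_zero hm0)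
    have hVy : MonoidHom.transfer ϕ (x ^ m) = 1 := by rw [map_pow, hVx, one_pow]
    have hconj : ∀ (n : ℕ) (a : G) (hmem : a⁻¹ * (x ^ m) ^ n * a ∈ H),
        ϕ ⟨a⁻¹ * (x ^ m) ^ n * a, hmem⟩ = (ϕ (xh ^ m)) ^ n := by
      intro n a hmem
      have hyH : (x ^ m) ^ n ∈ H := Subgroup.pow_mem _ (Subgroup.pow_mem _ hxH _) _
      have hord : ∃ k' : ℕ, orderOf ((x ^ m) ^ n) = p ^ k' := by
        have : orderOf ((x ^ m) ^ n) ∣ p ^ k := hy_ord ▸ orderOf_pow_dvd n
        obtain ⟨j, -, hj⟩ := (Nat.dvd_prime_pow hp).mp this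
        exact ⟨j, hj⟩
      have hmem' : a⁻¹ * (x ^ m) ^ n * a⁻¹⁻¹ ∈ H := by rwa [inv_inv]
      obtain ⟨h, hh, hc⟩ := hfus _ hyH hord a⁻¹ hmem'
      rw [inv_inv] at hc
      have e : (⟨a⁻¹ * (x ^ m) ^ n * a, hmem⟩ : H) = ⟨h, hh⟩ * (xh ^ m) ^ n * ⟨h, hh⟩⁻¹ :=
        Subtype.ext hc.symm
      rw [e, map_mul, map_mul, map_inv, map_pow]
      exact mul_inv_cancel_comm _ _
    have hVy2 : MonoidHom.transfer ϕ (x ^ m) = (ϕ (xh ^ m)) ^ H.index := by
      have : Fintype (Quotient (MulAction.orbitRel (Subgroup.zpowers (x ^ m)) (G ⧸ H))) :=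
        Fintype.ofFinite _
      rw [MonoidHom.transfer_eq_prod_quotient_orbitRel_zpowers_quot]
      simp only [hconj]
      rw [Finset.prod_pow_eq_pow_sum, ← Subgroup.index_eq_sum_minimalPeriod H (x ^ m)]
    have h1 : (ϕ (xh ^ m)) ^ H.index = 1 := by rw [← hVy2, hVy]
    have h2 : (ϕ (xh ^ m)) ^ (p ^ k) = 1 := by
      rw [← map_pow]
      have : (xh ^ m) ^ (p ^ k) = 1 := by
        apply Subtype.ext
        show (x ^ m) ^ (p ^ k) = 1
        rw [← hy_ord]; exact pow_orderOf_eq_one _
      rw [this, map_one]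
    have h3 : ϕ (xh ^ m) = 1 := by
      have hc : Nat.Coprime (p ^ k) H.index := Nat.Coprime.pow_left k hidx
      have d1 := orderOf_dvd_of_pow_eq_one h1
      have d2 := orderOf_dvd_of_pow_eq_one h2
      have : orderOf (ϕ (xh ^ m)) ∣ 1 := by
        rw [← hc.gcd_eq_one]; exact Nat.dvd_gcd d2 d1
      exact orderOf_eq_one_iff.mp (Nat.dvd_one.mp this)
    have hpm : Nat.Coprime p m := (Nat.Prime.coprime_iff_not_dvd hp).mpr hm
    have h4 : (ϕ xh) ^ m = 1 := by rw [← map_pow]; exact h3
    have h5 : (ϕ xh) ^ (p ^ k) = 1 := by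
      rw [← map_pow]
      apply hϕp'
      have : orderOf (xh ^ (p ^ k)) ∣ m := by
        apply orderOf_dvd_of_pow_eq_one
        apply Subtype.ext
        show (x ^ (p ^ k)) ^ m = 1
        rw [← pow_mul, ← hn]; exact pow_orderOf_eq_one _
      exact Nat.Coprime.coprime_dvd_left this hpm.symm
    have h6 : ϕ xh = 1 := by
      have hc : Nat.Coprime m (p ^ k) := (Nat.Coprime.pow_left k hpm).symm
      have d1 := orderOf_dvd_of_pow_eq_one h4
      have d2 := orderOf_dvd_of_pow_eq_one h5
      have : orderOf (ϕ xh) ∣ 1 := by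
        rw [← hc.gcd_eq_one]; exact Nat.dvd_gcd d1 d2
      exact orderOf_eq_one_iff.mp (Nat.dvd_one.mp this)
    have h7 : xh ∈ N := (QuotientGroup.eq_one_iff xh).mp h6
    exact ⟨xh, h7, rfl⟩
  · apply le_inf
    · rw [hN, Subgroup.map_sup]
      apply sup_le_sup
      · unfold Cfsg.pResidual
        rw [MonoidHom.map_closure]
        apply Subgroup.closure_mono
        rintro _ ⟨h, hh, rfl⟩
        show Nat.Coprime (orderOf (h : G)) p
        rw [Subgroup.orderOf_coe]; exact hh
      · rw [commutator_def, commutator_def, Subgroup.map_commutator]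
        exact Subgroup.commutator_mono le_top le_top
    · exact Subgroup.map_subtype_le _

end Cfsg.Agent.S1242
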