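import Cfsg.Statements.S1243

set_option autoImplicit false
open Cfsg

namespace Cfsg.Agent.S1243

/-- Let T be a Sylow p-subgroup of the finite group G and W ≤ T a subgroup weakly closed in T. If d and g d g⁻¹ both centralize W, then g d g⁻¹ = h d h⁻¹ for some h ∈ N_G(W). -/
theorem result {G : Type*} [Group G] [Finite G] {p : ℕ} [Fact p.Prime] (T : Sylow p G) (W : Subgroup G) (hW : Cfsg.IsWeaklyClosed W (T : Subgroup G)) (d g : G) (hd : d ∈ Subgroup.centralizer (W : Set G)) (hgd : g * d * g⁻¹ ∈ Subgroup.centralizer (W : Set G)) : ∃ h ∈ Subgroup.normalizer (W : Set G), h * d * h⁻¹ = g * d * g⁻¹ := by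
  obtain ⟨hWT, hwc⟩ := hW
  have hWp : IsPGroup p W := T.isPGroup'.to_le hWT
  set K := Subgroup.centralizer ({d} : Set G) with hK
  have memK : ∀ x : G, x ∈ K ↔ d * x = x * d := by
    intro x
    rw [hK, Subgroup.mem_centralizer_iff]
    simp
  have hWK : W ≤ K := by
    intro x hx
    rw [memK]
    rw [Subgroup.mem_centralizer_iff] at hd
    exact (hd x hx).symm
  set W₂ := W.map (MulAut.conj g⁻¹).toMonoidHom with hW₂
  have hW₂K : W₂ ≤ K := by
    rintro _ ⟨x, hx, rfl⟩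
    rw [memK]
    rw [Subgroup.mem_centralizer_iff] at hgd
    have := hgd x hx
    simp only [MulEquiv.toMonoidHom_eq_coe, MonoidHom.coe_coe, MulAut.conj_apply, inv_inv]
    calc d * (g⁻¹ * x * g) = g⁻¹ * (g * d * g⁻¹ * x) * g := by group
      _ = g⁻¹ * (x * (g * d * g⁻¹)) * g := by rw [← this]
      _ = g⁻¹ * x * g * d := by group
  have hW₂p : IsPGroup p W₂ := hWp.map _
  obtain ⟨P₁, hP₁⟩ := (hWp.comap_subtype (K := K)).exists_le_sylow
  obtain ⟨P₂, hP₂⟩ := (hW₂p.comap_subtype (K := K)).exists_le_sylow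
  obtain ⟨c, hc⟩ := MulAction.exists_smul_eq K P₂ P₁
  set R := (P₁ : Subgroup K).map K.subtype with hR
  have hRp : IsPGroup p R := P₁.isPGroup'.map _
  have hWR : W ≤ R := by
    intro x hx
    exact ⟨⟨x, hWK hx⟩, hP₁ (by simpa [Subgroup.mem_subgroupOf] using hx), rfl⟩
  have hW₂R : ∀ x ∈ W₂, (c : G) * x * (c : G)⁻¹ ∈ R := by
    intro x hx
    have h1 : (⟨x, hW₂K hx⟩ : K) ∈ (P₂ : Subgroup K) := hP₂ (by simpa [Subgroup.mem_subgroupOf] using hx)
    have h2 : c * ⟨x, hW₂K hx⟩ * c⁻¹ ∈ (P₁ : Subgroup K) := by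
      rw [← hc]
      exact Subgroup.smul_mem_pointwise_smul _ (MulAut.conj c) (P₂ : Subgroup K) h1
    exact ⟨_, h2, rfl⟩
  obtain ⟨Q, hQ⟩ := hRp.exists_le_sylow
  obtain ⟨y, hy⟩ := MulAction.exists_smul_eq G Q T
  have hQT : ∀ x ∈ Q, y * x * y⁻¹ ∈ T := by
    intro x hx
    rw [← hy]
    exact Subgroup.smul_mem_pointwise_smul x (MulAut.conj y) (Q : Subgroup G) hx
  have n1 : y ∈ Subgroup.normalizer (W : Set G) := by
    rw [Subgroup.mem_normalizer_iff_map_conj_eq]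
    have := hwc y (by
      rintro _ ⟨x, hx, rfl⟩
      exact hQT x (hQ (hWR hx)))
    simpa using this
  have n2 : y * c * g⁻¹ ∈ Subgroup.normalizer (W : Set G) := by
    rw [Subgroup.mem_normalizer_iff_map_conj_eq]
    have := hwc (y * c * g⁻¹) (by
      rintro _ ⟨x, hx, rfl⟩
      have h1 : g⁻¹ * x * g ∈ W₂ := ⟨x, hx, by simp⟩
      have h2 := hQT _ (hQ (hW₂R _ h1))
      have e : (MulAut.conj (y * c * g⁻¹)).toMonoidHom x = y * (c * (g⁻¹ * x * g) * (c : G)⁻¹) * y⁻¹ := by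
        simp [mul_assoc]
      rw [e]; exact h2)
    simpa using this
  refine ⟨g * (c : G)⁻¹, ?_, ?_⟩
  · have : g * (c : G)⁻¹ = (y * c * g⁻¹)⁻¹ * y := by group
    rw [this]
    exact Subgroup.mul_mem _ (Subgroup.inv_mem _ n2) n1
  · have hcd : d * (c : G) = c * d := (memK c).mp c.2
    calc g * (c : G)⁻¹ * d * (g * (c : G)⁻¹)⁻¹ = g * ((c : G)⁻¹ * (d * c)) * g⁻¹ := by group
      _ = g * d * g⁻¹ := by rw [hcd]; group

end Cfsg.Agent.S1243
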