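import Cfsg.Statements.S1247
import Cfsg.Agent.Helper8.MaxSub

set_option autoImplicit false
open Cfsg

namespace Cfsg.Agent.S1247

open Cfsg.Agent.Helper8 Cfsg.Agent.Helper9 in
/-- Let G be a non-abelian finite simple group, A a maximal subgroup, F = F*(A) its generalized Fitting subgroup (viewed in G), and S ≤ F a subgroup subnormal in F with C_F(S) ≤ S. Let B be any subgroup of G containing S. Then (a) for every prime q not dividing |F(A)|, O_q(B) ∩ A = 1; and (b) for every prime p dividing |F(A)|, O_p(B) commutes elementwise with the subgroup of F generated by its elements of order prime to p. -/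
theorem result {G : Type*} [Group G] [Finite G] [IsSimpleGroup G] (hna : ¬ IsMulCommutative G) (A : Subgroup G) (hA : IsCoatom A) (S : Subgroup G) (hSF : S ≤ (Cfsg.generalizedFittingSubgroup ↥A).map A.subtype) (hSsn : (S.subgroupOf ((Cfsg.generalizedFittingSubgroup ↥A).map A.subtype)).IsSubnormal) (hSC : (Cfsg.generalizedFittingSubgroup ↥A).map A.subtype ⊓ Subgroup.centralizer (S : Set G) ≤ S) (B : Subgroup G) (hSB : S ≤ B) : (∀ q : ℕ, q.Prime → ¬ q ∣ Nat.card (Cfsg.fittingSubgroup ↥A) → (Cfsg.pCore q ↥B).map B.subtype ⊓ A = ⊥) ∧ (∀ p : ℕ, p.Prime → p ∣ Nat.card (Cfsg.fittingSubgroup ↥A) → ∀ x ∈ (Cfsg.pCore p ↥B).map B.subtype, ∀ y ∈ (Cfsg.pResidual p ↥(Cfsg.generalizedFittingSubgroup ↥A)).map ((Cfsg.generalizedFittingSubgroup ↥A).subtype) , x * (A.subtype y) = (A.subtype y) * x) := by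
  classical
  have hSA : S ≤ A := fun s hs => by
    obtain ⟨y, -, rfl⟩ := hSF hs
    exact y.2
  have hSF' : S.subgroupOf A ≤ Cfsg.generalizedFittingSubgroup ↥A := by
    intro y hy
    obtain ⟨y', hy', hyy⟩ := hSF (show (y : G) ∈ S from hy)
    have : y' = y := Subtype.ext hyy
    rwa [← this]
  have hsn' : (S.subgroupOf A).IsSubnormal := by
    refine Subgroup.IsSubnormal.trans hSF' ?_ (genFitting_normal.isSubnormal)
    let φ : ↥(Cfsg.generalizedFittingSubgroup ↥A) →*
        ↥((Cfsg.generalizedFittingSubgroup ↥A).map A.subtype) :=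
      (A.subtype.comp (Cfsg.generalizedFittingSubgroup ↥A).subtype).codRestrict _
        (fun y => Subgroup.mem_map_of_mem _ y.2)
    have heq : (S.subgroupOf ((Cfsg.generalizedFittingSubgroup ↥A).map A.subtype)).comap φ =
        (S.subgroupOf A).subgroupOf (Cfsg.generalizedFittingSubgroup ↥A) := by
      ext x; exact Iff.rfl
    rw [← heq]
    exact hSsn.comap φ
  have hC' : Cfsg.generalizedFittingSubgroup ↥A ⊓
      Subgroup.centralizer ((S.subgroupOf A : Subgroup ↥A) : Set ↥A) ≤ S.subgroupOf A := by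
    intro y hy
    show (y : G) ∈ S
    apply hSC
    refine ⟨Subgroup.mem_map_of_mem _ hy.1, Subgroup.mem_centralizer_iff.mpr ?_⟩
    intro s hs
    have := (Subgroup.mem_centralizer_iff.mp hy.2) ⟨s, hSA hs⟩ hs
    exact congrArg Subtype.val this
  refine ⟨?_, ?_⟩
  · intro q hq hqF
    have : Fact q.Prime := ⟨hq⟩
    have hPq : IsPGroup q ↥((Cfsg.pCore q ↥B).map B.subtype) :=
      (pCore_isPGroup q).map B.subtype
    have hBP : B ≤ Subgroup.normalizer (((Cfsg.pCore q ↥B).map B.subtype : Subgroup G) : Set G) :=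
      Subgroup.le_normalizer.trans (char_map_normalizer B (Cfsg.pCore q ↥B))
    have hXp : IsPGroup q ↥(((Cfsg.pCore q ↥B).map B.subtype ⊓ A).subgroupOf A) := by
      rw [msub_isPGroup_iff]
      intro g hg
      obtain ⟨k, hk⟩ := (msub_isPGroup_iff q _).1 hPq (g : G) hg.1
      exact ⟨k, Subtype.ext (by simpa using hk)⟩
    have hSX : S.subgroupOf A ≤ Subgroup.normalizer
        ((((Cfsg.pCore q ↥B).map B.subtype ⊓ A).subgroupOf A : Subgroup ↥A) : Set ↥A) := by
      intro s hs
      apply fsm_mem_normalizer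
      intro u hu
      refine ⟨?_, (s * u * s⁻¹).2⟩
      have := (Subgroup.mem_normalizer_iff.mp (hBP (hSB hs)) (u : G)).mp hu.1
      simpa using this
    have hbot := msub_partA (S.subgroupOf A) hSF' hsn' hC' q hqF _ hXp hSX
    rw [eq_bot_iff]
    intro g hg
    have hg' : (⟨g, hg.2⟩ : ↥A) ∈ ((Cfsg.pCore q ↥B).map B.subtype ⊓ A).subgroupOf A := hg
    rw [hbot, Subgroup.mem_bot] at hg'
    rw [Subgroup.mem_bot]
    exact congrArg Subtype.val hg'
  · intro p hp hpF x hx y hy
    have : Fact p.Prime := ⟨hp⟩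
    suffices hmain : ∀ g : ↥A, g ∈ Cfsg.generalizedFittingSubgroup ↥A → (orderOf g).Coprime p →
        x * (g : G) = (g : G) * x by
      obtain ⟨w, hw, rfl⟩ := hy
      have hcl : Cfsg.pResidual p ↥(Cfsg.generalizedFittingSubgroup ↥A) ≤
          (Subgroup.centralizer ({x} : Set G)).comap
            (A.subtype.comp (Cfsg.generalizedFittingSubgroup ↥A).subtype) := by
        unfold Cfsg.pResidual
        rw [Subgroup.closure_le]
        intro g hg
        rw [SetLike.mem_coe, Subgroup.mem_comap]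
        refine Subgroup.mem_centralizer_iff.mpr ?_
        intro h hh
        rw [Set.mem_singleton_iff.mp hh]
        refine hmain g.1 g.2 ?_
        rw [Subgroup.orderOf_coe]
        exact hg
      have h1 := hcl hw
      rw [Subgroup.mem_comap] at h1
      exact (Subgroup.mem_centralizer_iff.mp h1) x (Set.mem_singleton x)
    intro g hgF hgord
    have hPp : IsPGroup p ↥((Cfsg.pCore p ↥B).map B.subtype) :=
      (pCore_isPGroup p).map B.subtype
    have hBP : B ≤ Subgroup.normalizer (((Cfsg.pCore p ↥B).map B.subtype : Subgroup G) : Set G) :=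
      Subgroup.le_normalizer.trans (char_map_normalizer B (Cfsg.pCore p ↥B))
    have hSP : S ≤ Subgroup.normalizer (((Cfsg.pCore p ↥B).map B.subtype : Subgroup G) : Set G) :=
      hSB.trans hBP
    have hE : Cfsg.layer ↥A ≤ S.subgroupOf A := msub_layer_le _ hsn' hC'
    have hpne : Cfsg.pCore p ↥A ≠ ⊥ := msub_pCore_ne_bot p hpF
    -- (K0)
    have hmemA : ∀ r : ℕ, r.Prime → Cfsg.pCore r ↥A ≠ ⊥ → ∀ d : G,
        (∀ b : ↥A, b ∈ S.subgroupOf A → b ∈ Cfsg.pCore r ↥A → d * (b : G) = (b : G) * d) →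
        d ∈ A := by
      intro r hr hne d hd
      have : Fact r.Prime := ⟨hr⟩
      apply msub_coatom_mem A hA r hne d
      intro z hz hzc
      exact hd z (msub_cent_mem _ hSF' hsn' hC' r z hz (fun b hb => hzc b hb.2)) hz
    -- commutator-membership helper
    have hcommP : ∀ a : ↥A, a ∈ S.subgroupOf A → ∀ d : ↥A,
        (d : G) ∈ (Cfsg.pCore p ↥B).map B.subtype →
        ((d * a * d⁻¹ * a⁻¹ : ↥A) : G) ∈ (Cfsg.pCore p ↥B).map B.subtype := by
      intro a ha d hd
      have h1 : (a : G) * (d : G)⁻¹ * (a : G)⁻¹ ∈ (Cfsg.pCore p ↥B).map B.subtype :=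
        (Subgroup.mem_normalizer_iff.mp (hSP ha) (d : G)⁻¹).mp (Subgroup.inv_mem _ hd)
      have h2 : ((d * a * d⁻¹ * a⁻¹ : ↥A) : G) = (d : G) * ((a : G) * (d : G)⁻¹ * (a : G)⁻¹) := by
        simp [mul_assoc]
      rw [h2]
      exact Subgroup.mul_mem _ hd h1
    -- (K1)
    have hAxB : ∀ a : ↥A, a ∈ S.subgroupOf A → (orderOf a).Coprime p →
        (∀ b : ↥A, b ∈ S.subgroupOf A → b ∈ Cfsg.pCore p ↥A → a * b = b * a) →
        (∀ d : ↥A, (d : G) ∈ (Cfsg.pCore p ↥B).map B.subtype → a * d = d * a) →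
        ∀ x ∈ (Cfsg.pCore p ↥B).map B.subtype, (a : G) * x = x * (a : G) := by
      intro a ha haord hab hD
      refine thompson_AxB_elt p (a : G) (by rw [Subgroup.orderOf_coe]; exact haord)
        (S ⊓ (Cfsg.pCore p ↥A).map A.subtype) ((Cfsg.pCore p ↥B).map B.subtype)
        (((pCore_isPGroup p).map A.subtype).to_le inf_le_right) hPp ?_
        (inf_le_left.trans hSP) (hSP ha) ?_
      · rintro b ⟨hbS, b', hb', rfl⟩
        exact congrArg Subtype.val (hab b' hbS hb')
      · intro d hd
        have hdA : d ∈ A := by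
          apply hmemA p hp hpne d
          intro b hbS hb
          exact ((Subgroup.mem_centralizer_iff.mp hd.2) (b : G)
            ⟨hbS, Subgroup.mem_map_of_mem _ hb⟩).symm
        exact congrArg Subtype.val (hD ⟨d, hdA⟩ hd.1)
    -- (K2)
    have hK2 : ∀ r : ℕ, r.Prime → r ≠ p → ∀ a : ↥A, a ∈ S.subgroupOf A → a ∈ Cfsg.pCore r ↥A →
        ∀ x ∈ (Cfsg.pCore p ↥B).map B.subtype, (a : G) * x = x * (a : G) := by
      intro r hr hrp a haS ha
      have : Fact r.Prime := ⟨hr⟩
      have hrn : (Cfsg.pCore r ↥A).Normal := Cfsg.pCore_normal r ↥A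
      apply hAxB a haS
      · obtain ⟨k, hk⟩ := (msub_isPGroup_iff r _).1 (pCore_isPGroup r (G := ↥A)) a ha
        exact Nat.Coprime.coprime_dvd_left (orderOf_dvd_of_pow_eq_one hk)
          (Nat.Coprime.pow_left k ((Nat.coprime_primes hr hp).mpr hrp))
      · intro b _ hb
        exact msub_pCore_comm r p hrp a ha b hb
      · intro d hd
        have hc1 : d * a * d⁻¹ * a⁻¹ ∈ Cfsg.pCore r ↥A :=
          Subgroup.mul_mem _ (hrn.conj_mem a ha d) (Subgroup.inv_mem _ ha)
        obtain ⟨k, hk⟩ := (msub_isPGroup_iff p _).1 hPp _ (hcommP a haS d hd)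
        obtain ⟨l, hl⟩ := (msub_isPGroup_iff r _).1 (pCore_isPGroup r (G := ↥A)) _ hc1
        have hk' : (d * a * d⁻¹ * a⁻¹) ^ p ^ k = 1 := Subtype.ext (by simpa using hk)
        have hc : d * a * d⁻¹ * a⁻¹ = 1 :=
          eq_one_of_pow_coprime_b _ _ _
            (Nat.Coprime.pow _ _ ((Nat.coprime_primes hp hr).mpr (Ne.symm hrp))) hk' hl
        calc a * d = (d * a * d⁻¹ * a⁻¹)⁻¹ * (d * a) := by group
          _ = d * a := by rw [hc, inv_one, one_mul]
    -- (K3)
    have hK3 : ∀ a : ↥A, a ∈ Cfsg.layer ↥A → (orderOf a).Coprime p →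
        ∀ x ∈ (Cfsg.pCore p ↥B).map B.subtype, (a : G) * x = x * (a : G) := by
      intro a ha haord
      have hEn : (Cfsg.layer ↥A).Normal := layer_normal
      have hXp : IsPGroup p ↥(((Cfsg.pCore p ↥B).map B.subtype).subgroupOf A) := by
        rw [msub_isPGroup_iff]
        intro g hg
        obtain ⟨k, hk⟩ := (msub_isPGroup_iff p _).1 hPp (g : G) hg
        exact ⟨k, Subtype.ext (by simpa using hk)⟩
      have hEX : Cfsg.layer ↥A ≤ Subgroup.normalizer
          ((((Cfsg.pCore p ↥B).map B.subtype).subgroupOf A : Subgroup ↥A) : Set ↥A) := by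
        intro e he
        apply fsm_mem_normalizer
        intro u hu
        have := (Subgroup.mem_normalizer_iff.mp (hSP (hE he)) (u : G)).mp hu
        show ((e * u * e⁻¹ : ↥A) : G) ∈ (Cfsg.pCore p ↥B).map B.subtype
        simpa using this
      apply hAxB a (hE ha) haord
      · intro b _ hb
        exact fitting_inf_layer_central (pCore_le_fitting p hb) a ha
      · intro d hd
        have hc1 : d * a * d⁻¹ * a⁻¹ ∈ Cfsg.layer ↥A :=
          Subgroup.mul_mem _ (hEn.conj_mem a ha d) (Subgroup.inv_mem _ ha)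
        have hcF : d * a * d⁻¹ * a⁻¹ ∈ Cfsg.fittingSubgroup ↥A :=
          msub_inf_layer_le_fitting p _ hXp hEX ⟨hcommP a (hE ha) d hd, hc1⟩
        have hca : Commute (d * a * d⁻¹ * a⁻¹) a :=
          (fitting_inf_layer_central hcF a ha).symm
        obtain ⟨k, hk⟩ := (msub_isPGroup_iff p _).1 hPp _ (hcommP a (hE ha) d hd)
        have hk' : (d * a * d⁻¹ * a⁻¹) ^ p ^ k = 1 := Subtype.ext (by simpa using hk)
        have h1 : (d * a * d⁻¹ * a⁻¹) ^ orderOf a = 1 := by
          have e1 : d * a * d⁻¹ = (d * a * d⁻¹ * a⁻¹) * a := by group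
          have e2 : (d * a * d⁻¹) ^ orderOf a = 1 := by
            rw [conj_pow, pow_orderOf_eq_one]; group
          rw [e1, hca.mul_pow, pow_orderOf_eq_one, mul_one] at e2
          exact e2
        have hc : d * a * d⁻¹ * a⁻¹ = 1 :=
          eq_one_of_pow_coprime_b _ _ _ (Nat.Coprime.pow_right k haord) h1 hk'
        calc a * d = (d * a * d⁻¹ * a⁻¹)⁻¹ * (d * a) := by group
          _ = d * a := by rw [hc, inv_one, one_mul]
    -- (K4)
    have hEP : ∀ e : ↥A, e ∈ Cfsg.layer ↥A → ∀ x ∈ (Cfsg.pCore p ↥B).map B.subtype,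
        (e : G) * x = x * (e : G) := by
      have hperf : ⁅(Cfsg.layer ↥A).map A.subtype, (Cfsg.layer ↥A).map A.subtype⁆ =
          (Cfsg.layer ↥A).map A.subtype := by
        rw [← Subgroup.map_commutator, layer_perfect]
      have hle := perfect_le_centralizer_of_pPrime_elts p ((Cfsg.layer ↥A).map A.subtype)
        ((Cfsg.pCore p ↥B).map B.subtype) hperf
        (by
          rintro _ ⟨e, he, rfl⟩
          exact hSP (hE he))
        (by
          rintro _ ⟨a, ha, rfl⟩ haord
          refine Subgroup.mem_centralizer_iff.mpr ?_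
          intro h hh
          refine (hK3 a ha ?_ h hh).symm
          rw [← Subgroup.orderOf_coe]
          exact haord)
      intro e he x hx
      exact ((Subgroup.mem_centralizer_iff.mp (hle (Subgroup.mem_map_of_mem _ he))) x hx).symm
    -- (K5)
    obtain ⟨kx, hkx⟩ := (msub_isPGroup_iff p _).1 hPp x hx
    have hPr : ∀ r : ℕ, r.Prime → r ≠ p → ∀ w : ↥A, w ∈ Cfsg.pCore r ↥A →
        x * (w : G) = (w : G) * x := by
      intro r hr hrp w hw
      have : Fact r.Prime := ⟨hr⟩
      by_cases hne : Cfsg.pCore r ↥A = ⊥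
      · rw [hne, Subgroup.mem_bot] at hw
        rw [hw]; simp
      · have hxA : x ∈ A := by
          apply hmemA r hr hne x
          intro b hbS hb
          exact (hK2 r hr hrp b hbS hb x hx).symm
        have hord : (orderOf (⟨x, hxA⟩ : ↥A)).Coprime r := by
          have h1 : (⟨x, hxA⟩ : ↥A) ^ p ^ kx = 1 := Subtype.ext (by simpa using hkx)
          exact Nat.Coprime.coprime_dvd_left (orderOf_dvd_of_pow_eq_one h1)
            (Nat.Coprime.pow_left kx ((Nat.coprime_primes hp hr).mpr (Ne.symm hrp)))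
        have := msub_AxB _ hSF' hsn' hC' r (⟨x, hxA⟩ : ↥A) hord
          (fun b hb => Subtype.ext (hK2 r hr hrp b hb.1 hb.2 x hx).symm) w hw
        exact congrArg Subtype.val this
    -- (K6)
    have hcommEF : ∀ a ∈ Cfsg.layer ↥A, ∀ b ∈ Cfsg.fittingSubgroup ↥A, a * b = b * a :=
      (comm_eq_bot_iff _ _).1 layer_comm_fitting
    obtain ⟨e, he, f, hf, rfl⟩ := mem_sup_of_commute hcommEF hgF
    have hFW : Cfsg.fittingSubgroup ↥A ≤ Cfsg.pCore p ↥A ⊔
        (Cfsg.fittingSubgroup ↥A ⊓ (Subgroup.centralizer ({x} : Set G)).comap A.subtype ⊓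
          Subgroup.centralizer (Cfsg.pCore p ↥A : Set ↥A)) := by
      rw [fitting_eq_iSup_pCore]
      apply iSup_le
      intro r
      have : Fact (r : ℕ).Prime := ⟨r.2⟩
      by_cases hrp : (r : ℕ) = p
      · rw [hrp]; exact le_sup_left
      · refine le_trans ?_ le_sup_right
        intro w hw
        refine ⟨⟨?_, ?_⟩, ?_⟩
        · have := pCore_le_fitting (r : ℕ) hw
          rwa [fitting_eq_iSup_pCore] at this
        · show A.subtype w ∈ Subgroup.centralizer ({x} : Set G)
          refine Subgroup.mem_centralizer_iff.mpr ?_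
          intro h hh; rw [Set.mem_singleton_iff.mp hh]; exact hPr r r.2 hrp w hw
        · refine Subgroup.mem_centralizer_iff.mpr ?_
          intro v hv
          exact (msub_pCore_comm (r : ℕ) p hrp w hw v hv).symm
    have hcommPW : ∀ a ∈ Cfsg.pCore p ↥A, ∀ b ∈ (Cfsg.fittingSubgroup ↥A ⊓
        (Subgroup.centralizer ({x} : Set G)).comap A.subtype ⊓
          Subgroup.centralizer (Cfsg.pCore p ↥A : Set ↥A)), a * b = b * a := fun a ha b hb =>
      (Subgroup.mem_centralizer_iff.mp hb.2 a ha)
    obtain ⟨u, hu, v, hv, rfl⟩ := mem_sup_of_commute hcommPW (hFW hf)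
    have hxe : Commute x (e : G) := (hEP e he x hx).symm
    have hxv : Commute x (v : G) := by
      have h1 : A.subtype v ∈ Subgroup.centralizer ({x} : Set G) := hv.1.2
      exact (Subgroup.mem_centralizer_iff.mp h1) x (Set.mem_singleton x)
    have hue : Commute u e := (fitting_inf_layer_central (pCore_le_fitting p hu) e he).symm
    have hve : Commute v e := (fitting_inf_layer_central hv.1.1 e he).symm
    have huv : Commute u v := hcommPW u hu v hv
    have hgeq : e * (u * v) = u * (e * v) := by rw [← mul_assoc, ← hue.eq, mul_assoc]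
    have hut : Commute u (e * v) := hue.mul_right huv
    have hpow : u ^ orderOf (e * (u * v)) * (e * v) ^ orderOf (e * (u * v)) = 1 := by
      rw [← hut.mul_pow, ← hgeq]; exact pow_orderOf_eq_one _
    have hum : u ^ orderOf (e * (u * v)) = ((e * v) ^ orderOf (e * (u * v)))⁻¹ :=
      eq_inv_of_mul_eq_one_left hpow
    have hxt : Commute x ((e : G) * (v : G)) := hxe.mul_right hxv
    have hxum : Commute x ((u : G) ^ orderOf (e * (u * v))) := by
      have h1 : ((u : G)) ^ orderOf (e * (u * v)) =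
          (((e : G) * (v : G)) ^ orderOf (e * (u * v)))⁻¹ := by
        have h2 := congrArg Subtype.val hum
        simpa using h2
      rw [h1]; exact (hxt.pow_right _).inv_right
    have huord : (orderOf (e * (u * v))).Coprime (orderOf u) := by
      obtain ⟨k, hk⟩ := (msub_isPGroup_iff p _).1 (pCore_isPGroup p (G := ↥A)) u hu
      exact Nat.Coprime.coprime_dvd_right (orderOf_dvd_of_pow_eq_one hk)
        (Nat.Coprime.pow_right k hgord)
    obtain ⟨j, hj⟩ := exists_pow_eq_self_of_coprime huord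
    have hxu : Commute x (u : G) := by
      have h1 : (u : G) = ((u : G) ^ orderOf (e * (u * v))) ^ j := by
        have h2 := congrArg Subtype.val hj
        simpa using h2.symm
      rw [h1]; exact hxum.pow_right j
    have hfin : Commute x ((u : G) * ((e : G) * (v : G))) := hxu.mul_right hxt
    rw [hgeq]
    simpa using hfin.eq

end Cfsg.Agent.S1247
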