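import Cfsg.Statements.S1255
import Cfsg.Agent.Helper8.DihSylow

set_option autoImplicit false
open Cfsg

namespace Cfsg.Agent.S1255

open Cfsg.Agent.Helper8 in
/-- Let X be a finite group whose Sylow 2-subgroup S is dihedral of order 2m ≥ 4. Then X has no subgroup of index 2 and no isolated involution if and only if either all involutions of X are conjugate, or for every Klein four-subgroup U ≤ S the index |N_X(U) : C_X(U)| equals 3 when |S| = 4 and equals 6 when |S| > 4. -/
theorem result {X : Type*} [Group X] [Finite X] (S : Sylow 2 X) (m : ℕ) (hm : 2 ≤ m) (eS : (S : Subgroup X) ≃* DihedralGroup m) : ((∀ H : Subgroup X, H.index ≠ 2) ∧ (∀ z : X, ¬ Cfsg.IsIsolatedInvolution z)) ↔ ((∀ a b : X, orderOf a = 2 → orderOf b = 2 → IsConj a b) ∨ (∀ U : Subgroup X, U ≤ S → IsKleinFour U → (Subgroup.centralizer (U : Set X)).relIndex (Subgroup.normalizer (U : Set X)) = (if Nat.card S = 4 then 3 else 6))) := by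
  constructor
  · rintro ⟨hidx, -⟩
    left
    exact dih_conj_of_no_index_two S m hm eS hidx
  · rintro (hconj | hU)
    · exact dih_no_index_two_of_conj S m hm eS hconj
    · apply dih_no_index_two_of_conj S m hm eS
      apply dih_conj_of_three_dvd S m hm eS
      intro U hUS hK
      rw [hU U hUS hK]
      split_ifs <;> norm_num

end Cfsg.Agent.S1255
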