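import Cfsg.Statements.S1258
-- import your own Cfsg.Agent.* helpers here
import Cfsg.Agent.Helper9.PComp3

set_option autoImplicit false
open Cfsg

namespace Cfsg.Agent.S1258

/-- If the central quotient of a finite group X is non-abelian simple, then X = X' Z(X) and the commutator subgroup X' is quasisimple. -/
theorem result {X : Type*} [Group X] [Finite X] (hs : IsSimpleGroup (X ⧸ Subgroup.center X)) (hna : ¬ IsMulCommutative (X ⧸ Subgroup.center X)) : commutator X ⊔ Subgroup.center X = ⊤ ∧ Cfsg.IsQuasisimple ↥(commutator X) := by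
  have hperfQ : commutator (X ⧸ Subgroup.center X) = ⊤ := by
    rcases (inferInstance : (commutator (X ⧸ Subgroup.center X)).Normal).eq_bot_or_eq_top
      with h | h
    · exfalso
      apply hna
      refine ⟨⟨fun a b => ?_⟩⟩
      have h0 : a * b * a⁻¹ * b⁻¹ ∈ commutator (X ⧸ Subgroup.center X) :=
        Subgroup.commutator_mem_commutator (Subgroup.mem_top a) (Subgroup.mem_top b)
      rw [h, Subgroup.mem_bot] at h0
      exact mul_inv_eq_iff_eq_mul.mp (mul_inv_eq_one.mp h0)
    · exact h
  have hmap : (commutator X).map (QuotientGroup.mk' (Subgroup.center X)) =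
      commutator (X ⧸ Subgroup.center X) := by
    rw [commutator_def, commutator_def, Subgroup.map_commutator, ← MonoidHom.range_eq_map,
      MonoidHom.range_eq_top.mpr (QuotientGroup.mk'_surjective _)]
  have h1 : commutator X ⊔ Subgroup.center X = ⊤ := by
    have h := Subgroup.comap_map_eq (f := QuotientGroup.mk' (Subgroup.center X)) (commutator X)
    rw [hmap, hperfQ, Subgroup.comap_top, QuotientGroup.ker_mk'] at h
    exact h.symm
  have hD : ⁅commutator X, commutator X⁆ ⊔ Subgroup.center X = ⊤ := by
    have h := Subgroup.comap_map_eq (f := QuotientGroup.mk' (Subgroup.center X))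
      ⁅commutator X, commutator X⁆
    rw [Subgroup.map_commutator, hmap, hperfQ] at h
    have h' : (⁅(⊤ : Subgroup (X ⧸ Subgroup.center X)), ⊤⁆ : Subgroup _) = ⊤ := hperfQ
    rw [h', Subgroup.comap_top, QuotientGroup.ker_mk'] at h
    exact h.symm
  have hZZ : ⁅Subgroup.center X, Subgroup.center X⁆ = ⊥ :=
    (Cfsg.Agent.Helper9.comm_eq_bot_iff _ _).mpr
      (fun a _ b hb => (Subgroup.mem_center_iff.mp hb a))
  have h2 : ⁅commutator X, commutator X⁆ = commutator X := by
    apply le_antisymm (Subgroup.commutator_mono le_top le_top)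
    have h3 := Cfsg.Agent.Helper9.commutator_sup_normal_le ⁅commutator X, commutator X⁆
      (Subgroup.center X)
    rw [hD, hZZ, sup_bot_eq] at h3
    exact h3
  have hperf : commutator ↥(commutator X) = ⊤ :=
    (Subgroup.isPerfect_iff.mpr h2).commutator_eq_top
  have hφs : Function.Surjective
      ((QuotientGroup.mk' (Subgroup.center X)).comp (commutator X).subtype) := by
    intro y
    obtain ⟨x, rfl⟩ := QuotientGroup.mk'_surjective _ y
    have hx : x ∈ commutator X ⊔ Subgroup.center X := by rw [h1]; exact Subgroup.mem_top x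
    obtain ⟨a, ha, z, hz, rfl⟩ := Cfsg.Agent.Helper9.mem_sup_of_commute
      (fun a _ b hb => (Subgroup.mem_center_iff.mp hb a)) hx
    refine ⟨⟨a, ha⟩, ?_⟩
    show QuotientGroup.mk' (Subgroup.center X) a = QuotientGroup.mk' (Subgroup.center X) (a * z)
    rw [map_mul, QuotientGroup.mk'_apply, QuotientGroup.mk'_apply,
      (QuotientGroup.eq_one_iff z).mpr hz, mul_one]
  have hker : (Subgroup.center X).subgroupOf (commutator X) =
      ((QuotientGroup.mk' (Subgroup.center X)).comp (commutator X).subtype).ker := by
    ext x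
    rw [Subgroup.mem_subgroupOf, MonoidHom.mem_ker, MonoidHom.comp_apply,
      QuotientGroup.mk'_apply, QuotientGroup.eq_one_iff]
    rfl
  have hcen : (Subgroup.center X).subgroupOf (commutator X) ≤
      Subgroup.center ↥(commutator X) := by
    intro x hx
    rw [Subgroup.mem_center_iff]
    intro g
    exact Subtype.ext (Subgroup.mem_center_iff.mp (Subgroup.mem_subgroupOf.mp hx) g)
  have hQq : Cfsg.IsQuasisimple (X ⧸ Subgroup.center X) := by
    refine ⟨⟨hperfQ⟩, ?_⟩
    have hcb : Subgroup.center (X ⧸ Subgroup.center X) = ⊥ := by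
      rcases (inferInstance :
        (Subgroup.center (X ⧸ Subgroup.center X)).Normal).eq_bot_or_eq_top with h | h
      · exact h
      · exfalso
        apply hna
        refine ⟨⟨fun a b => ?_⟩⟩
        have hb : b ∈ Subgroup.center (X ⧸ Subgroup.center X) := by
          rw [h]; exact Subgroup.mem_top b
        exact Subgroup.mem_center_iff.mp hb a
    exact ((QuotientGroup.quotientMulEquivOfEq hcb).trans QuotientGroup.quotientBot).isSimpleGroup
  exact ⟨h1, Cfsg.Agent.Helper9.quasi_of_central_quotient _ hperf hcen
    (Cfsg.Agent.Helper9.quasi_of_mulEquiv (QuotientGroup.liftEquiv _ hφs hker).symm hQq)⟩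

end Cfsg.Agent.S1258
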