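import Cfsg.Statements.S1270
-- import your own Cfsg.Agent.* helpers here
import Cfsg.Agent.Helper9.Balance

set_option autoImplicit false
open Cfsg

namespace Cfsg.Agent.S1270

open Cfsg.Agent.Helper9

/-- Let G be finite with O_{p'}(G) = 1, x of order p, and L a component with ⁅L, ⟨x⟩⁆ ≠ L. Then ⁅L, O_{p'}(C_G(x))⁆ = 1. -/
theorem result {G : Type*} [Group G] [Finite G] (p : ℕ) [Fact p.Prime] (hO : Cfsg.pPrimeCore p G = ⊥) (x : G) (hx : orderOf x = p) (L : Subgroup G) (hL : Cfsg.IsComponent L) (hne : ⁅L, Subgroup.zpowers x⁆ ≠ L) : ⁅L, Cfsg.centralizerPPrimeCore p x⁆ = ⊥ := by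
  exact component_comm_centralizerPPrimeCore p hO x hx L hL hne

end Cfsg.Agent.S1270
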