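import Cfsg.Statements.S1277
-- import your own Cfsg.Agent.* helpers here
import Cfsg.Agent.Helper9.PComp3

set_option autoImplicit false
open Cfsg

namespace Cfsg.Agent.S1277

/-- For a finite group X with core O(X): the image of E(X) in X / O(X) is all of E(X / O(X)) if and only if every 2-component of X is a component, i.e. L_{2'}(X) ≤ E(X). -/
theorem result {X : Type*} [Group X] [Finite X] : (Cfsg.layer X).map (QuotientGroup.mk' (Cfsg.oddCore X)) = Cfsg.layer (X ⧸ Cfsg.oddCore X) ↔ Cfsg.pLayer 2 X ≤ Cfsg.layer X := by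
  exact Cfsg.Agent.Helper9.layer_map_eq_iff 2

end Cfsg.Agent.S1277
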