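import Cfsg.Statements.S1279
-- import your own Cfsg.Agent.* helpers here
import Cfsg.Agent.Helper9.PLocal

set_option autoImplicit false
open Cfsg

namespace Cfsg.Agent.S1279

open Cfsg.Agent.Helper9

/-- Let A be a noncyclic elementary abelian p-subgroup of the finite group G such that C_G(a) is solvable for every non-identity a ∈ A. Then a ↦ O_{p'}(C_G(a)) is a solvable A-signalizer functor on G. -/
theorem result {G : Type*} [Group G] [Finite G] (p : ℕ) [Fact p.Prime] (A : Subgroup G) (hA : Cfsg.IsElementaryAbelian p A) (hA2 : p ^ 2 ≤ Nat.card ↥A) (hsolv : ∀ a ∈ A, a ≠ 1 → Group.IsSolvable ↥(Subgroup.centralizer ({a} : Set G))) : Cfsg.IsSolvableSignalizerFunctor p A (fun a => Cfsg.centralizerPPrimeCore p a) := by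
  haveI := hA.1
  have hcomm : ∀ a ∈ A, ∀ b ∈ A, a * b = b * a := fun a ha b hb => setLike_mul_comm ha hb
  have hθle : ∀ a : G, Cfsg.centralizerPPrimeCore p a ≤ Subgroup.centralizer ({a} : Set G) :=
    fun a => Subgroup.map_subtype_le _
  have hθc : ∀ a : G, (Nat.card ↥(Cfsg.centralizerPPrimeCore p a)).Coprime p :=
    fun a => ppcOf_coprime p (Subgroup.centralizer ({a} : Set G))
  have hnorm : ∀ a : G, Subgroup.centralizer ({a} : Set G) ≤
      Subgroup.normalizer ((Cfsg.centralizerPPrimeCore p a : Subgroup G) : Set G) := by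
    intro a
    exact Subgroup.le_normalizer.trans (char_map_normalizer (Subgroup.centralizer ({a} : Set G))
      (Cfsg.pPrimeCore p ↥(Subgroup.centralizer ({a} : Set G))))
  have hmemc : ∀ a ∈ A, ∀ b ∈ A, b ∈ Subgroup.centralizer ({a} : Set G) := by
    intro a ha b hb
    rw [Subgroup.mem_centralizer_iff]
    intro h hh
    rw [Set.mem_singleton_iff.mp hh]
    exact hcomm a ha b hb
  unfold Cfsg.IsSolvableSignalizerFunctor Cfsg.IsSignalizerFunctor
  refine ⟨⟨?_, ?_, ?_, ?_⟩, ?_⟩
  · intro a _ _
    exact hθle a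
  · intro a _ _
    exact (coprime_iff_not_dvd _).mp (hθc a)
  · intro a ha _ b hb x hx
    exact (Subgroup.mem_normalizer_iff.mp (hnorm a (hmemc a ha b hb)) x).mp hx
  · intro a ha ha1 b hb hb1 g hg
    obtain ⟨hg1, hg2⟩ := Subgroup.mem_inf.mp hg
    have hab : a ∈ Subgroup.centralizer ({b} : Set G) := hmemc b hb a ha
    haveI := hsolv b hb hb1
    have hL : Cfsg.pLayer p ↥(Subgroup.centralizer ({b} : Set G)) = ⊥ :=
      pLayer_eq_bot_of_solvable p inferInstance
    have hD : (Cfsg.centralizerPPrimeCore p a ⊓ Subgroup.centralizer ({b} : Set G)).subgroupOf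
        (Subgroup.centralizer ({b} : Set G)) ≤
        Subgroup.centralizer ({(⟨a, hab⟩ : ↥(Subgroup.centralizer ({b} : Set G)))} :
          Set ↥(Subgroup.centralizer ({b} : Set G))) := by
      intro d hd
      rw [Subgroup.mem_subgroupOf] at hd
      have h1 : (d : G) ∈ Subgroup.centralizer ({a} : Set G) := hθle a (Subgroup.mem_inf.mp hd).1
      rw [Subgroup.mem_centralizer_iff] at h1 ⊢
      intro h hh
      rw [Set.mem_singleton_iff.mp hh]
      exact Subtype.ext (h1 a (Set.mem_singleton a))
    have hn : Subgroup.centralizer ({(⟨a, hab⟩ : ↥(Subgroup.centralizer ({b} : Set G)))} :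
          Set ↥(Subgroup.centralizer ({b} : Set G))) ≤
        Subgroup.normalizer (((Cfsg.centralizerPPrimeCore p a ⊓
          Subgroup.centralizer ({b} : Set G)).subgroupOf (Subgroup.centralizer ({b} : Set G)) :
            Subgroup ↥(Subgroup.centralizer ({b} : Set G))) :
              Set ↥(Subgroup.centralizer ({b} : Set G))) := by
      intro m hm
      rw [← Subgroup.subgroupOf_normalizer_eq inf_le_right, Subgroup.mem_subgroupOf]
      apply Subgroup.inf_normalizer_le_normalizer_inf
      refine Subgroup.mem_inf.mpr ⟨hnorm a ?_, Subgroup.le_normalizer m.2⟩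
      rw [Subgroup.mem_centralizer_iff] at hm ⊢
      intro h hh
      rw [Set.mem_singleton_iff.mp hh]
      exact congrArg Subtype.val (hm ⟨a, hab⟩ (Set.mem_singleton _))
    have hc : (Nat.card ↥((Cfsg.centralizerPPrimeCore p a ⊓
        Subgroup.centralizer ({b} : Set G)).subgroupOf
          (Subgroup.centralizer ({b} : Set G)))).Coprime p := by
      rw [Nat.card_congr (Subgroup.subgroupOfEquivOfLe (inf_le_right :
        Cfsg.centralizerPPrimeCore p a ⊓ Subgroup.centralizer ({b} : Set G) ≤
          Subgroup.centralizer ({b} : Set G))).toEquiv]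
      exact Nat.Coprime.coprime_dvd_left (Subgroup.card_dvd_of_le inf_le_left) (hθc a)
    have key := le_pPrimeCore_of_centralizer_elt p hL
      (⟨a, hab⟩ : ↥(Subgroup.centralizer ({b} : Set G))) (Subtype.ext (hA.2 a ha)) _ hD hn hc
    have hgX : (⟨g, hg2⟩ : ↥(Subgroup.centralizer ({b} : Set G))) ∈
        Cfsg.pPrimeCore p ↥(Subgroup.centralizer ({b} : Set G)) :=
      key (Subgroup.mem_subgroupOf.mpr hg)
    show g ∈ (Cfsg.pPrimeCore p ↥(Subgroup.centralizer ({b} : Set G))).map
      (Subgroup.centralizer ({b} : Set G)).subtype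
    exact Subgroup.mem_map.mpr ⟨⟨g, hg2⟩, hgX, rfl⟩
  · intro a ha ha1
    haveI := hsolv a ha ha1
    exact Group.isSolvable_of_isSolvable_injective
      (f := Subgroup.inclusion (hθle a)) (Subgroup.inclusion_injective _)

end Cfsg.Agent.S1279
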