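import Cfsg.Statements.S1280
-- import your own Cfsg.Agent.* helpers here
import Cfsg.Agent.Helper9.PLocal

set_option autoImplicit false
open Cfsg

namespace Cfsg.Agent.S1280

open Cfsg.Agent.Helper9

/-- Let θ be a solvable A-signalizer functor (A a noncyclic elementary abelian p-subgroup of the finite group G), and X, Y members of its family with Y ≤ N_G(X). Then X ⊔ Y (= XY) is again in the family. -/
theorem result {G : Type*} [Group G] [Finite G] (p : ℕ) [Fact p.Prime] (A : Subgroup G) (hA : Cfsg.IsElementaryAbelian p A) (hA2 : p ^ 2 ≤ Nat.card ↥A) (θ : G → Subgroup G) (hθ : Cfsg.IsSolvableSignalizerFunctor p A θ) (X Y : Subgroup G) (hX : X ∈ Cfsg.signalizerFamily p A θ) (hY : Y ∈ Cfsg.signalizerFamily p A θ) (hn : Y ≤ Subgroup.normalizer (X : Set G)) : X ⊔ Y ∈ Cfsg.signalizerFamily p A θ := by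
  have hp : p.Prime := Fact.out
  obtain ⟨hXs, hXp, hXA, hXθ⟩ := hX
  obtain ⟨hYs, hYp, hYA, hYθ⟩ := hY
  have hAX : A ≤ Subgroup.normalizer (X : Set G) := le_normalizer_of_conj_inv A X hXA
  have hAY : A ≤ Subgroup.normalizer (Y : Set G) := le_normalizer_of_conj_inv A Y hYA
  have hsup := sup_of_le_normalizer X Y hn
  show Group.IsSolvable ↥(X ⊔ Y) ∧ ¬ p ∣ Nat.card ↥(X ⊔ Y) ∧
    (∀ b ∈ A, ∀ u ∈ X ⊔ Y, b * u * b⁻¹ ∈ X ⊔ Y) ∧
    ∀ a ∈ A, a ≠ 1 → (X ⊔ Y) ⊓ Subgroup.centralizer {a} ≤ θ a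
  refine ⟨hsup.1 hXs hYs, ?_, ?_, ?_⟩
  · intro hdvd
    rcases (Nat.Prime.dvd_mul hp).mp (hdvd.trans hsup.2) with h | h
    · exact hXp h
    · exact hYp h
  · intro b hb u hu
    exact (Subgroup.mem_normalizer_iff.mp (le_normalizer_sup hAX hAY hb) u).mp hu
  · intro a ha ha1 g hg
    obtain ⟨hg1, hgC⟩ := Subgroup.mem_inf.mp hg
    obtain ⟨x, hx, y, hy, rfl⟩ := exists_mul_of_mem_sup_normalizer hn hg1
    have hBA : Subgroup.zpowers a ≤ A := Subgroup.zpowers_le.mpr ha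
    have hBY : Subgroup.zpowers a ≤ Subgroup.normalizer ((Y : Subgroup G) : Set G) := hBA.trans hAY
    have hBD : Subgroup.zpowers a ≤ Subgroup.normalizer ((X ⊓ Y : Subgroup G) : Set G) :=
      (le_inf (hBA.trans hAX) hBY).trans Subgroup.inf_normalizer_le_normalizer_inf
    have hcop : (Nat.card ↥(Subgroup.zpowers a)).Coprime (Nat.card ↥Y) := by
      rw [Nat.card_zpowers, orderOf_eq_prime (hA.2 a ha) ha1]
      exact (Nat.Prime.coprime_iff_not_dvd hp).mpr hYp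
    have hag : Commute a (x * y) := Subgroup.mem_centralizer_iff.mp hgC a (Set.mem_singleton a)
    have hcomm : ∀ c ∈ Subgroup.zpowers a, y⁻¹ * c * y * c⁻¹ ∈ X ⊓ Y := by
      intro c hc
      have hcA : c ∈ A := hBA hc
      refine Subgroup.mem_inf.mpr ⟨?_, ?_⟩
      · obtain ⟨k, rfl⟩ := Subgroup.mem_zpowers_iff.mp hc
        have hc1 : Commute (a ^ k) (x * y) := hag.zpow_left k
        have hc2 : (a ^ k)⁻¹ * (x * y) = (x * y) * (a ^ k)⁻¹ := (hc1.inv_left).eq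
        have hw : a ^ k * x⁻¹ * (a ^ k)⁻¹ * x ∈ X :=
          X.mul_mem ((Subgroup.mem_normalizer_iff.mp (hAX hcA) x⁻¹).mp (X.inv_mem hx)) hx
        have e : y⁻¹ * a ^ k * y * (a ^ k)⁻¹ = y⁻¹ * (a ^ k * x⁻¹ * (a ^ k)⁻¹ * x) * y⁻¹⁻¹ := by
          calc y⁻¹ * a ^ k * y * (a ^ k)⁻¹ = y⁻¹ * a ^ k * x⁻¹ * ((x * y) * (a ^ k)⁻¹) := by group
            _ = y⁻¹ * a ^ k * x⁻¹ * ((a ^ k)⁻¹ * (x * y)) := by rw [hc2]
            _ = y⁻¹ * (a ^ k * x⁻¹ * (a ^ k)⁻¹ * x) * y⁻¹⁻¹ := by group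
        rw [e]
        exact (Subgroup.mem_normalizer_iff.mp (hn (Y.inv_mem hy)) _).mp hw
      · have e : y⁻¹ * c * y * c⁻¹ = y⁻¹ * (c * y * c⁻¹) := by group
        rw [e]
        exact Y.mul_mem (Y.inv_mem hy) (hYA c hcA y hy)
    obtain ⟨d, hd, hcd⟩ := Cfsg.Agent.Helper1.coprime_coset_fixed (Subgroup.zpowers a) Y
      (X ⊓ Y) hBY hBD inf_le_right hcop (Or.inr hYs) y hy hcomm
    have hd' := Subgroup.mem_inf.mp hd
    have hydC : y * d ∈ Subgroup.centralizer ({a} : Set G) :=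
      centralizer_zpowers_le_centralizer_singleton a hcd
    have hy' : y * d ∈ θ a :=
      hYθ a ha ha1 (Subgroup.mem_inf.mpr ⟨Y.mul_mem hy hd'.2, hydC⟩)
    have hx'X : x * (y * d⁻¹ * y⁻¹) ∈ X :=
      X.mul_mem hx ((Subgroup.mem_normalizer_iff.mp (hn hy) d⁻¹).mp (X.inv_mem hd'.1))
    have hx'C : x * (y * d⁻¹ * y⁻¹) ∈ Subgroup.centralizer ({a} : Set G) := by
      have e : x * (y * d⁻¹ * y⁻¹) = (x * y) * (y * d)⁻¹ := by group
      rw [e]
      exact Subgroup.mul_mem _ hgC (Subgroup.inv_mem _ hydC)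
    have hx' : x * (y * d⁻¹ * y⁻¹) ∈ θ a := hXθ a ha ha1 (Subgroup.mem_inf.mpr ⟨hx'X, hx'C⟩)
    have e : x * y = (x * (y * d⁻¹ * y⁻¹)) * (y * d) := by group
    rw [e]
    exact (θ a).mul_mem hx' hy'

end Cfsg.Agent.S1280
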