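import Cfsg.Statements.S1281
-- import your own Cfsg.Agent.* helpers here
import Cfsg.Agent.Helper9.PLocal

set_option autoImplicit false
open Cfsg

namespace Cfsg.Agent.S1281

open Cfsg.Agent.Helper9

/-- Let θ be a solvable A-signalizer functor on the finite group G (A a noncyclic elementary abelian p-subgroup) and N a normal subgroup of order prime to p. Then for all non-identity a, b ∈ A, the image of θ a in G / N meets the centralizer of the image of b inside the image of θ b. -/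
theorem result {G : Type*} [Group G] [Finite G] (p : ℕ) [Fact p.Prime] (A : Subgroup G) (hA : Cfsg.IsElementaryAbelian p A) (hA2 : p ^ 2 ≤ Nat.card ↥A) (θ : G → Subgroup G) (hθ : Cfsg.IsSolvableSignalizerFunctor p A θ) (N : Subgroup G) [N.Normal] (hN : ¬ p ∣ Nat.card ↥N) (a b : G) (ha : a ∈ A) (ha1 : a ≠ 1) (hb : b ∈ A) (hb1 : b ≠ 1) : (θ a).map (QuotientGroup.mk' N) ⊓ Subgroup.centralizer {QuotientGroup.mk' N b} ≤ (θ b).map (QuotientGroup.mk' N) := by
  have hp : p.Prime := Fact.out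
  obtain ⟨⟨h1, h2, h3, h4⟩, hsolv⟩ := hθ
  intro gb hgb
  obtain ⟨hg1, hg2⟩ := Subgroup.mem_inf.mp hgb
  obtain ⟨t, ht, rfl⟩ := Subgroup.mem_map.mp hg1
  have hBA : Subgroup.zpowers b ≤ A := Subgroup.zpowers_le.mpr hb
  have hBθ : Subgroup.zpowers b ≤ Subgroup.normalizer ((θ a : Subgroup G) : Set G) :=
    hBA.trans (le_normalizer_of_conj_inv A (θ a) (h3 a ha ha1))
  have hBN : Subgroup.zpowers b ≤ Subgroup.normalizer ((N : Subgroup G) : Set G) := by
    rw [Subgroup.normalizer_eq_top_iff.mpr inferInstance]; exact le_top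
  have hBD : Subgroup.zpowers b ≤ Subgroup.normalizer ((θ a ⊓ N : Subgroup G) : Set G) :=
    (le_inf hBθ hBN).trans Subgroup.inf_normalizer_le_normalizer_inf
  have hcop : (Nat.card ↥(Subgroup.zpowers b)).Coprime (Nat.card ↥(θ a)) := by
    rw [Nat.card_zpowers, orderOf_eq_prime (hA.2 b hb) hb1]
    exact (Nat.Prime.coprime_iff_not_dvd hp).mpr (h2 a ha ha1)
  have hcb : Commute (QuotientGroup.mk' N b) (QuotientGroup.mk' N t) :=
    Subgroup.mem_centralizer_iff.mp hg2 _ (Set.mem_singleton _)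
  have hcomm : ∀ c ∈ Subgroup.zpowers b, t⁻¹ * c * t * c⁻¹ ∈ θ a ⊓ N := by
    intro c hc
    refine Subgroup.mem_inf.mpr ⟨?_, ?_⟩
    · have e : t⁻¹ * c * t * c⁻¹ = t⁻¹ * (c * t * c⁻¹) := by group
      rw [e]
      exact (θ a).mul_mem ((θ a).inv_mem ht) (h3 a ha ha1 c (hBA hc) t ht)
    · obtain ⟨k, rfl⟩ := Subgroup.mem_zpowers_iff.mp hc
      have hck : Commute (QuotientGroup.mk' N (b ^ k)) (QuotientGroup.mk' N t) := by
        rw [map_zpow]; exact hcb.zpow_left k
      have h6 : QuotientGroup.mk' N (t⁻¹ * b ^ k * t * (b ^ k)⁻¹) = 1 := by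
        rw [map_mul, map_mul, map_mul, map_inv, map_inv,
          mul_assoc _ _ (QuotientGroup.mk' N t), hck.eq]
        group
      rw [← QuotientGroup.eq_one_iff]
      exact h6
  obtain ⟨d, hd, hcd⟩ := Cfsg.Agent.Helper1.coprime_coset_fixed (Subgroup.zpowers b) (θ a)
    (θ a ⊓ N) hBθ hBD inf_le_left hcop (Or.inr (hsolv a ha ha1)) t ht hcomm
  have hd' := Subgroup.mem_inf.mp hd
  have h5 : t * d ∈ θ b := h4 a ha ha1 b hb hb1 (Subgroup.mem_inf.mpr
    ⟨(θ a).mul_mem ht hd'.1, centralizer_zpowers_le_centralizer_singleton b hcd⟩)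
  refine Subgroup.mem_map.mpr ⟨t * d, h5, ?_⟩
  rw [map_mul, show QuotientGroup.mk' N d = 1 from (QuotientGroup.eq_one_iff d).mpr hd'.2,
    mul_one]

end Cfsg.Agent.S1281
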