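import Cfsg.Statements.S1284
-- import your own Cfsg.Agent.* helpers here
import Cfsg.Agent.Helper9.Signalizer2

set_option autoImplicit false
open Cfsg

namespace Cfsg.Agent.S1284

open Cfsg.Agent.Helper9
open scoped Pointwise

/-- Let θ be a solvable A-signalizer functor on the finite group G, A elementary abelian of rank at least 3, q a prime dividing some |θ a|, and Q maximal among the q-subgroups in the family of θ. Then (a) for every member H of the family, some c in the intersection of the θ a (a ∈ A non-identity) makes c Q c⁻¹ ∩ H a Sylow q-subgroup of H; and (b) for every nontrivial subgroup B ≤ A, C_Q(B) is a Sylow q-subgroup of the intersection of the θ b over the non-identity b ∈ B. -/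
theorem result {G : Type*} [Group G] [Finite G] (p : ℕ) [Fact p.Prime] (A : Subgroup G) (hA : Cfsg.IsElementaryAbelian p A) (hA3 : p ^ 3 ≤ Nat.card ↥A) (θ : G → Subgroup G) (hθ : Cfsg.IsSolvableSignalizerFunctor p A θ) (q : ℕ) [Fact q.Prime] (hq : ∃ a ∈ A, a ≠ 1 ∧ q ∣ Nat.card ↥(θ a)) (Q : Subgroup G) (hQW : Q ∈ Cfsg.signalizerFamily p A θ) (hQq : IsPGroup q ↥Q) (hQmax : ∀ R ∈ Cfsg.signalizerFamily p A θ, IsPGroup q ↥R → Q ≤ R → R = Q) : (∀ H : Subgroup G, H ∈ Cfsg.signalizerFamily p A θ → ∃ c ∈ Cfsg.signalizerInf A θ, ∃ S : Sylow q ↥H, (S : Subgroup ↥H).map H.subtype = Q.map (MulAut.conj c).toMonoidHom ⊓ H) ∧ (∀ B : Subgroup G, B ≤ A → B ≠ ⊥ → ∃ S : Sylow q ↥(Cfsg.signalizerInf B θ), (S : Subgroup ↥(Cfsg.signalizerInf B θ)).map (Cfsg.signalizerInf B θ).subtype = Q ⊓ Subgroup.centralizer (B : Set G)) := by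
  have hsf := hθ.1
  obtain ⟨hθc, hθp, hθA, hθbal⟩ := id hsf
  have hQm : IsMaxSig p A θ q Q := And.intro hQW (And.intro hQq hQmax)
  obtain ⟨hQs, hQp, hQA, hQθ⟩ := id hQW
  have part1 : ∀ H : Subgroup G, H ∈ Cfsg.signalizerFamily p A θ →
      ∃ c ∈ Cfsg.signalizerInf A θ, ∃ S : Sylow q ↥H,
        (S : Subgroup ↥H).map H.subtype = Q.map (MulAut.conj c).toMonoidHom ⊓ H := by
    intro H hH
    obtain ⟨hHs, hHp, hHA, hHθ⟩ := id hH
    have hAH : A ≤ Subgroup.normalizer (H : Set G) := le_normalizer_of_conj_inv A H hHA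
    have hcop : (Nat.card ↥A).Coprime (Nat.card ↥H) := card_coprime_of_elemAbelian p A hA H hHp
    obtain ⟨P, hAP⟩ := Cfsg.Agent.S0023.result A H hAH hcop (Or.inr hHs) q
    have hSF : (P : Subgroup ↥H).map H.subtype ∈ Cfsg.signalizerFamily p A θ :=
      signalizerFamily_of_le p A θ hH (Subgroup.map_subtype_le _)
        (fun b hb u hu => (Subgroup.mem_normalizer_iff.mp (hAP hb) u).mp hu)
    have hSq : IsPGroup q ↥((P : Subgroup ↥H).map H.subtype) := P.isPGroup'.map _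
    obtain ⟨Q', hQ'm, hSQ'⟩ := exists_isMaxSig_ge p A θ q hSF hSq
    obtain ⟨c, hc, hcQ⟩ := sig_trans_aux p A hA hA3 θ hθ q _ Q Q' hQm hQ'm rfl
    refine ⟨c, hc, P, ?_⟩
    rw [← Cfsg.Agent.Helper1.conj_smul_eq_map, hcQ]
    have hq' : IsPGroup q ↥((Q' ⊓ H).subgroupOf H) :=
      (hQ'm.2.1.to_le inf_le_left).of_equiv (Subgroup.subgroupOfEquivOfLe inf_le_right).symm
    have hle : (P : Subgroup ↥H) ≤ (Q' ⊓ H).subgroupOf H := by
      intro x hx
      rw [Subgroup.mem_subgroupOf]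
      exact Subgroup.mem_inf.mpr ⟨hSQ' (Subgroup.mem_map_of_mem _ hx), x.2⟩
    have heq := P.is_maximal' hq' hle
    rw [← heq, Subgroup.map_subgroupOf_eq_of_le inf_le_right]
  refine ⟨part1, ?_⟩
  intro B hBA hBne
  have hHF := signalizerInf_mem_family p A θ hθ B hBA hBne
  obtain ⟨c, hc, S, hS⟩ := part1 _ hHF
  have hcH : c ∈ Cfsg.signalizerInf B θ := signalizerInf_anti A B θ hBA hc
  have hQB : Q ⊓ Subgroup.centralizer (B : Set G) = Q ⊓ Cfsg.signalizerInf B θ := by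
    apply le_antisymm
    · intro x hx
      obtain ⟨hxQ, hxB⟩ := Subgroup.mem_inf.mp hx
      refine Subgroup.mem_inf.mpr ⟨hxQ, ?_⟩
      unfold Cfsg.signalizerInf
      rw [Subgroup.mem_iInf]
      rintro ⟨b, hbB, hb1⟩
      exact hQθ b (hBA hbB) hb1 (Subgroup.mem_inf.mpr
        ⟨hxQ, Subgroup.centralizer_le (Set.singleton_subset_iff.mpr hbB) hxB⟩)
    · intro x hx
      obtain ⟨hxQ, hxH⟩ := Subgroup.mem_inf.mp hx
      refine Subgroup.mem_inf.mpr ⟨hxQ, ?_⟩
      rw [Subgroup.mem_centralizer_iff]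
      intro b hb
      by_cases hb1 : b = 1
      · rw [hb1, one_mul, mul_one]
      · have h1 : x ∈ θ b := mem_theta_of_mem_signalizerInf B θ hxH hb hb1
        exact (Subgroup.mem_centralizer_iff.mp (hθc b (hBA hb) hb1 h1)) b (Set.mem_singleton b)
  have hmapeq : MulAut.conj c • (Q ⊓ Cfsg.signalizerInf B θ) =
      (MulAut.conj c • Q) ⊓ Cfsg.signalizerInf B θ := by
    ext x
    rw [Cfsg.Agent.Helper1.mem_conj_smul, Subgroup.mem_inf, Subgroup.mem_inf,
      Cfsg.Agent.Helper1.mem_conj_smul]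
    constructor
    · rintro ⟨h1, h2⟩
      refine ⟨h1, ?_⟩
      have h3 : x = c * (c⁻¹ * x * c) * c⁻¹ := by group
      rw [h3]
      exact Subgroup.mul_mem _ (Subgroup.mul_mem _ hcH h2) (Subgroup.inv_mem _ hcH)
    · rintro ⟨h1, h2⟩
      exact ⟨h1, Subgroup.mul_mem _ (Subgroup.mul_mem _ (Subgroup.inv_mem _ hcH) h2) hcH⟩
  have hcard : Nat.card ↥(Q ⊓ Cfsg.signalizerInf B θ : Subgroup G) =
      q ^ (Nat.card ↥(Cfsg.signalizerInf B θ)).factorization q := by
    rw [← Cfsg.Agent.Helper1.card_conj_smul (Q ⊓ Cfsg.signalizerInf B θ) c, hmapeq,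
      Cfsg.Agent.Helper1.conj_smul_eq_map, ← hS,
      Subgroup.card_map_of_injective (Subgroup.subtype_injective _)]
    exact S.card_eq_multiplicity
  have hcard' : Nat.card ↥((Q ⊓ Cfsg.signalizerInf B θ).subgroupOf (Cfsg.signalizerInf B θ)) =
      q ^ (Nat.card ↥(Cfsg.signalizerInf B θ)).factorization q := by
    rw [← hcard]
    exact Nat.card_congr (Subgroup.subgroupOfEquivOfLe inf_le_right).toEquiv
  refine ⟨Sylow.ofCard _ hcard', ?_⟩
  rw [Sylow.coe_ofCard, Subgroup.map_subgroupOf_eq_of_le inf_le_right, hQB]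

end Cfsg.Agent.S1284
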