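import Cfsg.Statements.S1285
-- import your own Cfsg.Agent.* helpers here
import Cfsg.Agent.Helper9.Signalizer2

set_option autoImplicit false
open Cfsg

namespace Cfsg.Agent.S1285

open Cfsg.Agent.Helper9

/-- Let θ be a solvable A-signalizer functor on the finite group G with A elementary abelian of rank at least 3, and suppose that for some prime q every θ a (a ∈ A non-identity) is a q-group. Then θ is complete. -/
theorem result {G : Type*} [Group G] [Finite G] (p : ℕ) [Fact p.Prime] (A : Subgroup G) (hA : Cfsg.IsElementaryAbelian p A) (hA3 : p ^ 3 ≤ Nat.card ↥A) (θ : G → Subgroup G) (hθ : Cfsg.IsSolvableSignalizerFunctor p A θ) (q : ℕ) [Fact q.Prime] (hq : ∀ a ∈ A, a ≠ 1 → IsPGroup q ↥(θ a)) : Cfsg.IsCompleteSignalizerFunctor p A θ := by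
  have hsf := hθ.1
  obtain ⟨hθc, hθp, hθA, hθbal⟩ := id hsf
  have hbot : (⊥ : Subgroup G) ∈ Cfsg.signalizerFamily p A θ := bot_mem_signalizerFamily p A θ
  obtain ⟨Q, hQm, -⟩ := exists_isMaxSig_ge p A θ q hbot IsPGroup.of_bot
  obtain ⟨hQF, hQq, hQmax⟩ := id hQm
  obtain ⟨hQs, hQp, hQA, hQθ⟩ := id hQF
  unfold Cfsg.IsCompleteSignalizerFunctor
  refine ⟨hsf, Q, hQA, hQp, ?_⟩
  intro a ha ha1
  apply le_antisymm (hQθ a ha ha1)
  have haF : θ a ∈ Cfsg.signalizerFamily p A θ := by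
    unfold Cfsg.signalizerFamily
    exact ⟨hθ.2 a ha ha1, hθp a ha ha1, hθA a ha ha1, fun b hb hb1 => hθbal a ha ha1 b hb hb1⟩
  obtain ⟨Qa, hQam, hle⟩ := exists_isMaxSig_ge p A θ q haF (hq a ha ha1)
  obtain ⟨c, hc, hcQ⟩ := sig_trans_aux p A hA hA3 θ hθ q _ Qa Q hQam hQm rfl
  have hca : c ∈ θ a := mem_theta_of_mem_signalizerInf A θ hc ha ha1
  refine le_inf ?_ (hθc a ha ha1)
  intro x hx
  rw [← hcQ, Cfsg.Agent.Helper1.mem_conj_smul]
  exact hle (Subgroup.mul_mem _ (Subgroup.mul_mem _ (Subgroup.inv_mem _ hca) hx) hca)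

end Cfsg.Agent.S1285
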