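-- Statement S1286; see Cfsg/Templates/S1286.lean.txt.
import Cfsg.Statements.S1286
import Mathlib

set_option autoImplicit false
open Cfsg

namespace Cfsg.Agent.S1286

/-- subgroup of `S₅` with a prescribed finite carrier -/
def mkSub (F : Finset (Equiv.Perm (Fin 5))) (h1 : (1 : Equiv.Perm (Fin 5)) ∈ F)
    (hmul : ∀ x ∈ F, ∀ y ∈ F, x * y ∈ F) (hinv : ∀ x ∈ F, x⁻¹ ∈ F) :
    Subgroup (Equiv.Perm (Fin 5)) where
  carrier := ↑F
  one_mem' := h1
  mul_mem' := fun {x y} hx hy => hmul x hx y hy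
  inv_mem' := fun {x} hx => hinv x hx

theorem card_mkSub (F : Finset (Equiv.Perm (Fin 5))) (h1 : (1 : Equiv.Perm (Fin 5)) ∈ F)
    (hmul : ∀ x ∈ F, ∀ y ∈ F, x * y ∈ F) (hinv : ∀ x ∈ F, x⁻¹ ∈ F) :
    Nat.card ↥(mkSub F h1 hmul hinv) = F.card := by
  rw [← Set.ncard_coe_finset F]
  exact Nat.card_coe_set_eq (↑F : Set (Equiv.Perm (Fin 5)))

def a : Equiv.Perm (Fin 5) := Equiv.swap 0 1
def b : Equiv.Perm (Fin 5) := Equiv.swap 2 3
def c₁ : Equiv.Perm (Fin 5) := Equiv.swap 2 3 * Equiv.swap 3 4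
def c₂ : Equiv.Perm (Fin 5) := Equiv.swap 0 1 * Equiv.swap 1 4
def FA : Finset (Equiv.Perm (Fin 5)) := {1, a, b, a * b}
def F₁ : Finset (Equiv.Perm (Fin 5)) := {1, c₁, c₁ * c₁}
def F₂ : Finset (Equiv.Perm (Fin 5)) := {1, c₂, c₂ * c₂}
def A : Subgroup (Equiv.Perm (Fin 5)) :=
  mkSub FA (by decide +kernel) (by decide +kernel) (by decide +kernel)
def T₁ : Subgroup (Equiv.Perm (Fin 5)) :=
  mkSub F₁ (by decide +kernel) (by decide +kernel) (by decide +kernel)
def T₂ : Subgroup (Equiv.Perm (Fin 5)) :=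
  mkSub F₂ (by decide +kernel) (by decide +kernel) (by decide +kernel)
def θ (x : Equiv.Perm (Fin 5)) : Subgroup (Equiv.Perm (Fin 5)) :=
  if x = a then T₁ else if x = b then T₂ else ⊥

theorem hθa : θ a = T₁ := by unfold θ; rw [if_pos rfl]
theorem hθb : θ b = T₂ := by unfold θ; rw [if_neg (by decide +kernel), if_pos rfl]
theorem hθab : θ (a * b) = ⊥ := by
  unfold θ; rw [if_neg (by decide +kernel), if_neg (by decide +kernel)]

theorem hcases : ∀ x ∈ A, x ≠ 1 → x = a ∨ x = b ∨ x = a * b := by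
  intro x hx h1
  have hx' : x ∈ FA := hx
  simp only [FA, Finset.mem_insert, Finset.mem_singleton] at hx'
  rcases hx' with h | h | h | h
  · exact absurd h h1
  · exact Or.inl h
  · exact Or.inr (Or.inl h)
  · exact Or.inr (Or.inr h)

theorem d11 : ∀ x ∈ F₁, a * x = x * a := by decide +kernel
theorem d12 : ∀ x ∈ F₂, b * x = x * b := by decide +kernel
theorem d31 : ∀ y ∈ FA, ∀ x ∈ F₁, y * x * y⁻¹ ∈ F₁ := by decide +kernel
theorem d32 : ∀ y ∈ FA, ∀ x ∈ F₂, y * x * y⁻¹ ∈ F₂ := by decide +kernel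
theorem d41 : ∀ x ∈ F₁, b * x = x * b → x = 1 := by decide +kernel
theorem d42 : ∀ x ∈ F₁, (a * b) * x = x * (a * b) → x = 1 := by decide +kernel
theorem d43 : ∀ x ∈ F₂, a * x = x * a → x = 1 := by decide +kernel
theorem d44 : ∀ x ∈ F₂, (a * b) * x = x * (a * b) → x = 1 := by decide +kernel
theorem d51 : ∀ x ∈ F₁, ∀ y ∈ F₁, x * y = y * x := by decide +kernel
theorem d52 : ∀ x ∈ F₂, ∀ y ∈ F₂, x * y = y * x := by decide +kernel
theorem d61 : ∀ x ∈ FA, ∀ y ∈ FA, x * y = y * x := by decide +kernel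
theorem d62 : ∀ x ∈ FA, x ^ 2 = 1 := by decide +kernel
theorem hcA : Nat.card ↥A = 4 := (card_mkSub _ _ _ _).trans (by decide +kernel)
theorem hcT₁ : Nat.card ↥T₁ = 3 := (card_mkSub _ _ _ _).trans (by decide +kernel)
theorem hcT₂ : Nat.card ↥T₂ = 3 := (card_mkSub _ _ _ _).trans (by decide +kernel)
theorem haA : a ∈ A := show a ∈ FA by decide +kernel
theorem hbA : b ∈ A := show b ∈ FA by decide +kernel
theorem ha1 : a ≠ 1 := by decide +kernel
theorem hb1 : b ≠ 1 := by decide +kernel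
theorem hc₁T : c₁ ∈ T₁ := show c₁ ∈ F₁ by decide +kernel
theorem hc₂T : c₂ ∈ T₂ := show c₂ ∈ F₂ by decide +kernel
theorem hw2 : (c₁ * c₁ * c₂ * c₁ * c₂) ^ 2 = 1 := by decide +kernel
theorem hw1 : c₁ * c₁ * c₂ * c₁ * c₂ ≠ 1 := by decide +kernel

theorem mem_bot_of_inf {S : Subgroup (Equiv.Perm (Fin 5))} {x : Equiv.Perm (Fin 5)}
    (T : Subgroup (Equiv.Perm (Fin 5))) (hx : x ∈ (⊥ : Subgroup (Equiv.Perm (Fin 5))) ⊓ S) :
    x ∈ T := by
  have := Subgroup.mem_bot.mp (Subgroup.mem_inf.mp hx).1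
  rw [this]; exact Subgroup.one_mem _

/-- There exist a finite group X, an elementary abelian subgroup A of order 4 and a solvable A-signalizer functor θ on X for the prime 2 which is not complete. -/
theorem result : ∃ (X : Type) (_ : Group X) (_ : Finite X) (A : Subgroup X) (θ : X → Subgroup X), Cfsg.IsElementaryAbelian 2 A ∧ Nat.card ↥A = 4 ∧ Cfsg.IsSolvableSignalizerFunctor 2 A θ ∧ ¬ Cfsg.IsCompleteSignalizerFunctor 2 A θ := by
  refine ⟨Equiv.Perm (Fin 5), inferInstance, inferInstance, A, θ, ?_, hcA, ?_, ?_⟩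
  · exact ⟨⟨⟨fun x y => Subtype.ext (d61 x.1 x.2 y.1 y.2)⟩⟩, fun x hx => d62 x hx⟩
  · unfold Cfsg.IsSolvableSignalizerFunctor Cfsg.IsSignalizerFunctor
    refine ⟨⟨?_, ?_, ?_, ?_⟩, ?_⟩
    · intro a' ha' h1
      rcases hcases a' ha' h1 with rfl | rfl | rfl
      · rw [hθa]
        intro x hx
        rw [Subgroup.mem_centralizer_iff]
        intro h hh
        rw [Set.mem_singleton_iff.mp hh]
        exact d11 x hx
      · rw [hθb]
        intro x hx
        rw [Subgroup.mem_centralizer_iff]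
        intro h hh
        rw [Set.mem_singleton_iff.mp hh]
        exact d12 x hx
      · rw [hθab]; exact bot_le
    · intro a' ha' h1
      rcases hcases a' ha' h1 with rfl | rfl | rfl
      · rw [hθa, hcT₁]; decide
      · rw [hθb, hcT₂]; decide
      · rw [hθab, Subgroup.card_bot]; decide
    · intro a' ha' h1
      rcases hcases a' ha' h1 with rfl | rfl | rfl
      · rw [hθa]
        intro b' hb' x hx
        exact d31 b' hb' x hx
      · rw [hθb]
        intro b' hb' x hx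
        exact d32 b' hb' x hx
      · rw [hθab]
        intro b' hb' x hx
        rw [Subgroup.mem_bot] at hx ⊢
        rw [hx, mul_one, mul_inv_cancel]
    · intro a' ha' h1 b' hb' h1'
      rcases hcases a' ha' h1 with rfl | rfl | rfl
      · rw [hθa]
        rcases hcases b' hb' h1' with rfl | rfl | rfl
        · rw [hθa]; exact inf_le_left
        · intro x hx
          obtain ⟨hx1, hx2⟩ := Subgroup.mem_inf.mp hx
          have h := d41 x hx1 (Subgroup.mem_centralizer_iff.mp hx2 b (Set.mem_singleton b))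
          rw [h]; exact Subgroup.one_mem _
        · intro x hx
          obtain ⟨hx1, hx2⟩ := Subgroup.mem_inf.mp hx
          have h := d42 x hx1 (Subgroup.mem_centralizer_iff.mp hx2 (a * b) (Set.mem_singleton _))
          rw [h]; exact Subgroup.one_mem _
      · rw [hθb]
        rcases hcases b' hb' h1' with rfl | rfl | rfl
        · intro x hx
          obtain ⟨hx1, hx2⟩ := Subgroup.mem_inf.mp hx
          have h := d43 x hx1 (Subgroup.mem_centralizer_iff.mp hx2 a (Set.mem_singleton a))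
          rw [h]; exact Subgroup.one_mem _
        · rw [hθb]; exact inf_le_left
        · intro x hx
          obtain ⟨hx1, hx2⟩ := Subgroup.mem_inf.mp hx
          have h := d44 x hx1 (Subgroup.mem_centralizer_iff.mp hx2 (a * b) (Set.mem_singleton _))
          rw [h]; exact Subgroup.one_mem _
      · rw [hθab]
        intro x hx
        exact mem_bot_of_inf _ hx
    · intro a' ha' h1
      rcases hcases a' ha' h1 with rfl | rfl | rfl
      · rw [hθa]
        exact Group.isSolvable_of_comm (fun x y => Subtype.ext (d51 x.1 x.2 y.1 y.2))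
      · rw [hθb]
        exact Group.isSolvable_of_comm (fun x y => Subtype.ext (d52 x.1 x.2 y.1 y.2))
      · rw [hθab]
        exact Group.isSolvable_of_comm (fun x y => Subtype.ext (by
          rw [Subgroup.coe_mul, Subgroup.coe_mul, Subgroup.mem_bot.mp x.2,
            Subgroup.mem_bot.mp y.2]))
  · rintro ⟨-, K, -, hodd, hK⟩
    have h1 : T₁ ≤ K := by
      rw [← hθa, ← hK a haA ha1]; exact inf_le_left
    have h2 : T₂ ≤ K := by
      rw [← hθb, ← hK b hbA hb1]; exact inf_le_left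
    have hc₁ : c₁ ∈ K := h1 hc₁T
    have hc₂ : c₂ ∈ K := h2 hc₂T
    have hw : c₁ * c₁ * c₂ * c₁ * c₂ ∈ K :=
      K.mul_mem (K.mul_mem (K.mul_mem (K.mul_mem hc₁ hc₁) hc₂) hc₁) hc₂
    have ho : orderOf (c₁ * c₁ * c₂ * c₁ * c₂) = 2 := orderOf_eq_prime hw2 hw1
    exact hodd (ho ▸ Subgroup.orderOf_dvd_natCard K hw)

end Cfsg.Agent.S1286
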