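import Cfsg.Statements.S1288
-- import your own Cfsg.Agent.* helpers here
import Cfsg.Agent.Helper9.Sig3

set_option autoImplicit false
open Cfsg

namespace Cfsg.Agent.S1288

open Cfsg.Agent.Helper9

/-- Let A be a noncyclic elementary abelian p-subgroup of a finite group H normalizing a solvable subgroup K of order prime to p, q a prime dividing |K|, and U ≤ K a subgroup of order prime to q such that ⁅U, C_K(B)⁆ has order prime to q for every subgroup B of index p in A. Then U ≤ O_{q'}(K). -/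
theorem result {H : Type*} [Group H] [Finite H] (p : ℕ) [Fact p.Prime] (A K : Subgroup H) (hA : Cfsg.IsElementaryAbelian p A) (hA2 : p ^ 2 ≤ Nat.card ↥A) (hK : ¬ p ∣ Nat.card ↥K) (hKs : Group.IsSolvable ↥K) (hAK : A ≤ Subgroup.normalizer (K : Set H)) (q : ℕ) [Fact q.Prime] (hqK : q ∣ Nat.card ↥K) (U : Subgroup H) (hU : U ≤ K) (hUq : ¬ q ∣ Nat.card ↥U) (hcomm : ∀ B : Subgroup H, B ≤ A → B.relIndex A = p → ¬ q ∣ Nat.card ↥⁅U, K ⊓ Subgroup.centralizer (B : Set H)⁆) : U ≤ (Cfsg.pPrimeCore q ↥K).map K.subtype := by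
  have hcons : Subgroup.centralizer (Cfsg.pCore q (↥K ⧸ Cfsg.pPrimeCore q ↥K) :
      Set (↥K ⧸ Cfsg.pPrimeCore q ↥K)) ≤ Cfsg.pCore q (↥K ⧸ Cfsg.pPrimeCore q ↥K) :=
    (pConstrained_iff_centralizer_pCore (X := ↥K) q).mp
      ((pConstrained_iff_pLayer_eq_bot q).mpr (pLayer_eq_bot_of_solvable q hKs))
  have hFq : IsPGroup q ↥(Cfsg.pCore q (↥K ⧸ Cfsg.pPrimeCore q ↥K)) := pCore_isPGroup q
  have E1 : ∀ c : ↥K, c ∈ Cfsg.pPrimePCore q ↥K → ¬ q ∣ orderOf (c : H) →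
      c ∈ Cfsg.pPrimeCore q ↥K := by
    intro c hc hord
    have hc' : QuotientGroup.mk' (Cfsg.pPrimeCore q ↥K) c ∈
        Cfsg.pCore q (↥K ⧸ Cfsg.pPrimeCore q ↥K) := hc
    obtain ⟨j, hj⟩ := (IsPGroup.iff_orderOf.mp hFq) ⟨_, hc'⟩
    rw [Subgroup.orderOf_mk] at hj
    have hdvd : orderOf (QuotientGroup.mk' (Cfsg.pPrimeCore q ↥K) c) ∣ orderOf c :=
      orderOf_map_dvd _ c
    rw [hj, ← Subgroup.orderOf_coe] at hdvd
    have hj0 : j = 0 := by
      by_contra hne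
      exact hord ((dvd_pow_self q hne).trans hdvd)
    rw [hj0, pow_zero, orderOf_eq_one_iff] at hj
    exact (QuotientGroup.eq_one_iff c).mp hj
  have hgen : ∀ u ∈ U, ∀ (huK : u ∈ K), ∀ g : ↥K, g ∈ Cfsg.pPrimePCore q ↥K →
      (⟨u, huK⟩ : ↥K) * g * (⟨u, huK⟩ : ↥K)⁻¹ * g⁻¹ ∈ Cfsg.pPrimeCore q ↥K := by
    intro u hu huK
    set S' : Subgroup ↥K := (Subgroup.centralizer
      ({QuotientGroup.mk' (Cfsg.pPrimeCore q ↥K) ⟨u, huK⟩} :
        Set (↥K ⧸ Cfsg.pPrimeCore q ↥K))).comap (QuotientGroup.mk' (Cfsg.pPrimeCore q ↥K))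
      with hS'
    have hF₁ : (Cfsg.pPrimePCore q ↥K).map K.subtype ≤ S'.map K.subtype := by
      have hAF : A ≤ Subgroup.normalizer
          (((Cfsg.pPrimePCore q ↥K).map K.subtype : Subgroup H) : Set H) :=
        hAK.trans (char_map_normalizer K (Cfsg.pPrimePCore q ↥K))
      have hFp : ¬ p ∣ Nat.card ↥((Cfsg.pPrimePCore q ↥K).map K.subtype) := fun h =>
        hK (h.trans (Subgroup.card_dvd_of_le (Subgroup.map_subtype_le _)))
      refine (hyperplane_gen p A _ hA hA2 hFp hAF).trans ?_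
      apply iSup_le
      rintro ⟨B, hBA, hBr⟩
      intro x hx
      obtain ⟨hxF, hxB⟩ := Subgroup.mem_inf.mp hx
      obtain ⟨g, hg, rfl⟩ := Subgroup.mem_map.mp hxF
      refine Subgroup.mem_map.mpr ⟨g, ?_, rfl⟩
      rw [hS', Subgroup.mem_comap, Subgroup.mem_centralizer_iff]
      intro y hy
      rw [Set.mem_singleton_iff.mp hy]
      have hc1 : (⟨u, huK⟩ : ↥K) * g * (⟨u, huK⟩ : ↥K)⁻¹ * g⁻¹ ∈ Cfsg.pPrimeCore q ↥K := by
        apply E1
        · have hn : (Cfsg.pPrimePCore q ↥K).Normal := pPrimePCore_normal' q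
          exact Subgroup.mul_mem _ (hn.conj_mem g hg _) (Subgroup.inv_mem _ hg)
        · intro hdiv
          have hmem : ((⟨u, huK⟩ : ↥K) * g * (⟨u, huK⟩ : ↥K)⁻¹ * g⁻¹ : ↥K).1 ∈
              ⁅U, K ⊓ Subgroup.centralizer (B : Set H)⁆ := by
            have h5 := Subgroup.commutator_mem_commutator hu
              (Subgroup.mem_inf.mpr ⟨g.2, hxB⟩)
            rw [commutatorElement_def] at h5
            exact h5
          exact hcomm B hBA hBr (hdiv.trans (Subgroup.orderOf_dvd_natCard _ hmem))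
      have h2 : QuotientGroup.mk' (Cfsg.pPrimeCore q ↥K)
          (⟨u, huK⟩ * g * (⟨u, huK⟩ : ↥K)⁻¹ * g⁻¹) = 1 :=
        (QuotientGroup.eq_one_iff _).mpr hc1
      rw [map_mul, map_mul, map_mul, map_inv, map_inv] at h2
      exact mul_inv_eq_iff_eq_mul.mp (mul_inv_eq_one.mp h2)
    intro g hg
    have hgS : g ∈ S' := by
      have h1 : (g : H) ∈ S'.map K.subtype := hF₁ (Subgroup.mem_map_of_mem _ hg)
      obtain ⟨g', hg', hgg'⟩ := Subgroup.mem_map.mp h1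
      have h6 : g' = g := Subtype.ext hgg'
      rw [← h6]; exact hg'
    rw [hS', Subgroup.mem_comap, Subgroup.mem_centralizer_iff] at hgS
    have h3 := hgS _ (Set.mem_singleton _)
    apply (QuotientGroup.eq_one_iff _).mp
    show QuotientGroup.mk' (Cfsg.pPrimeCore q ↥K)
      (⟨u, huK⟩ * g * (⟨u, huK⟩ : ↥K)⁻¹ * g⁻¹) = 1
    rw [map_mul, map_mul, map_mul, map_inv, map_inv, h3, mul_inv_cancel_right, mul_inv_cancel]
  intro u hu
  have huK : u ∈ K := hU hu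
  refine Subgroup.mem_map.mpr ⟨⟨u, huK⟩, ?_, rfl⟩
  have hordu : ¬ q ∣ orderOf u := fun h => hUq (h.trans (Subgroup.orderOf_dvd_natCard U hu))
  apply E1 ⟨u, huK⟩ _ hordu
  show QuotientGroup.mk' (Cfsg.pPrimeCore q ↥K) ⟨u, huK⟩ ∈
    Cfsg.pCore q (↥K ⧸ Cfsg.pPrimeCore q ↥K)
  apply hcons
  rw [Subgroup.mem_centralizer_iff]
  intro f hf
  obtain ⟨g, rfl⟩ := QuotientGroup.mk'_surjective (Cfsg.pPrimeCore q ↥K) f
  have hg : g ∈ Cfsg.pPrimePCore q ↥K := hf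
  have h2 : QuotientGroup.mk' (Cfsg.pPrimeCore q ↥K)
      (⟨u, huK⟩ * g * (⟨u, huK⟩ : ↥K)⁻¹ * g⁻¹) = 1 :=
    (QuotientGroup.eq_one_iff _).mpr (hgen u hu huK g hg)
  rw [map_mul, map_mul, map_mul, map_inv, map_inv] at h2
  exact (mul_inv_eq_iff_eq_mul.mp (mul_inv_eq_one.mp h2)).symm

end Cfsg.Agent.S1288
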