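import Cfsg.Statements.S1297
-- import your own Cfsg.Agent.* helpers here
import Cfsg.Agent.Helper9.LocalBal

set_option autoImplicit false
open Cfsg

namespace Cfsg.Agent.S1297

open Cfsg.Agent.Helper9

/-- Let G be finite. Suppose that for every involution x, writing C = C_G(x), every component K of C / O(C) has K / Z(K) locally balanced. Then G is balanced. -/
theorem result {G : Type*} [Group G] [Finite G] (h : ∀ x : G, orderOf x = 2 → ∀ K : Subgroup (↥(Subgroup.centralizer ({x} : Set G)) ⧸ Cfsg.oddCore ↥(Subgroup.centralizer ({x} : Set G))), Cfsg.IsComponent K → Cfsg.IsLocallyBalanced (↥K ⧸ Subgroup.center ↥K)) : Cfsg.IsBalanced G := by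
  intro x y hx hy hxy
  have key : ∀ x y : G, orderOf x = 2 → orderOf y = 2 → x * y = y * x →
      Cfsg.centralizerPPrimeCore 2 x ⊓ Subgroup.centralizer {y} ≤
        Cfsg.centralizerPPrimeCore 2 y := by
    intro x y hx hy hxy
    have hxC : x ∈ Subgroup.centralizer ({y} : Set G) := by
      rw [Subgroup.mem_centralizer_iff]
      intro z hz
      rw [Set.mem_singleton_iff] at hz
      rw [hz]; exact hxy.symm
    exact core_inf_le_core 2 x hx _ hxC (fun xb hxb =>
      core_eq_bot_of_locallyBalanced (pPrimeCore_quotient_eq_bot 2) (h y hy) xb hxb)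
  have hWx : Cfsg.centralizerPPrimeCore 2 x ≤ Subgroup.centralizer ({x} : Set G) :=
    Subgroup.map_subtype_le _
  have hWy : Cfsg.centralizerPPrimeCore 2 y ≤ Subgroup.centralizer ({y} : Set G) :=
    Subgroup.map_subtype_le _
  exact le_antisymm (le_inf (key x y hx hy hxy) (inf_le_left.trans hWx))
    (le_inf (key y x hy hx hxy.symm) (inf_le_left.trans hWy))

end Cfsg.Agent.S1297
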