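import Cfsg.Statements.S1300
-- import your own Cfsg.Agent.* helpers here

set_option autoImplicit false
open Cfsg

namespace Cfsg.Agent.S1300

/-- For a finite group G, balance in the sense of commuting involutions is the same as 1-balance for the prime 2. -/
theorem result {G : Type*} [Group G] [Finite G] : Cfsg.IsBalanced G ↔ Cfsg.IsKBalanced 2 1 G := by
  constructor
  · intro hbal A hA hcard b hb hAb
    have hAnt : Nontrivial ↥A := by
      rw [← Finite.one_lt_card_iff_nontrivial, hcard]; norm_num
    obtain ⟨⟨x, hxA⟩, hx1⟩ := exists_ne (1 : ↥A)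
    have hx1' : x ≠ 1 := fun h => hx1 (Subtype.ext h)
    have hxo : orderOf x = 2 := orderOf_eq_prime (hA.2 x hxA) hx1'
    have h1 : Cfsg.signalizerDelta 2 A ≤ Cfsg.centralizerPPrimeCore 2 x := by
      unfold Cfsg.signalizerDelta
      exact iInf_le (fun a : {a : G // a ∈ A ∧ a ≠ 1} => Cfsg.centralizerPPrimeCore 2 (a : G))
        ⟨x, hxA, hx1'⟩
    have h2 := hbal x b hxo hb (hAb x hxA)
    calc Cfsg.signalizerDelta 2 A ⊓ Subgroup.centralizer {b}
        ≤ Cfsg.centralizerPPrimeCore 2 x ⊓ Subgroup.centralizer {b} := inf_le_inf_right _ h1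
      _ = Cfsg.centralizerPPrimeCore 2 b ⊓ Subgroup.centralizer {x} := h2
      _ ≤ Cfsg.centralizerPPrimeCore 2 b := inf_le_left
  · intro hk x y hx hy hxy
    have key : ∀ u v : G, orderOf u = 2 → orderOf v = 2 → u * v = v * u →
        Cfsg.centralizerPPrimeCore 2 u ⊓ Subgroup.centralizer {v} ≤
          Cfsg.centralizerPPrimeCore 2 v ⊓ Subgroup.centralizer {u} := by
      intro u v hu hv huv
      have hzp : ∀ a ∈ Subgroup.zpowers u, a = 1 ∨ a = u := by
        intro a ha
        obtain ⟨k, rfl⟩ := Subgroup.mem_zpowers_iff.mp ha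
        have hk2 : u ^ k = u ^ (k % 2) := by
          have h0 := zpow_mod_orderOf u k
          rw [hu] at h0
          exact_mod_cast h0.symm
        rcases Int.emod_two_eq_zero_or_one k with h | h
        · left; rw [hk2, h, zpow_zero]
        · right; rw [hk2, h, zpow_one]
      have hEA : Cfsg.IsElementaryAbelian 2 (Subgroup.zpowers u) := by
        refine ⟨inferInstance, ?_⟩
        intro a ha
        rcases hzp a ha with h | h
        · rw [h, one_pow]
        · rw [h, ← hu, pow_orderOf_eq_one]
      have hcard : Nat.card ↥(Subgroup.zpowers u) = 2 ^ 1 := by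
        rw [Nat.card_zpowers, hu, pow_one]
      have hcomm : ∀ a ∈ Subgroup.zpowers u, a * v = v * a := by
        intro a ha
        rcases hzp a ha with h | h
        · rw [h, one_mul, mul_one]
        · rw [h]; exact huv
      have h1 := hk (Subgroup.zpowers u) hEA hcard v hv hcomm
      have h2 : Cfsg.centralizerPPrimeCore 2 u ≤
          Cfsg.signalizerDelta 2 (Subgroup.zpowers u) := by
        unfold Cfsg.signalizerDelta
        apply le_iInf
        rintro ⟨a, ha, ha1⟩
        rcases hzp a ha with h | h
        · exact absurd h ha1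
        · show Cfsg.centralizerPPrimeCore 2 u ≤ Cfsg.centralizerPPrimeCore 2 a
          rw [h]
      have h3 : Cfsg.centralizerPPrimeCore 2 u ≤ Subgroup.centralizer {u} := by
        unfold Cfsg.centralizerPPrimeCore
        exact Subgroup.map_subtype_le _
      exact le_inf ((inf_le_inf_right _ h2).trans h1) (inf_le_left.trans h3)
    exact le_antisymm (key x y hx hy hxy) (key y x hy hx hxy.symm)

end Cfsg.Agent.S1300
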