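-- Statement S1303; see Cfsg/Templates/S1303.lean.txt.
import Cfsg.Statements.S1303
import Cfsg.Agent.Helper9.PLocal

set_option autoImplicit false
open Cfsg

namespace Cfsg.Agent.S1303

open Cfsg.Agent.Helper9

theorem aux {G : Type*} [Group G] [Finite G]
    (d1 : ∀ g h : G, g ^ 4 = 1 → h ^ 4 = 1 → (g * h) ^ 4 = 1)
    (d1' : ∀ g h : G, (g * h * g⁻¹ * h⁻¹) ^ 4 = 1)
    (d2 : ∀ g : G, g ^ 3 = 1 → g ≠ 1 → ∃ k : G, (g * (k * g * k⁻¹)) ^ 3 ≠ 1)
    (d3 : ∀ x : G, x ^ 12 = 1)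
    (d4 : ∀ t : G, t ^ 2 = 1 → t ≠ 1 → ∀ g : G, g * t = t * g)
    (d5 : ∃ g : G, g ^ 3 = 1 ∧ g ≠ 1) :
    Cfsg.IsPConstrained 2 G ∧ Cfsg.pPrimeCore 2 G = ⊥ ∧
      (∀ t : G, orderOf t = 2 → t ∈ Subgroup.center G) ∧
      ∃ Q : Subgroup G, Nat.card ↥Q = 3 ∧ ¬ (Q ≤ Cfsg.pPrimeCore 2 G) := by
  let Q₀ : Subgroup G :=
    { carrier := {g | g ^ 4 = 1}
      one_mem' := one_pow 4
      mul_mem' := fun {a b} ha hb => d1 a b ha hb
      inv_mem' := fun {a} ha => by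
        show a⁻¹ ^ 4 = 1
        have ha' : a ^ 4 = 1 := ha
        rw [inv_pow, ha', inv_one] }
  have hQmem : ∀ g : G, g ∈ Q₀ ↔ g ^ 4 = 1 := fun g => Iff.rfl
  have hQn : Q₀.Normal := ⟨fun n hn g => by
    rw [hQmem] at hn ⊢
    rw [conj_pow, hn, mul_one, mul_inv_cancel]⟩
  have hQp : IsPGroup 2 ↥Q₀ := by
    intro g
    refine ⟨2, Subtype.ext ?_⟩
    have h := (hQmem g.1).mp g.2
    show (g : G) ^ 2 ^ 2 = 1
    exact h
  have hQnil : Group.IsNilpotent ↥Q₀ := hQp.isNilpotent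
  have hQsolv : Group.IsSolvable ↥Q₀ := inferInstance
  have hquot : ∀ a b : G ⧸ Q₀, a * b = b * a := by
    intro a b
    obtain ⟨a, rfl⟩ := QuotientGroup.mk_surjective a
    obtain ⟨b, rfl⟩ := QuotientGroup.mk_surjective b
    rw [← QuotientGroup.mk_mul, ← QuotientGroup.mk_mul, QuotientGroup.eq, hQmem]
    have h := d1' b⁻¹ a⁻¹
    rw [inv_inv, inv_inv] at h
    have e : (a * b)⁻¹ * (b * a) = b⁻¹ * a⁻¹ * b * a := by group
    rw [e]; exact h
  have hqs : Group.IsSolvable (G ⧸ Q₀) := Group.isSolvable_of_comm hquot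
  have hsolv : Group.IsSolvable G :=
    Group.isSolvable_of_ker_le_range Q₀.subtype (QuotientGroup.mk' Q₀)
      (by rw [QuotientGroup.ker_mk', Subgroup.range_subtype])
  have hO : Cfsg.pPrimeCore 2 G = ⊥ := by
    rw [eq_bot_iff]
    have key : ∀ N : Subgroup G, (N.Normal ∧ (Nat.card ↥N).Coprime 2) → N ≤ ⊥ := by
      rintro N ⟨hN, hcop⟩ g hg
      rw [Subgroup.mem_bot]
      have h3 : ∀ y ∈ N, y ^ 3 = 1 := by
        intro y hy
        have hd1 : orderOf y ∣ Nat.card ↥N := Subgroup.orderOf_dvd_natCard N hy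
        have hd2 : orderOf y ∣ 4 * 3 := orderOf_dvd_of_pow_eq_one (d3 y)
        have hc2 : (orderOf y).Coprime 2 := Nat.Coprime.coprime_dvd_left hd1 hcop
        have hc4 : (orderOf y).Coprime 4 := Nat.Coprime.pow_right 2 hc2
        have hd3 : orderOf y ∣ 3 := (Nat.Coprime.dvd_mul_left hc4).mp hd2
        exact orderOf_dvd_iff_pow_eq_one.mp hd3
      by_contra hne
      obtain ⟨k, hk⟩ := d2 g (h3 g hg) hne
      exact hk (h3 _ (N.mul_mem hg (hN.conj_mem g hg k)))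
    exact sSup_le key
  refine ⟨(pConstrained_iff_pLayer_eq_bot 2).mpr (pLayer_eq_bot_of_solvable 2 hsolv), hO, ?_, ?_⟩
  · intro t ht
    have h2 : t ^ 2 = 1 := by
      have h := pow_orderOf_eq_one t
      rwa [ht] at h
    have h1 : t ≠ 1 := by
      rintro rfl
      rw [orderOf_one] at ht
      omega
    exact Subgroup.mem_center_iff.mpr (fun g => d4 t h2 h1 g)
  · obtain ⟨g, hg3, hg1⟩ := d5
    refine ⟨Subgroup.zpowers g, ?_, ?_⟩
    · rw [Nat.card_zpowers]; exact orderOf_eq_prime hg3 hg1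
    · rw [hO]
      intro h
      exact hg1 (Subgroup.mem_bot.mp (h (Subgroup.mem_zpowers g)))

set_option maxRecDepth 100000 in
theorem d1 : ∀ g h : Matrix.SpecialLinearGroup (Fin 2) (ZMod 3),
    g ^ 4 = 1 → h ^ 4 = 1 → (g * h) ^ 4 = 1 := by decide +kernel

set_option maxRecDepth 100000 in
theorem d1' : ∀ g h : Matrix.SpecialLinearGroup (Fin 2) (ZMod 3),
    (g * h * g⁻¹ * h⁻¹) ^ 4 = 1 := by decide +kernel

set_option maxRecDepth 100000 in
theorem d2 : ∀ g : Matrix.SpecialLinearGroup (Fin 2) (ZMod 3), g ^ 3 = 1 → g ≠ 1 →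
    ∃ k : Matrix.SpecialLinearGroup (Fin 2) (ZMod 3), (g * (k * g * k⁻¹)) ^ 3 ≠ 1 := by
  decide +kernel

set_option maxRecDepth 100000 in
theorem d3 : ∀ x : Matrix.SpecialLinearGroup (Fin 2) (ZMod 3), x ^ 12 = 1 := by decide +kernel

set_option maxRecDepth 100000 in
theorem d4 : ∀ t : Matrix.SpecialLinearGroup (Fin 2) (ZMod 3), t ^ 2 = 1 → t ≠ 1 →
    ∀ g : Matrix.SpecialLinearGroup (Fin 2) (ZMod 3), g * t = t * g := by decide +kernel

set_option maxRecDepth 100000 in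
theorem d5 : ∃ g : Matrix.SpecialLinearGroup (Fin 2) (ZMod 3), g ^ 3 = 1 ∧ g ≠ 1 := by
  decide +kernel

/-- The group X = SL(2, 3): it is 2-constrained, O_{2'}(X) = 1, its centre A = Z(X) contains every involution of X = C_X(A), and X has a subgroup of order 3 (normalized by A) not contained in O_{2'}(X). -/
theorem result : Cfsg.IsPConstrained 2 (Matrix.SpecialLinearGroup (Fin 2) (ZMod 3)) ∧ Cfsg.pPrimeCore 2 (Matrix.SpecialLinearGroup (Fin 2) (ZMod 3)) = ⊥ ∧ (∀ t : Matrix.SpecialLinearGroup (Fin 2) (ZMod 3), orderOf t = 2 → t ∈ Subgroup.center (Matrix.SpecialLinearGroup (Fin 2) (ZMod 3))) ∧ ∃ Q : Subgroup (Matrix.SpecialLinearGroup (Fin 2) (ZMod 3)), Nat.card ↥Q = 3 ∧ ¬ (Q ≤ Cfsg.pPrimeCore 2 (Matrix.SpecialLinearGroup (Fin 2) (ZMod 3))) := by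
  exact aux d1 d1' d2 d3 d4 d5

end Cfsg.Agent.S1303
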