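import Cfsg.Statements.S1304
-- import your own Cfsg.Agent.* helpers here
import Mathlib

set_option autoImplicit false
open Cfsg

namespace Cfsg.Agent.S1304

open scoped commutatorElement in
theorem aux_comm {X : Type*} [Group X] (α : X ≃* X) (h : ∀ x : X, α x * x⁻¹ ∈ Subgroup.center X)
    (a b : X) : α ⁅a, b⁆ = ⁅a, b⁆ := by
  have ha := h a
  have hb := h b
  rw [Subgroup.mem_center_iff] at ha hb
  have ea : α a = (α a * a⁻¹) * a := by group
  have eb : α b = (α b * b⁻¹) * b := by group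
  generalize α a * a⁻¹ = za at ha ea
  generalize α b * b⁻¹ = zb at hb eb
  rw [commutatorElement_def, map_mul, map_mul, map_mul, map_inv, map_inv, ea, eb]
  have k1 : ∀ g, za⁻¹ * g = g * za⁻¹ := fun g => by
    have := ha g; rw [eq_comm, ← mul_inv_eq_iff_eq_mul, mul_assoc, eq_comm, ← inv_mul_eq_iff_eq_mul] at this; exact this
  have k2 : ∀ g, zb⁻¹ * g = g * zb⁻¹ := fun g => by
    have := hb g; rw [eq_comm, ← mul_inv_eq_iff_eq_mul, mul_assoc, eq_comm, ← inv_mul_eq_iff_eq_mul] at this; exact this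
  calc za * a * (zb * b) * (za * a)⁻¹ * (zb * b)⁻¹
      = za * (a * zb) * b * a⁻¹ * za⁻¹ * b⁻¹ * zb⁻¹ := by group
    _ = za * (zb * a) * b * a⁻¹ * za⁻¹ * b⁻¹ * zb⁻¹ := by rw [hb a]
    _ = za * zb * (a * b * a⁻¹) * (za⁻¹ * b⁻¹) * zb⁻¹ := by group
    _ = za * zb * (a * b * a⁻¹) * (b⁻¹ * za⁻¹) * zb⁻¹ := by rw [k1]
    _ = za * (zb * (a * b * a⁻¹ * b⁻¹ * za⁻¹)) * zb⁻¹ := by group
    _ = za * ((a * b * a⁻¹ * b⁻¹ * za⁻¹) * zb) * zb⁻¹ := by rw [hb]
    _ = za * (a * b * a⁻¹ * b⁻¹) * za⁻¹ := by group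
    _ = (a * b * a⁻¹ * b⁻¹) * za * za⁻¹ := by rw [ha]
    _ = a * b * a⁻¹ * b⁻¹ := by group

/-- Let X be a perfect group and α an automorphism of X with α(x) x⁻¹ central for every x. Then α is the identity. -/
theorem result {X : Type*} [Group X] (hperf : commutator X = ⊤) (α : X ≃* X) (h : ∀ x : X, α x * x⁻¹ ∈ Subgroup.center X) : ∀ x : X, α x = x := by
  have hle : commutator X ≤ MonoidHom.eqLocus α.toMonoidHom (MonoidHom.id X) := by
    rw [commutator_def, Subgroup.commutator_le]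
    intro a _ b _
    exact aux_comm α h a b
  intro x
  have hx : x ∈ commutator X := by rw [hperf]; trivial
  exact hle hx

end Cfsg.Agent.S1304
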