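import Cfsg.Statements.S1306
-- import your own Cfsg.Agent.* helpers here
import Cfsg.Agent.Helper9.Standard

set_option autoImplicit false
open Cfsg

namespace Cfsg.Agent.S1306

open Cfsg.Agent.Helper9

/-- Let G be finite, x an involution and L ≤ C_G(x) a component of C_G(x). Suppose L is a component of C_G(y) for every involution y ∈ C_G(L), and ⁅L, g L g⁻¹⁆ ≠ 1 whenever g L g⁻¹ ≠ L. Then L is a standard subgroup of G. -/
theorem result {G : Type*} [Group G] [Finite G] (x : G) (hx : orderOf x = 2) (L : Subgroup G) (hLx : L ≤ Subgroup.centralizer ({x} : Set G)) (hL : Cfsg.IsComponent (L.subgroupOf (Subgroup.centralizer ({x} : Set G)))) (hne : ∀ y : G, orderOf y = 2 → y ∈ Subgroup.centralizer (L : Set G) → L ≤ Subgroup.centralizer ({y} : Set G) ∧ Cfsg.IsComponent (L.subgroupOf (Subgroup.centralizer ({y} : Set G)))) (hnc : ∀ g : G, L.map (MulAut.conj g).toMonoidHom ≠ L → ⁅L, L.map (MulAut.conj g).toMonoidHom⁆ ≠ ⊥) : Cfsg.IsStandardSubgroup L := by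
  classical
  have hxK : x ∈ Subgroup.centralizer (L : Set G) := by
    rw [Subgroup.mem_centralizer_iff]
    intro l hl
    exact (Subgroup.mem_centralizer_iff.mp (hLx hl) x rfl).symm
  have key : ∀ g k y : G, y = g * k * g⁻¹ → orderOf k = 2 → k ∈ Subgroup.centralizer (L : Set G) →
      L ≤ Subgroup.centralizer ({y} : Set G) →
      Cfsg.IsComponent (L.subgroupOf (Subgroup.centralizer ({y} : Set G))) →
      L.map (MulAut.conj g).toMonoidHom = L := by
    intro g k y hy hk2 hkL hLy hLc
    subst hy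
    by_contra hne'
    have h1 := hne k hk2 hkL
    have h2 := component_subgroupOf_conj g k L h1.2
    have h3 : L.map (MulAut.conj g).toMonoidHom ≤ Subgroup.centralizer ({g * k * g⁻¹} : Set G) := by
      rintro _ ⟨l, hl, rfl⟩
      have hlk : k * l = l * k := Subgroup.mem_centralizer_iff.mp (h1.1 hl) k rfl
      rw [Subgroup.mem_centralizer_iff]
      intro h hh
      rw [Set.mem_singleton_iff] at hh
      subst hh
      show g * k * g⁻¹ * (g * l * g⁻¹) = g * l * g⁻¹ * (g * k * g⁻¹)
      have e1 : g * k * g⁻¹ * (g * l * g⁻¹) = g * (k * l) * g⁻¹ := by group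
      rw [e1, hlk]; group
    have h4 := comm_of_components_subgroupOf _ _ _ hLy h3 hLc h2 (Ne.symm hne')
    exact hnc g hne' h4
  have norm_of : ∀ g : G, L.map (MulAut.conj g).toMonoidHom = L →
      g ∈ Subgroup.normalizer (L : Set G) := by
    intro g hg
    refine mem_normalizer_of_conj_mem L g ?_ ?_
    · intro l hl
      rw [← hg]
      exact ⟨l, hl, rfl⟩
    · intro l hl
      rw [← hg] at hl
      obtain ⟨l', hl', rfl⟩ := hl
      have e1 : g⁻¹ * ((MulAut.conj g).toMonoidHom l') * g = l' := by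
        show g⁻¹ * (g * l' * g⁻¹) * g = l'
        group
      rw [e1]; exact hl'
  have normC_of : ∀ g : G, g ∈ Subgroup.normalizer (L : Set G) →
      g ∈ Subgroup.normalizer ((Subgroup.centralizer (L : Set G) : Subgroup G) : Set G) := by
    intro g hg
    have hg1 : ∀ l ∈ L, g * l * g⁻¹ ∈ L := fun l hl => (Subgroup.mem_normalizer_iff.mp hg l).mp hl
    have hg2 : ∀ l ∈ L, g⁻¹ * l * g ∈ L := by
      intro l hl
      apply (Subgroup.mem_normalizer_iff.mp hg (g⁻¹ * l * g)).mpr
      have e1 : g * (g⁻¹ * l * g) * g⁻¹ = l := by group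
      rw [e1]; exact hl
    refine mem_normalizer_of_conj_mem _ g ?_ ?_
    · intro n hn
      rw [Subgroup.mem_centralizer_iff] at hn ⊢
      intro l hl
      have h1 := hn _ (hg2 l hl)
      have e1 : l * (g * n * g⁻¹) = g * (g⁻¹ * l * g * n) * g⁻¹ := by group
      rw [e1, h1]; group
    · intro n hn
      rw [Subgroup.mem_centralizer_iff] at hn ⊢
      intro l hl
      have h1 := hn _ (hg1 l hl)
      have e1 : l * (g⁻¹ * n * g) = g⁻¹ * (g * l * g⁻¹ * n) * g := by group
      rw [e1, h1]; group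
  unfold Cfsg.IsStandardSubgroup
  refine ⟨?_, ?_, hnc, ?_⟩
  · exact quasi_of_mulEquiv (Subgroup.subgroupOfEquivOfLe hLx) hL.2
  · unfold Cfsg.IsTightlyEmbedded
    refine ⟨?_, ?_⟩
    · rw [even_iff_two_dvd, ← hx]
      exact Subgroup.orderOf_dvd_natCard _ hxK
    · intro g hg
      by_contra hodd
      rw [Nat.not_odd_iff_even, even_iff_two_dvd] at hodd
      haveI : Fact (Nat.Prime 2) := ⟨Nat.prime_two⟩
      obtain ⟨y', hy'⟩ := exists_prime_orderOf_dvd_card' (G := ↥(Subgroup.centralizer (L : Set G) ⊓ (Subgroup.centralizer (L : Set G)).map (MulAut.conj g).toMonoidHom)) 2 hodd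
      have hy2 : orderOf (y' : G) = 2 := by rw [Subgroup.orderOf_coe]; exact hy'
      have hyK : (y' : G) ∈ Subgroup.centralizer (L : Set G) := (Subgroup.mem_inf.mp y'.2).1
      obtain ⟨k, hk, hky⟩ := (Subgroup.mem_inf.mp y'.2).2
      have hky' : (y' : G) = g * k * g⁻¹ := hky.symm
      have hk2 : orderOf k = 2 := by
        rw [← hy2, hky']
        exact ((MulAut.conj g).orderOf_eq k).symm
      have h1 := hne _ hy2 hyK
      have h2 := key g k _ hky' hk2 hk h1.1 h1.2
      exact hg (normC_of g (norm_of g h2))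
  · apply le_antisymm
    · intro g hg; exact normC_of g hg
    · intro g hg
      have hk : g⁻¹ * x * g ∈ Subgroup.centralizer (L : Set G) := by
        apply (Subgroup.mem_normalizer_iff.mp hg (g⁻¹ * x * g)).mpr
        have e1 : g * (g⁻¹ * x * g) * g⁻¹ = x := by group
        rw [e1]; exact hxK
      have hk2 : orderOf (g⁻¹ * x * g) = 2 := by
        rw [← hx]
        have := (MulAut.conj g⁻¹).orderOf_eq x
        simpa using this
      have e1 : x = g * (g⁻¹ * x * g) * g⁻¹ := by group
      exact norm_of g (key g _ x e1 hk2 hk hLx hL)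

end Cfsg.Agent.S1306
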