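import Cfsg.Statements.S1314
-- import your own Cfsg.Agent.* helpers here
import Cfsg.Agent.Helper9.Layer3

set_option autoImplicit false
open Cfsg

namespace Cfsg.Agent.S1314

open Cfsg.Agent.Helper9

/-- Let x be an involution of a group G and L a perfect subgroup with ⁅L, x L x⁻¹⁆ = 1. Then l ↦ l (x l x⁻¹) is a group homomorphism π from L to G whose kernel is central in L and whose image lies in C_G(x); and the commutator subgroup of C_{L ⊔ xLx⁻¹}(x) equals the image of π. -/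
theorem result {G : Type*} [Group G] [Finite G] (x : G) (hx : orderOf x = 2) (L : Subgroup G) (hperf : ⁅L, L⁆ = L) (hcomm : ⁅L, L.map (MulAut.conj x).toMonoidHom⁆ = ⊥) : ∃ π : ↥L →* G, (∀ l : ↥L, π l = (l : G) * (x * (l : G) * x⁻¹)) ∧ π.ker ≤ Subgroup.center ↥L ∧ π.range ≤ Subgroup.centralizer ({x} : Set G) ∧ ⁅(L ⊔ L.map (MulAut.conj x).toMonoidHom) ⊓ Subgroup.centralizer ({x} : Set G), (L ⊔ L.map (MulAut.conj x).toMonoidHom) ⊓ Subgroup.centralizer ({x} : Set G)⁆ = π.range := by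
  have xx : x * x = 1 := by
    have h := pow_orderOf_eq_one x
    rw [hx, pow_two] at h
    exact h
  have xi : x⁻¹ = x := inv_eq_of_mul_eq_one_right xx
  have hc : ∀ a ∈ L, ∀ b ∈ L.map (MulAut.conj x).toMonoidHom, a * b = b * a :=
    (comm_eq_bot_iff _ _).mp hcomm
  have hconj : ∀ l ∈ L, x * l * x⁻¹ ∈ L.map (MulAut.conj x).toMonoidHom :=
    fun l hl => Subgroup.mem_map.mpr ⟨l, hl, rfl⟩
  have hmul : ∀ l₁ l₂ : ↥L, ((l₁ * l₂ : ↥L) : G) * (x * ((l₁ * l₂ : ↥L) : G) * x⁻¹) =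
      ((l₁ : G) * (x * (l₁ : G) * x⁻¹)) * ((l₂ : G) * (x * (l₂ : G) * x⁻¹)) := by
    intro l₁ l₂
    have h1 := hc (l₂ : G) l₂.2 (x * (l₁ : G) * x⁻¹) (hconj _ l₁.2)
    rw [Subgroup.coe_mul]
    calc (l₁ : G) * (l₂ : G) * (x * ((l₁ : G) * (l₂ : G)) * x⁻¹)
        = (l₁ : G) * ((l₂ : G) * (x * (l₁ : G) * x⁻¹)) * (x * (l₂ : G) * x⁻¹) := by group
      _ = (l₁ : G) * ((x * (l₁ : G) * x⁻¹) * (l₂ : G)) * (x * (l₂ : G) * x⁻¹) := by rw [h1]
      _ = ((l₁ : G) * (x * (l₁ : G) * x⁻¹)) * ((l₂ : G) * (x * (l₂ : G) * x⁻¹)) := by group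
  obtain ⟨π, hπ⟩ : ∃ π : ↥L →* G, ∀ l : ↥L, π l = (l : G) * (x * (l : G) * x⁻¹) :=
    ⟨MonoidHom.mk' (fun l : ↥L => (l : G) * (x * (l : G) * x⁻¹)) hmul, fun l => rfl⟩
  have hπT : ∀ l : ↥L, π l ∈ L ⊔ L.map (MulAut.conj x).toMonoidHom := by
    intro l
    rw [hπ]
    exact Subgroup.mul_mem_sup l.2 (hconj _ l.2)
  have hker : π.ker ≤ Subgroup.center ↥L := by
    intro l hl
    rw [MonoidHom.mem_ker, hπ] at hl
    have h1 : (l : G) = (x * (l : G) * x⁻¹)⁻¹ := eq_inv_of_mul_eq_one_left hl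
    have h2 : (l : G) ∈ L.map (MulAut.conj x).toMonoidHom := by
      rw [h1]; exact Subgroup.inv_mem _ (hconj _ l.2)
    rw [Subgroup.mem_center_iff]
    intro g
    exact Subtype.ext (hc g g.2 l h2)
  have hrange : π.range ≤ Subgroup.centralizer ({x} : Set G) := by
    rintro _ ⟨l, rfl⟩
    rw [Subgroup.mem_centralizer_iff]
    intro h hh
    rw [Set.mem_singleton_iff.mp hh, hπ]
    have h1 := hc (l : G) l.2 (x * (l : G) * x⁻¹) (hconj _ l.2)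
    calc x * ((l : G) * (x * (l : G) * x⁻¹)) = x * (l : G) * x⁻¹ * (l : G) * x := by
          rw [xi]; group
      _ = (l : G) * (x * (l : G) * x⁻¹) * x := by rw [h1]
  have hdecomp : ∀ c ∈ (L ⊔ L.map (MulAut.conj x).toMonoidHom) ⊓
      Subgroup.centralizer ({x} : Set G),
      ∃ l : ↥L, ∃ z : G, z ∈ L ⊔ L.map (MulAut.conj x).toMonoidHom ∧
        (∀ g ∈ L ⊔ L.map (MulAut.conj x).toMonoidHom, z * g = g * z) ∧ c = π l * z := by
    intro c hcC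
    obtain ⟨hcT, hcx⟩ := Subgroup.mem_inf.mp hcC
    obtain ⟨a, ha, b, hb, rfl⟩ := mem_sup_of_commute hc hcT
    obtain ⟨l₂, hl₂, hbe⟩ := Subgroup.mem_map.mp hb
    have hb2 : b = x * l₂ * x⁻¹ := hbe.symm
    subst hb2
    have hcx' : x * (a * (x * l₂ * x⁻¹)) = a * (x * l₂ * x⁻¹) * x :=
      Subgroup.mem_centralizer_iff.mp hcx x (Set.mem_singleton x)
    have e1 : x * a * x⁻¹ * l₂ = a * (x * l₂ * x⁻¹) := by
      have h0 : x * (a * (x * l₂ * x⁻¹)) * x⁻¹ = a * (x * l₂ * x⁻¹) := by rw [hcx']; group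
      rw [← h0, xi]
      calc x * a * x * l₂ = x * a * x * l₂ * (x * x) := by rw [xx, mul_one]
        _ = x * (a * (x * l₂ * x)) * x := by group
    have hau : a * (x * a * x⁻¹)⁻¹ = (x * a * x⁻¹)⁻¹ * a :=
      hc a ha _ (Subgroup.inv_mem _ (hconj a ha))
    have e2 : (x * a * x⁻¹)⁻¹ * (x * l₂ * x⁻¹) = a⁻¹ * l₂ := by
      calc (x * a * x⁻¹)⁻¹ * (x * l₂ * x⁻¹)
          = a⁻¹ * (a * (x * a * x⁻¹)⁻¹) * (x * l₂ * x⁻¹) := by group
        _ = a⁻¹ * ((x * a * x⁻¹)⁻¹ * a) * (x * l₂ * x⁻¹) := by rw [hau]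
        _ = a⁻¹ * ((x * a * x⁻¹)⁻¹ * (a * (x * l₂ * x⁻¹))) := by group
        _ = a⁻¹ * ((x * a * x⁻¹)⁻¹ * (x * a * x⁻¹ * l₂)) := by rw [e1]
        _ = a⁻¹ * l₂ := by group
    have hzLx : (x * a * x⁻¹)⁻¹ * (x * l₂ * x⁻¹) ∈ L.map (MulAut.conj x).toMonoidHom :=
      Subgroup.mul_mem _ (Subgroup.inv_mem _ (hconj a ha)) (hconj l₂ hl₂)
    have hzL : (x * a * x⁻¹)⁻¹ * (x * l₂ * x⁻¹) ∈ L := by
      rw [e2]; exact L.mul_mem (L.inv_mem ha) hl₂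
    refine ⟨⟨a, ha⟩, (x * a * x⁻¹)⁻¹ * (x * l₂ * x⁻¹), Subgroup.mem_sup_left hzL, ?_, ?_⟩
    · have hle : L ⊔ L.map (MulAut.conj x).toMonoidHom ≤
          Subgroup.centralizer ({(x * a * x⁻¹)⁻¹ * (x * l₂ * x⁻¹)} : Set G) := by
        refine sup_le ?_ ?_
        · intro g hg
          rw [Subgroup.mem_centralizer_iff]
          intro h hh
          rw [Set.mem_singleton_iff.mp hh]
          exact (hc g hg _ hzLx).symm
        · intro g hg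
          rw [Subgroup.mem_centralizer_iff]
          intro h hh
          rw [Set.mem_singleton_iff.mp hh]
          exact hc _ hzL g hg
      intro g hg
      exact Subgroup.mem_centralizer_iff.mp (hle hg) _ (Set.mem_singleton _)
    · rw [hπ]
      show a * (x * l₂ * x⁻¹) = a * (x * a * x⁻¹) * ((x * a * x⁻¹)⁻¹ * (x * l₂ * x⁻¹))
      group
  have key : ∀ a b z : G, z * a = a * z → z * b = b * z →
      a * (b * z) * a⁻¹ * (b * z)⁻¹ = a * b * a⁻¹ * b⁻¹ := by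
    intro a b z ha hb
    have h1 : z * a⁻¹ = a⁻¹ * z := ((show Commute z a from ha).inv_right).eq
    calc a * (b * z) * a⁻¹ * (b * z)⁻¹ = a * b * (z * a⁻¹) * z⁻¹ * b⁻¹ := by group
      _ = a * b * (a⁻¹ * z) * z⁻¹ * b⁻¹ := by rw [h1]
      _ = a * b * a⁻¹ * b⁻¹ := by group
  have key2 : ∀ a b z : G, z * b = b * z →
      (a * z) * b * (a * z)⁻¹ * b⁻¹ = a * b * a⁻¹ * b⁻¹ := by
    intro a b z hb
    calc (a * z) * b * (a * z)⁻¹ * b⁻¹ = a * (z * b) * z⁻¹ * a⁻¹ * b⁻¹ := by group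
      _ = a * (b * z) * z⁻¹ * a⁻¹ * b⁻¹ := by rw [hb]
      _ = a * b * a⁻¹ * b⁻¹ := by group
  refine ⟨π, hπ, hker, hrange, le_antisymm ?_ ?_⟩
  · rw [Subgroup.commutator_le]
    intro c₁ hc₁ c₂ hc₂
    obtain ⟨l₁, z₁, hz₁T, hz₁c, rfl⟩ := hdecomp c₁ hc₁
    obtain ⟨l₂, z₂, hz₂T, hz₂c, rfl⟩ := hdecomp c₂ hc₂
    rw [commutatorElement_def, key (π l₁ * z₁) (π l₂) z₂
      (hz₂c _ (Subgroup.mul_mem _ (hπT l₁) hz₁T)) (hz₂c _ (hπT l₂)),
      key2 (π l₁) (π l₂) z₁ (hz₁c _ (hπT l₂))]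
    exact MonoidHom.mem_range.mpr ⟨l₁ * l₂ * l₁⁻¹ * l₂⁻¹, by
      rw [map_mul, map_mul, map_mul, map_inv, map_inv]⟩
  · have hrC : π.range ≤ (L ⊔ L.map (MulAut.conj x).toMonoidHom) ⊓
        Subgroup.centralizer ({x} : Set G) := by
      refine le_inf ?_ hrange
      rintro _ ⟨l, rfl⟩
      exact hπT l
    have htop : ⁅(⊤ : Subgroup ↥L), (⊤ : Subgroup ↥L)⁆ = ⊤ := by
      apply Subgroup.map_injective L.subtype_injective
      rw [Subgroup.map_commutator, ← MonoidHom.range_eq_map, Subgroup.range_subtype, hperf]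
    calc π.range = (⊤ : Subgroup ↥L).map π := MonoidHom.range_eq_map π
      _ = (⁅(⊤ : Subgroup ↥L), (⊤ : Subgroup ↥L)⁆).map π := by rw [htop]
      _ = ⁅(⊤ : Subgroup ↥L).map π, (⊤ : Subgroup ↥L).map π⁆ := Subgroup.map_commutator _ _ π
      _ = ⁅π.range, π.range⁆ := by rw [← MonoidHom.range_eq_map]
      _ ≤ _ := Subgroup.commutator_mono hrC hrC

end Cfsg.Agent.S1314
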