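import Cfsg.Statements.S1326
-- import your own Cfsg.Agent.* helpers here
import Cfsg.Agent.Helper9.FStar

set_option autoImplicit false
open Cfsg

namespace Cfsg.Agent.S1326

/-- For a finite group X: the Fitting subgroup contains its centralizer if and only if the layer of X is trivial. -/
theorem result {X : Type*} [Group X] [Finite X] : Subgroup.centralizer (Cfsg.fittingSubgroup X : Set X) ≤ Cfsg.fittingSubgroup X ↔ Cfsg.layer X = ⊥ := by
  constructor
  · intro h
    rw [eq_bot_iff]
    apply sSup_le
    intro L hL
    exfalso
    have h1 : L ≤ Cfsg.fittingSubgroup X :=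
      (Subgroup.commutator_eq_bot_iff_le_centralizer.mp
        (Cfsg.Agent.Helper9.component_comm_fitting hL)).trans h
    have hnil : Group.IsNilpotent ↥(Cfsg.fittingSubgroup X) := Cfsg.Agent.Helper9.fitting_nilpotent
    exact Cfsg.Agent.Helper9.component_not_le_solvable hL inferInstance h1
  · intro h
    have h1 := Cfsg.Agent.Helper9.centralizer_genFitting_le (G := X)
    have h2 : Cfsg.generalizedFittingSubgroup X = Cfsg.fittingSubgroup X := by
      unfold Cfsg.generalizedFittingSubgroup
      rw [h, bot_sup_eq]
    rw [h2] at h1
    exact h1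

end Cfsg.Agent.S1326
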