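import Cfsg.Statements.S1328
-- import your own Cfsg.Agent.* helpers here
import Cfsg.Agent.Helper9.Balance3

set_option autoImplicit false
open Cfsg

namespace Cfsg.Agent.S1328

open Cfsg.Agent.Helper9

/-- Let G be finite, H ≤ G with O(H) = 1, t an involution of G normalizing H, and Y a nontrivial subgroup of O(C_H(t)). Then some component E of H is normalized by t and by Y and centralized by neither t nor Y. -/
theorem result {G : Type*} [Group G] [Finite G] (H : Subgroup G) (hO : Cfsg.oddCore ↥H = ⊥) (t : G) (ht : orderOf t = 2) (htH : t ∈ Subgroup.normalizer (H : Set G)) (Y : Subgroup G) (hY1 : Y ≠ ⊥) (hY : Y ≤ (Cfsg.oddCore ↥(H ⊓ Subgroup.centralizer ({t} : Set G))).map (H ⊓ Subgroup.centralizer ({t} : Set G)).subtype) : ∃ E : Subgroup ↥H, Cfsg.IsComponent E ∧ (E.map H.subtype).map (MulAut.conj t).toMonoidHom = E.map H.subtype ∧ Y ≤ Subgroup.normalizer ((E.map H.subtype : Subgroup G) : Set G) ∧ ¬ (t ∈ Subgroup.centralizer ((E.map H.subtype : Subgroup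 G) : Set G)) ∧ ¬ (Y ≤ Subgroup.centralizer ((E.map H.subtype : Subgroup G) : Set G)) := by
  classical
  have ht2 : t ^ 2 = 1 := by rw [← ht]; exact pow_orderOf_eq_one t
  obtain ⟨G₁, hG₁⟩ : ∃ G₁ : Subgroup G, G₁ = H ⊔ Subgroup.zpowers t := ⟨_, rfl⟩
  have hHG : H ≤ G₁ := by rw [hG₁]; exact le_sup_left
  have htG : t ∈ G₁ := by rw [hG₁]; exact Subgroup.mem_sup_right (Subgroup.mem_zpowers t)
  have hGN : G₁ ≤ Subgroup.normalizer (H : Set G) := by
    rw [hG₁]
    exact sup_le Subgroup.le_normalizer (by rw [Subgroup.zpowers_le]; exact htH)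
  have hO₁ : Cfsg.pPrimeCore 2 ↥G₁ = ⊥ := pPrimeCore_sup_zpowers_eq_bot H t ht2 htH hO G₁ hG₁
  have ht₁ : orderOf (⟨t, htG⟩ : ↥G₁) = 2 := by rw [← Subgroup.orderOf_coe]; exact ht
  obtain ⟨CH, hCH⟩ : ∃ CH : Subgroup G, CH = H ⊓ Subgroup.centralizer ({t} : Set G) := ⟨_, rfl⟩
  rw [← hCH] at hY
  have hCHH : CH ≤ H := by rw [hCH]; exact inf_le_left
  have hOYcop := ppcOf_coprime 2 CH
  obtain ⟨OY, hOY⟩ : ∃ OY : Subgroup G, OY = (Cfsg.pPrimeCore 2 ↥CH).map CH.subtype := ⟨_, rfl⟩
  have hYOY : Y ≤ OY := by rw [hOY]; exact hY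
  have hOYCH : OY ≤ CH := by rw [hOY]; exact Subgroup.map_subtype_le _
  have hOYG : OY ≤ G₁ := hOYCH.trans (hCHH.trans hHG)
  have hYG : Y ≤ G₁ := hYOY.trans hOYG
  have hOYt : ∀ o ∈ OY, t * o = o * t := by
    intro o ho
    have h1 : o ∈ Subgroup.centralizer ({t} : Set G) := by
      have := hOYCH ho
      rw [hCH] at this
      exact this.2
    exact Subgroup.mem_centralizer_iff.mp h1 t rfl
  have hA : OY.subgroupOf G₁ ≤ Cfsg.centralizerPPrimeCore 2 (⟨t, htG⟩ : ↥G₁) := by
    apply le_ppcOf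
    · intro a ha
      rw [Subgroup.mem_centralizer_iff]
      intro y hy
      rw [Set.mem_singleton_iff] at hy
      rw [hy]
      apply Subtype.ext
      exact hOYt (a : G) (Subgroup.mem_subgroupOf.mp ha)
    · intro c hc
      have hcG : (c : G) ∈ Subgroup.normalizer (OY : Set G) := by
        have h1 : (c : G) ∈ Subgroup.normalizer (H : Set G) := hGN c.2
        have h2 : (c : G) ∈ Subgroup.centralizer ({t} : Set G) := by
          rw [Subgroup.mem_centralizer_iff]
          intro y hy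
          rw [Set.mem_singleton_iff] at hy
          rw [hy]
          exact congrArg Subtype.val (Subgroup.mem_centralizer_iff.mp hc ⟨t, htG⟩ rfl)
        have h3 : Subgroup.normalizer (H : Set G) ⊓ Subgroup.centralizer ({t} : Set G) ≤
            Subgroup.normalizer (CH : Set G) := by
          rw [hCH]
          exact le_normalizer_inf_of_le _ H _ inf_le_left
            (inf_le_right.trans Subgroup.le_normalizer)
        have h4 := char_map_normalizer CH (Cfsg.pPrimeCore 2 ↥CH)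
        rw [hOY]
        exact h4 (h3 ⟨h1, h2⟩)
      rw [Subgroup.mem_normalizer_iff]
      intro a
      rw [Subgroup.mem_subgroupOf, Subgroup.mem_subgroupOf]
      exact Subgroup.mem_normalizer_iff.mp hcG (a : G)
    · rw [Nat.card_congr (Subgroup.subgroupOfEquivOfLe hOYG).toEquiv, hOY]
      exact hOYcop
  have hY₁ : Y.subgroupOf G₁ ≤ Cfsg.centralizerPPrimeCore 2 (⟨t, htG⟩ : ↥G₁) := by
    refine le_trans ?_ hA
    intro a ha
    rw [Subgroup.mem_subgroupOf] at ha ⊢
    exact hYOY ha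
  have hY₁ne : Y.subgroupOf G₁ ≠ ⊥ := by
    intro h
    apply hY1
    rw [Subgroup.eq_bot_iff_forall]
    intro y hy
    have h1 : (⟨y, hYG hy⟩ : ↥G₁) ∈ Y.subgroupOf G₁ := Subgroup.mem_subgroupOf.mpr hy
    rw [h, Subgroup.mem_bot] at h1
    exact congrArg Subtype.val h1
  obtain ⟨K, hK, hKt, hKY⟩ := exists_component_not_comm 2 hO₁ ⟨t, htG⟩ ht₁ _ hY₁ hY₁ne
  have hWK := centralizerPPrimeCore_le_normalizer_component 2 hO₁ ⟨t, htG⟩ ht₁ K hK
  have hKH : K.map G₁.subtype ≤ H := by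
    have hperf := component_perfect hK
    rw [← hperf, Subgroup.map_commutator, Subgroup.commutator_le]
    intro a ha b hb
    have haG : a ∈ H ⊔ Subgroup.zpowers t := by
      rw [← hG₁]; exact Subgroup.map_subtype_le _ ha
    have hbG : b ∈ H ⊔ Subgroup.zpowers t := by
      rw [← hG₁]; exact Subgroup.map_subtype_le _ hb
    exact comm_mem_of_sup_zpowers H t htH a b haG hbG
  obtain ⟨hE, hEmap⟩ := component_comap_inclusion H G₁ hHG K hK hKH
  refine ⟨K.comap (Subgroup.inclusion hHG), hE, ?_, ?_, ?_, ?_⟩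
  · rw [hEmap]
    have h1 : (⟨t, htG⟩ : ↥G₁) ∈ Subgroup.normalizer (K : Set ↥G₁) := by
      have := le_normalizer_commutator_right K (Subgroup.zpowers (⟨t, htG⟩ : ↥G₁))
      rw [hKt] at this
      exact this (Subgroup.mem_zpowers _)
    exact map_conj_eq_of_mem_normalizer (coe_mem_normalizer_map_subtype G₁ K _ h1)
  · rw [hEmap]
    intro y hy
    exact coe_mem_normalizer_map_subtype G₁ K ⟨y, hYG hy⟩
      (hWK (hY₁ (Subgroup.mem_subgroupOf.mpr hy)))
  · rw [hEmap]
    intro hc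
    have h1 : Subgroup.zpowers (⟨t, htG⟩ : ↥G₁) ≤ Subgroup.centralizer (K : Set ↥G₁) := by
      rw [Subgroup.zpowers_le, Subgroup.mem_centralizer_iff]
      intro k hk
      apply Subtype.ext
      exact Subgroup.mem_centralizer_iff.mp hc (k : G) ⟨k, hk, rfl⟩
    have h2 : ⁅K, Subgroup.zpowers (⟨t, htG⟩ : ↥G₁)⁆ = ⊥ := by
      rw [Subgroup.commutator_comm, Subgroup.commutator_eq_bot_iff_le_centralizer]
      exact h1
    rw [hKt] at h2
    have hnt := quasi_nontrivial hK.2
    exact (Subgroup.nontrivial_iff_ne_bot K).mp hnt h2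
  · rw [hEmap]
    intro hc
    apply hKY
    rw [comm_eq_bot_iff]
    intro k hk y hy
    apply Subtype.ext
    exact Subgroup.mem_centralizer_iff.mp (hc (Subgroup.mem_subgroupOf.mp hy)) (k : G)
      ⟨k, hk, rfl⟩

end Cfsg.Agent.S1328
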