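import Cfsg.Statements.S1331
-- import your own Cfsg.Agent.* helpers here
import Cfsg.Agent.Helper9.Signalizer

set_option autoImplicit false
open Cfsg

namespace Cfsg.Agent.S1331

open Cfsg.Agent.Helper9

/-- Let θ be a solvable A-signalizer functor on the finite group G for the prime p, A elementary abelian of rank at least 3, X a member of the family of θ, and B ≤ A with |B| ≥ p². Then X is generated by the subgroups X ∩ ⋂_{d ∈ D, d ≠ 1} θ d, D ranging over the subgroups of index p in B. -/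
theorem result {G : Type*} [Group G] [Finite G] (p : ℕ) [Fact p.Prime] (A : Subgroup G) (hA : Cfsg.IsElementaryAbelian p A) (hA3 : p ^ 3 ≤ Nat.card ↥A) (θ : G → Subgroup G) (hθ : Cfsg.IsSolvableSignalizerFunctor p A θ) (X : Subgroup G) (hX : X ∈ Cfsg.signalizerFamily p A θ) (B : Subgroup G) (hB : B ≤ A) (hB2 : p ^ 2 ≤ Nat.card ↥B) : X = ⨆ D : {D : Subgroup G // D ≤ B ∧ D.relIndex B = p}, X ⊓ Cfsg.signalizerInf (D : Subgroup G) θ := by
  obtain ⟨hXs, hXp, hXA, hXθ⟩ := id hX
  apply le_antisymm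
  · have hBe : Cfsg.IsElementaryAbelian p B := elemAbelian_of_le p A B hA hB
    have hBX : B ≤ Subgroup.normalizer (X : Set G) :=
      hB.trans (le_normalizer_of_conj_inv A X hXA)
    refine (hyperplane_gen p B X hBe hB2 hXp hBX).trans ?_
    apply iSup_le
    rintro ⟨D, hDB, hDr⟩
    refine le_iSup_of_le (⟨D, hDB, hDr⟩ : {D : Subgroup G // D ≤ B ∧ D.relIndex B = p}) ?_
    intro x hx
    obtain ⟨hxX, hxD⟩ := Subgroup.mem_inf.mp hx
    refine Subgroup.mem_inf.mpr ⟨hxX, ?_⟩
    unfold Cfsg.signalizerInf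
    rw [Subgroup.mem_iInf]
    rintro ⟨d, hdD, hd1⟩
    exact hXθ d (hB (hDB hdD)) hd1 (Subgroup.mem_inf.mpr
      ⟨hxX, Subgroup.centralizer_le (Set.singleton_subset_iff.mpr hdD) hxD⟩)
  · exact iSup_le (fun D => inf_le_left)

end Cfsg.Agent.S1331
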