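import Cfsg.Statements.S1335
import Cfsg.Agent.Helper8.PRank

set_option autoImplicit false
open Cfsg

namespace Cfsg.Agent.S1335

open Cfsg.Agent.Helper8 in
/-- Let H be a subgroup of the finite group G, p a prime, k ≥ 1, P a Sylow p-subgroup of H of p-rank at least k, and suppose N_G(X) ≤ H for every subgroup X ≤ P of p-rank at least k. Then P is a Sylow p-subgroup of G. -/
theorem result {G : Type*} [Group G] [Finite G] {p : ℕ} [Fact p.Prime] (k : ℕ) (hk : 1 ≤ k) (H : Subgroup G) (P : Sylow p ↥H) (hP : ¬ Cfsg.PRankLE p (k - 1) ↥(P : Subgroup ↥H)) (hΓ : (∀ X : Subgroup G, X ≤ (P : Subgroup ↥H).map H.subtype → ¬ Cfsg.PRankLE p (k - 1) ↥X → Subgroup.normalizer (X : Set G) ≤ H)) : ∃ Q : Sylow p G, (Q : Subgroup G) = (P : Subgroup ↥H).map H.subtype := by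
  set P' : Subgroup G := (P : Subgroup ↥H).map H.subtype with hP'
  have hP'H : P' ≤ H := Subgroup.map_subtype_le _
  have hP'p : IsPGroup p P' := P.isPGroup'.map _
  have hP'EA : HasEA p (k - 1) P' := by
    obtain ⟨A, hAP, hc, he, hcard⟩ := (not_prankLE_iff (P : Subgroup ↥H)).mp hP
    refine ⟨A.map H.subtype, Subgroup.map_mono hAP, inferInstance, ?_, ?_⟩
    · rintro _ ⟨a, ha, rfl⟩
      rw [← map_pow, he a ha, map_one]
    · rw [Subgroup.card_map_of_injective H.subtype_injective]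
      exact hcard
  have hN : Subgroup.normalizer (P' : Set G) ≤ H :=
    hΓ P' le_rfl ((not_prankLE_iff P').mpr hP'EA)
  obtain ⟨Q, hQ⟩ := hP'p.exists_le_sylow
  refine ⟨Q, ?_⟩
  by_contra hne
  have hlt : P' < (Q : Subgroup G) := lt_of_le_of_ne hQ (fun h => hne h.symm)
  obtain ⟨s, hsQ, hsP, hsN⟩ := exists_normalizer_of_lt Q.2 hlt
  have hsH : s ∈ H := hN hsN
  have hKQ : P' ⊔ Subgroup.zpowers s ≤ (Q : Subgroup G) :=
    sup_le hQ (by rw [Subgroup.zpowers_le]; exact hsQ)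
  have hKp : IsPGroup p ↥((P' ⊔ Subgroup.zpowers s).subgroupOf H) :=
    (Q.2.to_le hKQ).comap_subtype (K := H)
  have hPK : (P : Subgroup ↥H) ≤ (P' ⊔ Subgroup.zpowers s).subgroupOf H := by
    intro x hx
    rw [Subgroup.mem_subgroupOf]
    have hx' : (x : G) ∈ P' := ⟨x, hx, rfl⟩
    exact (le_sup_left : P' ≤ P' ⊔ Subgroup.zpowers s) hx'
  have heq : (P' ⊔ Subgroup.zpowers s).subgroupOf H = (P : Subgroup ↥H) :=
    P.is_maximal' hKp hPK
  apply hsP
  have hsK : (⟨s, hsH⟩ : ↥H) ∈ (P' ⊔ Subgroup.zpowers s).subgroupOf H := by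
    rw [Subgroup.mem_subgroupOf]
    exact (le_sup_right : Subgroup.zpowers s ≤ P' ⊔ Subgroup.zpowers s) (Subgroup.mem_zpowers s)
  rw [heq] at hsK
  exact ⟨⟨s, hsH⟩, hsK, rfl⟩

end Cfsg.Agent.S1335
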