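import Cfsg.Statements.S1386
-- import your own Cfsg.Agent.* helpers here
import Cfsg.Agent.Helper9.TypeP

set_option autoImplicit false
open Cfsg

namespace Cfsg.Agent.S1386

open Cfsg.Agent.Helper9

/-- Let G be a finite group, W₁, W₂ subgroups forming a self-normalizing cyclic pair, S a subgroup with W₂ ≤ S and W₁ a complement to S' in S, and (W₁, U, W₂') type-P data for S. Then W₂' = W₂ (that is, C_{S'}(W₁) = W₂). -/
theorem result {G : Type*} [Group G] [Finite G] (W₁ W₂ S U W₂' : Subgroup G) (hW : Cfsg.IsSelfNormalizingCyclic W₁ W₂)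
    (hSW : Cfsg.IsComplIn ⁅S, S⁆ W₁ S) (hW₂S : W₂ ≤ S) (hP : Cfsg.IsTypePWith S W₁ U W₂') :
    W₂' = W₂ := by
  obtain ⟨hW₁ne, hW₂ne, hW₁₂, hcomm, hcyc, hnormW⟩ := hW
  obtain ⟨hW₁ne', hW₂'ne, hW₁₂', hcomm', hcyc', hnormW'⟩ := hP.selfNormalizing
  obtain ⟨hS'S, hW₁S, hS'W₁, hdec⟩ := hSW
  have cS := card_of_isComplIn hP.W₁_compl
  have hW₁pos : 0 < Nat.card ↥W₁ := Nat.card_pos
  have hrel : (W₁.subgroupOf S).index = Nat.card ↥(⁅S, S⁆ : Subgroup G) := by
    have h1 : Nat.card ↥(W₁.subgroupOf S) * (W₁.subgroupOf S).index = Nat.card ↥S :=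
      Subgroup.card_mul_index _
    rw [Nat.card_congr (Subgroup.subgroupOfEquivOfLe hW₁S).toEquiv, cS] at h1
    have h2 : Nat.card ↥W₁ * (W₁.subgroupOf S).index =
        Nat.card ↥W₁ * Nat.card ↥(⁅S, S⁆ : Subgroup G) := by
      rw [h1]; ring
    exact Nat.eq_of_mul_eq_mul_left hW₁pos h2
  have hcop : (Nat.card ↥W₁).Coprime (Nat.card ↥(⁅S, S⁆ : Subgroup G)) := by
    have hall : (Nat.card ↥W₁).Coprime ((W₁.subgroupOf S).index) := hP.W₁_hall
    rw [hrel] at hall; exact hall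
  have hi : W₂ ≤ W₂' := by
    obtain ⟨x, hx, hx1⟩ := W₁.bot_or_exists_ne_one.resolve_left hW₁ne
    rw [← hP.W₂_centralizer x hx hx1]
    intro w hw
    refine Subgroup.mem_inf.mpr ⟨?_, ?_⟩
    · obtain ⟨s', hs', a, ha, he⟩ := hdec w (hW₂S hw)
      have hca : Commute a w := hcomm a ha w hw
      have hs'e : s' = w * a⁻¹ := by rw [he]; group
      have hpow : s' ^ Nat.card ↥(⁅S, S⁆ : Subgroup G) = 1 := by
        have := pow_card_eq_one' (G := ↥(⁅S, S⁆ : Subgroup G)) (x := ⟨s', hs'⟩)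
        exact congrArg Subtype.val this
      rw [hs'e, (hca.symm.inv_right).mul_pow, inv_pow] at hpow
      have h1 : w ^ Nat.card ↥(⁅S, S⁆ : Subgroup G) = a ^ Nat.card ↥(⁅S, S⁆ : Subgroup G) :=
        mul_inv_eq_one.mp hpow
      have h2 : a ^ Nat.card ↥(⁅S, S⁆ : Subgroup G) ∈ W₁ ⊓ W₂ :=
        Subgroup.mem_inf.mpr ⟨W₁.pow_mem ha _, h1 ▸ W₂.pow_mem hw _⟩
      rw [hW₁₂, Subgroup.mem_bot] at h2
      have h3 : a ^ Nat.card ↥W₁ = 1 := by
        have := pow_card_eq_one' (G := ↥W₁) (x := ⟨a, ha⟩)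
        exact congrArg Subtype.val this
      have h4 : a = 1 := by
        have hd := Nat.dvd_gcd (orderOf_dvd_of_pow_eq_one h3) (orderOf_dvd_of_pow_eq_one h2)
        rw [hcop.gcd_eq_one] at hd
        exact orderOf_eq_one_iff.mp (Nat.dvd_one.mp hd)
      rw [he, h4, mul_one]; exact hs'
    · rw [Subgroup.mem_centralizer_iff]
      intro h hh
      rw [Set.mem_singleton_iff.mp hh]
      exact hcomm x hx w hw
  have hii : W₂' ≤ W₂ := by
    obtain ⟨x, hx, hx1⟩ := W₁.bot_or_exists_ne_one.resolve_left hW₁ne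
    obtain ⟨w, hw, hw1⟩ := W₂.bot_or_exists_ne_one.resolve_left hW₂ne
    have hnot : ∀ V : Subgroup G, W₁ ⊓ V = ⊥ → w ∈ V →
        x * w ∉ ((W₁ : Set G) ∪ (V : Set G)) := by
      intro V hV hwV hmem
      rcases hmem with h | h
      · have h1 : w ∈ W₁ := by
          have := W₁.mul_mem (W₁.inv_mem hx) h
          rwa [inv_mul_cancel_left] at this
        have h2 : w ∈ W₁ ⊓ V := Subgroup.mem_inf.mpr ⟨h1, hwV⟩
        rw [hV, Subgroup.mem_bot] at h2
        exact hw1 h2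
      · have h1 : x ∈ V := by
          have := V.mul_mem h (V.inv_mem hwV)
          rwa [mul_inv_cancel_right] at this
        have h2 : x ∈ W₁ ⊓ V := Subgroup.mem_inf.mpr ⟨hx, h1⟩
        rw [hV, Subgroup.mem_bot] at h2
        exact hx1 h2
    have e1 := hnormW {x * w} (Set.singleton_subset_iff.mpr
      ((Set.mem_sdiff _).mpr ⟨Subgroup.mul_mem_sup hx hw, hnot W₂ hW₁₂ hw⟩))
      (Set.singleton_nonempty _)
    have e2 := hnormW' {x * w} (Set.singleton_subset_iff.mpr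
      ((Set.mem_sdiff _).mpr ⟨Subgroup.mul_mem_sup hx (hi hw), hnot W₂' hW₁₂' (hi hw)⟩))
      (Set.singleton_nonempty _)
    have e3 : W₁ ⊔ W₂' = W₁ ⊔ W₂ := e2.symm.trans e1
    intro v hv
    have hv' : v ∈ W₁ ⊔ W₂ := e3 ▸ (Subgroup.mem_sup_right hv)
    obtain ⟨a, ha, b, hb, he⟩ := mem_sup_of_commute hcomm hv'
    have ha' : a ∈ W₁ ⊓ W₂' := by
      refine Subgroup.mem_inf.mpr ⟨ha, ?_⟩
      have e : a = v * b⁻¹ := by rw [he]; group
      rw [e]; exact W₂'.mul_mem hv (W₂'.inv_mem (hi hb))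
    rw [hW₁₂', Subgroup.mem_bot] at ha'
    rw [he, ha', one_mul]; exact hb
  exact le_antisymm hii hi

end Cfsg.Agent.S1386
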