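import Cfsg.Statements.S1387
-- import your own Cfsg.Agent.* helpers here
import Cfsg.Agent.Helper9.TypeP

set_option autoImplicit false
open Cfsg

namespace Cfsg.Agent.S1387

open Cfsg.Agent.Helper9

/-- Let M be a subgroup of a finite group G with type-P data (W₁, U, W₂) and H = M_F. Then the Fitting subgroup F(M) is generated by H and the centralizer of H in U. -/
theorem result {G : Type*} [Group G] [Finite G] (M W₁ U W₂ : Subgroup G) (hP : Cfsg.IsTypePWith M W₁ U W₂) :
    Cfsg.fittingOf M = Cfsg.fittingHallOf M ⊔ (U ⊓ Subgroup.centralizer (Cfsg.fittingHallOf M : Set G)) := by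
  have hM'M : ⁅M, M⁆ ≤ M := hP.W₁_compl.1
  have hUM : U ≤ M := hP.U_compl.2.1.trans hM'M
  apply le_antisymm
  · rw [← hP.fitting_eq]
    refine sup_le le_sup_left ?_
    intro x hx
    have hxC := (Subgroup.mem_inf.mp hx).2
    have hxF : x ∈ Cfsg.fittingOf M := by
      rw [← hP.fitting_eq]; exact Subgroup.mem_sup_right hx
    obtain ⟨h, hh, u, hu, hxe⟩ := hP.U_compl.2.2.2 x (hP.fitting_le hxF)
    have hu' : h⁻¹ * x ∈ U := by
      rw [hxe, inv_mul_cancel_left]; exact hu
    have hinv := typeP_mem_centralizer M U hUM hP.U_compl.2.2.1 (Subgroup.inv_mem _ hh) hxC hu'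
    have huC : u ∈ Subgroup.centralizer (Cfsg.fittingHallOf M : Set G) := by
      have e : u = h⁻¹ * x := by rw [hxe]; group
      rw [e]; exact Subgroup.mul_mem _ hinv hxC
    rw [hxe]
    exact Subgroup.mul_mem_sup hh (Subgroup.mem_inf.mpr ⟨hu, huC⟩)
  · rw [← hP.fitting_eq]
    exact sup_le le_sup_left (le_sup_of_le_right (inf_le_inf_right _ hUM))

end Cfsg.Agent.S1387
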