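import Cfsg.Statements.S1388
-- import your own Cfsg.Agent.* helpers here
import Cfsg.Agent.Helper9.TypeP

set_option autoImplicit false
open Cfsg

namespace Cfsg.Agent.S1388

open Cfsg.Agent.Helper9

/-- Let M be a subgroup of a finite group G with type-P data (W₁, U, W₂) and H = M_F. Then the derived subgroup of U centralizes H, and if U ≠ 1 then U does not centralize H. -/
theorem result {G : Type*} [Group G] [Finite G] (M W₁ U W₂ : Subgroup G) (hP : Cfsg.IsTypePWith M W₁ U W₂) :
    ⁅U, U⁆ ≤ Subgroup.centralizer (Cfsg.fittingHallOf M : Set G) ∧ (U ≠ ⊥ → ¬ U ≤ Subgroup.centralizer (Cfsg.fittingHallOf M : Set G)) := by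
  have hM'M : ⁅M, M⁆ ≤ M := hP.W₁_compl.1
  have hUM' : U ≤ ⁅M, M⁆ := hP.U_compl.2.1
  have hUM : U ≤ M := hUM'.trans hM'M
  have hHU : Cfsg.fittingHallOf M ⊓ U = ⊥ := hP.U_compl.2.2.1
  constructor
  · intro u' hu'
    have hUU : ⁅U, U⁆ ≤ U := by
      rw [Subgroup.commutator_le]
      intro a ha b hb
      rw [commutatorElement_def]
      exact U.mul_mem (U.mul_mem (U.mul_mem ha hb) (U.inv_mem ha)) (U.inv_mem hb)
    have hu'U : u' ∈ U := hUU hu'
    have h1 : u' ∈ Cfsg.fittingHallOf M ⊔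
        (M ⊓ Subgroup.centralizer (Cfsg.fittingHallOf M : Set G)) :=
      hP.derived_two_le (Subgroup.commutator_mono hUM' hUM' hu')
    obtain ⟨h, hh, c, hc, he⟩ := mem_sup_of_commute
      (fun a ha b hb => Subgroup.mem_centralizer_iff.mp (Subgroup.mem_inf.mp hb).2 a ha) h1
    have hcC := (Subgroup.mem_inf.mp hc).2
    have hhC := typeP_mem_centralizer M U hUM hHU hh hcC (he ▸ hu'U)
    rw [he]
    exact Subgroup.mul_mem _ hhC hcC
  · intro hU hUC
    obtain ⟨hcop, hpow, hcardM, hHM⟩ := fittingHallOf_facts M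
    have cM := card_of_isComplIn hP.W₁_compl
    have cM' := card_of_isComplIn hP.U_compl
    have hHpos : 0 < Nat.card ↥(Cfsg.fittingHallOf M) := Nat.card_pos
    have hUpos : 0 < Nat.card ↥U := Nat.card_pos
    have hW₁pos : 0 < Nat.card ↥W₁ := Nat.card_pos
    have hW₁M : W₁ ≤ M := hP.W₁_compl.2.1
    have hn : (Cfsg.fittingHall ↥M).index = Nat.card ↥U * Nat.card ↥W₁ := by
      have h1 : Nat.card ↥(Cfsg.fittingHallOf M) * (Cfsg.fittingHall ↥M).index =
          Nat.card ↥(Cfsg.fittingHallOf M) * (Nat.card ↥U * Nat.card ↥W₁) := by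
        rw [← hcardM, cM, cM', mul_assoc]
      exact Nat.eq_of_mul_eq_mul_left hHpos h1
    rw [hn] at hcop
    have hcopHU : (Nat.card ↥(Cfsg.fittingHallOf M)).Coprime (Nat.card ↥U) :=
      Nat.Coprime.coprime_dvd_right (Dvd.intro _ rfl) hcop
    have hrel : (W₁.subgroupOf M).index = Nat.card ↥(Cfsg.fittingHallOf M) * Nat.card ↥U := by
      have h1 : Nat.card ↥(W₁.subgroupOf M) * (W₁.subgroupOf M).index = Nat.card ↥M :=
        Subgroup.card_mul_index _
      rw [Nat.card_congr (Subgroup.subgroupOfEquivOfLe hW₁M).toEquiv, cM, cM'] at h1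
      have h2 : Nat.card ↥W₁ * (W₁.subgroupOf M).index =
          Nat.card ↥W₁ * (Nat.card ↥(Cfsg.fittingHallOf M) * Nat.card ↥U) := by
        rw [h1]; ring
      exact Nat.eq_of_mul_eq_mul_left hW₁pos h2
    have hcopW : (Nat.card ↥W₁).Coprime (Nat.card ↥U) := by
      have hall : (Nat.card ↥W₁).Coprime ((W₁.subgroupOf M).index) := hP.W₁_hall
      rw [hrel] at hall
      exact Nat.Coprime.coprime_dvd_right (Dvd.intro_left _ rfl) hall
    have hidx : (U.subgroupOf M).index =
        Nat.card ↥(Cfsg.fittingHallOf M) * Nat.card ↥W₁ := by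
      have h1 : Nat.card ↥(U.subgroupOf M) * (U.subgroupOf M).index = Nat.card ↥M :=
        Subgroup.card_mul_index _
      rw [Nat.card_congr (Subgroup.subgroupOfEquivOfLe hUM).toEquiv, cM, cM'] at h1
      have h2 : Nat.card ↥U * (U.subgroupOf M).index =
          Nat.card ↥U * (Nat.card ↥(Cfsg.fittingHallOf M) * Nat.card ↥W₁) := by
        rw [h1]; ring
      exact Nat.eq_of_mul_eq_mul_left hUpos h2
    have hnorm : M ≤ Subgroup.normalizer (U : Set G) := by
      intro m hm
      obtain ⟨a, ha, b, hb, rfl⟩ := hP.W₁_compl.2.2.2 m hm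
      obtain ⟨h, hh, u, hu, rfl⟩ := hP.U_compl.2.2.2 a ha
      have hhN : h ∈ Subgroup.normalizer (U : Set G) := by
        apply Subgroup.centralizer_le_normalizer
        rw [Subgroup.mem_centralizer_iff]
        intro u₁ hu₁
        exact (Subgroup.mem_centralizer_iff.mp (hUC hu₁) h hh).symm
      exact Subgroup.mul_mem _ (Subgroup.mul_mem _ hhN (Subgroup.le_normalizer hu))
        (hP.U_normal hb)
    have hn' : (U.subgroupOf M).Normal := Subgroup.normal_subgroupOf_of_le_normalizer hnorm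
    have hnil : Group.IsNilpotent ↥(U.subgroupOf M) := by
      haveI := hP.U_nilpotent
      exact Group.nilpotent_of_mulEquiv (Subgroup.subgroupOfEquivOfLe hUM).symm
    have hcopU : (Nat.card ↥(U.subgroupOf M)).Coprime (U.subgroupOf M).index := by
      rw [Nat.card_congr (Subgroup.subgroupOfEquivOfLe hUM).toEquiv, hidx]
      exact Nat.Coprime.mul_right hcopHU.symm hcopW.symm
    have hle : U.subgroupOf M ≤ Cfsg.fittingHall ↥M := le_sSup ⟨hn', hnil, hcopU⟩
    apply hU
    rw [eq_bot_iff, ← hHU]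
    intro u hu
    refine Subgroup.mem_inf.mpr ⟨?_, hu⟩
    have h1 : (⟨u, hUM hu⟩ : ↥M) ∈ Cfsg.fittingHall ↥M := hle (Subgroup.mem_subgroupOf.mpr hu)
    show u ∈ (Cfsg.fittingHall ↥M).map M.subtype
    exact Subgroup.mem_map.mpr ⟨_, h1, rfl⟩

end Cfsg.Agent.S1388
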