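import Cfsg.Statements.S1441
import Cfsg.Agent.Helper10.Coprime

set_option autoImplicit false
open Cfsg

namespace Cfsg.Agent.S1441

/-- Let G be a finite group, H a solvable subgroup and A a subgroup normalizing H. Suppose there is a chain H = H₀ ≥ H₁ ≥ ⋯ ≥ H_n = 1 of subgroups normal in H and normalized by A such that A acts trivially on each factor H_{i-1}/H_i (that is, [H_{i-1}, A] ≤ H_i). Then every prime dividing the index of C_A(H) in A divides the order of H. -/
theorem result {G : Type*} [Group G] [Finite G] (H A : Subgroup G) (hH : Group.IsSolvable H) (hA : (A ≤ Subgroup.normalizer (H : Set G)))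
    (n : ℕ) (c : Fin (n + 1) → Subgroup G) (hc0 : c 0 = H) (hcn : c (Fin.last n) = ⊥) (hanti : Antitone c)
    (hcN : ∀ i, H ≤ Subgroup.normalizer ((c i : Subgroup G) : Set G)) (hcA : ∀ i, A ≤ Subgroup.normalizer ((c i : Subgroup G) : Set G))
    (htriv : ∀ i : Fin n, ⁅c i.castSucc, A⁆ ≤ c i.succ) :
    ∀ p : ℕ, p.Prime → p ∣ (A ⊓ Subgroup.centralizer (H : Set G)).relIndex A → p ∣ Nat.card H := by
  intro p hp hdvd
  by_contra hpH
  have : Fact p.Prime := ⟨hp⟩
  have key : ∀ a ∈ A, (∃ k : ℕ, a ^ (p ^ k) = 1) → ∀ i : Fin (n + 1), ∀ h ∈ c i, h * a = a * h := by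
    intro a ha ⟨k, hk⟩ i
    induction i using Fin.reverseInduction with
    | last =>
      intro h hh
      rw [hcn, Subgroup.mem_bot] at hh
      subst hh; simp
    | cast i ih =>
      intro h hh
      have hz : h * a * h⁻¹ * a⁻¹ ∈ c i.succ :=
        htriv i (Subgroup.commutator_mem_commutator hh ha)
      have hzH : h * a * h⁻¹ * a⁻¹ ∈ H := by
        rw [← hc0]; exact hanti (Fin.zero_le _) hz
      have hcop : Nat.Coprime (orderOf a) (Nat.card H) := by
        have h1 : orderOf a ∣ p ^ k := orderOf_dvd_of_pow_eq_one hk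
        have h2 : Nat.Coprime (p ^ k) (Nat.card H) :=
          Nat.Coprime.pow_left k ((Nat.Prime.coprime_iff_not_dvd hp).mpr hpH)
        exact Nat.Coprime.coprime_dvd_left h1 h2
      have h1 := Cfsg.Agent.Helper10.commutator_eq_one_of_coprime h a _ (Nat.card H) rfl
        (ih _ hz).symm (by
          have := Subgroup.orderOf_dvd_natCard _ hzH
          exact orderOf_dvd_iff_pow_eq_one.mp this) hcop
      have : h * a = (h * a * h⁻¹ * a⁻¹) * (a * h) := by group
      rw [this, h1, one_mul]
  obtain P : Sylow p A := default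
  have hP : (P : Subgroup A).map A.subtype ≤ A ⊓ Subgroup.centralizer (H : Set G) := by
    rintro _ ⟨x, hx, rfl⟩
    refine Subgroup.mem_inf.mpr ⟨x.2, ?_⟩
    rw [Subgroup.mem_centralizer_iff]
    intro h hh
    have hpg : ∃ k : ℕ, (x : G) ^ (p ^ k) = 1 := by
      obtain ⟨k, hk⟩ := P.isPGroup' ⟨x, hx⟩
      refine ⟨k, ?_⟩
      have := congrArg (fun y : (P : Subgroup A) => ((y : A) : G)) hk
      simpa using this
    exact key x x.2 hpg 0 h (by rw [hc0]; exact hh)
  have h1 : (A ⊓ Subgroup.centralizer (H : Set G)).relIndex A ∣ ((P : Subgroup A).map A.subtype).relIndex A :=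
    Subgroup.relIndex_dvd_of_le_left A hP
  have h2 : ((P : Subgroup A).map A.subtype).relIndex A = (P : Subgroup A).index := by
    rw [Subgroup.relIndex, Subgroup.subgroupOf,
      Subgroup.comap_map_eq_self_of_injective A.subtype_injective]
  rw [h2] at h1
  exact P.not_dvd_index (hdvd.trans h1)

end Cfsg.Agent.S1441
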