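import Cfsg.Statements.S1442
import Cfsg.Agent.Helper10.Coprime

set_option autoImplicit false
open Cfsg

namespace Cfsg.Agent.S1442

/-- If A acts coprimely on a nilpotent group H and the fixed points C = C_H(A) satisfy C_H(C) ≤ C, then A acts trivially on H. -/
theorem result {G : Type*} [Group G] [Finite G] (H A : Subgroup G) (hH : Group.IsNilpotent H) (hA : (A ≤ Subgroup.normalizer (H : Set G))) (hcop : (Nat.card A).Coprime (Nat.card H))
    (hC : H ⊓ Subgroup.centralizer (((H ⊓ Subgroup.centralizer (A : Set G)) : Subgroup G) : Set G) ≤ (H ⊓ Subgroup.centralizer (A : Set G))) :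
    A ≤ Subgroup.centralizer (H : Set G) := by
  set C : Subgroup G := H ⊓ Subgroup.centralizer (A : Set G) with hCdef
  have hNC := (normalizerCondition_iff_only_full_group_self_normalizing (G := H)).mp
    Group.normalizerCondition_of_isNilpotent
  have hK : C.subgroupOf H = ⊤ := by
    apply hNC
    apply le_antisymm _ Subgroup.le_normalizer
    intro x hx
    rw [Subgroup.mem_subgroupOf]
    refine Subgroup.mem_inf.mpr ⟨x.2, ?_⟩
    rw [Subgroup.mem_centralizer_iff]
    intro a ha
    have hxinv : x⁻¹ ∈ Subgroup.normalizer ((C.subgroupOf H : Subgroup H) : Set H) := Subgroup.inv_mem _ hx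
    have hzH : (x : G) * a * (x : G)⁻¹ * a⁻¹ ∈ H := by
      have h1 : a * (x : G)⁻¹ * a⁻¹ ∈ H :=
        (Subgroup.mem_normalizer_iff.mp (hA ha) _).mp (H.inv_mem x.2)
      have := H.mul_mem x.2 h1
      simpa [mul_assoc] using this
    have hzC : (x : G) * a * (x : G)⁻¹ * a⁻¹ ∈ C := by
      apply hC
      refine Subgroup.mem_inf.mpr ⟨hzH, ?_⟩
      rw [Subgroup.mem_centralizer_iff]
      intro c hc
      have hcH : c ∈ H := hc.1
      have hac : Commute a c := by
        have := Subgroup.mem_centralizer_iff.mp hc.2 a ha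
        exact this
      have hc' : (x : G)⁻¹ * c * (x : G) ∈ C := by
        have := (Subgroup.mem_normalizer_iff.mp hxinv ⟨c, hcH⟩).mp
          (by rw [Subgroup.mem_subgroupOf]; exact hc)
        rw [Subgroup.mem_subgroupOf] at this
        simpa using this
      have hac' : a * ((x : G)⁻¹ * c * (x : G)) = ((x : G)⁻¹ * c * (x : G)) * a :=
        Subgroup.mem_centralizer_iff.mp hc'.2 a ha
      have h1 : a⁻¹ * c = c * a⁻¹ := hac.inv_left
      calc c * ((x : G) * a * (x : G)⁻¹ * a⁻¹)
          = (x : G) * (((x : G)⁻¹ * c * (x : G)) * a) * (x : G)⁻¹ * a⁻¹ := by group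
        _ = (x : G) * (a * ((x : G)⁻¹ * c * (x : G))) * (x : G)⁻¹ * a⁻¹ := by rw [hac']
        _ = (x : G) * a * (x : G)⁻¹ * (c * a⁻¹) := by group
        _ = (x : G) * a * (x : G)⁻¹ * (a⁻¹ * c) := by rw [h1]
        _ = (x : G) * a * (x : G)⁻¹ * a⁻¹ * c := by group
    have hza : a * ((x : G) * a * (x : G)⁻¹ * a⁻¹) = ((x : G) * a * (x : G)⁻¹ * a⁻¹) * a :=
      Subgroup.mem_centralizer_iff.mp hzC.2 a ha
    have hcop' : Nat.Coprime (orderOf a) (Nat.card H) :=
      Nat.Coprime.coprime_dvd_left (Subgroup.orderOf_dvd_natCard _ ha) hcop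
    have h1 := Cfsg.Agent.Helper10.commutator_eq_one_of_coprime (x : G) a _ (Nat.card H) rfl hza
      (orderOf_dvd_iff_pow_eq_one.mp (Subgroup.orderOf_dvd_natCard _ hzH)) hcop'
    have : a * (x : G) = ((x : G) * a * (x : G)⁻¹ * a⁻¹)⁻¹ * ((x : G) * a) := by group
    rw [this, h1, inv_one, one_mul]
  rw [Subgroup.subgroupOf_eq_top] at hK
  rw [Subgroup.le_centralizer_iff]
  exact hK.trans inf_le_right

end Cfsg.Agent.S1442
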