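import Cfsg.Statements.S1446
import Mathlib
import Cfsg.Agent.Helper10.FrobFin
import Cfsg.Agent.Helper10.FrobCycN
-- import your own Cfsg.Agent.* helpers here

set_option autoImplicit false
open Cfsg

namespace Cfsg.Agent.S1446



/-- Let X be a finite group with subgroups K, R, M such that: K and R are nontrivial, K ∩ R = 1, R normalizes K, no non-identity element of R centralizes a non-identity element of K, K ⊔ R is solvable of odd order; M is nilpotent and nontrivial, normalized by K and by R, with order coprime to that of K ⊔ R, M ∩ C(K) = 1, and M ∩ C(x) = M ∩ C(R) for all non-identity x ∈ R. Then R has prime order p, #M = #(M ∩ C(R)) ^ p, and if M ∩ C(R) is cyclic then [K, K] centralizes M. -/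
theorem result {X : Type*} [Group X] [Finite X] (K R M : Subgroup X) (hK1 : K ≠ ⊥) (hR1 : R ≠ ⊥) (hKR : K ⊓ R = ⊥)
    (hRK : R ≤ Subgroup.normalizer (K : Set X)) (hfrob : ∀ r ∈ R, r ≠ 1 → K ⊓ Subgroup.centralizer ({r} : Set X) = ⊥)
    (hsolv : Group.IsSolvable ↥(K ⊔ R)) (hodd : Odd (Nat.card ↥(K ⊔ R)))
    (hM1 : M ≠ ⊥) (hMn : Group.IsNilpotent M) (hKM : K ≤ Subgroup.normalizer (M : Set X)) (hRM : R ≤ Subgroup.normalizer (M : Set X))
    (hcop : (Nat.card ↥(K ⊔ R)).Coprime (Nat.card M)) (hCK : M ⊓ Subgroup.centralizer (K : Set X) = ⊥)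
    (hpr : ∀ x ∈ R, x ≠ 1 → M ⊓ Subgroup.centralizer ({x} : Set X) = M ⊓ Subgroup.centralizer (R : Set X)) :
    (Nat.card R).Prime ∧ Nat.card M = Nat.card ↥(M ⊓ Subgroup.centralizer (R : Set X)) ^ Nat.card R ∧
      (IsCyclic ↥(M ⊓ Subgroup.centralizer (R : Set X)) → ⁅K, K⁆ ≤ Subgroup.centralizer (M : Set X)) := by
  have hUn : ∀ e ∈ R, ∀ u ∈ K, e * u * e⁻¹ ∈ K :=
    fun e he u hu => (Subgroup.mem_normalizer_iff.mp (hRK he) u).mp hu
  have hfpf : ∀ e ∈ R, e ≠ 1 → ∀ u ∈ K, e * u = u * e → u = 1 := by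
    intro e he hne u hu hcomm
    have h1 : u ∈ K ⊓ Subgroup.centralizer ({e} : Set X) :=
      ⟨hu, Subgroup.mem_centralizer_iff.mpr (fun h hh => by
        rw [Set.mem_singleton_iff.mp hh]; exact hcomm)⟩
    rw [hfrob e he hne] at h1
    exact Subgroup.mem_bot.mp h1
  have hKRM : K ⊔ R ≤ Subgroup.normalizer (M : Set X) := sup_le hKM hRM
  have hHn : ∀ x ∈ K ⊔ R, ∀ h ∈ M, x * h * x⁻¹ ∈ M :=
    fun x hx h hh => (Subgroup.mem_normalizer_iff.mp (hKRM hx) h).mp hh
  haveI := hMn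
  have hsolvM : Group.IsSolvable ↥M := inferInstance
  have hform : ∀ E : Subgroup X, E ≤ R → E ≠ ⊥ →
      Nat.card M = Nat.card ↥(M ⊓ Subgroup.centralizer (E : Set X)) ^ Nat.card E := by
    intro E hER hE1
    have hKE : K ⊔ E ≤ K ⊔ R := sup_le_sup_left hER K
    have h1 := Cfsg.Agent.Helper10.frob_final K E M hE1 (fun e he => hUn e (hER he))
      (fun e he => hfpf e (hER he)) (fun x hx => hHn x (hKE hx)) hsolvM
      (Nat.Coprime.coprime_dvd_right (Subgroup.card_dvd_of_le hKE) hcop.symm)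
    have h2 : M ⊓ Subgroup.centralizer ((K ⊔ E : Subgroup X) : Set X) = ⊥ := by
      rw [eq_bot_iff, ← hCK]
      exact inf_le_inf_left M (Subgroup.centralizer_le
        (SetLike.coe_subset_coe.mpr (le_sup_left : K ≤ K ⊔ E)))
    rw [h2, hCK, Subgroup.card_bot, one_pow, one_mul, mul_one] at h1
    exact h1
  have h2R := hform R le_rfl hR1
  have hcardR : Nat.card R ≠ 1 := fun h => hR1 (Subgroup.card_eq_one.mp h)
  obtain ⟨r, hr, hrdvd⟩ := Nat.exists_prime_and_dvd hcardR
  haveI : Fact r.Prime := ⟨hr⟩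
  obtain ⟨x, hx⟩ := exists_prime_orderOf_dvd_card' r hrdvd
  have hx0 : orderOf (x : X) = r := by rw [Subgroup.orderOf_coe]; exact hx
  have hx1 : (x : X) ≠ 1 := by
    intro h
    rw [h, orderOf_one] at hx0
    exact hr.one_lt.ne hx0
  have hzR : Subgroup.zpowers (x : X) ≤ R := by rw [Subgroup.zpowers_le]; exact x.2
  have hzne : Subgroup.zpowers (x : X) ≠ ⊥ := by
    rw [Ne, Subgroup.zpowers_eq_bot]; exact hx1
  have h3 := hform (Subgroup.zpowers (x : X)) hzR hzne
  have hcz : M ⊓ Subgroup.centralizer ((Subgroup.zpowers (x : X) : Subgroup X) : Set X)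
      = M ⊓ Subgroup.centralizer (R : Set X) := by
    rw [← hpr x x.2 hx1]
    congr 1
    ext m
    rw [Subgroup.mem_centralizer_iff, Subgroup.mem_centralizer_iff]
    constructor
    · intro h g hg
      rw [Set.mem_singleton_iff.mp hg]
      exact h x (Subgroup.mem_zpowers _)
    · intro h g hg
      obtain ⟨k, rfl⟩ := Subgroup.mem_zpowers_iff.mp hg
      have hc : Commute (x : X) m := h x (Set.mem_singleton _)
      exact (hc.zpow_left k).eq
  rw [hcz, Nat.card_zpowers, hx0] at h3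
  have hM1' : Nat.card M ≠ 1 := fun h => hM1 (Subgroup.card_eq_one.mp h)
  have hc2 : 2 ≤ Nat.card ↥(M ⊓ Subgroup.centralizer (R : Set X)) := by
    by_contra hlt
    have hpos : 0 < Nat.card ↥(M ⊓ Subgroup.centralizer (R : Set X)) := Nat.card_pos
    have h1 : Nat.card ↥(M ⊓ Subgroup.centralizer (R : Set X)) = 1 := by omega
    rw [h1, one_pow] at h3
    exact hM1' h3
  have hrR : r = Nat.card R := Nat.pow_right_injective hc2 (h3.symm.trans h2R)
  refine ⟨hrR ▸ hr, h2R, ?_⟩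
  intro hcyc
  have hKnil := Cfsg.Agent.Helper10.frob_kernel_nilpotent K R hR1 hUn hfpf
  exact Cfsg.Agent.Helper10.frob_cyc_gen M K R hKM hRM hMn hUn hfpf hKnil hcop hcyc

end Cfsg.Agent.S1446
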