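import Cfsg.Statements.S1447
-- import your own Cfsg.Agent.* helpers here
import Mathlib
import Cfsg.Agent.Helper11.MetaAct
import Cfsg.Agent.Helper1.Coprime
import Cfsg.Agent.Helper10.HallComm

set_option autoImplicit false
open Cfsg

namespace Cfsg.Agent.S1447

open scoped commutatorElement

/-- Let G be a finite group, p an odd prime, R a metacyclic p-subgroup and A a subgroup of order coprime to p normalizing R. Then [R, A] is abelian; R is generated by [R, A] and R ∩ C_G(A), which meet trivially; and if R is non-abelian and A does not centralize R, then [R, A] and R ∩ C_G(A) are nontrivial cyclic groups and [R, R] ≤ [R, A]. -/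
theorem result {G : Type*} [Group G] [Finite G] (p : ℕ) [Fact p.Prime] (hp : p ≠ 2) (R A : Subgroup G) (hR : IsPGroup p R) (hRm : Cfsg.IsMetacyclic R)
    (hA : (A ≤ Subgroup.normalizer (R : Set G))) (hcop : (Nat.card A).Coprime p) :
    IsMulCommutative ↥⁅R, A⁆ ∧ ⁅R, A⁆ ⊔ (R ⊓ Subgroup.centralizer (A : Set G)) = R ∧ ⁅R, A⁆ ⊓ (R ⊓ Subgroup.centralizer (A : Set G)) = ⊥ ∧
      (¬ IsMulCommutative R → ¬ A ≤ Subgroup.centralizer (R : Set G) →
        ⁅R, A⁆ ≠ ⊥ ∧ IsCyclic ↥⁅R, A⁆ ∧ (R ⊓ Subgroup.centralizer (A : Set G)) ≠ ⊥ ∧ IsCyclic ↥(R ⊓ Subgroup.centralizer (A : Set G)) ∧ ⁅R, R⁆ ≤ ⁅R, A⁆) := by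
  classical
  have hpp : p.Prime := Fact.out
  generalize hK : ⁅R, A⁆ = K
  generalize hC : R ⊓ Subgroup.centralizer (A : Set G) = C
  have hKR : K ≤ R := by
    rw [← hK]; exact Cfsg.Agent.Helper1.commutator_le_of_le_normalizer R A hA
  have hCR : C ≤ R := by rw [← hC]; exact inf_le_left
  have hAK : A ≤ Subgroup.normalizer (K : Set G) := by
    rw [← hK]
    exact Cfsg.Agent.Helper1.le_normalizer_commutator R A A hA Subgroup.le_normalizer
  obtain ⟨n, hn⟩ := IsPGroup.iff_card.1 hR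
  have hcopR : (Nat.card A).Coprime (Nat.card R) := by
    rw [hn]; exact Nat.Coprime.pow_right n hcop
  haveI hnil : Group.IsNilpotent ↥R := hR.isNilpotent
  have hsolvR : Group.IsSolvable ↥R := inferInstance
  -- decomposition `R = K * C`
  have hdec : ∀ x ∈ R, ∃ k ∈ K, ∃ c ∈ C, x = k * c := by
    intro x hx
    have h1 : ∀ a ∈ A, x⁻¹⁻¹ * a * x⁻¹ * a⁻¹ ∈ K := by
      intro a ha
      have h2 : x⁻¹⁻¹ * a * x⁻¹ * a⁻¹ = ⁅x, a⁆ := by rw [commutatorElement_def]; group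
      rw [h2, ← hK]
      exact Subgroup.commutator_mem_commutator hx ha
    obtain ⟨d, hd, hdc⟩ := Cfsg.Agent.Helper1.coprime_coset_fixed A R K hA hAK hKR hcopR
      (Or.inr hsolvR) x⁻¹ (R.inv_mem hx) h1
    refine ⟨d, hd, (x⁻¹ * d)⁻¹, ?_, by group⟩
    rw [← hC]
    exact Subgroup.mem_inf.2 ⟨R.inv_mem (R.mul_mem (R.inv_mem hx) (hKR hd)),
      Subgroup.inv_mem _ hdc⟩
  have h2 : K ⊔ C = R := by
    apply le_antisymm (sup_le hKR hCR)
    intro x hx
    obtain ⟨k, hk, c, hc, rfl⟩ := hdec x hx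
    exact Subgroup.mul_mem _ (Subgroup.mem_sup_left hk) (Subgroup.mem_sup_right hc)
  have hKA : ⁅K, A⁆ = K := by
    apply le_antisymm (Cfsg.Agent.Helper1.commutator_le_of_le_normalizer K A hAK)
    have h3 : ⁅R, A⁆ ≤ ⁅K, A⁆ := by
      rw [Subgroup.commutator_le]
      intro x hx a ha
      obtain ⟨k, hk, c, hc, rfl⟩ := hdec x hx
      have hca : Commute c a := by
        rw [← hC] at hc
        exact ((Subgroup.mem_centralizer_iff.1 (Subgroup.mem_inf.1 hc).2) a ha).symm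
      have e : ⁅k * c, a⁆ = ⁅k, a⁆ := by
        rw [commutatorElement_def, commutatorElement_def]
        have e1 : c * a * c⁻¹ = a := by rw [hca.eq, mul_inv_cancel_right]
        calc k * c * a * (k * c)⁻¹ * a⁻¹ = k * (c * a * c⁻¹) * k⁻¹ * a⁻¹ := by group
          _ = k * a * k⁻¹ * a⁻¹ := by rw [e1]
      rw [e]
      exact Subgroup.commutator_mem_commutator hk ha
    rw [hK] at h3
    exact h3
  have hKp : IsPGroup p ↥K := hR.to_le hKR
  have hKm : Cfsg.IsMetacyclic ↥K := by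
    have h3 : Cfsg.IsMetacyclic ↥(K.subgroupOf R) :=
      Cfsg.Agent.Helper11.ma_meta_sub hRm (K.subgroupOf R)
    exact Cfsg.Agent.Helper11.ma_meta_surj h3 (Subgroup.subgroupOfEquivOfLe hKR).toMonoidHom
      (Subgroup.subgroupOfEquivOfLe hKR).surjective
  obtain ⟨hKab, hKC⟩ := Cfsg.Agent.Helper11.ma_wrap hp K A hKp hKm hAK hcop hKA
  have h1 : IsMulCommutative ↥K := ⟨⟨fun a b => Subtype.ext (hKab a.1 a.2 b.1 b.2)⟩⟩
  have h3 : K ⊓ C = ⊥ := by
    rw [eq_bot_iff, ← hKC, ← hC]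
    exact inf_le_inf_left K inf_le_right
  refine ⟨h1, h2, h3, ?_⟩
  intro hRna hAnc
  have hK1 : K ≠ ⊥ := by
    intro hKb
    apply hAnc
    intro a ha
    rw [Subgroup.mem_centralizer_iff]
    intro r hr
    have h4 : ⁅r, a⁆ ∈ K := by rw [← hK]; exact Subgroup.commutator_mem_commutator hr ha
    rw [hKb, Subgroup.mem_bot, commutatorElement_eq_one_iff_commute] at h4
    exact h4.eq
  have hC1 : C ≠ ⊥ := by
    intro hCb
    apply hRna
    rw [hCb, sup_bot_eq] at h2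
    have hRK : R ≤ K := le_of_eq h2.symm
    exact ⟨⟨fun a b => Subtype.ext (hKab a.1 (hRK a.2) b.1 (hRK b.2))⟩⟩
  have hKcyc : IsCyclic ↥K := Cfsg.Agent.Helper11.ma_cyc hp R hR hRm K C hKR hCR h3 hC1
  have hCcyc : IsCyclic ↥C :=
    Cfsg.Agent.Helper11.ma_cyc hp R hR hRm C K hCR hKR (by rw [inf_comm]; exact h3) hK1
  have hCab : ∀ x ∈ C, ∀ y ∈ C, x * y = y * x := by
    intro x hx y hy
    haveI := hCcyc
    obtain ⟨g, hg⟩ := IsCyclic.exists_generator (α := ↥C)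
    obtain ⟨i, hi⟩ := Subgroup.mem_zpowers_iff.1 (hg ⟨x, hx⟩)
    obtain ⟨j, hj⟩ := Subgroup.mem_zpowers_iff.1 (hg ⟨y, hy⟩)
    have h5 : (⟨x, hx⟩ : ↥C) * ⟨y, hy⟩ = ⟨y, hy⟩ * ⟨x, hx⟩ := by
      rw [← hi, ← hj]; exact ((Commute.refl g).zpow_zpow i j).eq
    exact congrArg Subtype.val h5
  have hKnorm : ∀ r ∈ R, ∀ k ∈ K, r * k * r⁻¹ ∈ K := by
    intro r hr k hk
    rw [← hK] at hk ⊢
    exact Cfsg.Agent.Helper10.conj_mem_commutator_of_mem_left R A hr hk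
  have h5 : ⁅R, R⁆ ≤ K := by
    rw [Subgroup.commutator_le]
    intro x hx y hy
    obtain ⟨k, hk, c, hc, rfl⟩ := hdec x hx
    obtain ⟨k', hk', c', hc', rfl⟩ := hdec y hy
    have hcc : c * c' = c' * c := hCab c hc c' hc'
    have e1 : c * c' * c⁻¹ = c' := by rw [hcc, mul_inv_cancel_right]
    have e : ⁅k * c, k' * c'⁆ = k * (c * k' * c⁻¹) * (c' * k⁻¹ * c'⁻¹) * k'⁻¹ := by
      rw [commutatorElement_def]
      calc k * c * (k' * c') * (k * c)⁻¹ * (k' * c')⁻¹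
          = k * (c * k' * c⁻¹) * (c * c' * c⁻¹) * k⁻¹ * c'⁻¹ * k'⁻¹ := by group
        _ = k * (c * k' * c⁻¹) * c' * k⁻¹ * c'⁻¹ * k'⁻¹ := by rw [e1]
        _ = k * (c * k' * c⁻¹) * (c' * k⁻¹ * c'⁻¹) * k'⁻¹ := by group
    rw [e]
    exact K.mul_mem (K.mul_mem (K.mul_mem hk (hKnorm c (hCR hc) k' hk'))
      (hKnorm c' (hCR hc') _ (K.inv_mem hk))) (K.inv_mem hk')
  exact ⟨hK1, hKcyc, hC1, hCcyc, h5⟩

end Cfsg.Agent.S1447
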