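import Cfsg.Statements.S1457
import Cfsg.Agent.S1465
import Cfsg.Agent.Helper9.PComp
import Cfsg.Agent.Helper27.Basic
-- import your own Cfsg.Agent.* helpers here

set_option autoImplicit false
open Cfsg

namespace Cfsg.Agent.S1457



/-- Let G be a solvable group of odd order, p a prime, S a Sylow p-subgroup of G and A an abelian subgroup of S normal in S. Then A ≤ O_{p',p}(G). -/
theorem result {G : Type*} [Group G] [Finite G] [Group.IsSolvable G] (hodd : Odd (Nat.card G)) (p : ℕ) [Fact p.Prime] (S : Sylow p G) (A : Subgroup G) (hA : A ≤ (S : Subgroup G)) (hAc : IsMulCommutative A)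
    (hAn : (S : Subgroup G) ≤ Subgroup.normalizer (A : Set G)) :
    A ≤ Cfsg.pPrimePCore p G := by
  classical
  have hpp : p.Prime := Fact.out
  by_cases hp2 : p = 2
  · subst hp2
    have hS1 : (S : Subgroup G) = ⊥ := by
      have hSp : IsPGroup 2 (S : Subgroup G) := S.isPGroup'
      obtain ⟨n, hn⟩ := IsPGroup.iff_card.1 hSp
      have hdvd : Nat.card (S : Subgroup G) ∣ Nat.card G := Subgroup.card_subgroup_dvd_card _
      have hodd' : Odd (Nat.card (S : Subgroup G)) := hodd.of_dvd_nat hdvd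
      rw [hn] at hodd'
      have hn0 : n = 0 := by
        by_contra h
        exact (Nat.not_even_iff_odd.2 hodd') (Nat.even_pow.2 ⟨even_two, h⟩)
      rw [hn0, pow_zero] at hn
      exact Subgroup.card_eq_one.1 hn
    intro a ha
    have h1 : a ∈ (S : Subgroup G) := hA ha
    rw [hS1, Subgroup.mem_bot] at h1
    rw [h1]; exact Subgroup.one_mem _
  · obtain ⟨K, hK⟩ : ∃ K : Subgroup G, K = Cfsg.pPrimeCore p G := ⟨_, rfl⟩
    haveI hKn : K.Normal := hK ▸ Cfsg.pPrimeCore_normal p G
    have hdef : Cfsg.pPrimePCore p G = (Cfsg.pCore p (G ⧸ K)).comap (QuotientGroup.mk' K) := by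
      subst hK; rfl
    rw [hdef]
    have hoddq : Odd (Nat.card (G ⧸ K)) := hodd.of_dvd_nat (Subgroup.card_quotient_dvd_card K)
    have hsurj : Function.Surjective (QuotientGroup.mk' K) := QuotientGroup.mk'_surjective K
    haveI hPn : (Cfsg.pCore p (G ⧸ K)).Normal := Cfsg.Agent.Helper27.pCore_normal' p (G ⧸ K)
    have hPp : IsPGroup p (Cfsg.pCore p (G ⧸ K)) := Cfsg.Agent.Helper27.pCore_isPGroup p (G ⧸ K)
    have hbot : Cfsg.pPrimeCore p (G ⧸ K) = ⊥ := by
      subst hK; exact Cfsg.Agent.Helper9.pPrimeCore_quotient_eq_bot p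
    have hAb : ∀ B ∈ ({A.map (QuotientGroup.mk' K)} : Set (Subgroup (G ⧸ K))),
        IsMulCommutative B ∧ IsPGroup p B ∧
          Cfsg.pCore p (G ⧸ K) ≤ Subgroup.normalizer (B : Set (G ⧸ K)) := by
      intro B hB
      rw [Set.mem_singleton_iff] at hB
      subst hB
      refine ⟨?_, ?_, ?_⟩
      · refine ⟨⟨?_⟩⟩
        rintro ⟨_, a, ha, rfl⟩ ⟨_, b, hb, rfl⟩
        apply Subtype.ext
        show QuotientGroup.mk' K a * QuotientGroup.mk' K b =
          QuotientGroup.mk' K b * QuotientGroup.mk' K a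
        have h3 := mul_comm' (⟨a, ha⟩ : A) ⟨b, hb⟩
        have h4 : a * b = b * a := congrArg Subtype.val h3
        rw [← map_mul, ← map_mul, h4]
      · exact (S.isPGroup'.to_le hA).map _
      · have h1 : Cfsg.pCore p (G ⧸ K) ≤
            ((S.mapSurjective hsurj : Sylow p (G ⧸ K)) : Subgroup (G ⧸ K)) :=
          hPp.le_sylow_of_normal _
        rw [Sylow.coe_mapSurjective] at h1
        refine h1.trans ?_
        rintro _ ⟨s, hs, rfl⟩
        rw [Subgroup.mem_normalizer_iff]
        intro x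
        have hs' := Subgroup.mem_normalizer_iff.1 (hAn hs)
        constructor
        · rintro ⟨a, ha, rfl⟩
          exact ⟨s * a * s⁻¹, (hs' a).1 ha, by simp⟩
        · rintro ⟨b, hb, hbx⟩
          refine ⟨s⁻¹ * b * s, ?_, ?_⟩
          · apply (hs' (s⁻¹ * b * s)).2
            have h5 : s * (s⁻¹ * b * s) * s⁻¹ = b := by group
            rw [h5]; exact hb
          · rw [map_mul, map_mul, hbx, map_inv]; group
    have key := (Cfsg.Agent.S1465.result hoddq p hp2 (Cfsg.pCore p (G ⧸ K)) hPp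
      {A.map (QuotientGroup.mk' K)} hAb).2 hbot inf_le_left
    rw [sSup_singleton] at key
    exact Subgroup.map_le_iff_le_comap.1 key

end Cfsg.Agent.S1457
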