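import Cfsg.Statements.S1458
import Cfsg.Agent.Helper10.FullZJ
import Cfsg.Agent.Helper10.PStabOdd
import Cfsg.Agent.Helper9.PComp
import Cfsg.Agent.Helper20.HallHigman
import Cfsg.Agent.Helper20.SolvPSolv
import Cfsg.Agent.Helper21.NPC
-- import your own Cfsg.Agent.* helpers here

set_option autoImplicit false
open Cfsg

namespace Cfsg.Agent.S1458



/-- Let G be a solvable group of odd order, p a prime and S a Sylow p-subgroup of G. Then the subgroup generated by the centre of the Thompson subgroup of S and O_{p'}(G) is normal in G. -/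
theorem result {G : Type*} [Group G] [Finite G] [Group.IsSolvable G] (hodd : Odd (Nat.card G)) (p : ℕ) [Fact p.Prime] (S : Sylow p G) :
    (Cfsg.centerThompsonOf p (S : Subgroup G) ⊔ Cfsg.pPrimeCore p G).Normal := by
  classical
  have hpp : p.Prime := Fact.out
  have hKn : (Cfsg.pPrimeCore p G).Normal := Cfsg.pPrimeCore_normal p G
  have hCT : Cfsg.centerThompsonOf p (S : Subgroup G) =
      Cfsg.Agent.Helper10.fullZ p (S : Subgroup G) :=
    Cfsg.Agent.Helper10.centerThompsonOf_eq_fullZ p _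
  by_cases hp2 : p = 2
  · subst hp2
    have hS1 : (S : Subgroup G) = ⊥ := by
      have hSp : IsPGroup 2 (S : Subgroup G) := S.isPGroup'
      obtain ⟨n, hn⟩ := IsPGroup.iff_card.1 hSp
      have hdvd : Nat.card (S : Subgroup G) ∣ Nat.card G := Subgroup.card_subgroup_dvd_card _
      have hodd' : Odd (Nat.card (S : Subgroup G)) := hodd.of_dvd_nat hdvd
      rw [hn] at hodd'
      have hn0 : n = 0 := by
        by_contra h
        exact (Nat.not_even_iff_odd.2 hodd') (Nat.even_pow.2 ⟨even_two, h⟩)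
      rw [hn0, pow_zero] at hn
      exact Subgroup.card_eq_one.1 hn
    have h1 : Cfsg.centerThompsonOf 2 (S : Subgroup G) = ⊥ := by
      rw [hCT, eq_bot_iff, ← hS1]
      exact inf_le_left.trans (Cfsg.Agent.Helper1.JE_le 2 _)
    rw [h1, bot_sup_eq]; exact hKn
  · obtain ⟨K, hK⟩ : ∃ K : Subgroup G, K = Cfsg.pPrimeCore p G := ⟨_, rfl⟩
    rw [← hK] at hKn ⊢
    haveI := hKn
    have hoddq : Odd (Nat.card (G ⧸ K)) := hodd.of_dvd_nat (Subgroup.card_quotient_dvd_card K)
    have hsurj : Function.Surjective (QuotientGroup.mk' K) := QuotientGroup.mk'_surjective K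
    have hbot : Cfsg.pPrimeCore p (G ⧸ K) = ⊥ := by
      subst hK; exact Cfsg.Agent.Helper9.pPrimeCore_quotient_eq_bot p
    have hsol : Cfsg.IsPSolvable p (G ⧸ K) := Cfsg.Agent.Helper20.PLen.isPSolvable_of_isSolvable p
    have hcent := Cfsg.Agent.Helper20.PLen.centralizer_pCore_le_of_psolvable p hsol hbot
    obtain ⟨Sb, hSb⟩ : ∃ Sb : Sylow p (G ⧸ K),
        (Sb : Subgroup (G ⧸ K)) = (S : Subgroup G).map (QuotientGroup.mk' K) :=
      ⟨S.mapSurjective hsurj, Sylow.coe_mapSurjective _ S⟩
    have hn : (Cfsg.Agent.Helper10.fullZ p (Sb : Subgroup (G ⧸ K))).Normal := by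
      apply Cfsg.Agent.Helper10.fullZ_normal hp2 Sb hcent
      intro V hVn hV a ha hq
      exact Cfsg.Agent.Helper10.pstab_odd_normal hoddq p hp2 V hV
        (Subgroup.centralizer (V : Set (G ⧸ K)))
        (fun g hg => by
          rw [Subgroup.mem_centralizer_iff]
          intro u hu
          exact (mul_inv_eq_iff_eq_mul.1 (hg u hu)).symm) a
        (Cfsg.Agent.Helper10.quad_of_commutator V (Subgroup.zpowers a) hq a
          (Subgroup.mem_zpowers a))
    have hKc : (Nat.card K).Coprime p := by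
      rw [hK]; exact Cfsg.Agent.Helper9.pPrimeCore_coprime p
    have hinj : ∀ x ∈ (S : Subgroup G), QuotientGroup.mk' K x = 1 → x = 1 := fun x hx h1 =>
      Cfsg.Agent.Helper21.eq_one_of_mem_pgroup_of_mem_coprime S.isPGroup' hKc hx
        (Cfsg.Agent.Helper1.mk'_eq_one_iff'.mp h1)
    rw [hSb, Cfsg.Agent.Helper10.fullZ_map_of_injOn p (QuotientGroup.mk' K) (S : Subgroup G)
      hinj] at hn
    have h2 : (((Cfsg.Agent.Helper10.fullZ p (S : Subgroup G)).map (QuotientGroup.mk' K)).comap
        (QuotientGroup.mk' K)).Normal := hn.comap _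
    rw [Subgroup.comap_map_eq, QuotientGroup.ker_mk'] at h2
    rw [hCT]; exact h2

end Cfsg.Agent.S1458
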