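import Cfsg.Statements.S1460
import Cfsg.Agent.Helper10.CoprimeConj
import Cfsg.Agent.Helper10.CyclicCompl
-- import your own Cfsg.Agent.* helpers here

set_option autoImplicit false
open Cfsg

namespace Cfsg.Agent.S1460



/-- Let G be a finite solvable group, K a normal subgroup and U a subgroup with G = KU, and H ≤ U a subgroup whose order is coprime to that of K. Then H ∩ G' = H ∩ U'; N_G(H) is generated by K ∩ C_G(H) and U ∩ N_G(H); and if gHg⁻¹ ≤ U for some g ∈ G then g = u c with u ∈ U and c ∈ K ∩ C_G(H). -/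
theorem result {G : Type*} [Group G] [Finite G] [Group.IsSolvable G] (K U H : Subgroup G) [K.Normal] (hKU : K ⊔ U = ⊤) (hH : H ≤ U) (hcop : (Nat.card H).Coprime (Nat.card K)) :
    H ⊓ commutator G = H ⊓ ⁅U, U⁆ ∧
      Subgroup.normalizer (H : Set G) = (K ⊓ Subgroup.centralizer (H : Set G)) ⊔ (U ⊓ Subgroup.normalizer (H : Set G)) ∧
      ∀ g : G, H.map (MulAut.conj g).toMonoidHom ≤ U → ∃ u ∈ U, ∃ c ∈ K ⊓ Subgroup.centralizer (H : Set G), g = u * c := by
  classical
  have hKn : K.Normal := inferInstance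
  have hmulKU : ∀ g : G, ∃ k ∈ K, ∃ u ∈ U, k * u = g := by
    intro g
    have hg : g ∈ ((K ⊔ U : Subgroup G) : Set G) := by
      rw [hKU]
      exact Set.mem_univ g
    rw [Subgroup.normal_mul] at hg
    exact Set.mem_mul.1 hg
  have hKH : ∀ x, x ∈ K → x ∈ H → x = 1 := by
    intro x hxK hxH
    have h1 : orderOf x ∣ Nat.card K := Subgroup.orderOf_dvd_natCard K hxK
    have h2 : orderOf x ∣ Nat.card H := Subgroup.orderOf_dvd_natCard H hxH
    exact orderOf_eq_one_iff.1 (Nat.eq_one_of_dvd_coprimes hcop h2 h1)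
  have hcent : ∀ c ∈ K, (∀ h ∈ H, c * h * c⁻¹ ∈ H) →
      c ∈ Subgroup.centralizer (H : Set G) := by
    intro c hc hn
    rw [Subgroup.mem_centralizer_iff]
    intro h hh
    have h1 : c * h * c⁻¹ * h⁻¹ = 1 := by
      apply hKH
      · have e : c * h * c⁻¹ * h⁻¹ = c * (h * c⁻¹ * h⁻¹) := by group
        rw [e]
        exact K.mul_mem hc (hKn.conj_mem c⁻¹ (K.inv_mem hc) h)
      · exact H.mul_mem (hn h hh) (H.inv_mem hh)
    have e : h * c = (c * h * c⁻¹ * h⁻¹)⁻¹ * (c * h) := by group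
    rw [e, h1]
    simp
  have hc : ∀ g : G, H.map (MulAut.conj g).toMonoidHom ≤ U →
      ∃ u ∈ U, ∃ c ∈ K ⊓ Subgroup.centralizer (H : Set G), g = u * c := by
    intro g hg
    obtain ⟨k', hk', u', hu', hku⟩ := hmulKU g⁻¹
    obtain ⟨u, hudef⟩ : ∃ u : G, u = u'⁻¹ := ⟨_, rfl⟩
    obtain ⟨k, hkdef⟩ : ∃ k : G, k = k'⁻¹ := ⟨_, rfl⟩
    have hu : u ∈ U := by rw [hudef]; exact U.inv_mem hu'
    have hk : k ∈ K := by rw [hkdef]; exact K.inv_mem hk'
    have hgeq : g = u * k := by
      have e : g = (g⁻¹)⁻¹ := (inv_inv g).symm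
      rw [e, ← hku, hudef, hkdef]
      group
    have hkH : ∀ h ∈ H, k * h * k⁻¹ ∈ U := by
      intro h hh
      have h1 : g * h * g⁻¹ ∈ U := hg (Subgroup.mem_map.2 ⟨h, hh, rfl⟩)
      have e : k * h * k⁻¹ = u⁻¹ * (g * h * g⁻¹) * u := by
        rw [hgeq]
        group
      rw [e]
      exact U.mul_mem (U.mul_mem (U.inv_mem hu) h1) hu
    obtain ⟨d, hd, hdS⟩ := Helper10.exists_conj_le_of_coprime (K ⊓ U) H
      (H.map (MulAut.conj k).toMonoidHom)
      (by
        intro a ha d hd
        obtain ⟨hd1, hd2⟩ := Subgroup.mem_inf.1 hd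
        exact Subgroup.mem_inf.2 ⟨hKn.conj_mem d hd1 a,
          U.mul_mem (U.mul_mem (hH ha) hd2) (U.inv_mem (hH ha))⟩)
      (Nat.Coprime.coprime_dvd_right (Subgroup.card_dvd_of_le inf_le_left) hcop)
      (Or.inl inferInstance)
      (by
        intro a ha
        refine ⟨k * a * k⁻¹ * a⁻¹, Subgroup.mem_inf.2 ⟨?_, ?_⟩, ?_⟩
        · have e : k * a * k⁻¹ * a⁻¹ = k * (a * k⁻¹ * a⁻¹) := by group
          rw [e]
          exact K.mul_mem hk (hKn.conj_mem k⁻¹ (K.inv_mem hk) a)
        · exact U.mul_mem (hkH a ha) (U.inv_mem (hH ha))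
        · refine Subgroup.mem_map.2 ⟨a, ha, ?_⟩
          show k * a * k⁻¹ = k * a * k⁻¹ * a⁻¹ * a
          group)
    have hcn : ∀ h ∈ H, (k⁻¹ * d) * h * (k⁻¹ * d)⁻¹ ∈ H := by
      intro h hh
      obtain ⟨h', hh', he⟩ := Subgroup.mem_map.1 (hdS h hh)
      have he' : k * h' * k⁻¹ = d * h * d⁻¹ := he
      have e : (k⁻¹ * d) * h * (k⁻¹ * d)⁻¹ = k⁻¹ * (d * h * d⁻¹) * k := by group
      rw [e, ← he']
      have e2 : k⁻¹ * (k * h' * k⁻¹) * k = h' := by group
      rw [e2]
      exact hh'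
    have hdK := (Subgroup.mem_inf.1 hd).1
    have hdU := (Subgroup.mem_inf.1 hd).2
    have hcK : k⁻¹ * d ∈ K := K.mul_mem (K.inv_mem hk) hdK
    have hcc := hcent _ hcK hcn
    refine ⟨u * d, U.mul_mem hu hdU, (k⁻¹ * d)⁻¹,
      Subgroup.mem_inf.2 ⟨K.inv_mem hcK, Subgroup.inv_mem _ hcc⟩, ?_⟩
    rw [hgeq]
    group
  refine ⟨?_, ?_, hc⟩
  · apply le_antisymm
    · intro h hh
      obtain ⟨hhH, hhG⟩ := Subgroup.mem_inf.1 hh
      refine Subgroup.mem_inf.2 ⟨hhH, ?_⟩
      have hmapU : Subgroup.map (QuotientGroup.mk' K) U = ⊤ := by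
        rw [eq_top_iff]
        intro q _
        obtain ⟨g, rfl⟩ := QuotientGroup.mk_surjective q
        obtain ⟨k, hk, u, hu, rfl⟩ := hmulKU g
        refine Subgroup.mem_map.2 ⟨u, hu, ?_⟩
        show ((u : G) : G ⧸ K) = ((k * u : G) : G ⧸ K)
        rw [QuotientGroup.eq]
        have e : u⁻¹ * (k * u) = u⁻¹ * k * u⁻¹⁻¹ := by group
        rw [e]
        exact hKn.conj_mem k hk u⁻¹
      have h1 : (QuotientGroup.mk' K) h ∈ Subgroup.map (QuotientGroup.mk' K) ⁅U, U⁆ := by
        rw [Subgroup.map_commutator, hmapU]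
        have h2 : Subgroup.map (QuotientGroup.mk' K) (commutator G) ≤
            ⁅(⊤ : Subgroup (G ⧸ K)), ⊤⁆ := by
          have e : commutator G = ⁅(⊤ : Subgroup G), ⊤⁆ := rfl
          rw [e, Subgroup.map_commutator]
          exact Subgroup.commutator_mono le_top le_top
        exact h2 (Subgroup.mem_map_of_mem _ hhG)
      obtain ⟨u', hu', hpi⟩ := Subgroup.mem_map.1 h1
      have hkK : u'⁻¹ * h ∈ K := QuotientGroup.eq.1 hpi
      obtain ⟨k, hkdef⟩ : ∃ k : G, k = u'⁻¹ * h := ⟨_, rfl⟩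
      rw [← hkdef] at hkK
      have hu'U : u' ∈ U := Subgroup.commutator_le_self U hu'
      have hkU : k ∈ U := by
        rw [hkdef]
        exact U.mul_mem (U.inv_mem hu'U) (hH hhH)
      have hnorm : ∀ x ∈ U, ∀ n, n ∈ ⁅U, U⁆ → x * n * x⁻¹ ∈ ⁅U, U⁆ := by
        intro x hx n hn
        have hmapx : Subgroup.map (MulAut.conj x).toMonoidHom U = U := by
          ext y
          constructor
          · rintro ⟨z, hz, rfl⟩
            exact U.mul_mem (U.mul_mem hx hz) (U.inv_mem hx)
          · intro hy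
            refine ⟨x⁻¹ * y * x, U.mul_mem (U.mul_mem (U.inv_mem hx) hy) hx, ?_⟩
            show x * (x⁻¹ * y * x) * x⁻¹ = y
            group
        have h3 : (MulAut.conj x).toMonoidHom n ∈
            Subgroup.map (MulAut.conj x).toMonoidHom ⁅U, U⁆ := Subgroup.mem_map_of_mem _ hn
        rw [Subgroup.map_commutator, hmapx] at h3
        exact h3
      have hkn : k ∈ Subgroup.normalizer ((⁅U, U⁆ : Subgroup G) : Set G) := by
        rw [Subgroup.mem_normalizer_iff]
        intro n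
        constructor
        · exact hnorm k hkU n
        · intro hn
          have h4 := hnorm k⁻¹ (U.inv_mem hkU) _ hn
          have e : k⁻¹ * (k * n * k⁻¹) * k⁻¹⁻¹ = n := by group
          rw [e] at h4
          exact h4
      have hhk : h * k⁻¹ ∈ ⁅U, U⁆ := by
        have e : h * k⁻¹ = u' := by
          rw [hkdef]
          group
        rw [e]
        exact hu'
      have hpow := fun j => Helper10.coset_pow ⁅U, U⁆ k h hkn hhk j
      have hkpow : k ^ Nat.card K = 1 := by
        have h5 : (⟨k, hkK⟩ : K) ^ Nat.card K = 1 := pow_card_eq_one'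
        have h6 := congrArg (Subtype.val : K → G) h5
        rw [Subgroup.coe_pow, Subgroup.coe_one] at h6
        exact h6
      have hhpow : h ^ Nat.card H = 1 := by
        have h5 : (⟨h, hhH⟩ : H) ^ Nat.card H = 1 := pow_card_eq_one'
        have h6 := congrArg (Subtype.val : H → G) h5
        rw [Subgroup.coe_pow, Subgroup.coe_one] at h6
        exact h6
      rcases Nat.lt_or_ge 1 (Nat.card H) with hlt | hle
      · obtain ⟨t, -, ht⟩ := Nat.exists_mul_mod_eq_one_of_coprime hcop.symm hlt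
        have h7 := hpow (Nat.card K * t)
        rw [pow_mul k, hkpow, one_pow, inv_one, mul_one] at h7
        have h8 : h ^ (Nat.card K * t) = h := by
          have e := Nat.div_add_mod (Nat.card K * t) (Nat.card H)
          rw [ht] at e
          rw [← e, pow_add, pow_mul, hhpow, one_pow, one_mul, pow_one]
        rw [h8] at h7
        exact h7
      · have h9 : Nat.card H = 1 := le_antisymm hle Nat.card_pos
        rw [h9, pow_one] at hhpow
        rw [hhpow]
        exact Subgroup.one_mem _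
    · intro h hh
      obtain ⟨hhH, hhU⟩ := Subgroup.mem_inf.1 hh
      refine Subgroup.mem_inf.2 ⟨hhH, ?_⟩
      have e : commutator G = ⁅(⊤ : Subgroup G), ⊤⁆ := rfl
      rw [e]
      exact Subgroup.commutator_mono le_top le_top hhU
  · apply le_antisymm
    · intro g hg
      have hg' : H.map (MulAut.conj g).toMonoidHom ≤ U := by
        rintro y ⟨h, hh, rfl⟩
        exact hH ((Subgroup.mem_normalizer_iff.1 hg h).1 hh)
      obtain ⟨u, hu, c, hcm, hgeq⟩ := hc g hg'
      obtain ⟨hcK, hcC⟩ := Subgroup.mem_inf.1 hcm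
      have hcN : c ∈ Subgroup.normalizer (H : Set G) := Subgroup.centralizer_le_normalizer _ hcC
      have huN : u ∈ Subgroup.normalizer (H : Set G) := by
        have e : u = g * c⁻¹ := by
          rw [hgeq]
          group
        rw [e]
        exact Subgroup.mul_mem _ hg (Subgroup.inv_mem _ hcN)
      rw [hgeq]
      exact Subgroup.mul_mem _ (Subgroup.mem_sup_right (Subgroup.mem_inf.2 ⟨hu, huN⟩))
        (Subgroup.mem_sup_left hcm)
    · exact sup_le (inf_le_right.trans (Subgroup.centralizer_le_normalizer _)) inf_le_right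

end Cfsg.Agent.S1460
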