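import Cfsg.Statements.S1461
import Mathlib
import Cfsg.Agent.Helper20.PLengthOne

set_option autoImplicit false
open Cfsg
open scoped commutatorElement

namespace Cfsg.Agent.S1461

/-- Let G be a finite solvable group, p a prime with G = O_{p',p,p'}(G), and S a Sylow p-subgroup. Then: if S ≤ G' then S ≤ [N_G(S), N_G(S)]; if Y ⊆ S and xYx⁻¹ ⊆ S then x = g c for some g ∈ N_G(S) and c centralizing Y; and for every p-subgroup Q there is x ∈ C_G(Q ∩ S) with xQx⁻¹ ≤ S. -/
theorem result {G : Type*} [Group G] [Finite G] [Group.IsSolvable G] (p : ℕ) [Fact p.Prime] (hpl : Cfsg.PLengthLE p 1 G) (S : Sylow p G) :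
    ((S : Subgroup G) ≤ commutator G → (S : Subgroup G) ≤ ⁅Subgroup.normalizer ((S : Subgroup G) : Set G), Subgroup.normalizer ((S : Subgroup G) : Set G)⁆) ∧
      (∀ (Y : Set G) (x : G), Y ⊆ (S : Subgroup G) → (fun y => x * y * x⁻¹) '' Y ⊆ (S : Subgroup G) →
        ∃ g ∈ Subgroup.normalizer ((S : Subgroup G) : Set G), ∃ c ∈ Subgroup.centralizer Y, g * c = x) ∧
      ∀ Q : Subgroup G, IsPGroup p Q → ∃ x ∈ Subgroup.centralizer ((Q ⊓ (S : Subgroup G) : Subgroup G) : Set G), Q.map (MulAut.conj x).toMonoidHom ≤ (S : Subgroup G) := by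
  obtain ⟨K, hKn, hKc, hKS, hQle, hfrat⟩ :=
    Cfsg.Agent.Helper20.PLen.plength_one_structure p hpl S
  haveI := hKn
  have hcomm : ∀ k ∈ K, ∀ y ∈ (S : Subgroup G), k * y * k⁻¹ ∈ (S : Subgroup G) →
      y * k = k * y := by
    intro k hk y hy hkyk
    have h1 : k * y * k⁻¹ * y⁻¹ ∈ K ⊓ (S : Subgroup G) := by
      refine Subgroup.mem_inf.mpr ⟨?_, Subgroup.mul_mem _ hkyk (Subgroup.inv_mem _ hy)⟩
      have h2 : k * y * k⁻¹ * y⁻¹ = k * (y * k⁻¹ * y⁻¹) := by group
      rw [h2]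
      exact Subgroup.mul_mem _ hk (hKn.conj_mem _ (Subgroup.inv_mem _ hk) y)
    rw [hKS, Subgroup.mem_bot] at h1
    have h4 : k * y = (k * y * k⁻¹ * y⁻¹) * (y * k) := by group
    rw [h4, h1, one_mul]
  have hnorm : ∀ g ∈ Subgroup.normalizer ((S : Subgroup G) : Set G), ∀ z : G,
      g * z * g⁻¹ ∈ (S : Subgroup G) → z ∈ (S : Subgroup G) := by
    intro g hg z hz
    exact (Subgroup.mem_normalizer_iff.mp hg z).mpr hz
  refine ⟨?_, ?_, ?_⟩
  · intro hSG s hs
    have hcomK : commutator G ≤ ⁅Subgroup.normalizer ((S : Subgroup G) : Set G),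
        Subgroup.normalizer ((S : Subgroup G) : Set G)⁆ ⊔ K := by
      rw [commutator_def, Subgroup.commutator_le]
      intro x _ y _
      obtain ⟨g₁, hg₁, k₁, hk₁, rfl⟩ := hfrat x
      obtain ⟨g₂, hg₂, k₂, hk₂, rfl⟩ := hfrat y
      have hπ : ∀ g k : G, k ∈ K → QuotientGroup.mk' K (g * k) = QuotientGroup.mk' K g := by
        intro g k hk
        have hk1 : QuotientGroup.mk' K k = 1 := (QuotientGroup.eq_one_iff k).mpr hk
        rw [map_mul, hk1, mul_one]
      have h1 : (⁅g₁, g₂⁆)⁻¹ * ⁅g₁ * k₁, g₂ * k₂⁆ ∈ K := by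
        apply (QuotientGroup.eq_one_iff _).mp
        show QuotientGroup.mk' K ((⁅g₁, g₂⁆)⁻¹ * ⁅g₁ * k₁, g₂ * k₂⁆) = 1
        rw [map_mul, map_inv, map_commutatorElement, map_commutatorElement, hπ g₁ k₁ hk₁,
          hπ g₂ k₂ hk₂, inv_mul_cancel]
      have h2 : ⁅g₁ * k₁, g₂ * k₂⁆ = ⁅g₁, g₂⁆ * ((⁅g₁, g₂⁆)⁻¹ * ⁅g₁ * k₁, g₂ * k₂⁆) := by
        rw [mul_inv_cancel_left]
      rw [h2]
      exact Subgroup.mul_mem_sup (Subgroup.commutator_mem_commutator hg₁ hg₂) h1
    have hs' : s ∈ ((⁅Subgroup.normalizer ((S : Subgroup G) : Set G),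
        Subgroup.normalizer ((S : Subgroup G) : Set G)⁆ ⊔ K : Subgroup G) : Set G) :=
      hcomK (hSG hs)
    rw [Subgroup.mul_normal] at hs'
    obtain ⟨n', hn', k, hk, hnk⟩ := Set.mem_mul.mp hs'
    have hNle : ⁅Subgroup.normalizer ((S : Subgroup G) : Set G),
        Subgroup.normalizer ((S : Subgroup G) : Set G)⁆ ≤
        Subgroup.normalizer ((S : Subgroup G) : Set G) := Subgroup.commutator_le_self _
    have hsN : s ∈ Subgroup.normalizer ((S : Subgroup G) : Set G) := Subgroup.le_normalizer hs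
    have hkN : k ∈ Subgroup.normalizer ((S : Subgroup G) : Set G) := by
      have h3 : k = n'⁻¹ * s := by rw [← hnk, inv_mul_cancel_left]
      rw [h3]
      exact Subgroup.mul_mem _ (Subgroup.inv_mem _ (hNle hn')) hsN
    have hn'2 : n' ∈ (commutator ↥(Subgroup.normalizer ((S : Subgroup G) : Set G))).map
        (Subgroup.normalizer ((S : Subgroup G) : Set G)).subtype := by
      rw [Subgroup.map_subtype_commutator]
      exact hn'
    rw [← Subgroup.map_subtype_commutator]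
    obtain ⟨n'', hn'', hn''eq⟩ := Subgroup.mem_map.mp hn'2
    have hf1 : (Abelianization.of :
        ↥(Subgroup.normalizer ((S : Subgroup G) : Set G)) →* _) n'' = 1 := by
      rw [← MonoidHom.mem_ker, Abelianization.ker_of]
      exact hn''
    have hfs : (Abelianization.of :
        ↥(Subgroup.normalizer ((S : Subgroup G) : Set G)) →* _) ⟨s, hsN⟩ =
        Abelianization.of ⟨k, hkN⟩ := by
      have h3 : (⟨s, hsN⟩ : ↥(Subgroup.normalizer ((S : Subgroup G) : Set G))) =
          n'' * ⟨k, hkN⟩ := by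
        apply Subtype.ext
        show s = (n'' : G) * k
        have h5 : (n'' : G) = n' := hn''eq
        rw [h5, hnk]
      rw [h3, map_mul, hf1, one_mul]
    obtain ⟨j, hj⟩ := S.isPGroup' ⟨s, hs⟩
    have hsj : s ^ p ^ j = 1 := by
      have h5 := congrArg Subtype.val hj
      simpa using h5
    have ht1 : ((Abelianization.of :
        ↥(Subgroup.normalizer ((S : Subgroup G) : Set G)) →* _) ⟨s, hsN⟩) ^ p ^ j = 1 := by
      rw [← map_pow]
      have h6 : (⟨s, hsN⟩ : ↥(Subgroup.normalizer ((S : Subgroup G) : Set G))) ^ p ^ j = 1 := by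
        apply Subtype.ext
        simpa using hsj
      rw [h6, map_one]
    have ht2 : ((Abelianization.of :
        ↥(Subgroup.normalizer ((S : Subgroup G) : Set G)) →* _) ⟨s, hsN⟩) ^ Nat.card K = 1 := by
      rw [hfs, ← map_pow]
      have h6 : (⟨k, hkN⟩ : ↥(Subgroup.normalizer ((S : Subgroup G) : Set G))) ^ Nat.card K
          = 1 := by
        apply Subtype.ext
        have h4 : (⟨k, hk⟩ : ↥K) ^ Nat.card K = 1 := pow_card_eq_one'
        have h5 : k ^ Nat.card K = 1 := by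
          have h7 := congrArg Subtype.val h4
          rw [Subgroup.coe_pow] at h7
          exact h7
        rw [Subgroup.coe_pow]
        exact h5
      rw [h6, map_one]
    have hord1 := orderOf_dvd_of_pow_eq_one ht1
    have hord2 := orderOf_dvd_of_pow_eq_one ht2
    have hcop : Nat.Coprime (p ^ j) (Nat.card K) := (Nat.Coprime.pow_right j hKc).symm
    have hone := Nat.eq_one_of_dvd_coprimes hcop hord1 hord2
    rw [orderOf_eq_one_iff, ← MonoidHom.mem_ker, Abelianization.ker_of] at hone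
    exact Subgroup.mem_map.mpr ⟨⟨s, hsN⟩, hone, rfl⟩
  · intro Y x hY hxY
    obtain ⟨g, hg, k, hk, rfl⟩ := hfrat x
    refine ⟨g, hg, k, ?_, rfl⟩
    rw [Subgroup.mem_centralizer_iff]
    intro y hy
    apply hcomm k hk y (hY hy)
    apply hnorm g hg
    have h1 : (g * k) * y * (g * k)⁻¹ ∈ (S : Subgroup G) := hxY ⟨y, hy, rfl⟩
    have h2 : g * (k * y * k⁻¹) * g⁻¹ = (g * k) * y * (g * k)⁻¹ := by group
    rw [h2]
    exact h1
  · intro Q hQ
    obtain ⟨h, -, hle⟩ := Cfsg.Agent.Helper20.exists_conj_le_of_isPGroup ⊤ (S : Subgroup G) Q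
      S.isPGroup' le_top le_top hQ (by rw [Subgroup.relIndex_top_right]; exact S.not_dvd_index)
    obtain ⟨g, hg, k, hk, hgk⟩ := hfrat h⁻¹
    have hkQ : ∀ y ∈ Q, k * y * k⁻¹ ∈ (S : Subgroup G) := by
      intro y hy
      apply hnorm g hg
      have h1 : h⁻¹ * y * h ∈ (S : Subgroup G) :=
        (Cfsg.Agent.Helper20.mem_map_conj _ h y).mp (hle hy)
      have h2 : g * (k * y * k⁻¹) * g⁻¹ = (g * k) * y * (g * k)⁻¹ := by group
      rw [h2, hgk, inv_inv]
      exact h1
    refine ⟨k, ?_, ?_⟩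
    · rw [Subgroup.mem_centralizer_iff]
      intro y hy
      have hy' := Subgroup.mem_inf.mp hy
      exact hcomm k hk y hy'.2 (hkQ y hy'.1)
    · intro z hz
      obtain ⟨y, hy, rfl⟩ := Subgroup.mem_map.mp hz
      exact hkQ y hy

end Cfsg.Agent.S1461
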