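import Cfsg.Statements.S1466

set_option autoImplicit false
open Cfsg
open scoped commutatorElement

namespace Cfsg.Agent.S1466

theorem step_anti {G : Type*} [Group G] {X Y : Subgroup G} (h : X ≤ Y) :
    Cfsg.puigStep Y ≤ Cfsg.puigStep X := by
  unfold Cfsg.puigStep
  apply sSup_le_sSup
  rintro A ⟨hA, hY⟩
  exact ⟨hA, h.trans hY⟩

theorem step_top_normal {G : Type*} [Group G] : (Cfsg.puigStep (⊤ : Subgroup G)).Normal := by
  unfold Cfsg.puigStep
  apply Subgroup.sSup_normal
  rintro A ⟨_, hA⟩
  exact Subgroup.normalizer_eq_top_iff.mp (top_le_iff.mp hA)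

theorem centralizer_step_top {R : Type*} [Group R] [Group.IsNilpotent R] :
    Subgroup.centralizer ((Cfsg.puigStep (⊤ : Subgroup R) : Subgroup R) : Set R) ≤ Cfsg.puigStep ⊤ := by
  classical
  set M : Subgroup R := Cfsg.puigStep (⊤ : Subgroup R) with hM
  have hMn : M.Normal := step_top_normal
  set C : Subgroup R := Subgroup.centralizer (M : Set R) with hC
  have hCn : C.Normal := Subgroup.normal_centralizer
  by_contra hcon
  obtain ⟨n, hn⟩ := Group.IsNilpotent.nilpotent R
  have hex : ∃ i, ¬ (C ⊓ Subgroup.upperCentralSeries R i ≤ M) := by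
    refine ⟨n, ?_⟩
    rw [hn, inf_top_eq]
    exact hcon
  have hfind := Nat.find_spec hex
  have hmin := fun j => Nat.find_min hex (m := j)
  set i := Nat.find hex with hi
  have hi0 : i ≠ 0 := by
    intro h0
    rw [h0] at hfind
    apply hfind
    simp
  obtain ⟨j, hj⟩ := Nat.exists_eq_succ_of_ne_zero hi0
  have hjle : C ⊓ Subgroup.upperCentralSeries R j ≤ M := by
    have := hmin j (by omega)
    simpa using this
  rw [hj] at hfind
  obtain ⟨x, hx, hxM⟩ := SetLike.not_le_iff_exists.mp hfind
  have hxC : x ∈ C := hx.1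
  have hxZ : x ∈ Subgroup.upperCentralSeries R (j + 1) := hx.2
  have hcomm : ∀ r : R, ⁅x, r⁆ ∈ C ⊓ M := by
    intro r
    have h1 : ⁅x, r⁆ ∈ Subgroup.upperCentralSeries R j :=
      (Subgroup.mem_upperCentralSeries_succ_iff).mp hxZ r
    have h2 : ⁅x, r⁆ ∈ C := by
      rw [commutatorElement_def]
      have : r * x⁻¹ * r⁻¹ ∈ C := hCn.conj_mem _ (C.inv_mem hxC) r
      have h3 := C.mul_mem hxC this
      simpa [mul_assoc] using h3
    exact ⟨h2, hjle ⟨h2, h1⟩⟩
  set B : Subgroup R := Subgroup.closure (((C ⊓ M : Subgroup R) : Set R) ∪ {x}) with hB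
  have hBcomm : IsMulCommutative B := by
    apply Subgroup.isMulCommutative_closure
    intro a ha b hb
    have hCM : ∀ u ∈ C, ∀ v ∈ M, u * v = v * u := by
      intro u hu v hv
      exact (Subgroup.mem_centralizer_iff.mp hu v hv).symm
    rcases ha with ha | ha <;> rcases hb with hb | hb
    · exact hCM a ha.1 b hb.2
    · rw [Set.mem_singleton_iff] at hb; subst hb
      exact (hCM b hxC a ha.2).symm
    · rw [Set.mem_singleton_iff] at ha; subst ha
      exact hCM a hxC b hb.2
    · rw [Set.mem_singleton_iff] at ha hb; subst ha; subst hb; rfl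
  have hBnorm : B.Normal := by
    rw [hB]
    have hset : ∀ r : R, ∀ y ∈ (((C ⊓ M : Subgroup R) : Set R) ∪ {x}), r * y * r⁻¹ ∈ B := by
      intro r y hy
      rcases hy with hy | hy
      · apply Subgroup.subset_closure
        left
        exact ⟨hCn.conj_mem _ hy.1 r, hMn.conj_mem _ hy.2 r⟩
      · rw [Set.mem_singleton_iff] at hy; subst hy
        have h1 : r * y * r⁻¹ = (⁅y, r⁆)⁻¹ * y := by
          rw [commutatorElement_def]; group
        rw [h1]
        apply B.mul_mem
        · apply B.inv_mem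
          apply Subgroup.subset_closure
          left
          exact hcomm r
        · apply Subgroup.subset_closure
          right
          rfl
    constructor
    intro b hb r
    induction hb using Subgroup.closure_induction with
    | mem y hy => exact hset r y hy
    | one => simp
    | mul y z _ _ hy hz =>
      have : r * (y * z) * r⁻¹ = (r * y * r⁻¹) * (r * z * r⁻¹) := by group
      rw [this]; exact Subgroup.mul_mem _ hy hz
    | inv y _ hy =>
      have : r * y⁻¹ * r⁻¹ = (r * y * r⁻¹)⁻¹ := by group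
      rw [this]; exact Subgroup.inv_mem _ hy
  have hBM : B ≤ M := by
    rw [hM]
    unfold Cfsg.puigStep
    apply le_sSup
    refine ⟨hBcomm, ?_⟩
    rw [Subgroup.normalizer_eq_top_iff.mpr hBnorm]
  apply hxM
  apply hBM
  apply Subgroup.subset_closure
  right
  rfl

theorem seq_succ {G : Type*} [Group G] (n : ℕ) :
    Cfsg.puigSeq G (n + 1) = Cfsg.puigStep (Cfsg.puigSeq G n) := rfl

theorem step_top_le_seq {G : Type*} [Group G] (i : ℕ) (hi : 0 < i) :
    Cfsg.puigStep (⊤ : Subgroup G) ≤ Cfsg.puigSeq G i := by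
  obtain ⟨j, rfl⟩ := Nat.exists_eq_succ_of_ne_zero hi.ne'
  rw [seq_succ]
  exact step_anti le_top

theorem self_centralizing_of_le {R : Type*} [Group R] [Group.IsNilpotent R] (M : Subgroup R)
    (h : Cfsg.puigStep (⊤ : Subgroup R) ≤ M) :
    Subgroup.center R ≤ Subgroup.centralizer (M : Set R) ∧ Subgroup.centralizer (M : Set R) ≤ M := by
  refine ⟨Subgroup.center_le_centralizer _, ?_⟩
  exact ((Subgroup.centralizer_le h).trans centralizer_step_top).trans h

theorem center_le_step_top {R : Type*} [Group R] : Subgroup.center R ≤ Cfsg.puigStep (⊤ : Subgroup R) := by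
  unfold Cfsg.puigStep
  apply le_sSup
  refine ⟨inferInstance, ?_⟩
  rw [Subgroup.normalizer_eq_top_iff.mpr inferInstance]

/-- In a finite p-group R, every term L_i(R) (i > 0) of the Puig series, the subgroup L_*(R) and the Puig subgroup L(R) contain their own centralizers, which contain Z(R); in particular L(R) ≠ 1 and L_*(R) ≠ 1 when R ≠ 1. -/
theorem result {R : Type*} [Group R] [Finite R] (p : ℕ) [Fact p.Prime] (hR : IsPGroup p R) [Nontrivial R] :
    (∀ i : ℕ, 0 < i → Subgroup.center R ≤ Subgroup.centralizer ((Cfsg.puigSeq R i : Subgroup R) : Set R) ∧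
        Subgroup.centralizer ((Cfsg.puigSeq R i : Subgroup R) : Set R) ≤ Cfsg.puigSeq R i) ∧
      (Subgroup.center R ≤ Subgroup.centralizer ((Cfsg.puigLower R : Subgroup R) : Set R) ∧ Subgroup.centralizer ((Cfsg.puigLower R : Subgroup R) : Set R) ≤ Cfsg.puigLower R) ∧
      (Subgroup.center R ≤ Subgroup.centralizer ((Cfsg.puigSubgroup R : Subgroup R) : Set R) ∧ Subgroup.centralizer ((Cfsg.puigSubgroup R : Subgroup R) : Set R) ≤ Cfsg.puigSubgroup R) ∧
      Cfsg.puigSubgroup R ≠ ⊥ ∧ Cfsg.puigLower R ≠ ⊥ := by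
  have : Group.IsNilpotent R := hR.isNilpotent
  have hlow : Cfsg.puigStep (⊤ : Subgroup R) ≤ Cfsg.puigLower R := by
    unfold Cfsg.puigLower
    exact (step_top_le_seq 2 (by norm_num)).trans (le_iSup (fun n => Cfsg.puigSeq R (2 * n)) 1)
  have hup : Cfsg.puigStep (⊤ : Subgroup R) ≤ Cfsg.puigSubgroup R := by
    unfold Cfsg.puigSubgroup
    apply le_iInf
    intro n
    exact step_top_le_seq _ (by omega)
  have hZ : Subgroup.center R ≠ ⊥ := (hR.bot_lt_center).ne'
  refine ⟨fun i hi => self_centralizing_of_le _ (step_top_le_seq i hi),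
    self_centralizing_of_le _ hlow, self_centralizing_of_le _ hup, ?_, ?_⟩
  · intro h
    apply hZ
    rw [eq_bot_iff, ← h]
    exact center_le_step_top.trans hup
  · intro h
    apply hZ
    rw [eq_bot_iff, ← h]
    exact center_le_step_top.trans hlow

end Cfsg.Agent.S1466
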