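import Cfsg.Statements.S1467

set_option autoImplicit false
open Cfsg

namespace Cfsg.Agent.S1467

theorem step_anti {G : Type*} [Group G] {X Y : Subgroup G} (h : X ≤ Y) :
    Cfsg.puigStep Y ≤ Cfsg.puigStep X := by
  unfold Cfsg.puigStep
  apply sSup_le_sSup
  rintro A ⟨hA, hY⟩
  exact ⟨hA, h.trans hY⟩

theorem seq_succ {G : Type*} [Group G] (n : ℕ) :
    Cfsg.puigSeq G (n + 1) = Cfsg.puigStep (Cfsg.puigSeq G n) := rfl

theorem seq_zero {G : Type*} [Group G] : Cfsg.puigSeq G 0 = ⊥ := rfl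

theorem seq_one {G : Type*} [Group G] : Cfsg.puigSeq G 1 = ⊤ := by
  rw [seq_succ, seq_zero, eq_top_iff]
  intro g _
  have : Subgroup.zpowers g ≤ Cfsg.puigStep (⊥ : Subgroup G) := by
    unfold Cfsg.puigStep
    apply le_sSup
    exact ⟨inferInstance, bot_le⟩
  exact this (Subgroup.mem_zpowers g)

theorem even_mono {G : Type*} [Group G] (n : ℕ) :
    Cfsg.puigSeq G (2 * n) ≤ Cfsg.puigSeq G (2 * n + 2) := by
  induction n with
  | zero => rw [seq_zero]; exact bot_le
  | succ n ih =>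
    change Cfsg.puigStep (Cfsg.puigStep (Cfsg.puigSeq G (2 * n))) ≤
      Cfsg.puigStep (Cfsg.puigStep (Cfsg.puigSeq G (2 * n + 2)))
    exact step_anti (step_anti ih)

theorem even_le_odd {G : Type*} [Group G] (n : ℕ) :
    ∀ m : ℕ, Cfsg.puigSeq G (2 * n) ≤ Cfsg.puigSeq G (2 * m + 1) := by
  induction n with
  | zero => intro m; rw [seq_zero]; exact bot_le
  | succ n ih =>
    intro m
    cases m with
    | zero => rw [seq_one]; exact le_top
    | succ m =>
      change Cfsg.puigStep (Cfsg.puigStep (Cfsg.puigSeq G (2 * n))) ≤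
        Cfsg.puigStep (Cfsg.puigStep (Cfsg.puigSeq G (2 * m + 1)))
      exact step_anti (step_anti (ih m))

theorem odd_anti {G : Type*} [Group G] (m : ℕ) :
    Cfsg.puigSeq G (2 * m + 3) ≤ Cfsg.puigSeq G (2 * m + 1) := by
  change Cfsg.puigStep (Cfsg.puigSeq G (2 * m + 2)) ≤ Cfsg.puigStep (Cfsg.puigSeq G (2 * m))
  exact step_anti (even_mono m)

theorem even_monotone {G : Type*} [Group G] : Monotone (fun n => Cfsg.puigSeq G (2 * n)) := by
  apply monotone_nat_of_le_succ
  intro n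
  exact even_mono n

/-- For a finite group, the even-indexed Puig subgroups increase, the odd-indexed ones decrease with every even term below every odd term, both subsequences are eventually constant (equal to L_*(G) and L(G)), and L_G(L_*(G)) = L(G), L_G(L(G)) = L_*(G). -/
theorem result {G : Type*} [Group G] [Finite G] :
    Cfsg.puigSeq G 0 = ⊥ ∧ Cfsg.puigSeq G 1 = ⊤ ∧
      (∀ n m : ℕ, Cfsg.puigSeq G (2 * n) ≤ Cfsg.puigSeq G (2 * n + 2) ∧ Cfsg.puigSeq G (2 * n) ≤ Cfsg.puigSeq G (2 * m + 1) ∧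
        Cfsg.puigSeq G (2 * m + 3) ≤ Cfsg.puigSeq G (2 * m + 1)) ∧
      (∃ k : ℕ, ∀ n : ℕ, k ≤ n → Cfsg.puigSeq G (2 * n) = Cfsg.puigLower G ∧ Cfsg.puigSeq G (2 * n + 1) = Cfsg.puigSubgroup G) ∧
      Cfsg.puigLower G ≤ Cfsg.puigSubgroup G ∧
      Cfsg.puigStep (Cfsg.puigLower G) = Cfsg.puigSubgroup G ∧ Cfsg.puigStep (Cfsg.puigSubgroup G) = Cfsg.puigLower G := by
  obtain ⟨k, hk⟩ := WellFoundedGT.monotone_chain_condition
    (⟨fun n => Cfsg.puigSeq G (2 * n), even_monotone⟩ : ℕ →o Subgroup G)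
  have hk : ∀ m, k ≤ m → Cfsg.puigSeq G (2 * k) = Cfsg.puigSeq G (2 * m) := hk
  have hko : ∀ m, k ≤ m → Cfsg.puigSeq G (2 * k + 1) = Cfsg.puigSeq G (2 * m + 1) := by
    intro m hm
    rw [seq_succ, seq_succ, hk m hm]
  have hlow : Cfsg.puigLower G = Cfsg.puigSeq G (2 * k) := by
    unfold Cfsg.puigLower
    apply le_antisymm
    · apply iSup_le
      intro n
      rcases le_total n k with h | h
      · exact even_monotone h
      · exact (hk n h).ge
    · exact le_iSup (fun n => Cfsg.puigSeq G (2 * n)) k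
  have hup : Cfsg.puigSubgroup G = Cfsg.puigSeq G (2 * k + 1) := by
    unfold Cfsg.puigSubgroup
    apply le_antisymm
    · exact iInf_le (fun n => Cfsg.puigSeq G (2 * n + 1)) k
    · apply le_iInf
      intro n
      rcases le_total n k with h | h
      · rw [seq_succ, seq_succ]
        exact step_anti (even_monotone h)
      · exact (hko n h).le
  refine ⟨seq_zero, seq_one, fun n m => ⟨even_mono n, even_le_odd n m, odd_anti m⟩, ⟨k, ?_⟩, ?_, ?_, ?_⟩
  · intro n hn
    exact ⟨by rw [hlow, hk n hn], by rw [hup, hko n hn]⟩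
  · rw [hlow, hup]; exact even_le_odd k k
  · rw [hlow, hup, seq_succ]
  · rw [hlow, hup]
    exact (hk (k + 1) (Nat.le_succ k)).symm

end Cfsg.Agent.S1467
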