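import Cfsg.Statements.S1471
import Cfsg.Agent.Helper16.NormCubic
import Cfsg.Agent.Helper16.NormJacobi

set_option autoImplicit false
open Cfsg

namespace Cfsg.Agent.S1471

/-- Let p and q be odd primes with (p^q − 1)/(p − 1) coprime to p − 1. Then there are at least two elements a of the field with p ^ q elements such that both a and 2 − a have norm 1 to the prime field. -/
theorem result (p q : ℕ) [Fact p.Prime] [Fact q.Prime] (hp : p ≠ 2) (hq : q ≠ 2) (hA : Nat.Coprime ((p ^ q - 1) / (p - 1)) (p - 1)) :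
    2 ≤ Set.ncard {a : GaloisField p q | Algebra.norm (ZMod p) a = 1 ∧ Algebra.norm (ZMod p) (2 - a) = 1} := by
  classical
  have hq0 : q ≠ 0 := (Fact.out : q.Prime).ne_zero
  have hp2 : 2 ≤ p := (Fact.out : p.Prime).two_le
  have hcop : q.Coprime (p - 1) := by
    rw [Nat.Prime.coprime_iff_not_dvd Fact.out]
    intro hdvd
    have hsum : q ∣ (p ^ q - 1) / (p - 1) := by
      rw [← Nat.geomSum_eq hp2 q, ← ZMod.natCast_eq_zero_iff]
      have hp1 : ((p : ℕ) : ZMod q) = 1 := by
        have : ((p - 1 : ℕ) : ZMod q) = 0 := (ZMod.natCast_eq_zero_iff _ _).mpr hdvd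
        rw [Nat.cast_sub (by omega)] at this
        simpa [sub_eq_zero] using this
      push_cast
      simp [hp1]
    have := Nat.eq_one_of_dvd_coprimes hA hsum hdvd
    exact (Fact.out : q.Prime).one_lt.ne' this
  have hq3 : q = 3 ∨ 5 ≤ q := by
    have hq2 := (Fact.out : q.Prime).two_le
    by_contra h
    push Not at h
    have h4 : q = 4 := by omega
    have hpr : Nat.Prime q := Fact.out
    rw [h4] at hpr
    exact absurd hpr (by norm_num)
  have hex : ∃ y : GaloisField p q, y ≠ 1 ∧ Algebra.norm (ZMod p) y = 1 ∧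
      Algebra.norm (ZMod p) (2 - y) = 1 := by
    rcases hq3 with h3 | h5
    · subst h3
      exact Cfsg.Agent.Helper16.normE_cubic p
    · exact Cfsg.Agent.Helper16.normE_jacobi p q hp h5 hcop
  obtain ⟨y, hy1, hyN, hyN2⟩ := hex
  have hfr : Module.finrank (ZMod p) (GaloisField p q) = q := GaloisField.finrank p hq0
  haveI : FiniteDimensional (ZMod p) (GaloisField p q) :=
    Module.finite_of_finrank_pos (by rw [hfr]; exact Nat.pos_of_ne_zero hq0)
  have hsub : ({1, y} : Set (GaloisField p q)) ⊆
      {a : GaloisField p q | Algebra.norm (ZMod p) a = 1 ∧ Algebra.norm (ZMod p) (2 - a) = 1} := by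
    intro z hz
    rcases hz with rfl | rfl
    · refine ⟨map_one _, ?_⟩
      have : (2 : GaloisField p q) - 1 = 1 := by norm_num
      rw [this, map_one]
    · exact ⟨hyN, hyN2⟩
  calc 2 = Set.ncard ({1, y} : Set (GaloisField p q)) := (Set.ncard_pair (Ne.symm hy1)).symm
    _ ≤ _ := Set.ncard_le_ncard hsub (Set.toFinite _)

end Cfsg.Agent.S1471
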