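import Cfsg.Statements.S1476
import Cfsg.Agent.Helper10.CNSolv
-- import your own Cfsg.Agent.* helpers here

set_option autoImplicit false
open Cfsg

namespace Cfsg.Agent.S1476



/-- Let G be a finite solvable group in which every non-identity element has nilpotent centralizer. Then either G is nilpotent; or G has a normal subgroup K with a Frobenius complement E (K E = G, K ∩ E = 1, E meets its conjugates by outside elements trivially) such that E is cyclic or E is generated by two elementwise-commuting subgroups, one cyclic of odd order and one isomorphic to a generalized quaternion group; or G is a three-step group with respect to some prime p. -/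
theorem result {G : Type*} [Group G] [Finite G] [Group.IsSolvable G] (hCN : Cfsg.IsCNGroup G) :
    Group.IsNilpotent G ∨
      (∃ K E : Subgroup G, K.Normal ∧ Subgroup.IsComplement' K E ∧ Cfsg.IsFrobeniusComplement E ∧
        (IsCyclic E ∨ ∃ C Q : Subgroup G, C ⊔ Q = E ∧ (∀ a ∈ C, ∀ b ∈ Q, a * b = b * a) ∧ IsCyclic C ∧ Odd (Nat.card C) ∧
          ∃ n : ℕ, Nonempty (↥Q ≃* QuaternionGroup (2 ^ n)))) ∨
      ∃ p : ℕ, p.Prime ∧ Cfsg.IsThreeStepGroup p G := by
  classical
  by_cases hnil : Group.IsNilpotent G
  · exact Or.inl hnil
  · right
    by_cases hFH : Cfsg.fittingHall G = ⊥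
    · right
      haveI : Nontrivial G := by
        by_contra h
        rw [not_nontrivial_iff_subsingleton] at h
        haveI := h
        exact hnil inferInstance
      obtain ⟨p, hp, A₀, hA₀c, hA₀1, -, hA₀p⟩ := Helper1.exists_char_elemAbelian G
      haveI : Fact p.Prime := ⟨hp⟩
      haveI := hA₀c
      have hH : Cfsg.pCore p G ≠ ⊥ := by
        have h1 : A₀ ≤ Cfsg.pCore p G := by
          refine Helper16.le_pCore inferInstance ?_
          intro a
          refine ⟨1, Subtype.ext ?_⟩
          show (a : G) ^ p ^ 1 = 1
          rw [pow_one]
          exact hA₀p a a.2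
        intro h
        rw [h, le_bot_iff] at h1
        exact hA₀1 h1
      exact ⟨p, hp, Helper10.cn_three_step_aux hCN hFH hH⟩
    · left
      exact Helper10.cn_case_frob hCN hnil hFH

end Cfsg.Agent.S1476
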