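import Cfsg.Statements.S1483
import Mathlib
import Cfsg.Agent.S1477
import Cfsg.Agent.Helper1.Coprime
-- import your own Cfsg.Agent.* helpers here

set_option autoImplicit false
open Cfsg

namespace Cfsg.Agent.S1483

theorem map_conj_comp {G : Type*} [Group G] (H : Subgroup G) (g : G) :
    (H.map (MulAut.conj g⁻¹).toMonoidHom).map (MulAut.conj g).toMonoidHom = H := by
  rw [Subgroup.map_map]
  have h : (MulAut.conj g).toMonoidHom.comp (MulAut.conj g⁻¹).toMonoidHom = MonoidHom.id G := by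
    ext x
    simp [MulAut.conj_apply, mul_assoc]
  rw [h, Subgroup.map_id]

theorem nil_map_conj {G : Type*} [Group G] (H : Subgroup G) (hH : Group.IsNilpotent H) (g : G) :
    Group.IsNilpotent (H.map (MulAut.conj g).toMonoidHom) := by
  haveI := hH
  exact Group.nilpotent_of_mulEquiv
    (H.equivMapOfInjective (MulAut.conj g).toMonoidHom (MulAut.conj g).injective)

theorem conj_of_not_primePow {G : Type*} [Group G] [Finite G] (hCN : Cfsg.IsCNGroup G)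
    (H₁ H₂ : Subgroup G) (hH₁ : Group.IsNilpotent H₁)
    (hmax₁ : ∀ L : Subgroup G, Group.IsNilpotent L → H₁ ≤ L → L = H₁)
    (hH₂ : Group.IsNilpotent H₂)
    (hmax₂ : ∀ L : Subgroup G, Group.IsNilpotent L → H₂ ≤ L → L = H₂)
    {p : ℕ} (hp : p.Prime) (hd₁ : p ∣ Nat.card H₁) (hd₂ : p ∣ Nat.card H₂)
    (hpp : ¬ IsPrimePow (Nat.card H₂)) :
    ∃ g : G, H₂ = H₁.map (MulAut.conj g).toMonoidHom := by
  haveI : Fact p.Prime := ⟨hp⟩
  obtain ⟨y, hyH, hyo, hyc⟩ := Cfsg.Agent.S1477.exists_central_prime H₁ hH₁ hp hd₁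
  obtain ⟨S₂, hS₂⟩ := Cfsg.Agent.S1477.exists_sylow_le hCN H₂ hH₂ hmax₂ hd₂
  have hzp : IsPGroup p (Subgroup.zpowers y) := by
    apply IsPGroup.of_card (n := 1)
    rw [Nat.card_zpowers, hyo, pow_one]
  obtain ⟨Q, hQ⟩ := hzp.exists_le_sylow
  obtain ⟨g, hg⟩ := MulAction.exists_smul_eq G Q S₂
  have hx : g * y * g⁻¹ ∈ H₂ := by
    apply hS₂
    rw [← hg, Sylow.coe_subgroup_smul, Cfsg.Agent.Helper1.conj_smul_eq_map]
    exact Subgroup.mem_map.2 ⟨y, hQ (Subgroup.mem_zpowers y), rfl⟩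
  have hx1 : g * y * g⁻¹ ≠ 1 := by
    intro h
    have h2 : y = 1 := by
      have h3 := congrArg (fun t => g⁻¹ * t * g) h
      simpa [mul_assoc] using h3
    exact Cfsg.Agent.S1477.ne_one_of_order hp hyo h2
  have hn1 : Nat.card H₂ ≠ 1 := by
    intro h
    rw [h] at hd₂
    exact hp.one_lt.ne' (Nat.dvd_one.1 hd₂)
  have hn0 : Nat.card H₂ ≠ 0 := Nat.card_pos.ne'
  obtain ⟨p', q', hp', hq', hpq', hpd', hqd'⟩ := Cfsg.Agent.S1477.two_primes hn1 hn0 hpp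
  have hcent := Cfsg.Agent.S1477.cent_le_of_two_primes hCN H₂ hH₂ hmax₂ hp' hq' hpq' hpd' hqd'
    hx hx1
  have hle : H₁.map (MulAut.conj g).toMonoidHom ≤ H₂ := by
    rintro _ ⟨h, hh, rfl⟩
    apply hcent
    rw [Subgroup.mem_centralizer_iff]
    intro t ht
    rw [Set.mem_singleton_iff] at ht
    subst ht
    show g * y * g⁻¹ * (g * h * g⁻¹) = g * h * g⁻¹ * (g * y * g⁻¹)
    have hyh := hyc h hh
    calc g * y * g⁻¹ * (g * h * g⁻¹) = g * (y * h) * g⁻¹ := by group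
      _ = g * (h * y) * g⁻¹ := by rw [hyh]
      _ = g * h * g⁻¹ * (g * y * g⁻¹) := by group
  refine ⟨g, ?_⟩
  have hL : H₂.map (MulAut.conj g⁻¹).toMonoidHom = H₁ := by
    apply hmax₁ _ (nil_map_conj H₂ hH₂ g⁻¹)
    intro h hh
    refine Subgroup.mem_map.2 ⟨g * h * g⁻¹, hle (Subgroup.mem_map.2 ⟨h, hh, rfl⟩), ?_⟩
    show g⁻¹ * (g * h * g⁻¹) * g⁻¹⁻¹ = h
    group
  rw [← hL, map_conj_comp]

theorem conj_of_primePow {G : Type*} [Group G] [Finite G] (hCN : Cfsg.IsCNGroup G)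
    (H₁ H₂ : Subgroup G) (hH₁ : Group.IsNilpotent H₁)
    (hmax₁ : ∀ L : Subgroup G, Group.IsNilpotent L → H₁ ≤ L → L = H₁)
    (hH₂ : Group.IsNilpotent H₂)
    (hmax₂ : ∀ L : Subgroup G, Group.IsNilpotent L → H₂ ≤ L → L = H₂)
    {p : ℕ} (hp : p.Prime) (hd₁ : p ∣ Nat.card H₁) (hd₂ : p ∣ Nat.card H₂)
    (hpp₁ : IsPrimePow (Nat.card H₁)) (hpp₂ : IsPrimePow (Nat.card H₂)) :
    ∃ g : G, H₂ = H₁.map (MulAut.conj g).toMonoidHom := by
  haveI : Fact p.Prime := ⟨hp⟩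
  have hpg : ∀ H : Subgroup G, IsPrimePow (Nat.card H) → p ∣ Nat.card H → IsPGroup p H := by
    intro H hpp hd
    obtain ⟨q, k, hq, hk, hqk⟩ := (isPrimePow_nat_iff _).1 hpp
    have hpq : p = q := by
      rw [← hqk] at hd
      exact (Nat.prime_dvd_prime_iff_eq hp hq).1 (hp.dvd_of_dvd_pow hd)
    subst hpq
    exact IsPGroup.of_card hqk.symm
  obtain ⟨S₁, hS₁⟩ := Cfsg.Agent.S1477.exists_sylow_le hCN H₁ hH₁ hmax₁ hd₁
  obtain ⟨S₂, hS₂⟩ := Cfsg.Agent.S1477.exists_sylow_le hCN H₂ hH₂ hmax₂ hd₂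
  have e₁ : H₁ = (S₁ : Subgroup G) := S₁.is_maximal' (hpg H₁ hpp₁ hd₁) hS₁
  have e₂ : H₂ = (S₂ : Subgroup G) := S₂.is_maximal' (hpg H₂ hpp₂ hd₂) hS₂
  obtain ⟨g, hg⟩ := MulAction.exists_smul_eq G S₁ S₂
  refine ⟨g, ?_⟩
  rw [e₂, e₁, ← hg, Sylow.coe_subgroup_smul, Cfsg.Agent.Helper1.conj_smul_eq_map]

theorem conj_or_coprime {G : Type*} [Group G] [Finite G] (hCN : Cfsg.IsCNGroup G)
    (H₁ H₂ : Subgroup G) (hH₁ : Group.IsNilpotent H₁)
    (hmax₁ : ∀ L : Subgroup G, Group.IsNilpotent L → H₁ ≤ L → L = H₁)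
    (hH₂ : Group.IsNilpotent H₂)
    (hmax₂ : ∀ L : Subgroup G, Group.IsNilpotent L → H₂ ≤ L → L = H₂) :
    (∃ g : G, H₂ = H₁.map (MulAut.conj g).toMonoidHom) ∨
      (Nat.card H₁).Coprime (Nat.card H₂) := by
  by_contra hcon
  push Not at hcon
  obtain ⟨hnc, hncop⟩ := hcon
  obtain ⟨p, hp, hd₁, hd₂⟩ := Nat.Prime.not_coprime_iff_dvd.1 hncop
  by_cases hpp₂ : IsPrimePow (Nat.card H₂)
  · by_cases hpp₁ : IsPrimePow (Nat.card H₁)
    · obtain ⟨g, hg⟩ := conj_of_primePow hCN H₁ H₂ hH₁ hmax₁ hH₂ hmax₂ hp hd₁ hd₂ hpp₁ hpp₂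
      exact hnc g hg
    · obtain ⟨g, hg⟩ := conj_of_not_primePow hCN H₂ H₁ hH₂ hmax₂ hH₁ hmax₁ hp hd₂ hd₁ hpp₁
      apply hnc g⁻¹
      have h1 := map_conj_comp H₂ g⁻¹
      rw [inv_inv] at h1
      rw [hg, h1]
  · obtain ⟨g, hg⟩ := conj_of_not_primePow hCN H₁ H₂ hH₁ hmax₁ hH₂ hmax₂ hp hd₁ hd₂ hpp₂
    exact hnc g hg

theorem prime_dvd_card_of_mem {G : Type*} [Group G] [Finite G] {p : ℕ} (hp : p.Prime)
    (H : Subgroup G) {x : G} (hxH : x ∈ H) (hx1 : x ≠ 1)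
    (hxp : IsPGroup p (Subgroup.zpowers x)) : p ∣ Nat.card H := by
  haveI : Fact p.Prime := ⟨hp⟩
  obtain ⟨k, hk⟩ := IsPGroup.iff_card.1 hxp
  rw [Nat.card_zpowers] at hk
  have hk0 : k ≠ 0 := by
    rintro rfl
    rw [pow_zero, orderOf_eq_one_iff] at hk
    exact hx1 hk
  have h1 : p ∣ orderOf x := by rw [hk]; exact dvd_pow_self p hk0
  exact h1.trans (Subgroup.orderOf_dvd_natCard H hxH)

theorem exists_max_nil {G : Type*} [Group G] [Finite G] (hCN : Cfsg.IsCNGroup G) (t : G)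
    (ht : t ≠ 1) : ∃ H : Subgroup G, Group.IsNilpotent H ∧
      (∀ L : Subgroup G, Group.IsNilpotent L → H ≤ L → L = H) ∧
      Subgroup.centralizer ({t} : Set G) ≤ H := by
  obtain ⟨H, hle, hmax⟩ := (Set.toFinite {L : Subgroup G | Group.IsNilpotent L}).exists_le_maximal
    (hCN t ht)
  exact ⟨H, hmax.prop, fun L hL hHL => le_antisymm (hmax.le_of_ge hL hHL) hHL, hle⟩

theorem mem_cent_of_comm {G : Type*} [Group G] {t s : G} (h : t * s = s * t) :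
    s ∈ Subgroup.centralizer ({t} : Set G) := by
  rw [Subgroup.mem_centralizer_iff]
  intro u hu
  rw [Set.mem_singleton_iff] at hu
  subst hu
  exact h


/-- Let G be a minimal simple group of odd order in which every non-identity element has nilpotent centralizer. Then any two nilpotent subgroups each contained in no larger nilpotent subgroup are either conjugate or of coprime orders; and for primes p, q, r: if some elements x, y ≠ 1 of p-power and q-power order commute, and some elements y', z ≠ 1 of q-power and r-power order commute, then some elements of p-power and r-power order, both ≠ 1, commute. -/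
theorem result {G : Type*} [Group G] [Finite G] (hG : Cfsg.IsMinSimpleOddOrder G) (hCN : Cfsg.IsCNGroup G) :
    (∀ H₁ H₂ : Subgroup G, (Group.IsNilpotent ↥H₁ ∧ ∀ L : Subgroup G, Group.IsNilpotent L → H₁ ≤ L → L = H₁) → (Group.IsNilpotent ↥H₂ ∧ ∀ L : Subgroup G, Group.IsNilpotent L → H₂ ≤ L → L = H₂) → (∃ g : G, H₂ = H₁.map (MulAut.conj g).toMonoidHom) ∨ (Nat.card H₁).Coprime (Nat.card H₂)) ∧
      ∀ (p q r : ℕ), p.Prime → q.Prime → r.Prime → ∀ (x y y' z : G), x ≠ 1 → y ≠ 1 → y' ≠ 1 → z ≠ 1 →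
        IsPGroup p (Subgroup.zpowers x) → IsPGroup q (Subgroup.zpowers y) → IsPGroup q (Subgroup.zpowers y') → IsPGroup r (Subgroup.zpowers z) →
        x * y = y * x → y' * z = z * y' →
        ∃ x' z' : G, x' ≠ 1 ∧ z' ≠ 1 ∧ IsPGroup p (Subgroup.zpowers x') ∧ IsPGroup r (Subgroup.zpowers z') ∧ x' * z' = z' * x' := by
  refine ⟨?_, ?_⟩
  · rintro H₁ H₂ ⟨hH₁, hmax₁⟩ ⟨hH₂, hmax₂⟩
    exact conj_or_coprime hCN H₁ H₂ hH₁ hmax₁ hH₂ hmax₂
  · intro p q r hp hq hr x y y' z hx hy hy' hz hxp hyq hy'q hzr hxy hy'z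
    obtain ⟨H₁, hH₁, hmax₁, hc₁⟩ := exists_max_nil hCN x hx
    obtain ⟨H₂, hH₂, hmax₂, hc₂⟩ := exists_max_nil hCN y' hy'
    have hxH : x ∈ H₁ := hc₁ (mem_cent_of_comm rfl)
    have hyH : y ∈ H₁ := hc₁ (mem_cent_of_comm hxy)
    have hy'H : y' ∈ H₂ := hc₂ (mem_cent_of_comm rfl)
    have hzH : z ∈ H₂ := hc₂ (mem_cent_of_comm hy'z)
    have hp₁ : p ∣ Nat.card H₁ := prime_dvd_card_of_mem hp H₁ hxH hx hxp
    have hq₁ : q ∣ Nat.card H₁ := prime_dvd_card_of_mem hq H₁ hyH hy hyq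
    have hq₂ : q ∣ Nat.card H₂ := prime_dvd_card_of_mem hq H₂ hy'H hy' hy'q
    have hr₂ : r ∣ Nat.card H₂ := prime_dvd_card_of_mem hr H₂ hzH hz hzr
    have hp₂ : p ∣ Nat.card H₂ := by
      rcases conj_or_coprime hCN H₁ H₂ hH₁ hmax₁ hH₂ hmax₂ with ⟨g, hg⟩ | hcop
      · rw [hg, Subgroup.card_map_of_injective (MulAut.conj g).injective]
        exact hp₁
      · exact absurd hcop (Nat.Prime.not_coprime_iff_dvd.2 ⟨q, hq, hq₁, hq₂⟩)
    haveI : Fact p.Prime := ⟨hp⟩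
    haveI : Fact r.Prime := ⟨hr⟩
    obtain ⟨x'', hx''⟩ := exists_prime_orderOf_dvd_card' (G := H₂) p hp₂
    obtain ⟨z'', hz''⟩ := exists_prime_orderOf_dvd_card' (G := H₂) r hr₂
    have hx'o : orderOf (x'' : G) = p := by rw [Subgroup.orderOf_coe]; exact hx''
    have hz'o : orderOf (z'' : G) = r := by rw [Subgroup.orderOf_coe]; exact hz''
    have hx'p : IsPGroup p (Subgroup.zpowers (x'' : G)) := by
      apply IsPGroup.of_card (n := 1)
      rw [Nat.card_zpowers, hx'o, pow_one]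
    have hz'r : IsPGroup r (Subgroup.zpowers (z'' : G)) := by
      apply IsPGroup.of_card (n := 1)
      rw [Nat.card_zpowers, hz'o, pow_one]
    by_cases hpr : p = r
    · subst hpr
      exact ⟨x'', x'', Cfsg.Agent.S1477.ne_one_of_order hp hx'o,
        Cfsg.Agent.S1477.ne_one_of_order hp hx'o, hx'p, hx'p, rfl⟩
    · refine ⟨x'', z'', Cfsg.Agent.S1477.ne_one_of_order hp hx'o,
        Cfsg.Agent.S1477.ne_one_of_order hr hz'o, hx'p, hz'r, ?_⟩
      apply Cfsg.Agent.S1477.comm_of_nil H₂ hH₂ x''.2 z''.2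
      rw [hx'o, hz'o]
      exact (Nat.coprime_primes hp hr).2 hpr

end Cfsg.Agent.S1483
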