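import Cfsg.Statements.S1485
import Mathlib

set_option autoImplicit false
open Cfsg

namespace Cfsg.Agent.S1485

/-- For an irreducible character θ of a normal subgroup H, the character induced to G restricts to H as r times the sum of the distinct G-conjugates of θ, where r is the index of H in the inertia group of θ. -/
theorem result {G : Type*} [Group G] [Fintype G] (H : Subgroup G) [hN : H.Normal] (θ : H → ℂ) (hθ : Cfsg.IsIrrCharacter H θ) : (fun h : H => Cfsg.indFun H θ h) = ((Nat.card {g : G // ∀ h : H, θ ⟨g * h * g⁻¹, hN.conj_mem h h.2 g⟩ = θ h} : ℂ) / (Nat.card H : ℂ)) • ∑ᶠ ψ ∈ {ψ : H → ℂ | ∃ g : G, ψ = fun h : H => θ ⟨g * h * g⁻¹, hN.conj_mem h h.2 g⟩}, ψ := by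
  classical
  set cj : G → (H → ℂ) := fun g h => θ ⟨g * h * g⁻¹, hN.conj_mem h h.2 g⟩ with hcj
  have hset : {ψ : H → ℂ | ∃ g : G, ψ = fun h : H => θ ⟨g * h * g⁻¹, hN.conj_mem h h.2 g⟩}
      = ((Finset.univ.image cj : Finset (H → ℂ)) : Set (H → ℂ)) := by
    ext ψ
    simp only [Set.mem_setOf_eq, Finset.coe_image, Finset.coe_univ, Set.image_univ, Set.mem_range]
    constructor
    · rintro ⟨g, rfl⟩; exact ⟨g, rfl⟩
    · rintro ⟨g, rfl⟩; exact ⟨g, rfl⟩
  rw [hset, finsum_mem_coe_finset]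
  have hT : (Nat.card {g : G // ∀ h : H, θ ⟨g * h * g⁻¹, hN.conj_mem h h.2 g⟩ = θ h})
      = (Finset.univ.filter (fun g : G => cj g = θ)).card := by
    rw [Nat.card_eq_fintype_card, Fintype.card_subtype]
    congr 1
    ext g
    simp only [Finset.mem_filter, Finset.mem_univ, true_and]
    constructor
    · intro h; funext x; exact h x
    · intro h x; exact congrFun h x
  have hfib : ∀ ψ ∈ Finset.univ.image cj,
      (Finset.univ.filter (fun g : G => cj g = ψ)).card = (Finset.univ.filter (fun g : G => cj g = θ)).card := by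
    intro ψ hψ
    obtain ⟨g₀, -, rfl⟩ := Finset.mem_image.mp hψ
    apply Finset.card_equiv (Equiv.mulRight g₀⁻¹)
    intro g
    simp only [Finset.mem_filter, Finset.mem_univ, true_and, Equiv.coe_mulRight]
    constructor
    · intro h
      funext x
      have h1 := congrFun h ⟨g₀⁻¹ * x * g₀, by
        have := hN.conj_mem x x.2 g₀⁻¹
        simpa using this⟩
      simp only [hcj] at h1 ⊢
      have e1 : (⟨g * g₀⁻¹ * (x : G) * (g * g₀⁻¹)⁻¹, hN.conj_mem x x.2 (g * g₀⁻¹)⟩ : H)
          = ⟨g * (g₀⁻¹ * (x : G) * g₀) * g⁻¹, hN.conj_mem _ (by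
              have := hN.conj_mem x x.2 g₀⁻¹
              simpa using this) g⟩ := by
        apply Subtype.ext; simp [mul_assoc]
      have e2 : (⟨g₀ * (g₀⁻¹ * (x : G) * g₀) * g₀⁻¹, hN.conj_mem _ (by
              have := hN.conj_mem x x.2 g₀⁻¹
              simpa using this) g₀⟩ : H) = x := by
        apply Subtype.ext; simp [mul_assoc]
      rw [e1, h1, e2]
    · intro h
      funext x
      have h1 := congrFun h ⟨g₀ * x * g₀⁻¹, hN.conj_mem x x.2 g₀⟩
      simp only [hcj] at h1 ⊢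
      have e1 : (⟨g * g₀⁻¹ * (g₀ * (x : G) * g₀⁻¹) * (g * g₀⁻¹)⁻¹,
            hN.conj_mem _ (hN.conj_mem x x.2 g₀) (g * g₀⁻¹)⟩ : H)
          = ⟨g * (x : G) * g⁻¹, hN.conj_mem x x.2 g⟩ := by
        apply Subtype.ext; simp [mul_assoc]
      rw [← e1, h1]
  have hsum : ∑ g : G, cj g = ((Finset.univ.filter (fun g : G => cj g = θ)).card : ℂ) •
      ∑ ψ ∈ Finset.univ.image cj, ψ := by
    rw [← Finset.sum_fiberwise_of_maps_to (g := cj) (t := Finset.univ.image cj)
      (fun g _ => Finset.mem_image_of_mem cj (Finset.mem_univ g)), Finset.smul_sum]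
    apply Finset.sum_congr rfl
    intro ψ hψ
    rw [Finset.sum_congr rfl (fun g hg => (Finset.mem_filter.mp hg).2), Finset.sum_const, hfib ψ hψ]
    rw [← Nat.cast_smul_eq_nsmul ℂ]
  funext h
  have hA : ∀ x : G, Cfsg.extendByZero H θ (x⁻¹ * (h : G) * x) = cj x⁻¹ h := by
    intro x
    unfold Cfsg.extendByZero
    have hm : x⁻¹ * (h : G) * x ∈ H := by
      have := hN.conj_mem h h.2 x⁻¹
      simpa using this
    have h1 := Function.Injective.extend_apply Subtype.val_injective θ 0 (⟨x⁻¹ * (h : G) * x, hm⟩ : H)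
    rw [h1]
    simp only [hcj]
    congr 1
    apply Subtype.ext; simp
  have hB : ∑ x : G, cj x⁻¹ h = ∑ g : G, cj g h :=
    Equiv.sum_comp (Equiv.inv G) (fun g => cj g h)
  unfold Cfsg.indFun
  rw [Finset.sum_congr rfl (fun x _ => hA x), hB, ← Finset.sum_apply, hsum, hT]
  simp only [Pi.smul_apply, smul_eq_mul]
  ring

end Cfsg.Agent.S1485
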