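import Cfsg.Statements.S1488
import Mathlib

set_option autoImplicit false
open Cfsg

namespace Cfsg.Agent.S1488

theorem sum_comp_mk {G : Type*} [Group G] [Fintype G] (A : Subgroup G) [A.Normal]
    [Fintype (G ⧸ A)] (f : G ⧸ A → ℂ) :
    ∑ x : G, f (QuotientGroup.mk' A x) = (Nat.card A : ℂ) * ∑ q : G ⧸ A, f q := by
  classical
  rw [← Finset.sum_fiberwise' (Finset.univ : Finset G) (fun x : G => QuotientGroup.mk' A x) f,
    Finset.mul_sum]
  apply Finset.sum_congr rfl
  intro q _
  rw [Finset.sum_const, nsmul_eq_mul]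
  congr 1
  obtain ⟨x₀, rfl⟩ := QuotientGroup.mk'_surjective A q
  have h1 : (Finset.univ.filter (fun x : G => QuotientGroup.mk' A x = QuotientGroup.mk' A x₀)).card
      = (Finset.univ.filter (· ∈ A)).card := by
    apply Finset.card_equiv (Equiv.mulLeft x₀⁻¹)
    intro x
    simp only [Finset.mem_filter, Finset.mem_univ, true_and, Equiv.coe_mulLeft]
    constructor
    · intro h
      exact QuotientGroup.eq.mp h.symm
    · intro h
      exact (QuotientGroup.eq.mpr h).symm
  rw [h1, Nat.card_eq_fintype_card, Fintype.card_subtype]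

theorem extend_eq {G : Type*} [Group G] (A H : Subgroup G) [A.Normal] (hAH : A ≤ H)
    (θ : H → ℂ) (θ₁ : ↥(H.map (QuotientGroup.mk' A)) → ℂ)
    (hθ : ∀ x : H, θ₁ ⟨QuotientGroup.mk' A x, Subgroup.mem_map_of_mem _ x.2⟩ = θ x) (y : G) :
    Cfsg.extendByZero H θ y = Cfsg.extendByZero (H.map (QuotientGroup.mk' A)) θ₁ (QuotientGroup.mk' A y) := by
  unfold Cfsg.extendByZero
  by_cases hy : y ∈ H
  · have h1 := Function.Injective.extend_apply Subtype.val_injective θ 0 (⟨y, hy⟩ : H)
    have h2 := Function.Injective.extend_apply Subtype.val_injective θ₁ 0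
      (⟨QuotientGroup.mk' A y, Subgroup.mem_map_of_mem _ hy⟩ : ↥(H.map (QuotientGroup.mk' A)))
    rw [h1, h2]
    exact (hθ ⟨y, hy⟩).symm
  · rw [Function.extend_apply', Function.extend_apply']
    · rfl
    · rintro ⟨⟨_, ⟨h, hh, rfl⟩⟩, ha⟩
      apply hy
      have h3 : (h : G ⧸ A) = (y : G ⧸ A) := ha
      rw [QuotientGroup.eq] at h3
      have h4 : y = h * (h⁻¹ * y) := by group
      rw [h4]
      exact H.mul_mem hh (hAH h3)
    · rintro ⟨a, ha⟩
      apply hy
      rw [← ha]; exact a.2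

/-- Induction commutes with inflation: for A ≤ H ≤ G with A normal in G and a function θ₁ on the image of H in G/A, inducing θ₁ to G/A and composing with the projection equals inducing the inflated function from H to G. -/
theorem result {G : Type*} [Group G] [Fintype G] (A H : Subgroup G) [A.Normal] (hAH : A ≤ H) [Fintype (G ⧸ A)] [Fintype ↥(H.map (QuotientGroup.mk' A))] (θ : H → ℂ) (θ₁ : ↥(H.map (QuotientGroup.mk' A)) → ℂ) (hθ : ∀ x : H, θ₁ ⟨QuotientGroup.mk' A x, Subgroup.mem_map_of_mem _ x.2⟩ = θ x) (g : G) : Cfsg.indFun (H.map (QuotientGroup.mk' A)) θ₁ (QuotientGroup.mk' A g) = Cfsg.indFun H θ g := by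
  classical
  unfold Cfsg.indFun
  have h1 : ∑ x : G, Cfsg.extendByZero H θ (x⁻¹ * g * x)
      = (Nat.card A : ℂ) * ∑ q : G ⧸ A, Cfsg.extendByZero (H.map (QuotientGroup.mk' A)) θ₁
          (q⁻¹ * QuotientGroup.mk' A g * q) := by
    rw [← sum_comp_mk A (fun q => Cfsg.extendByZero (H.map (QuotientGroup.mk' A)) θ₁
          (q⁻¹ * QuotientGroup.mk' A g * q))]
    apply Finset.sum_congr rfl
    intro x _
    rw [extend_eq A H hAH θ θ₁ hθ]
    simp
  have h2 : (Nat.card H : ℂ) = (Nat.card A : ℂ) * (Nat.card ↥(H.map (QuotientGroup.mk' A)) : ℂ) := by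
    have h3 := sum_comp_mk A (fun q => if q ∈ H.map (QuotientGroup.mk' A) then (1 : ℂ) else 0)
    have h4 : ∀ x : G, QuotientGroup.mk' A x ∈ H.map (QuotientGroup.mk' A) ↔ x ∈ H := by
      intro x
      constructor
      · rintro ⟨h, hh, ha⟩
        have h3 : (h : G ⧸ A) = (x : G ⧸ A) := ha
        rw [QuotientGroup.eq] at h3
        have h4 : x = h * (h⁻¹ * x) := by group
        rw [h4]
        exact H.mul_mem hh (hAH h3)
      · intro hx
        exact Subgroup.mem_map_of_mem _ hx
    simp only [h4] at h3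
    rw [Finset.sum_boole, Finset.sum_boole] at h3
    rw [Nat.card_eq_fintype_card, Fintype.card_subtype, Nat.card_eq_fintype_card (α := ↥(H.map (QuotientGroup.mk' A))),
      Fintype.card_subtype]
    convert h3 using 3
  have hA : (Nat.card A : ℂ) ≠ 0 := by exact_mod_cast Nat.card_pos.ne'
  rw [h1, h2, mul_inv]
  field_simp

end Cfsg.Agent.S1488
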