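import Cfsg.Statements.S1490
import Cfsg.Agent.Helper10.AbQuot
import Cfsg.Agent.S1489
-- import your own Cfsg.Agent.* helpers here

set_option autoImplicit false
open Cfsg

namespace Cfsg.Agent.S1490



/-- Let H be a normal subgroup of the finite group G, θ an irreducible character of H with inertia group T, and suppose the commutator of any two elements of T lies in H (T/H abelian). Then there are a positive integer e and a finite set C of irreducible characters of G with e ^ 2 * |C| * |H| = |T|, such that the function induced from θ is e times the sum of the members of C and every member of C has degree [G:T] * e * θ(1). -/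
theorem result {G : Type*} [Group G] [Fintype G] (H T : Subgroup G) [hN : H.Normal] (θ : H → ℂ) (hθ : Cfsg.IsIrrCharacter H θ) (hT : ∀ g : G, g ∈ T ↔ ∀ h : H, θ ⟨g * h * g⁻¹, hN.conj_mem h h.2 g⟩ = θ h) (hab : ∀ x ∈ T, ∀ y ∈ T, x * y * x⁻¹ * y⁻¹ ∈ H) : ∃ (e : ℕ) (C : Finset (G → ℂ)), 0 < e ∧ (∀ χ ∈ C, Cfsg.IsIrrCharacter G χ) ∧ e ^ 2 * C.card * Nat.card H = Nat.card T ∧ Cfsg.indFun H θ = (e : ℂ) • ∑ χ ∈ C, χ ∧ ∀ χ ∈ C, χ 1 = (T.index : ℂ) * e * θ 1 := by
  classical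
  have := Fintype.ofFinite H
  have := Fintype.ofFinite T
  have hHT : H ≤ T := by
    intro g hg
    rw [hT]
    intro h
    have hcl := Helper2.IsIrrCharacter.isClassFunction hθ
    exact hcl h ⟨g, hg⟩
  have hN' : (H.subgroupOf T).Normal := inferInstance
  have hθ' : IsIrrCharacter (H.subgroupOf T)
      (fun x => θ ⟨(x : T), Subgroup.mem_subgroupOf.mp x.2⟩) :=
    Helper10.isIrr_comp_equiv (Subgroup.subgroupOfEquivOfLe hHT) hθ
  have hinv : ∀ (g : T) (n : H.subgroupOf T),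
      (fun x : H.subgroupOf T => θ ⟨(x : T), Subgroup.mem_subgroupOf.mp x.2⟩)
        ⟨g * n * g⁻¹, hN'.conj_mem (n : T) n.2 g⟩ =
      (fun x : H.subgroupOf T => θ ⟨(x : T), Subgroup.mem_subgroupOf.mp x.2⟩) n := by
    intro g n
    exact (hT g).1 g.2 ⟨(n : T), Subgroup.mem_subgroupOf.mp n.2⟩
  have hab' : ∀ x y : T, x * y * x⁻¹ * y⁻¹ ∈ H.subgroupOf T := by
    intro x y
    rw [Subgroup.mem_subgroupOf]
    exact hab x x.2 y y.2
  obtain ⟨e, C, hepos, hC, hcard, hsum⟩ :=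
    Helper10.clifford_abelian_quot (H.subgroupOf T) hθ' hinv hab'
  have hirr : ∀ ψ ∈ C, IsIrrCharacter G (indFun T ψ) := fun ψ hψ =>
    (Cfsg.Agent.S1489.result H T θ hθ hT hHT ψ ψ (hC ψ hψ).1 (hC ψ hψ).1 (hC ψ hψ).2.1
      (hC ψ hψ).2.1).1
  have hinj : ∀ ψ ∈ C, ∀ ψ' ∈ C, indFun T ψ = indFun T ψ' → ψ = ψ' := fun ψ hψ ψ' hψ' =>
    (Cfsg.Agent.S1489.result H T θ hθ hT hHT ψ ψ' (hC ψ hψ).1 (hC ψ' hψ').1 (hC ψ hψ).2.1
      (hC ψ' hψ').2.1).2
  refine ⟨e, C.image (indFun T), hepos, ?_, ?_, ?_, ?_⟩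
  · intro χ hχ
    obtain ⟨ψ, hψ, rfl⟩ := Finset.mem_image.1 hχ
    exact hirr ψ hψ
  · rw [Finset.card_image_of_injOn (fun ψ hψ ψ' hψ' h => hinj ψ hψ ψ' hψ' h), hcard]
    have h1 : Nat.card (H.subgroupOf T) = Nat.card H :=
      Nat.card_congr (Subgroup.subgroupOfEquivOfLe hHT).toEquiv
    rw [← h1]
    exact Subgroup.index_mul_card (H.subgroupOf T)
  · rw [← Helper10.indFun_trans H T hHT θ, hsum, Helper10.indFun_smul, Helper10.indFun_sum,
      Finset.sum_image (fun ψ hψ ψ' hψ' h => hinj ψ hψ ψ' hψ' h)]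
  · intro χ hχ
    obtain ⟨ψ, hψ, rfl⟩ := Finset.mem_image.1 hχ
    rw [Helper10.indFun_one, (hC ψ hψ).2.2]
    have h1 : θ ⟨((1 : H.subgroupOf T) : T), Subgroup.mem_subgroupOf.mp (1 : H.subgroupOf T).2⟩
        = θ 1 := congrArg θ (Subtype.ext rfl)
    rw [h1]
    have h2 : (T.index : ℂ) * (Nat.card T : ℂ) = (Nat.card G : ℂ) := by
      exact_mod_cast Subgroup.index_mul_card T
    have hT0 : (Nat.card T : ℂ) ≠ 0 := by exact_mod_cast Nat.card_pos.ne'
    rw [← h2]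
    field_simp

end Cfsg.Agent.S1490
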