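import Cfsg.Statements.S1491
import Mathlib
import Cfsg.Agent.S0867
import Cfsg.Agent.Helper6.Clifford
import Cfsg.Agent.Helper6.DetChar
import Cfsg.Agent.Helper6.DetExt
import Cfsg.Agent.Helper10.IndLemmas
import Cfsg.Agent.Helper10.IndAbove
import Cfsg.Agent.Helper10.CohAbove
import Cfsg.Agent.Helper10.CharConj
import Cfsg.Agent.Helper2.CharNat
import Cfsg.Agent.Helper2.CharDecomp
import Cfsg.Agent.Helper2.CharOrtho
-- import your own Cfsg.Agent.* helpers here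

set_option autoImplicit false
open Cfsg

namespace Cfsg.Agent.S1491


open Cfsg.Agent Cfsg.Agent.Helper10



/-- Let H be a normal subgroup of the finite group G and θ an irreducible character of H with inertia group T, where T/H is abelian (commutators of T lie in H) and the index of H in T is coprime to the order of H. Then the function induced from θ is the sum of a set of exactly [T:H] irreducible characters of G, each of degree [G:T] * θ(1). -/
theorem result {G : Type*} [Group G] [Fintype G] (H T : Subgroup G) [hN : H.Normal] (θ : H → ℂ) (hθ : Cfsg.IsIrrCharacter H θ) (hT : ∀ g : G, g ∈ T ↔ ∀ h : H, θ ⟨g * h * g⁻¹, hN.conj_mem h h.2 g⟩ = θ h) (hab : ∀ x ∈ T, ∀ y ∈ T, x * y * x⁻¹ * y⁻¹ ∈ H) (hcop : Nat.Coprime (Nat.card H) (H.relIndex T)) : ∃ C : Finset (G → ℂ), (∀ χ ∈ C, Cfsg.IsIrrCharacter G χ) ∧ C.card = H.relIndex T ∧ Cfsg.indFun H θ = ∑ χ ∈ C, χ ∧ ∀ χ ∈ C, χ 1 = (T.index : ℂ) * θ 1 := by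
  classical
  haveI : Fintype H := Fintype.ofFinite H
  haveI : Fintype T := Fintype.ofFinite T
  have hθc : IsCharacter H θ := Helper24.isCharacter_of_irr hθ
  have hθcl : IsClassFunction H θ := Helper2.IsCharacter.isClassFunction hθc
  have hHT : H ≤ T := by
    intro x hx
    rw [hT]
    intro h
    have h1 := hθcl h ⟨x, hx⟩
    rw [← h1]
    exact congrArg θ (Subtype.ext rfl)
  haveI hH₀ : (H.subgroupOf T).Normal := Subgroup.normal_subgroupOf
  haveI : Fintype (H.subgroupOf T) := Fintype.ofFinite _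
  obtain ⟨θ₀, hθ₀def⟩ : ∃ θ₀ : H.subgroupOf T → ℂ,
      θ₀ = fun x : H.subgroupOf T => θ ⟨((x : T) : G), Subgroup.mem_subgroupOf.mp x.2⟩ :=
    ⟨_, rfl⟩
  have hθ₀ : IsIrrCharacter (H.subgroupOf T) θ₀ := by
    rw [hθ₀def]
    exact isIrr_comp_equiv (Subgroup.subgroupOfEquivOfLe hHT) hθ
  have hinv₀ : ∀ (t : T) (n : H.subgroupOf T),
      θ₀ ⟨t * n * t⁻¹, hH₀.conj_mem (n : T) n.2 t⟩ = θ₀ n := by
    intro t n
    rw [hθ₀def]
    have h1 := (hT t).1 t.2 ⟨(n : T), Subgroup.mem_subgroupOf.mp n.2⟩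
    exact (congrArg θ (Subtype.ext rfl)).trans h1
  have hθ₀c := Helper24.isCharacter_of_irr hθ₀
  have hd := Helper24.charDegree_spec hθ₀c
  have hcard₀ : Nat.card (H.subgroupOf T) = Nat.card H :=
    Nat.card_congr (Subgroup.subgroupOfEquivOfLe hHT).toEquiv
  have hdeg_dvd : charDegree θ₀ ∣ Nat.card H := by
    rw [← hcard₀]
    exact Helper2.irr_degree_dvd_card hθ₀
  have hdet_dvd : detOrder θ₀ ∣ Nat.card H := by
    rw [← hcard₀]
    unfold detOrder
    apply orderOf_dvd_of_pow_eq_one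
    funext n
    obtain ⟨hc, h1⟩ := Helper6.detChar_isLinear hθ₀c
    rw [Pi.pow_apply, Pi.one_apply]
    exact Helper6.linear_pow_card hc h1 n
  have hcop₀ : Nat.Coprime (H.subgroupOf T).index (detOrder θ₀ * charDegree θ₀) := by
    have h1 : (H.subgroupOf T).index = H.relIndex T := rfl
    rw [h1]
    exact Nat.Coprime.mul_right (Nat.Coprime.coprime_dvd_right hdet_dvd hcop.symm)
      (Nat.Coprime.coprime_dvd_right hdeg_dvd hcop.symm)
  obtain ⟨χ₀, ⟨hχ₀, hχ₀res, -⟩, -⟩ :=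
    S0867.result (H.subgroupOf T) θ₀ hθ₀ hinv₀ (charDegree θ₀) hd hcop₀
  haveI : Finite (IrrCharacter T) := Helper24.finite_irrCharacter
  haveI : Fintype (IrrCharacter T) := Fintype.ofFinite _
  obtain ⟨I, hI⟩ : ∃ I : Finset (IrrCharacter T), ∀ φ : IrrCharacter T,
      φ ∈ I ↔ ∀ n ∈ H.subgroupOf T, (φ : T → ℂ) n = (φ : T → ℂ) 1 :=
    ⟨Finset.univ.filter (fun φ : IrrCharacter T =>
      ∀ n ∈ H.subgroupOf T, (φ : T → ℂ) n = (φ : T → ℂ) 1), fun φ => by simp⟩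
  have hsumI := fun k : T => sum_irr_ker_mul (H.subgroupOf T) k I hI
  have hlin : ∀ φ ∈ I, (φ : T → ℂ) 1 = 1 := by
    intro φ hφ
    exact irr_linear_of_comm_ker φ.2 (H.subgroupOf T) (fun x y => hab x x.2 y y.2)
      ((hI φ).1 hφ)
  have hIcard : I.card = H.relIndex T := by
    have h1 := hsumI 1
    rw [if_pos (one_mem _)] at h1
    have h2 : ∑ φ ∈ I, (φ : T → ℂ) 1 * (φ : T → ℂ) 1 = ∑ φ ∈ I, (1 : ℂ) :=
      Finset.sum_congr rfl (fun φ hφ => by rw [hlin φ hφ, mul_one])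
    rw [h2, Finset.sum_const, nsmul_eq_mul, mul_one] at h1
    have h3 : (H.subgroupOf T).index = H.relIndex T := rfl
    rw [← h3]
    exact_mod_cast h1
  have hgal : indFun (H.subgroupOf T) θ₀ = ∑ φ ∈ I, (φ : T → ℂ) * χ₀ := by
    funext t
    rw [Finset.sum_apply]
    have h1 : ∑ φ ∈ I, ((φ : T → ℂ) * χ₀) t =
        (∑ φ ∈ I, (φ : T → ℂ) 1 * (φ : T → ℂ) t) * χ₀ t := by
      rw [Finset.sum_mul]
      refine Finset.sum_congr rfl fun φ hφ => ?_
      rw [Pi.mul_apply, hlin φ hφ, one_mul]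
    rw [h1, hsumI t]
    by_cases ht : t ∈ H.subgroupOf T
    · rw [if_pos ht]
      have h2 : indFun (H.subgroupOf T) θ₀ t = ((H.subgroupOf T).index : ℂ) * θ₀ ⟨t, ht⟩ :=
        Helper6.indFun_apply_of_invariant (H.subgroupOf T) θ₀ hinv₀ ⟨t, ht⟩
      have h3 : χ₀ t = θ₀ ⟨t, ht⟩ := hχ₀res ⟨t, ht⟩
      rw [h2, h3]
    · rw [if_neg ht, zero_mul]
      exact Helper6.indFun_apply_of_not_mem (H.subgroupOf T) θ₀ ht
  have hφc : ∀ φ : IrrCharacter T, IsCharacter T ((φ : T → ℂ) * χ₀) := fun φ =>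
    Helper2.IsCharacter.mul (Helper24.isCharacter_of_irr φ.2) (Helper24.isCharacter_of_irr hχ₀)
  have hΨc : ∀ φ : IrrCharacter T, IsCharacter G (indFun T ((φ : T → ℂ) * χ₀)) := fun φ =>
    Helper2.isCharacter_indFun T (hφc φ)
  have hθ₀1 : θ₀ 1 = θ 1 := by
    rw [hθ₀def]
    exact congrArg θ (Subtype.ext rfl)
  have hχ₀1 : χ₀ 1 = θ 1 := by
    rw [← hθ₀1]
    exact hχ₀res 1
  have hΨ1 : ∀ φ ∈ I, indFun T ((φ : T → ℂ) * χ₀) 1 = (T.index : ℂ) * θ 1 := by
    intro φ hφ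
    rw [Helper10.indFun_one, Pi.mul_apply, hlin φ hφ, one_mul, hχ₀1]
    have hT0 : (Nat.card T : ℂ) ≠ 0 := by exact_mod_cast Nat.card_pos.ne'
    have h1 : (Nat.card G : ℂ) = (Nat.card T : ℂ) * (T.index : ℂ) := by
      exact_mod_cast (Subgroup.card_mul_index T).symm
    rw [h1, ← mul_assoc, inv_mul_cancel₀ hT0, one_mul]
  have hnorm : classInner (indFun H θ) (indFun H θ) = (H.relIndex T : ℂ) := by
    rw [classInner_indFun_normal H θ hθ]
    have key : ∀ s : Finset G,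
        (∀ x, x ∈ s ↔ θ = fun h : H => θ ⟨x * h * x⁻¹, hN.conj_mem h h.2 x⟩) →
        s.card = Nat.card T := by
      intro s hs
      rw [Nat.card_eq_fintype_card]
      refine (Fintype.card_of_subtype s (fun x => ?_)).symm
      rw [hs x, hT x]
      constructor
      · intro h n
        exact (congrFun h n).symm
      · intro h
        funext n
        exact (h n).symm
    rw [key _ (fun x => by simp)]
    have hH0 : (Nat.card H : ℂ) ≠ 0 := by exact_mod_cast Nat.card_pos.ne'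
    have h1 : (Nat.card T : ℂ) = (Nat.card H : ℂ) * (H.relIndex T : ℂ) := by
      have h2 := Subgroup.card_mul_index (H.subgroupOf T)
      rw [hcard₀] at h2
      have h3 : (H.subgroupOf T).index = H.relIndex T := rfl
      rw [h3] at h2
      exact_mod_cast h2.symm
    rw [h1, ← mul_assoc, inv_mul_cancel₀ hH0, one_mul]
  subst hθ₀def
  have hind : indFun H θ = ∑ φ ∈ I, indFun T ((φ : T → ℂ) * χ₀) := by
    rw [← indFun_trans H T hHT θ, hgal, indFun_sum]
  have hnat : ∀ φ φ' : IrrCharacter T, ∃ m : ℕ,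
      classInner (indFun T ((φ : T → ℂ) * χ₀)) (indFun T ((φ' : T → ℂ) * χ₀)) = (m : ℂ) :=
    fun φ φ' => Helper2.classInner_char_nat (hΨc φ) (hΨc φ')
  choose m hm using hnat
  have hsum : ∑ φ ∈ I, ∑ φ' ∈ I, m φ φ' = I.card := by
    have h1 := hnorm
    rw [hind, Helper2.classInner_sum_left] at h1
    have h2 : ∑ φ ∈ I, classInner (indFun T ((φ : T → ℂ) * χ₀))
        (∑ φ' ∈ I, indFun T ((φ' : T → ℂ) * χ₀)) =
        ((∑ φ ∈ I, ∑ φ' ∈ I, m φ φ' : ℕ) : ℂ) := by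
      push_cast
      refine Finset.sum_congr rfl fun φ _ => ?_
      rw [Helper2.classInner_sum_right]
      exact Finset.sum_congr rfl fun φ' _ => hm φ φ'
    rw [h2, ← hIcard] at h1
    exact_mod_cast h1
  have hdiag : ∀ φ ∈ I, 1 ≤ m φ φ := by
    intro φ hφ
    obtain ⟨k, hk1, hk⟩ := Helper6.exists_norm_nat_pos (hΨc φ) (by
      rw [hΨ1 φ hφ]
      exact mul_ne_zero (by exact_mod_cast Subgroup.index_ne_zero_of_finite)
        (Helper24.irr_one_ne_zero hθ))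
    have h1 : (m φ φ : ℂ) = (k : ℂ) := by rw [← hm φ φ, hk]
    have h2 : m φ φ = k := by exact_mod_cast h1
    omega
  have hrow : ∀ φ ∈ I, ∑ φ' ∈ I, m φ φ' = 1 := by
    have hle : ∀ φ ∈ I, 1 ≤ ∑ φ' ∈ I, m φ φ' := fun φ hφ =>
      le_trans (hdiag φ hφ)
        (Finset.single_le_sum (f := fun φ' => m φ φ') (fun _ _ => Nat.zero_le _) hφ)
    have h1 : ∑ φ ∈ I, (1 : ℕ) = ∑ φ ∈ I, ∑ φ' ∈ I, m φ φ' := by
      rw [hsum, Finset.sum_const, smul_eq_mul, mul_one]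
    intro φ hφ
    exact ((Finset.sum_eq_sum_iff_of_le hle).1 h1 φ hφ).symm
  have hdiag1 : ∀ φ ∈ I, m φ φ = 1 := by
    intro φ hφ
    have h1 := hrow φ hφ
    have h2 : m φ φ ≤ ∑ φ' ∈ I, m φ φ' :=
      Finset.single_le_sum (f := fun φ' => m φ φ') (fun _ _ => Nat.zero_le _) hφ
    have h3 := hdiag φ hφ
    omega
  have hoff : ∀ φ ∈ I, ∀ φ' ∈ I, φ ≠ φ' → m φ φ' = 0 := by
    intro φ hφ φ' hφ' hne
    have h1 := hrow φ hφ
    have h0 : m φ φ + ∑ x ∈ I.erase φ, m φ x = ∑ x ∈ I, m φ x :=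
      Finset.add_sum_erase I (fun φ' => m φ φ') hφ
    have h3 := hdiag1 φ hφ
    have h2 : ∑ x ∈ I.erase φ, m φ x = 0 := by omega
    exact (Finset.sum_eq_zero_iff.1 h2) φ' (Finset.mem_erase.2 ⟨hne.symm, hφ'⟩)
  have hΨirr : ∀ φ ∈ I, IsIrrCharacter G (indFun T ((φ : T → ℂ) * χ₀)) := by
    intro φ hφ
    apply Helper2.isIrrCharacter_of_norm_one (hΨc φ)
    rw [hm φ φ, hdiag1 φ hφ, Nat.cast_one]
  have hinj : Set.InjOn (fun φ : IrrCharacter T => indFun T ((φ : T → ℂ) * χ₀))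
      (I : Set (IrrCharacter T)) := by
    intro φ hφ φ' hφ' heq
    by_contra hne
    have h1 := hm φ φ'
    rw [hoff φ hφ φ' hφ' hne] at h1
    have heq' : indFun T ((φ : T → ℂ) * χ₀) = indFun T ((φ' : T → ℂ) * χ₀) := heq
    rw [← heq', hm φ φ, hdiag1 φ hφ] at h1
    exact absurd h1 (by norm_num)
  refine ⟨I.image (fun φ : IrrCharacter T => indFun T ((φ : T → ℂ) * χ₀)), ?_, ?_, ?_, ?_⟩
  · intro χ hχ
    obtain ⟨φ, hφ, rfl⟩ := Finset.mem_image.1 hχ
    exact hΨirr φ hφ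
  · rw [Finset.card_image_of_injOn hinj, hIcard]
  · rw [Finset.sum_image hinj]
    exact hind
  · intro χ hχ
    obtain ⟨φ, hφ, rfl⟩ := Finset.mem_image.1 hχ
    exact hΨ1 φ hφ

end Cfsg.Agent.S1491
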