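import Cfsg.Statements.S1494
import Cfsg.Agent.Helper10.AbelChar
import Cfsg.Agent.Helper2.CharBound

set_option autoImplicit false
open Cfsg

namespace Cfsg.Agent.S1494

theorem lin_diff {A : Type*} [Group A] [Finite A] (p : ℕ) (hp : p.Prime) {φ : A → ℂ}
    (hφ : IsCharacter A φ) (h1 : φ 1 = 1) (hmul : ∀ a b : A, φ (a * b) = φ a * φ b) (x y : A)
    (hx : x ^ p = 1) :
    ∃ ω : ℂ, IsIntegral ℤ ω ∧
      φ (x * y) - φ y = (1 - Complex.exp (2 * Real.pi * Complex.I / p)) * ω := by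
  have hε := Complex.isPrimitiveRoot_exp p hp.ne_zero
  have : NeZero p := ⟨hp.ne_zero⟩
  have hxp : φ x ^ p = 1 := by
    rw [← Helper24.linear_char_pow hφ h1, hx, h1]
  obtain ⟨j, -, hj⟩ := hε.eq_pow_of_pow_eq_one hxp
  have hεint : IsIntegral ℤ (Complex.exp (2 * Real.pi * Complex.I / p)) := hε.isIntegral hp.pos
  refine ⟨-(∑ i ∈ Finset.range j, Complex.exp (2 * Real.pi * Complex.I / p) ^ i) * φ y, ?_, ?_⟩
  · apply IsIntegral.mul
    · apply IsIntegral.neg
      apply IsIntegral.sum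
      intro i _
      exact IsIntegral.pow hεint i
    · exact Helper2.IsCharacter.isIntegral hφ y
  · have hg := mul_geom_sum (Complex.exp (2 * Real.pi * Complex.I / p)) j
    rw [hmul, ← hj]
    linear_combination (φ y) * hg.symm

theorem list_diff {A : Type*} [Group A] [Finite A] (p : ℕ) (hp : p.Prime) (l : List (A → ℂ))
    (hl : ∀ φ ∈ l, IsCharacter A φ ∧ φ 1 = 1 ∧ ∀ a b : A, φ (a * b) = φ a * φ b) (x y : A)
    (hx : x ^ p = 1) :
    ∃ ω : ℂ, IsIntegral ℤ ω ∧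
      l.sum (x * y) - l.sum y = (1 - Complex.exp (2 * Real.pi * Complex.I / p)) * ω := by
  induction l with
  | nil => exact ⟨0, isIntegral_zero, by simp⟩
  | cons a l ih =>
    obtain ⟨ω₁, hω₁, h₁⟩ := ih (fun φ hφ => hl φ (by simp [hφ]))
    obtain ⟨ha1, ha2, ha3⟩ := hl a (by simp)
    obtain ⟨ω₂, hω₂, h₂⟩ := lin_diff p hp ha1 ha2 ha3 x y hx
    refine ⟨ω₂ + ω₁, hω₂.add hω₁, ?_⟩
    rw [List.sum_cons, Pi.add_apply, Pi.add_apply]
    linear_combination h₁ + h₂

theorem char_diff {G : Type*} [Group G] [Finite G] {χ : G → ℂ} (hχ : IsCharacter G χ) (p : ℕ)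
    (hp : p.Prime) (x y : G) (hx : orderOf x = p) (hxy : x * y = y * x) :
    ∃ ω : ℂ, IsIntegral ℤ ω ∧
      χ (x * y) - χ y = (1 - Complex.exp (2 * Real.pi * Complex.I / p)) * ω := by
  have hcomm : ∀ a ∈ ({x, y} : Set G), ∀ b ∈ ({x, y} : Set G), a * b = b * a := by
    intro a ha b hb
    rcases ha with rfl | rfl <;> rcases hb with rfl | rfl
    · rfl
    · exact hxy
    · exact hxy.symm
    · rfl
  have hmc := Subgroup.isMulCommutative_closure hcomm
  have hc : ∀ a b : ↥(Subgroup.closure ({x, y} : Set G)), a * b = b * a := by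
    intro a b
    apply Subtype.ext
    exact setLike_mul_comm a.2 b.2
  have hres := Helper24.isCharacter_restrict (Subgroup.closure ({x, y} : Set G)) hχ
  obtain ⟨l, hl, hsum⟩ := Helper10.char_comm_exists_list hc hres
  have hxm : x ∈ Subgroup.closure ({x, y} : Set G) := Subgroup.subset_closure (by simp)
  have hym : y ∈ Subgroup.closure ({x, y} : Set G) := Subgroup.subset_closure (by simp)
  have hxp : (⟨x, hxm⟩ : ↥(Subgroup.closure ({x, y} : Set G))) ^ p = 1 := by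
    apply Subtype.ext
    rw [Subgroup.coe_pow]
    show x ^ p = 1
    rw [← hx, pow_orderOf_eq_one]
  obtain ⟨ω, hω, h⟩ := list_diff p hp l hl ⟨x, hxm⟩ ⟨y, hym⟩ hxp
  refine ⟨ω, hω, ?_⟩
  rw [← h, ← hsum]
  rfl

/-- Let χ be a generalized character of the finite group G, p a prime, x an element of order p and y an element commuting with x. Then χ(x * y) − χ(y) = (1 − ε) * ω for some algebraic integer ω, where ε = exp(2πi/p). -/
theorem result {G : Type*} [Group G] [Finite G] (χ : G → ℂ) (hχ : Cfsg.IsGeneralizedCharacter G χ) (p : ℕ) (hp : p.Prime) (x y : G) (hx : orderOf x = p) (hxy : x * y = y * x) : ∃ ω : ℂ, IsIntegral ℤ ω ∧ χ (x * y) - χ y = (1 - Complex.exp (2 * Real.pi * Complex.I / p)) * ω := by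
  obtain ⟨χ₁, χ₂, h₁, h₂, rfl⟩ := hχ
  obtain ⟨ω₁, hω₁, e₁⟩ := char_diff h₁ p hp x y hx hxy
  obtain ⟨ω₂, hω₂, e₂⟩ := char_diff h₂ p hp x y hx hxy
  refine ⟨ω₁ - ω₂, hω₁.sub hω₂, ?_⟩
  rw [Pi.sub_apply, Pi.sub_apply]
  linear_combination e₁ - e₂

end Cfsg.Agent.S1494
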