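import Cfsg.Statements.S1495
import Mathlib

set_option autoImplicit false
open Cfsg

namespace Cfsg.Agent.S1495

theorem key (p : ℕ) (hp : p.Prime) (ζ : ℂ) (hζ : IsPrimitiveRoot ζ p) (n : ℤ) (ω : ℂ)
    (hω : IsIntegral ℤ ω) (h : (n : ℂ) = (1 - ζ) * ω) : (p : ℤ) ∣ n := by
  obtain ⟨m, rfl⟩ : ∃ m, p = m + 1 := ⟨p - 1, by have := hp.pos; omega⟩
  have hζi : IsIntegral ℤ ζ := hζ.isIntegral (Nat.succ_pos m)
  have hζp : ζ ^ (m + 1) = 1 := hζ.pow_eq_one
  have hstep : ∀ k : ℕ, k < m → ∃ w : ℂ, IsIntegral ℤ w ∧ (n : ℂ) = (1 - ζ ^ (k + 1)) * w := by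
    intro k hk
    have hcop : Nat.Coprime (k + 1) (m + 1) := by
      rw [Nat.coprime_comm]
      exact (Nat.Prime.coprime_iff_not_dvd hp).mpr (Nat.not_dvd_of_pos_of_lt (Nat.succ_pos k) (by omega))
    obtain ⟨t, -, ht⟩ := Nat.exists_mul_mod_eq_one_of_coprime hcop (by have := hp.two_le; omega)
    have hpow : ζ ^ ((k + 1) * t) = ζ := by
      have h1 : (k + 1) * t = (m + 1) * ((k + 1) * t / (m + 1)) + 1 := by
        have := Nat.div_add_mod ((k + 1) * t) (m + 1)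
        omega
      rw [h1, pow_add, pow_mul, hζp, one_pow, one_mul, pow_one]
    refine ⟨(∑ j ∈ Finset.range t, (ζ ^ (k + 1)) ^ j) * ω, ?_, ?_⟩
    · refine IsIntegral.mul ?_ hω
      exact IsIntegral.sum _ (fun j _ => (hζi.pow _).pow _)
    · rw [← mul_assoc, mul_neg_geom_sum, ← pow_mul, hpow, h]
  choose! w hw using hstep
  have hprod : (n : ℂ) ^ m = ((m + 1 : ℕ) : ℂ) * ∏ k ∈ Finset.range m, w k := by
    have h1 : (n : ℂ) ^ m = ∏ k ∈ Finset.range m, (n : ℂ) := by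
      rw [Finset.prod_const, Finset.card_range]
    have h2 : ∏ k ∈ Finset.range m, (n : ℂ) = ∏ k ∈ Finset.range m, ((1 - ζ ^ (k + 1)) * w k) := by
      apply Finset.prod_congr rfl
      intro k hk
      exact (hw k (Finset.mem_range.mp hk)).2
    rw [h1, h2, Finset.prod_mul_distrib, IsPrimitiveRoot.prod_one_sub_pow_eq_order hζ]
    push_cast
    ring
  have hΩ : IsIntegral ℤ (∏ k ∈ Finset.range m, w k) :=
    IsIntegral.prod _ (fun k hk => (hw k (Finset.mem_range.mp hk)).1)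
  have hne : ((m + 1 : ℕ) : ℂ) ≠ 0 := by exact_mod_cast Nat.succ_ne_zero m
  have hrat : ∃ q : ℚ, (∏ k ∈ Finset.range m, w k) = q := by
    refine ⟨(n : ℚ) ^ m / ((m + 1 : ℕ) : ℚ), ?_⟩
    push_cast
    rw [eq_div_iff (by exact_mod_cast Nat.succ_ne_zero m), mul_comm]
    have := hprod.symm
    push_cast at this
    exact this
  obtain ⟨K, hK⟩ := (IsIntegral.exists_int_iff_exists_rat hΩ).mp hrat
  rw [hK] at hprod
  have hint : n ^ m = ((m + 1 : ℕ) : ℤ) * K := by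
    exact_mod_cast hprod
  have hdvd : ((m + 1 : ℕ) : ℤ) ∣ n ^ m := ⟨K, hint⟩
  exact (Nat.prime_iff_prime_int.mp hp).dvd_of_dvd_pow hdvd

/-- If an integer n equals (1 − ε)·ω with ε a primitive p-th root of unity (p prime) and ω an algebraic integer, then p divides n. -/
theorem result (p : ℕ) (hp : p.Prime) (n : ℤ) (ω : ℂ) (hω : IsIntegral ℤ ω) (h : (n : ℂ) = (1 - Complex.exp (2 * Real.pi * Complex.I / p)) * ω) : (p : ℤ) ∣ n :=
  key p hp _ (Complex.isPrimitiveRoot_exp p hp.ne_zero) n ω hω h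

end Cfsg.Agent.S1495
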