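import Cfsg.Statements.S1496
import Cfsg.Agent.Helper10.CyclicCompl

set_option autoImplicit false
open Cfsg

namespace Cfsg.Agent.S1496

/-- If g normalises a finite subgroup H and the orders of g and H are coprime, then every element of the coset Hg is conjugate under H to an element of C_H(g)·g. -/
theorem result {G : Type*} [Group G] [Finite G] (H : Subgroup G) (g : G) (hg : g ∈ Subgroup.normalizer (H : Set G)) (hcop : Nat.Coprime (orderOf g) (Nat.card H)) (h : G) (hh : h ∈ H) : ∃ x ∈ H, ∃ c ∈ H, c * g = g * c ∧ x * (h * g) * x⁻¹ = c * g := by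
  have hu : (h * g) * g⁻¹ ∈ H := by simpa using hh
  obtain ⟨x, hx, j, hxj⟩ := Cfsg.Agent.Helper10.exists_pow_conj H g (h * g) hg hcop hu
  refine ⟨x⁻¹, H.inv_mem hx, x⁻¹ * (h * g) * x * g⁻¹, ?_, ?_, ?_⟩
  · have h1 : g * x * g⁻¹ ∈ H := (Subgroup.mem_normalizer_iff.mp hg x).mp hx
    have h2 : x⁻¹ * (h * g) * x * g⁻¹ = x⁻¹ * h * (g * x * g⁻¹) := by group
    rw [h2]; exact H.mul_mem (H.mul_mem (H.inv_mem hx) hh) h1
  · have h1 : g = (x⁻¹ * (h * g) * x) ^ j := by
      have : (x⁻¹ * (h * g) * x) ^ j = x⁻¹ * (h * g) ^ j * x := by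
        have := conj_pow (a := x⁻¹) (b := h * g) (i := j)
        simpa using this
      rw [this, ← hxj]; group
    have h2 : Commute g (x⁻¹ * (h * g) * x) := by
      have h3 : Commute ((x⁻¹ * (h * g) * x) ^ j) (x⁻¹ * (h * g) * x) :=
        (Commute.refl _).pow_left j
      rw [← h1] at h3
      exact h3
    have h4 : x⁻¹ * (h * g) * x * g⁻¹ * g = x⁻¹ * (h * g) * x := by group
    rw [h4]
    have h5 : g * (x⁻¹ * (h * g) * x * g⁻¹) = g * (x⁻¹ * (h * g) * x) * g⁻¹ := by group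
    rw [h5, h2.eq]; group
  · group

end Cfsg.Agent.S1496
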