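import Cfsg.Statements.S1497

set_option autoImplicit false
open Cfsg

namespace Cfsg.Agent.S1497

/-- Let A be a nonempty subset of the finite group G not containing 1 and L a subgroup. Then A is a TI-subset whose normaliser is L if and only if the Dade hypothesis holds for A, L and the constant choice H(a) = ⊥. -/
theorem result {G : Type*} [Group G] [Finite G] (A : Set G) (hA : A.Nonempty) (h1 : (1 : G) ∉ A) (L : Subgroup G) : (Cfsg.IsTISubset A ∧ Subgroup.normalizer A = L) ↔ Cfsg.DadeHypothesis A L (fun _ => ⊥) := by
  constructor
  · rintro ⟨hTI, rfl⟩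
    have hmem : ∀ a ∈ A, a ∈ Subgroup.normalizer A := by
      intro a ha
      by_contra hn
      have := hTI a hn a ha (by simpa using ha)
      exact h1 (this ▸ ha)
    have hcent : ∀ a ∈ A, Subgroup.centralizer ({a} : Set G) ≤ Subgroup.normalizer A := by
      intro a ha c hc
      by_contra hn
      have hca : c * a * c⁻¹ = a := by
        have := Subgroup.mem_centralizer_iff.mp hc a (Set.mem_singleton a)
        rw [← this]; simp
      have := hTI c hn a ha (by rw [hca]; exact ha)
      exact h1 (this ▸ ha)
    refine ⟨h1, hmem, ?_, ?_, ?_, ?_, ?_, ?_, ?_⟩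
    · intro x hx a ha
      exact (Subgroup.mem_set_normalizer_iff.mp hx a).mp ha
    · intro a ha g hg
      refine ⟨g, ?_, rfl⟩
      by_contra hn
      have := hTI g hn a ha hg
      exact h1 (this ▸ ha)
    · intro a ha
      exact bot_le
    · intro a ha c hc u hu
      rw [Subgroup.mem_bot] at hu ⊢
      subst hu; simp
    · intro a ha
      exact bot_inf_eq _
    · intro a ha
      rw [bot_sup_eq]
      exact inf_eq_right.mpr (hcent a ha)
    · intro a ha b hb
      simp
  · intro hD
    have hLN : L ≤ Subgroup.normalizer A := by
      intro x hx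
      rw [Subgroup.mem_set_normalizer_iff]
      intro n
      constructor
      · intro hn
        exact hD.conj_mem x hx n hn
      · intro hn
        have := hD.conj_mem x⁻¹ (L.inv_mem hx) _ hn
        simpa [mul_assoc] using this
    have hcent : ∀ a ∈ A, Subgroup.centralizer ({a} : Set G) ≤ L := by
      intro a ha
      have := hD.sup_eq a ha
      rw [bot_sup_eq] at this
      exact inf_eq_right.mp this
    have key : ∀ a ∈ A, ∀ g : G, g * a * g⁻¹ ∈ A → g ∈ L := by
      intro a ha g hg
      obtain ⟨x, hx, hxa⟩ := hD.fusion a ha g hg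
      have hc : x⁻¹ * g ∈ Subgroup.centralizer ({a} : Set G) := by
        rw [Subgroup.mem_centralizer_iff]
        intro y hy
        rw [Set.mem_singleton_iff] at hy
        subst hy
        have h2 : g * y = x * y * x⁻¹ * g := by
          rw [hxa]; simp
        calc y * (x⁻¹ * g) = x⁻¹ * (x * y * x⁻¹ * g) := by group
          _ = x⁻¹ * (g * y) := by rw [h2]
          _ = x⁻¹ * g * y := by group
      have := L.mul_mem hx (hcent a ha hc)
      simpa using this
    refine ⟨?_, le_antisymm ?_ hLN⟩
    · intro g hg x hx hgx
      exact absurd (hLN (key x hx g hgx)) hg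
    · intro g hg
      obtain ⟨a, ha⟩ := hA
      exact key a ha g ((Subgroup.mem_set_normalizer_iff.mp hg a).mp ha)

end Cfsg.Agent.S1497
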