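import Cfsg.Statements.S1498

set_option autoImplicit false
open Cfsg

namespace Cfsg.Agent.S1498

theorem key {G : Type*} [Group G] [Finite G] (A : Set G) (L : Subgroup G) (H : G → Subgroup G)
    (hD : Cfsg.DadeHypothesis A L H) (b : G) (hb : b ∈ A) (v : G)
    (hv : v ∈ Subgroup.centralizer ({b} : Set G)) (m : ℕ)
    (hm : Nat.Coprime m (Nat.card ↥(L ⊓ Subgroup.centralizer ({b} : Set G)))) (hvm : v ^ m = 1) :
    v ∈ H b := by
  have hnorm : L ⊓ Subgroup.centralizer ({b} : Set G) ≤ Subgroup.normalizer ((H b : Subgroup G) : Set G) := by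
    intro c hc
    rw [Subgroup.mem_normalizer_iff]
    intro u
    constructor
    · intro hu
      exact hD.conj_mem_H b hb c hc.2 u hu
    · intro hu
      have := hD.conj_mem_H b hb c⁻¹ (Subgroup.inv_mem _ hc.2) _ hu
      simpa [mul_assoc] using this
  have hv' : v ∈ ((H b ⊔ (L ⊓ Subgroup.centralizer ({b} : Set G)) : Subgroup G) : Set G) := by
    rw [hD.sup_eq b hb]; exact hv
  rw [Subgroup.coe_mul_of_right_le_normalizer_left _ _ hnorm] at hv'
  obtain ⟨u, hu, l, hl, rfl⟩ := hv'
  have hu : u ∈ H b := hu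
  have hl : l ∈ L ⊓ Subgroup.centralizer ({b} : Set G) := hl
  have hpow : ∀ k : ℕ, ∃ u' ∈ H b, (u * l) ^ k = u' * l ^ k := by
    intro k
    induction k with
    | zero => exact ⟨1, one_mem _, by simp⟩
    | succ k ih =>
      obtain ⟨u', hu', h⟩ := ih
      refine ⟨u' * (l ^ k * u * (l ^ k)⁻¹), ?_, ?_⟩
      · refine mul_mem hu' ?_
        exact hD.conj_mem_H b hb (l ^ k) (pow_mem hl.2 k) u hu
      · rw [pow_succ, h, pow_succ]; group
  obtain ⟨u', hu', h⟩ := hpow m
  rw [hvm] at h
  have hlm : l ^ m ∈ H b ⊓ (L ⊓ Subgroup.centralizer ({b} : Set G)) := by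
    have h0 : l ^ m = u'⁻¹ := eq_inv_of_mul_eq_one_right h.symm
    refine Subgroup.mem_inf.mpr ⟨?_, pow_mem hl m⟩
    rw [h0]; exact (H b).inv_mem hu'
  rw [hD.inf_eq_bot b hb, Subgroup.mem_bot] at hlm
  have h1 : orderOf l ∣ m := orderOf_dvd_of_pow_eq_one hlm
  have h2 : orderOf l ∣ Nat.card ↥(L ⊓ Subgroup.centralizer ({b} : Set G)) :=
    Subgroup.orderOf_dvd_natCard _ hl
  have h3 : orderOf l = 1 := Nat.eq_one_of_dvd_coprimes hm h1 h2
  rw [orderOf_eq_one_iff] at h3
  subst h3
  simpa using hu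

/-- Under the Dade set-up for (A, L, H), the subgroups H(a) are permuted by L compatibly with its conjugation action on A: H(x a x⁻¹) = x H(a) x⁻¹ for a ∈ A and x ∈ L. -/
theorem result {G : Type*} [Group G] [Finite G] (A : Set G) (L : Subgroup G) (H : G → Subgroup G) (hD : Cfsg.DadeHypothesis A L H) (a : G) (ha : a ∈ A) (x : G) (hx : x ∈ L) : H (x * a * x⁻¹) = (H a).map (MulAut.conj x).toMonoidHom := by
  have hb : x * a * x⁻¹ ∈ A := hD.conj_mem x hx a ha
  apply le_antisymm
  · intro w hw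
    have hwc : w ∈ Subgroup.centralizer ({x * a * x⁻¹} : Set G) := hD.le_centralizer _ hb hw
    have hv : x⁻¹ * w * x ∈ H a := by
      refine key A L H hD a ha (x⁻¹ * w * x) ?_ (Nat.card (H (x * a * x⁻¹))) (hD.coprime _ hb a ha) ?_
      · rw [Subgroup.mem_centralizer_iff] at hwc ⊢
        intro y hy
        rw [Set.mem_singleton_iff] at hy
        subst hy
        have := hwc (x * y * x⁻¹) (Set.mem_singleton _)
        calc y * (x⁻¹ * w * x) = x⁻¹ * (x * y * x⁻¹ * w) * x := by group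
          _ = x⁻¹ * (w * (x * y * x⁻¹)) * x := by rw [this]
          _ = x⁻¹ * w * x * y := by group
      · have h1 : w ^ Nat.card (H (x * a * x⁻¹)) = 1 := by
          have := Subgroup.orderOf_dvd_natCard _ hw
          exact orderOf_dvd_iff_pow_eq_one.mp this
        have h2 : (x⁻¹ * w * x) ^ Nat.card (H (x * a * x⁻¹)) = x⁻¹ * w ^ Nat.card (H (x * a * x⁻¹)) * x := by
          have := conj_pow (a := x⁻¹) (b := w) (i := Nat.card (H (x * a * x⁻¹)))
          simpa using this
        rw [h2, h1]; simp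
    rw [Subgroup.mem_map]
    refine ⟨x⁻¹ * w * x, hv, ?_⟩
    simp [MulAut.conj_apply, mul_assoc]
  · rintro w ⟨u, hu, rfl⟩
    have hu : u ∈ H a := hu
    have huc : u ∈ Subgroup.centralizer ({a} : Set G) := hD.le_centralizer _ ha hu
    simp only [MulEquiv.coe_toMonoidHom, MulAut.conj_apply]
    refine key A L H hD _ hb (x * u * x⁻¹) ?_ (Nat.card (H a)) (hD.coprime a ha _ hb) ?_
    · rw [Subgroup.mem_centralizer_iff] at huc ⊢
      intro y hy
      rw [Set.mem_singleton_iff] at hy
      subst hy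
      have := huc a (Set.mem_singleton _)
      calc x * a * x⁻¹ * (x * u * x⁻¹) = x * (a * u) * x⁻¹ := by group
        _ = x * (u * a) * x⁻¹ := by rw [this]
        _ = x * u * x⁻¹ * (x * a * x⁻¹) := by group
    · have h1 : u ^ Nat.card (H a) = 1 := by
        have := Subgroup.orderOf_dvd_natCard _ hu
        exact orderOf_dvd_iff_pow_eq_one.mp this
      rw [conj_pow, h1]; simp

end Cfsg.Agent.S1498
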