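import Cfsg.Statements.S1500
import Cfsg.Agent.Helper10.DadeCount
-- import your own Cfsg.Agent.* helpers here

set_option autoImplicit false
open Cfsg

namespace Cfsg.Agent.S1500



/-- Under the Dade hypothesis for (A, L, H), let α be a class function of L vanishing outside A. Then (i) for every class function β of L vanishing outside A, the inner product over G of the Dade images of α and β equals the inner product of α and β over L; and (ii) for every class function χ of G and every function ψ on L whose value at each a ∈ A is the average of χ over the coset a·H(a), the inner product over G of the Dade image of α with χ equals the inner product over L of α with ψ. -/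
theorem result {G : Type*} [Group G] [Fintype G] (A : Set G) (L : Subgroup G) [Fintype L] (H : G → Subgroup G) (hD : Cfsg.DadeHypothesis A L H) (α : L → ℂ) (hα : Cfsg.IsClassFunction L α) (hαA : ∀ x : L, (x : G) ∉ A → α x = 0) : (∀ β : L → ℂ, Cfsg.IsClassFunction L β → (∀ x : L, (x : G) ∉ A → β x = 0) → Cfsg.classInner (Cfsg.dadeIsometry A L H α) (Cfsg.dadeIsometry A L H β) = Cfsg.classInner α β) ∧ (∀ (χ : G → ℂ) (ψ : L → ℂ), Cfsg.IsClassFunction G χ → (∀ a : L, (a : G) ∈ A → ψ a = (Nat.card (H a) : ℂ)⁻¹ * ∑ᶠ u ∈ (H a : Set G), χ (a * u)) → Cfsg.classInner (Cfsg.dadeIsometry A L H α) χ = Cfsg.classInner α ψ) := by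
  classical
  obtain ⟨Dset, hDset⟩ : ∃ Dset : Finset G, ∀ g, g ∈ Dset ↔
      ∃ a ∈ A, ∃ u ∈ H a, ∃ x : G, x * g * x⁻¹ = a * u :=
    ⟨Finset.univ.filter (fun g => ∃ a ∈ A, ∃ u ∈ H a, ∃ x : G, x * g * x⁻¹ = a * u), by simp⟩
  obtain ⟨Aset, hAset⟩ : ∃ Aset : Finset L, ∀ a : L, a ∈ Aset ↔ (a : G) ∈ A :=
    ⟨Finset.univ.filter (fun a : L => (a : G) ∈ A), by simp⟩
  obtain ⟨Hset, hHset⟩ : ∃ Hset : G → Finset G, ∀ a u : G, u ∈ Hset a ↔ u ∈ H a :=
    ⟨fun a => Finset.univ.filter (fun u => u ∈ H a), by simp⟩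
  have hcard : ∀ a : G, (Hset a).card = Nat.card (H a) := by
    intro a
    rw [Nat.card_eq_fintype_card, Fintype.card_subtype]
    congr 1
    ext u
    simp only [Finset.mem_filter, Finset.mem_univ, true_and]
    exact hHset a u
  have hfinsum : ∀ (a : G) (f : G → ℂ), ∑ᶠ u ∈ (H a : Set G), f u = ∑ u ∈ Hset a, f u := by
    intro a f
    refine finsum_cond_eq_sum_of_cond_iff f ?_
    intro u _
    exact (hHset a u).symm
  have hG0 : (Nat.card G : ℂ) ≠ 0 := by exact_mod_cast Nat.card_pos.ne'
  have hL0 : (Nat.card L : ℂ) ≠ 0 := by exact_mod_cast Nat.card_pos.ne'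
  have hii : ∀ (χ : G → ℂ) (ψ : L → ℂ), Cfsg.IsClassFunction G χ →
      (∀ a : L, (a : G) ∈ A →
        ψ a = (Nat.card (H a) : ℂ)⁻¹ * ∑ᶠ u ∈ (H a : Set G), χ (a * u)) →
      Cfsg.classInner (Cfsg.dadeIsometry A L H α) χ = Cfsg.classInner α ψ := by
    intro χ ψ hχ hψ
    have hF : IsClassFunction G
        (fun g => dadeIsometry A L H α g * (starRingEnd ℂ) (χ g)) := by
      intro g h
      show dadeIsometry A L H α (h * g * h⁻¹) * (starRingEnd ℂ) (χ (h * g * h⁻¹)) = _
      rw [Helper10.dade_isClassFunction A L H hD α hα g h, hχ g h]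
    have hcount := Helper10.dade_count A L H hD _ hF Dset hDset Aset hAset Hset hHset
    have hLs : ∑ g : G, dadeIsometry A L H α g * (starRingEnd ℂ) (χ g) =
        ∑ g ∈ Dset, dadeIsometry A L H α g * (starRingEnd ℂ) (χ g) := by
      symm
      apply Finset.sum_subset (Finset.subset_univ _)
      intro g _ hg
      rw [Helper10.dade_zero' A L H α (fun h => hg ((hDset g).2 h)), zero_mul]
    have hRs : ∑ a : L, α a * (starRingEnd ℂ) (ψ a) =
        ∑ a ∈ Aset, (Nat.card (H a) : ℂ)⁻¹ *
          ∑ u ∈ Hset a, dadeIsometry A L H α (a * u) * (starRingEnd ℂ) (χ (a * u)) := by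
      rw [← Finset.sum_subset (Finset.subset_univ Aset)]
      · refine Finset.sum_congr rfl fun a ha => ?_
        have haA := (hAset a).1 ha
        have e : ∀ u ∈ Hset (a : G), dadeIsometry A L H α (a * u) *
            (starRingEnd ℂ) (χ (a * u)) = α a * (starRingEnd ℂ) (χ (a * u)) := by
          intro u hu
          rw [Helper10.dade_apply A L H hD α hα haA ((hHset _ _).1 hu) (x := 1) (by group)]
        rw [hψ a haA, hfinsum (a : G) (fun u => χ ((a : G) * u)), map_mul, map_inv₀,
          Complex.conj_natCast, map_sum, Finset.sum_congr rfl e, ← Finset.mul_sum]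
        ring
      · intro a _ ha
        rw [hαA a (fun h => ha ((hAset a).2 h)), zero_mul]
    unfold classInner
    rw [hLs, hRs]
    have key : ∀ (x y : ℂ), (Nat.card L : ℂ) * x = (Nat.card G : ℂ) * y →
        (Nat.card G : ℂ)⁻¹ * x = (Nat.card L : ℂ)⁻¹ * y := by
      intro x y h
      field_simp
      linear_combination h
    exact key _ _ hcount
  refine ⟨?_, hii⟩
  intro β hβ hβA
  refine hii (dadeIsometry A L H β) β (Helper10.dade_isClassFunction A L H hD β hβ) ?_
  intro a haA
  have e : ∀ u ∈ Hset (a : G), dadeIsometry A L H β ((a : G) * u) = β a := by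
    intro u hu
    exact Helper10.dade_apply A L H hD β hβ haA ((hHset _ _).1 hu) (x := 1) (by group)
  rw [hfinsum (a : G) (fun u => dadeIsometry A L H β ((a : G) * u)), Finset.sum_congr rfl e,
    Finset.sum_const, nsmul_eq_mul, hcard]
  have hH0 : (Nat.card (H (a : G)) : ℂ) ≠ 0 := by exact_mod_cast Nat.card_pos.ne'
  field_simp

end Cfsg.Agent.S1500
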