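import Cfsg.Statements.S1503
import Cfsg.Agent.Helper10.TIFamily
import Cfsg.Agent.Helper10.AbDual

set_option autoImplicit false
open Cfsg

namespace Cfsg.Agent.S1503

open scoped ComplexConjugate

theorem result {G : Type*} [Group G] [Fintype G] (W₁ W₂ : Subgroup G) (hW : Cfsg.IsSelfNormalizingCyclic W₁ W₂) (χ : (↥(W₁ ⊔ W₂) →* ℂˣ) → (G → ℂ)) (hχ : Cfsg.IsCyclicTIFamily W₁ W₂ χ) (θ : G → ℂ) (hθ : Cfsg.IsIrrCharacter G θ) (horth : ∀ ω, Cfsg.classInner θ (χ ω) = 0) (w : ↥(W₁ ⊔ W₂)) (hw₁ : (w : G) ∉ W₁) (hw₂ : (w : G) ∉ W₂) : θ w = 0 := by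
  classical
  obtain ⟨-, -, hdisj, -, hcyc, -⟩ := hW
  have := Fintype.ofFinite ↥(W₁ ⊔ W₂)
  have hc : ∀ a b : ↥(W₁ ⊔ W₂), a * b = b * a := fun a b =>
    (IsCyclic.commGroup (α := ↥(W₁ ⊔ W₂))).mul_comm a b
  have := Helper10.finite_hom_units (Q := ↥(W₁ ⊔ W₂))
  have := Fintype.ofFinite (↥(W₁ ⊔ W₂) →* ℂˣ)
  have hθc : IsClassFunction G θ := Helper2.IsIrrCharacter.isClassFunction hθ
  have hcard : (Nat.card ↥(W₁ ⊔ W₂) : ℂ)⁻¹ ≠ 0 := by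
    apply inv_ne_zero
    exact_mod_cast Nat.card_pos.ne'
  have key : ∀ φ ψ : ↥(W₁ ⊔ W₂) →* ℂˣ, (∀ v ∈ W₂.subgroupOf (W₁ ⊔ W₂), φ v = 1) →
      (∀ v ∈ W₁.subgroupOf (W₁ ⊔ W₂), ψ v = 1) →
      ∑ v : ↥(W₁ ⊔ W₂), (1 - (φ v : ℂ) - (ψ v : ℂ) + (φ v : ℂ) * (ψ v : ℂ)) * conj (θ v) = 0 := by
    intro φ ψ hφ hψ
    by_cases hφ1 : φ = 1
    · subst hφ1; simp
    by_cases hψ1 : ψ = 1
    · subst hψ1; simp
    have h0 : classInner θ (indFun (W₁ ⊔ W₂)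
        (fun v => 1 - (φ v : ℂ) - (ψ v : ℂ) + (φ v : ℂ) * (ψ v : ℂ))) = 0 := by
      rw [hχ.induced_eq φ ψ hφ1 hψ1 (fun v hv => hφ v (Subgroup.mem_subgroupOf.2 hv))
        (fun v hv => hψ v (Subgroup.mem_subgroupOf.2 hv))]
      have hfun : (fun g => 1 - χ φ g - χ ψ g + χ (φ * ψ) g) =
          χ 1 - χ φ - χ ψ + χ (φ * ψ) := by
        funext g
        rw [hχ.map_one]
        simp
      rw [hfun, Helper2.classInner_add_right, Helper2.classInner_sub_right,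
        Helper2.classInner_sub_right, horth, horth, horth, horth]
      ring
    rw [← Helper2.classInner_conj_symm, Helper2.frobenius_reciprocity _ _ θ hθc] at h0
    have h1 : classInner (fun v : ↥(W₁ ⊔ W₂) => 1 - (φ v : ℂ) - (ψ v : ℂ) + (φ v : ℂ) * (ψ v : ℂ))
        (fun v : ↥(W₁ ⊔ W₂) => θ v) = 0 := by
      simpa using h0
    unfold classInner at h1
    rcases mul_eq_zero.1 h1 with h | h
    · exact absurd h hcard
    · exact h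
  have hdisj' : W₁.subgroupOf (W₁ ⊔ W₂) ⊓ W₂.subgroupOf (W₁ ⊔ W₂) = ⊥ := by
    rw [eq_bot_iff]
    intro v hv
    have h1 : (v : G) ∈ W₁ ⊓ W₂ :=
      ⟨Subgroup.mem_subgroupOf.1 hv.1, Subgroup.mem_subgroupOf.1 hv.2⟩
    rw [hdisj, Subgroup.mem_bot] at h1
    rw [Subgroup.mem_bot]
    exact Subtype.ext h1
  obtain ⟨s, c, K, hK, hs, hexp₀, hexp⟩ := Helper10.delta_expansion' hc (W₁.subgroupOf (W₁ ⊔ W₂))
    (W₂.subgroupOf (W₁ ⊔ W₂)) hdisj' w (fun h => hw₁ (Subgroup.mem_subgroupOf.1 h))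
    (fun h => hw₂ (Subgroup.mem_subgroupOf.1 h))
  have hsum : ∑ v : ↥(W₁ ⊔ W₂),
        (∑ p ∈ s, c p * (1 - ((p.1 v : ℂˣ) : ℂ) - ((p.2 v : ℂˣ) : ℂ)
          + ((p.1 v : ℂˣ) : ℂ) * ((p.2 v : ℂˣ) : ℂ))) * conj (θ v) = 0 := by
    have hre : ∀ v : ↥(W₁ ⊔ W₂),
        (∑ p ∈ s, c p * (1 - ((p.1 v : ℂˣ) : ℂ) - ((p.2 v : ℂˣ) : ℂ)
          + ((p.1 v : ℂˣ) : ℂ) * ((p.2 v : ℂˣ) : ℂ))) * conj (θ v) =
        ∑ p ∈ s, c p * ((1 - ((p.1 v : ℂˣ) : ℂ) - ((p.2 v : ℂˣ) : ℂ)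
          + ((p.1 v : ℂˣ) : ℂ) * ((p.2 v : ℂˣ) : ℂ)) * conj (θ v)) := by
      intro v
      rw [Finset.sum_mul]
      exact Finset.sum_congr rfl fun p _ => mul_assoc _ _ _
    rw [Finset.sum_congr rfl (fun v _ => hre v), Finset.sum_comm]
    refine Finset.sum_eq_zero fun p hp => ?_
    rw [← Finset.mul_sum, key p.1 p.2 (hs p hp).1 (hs p hp).2, mul_zero]
  have hsum' : K * conj (θ w) = 0 := by
    rw [← hsum, Finset.sum_eq_single w]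
    · rw [hexp₀]
    · intro v _ hv
      rw [hexp v hv, zero_mul]
    · intro h
      exact absurd (Finset.mem_univ w) h
  rcases mul_eq_zero.1 hsum' with h | h
  · exact absurd h hK
  · simpa using h

end Cfsg.Agent.S1503
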