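import Cfsg.Statements.S1504
import Cfsg.Agent.Helper10.LinChar

set_option autoImplicit false
open Cfsg

namespace Cfsg.Agent.S1504

theorem result {G : Type*} [Group G] [Finite G] (W₁ W₂ : Subgroup G) (hdisj : W₁ ⊓ W₂ = ⊥) (hcomm : ∀ a ∈ W₁, ∀ b ∈ W₂, a * b = b * a) : (∀ φ ψ : ↥(W₁ ⊔ W₂) →* ℂˣ, (∀ w : ↥(W₁ ⊔ W₂), (w : G) ∈ W₂ → φ w = 1) → (∀ w : ↥(W₁ ⊔ W₂), (w : G) ∈ W₁ → ψ w = 1) → ∀ w : ↥(W₁ ⊔ W₂), ((w : G) ∈ W₁ ∨ (w : G) ∈ W₂) → (1 - (φ w : ℂ) - (ψ w : ℂ) + (φ w : ℂ) * (ψ w : ℂ)) = 0) ∧ LinearIndependent ℂ (fun p : {p : (↥(W₁ ⊔ W₂) →* ℂˣ) × (↥(W₁ ⊔ W₂) →* ℂˣ) // p.1 ≠ 1 ∧ p.2 ≠ 1 ∧ (∀ w : ↥(W₁ ⊔ W₂), (w : G) ∈ W₂ → p.1 w = 1) ∧ (∀ w : ↥(W₁ ⊔ W₂), (w : G) ∈ W₁ → p.2 w = 1)} => fun w : ↥(W₁ ⊔ W₂) => 1 - (p.1.1 w : ℂ) - (p.1.2 w : ℂ) + (p.1.1 w : ℂ) * (p.1.2 w : ℂ)) := by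
  classical
  constructor
  · intro φ ψ hφ hψ w hw
    rcases hw with hw | hw
    · rw [hψ w hw]; simp
    · rw [hφ w hw]; simp
  · rw [linearIndependent_iff']
    intro s g hsum p₀ hp₀
    have hD := linearIndependent_monoidHom (↥(W₁ ⊔ W₂)) ℂ
    rw [linearIndependent_iff] at hD
    set ι : (↥(W₁ ⊔ W₂) →* ℂˣ) → (↥(W₁ ⊔ W₂) →* ℂ) := fun f => (Units.coeHom ℂ).comp f with hι
    have hιinj : Function.Injective ι := by
      intro f f' h
      ext w
      have := DFunLike.congr_fun h w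
      simpa [hι] using this
    have hιapp : ∀ (f : ↥(W₁ ⊔ W₂) →* ℂˣ) (w : ↥(W₁ ⊔ W₂)), ι f w = (f w : ℂ) := fun f w => rfl
    set l : (↥(W₁ ⊔ W₂) →* ℂ) →₀ ℂ := ∑ p ∈ s, g p •
      (Finsupp.single (ι 1) (1 : ℂ) - Finsupp.single (ι p.1.1) (1 : ℂ)
        - Finsupp.single (ι p.1.2) (1 : ℂ) + Finsupp.single (ι (p.1.1 * p.1.2)) (1 : ℂ)) with hl
    have hl0 : Finsupp.linearCombination ℂ (fun f : ↥(W₁ ⊔ W₂) →* ℂ => (f : ↥(W₁ ⊔ W₂) → ℂ)) l
        = 0 := by
      rw [hl, map_sum, ← hsum]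
      refine Finset.sum_congr rfl fun p _ => ?_
      rw [map_smul, map_add, map_sub, map_sub, Finsupp.linearCombination_single,
        Finsupp.linearCombination_single, Finsupp.linearCombination_single,
        Finsupp.linearCombination_single]
      congr 1
      funext w
      simp only [one_smul, Pi.add_apply, Pi.sub_apply, hιapp, MonoidHom.one_apply, Units.val_one,
        MonoidHom.mul_apply, Units.val_mul]
    have hz := hD l hl0
    have hz' : l (ι (p₀.1.1 * p₀.1.2)) = 0 := by rw [hz]; rfl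
    obtain ⟨hφ₀, hψ₀, hφ₀2, hψ₀1⟩ := p₀.2
    obtain ⟨a, ha, hφa⟩ := Helper10.exists_ne_one_left W₁ W₂ p₀.1.1 hφ₀ hφ₀2
    obtain ⟨b, hb, hψb⟩ := Helper10.exists_ne_one_right W₁ W₂ p₀.1.2 hψ₀ hψ₀1
    have hterm : ∀ p ∈ s, (g p •
      (Finsupp.single (ι 1) (1 : ℂ) - Finsupp.single (ι p.1.1) (1 : ℂ)
        - Finsupp.single (ι p.1.2) (1 : ℂ) + Finsupp.single (ι (p.1.1 * p.1.2)) (1 : ℂ)))
        (ι (p₀.1.1 * p₀.1.2)) = if p = p₀ then g p else 0 := by
      intro p _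
      obtain ⟨hφ, hψ, hφ2, hψ1⟩ := p.2
      have e1 : ι 1 ≠ ι (p₀.1.1 * p₀.1.2) := by
        intro h
        have h' := hιinj h
        have := DFunLike.congr_fun h' a
        rw [MonoidHom.one_apply, MonoidHom.mul_apply, hψ₀1 a ha, mul_one] at this
        exact hφa this.symm
      have e2 : ι p.1.1 ≠ ι (p₀.1.1 * p₀.1.2) := by
        intro h
        have h' := hιinj h
        have := DFunLike.congr_fun h' b
        rw [MonoidHom.mul_apply, hφ₀2 b hb, one_mul, hφ2 b hb] at this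
        exact hψb this.symm
      have e3 : ι p.1.2 ≠ ι (p₀.1.1 * p₀.1.2) := by
        intro h
        have h' := hιinj h
        have := DFunLike.congr_fun h' a
        rw [MonoidHom.mul_apply, hψ₀1 a ha, mul_one, hψ1 a ha] at this
        exact hφa this.symm
      have e4 : ι (p.1.1 * p.1.2) = ι (p₀.1.1 * p₀.1.2) ↔ p = p₀ := by
        constructor
        · intro h
          have h' := hιinj h
          have h1 : p.1.1 = p₀.1.1 := by
            apply Helper10.hom_ext_sup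
            · intro w hw
              have := DFunLike.congr_fun h' w
              rw [MonoidHom.mul_apply, MonoidHom.mul_apply, hψ1 w hw, hψ₀1 w hw, mul_one,
                mul_one] at this
              exact this
            · intro w hw
              rw [hφ2 w hw, hφ₀2 w hw]
          have h2 : p.1.2 = p₀.1.2 := by
            apply Helper10.hom_ext_sup
            · intro w hw
              rw [hψ1 w hw, hψ₀1 w hw]
            · intro w hw
              have := DFunLike.congr_fun h' w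
              rw [MonoidHom.mul_apply, MonoidHom.mul_apply, hφ2 w hw, hφ₀2 w hw, one_mul,
                one_mul] at this
              exact this
          exact Subtype.ext (Prod.ext h1 h2)
        · rintro rfl; rfl
      rw [Finsupp.smul_apply, Finsupp.add_apply, Finsupp.sub_apply, Finsupp.sub_apply,
        Finsupp.single_apply, Finsupp.single_apply, Finsupp.single_apply, Finsupp.single_apply,
        if_neg e1, if_neg e2, if_neg e3]
      by_cases hp : p = p₀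
      · rw [if_pos (e4.2 hp), if_pos hp]; simp
      · rw [if_neg (fun h => hp (e4.1 h)), if_neg hp]; simp
    rw [hl, Finsupp.finset_sum_apply, Finset.sum_congr rfl hterm, Finset.sum_ite_eq' s p₀,
      if_pos hp₀] at hz'
    exact hz'

end Cfsg.Agent.S1504
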