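import Cfsg.Statements.S1505
import Cfsg.Agent.Helper10.TIInd
import Cfsg.Agent.Helper10.TIFamily
import Cfsg.Agent.Helper10.LinChar2
import Cfsg.Agent.Helper10.LinCharInner

set_option autoImplicit false
open Cfsg

namespace Cfsg.Agent.S1505

open scoped ComplexConjugate

/-- The function attached to a linear character. -/
def L {W : Type*} [Group W] (ω : W →* ℂˣ) : W → ℂ := fun v => ((ω v : ℂˣ) : ℂ)

theorem f_eq {W : Type*} [Group W] (φ ψ : W →* ℂˣ) :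
    (fun w => 1 - ((φ w : ℂˣ) : ℂ) - ((ψ w : ℂˣ) : ℂ) + ((φ w : ℂˣ) : ℂ) * ((ψ w : ℂˣ) : ℂ)) =
      L (1 : W →* ℂˣ) - L φ - L ψ + L (φ * ψ) := by
  funext w
  simp [L]

theorem I_self {W : Type*} [Group W] [Fintype W] (ω : W →* ℂˣ) : classInner (L ω) (L ω) = 1 :=
  Helper10.classInner_hom_self ω

theorem I_ne {W : Type*} [Group W] [Fintype W] {ω ω' : W →* ℂˣ} (h : ω ≠ ω') :
    classInner (L ω) (L ω') = 0 :=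
  Helper10.classInner_hom_ne h

open Classical in
/-- Let W₁, W₂ ≤ G form a self-normalising cyclic subgroup W = W₁ ⊔ W₂. For nontrivial linear characters φ, φ' of W trivial on W₂ and ψ, ψ' trivial on W₁, put α = (1 − φ)(1 − ψ) and α' = (1 − φ')(1 − ψ'). Then the function induced from α to G has inner product 1 with the principal character, and the inner product of the functions induced from α and α' is 1 + a + b + ab where a = 1 if φ = φ' (else 0) and b = 1 if ψ = ψ' (else 0). -/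
theorem result {G : Type*} [Group G] [Fintype G] (W₁ W₂ : Subgroup G) (hW : Cfsg.IsSelfNormalizingCyclic W₁ W₂) (φ φ' ψ ψ' : ↥(W₁ ⊔ W₂) →* ℂˣ) (hφ : φ ≠ 1) (hφ' : φ' ≠ 1) (hψ : ψ ≠ 1) (hψ' : ψ' ≠ 1) (hφ₂ : ∀ w : ↥(W₁ ⊔ W₂), (w : G) ∈ W₂ → φ w = 1 ∧ φ' w = 1) (hψ₁ : ∀ w : ↥(W₁ ⊔ W₂), (w : G) ∈ W₁ → ψ w = 1 ∧ ψ' w = 1) : Cfsg.classInner (Cfsg.indFun (W₁ ⊔ W₂) (fun w => 1 - (φ w : ℂ) - (ψ w : ℂ) + (φ w : ℂ) * (ψ w : ℂ))) (fun _ => 1) = 1 ∧ Cfsg.classInner (Cfsg.indFun (W₁ ⊔ W₂) (fun w => 1 - (φ w : ℂ) - (ψ w : ℂ) + (φ w : ℂ) * (ψ w : ℂ))) (Cfsg.indFun (W₁ ⊔ W₂) (fun w => 1 - (φ' w : ℂ) - (ψ' w : ℂ) + (φ' w : ℂ) * (ψ' w : ℂ))) = 1 + (if φ = φ' then 1 else 0) + (if ψ = ψ' then 1 else 0) + (if φ = φ' then 1 else 0) * (if ψ = ψ' then 1 else 0) := by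
  have := Fintype.ofFinite ↥(W₁ ⊔ W₂)
  have hφ2 : ∀ w : ↥(W₁ ⊔ W₂), (w : G) ∈ W₂ → φ w = 1 := fun w hw => (hφ₂ w hw).1
  have hφ'2 : ∀ w : ↥(W₁ ⊔ W₂), (w : G) ∈ W₂ → φ' w = 1 := fun w hw => (hφ₂ w hw).2
  have hψ1 : ∀ w : ↥(W₁ ⊔ W₂), (w : G) ∈ W₁ → ψ w = 1 := fun w hw => (hψ₁ w hw).1
  have hψ'1 : ∀ w : ↥(W₁ ⊔ W₂), (w : G) ∈ W₁ → ψ' w = 1 := fun w hw => (hψ₁ w hw).2
  have h1φ : (1 : ↥(W₁ ⊔ W₂) →* ℂˣ) ≠ φ := Ne.symm hφ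
  have h1ψ : (1 : ↥(W₁ ⊔ W₂) →* ℂˣ) ≠ ψ := Ne.symm hψ
  have h1φ' : (1 : ↥(W₁ ⊔ W₂) →* ℂˣ) ≠ φ' := Ne.symm hφ'
  have h1ψ' : (1 : ↥(W₁ ⊔ W₂) →* ℂˣ) ≠ ψ' := Ne.symm hψ'
  have hφψ1 : φ * ψ ≠ 1 := Helper10.mul_ne_one_of_triv W₁ W₂ φ ψ hφ hφ2 hψ1
  have hφ'ψ'1 : φ' * ψ' ≠ 1 := Helper10.mul_ne_one_of_triv W₁ W₂ φ' ψ' hφ' hφ'2 hψ'1
  have hφψ' : φ ≠ ψ' := Helper10.ne_of_triv W₁ W₂ φ ψ' hφ hφ2 hψ'1
  have hφ'ψ : φ' ≠ ψ := Helper10.ne_of_triv W₁ W₂ φ' ψ hφ' hφ'2 hψ1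
  have hφ_φ'ψ' : φ ≠ φ' * ψ' := Helper10.ne_mul_of_triv_left W₁ W₂ φ φ' ψ' hφ2 hφ'2 hψ' hψ'1
  have hφ'_φψ : φ' ≠ φ * ψ := Helper10.ne_mul_of_triv_left W₁ W₂ φ' φ ψ hφ'2 hφ2 hψ hψ1
  have hψ_φ'ψ' : ψ ≠ φ' * ψ' := Helper10.ne_mul_of_triv_right W₁ W₂ ψ φ' ψ' hψ1 hφ' hφ'2 hψ'1
  have hψ'_φψ : ψ' ≠ φ * ψ := Helper10.ne_mul_of_triv_right W₁ W₂ ψ' φ ψ hψ'1 hφ hφ2 hψ1
  constructor
  · have hcf : IsClassFunction G (fun _ => (1 : ℂ)) := fun _ _ => rfl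
    rw [Helper2.frobenius_reciprocity _ _ _ hcf]
    have h1 : (fun _ : ↥(W₁ ⊔ W₂) => (1 : ℂ)) = L (1 : ↥(W₁ ⊔ W₂) →* ℂˣ) := by
      funext w
      simp [L]
    rw [h1, f_eq, Helper2.classInner_add_left, Helper2.classInner_sub_left,
      Helper2.classInner_sub_left, I_self, I_ne hφ, I_ne hψ, I_ne hφψ1]
    ring
  · rw [Helper10.classInner_indFun_of_ti W₁ W₂ hW _ _
      (Helper10.one_sub_mul_eq_zero W₁ W₂ φ ψ hφ2 hψ1)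
      (Helper10.one_sub_mul_eq_zero W₁ W₂ φ' ψ' hφ'2 hψ'1)]
    rw [f_eq, f_eq]
    simp only [Helper2.classInner_add_left, Helper2.classInner_sub_left,
      Helper2.classInner_add_right, Helper2.classInner_sub_right]
    rw [I_self, I_ne h1φ', I_ne h1ψ', I_ne (Ne.symm hφ'ψ'1), I_ne hφ, I_ne hφψ', I_ne hφ_φ'ψ',
      I_ne hψ, I_ne (Ne.symm hφ'ψ), I_ne hψ_φ'ψ', I_ne hφψ1, I_ne (Ne.symm hφ'_φψ),
      I_ne (Ne.symm hψ'_φψ)]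
    have hiff := Helper10.mul_eq_mul_iff_of_triv W₁ W₂ φ φ' ψ ψ' hφ2 hφ'2 hψ1 hψ'1
    by_cases h1 : φ = φ'
    · by_cases h2 : ψ = ψ'
      · subst h1 h2
        rw [I_self, I_self, I_self, if_pos rfl, if_pos rfl]
        ring
      · subst h1
        rw [I_self, I_ne h2, I_ne (fun h => h2 (hiff.1 h).2), if_pos rfl, if_neg h2]
        ring
    · by_cases h2 : ψ = ψ'
      · subst h2
        rw [I_ne h1, I_self, I_ne (fun h => h1 (hiff.1 h).1), if_neg h1, if_pos rfl]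
        ring
      · rw [I_ne h1, I_ne h2, I_ne (fun h => h1 (hiff.1 h).1), if_neg h1, if_neg h2]
        ring

end Cfsg.Agent.S1505
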