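import Cfsg.Statements.S1507
import Cfsg.Agent.Helper10.AddMatrix
import Cfsg.Agent.Helper10.TIFamily
import Cfsg.Agent.Helper10.LinChar2
-- import your own Cfsg.Agent.* helpers here

set_option autoImplicit false
open Cfsg

namespace Cfsg.Agent.S1507

/-- The linear characters of `W₁ ⊔ W₂` that are trivial on `V`. -/
abbrev TrivOn {G : Type*} [Group G] (W₁ W₂ V : Subgroup G) : Type _ :=
  {φ : ↥(W₁ ⊔ W₂) →* ℂˣ // ∀ w : ↥(W₁ ⊔ W₂), (w : G) ∈ V → φ w = 1}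


open Classical in
/-- Let W₁, W₂ ≤ G form a self-normalising cyclic subgroup W = W₁ ⊔ W₂ of odd order with Nat.card W₁ < Nat.card W₂, and χ an orthonormal family of irreducible characters of G up to sign, indexed by the linear characters ω of W, with χ_1 = 1, χ_ω = ω on W outside W₁ ∪ W₂, and the induction identity for (1 − φ)(1 − ψ). Let θ be a class function of G vanishing on W outside W₁ ∪ W₂, and suppose fewer than 2 · Nat.card W₁ linear characters ω of W have ⟨θ, χ ω⟩ ≠ 0. Then one of: all ⟨θ, χ ω⟩ vanish; or there are ψ₀ and a with ⟨θ, χ ω⟩ = a when ω ψ₀⁻¹ is trivial on W₂ and 0 otherwise; or there are φ₀ and a with ⟨θ, χ ω⟩ = a when ω φ₀⁻¹ is trivial on W₁ and 0 otherwise. -/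
theorem result {G : Type*} [Group G] [Fintype G] (W₁ W₂ : Subgroup G) (hW : Cfsg.IsSelfNormalizingCyclic W₁ W₂) (hodd : Odd (Nat.card ↥(W₁ ⊔ W₂))) (χ : (↥(W₁ ⊔ W₂) →* ℂˣ) → (G → ℂ)) (hχ : Cfsg.IsCyclicTIFamily W₁ W₂ χ) (hlt : Nat.card W₁ < Nat.card W₂) (θ : G → ℂ) (hθ : Cfsg.IsClassFunction G θ) (hθV : ∀ w : ↥(W₁ ⊔ W₂), (w : G) ∉ W₁ → (w : G) ∉ W₂ → θ w = 0) (hfew : Nat.card {ω : ↥(W₁ ⊔ W₂) →* ℂˣ // Cfsg.classInner θ (χ ω) ≠ 0} < 2 * Nat.card W₁) : (∀ ω, Cfsg.classInner θ (χ ω) = 0) ∨ (∃ (ψ₀ : ↥(W₁ ⊔ W₂) →* ℂˣ) (a : ℂ), ∀ ω, Cfsg.classInner θ (χ ω) = if (∀ w : ↥(W₁ ⊔ W₂), (w : G) ∈ W₂ → (ω * ψ₀⁻¹) w = 1) then a else 0) ∨ (∃ (φ₀ : ↥(W₁ ⊔ W₂) →* ℂˣ) (a : ℂ), ∀ ω, Cfsg.classInner θ (χ ω) = if (∀ w : ↥(W₁ ⊔ W₂), (w : G) ∈ W₁ → (ω * φ₀⁻¹) w = 1) then a else 0) := by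
  classical
  obtain ⟨hW₁ne, hW₂ne, hinf, hcomm, hcyc, -⟩ := hW
  have hc : ∀ a b : ↥(W₁ ⊔ W₂), a * b = b * a := by
    intro a b
    obtain ⟨g, hg⟩ := hcyc.exists_generator
    obtain ⟨i, hi⟩ := Subgroup.mem_zpowers_iff.1 (hg a)
    obtain ⟨j, hj⟩ := Subgroup.mem_zpowers_iff.1 (hg b)
    rw [← hi, ← hj, ← zpow_add, ← zpow_add, add_comm]
  have hfin := Helper10.finite_hom_units (Q := ↥(W₁ ⊔ W₂))
  have := Fintype.ofFinite (↥(W₁ ⊔ W₂) →* ℂˣ)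
  obtain ⟨N₁, hN₁⟩ : ∃ N₁ : Subgroup ↥(W₁ ⊔ W₂), N₁ = W₁.subgroupOf (W₁ ⊔ W₂) := ⟨_, rfl⟩
  obtain ⟨N₂, hN₂⟩ : ∃ N₂ : Subgroup ↥(W₁ ⊔ W₂), N₂ = W₂.subgroupOf (W₁ ⊔ W₂) := ⟨_, rfl⟩
  have hmem₁ : ∀ w : ↥(W₁ ⊔ W₂), w ∈ N₁ ↔ (w : G) ∈ W₁ := by
    intro w
    rw [hN₁]
    exact Subgroup.mem_subgroupOf
  have hmem₂ : ∀ w : ↥(W₁ ⊔ W₂), w ∈ N₂ ↔ (w : G) ∈ W₂ := by
    intro w
    rw [hN₂]
    exact Subgroup.mem_subgroupOf
  have hN₂n : N₂.Normal := ⟨fun n hn g => by rw [hc g n, mul_inv_cancel_right]; exact hn⟩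
  have hdisj : Disjoint N₁ N₂ := by
    rw [disjoint_iff, eq_bot_iff]
    intro w hw
    obtain ⟨h1, h2⟩ := Subgroup.mem_inf.1 hw
    have h3 : (w : G) ∈ W₁ ⊓ W₂ := Subgroup.mem_inf.2 ⟨(hmem₁ w).1 h1, (hmem₂ w).1 h2⟩
    rw [hinf, Subgroup.mem_bot] at h3
    rw [Subgroup.mem_bot]
    exact Subtype.ext h3
  have hsup : N₁ ⊔ N₂ = ⊤ := by
    rw [hN₁, hN₂, ← Subgroup.subgroupOf_sup (le_sup_left : W₁ ≤ W₁ ⊔ W₂)
      (le_sup_right : W₂ ≤ W₁ ⊔ W₂), Subgroup.subgroupOf_self]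
  have hcompl : N₁.IsComplement' N₂ :=
    Subgroup.isComplement'_of_disjoint_and_mul_eq_univ hdisj (by
      rw [← Subgroup.mul_normal, hsup]
      rfl)
  have hcard₁ : Nat.card N₁ = Nat.card W₁ := by
    rw [hN₁]
    exact Nat.card_congr (Subgroup.subgroupOfEquivOfLe le_sup_left).toEquiv
  have hcard₂ : Nat.card N₂ = Nat.card W₂ := by
    rw [hN₂]
    exact Nat.card_congr (Subgroup.subgroupOfEquivOfLe le_sup_right).toEquiv
  have hidx₂ : N₂.index = Nat.card W₁ := by rw [hcompl.index_eq_card, hcard₁]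
  have hidx₁ : N₁.index = Nat.card W₂ := by rw [hcompl.symm.index_eq_card, hcard₂]
  have hcardW : Nat.card ↥(W₁ ⊔ W₂) = Nat.card W₁ * Nat.card W₂ := by
    rw [← hcompl.card_mul_card, hcard₁, hcard₂]
  have hodd' : Odd (Nat.card W₁) ∧ Odd (Nat.card W₂) := by
    rw [hcardW] at hodd
    exact Nat.odd_mul.1 hodd
  have hW₂ge : Nat.card W₁ + 2 ≤ Nat.card W₂ := by
    obtain ⟨⟨k, hk⟩, ⟨l, hl⟩⟩ := hodd'
    omega
  have hIcard : Nat.card W₁ ≤ Fintype.card (TrivOn W₁ W₂ W₂) := by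
    rw [← hidx₂, ← Nat.card_eq_fintype_card]
    refine le_trans (Helper10.index_le_card_hom_trivial hc N₂) (le_of_eq ?_)
    refine Nat.card_congr (Equiv.subtypeEquivRight fun φ => ?_)
    constructor
    · intro hφ w hw
      exact hφ w ((hmem₂ w).2 hw)
    · intro hφ w hw
      exact hφ w ((hmem₂ w).1 hw)
  have hJcard : Nat.card W₂ ≤ Fintype.card (TrivOn W₁ W₂ W₁) := by
    rw [← hidx₁, ← Nat.card_eq_fintype_card]
    refine le_trans (Helper10.index_le_card_hom_trivial hc N₁) (le_of_eq ?_)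
    refine Nat.card_congr (Equiv.subtypeEquivRight fun φ => ?_)
    constructor
    · intro hφ w hw
      exact hφ w ((hmem₁ w).2 hw)
    · intro hφ w hw
      exact hφ w ((hmem₁ w).1 hw)
  have hminj : Function.Injective (fun p : TrivOn W₁ W₂ W₂ × TrivOn W₁ W₂ W₁ =>
      (p.1.1 * p.2.1 : ↥(W₁ ⊔ W₂) →* ℂˣ)) := by
    intro p q h
    have h2 := (Helper10.mul_eq_mul_iff_of_triv W₁ W₂ p.1.1 q.1.1 p.2.1 q.2.1 p.1.2 q.1.2
      p.2.2 q.2.2).1 h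
    exact Prod.ext (Subtype.ext h2.1) (Subtype.ext h2.2)
  have hmbij : Function.Bijective (fun p : TrivOn W₁ W₂ W₂ × TrivOn W₁ W₂ W₁ =>
      (p.1.1 * p.2.1 : ↥(W₁ ⊔ W₂) →* ℂˣ)) := by
    refine hminj.bijective_of_nat_card_le ?_
    rw [Helper10.card_hom_units hc, hcardW, Nat.card_prod,
      Nat.card_eq_fintype_card (α := TrivOn W₁ W₂ W₂),
      Nat.card_eq_fintype_card (α := TrivOn W₁ W₂ W₁)]
    exact Nat.mul_le_mul hIcard hJcard
  have hadd : ∀ (φ : TrivOn W₁ W₂ W₂) (ψ : TrivOn W₁ W₂ W₁),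
      classInner θ (χ (φ.1 * ψ.1)) =
        classInner θ (χ φ.1) + (classInner θ (χ ψ.1) - classInner θ (fun _ => 1)) := by
    intro φ ψ
    rw [Helper10.ti_additive W₁ W₂ χ hχ θ hθ hθV φ.1 ψ.1 φ.2 ψ.2]
    ring
  have hcount : (Finset.univ.filter (fun p : TrivOn W₁ W₂ W₂ × TrivOn W₁ W₂ W₁ =>
      classInner θ (χ p.1.1) + (classInner θ (χ p.2.1) - classInner θ (fun _ => 1)) ≠ 0)).card
        < 2 * Nat.card W₁ := by
    refine lt_of_le_of_lt ?_ hfew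
    rw [Nat.card_eq_fintype_card, Fintype.card_subtype]
    refine Finset.card_le_card_of_injOn (fun p => p.1.1 * p.2.1) ?_ hminj.injOn
    intro p hp
    simp only [Finset.coe_filter, Finset.mem_univ, true_and, Set.mem_ofPred_eq] at hp ⊢
    rw [hadd]
    exact hp
  rcases Helper10.additive_matrix (fun φ : TrivOn W₁ W₂ W₂ => classInner θ (χ φ.1))
    (fun ψ : TrivOn W₁ W₂ W₁ => classInner θ (χ ψ.1) - classInner θ (fun _ => 1))
    (Nat.card W₁) hIcard (le_trans hW₂ge hJcard) hcount with h | ⟨j₀, c, h⟩ | ⟨i₀, c, h⟩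
  · left
    intro ω
    obtain ⟨p, hp⟩ := hmbij.2 ω
    have hp' : p.1.1 * p.2.1 = ω := hp
    rw [← hp', hadd]
    exact h p.1 p.2
  · right
    left
    refine ⟨j₀.1, c, ?_⟩
    intro ω
    obtain ⟨p, hp⟩ := hmbij.2 ω
    have hp' : p.1.1 * p.2.1 = ω := hp
    rw [← hp', hadd]
    refine (h p.1 p.2).trans (if_congr ?_ rfl rfl)
    constructor
    · intro hj w hw
      rw [hj, MonoidHom.mul_apply, MonoidHom.mul_apply, MonoidHom.inv_apply,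
        mul_inv_cancel_right]
      exact p.1.2 w hw
    · intro hall
      apply Subtype.ext
      apply Helper10.hom_ext_sup
      · intro w hw
        rw [p.2.2 w hw, j₀.2 w hw]
      · intro w hw
        have h1 := hall w hw
        rw [MonoidHom.mul_apply, MonoidHom.mul_apply, p.1.2 w hw, one_mul,
          MonoidHom.inv_apply] at h1
        exact mul_inv_eq_one.1 h1
  · right
    right
    refine ⟨i₀.1, c, ?_⟩
    intro ω
    obtain ⟨p, hp⟩ := hmbij.2 ω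
    have hp' : p.1.1 * p.2.1 = ω := hp
    rw [← hp', hadd]
    refine (h p.1 p.2).trans (if_congr ?_ rfl rfl)
    constructor
    · intro hi w hw
      rw [hi, MonoidHom.mul_apply, MonoidHom.mul_apply, p.2.2 w hw, mul_one,
        MonoidHom.inv_apply, mul_inv_cancel]
    · intro hall
      apply Subtype.ext
      apply Helper10.hom_ext_sup
      · intro w hw
        have h1 := hall w hw
        rw [MonoidHom.mul_apply, MonoidHom.mul_apply, p.2.2 w hw, mul_one,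
          MonoidHom.inv_apply] at h1
        exact mul_inv_eq_one.1 h1
      · intro w hw
        rw [p.1.2 w hw, i₀.2 w hw]

end Cfsg.Agent.S1507
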