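import Cfsg.Statements.S1508
import Cfsg.Agent.Helper10.CycGalois
import Cfsg.Agent.Helper10.CharSign
import Cfsg.Agent.Helper2.DefectZero
import Cfsg.Agent.Helper24.CharInv
-- import your own Cfsg.Agent.* helpers here

set_option autoImplicit false
open Cfsg

namespace Cfsg.Agent.S1508



/-- Let W₁, W₂ ≤ G form a self-normalising cyclic subgroup W = W₁ ⊔ W₂ of odd order and χ an orthonormal family of irreducible characters of G up to sign, indexed by the linear characters ω of W, with χ_1 = 1, χ_ω = ω on W outside W₁ ∪ W₂, and the induction identity for (1 − φ)(1 − ψ). Let ω be a linear character of W and g an element of G whose order is coprime to the order of ω. Then χ ω g is an integer. -/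
theorem result {G : Type*} [Group G] [Fintype G] (W₁ W₂ : Subgroup G) (hW : Cfsg.IsSelfNormalizingCyclic W₁ W₂) (hodd : Odd (Nat.card ↥(W₁ ⊔ W₂))) (χ : (↥(W₁ ⊔ W₂) →* ℂˣ) → (G → ℂ)) (hχ : Cfsg.IsCyclicTIFamily W₁ W₂ χ) (ω : ↥(W₁ ⊔ W₂) →* ℂˣ) (g : G) (hg : Nat.Coprime (orderOf g) (orderOf ω)) : ∃ n : ℤ, χ ω g = n := by
  classical
  have hN : 0 < Nat.card G := Nat.card_pos
  obtain ⟨θ, e, hθ, he, hχe⟩ := Helper10.exists_signed_irr (χ ω) (hχ.irr_or_neg ω)
  have hθc := Helper24.isCharacter_of_irr hθ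
  have hn : 0 < orderOf g := orderOf_pos g
  have : NeZero (orderOf g) := ⟨hn.ne'⟩
  obtain ⟨ζ, hζdef⟩ : ∃ ζ : ℂ, ζ = Complex.exp (2 * Real.pi * Complex.I / (orderOf g : ℂ)) :=
    ⟨_, rfl⟩
  have hζ : IsPrimitiveRoot ζ (orderOf g) := by
    rw [hζdef]
    exact Complex.isPrimitiveRoot_exp (orderOf g) hn.ne'
  obtain ⟨P, hP⟩ := Helper24.char_poly hθc g (orderOf g) hn (pow_orderOf_eq_one g) ζ hζ
  have hωW : ω ^ (Nat.card ↥(W₁ ⊔ W₂)) = 1 := by
    apply MonoidHom.ext
    intro w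
    rw [MonoidHom.pow_apply, ← map_pow, pow_card_eq_one', map_one, MonoidHom.one_apply]
  have hdvd : orderOf g * orderOf ω ∣ Nat.card G :=
    Nat.Coprime.mul_dvd_of_dvd_of_dvd hg (orderOf_dvd_natCard g)
      ((orderOf_dvd_of_pow_eq_one hωW).trans (Subgroup.card_subgroup_dvd_card (W₁ ⊔ W₂)))
  have key : ∀ η : ℂ, IsPrimitiveRoot η (orderOf g) → Polynomial.aeval η P = θ g := by
    intro η hη
    obtain ⟨j, hj, rfl⟩ := hζ.eq_pow_of_pow_eq_one hη.pow_eq_one
    have hjcop : j.Coprime (orderOf g) := (hζ.pow_iff_coprime hn j).mp hη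
    rw [← hP j]
    obtain ⟨k₀, hk₀⟩ := Nat.chineseRemainder hg j 1
    have hk₀cop : k₀.Coprime (orderOf g * orderOf ω) := by
      apply Nat.Coprime.mul_right
      · have h1 := hk₀.1.gcd_eq
        unfold Nat.Coprime
        rw [h1]
        exact hjcop
      · have h1 := hk₀.2.gcd_eq
        unfold Nat.Coprime
        rw [h1]
        exact Nat.gcd_one_left _
    obtain ⟨k, hkN, hkmod⟩ := Helper10.exists_coprime_modEq hN hdvd hk₀cop
    have hk1 : k ≡ j [MOD orderOf g] := (hkmod.of_mul_right _).trans hk₀.1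
    have hk2 : k ≡ 1 [MOD orderOf ω] := (hkmod.of_mul_left _).trans hk₀.2
    have hgk : g ^ k = g ^ j := pow_eq_pow_iff_modEq.2 hk1
    have hωk : ω ^ k = ω := by
      have h5 : ω ^ k = ω ^ 1 := (pow_eq_pow_iff_modEq (x := ω)).2 hk2
      exact h5.trans (pow_one ω)
    have h1 := Helper10.cyc_family_pow W₁ W₂ hW hodd χ hχ hkN ω g
    rw [hωk, hgk, hχe] at h1
    simp only [Pi.smul_apply, smul_eq_mul] at h1
    have he0 : (e : ℂ) ≠ 0 := by
      rcases he with rfl | rfl <;> norm_num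
    exact mul_left_cancel₀ he0 h1
  obtain ⟨z, hz⟩ := Helper2.int_of_aeval_primitiveRoots hn P (θ g) key
  rcases he with rfl | rfl
  · refine ⟨z, ?_⟩
    rw [hχe, Pi.smul_apply, hz]
    simp
  · refine ⟨-z, ?_⟩
    rw [hχe, Pi.smul_apply, hz]
    simp

end Cfsg.Agent.S1508
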