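import Cfsg.Statements.S1509
import Cfsg.Agent.Helper10.CharSign

set_option autoImplicit false
open Cfsg

namespace Cfsg.Agent.S1509

theorem arith_aux (ea ec ed d u v : ℝ) (hea : ea = 1 ∨ ea = -1) (hec : ec = 1 ∨ ec = -1)
    (hd : 0 < d) (hu : u ≠ 0)
    (h2 : u * ec * d = v * ed * d) (h3 : u * ea * ec + v * ea * ed = 0) : False := by
  have h2' : u * ec = v * ed := mul_right_cancel₀ hd.ne' h2
  have hea0 : ea ≠ 0 := by rcases hea with rfl | rfl <;> norm_num
  have hec0 : ec ≠ 0 := by rcases hec with rfl | rfl <;> norm_num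
  have h4 : ea * (u * ec + v * ed) = 0 := by linarith
  have h5 : u * ec + v * ed = 0 := by
    rcases mul_eq_zero.1 h4 with h | h
    · exact absurd h hea0
    · exact h
  have h6 : u * ec = 0 := by linarith
  rcases mul_eq_zero.1 h6 with h | h
  · exact hu h
  · exact hec0 h

theorem sign_ne_zero {e : ℝ} (he : e = 1 ∨ e = -1) : e ≠ 0 := by
  rcases he with rfl | rfl <;> norm_num

/-- Let α, β, γ, δ be functions on a finite group X each of which is an irreducible character or the negative of one, and u, v nonzero real numbers. Suppose ⟨α, β⟩ = ⟨γ, δ⟩ = 0, ⟨α − β, uγ − vδ⟩ = 0, α 1 = β 1 and u γ 1 = v δ 1. Then also ⟨α, γ⟩ = ⟨α, δ⟩ = ⟨β, γ⟩ = ⟨β, δ⟩ = 0. -/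
theorem result {X : Type*} [Group X] [Fintype X] (α β γ δ : X → ℂ) (hα : Cfsg.IsIrrCharacter X α ∨ Cfsg.IsIrrCharacter X (-α)) (hβ : Cfsg.IsIrrCharacter X β ∨ Cfsg.IsIrrCharacter X (-β)) (hγ : Cfsg.IsIrrCharacter X γ ∨ Cfsg.IsIrrCharacter X (-γ)) (hδ : Cfsg.IsIrrCharacter X δ ∨ Cfsg.IsIrrCharacter X (-δ)) (u v : ℝ) (hu : u ≠ 0) (hv : v ≠ 0) (hab : Cfsg.classInner α β = 0) (hcd : Cfsg.classInner γ δ = 0) (hmix : Cfsg.classInner (α - β) ((u : ℂ) • γ - (v : ℂ) • δ) = 0) (h1 : α 1 = β 1) (h2 : (u : ℂ) * γ 1 = (v : ℂ) * δ 1) : Cfsg.classInner α γ = 0 ∧ Cfsg.classInner α δ = 0 ∧ Cfsg.classInner β γ = 0 ∧ Cfsg.classInner β δ = 0 := by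
  classical
  obtain ⟨A, ea, hA, hea, rfl⟩ := Helper10.exists_signed_irr α hα
  obtain ⟨B, eb, hB, heb, rfl⟩ := Helper10.exists_signed_irr β hβ
  obtain ⟨C, ec, hC, hec, rfl⟩ := Helper10.exists_signed_irr γ hγ
  obtain ⟨D, ed, hD, hed, rfl⟩ := Helper10.exists_signed_irr δ hδ
  obtain ⟨dA, hdA, hA1⟩ := Helper10.irr_one_eq hA
  obtain ⟨dB, hdB, hB1⟩ := Helper10.irr_one_eq hB
  obtain ⟨dC, hdC, hC1⟩ := Helper10.irr_one_eq hC
  obtain ⟨dD, hdD, hD1⟩ := Helper10.irr_one_eq hD
  have hea0 := sign_ne_zero hea
  have heb0 := sign_ne_zero heb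
  have hec0 := sign_ne_zero hec
  have hed0 := sign_ne_zero hed
  rw [Helper10.classInner_signed hA hB] at hab
  rw [Helper10.classInner_signed hC hD] at hcd
  have hAB : A ≠ B := by
    intro h
    rw [if_pos h, mul_one] at hab
    have : ea * eb = 0 := by exact_mod_cast hab
    rcases mul_eq_zero.1 this with h | h
    · exact hea0 h
    · exact heb0 h
  have hCD : C ≠ D := by
    intro h
    rw [if_pos h, mul_one] at hcd
    have : ec * ed = 0 := by exact_mod_cast hcd
    rcases mul_eq_zero.1 this with h | h
    · exact hec0 h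
    · exact hed0 h
  simp only [Helper2.classInner_sub_left, Helper2.classInner_sub_right,
    Helper2.classInner_smul_right, Helper2.classInner_smul_left, Complex.conj_ofReal,
    Helper2.classInner_irr hA hC, Helper2.classInner_irr hA hD,
    Helper2.classInner_irr hB hC, Helper2.classInner_irr hB hD] at hmix
  rw [Helper10.classInner_signed hA hC, Helper10.classInner_signed hA hD,
    Helper10.classInner_signed hB hC, Helper10.classInner_signed hB hD]
  simp only [Pi.smul_apply, smul_eq_mul, hA1, hB1, hC1, hD1] at h1 h2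
  have h1' : ea * dA = eb * dB := by exact_mod_cast h1
  have h2' : u * (ec * dC) = v * (ed * dD) := by exact_mod_cast h2
  obtain ⟨heab, hdAB⟩ := Helper10.sign_eq_of_mul_pos hea heb hdA hdB h1'
  subst heab
  subst hdAB
  by_cases hAC : A = C
  · exfalso
    subst hAC
    have hdC' : dC = dA := by
      have : (dC : ℂ) = (dA : ℂ) := by rw [← hC1, ← hA1]
      exact_mod_cast this
    subst hdC'
    by_cases hBD : B = D
    · subst hBD
      have hdD' : dD = dC := by
        have : (dD : ℂ) = (dC : ℂ) := by rw [← hD1, ← hB1]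
        exact_mod_cast this
      subst hdD'
      rw [if_pos rfl, if_neg hAB, if_neg (Ne.symm hAB), if_pos rfl] at hmix
      have h3 : ((u * ea * ec + v * ea * ed : ℝ) : ℂ) = 0 := by
        push_cast
        linear_combination hmix
      have h3' : u * ea * ec + v * ea * ed = 0 := by exact_mod_cast h3
      exact arith_aux ea ec ed dD u v hea hec hdD hu (by linarith) h3'
    · rw [if_pos rfl, if_neg hCD, if_neg (Ne.symm hAB), if_neg hBD] at hmix
      have h3 : ((u * ea * ec : ℝ) : ℂ) = 0 := by
        push_cast
        linear_combination hmix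
      have h3' : u * ea * ec = 0 := by exact_mod_cast h3
      rcases mul_eq_zero.1 h3' with h | h
      · rcases mul_eq_zero.1 h with h | h
        · exact hu h
        · exact hea0 h
      · exact hec0 h
  · by_cases hAD : A = D
    · exfalso
      subst hAD
      have hdD' : dD = dA := by
        have : (dD : ℂ) = (dA : ℂ) := by rw [← hD1, ← hA1]
        exact_mod_cast this
      subst hdD'
      by_cases hBC : B = C
      · subst hBC
        have hdC' : dC = dD := by
          have : (dC : ℂ) = (dD : ℂ) := by rw [← hC1, ← hB1]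
          exact_mod_cast this
        subst hdC'
        rw [if_neg hAB, if_pos rfl, if_pos rfl, if_neg (Ne.symm hAB)] at hmix
        have h3 : ((u * ea * ec + v * ea * ed : ℝ) : ℂ) = 0 := by
          push_cast
          linear_combination -hmix
        have h3' : u * ea * ec + v * ea * ed = 0 := by exact_mod_cast h3
        exact arith_aux ea ec ed dC u v hea hec hdC hu (by linarith) h3'
      · rw [if_neg hAC, if_pos rfl, if_neg hBC, if_neg (Ne.symm hAB)] at hmix
        have h3 : ((v * ea * ed : ℝ) : ℂ) = 0 := by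
          push_cast
          linear_combination -hmix
        have h3' : v * ea * ed = 0 := by exact_mod_cast h3
        rcases mul_eq_zero.1 h3' with h | h
        · rcases mul_eq_zero.1 h with h | h
          · exact hv h
          · exact hea0 h
        · exact hed0 h
    · by_cases hBC : B = C
      · exfalso
        subst hBC
        have hBD : B ≠ D := hCD
        rw [if_neg hAC, if_neg hAD, if_pos rfl, if_neg hBD] at hmix
        have h3 : ((u * ea * ec : ℝ) : ℂ) = 0 := by
          push_cast
          linear_combination -hmix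
        have h3' : u * ea * ec = 0 := by exact_mod_cast h3
        rcases mul_eq_zero.1 h3' with h | h
        · rcases mul_eq_zero.1 h with h | h
          · exact hu h
          · exact hea0 h
        · exact hec0 h
      · by_cases hBD : B = D
        · exfalso
          subst hBD
          rw [if_neg hAC, if_neg hAD, if_neg hBC, if_pos rfl] at hmix
          have h3 : ((v * ea * ed : ℝ) : ℂ) = 0 := by
            push_cast
            linear_combination hmix
          have h3' : v * ea * ed = 0 := by exact_mod_cast h3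
          rcases mul_eq_zero.1 h3' with h | h
          · rcases mul_eq_zero.1 h with h | h
            · exact hv h
            · exact hea0 h
          · exact hed0 h
        · rw [if_neg hAC, if_neg hAD, if_neg hBC, if_neg hBD]
          simp

end Cfsg.Agent.S1509
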