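import Cfsg.Statements.S1510
import Mathlib

set_option autoImplicit false
open Cfsg

namespace Cfsg.Agent.S1510

/-- If L = K ⋊ W₁ with W₁ ≠ 1 a cyclic Hall subgroup and W₂ ≠ 1 a cyclic subgroup of K equal to C_K(x) for every x ∈ W₁#, with W₁W₂ of odd order, then in L the pair (W₁, W₂) is a self-normalising cyclic subgroup: W₁W₂ is cyclic and is the normaliser of every nonempty set of its elements outside W₁ ∪ W₂. -/
theorem result {L : Type*} [Group L] [Fintype L] (K W₁ W₂ : Subgroup L) [hK : K.Normal] (hKW₁ : K ⊓ W₁ = ⊥) (hKW₁' : K ⊔ W₁ = ⊤) (hW₁ : W₁ ≠ ⊥) (hW₁c : IsCyclic W₁) (hHall : Nat.Coprime (Nat.card W₁) W₁.index) (hW₂ : W₂ ≠ ⊥) (hW₂c : IsCyclic W₂) (hW₂K : W₂ ≤ K) (hC : ∀ x ∈ W₁, x ≠ 1 → K ⊓ Subgroup.centralizer ({x} : Set L) = W₂) (hodd : Odd (Nat.card ↥(W₁ ⊔ W₂))) : Cfsg.IsSelfNormalizingCyclic W₁ W₂ := by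
  have hdisj : W₁ ⊓ W₂ = ⊥ := by
    rw [eq_bot_iff, ← hKW₁]
    exact le_inf (inf_le_right.trans hW₂K) inf_le_left
  have hcomm : ∀ a ∈ W₁, ∀ b ∈ W₂, a * b = b * a := by
    intro a ha b hb
    by_cases h1 : a = 1
    · subst h1; simp
    · rw [← hC a ha h1] at hb
      exact Subgroup.mem_centralizer_iff.mp hb.2 a (Set.mem_singleton a)
  have hcompl : Subgroup.IsComplement' K W₁ := by
    apply Subgroup.isComplement'_of_disjoint_and_mul_eq_univ (disjoint_iff.mpr hKW₁)
    rw [← Subgroup.normal_mul, hKW₁']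
    rfl
  have hidx : W₁.index = Nat.card K := hcompl.index_eq_card
  have hcop : Nat.Coprime (Nat.card W₁) (Nat.card W₂) := by
    rw [hidx] at hHall
    exact Nat.Coprime.coprime_dvd_right (Subgroup.card_dvd_of_le hW₂K) hHall
  have hcyc : IsCyclic ↥(W₁ ⊔ W₂) := by
    have hprod : IsCyclic (W₁ × W₂) := Group.isCyclic_prod_iff.mpr ⟨hW₁c, hW₂c, hcop⟩
    have hc' : ∀ (m : W₁) (n : W₂), Commute (W₁.subtype m) (W₂.subtype n) :=
      fun a b => hcomm a a.2 b b.2
    have hrange : (MonoidHom.noncommCoprod W₁.subtype W₂.subtype hc').range = W₁ ⊔ W₂ := by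
      rw [MonoidHom.noncommCoprod_range, Subgroup.range_subtype, Subgroup.range_subtype]
    rw [← hrange]
    exact isCyclic_of_surjective (MonoidHom.noncommCoprod W₁.subtype W₂.subtype hc').rangeRestrict
      (MonoidHom.noncommCoprod W₁.subtype W₂.subtype hc').rangeRestrict_surjective
  have hWcomm : ∀ u ∈ W₁ ⊔ W₂, ∀ v ∈ W₁ ⊔ W₂, u * v = v * u := by
    intro u hu v hv
    exact setLike_mul_comm hu hv
  have hW₁comm : ∀ u ∈ W₁, ∀ v ∈ W₁, u * v = v * u := by
    intro u hu v hv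
    exact setLike_mul_comm hu hv
  refine ⟨hW₁, hW₂, hdisj, hcomm, hcyc, ?_⟩
  intro X hX hXne
  apply le_antisymm
  · intro g hg
    obtain ⟨x, hx⟩ := hXne
    have hxW : x ∈ W₁ ⊔ W₂ := (hX hx).1
    have hxn : x ∉ W₁ ∧ x ∉ W₂ := by
      have := (hX hx).2
      simpa [not_or] using this
    have hy : g * x * g⁻¹ ∈ X := (Subgroup.mem_set_normalizer_iff.mp hg x).mp hx
    have hyW : g * x * g⁻¹ ∈ W₁ ⊔ W₂ := (hX hy).1
    have hnorm : W₂ ≤ Subgroup.normalizer (W₁ : Set L) := by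
      intro b hb
      rw [Subgroup.mem_normalizer_iff]
      intro a
      constructor
      · intro ha
        have : b * a * b⁻¹ = a := by rw [← hcomm a ha b hb]; simp
        rw [this]; exact ha
      · intro ha
        have h2 := hcomm _ ha b hb
        have : a = b * a * b⁻¹ := by
          have h3 : b * a * b⁻¹ * b = b * (b * a * b⁻¹) := h2
          have : b * a = b * (b * a * b⁻¹) := by simpa using h3
          exact mul_left_cancel this
        rw [this]; exact ha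
    have hdecomp : ∀ u ∈ W₁ ⊔ W₂, ∃ a ∈ W₁, ∃ b ∈ W₂, u = a * b := by
      intro u hu
      have : u ∈ ((W₁ ⊔ W₂ : Subgroup L) : Set L) := hu
      rw [Subgroup.coe_mul_of_right_le_normalizer_left _ _ hnorm] at this
      obtain ⟨a, ha, b, hb, rfl⟩ := this
      exact ⟨a, ha, b, hb, rfl⟩
    obtain ⟨a, ha, b, hb, hxab⟩ := hdecomp x hxW
    obtain ⟨a', ha', b', hb', hyab⟩ := hdecomp _ hyW
    have ha1 : a ≠ 1 := by
      intro h1
      apply hxn.2
      rw [hxab, h1, one_mul]; exact hb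
    set m := Nat.card W₂ with hm
    have hbm : b ^ m = 1 := orderOf_dvd_iff_pow_eq_one.mp (Subgroup.orderOf_dvd_natCard _ hb)
    have hbm' : b' ^ m = 1 := orderOf_dvd_iff_pow_eq_one.mp (Subgroup.orderOf_dvd_natCard _ hb')
    have hxm : x ^ m = a ^ m := by
      rw [hxab, (show Commute a b from hcomm a ha b hb).mul_pow, hbm, mul_one]
    have hym : (g * x * g⁻¹) ^ m = a' ^ m := by
      rw [hyab, (show Commute a' b' from hcomm a' ha' b' hb').mul_pow, hbm', mul_one]
    have ha1m : a ^ m ≠ 1 := by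
      intro h1
      apply ha1
      have h2 : orderOf a ∣ m := orderOf_dvd_of_pow_eq_one h1
      have h3 : orderOf a ∣ Nat.card W₁ := Subgroup.orderOf_dvd_natCard _ ha
      exact orderOf_eq_one_iff.mp (Nat.eq_one_of_dvd_coprimes hcop h3 h2)
    have hconj : g * a ^ m * g⁻¹ ∈ W₁ := by
      rw [← hxm, ← conj_pow, hym]
      exact pow_mem ha' m
    have hg' : g ∈ ((K ⊔ W₁ : Subgroup L) : Set L) := by rw [hKW₁']; trivial
    rw [Subgroup.normal_mul] at hg'
    obtain ⟨k, hk, w, hw, rfl⟩ := hg'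
    have hk : k ∈ K := hk
    have hw : w ∈ W₁ := hw
    have hwa : w * a ^ m * w⁻¹ = a ^ m := by
      rw [hW₁comm w hw (a ^ m) (pow_mem ha m)]; simp
    have hconj' : k * a ^ m * k⁻¹ ∈ W₁ := by
      have : k * w * a ^ m * (k * w)⁻¹ = k * (w * a ^ m * w⁻¹) * k⁻¹ := by group
      rw [this, hwa] at hconj
      exact hconj
    have hkc : k ∈ Subgroup.centralizer ({a ^ m} : Set L) := by
      rw [Subgroup.mem_centralizer_iff]
      intro y hy
      rw [Set.mem_singleton_iff] at hy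
      subst hy
      have h1 : k * a ^ m * k⁻¹ * (a ^ m)⁻¹ ∈ K ⊓ W₁ := by
        refine Subgroup.mem_inf.mpr ⟨?_, W₁.mul_mem hconj' (W₁.inv_mem (pow_mem ha m))⟩
        have h2 : a ^ m * k⁻¹ * (a ^ m)⁻¹ ∈ K := hK.conj_mem _ (K.inv_mem hk) _
        have := K.mul_mem hk h2
        simpa [mul_assoc] using this
      rw [hKW₁, Subgroup.mem_bot] at h1
      have : a ^ m * k = (k * a ^ m * k⁻¹ * (a ^ m)⁻¹)⁻¹ * (k * a ^ m) := by group
      rw [this, h1, inv_one, one_mul]
    have hkW₂ : k ∈ W₂ := by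
      rw [← hC (a ^ m) (pow_mem ha m) ha1m]
      exact Subgroup.mem_inf.mpr ⟨hk, hkc⟩
    exact Subgroup.mul_mem _ (Subgroup.mem_sup_right hkW₂) (Subgroup.mem_sup_left hw)
  · intro w hw
    rw [Subgroup.mem_set_normalizer_iff]
    intro n
    constructor
    · intro hn
      have : w * n * w⁻¹ = n := by
        rw [hWcomm w hw n (hX hn).1]; simp
      rw [this]; exact hn
    · intro hn
      have hnW : n ∈ W₁ ⊔ W₂ := by
        have h1 : w⁻¹ * (w * n * w⁻¹) * w ∈ W₁ ⊔ W₂ :=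
          Subgroup.mul_mem _ (Subgroup.mul_mem _ (Subgroup.inv_mem _ hw) (hX hn).1) hw
        have h2 : w⁻¹ * (w * n * w⁻¹) * w = n := by group
        rw [h2] at h1
        exact h1
      have : w * n * w⁻¹ = n := by
        rw [hWcomm w hw n hnW]; simp
      rw [this] at hn
      exact hn

end Cfsg.Agent.S1510
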