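import Cfsg.Statements.S1511
import Mathlib
import Cfsg.Agent.Helper10.TypePChar
-- import your own Cfsg.Agent.* helpers here

set_option autoImplicit false
open Cfsg

namespace Cfsg.Agent.S1511


open Cfsg.Agent

/-- Elements of a join of two elementwise-commuting subgroups are products. -/
theorem sup_decomp {L : Type*} [Group L] (W₁ W₂ : Subgroup L)
    (hcomm : ∀ a ∈ W₁, ∀ b ∈ W₂, a * b = b * a) :
    ∀ w ∈ W₁ ⊔ W₂, ∃ a ∈ W₁, ∃ b ∈ W₂, w = a * b := by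
  have hle : W₁ ⊔ W₂ ≤
      ({ carrier := {w | ∃ a ∈ W₁, ∃ b ∈ W₂, w = a * b}
         mul_mem' := by
           intro x y hx hy
           obtain ⟨a, ha, b, hb, rfl⟩ := hx
           obtain ⟨a', ha', b', hb', rfl⟩ := hy
           refine ⟨a * a', W₁.mul_mem ha ha', b * b', W₂.mul_mem hb hb', ?_⟩
           have h := hcomm a' ha' b hb
           calc a * b * (a' * b') = a * (b * a') * b' := by group
             _ = a * (a' * b) * b' := by rw [h]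
             _ = a * a' * (b * b') := by group
         one_mem' := ⟨1, W₁.one_mem, 1, W₂.one_mem, by simp⟩
         inv_mem' := by
           intro x hx
           obtain ⟨a, ha, b, hb, rfl⟩ := hx
           refine ⟨a⁻¹, W₁.inv_mem ha, b⁻¹, W₂.inv_mem hb, ?_⟩
           have h := hcomm a⁻¹ (W₁.inv_mem ha) b⁻¹ (W₂.inv_mem hb)
           rw [h]
           group } : Subgroup L) := by
    refine sup_le (fun a ha => ⟨a, ha, 1, W₂.one_mem, by simp⟩)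
      (fun b hb => ⟨1, W₁.one_mem, b, hb, by simp⟩)
  intro w hw
  exact hle hw

theorem grp_facts {L : Type*} [Group L] [Finite L] (K W₁ W₂ : Subgroup L) [hK : K.Normal]
    (hKW₁ : K ⊓ W₁ = ⊥) (hKW₁' : K ⊔ W₁ = ⊤) (hW₁c : IsCyclic W₁)
    (hHall : Nat.Coprime (Nat.card W₁) W₁.index) (hW₂c : IsCyclic W₂) (hW₂K : W₂ ≤ K)
    (hC : ∀ x ∈ W₁, x ≠ 1 → K ⊓ Subgroup.centralizer ({x} : Set L) = W₂) :
    (∀ u ∈ W₁ ⊔ W₂, ∀ v ∈ W₁ ⊔ W₂, u * v = v * u) ∧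
    (∀ w ∈ W₁ ⊔ W₂, w ∉ W₂ → ∀ y : L, y⁻¹ * w * y ∈ W₁ ⊔ W₂ → y ∈ W₁ ⊔ W₂) ∧
    (∀ x ∈ W₁, x ≠ 1 → x ∉ W₂) := by
  have h12 : ∀ a ∈ W₁, ∀ b ∈ W₂, a * b = b * a := by
    intro a ha b hb
    by_cases ha1 : a = 1
    · rw [ha1, one_mul, mul_one]
    · have hb' : b ∈ K ⊓ Subgroup.centralizer ({a} : Set L) := by
        rw [hC a ha ha1]
        exact hb
      exact (Subgroup.mem_centralizer_iff.mp (Subgroup.mem_inf.mp hb').2) a
        (Set.mem_singleton a)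
  have h11 := Helper10.comm_of_cyclic W₁ hW₁c
  have h22 := Helper10.comm_of_cyclic W₂ hW₂c
  have hdec := sup_decomp W₁ W₂ h12
  have hWcomm : ∀ u ∈ W₁ ⊔ W₂, ∀ v ∈ W₁ ⊔ W₂, u * v = v * u := by
    intro u hu v hv
    obtain ⟨a, ha, b, hb, rfl⟩ := hdec u hu
    obtain ⟨a', ha', b', hb', rfl⟩ := hdec v hv
    have e1 := h11 a ha a' ha'
    have e2 := h22 b hb b' hb'
    have e3 := h12 a' ha' b hb
    have e4 := h12 a ha b' hb'
    calc a * b * (a' * b') = a * (b * a') * b' := by group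
      _ = a * (a' * b) * b' := by rw [e3]
      _ = (a * a') * (b * b') := by group
      _ = (a' * a) * (b' * b) := by rw [e1, e2]
      _ = a' * (a * b') * b := by group
      _ = a' * (b' * a) * b := by rw [e4]
      _ = a' * b' * (a * b) := by group
  have hcompl : K.IsComplement' W₁ := by
    apply Subgroup.isComplement'_of_disjoint_and_mul_eq_univ (disjoint_iff.mpr hKW₁)
    rw [← Subgroup.normal_mul K W₁, hKW₁', Subgroup.coe_top]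
  have hidx : W₁.index = Nat.card K := hcompl.index_eq_card
  have hcopK : (Nat.card W₁).Coprime (Nat.card K) := by
    rw [← hidx]
    exact hHall
  have hcop12 : (Nat.card W₁).Coprime (Nat.card W₂) :=
    Nat.Coprime.coprime_dvd_right (Subgroup.card_dvd_of_le hW₂K) hcopK
  have hx2 : ∀ x ∈ W₁, x ≠ 1 → x ∉ W₂ := by
    intro x hx hx1 hxW₂
    have h1 : x ∈ K ⊓ W₁ := Subgroup.mem_inf.mpr ⟨hW₂K hxW₂, hx⟩
    rw [hKW₁, Subgroup.mem_bot] at h1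
    exact hx1 h1
  have hpow : ∀ w ∈ W₁ ⊔ W₂, w ^ Nat.card W₂ ∈ W₁ ∧ (w ∉ W₂ → w ^ Nat.card W₂ ≠ 1) := by
    intro w hw
    obtain ⟨a, ha, b, hb, rfl⟩ := hdec w hw
    have hbn : b ^ Nat.card W₂ = 1 := by
      have h1 : (⟨b, hb⟩ : W₂) ^ Nat.card W₂ = 1 := pow_card_eq_one'
      exact congrArg Subtype.val h1
    have hab : (a * b) ^ Nat.card W₂ = a ^ Nat.card W₂ := by
      rw [(show Commute a b from h12 a ha b hb).mul_pow, hbn, mul_one]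
    refine ⟨by rw [hab]; exact W₁.pow_mem ha _, fun hw2 h1 => ?_⟩
    rw [hab] at h1
    have h2 : orderOf a ∣ Nat.card W₂ := orderOf_dvd_of_pow_eq_one h1
    have h3 : orderOf a ∣ Nat.card W₁ := Subgroup.orderOf_dvd_natCard W₁ ha
    have h4 : orderOf a = 1 := Nat.eq_one_of_dvd_coprimes hcop12 h3 h2
    have h5 : a = 1 := orderOf_eq_one_iff.mp h4
    apply hw2
    rw [h5, one_mul]
    exact hb
  refine ⟨hWcomm, ?_, hx2⟩
  intro w hw hw2 y hy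
  obtain ⟨hx1, hx2'⟩ := hpow w hw
  have hxne := hx2' hw2
  obtain ⟨hx1', -⟩ := hpow _ hy
  have hx'eq : (y⁻¹ * w * y) ^ Nat.card W₂ = y⁻¹ * w ^ Nat.card W₂ * y := by
    have h := conj_pow (a := y⁻¹) (b := w) (i := Nat.card W₂)
    rwa [inv_inv] at h
  rw [hx'eq] at hx1'
  have hy' : y ∈ K ⊔ W₁ := by
    rw [hKW₁']
    exact Subgroup.mem_top y
  obtain ⟨k, hk, v, hv, rfl⟩ := Subgroup.mem_sup_of_normal_left.mp hy'
  have h1 : k⁻¹ * w ^ Nat.card W₂ * k ∈ W₁ := by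
    have e : k⁻¹ * w ^ Nat.card W₂ * k
        = v * ((k * v)⁻¹ * w ^ Nat.card W₂ * (k * v)) * v⁻¹ := by group
    rw [e]
    exact W₁.mul_mem (W₁.mul_mem hv hx1') (W₁.inv_mem hv)
  have h2 : (w ^ Nat.card W₂)⁻¹ * (k⁻¹ * w ^ Nat.card W₂ * k) ∈ K ⊓ W₁ := by
    refine Subgroup.mem_inf.mpr ⟨?_, W₁.mul_mem (W₁.inv_mem hx1) h1⟩
    have e : (w ^ Nat.card W₂)⁻¹ * (k⁻¹ * w ^ Nat.card W₂ * k)
        = ((w ^ Nat.card W₂)⁻¹ * k⁻¹ * (w ^ Nat.card W₂)⁻¹⁻¹) * k := by group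
    rw [e]
    exact K.mul_mem (hK.conj_mem _ (K.inv_mem hk) _) hk
  rw [hKW₁, Subgroup.mem_bot] at h2
  have h3 : w ^ Nat.card W₂ * k = k * w ^ Nat.card W₂ := by
    have e : w ^ Nat.card W₂ * k
        = k * (w ^ Nat.card W₂ * ((w ^ Nat.card W₂)⁻¹ * (k⁻¹ * w ^ Nat.card W₂ * k))) := by
      group
    rw [e, h2, mul_one]
  have hkW₂ : k ∈ W₂ := by
    rw [← hC (w ^ Nat.card W₂) hx1 hxne]
    refine Subgroup.mem_inf.mpr ⟨hk, ?_⟩
    rw [Subgroup.mem_centralizer_iff]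
    intro z hz
    rw [Set.mem_singleton_iff] at hz
    rw [hz]
    exact h3
  have h4 : k * v ∈ W₂ ⊔ W₁ := Subgroup.mul_mem_sup hkW₂ hv
  rwa [sup_comm] at h4


/-- Let L be a finite group with K normal with complement W₁ ≠ 1 a cyclic Hall subgroup, and W₂ ≠ 1 a cyclic subgroup of K equal to C_K(x) for every non-identity x ∈ W₁, with W₁W₂ of odd order. Then there are a map μ from the linear characters of W = W₁ ⊔ W₂ to irreducible characters of L, injective, and a sign δ(ω) ∈ {1, −1} depending only on the values of ω on W₂, such that: for ω, ω' agreeing on W₂, the function induced to L from ω − ω' equals δ(ω) • (μ ω − μ ω'); μ ω x = δ(ω) ω x for x ∈ W outside W₂; every irreducible character of L not of the form μ ω vanishes on W outside W₂; and μ ω 1 − δ(ω) is an integer multiple of Nat.card W₁. -/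
theorem result {L : Type*} [Group L] [Fintype L] (K W₁ W₂ : Subgroup L) [hK : K.Normal] (hKW₁ : K ⊓ W₁ = ⊥) (hKW₁' : K ⊔ W₁ = ⊤) (hW₁ : W₁ ≠ ⊥) (hW₁c : IsCyclic W₁) (hHall : Nat.Coprime (Nat.card W₁) W₁.index) (hW₂ : W₂ ≠ ⊥) (hW₂c : IsCyclic W₂) (hW₂K : W₂ ≤ K) (hC : ∀ x ∈ W₁, x ≠ 1 → K ⊓ Subgroup.centralizer ({x} : Set L) = W₂) (hodd : Odd (Nat.card ↥(W₁ ⊔ W₂))) : ∃ (μ : (↥(W₁ ⊔ W₂) →* ℂˣ) → (L → ℂ)) (δ : (↥(W₁ ⊔ W₂) →* ℂˣ) → ℂ), Function.Injective μ ∧ (∀ ω, Cfsg.IsIrrCharacter L (μ ω)) ∧ (∀ ω, δ ω = 1 ∨ δ ω = -1) ∧ (∀ ω ω' : ↥(W₁ ⊔ W₂) →* ℂˣ, (∀ w : ↥(W₁ ⊔ W₂), (w : L) ∈ W₂ → ω w = ω' w) → δ ω = δ ω' ∧ Cfsg.indFun (W₁ ⊔ W₂) (fun w => (ω w : ℂ) - (ω' w : ℂ)) = δ ω • (μ ω - μ ω')) ∧ (∀ ω, ∀ w : ↥(W₁ ⊔ W₂), (w : L) ∉ W₂ → μ ω w = δ ω * (ω w : ℂ)) ∧ (∀ θ : L → ℂ, Cfsg.IsIrrCharacter L θ → (∀ ω, θ ≠ μ ω) → ∀ w : ↥(W₁ ⊔ W₂), (w : L) ∉ W₂ → θ w = 0) ∧ (∀ ω, ∃ n : ℤ, μ ω 1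 - δ ω = n * (Nat.card W₁ : ℂ)) := by
  classical
  obtain ⟨hWcomm, hti, hx2⟩ := grp_facts K W₁ W₂ hKW₁ hKW₁' hW₁c hHall hW₂c hW₂K hC
  haveI : Fintype ↥(W₁ ⊔ W₂) := Fintype.ofFinite _
  haveI hfinHom : Finite (↥(W₁ ⊔ W₂) →* ℂˣ) := Helper10.finite_hom_units
  haveI : Fintype (↥(W₁ ⊔ W₂) →* ℂˣ) := Fintype.ofFinite _
  have hcW : ∀ a b : ↥(W₁ ⊔ W₂), a * b = b * a :=
    fun a b => Subtype.ext (hWcomm a a.2 b b.2)
  have hti' : ∀ w : ↥(W₁ ⊔ W₂), (w : L) ∉ W₂ →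
      ∀ y : L, y⁻¹ * (w : L) * y ∈ W₁ ⊔ W₂ → y ∈ W₁ ⊔ W₂ :=
    fun w hw y hy => hti w w.2 hw y hy
  obtain ⟨η₀, hη₀2, hη₀1, hη₀sq⟩ : ∃ η : ↥(W₁ ⊔ W₂) →* ℂˣ,
      (∀ w : ↥(W₁ ⊔ W₂), (w : L) ∈ W₂ → η w = 1) ∧ η ≠ 1 ∧ η * η ≠ 1 := by
    obtain ⟨a, ha, ha1⟩ : ∃ a ∈ W₁, a ≠ 1 := by
      by_contra h
      push_neg at h
      exact hW₁ ((Subgroup.eq_bot_iff_forall _).mpr h)
    have haW : a ∈ W₁ ⊔ W₂ := (le_sup_left : W₁ ≤ W₁ ⊔ W₂) ha
    have hnot : (⟨a, haW⟩ : ↥(W₁ ⊔ W₂)) ∉ W₂.subgroupOf (W₁ ⊔ W₂) := by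
      rw [Subgroup.mem_subgroupOf]
      exact hx2 a ha ha1
    obtain ⟨η, hη, hηa⟩ :=
      Helper10.exists_hom_ne_one_of_not_mem hcW (W₂.subgroupOf (W₁ ⊔ W₂)) hnot
    refine ⟨η, fun w hw => hη w (Subgroup.mem_subgroupOf.mpr hw), fun h => hηa (by rw [h]; rfl),
      fun h => ?_⟩
    apply hηa
    have h1 : η ⟨a, haW⟩ * η ⟨a, haW⟩ = 1 := by
      have h0 := DFunLike.congr_fun h ⟨a, haW⟩
      simpa using h0
    have h2 : (η ⟨a, haW⟩) ^ Nat.card ↥(W₁ ⊔ W₂) = 1 := by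
      rw [← map_pow, pow_card_eq_one', map_one]
    have h3 : orderOf (η ⟨a, haW⟩) ∣ 2 :=
      orderOf_dvd_of_pow_eq_one (by rw [pow_two]; exact h1)
    have h4 : orderOf (η ⟨a, haW⟩) ∣ Nat.card ↥(W₁ ⊔ W₂) := orderOf_dvd_of_pow_eq_one h2
    have h5 : Nat.Coprime 2 (Nat.card ↥(W₁ ⊔ W₂)) := Nat.coprime_two_left.mpr hodd
    exact orderOf_eq_one_iff.mp (Nat.eq_one_of_dvd_coprimes h5 h3 h4)
  have hstruct := fun ω₀ =>
    Helper10.class_struct (W₁ ⊔ W₂) W₂ hti' hcW η₀ hη₀2 hη₀1 hη₀sq ω₀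
  choose δ' m' hδ' hm'irr hm'D using hstruct
  obtain ⟨rep, hrep1, hrep2⟩ : ∃ rep : (↥(W₁ ⊔ W₂) →* ℂˣ) → (↥(W₁ ⊔ W₂) →* ℂˣ),
      (∀ ω, Helper10.Agree (W₁ ⊔ W₂) W₂ (rep ω) ω) ∧
      (∀ ω ω', Helper10.Agree (W₁ ⊔ W₂) W₂ ω ω' → rep ω = rep ω') := by
    let s : Setoid (↥(W₁ ⊔ W₂) →* ℂˣ) :=
      ⟨Helper10.Agree (W₁ ⊔ W₂) W₂, ⟨fun ω w _ => rfl, fun h w hw => (h w hw).symm,
        fun h h' w hw => (h w hw).trans (h' w hw)⟩⟩
    refine ⟨fun ω => Quotient.out (Quotient.mk s ω), fun ω => ?_, fun ω ω' h => ?_⟩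
    · exact Quotient.mk_out (s := s) ω
    · show Quotient.out (Quotient.mk s ω) = Quotient.out (Quotient.mk s ω')
      rw [Quotient.sound (s := s) h]
  have hirr : ∀ ω, IsIrrCharacter L (m' (rep ω) ω) := fun ω => hm'irr (rep ω) ω (hrep1 ω)
  have hsign : ∀ ω, δ' (rep ω) = 1 ∨ δ' (rep ω) = -1 := fun ω => hδ' (rep ω)
  have hDiff : ∀ ω ω', Helper10.Agree (W₁ ⊔ W₂) W₂ ω ω' → δ' (rep ω) = δ' (rep ω') ∧
      Helper10.Dfn (W₁ ⊔ W₂) ω ω' = δ' (rep ω) • (m' (rep ω) ω - m' (rep ω') ω') := by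
    intro ω ω' h
    have hr := hrep2 ω ω' h
    refine ⟨by rw [hr], ?_⟩
    rw [← hr]
    have hA : Helper10.Agree (W₁ ⊔ W₂) W₂ (rep ω) ω' :=
      fun w hw => (hrep1 ω w hw).trans (h w hw)
    have e1 := hm'D (rep ω) ω (hrep1 ω)
    have e2 := hm'D (rep ω) ω' hA
    have e3 := Helper10.D_add (W₁ ⊔ W₂) (rep ω) ω ω'
    rw [e1, e2] at e3
    have e4 : Helper10.Dfn (W₁ ⊔ W₂) ω ω'
        = δ' (rep ω) • (m' (rep ω) (rep ω) - m' (rep ω) ω')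
          - δ' (rep ω) • (m' (rep ω) (rep ω) - m' (rep ω) ω) := eq_sub_of_add_eq' e3.symm
    rw [e4, ← smul_sub]
    congr 1
    abel
  have hinj1 : ∀ ω ω', Helper10.Agree (W₁ ⊔ W₂) W₂ ω ω' →
      m' (rep ω) ω = m' (rep ω') ω' → ω = ω' := by
    intro ω ω' h heq
    by_contra hne
    obtain ⟨-, hD⟩ := hDiff ω ω' h
    rw [heq, sub_self, smul_zero] at hD
    have hn := Helper10.D_inner (W₁ ⊔ W₂) W₂ hti' hcW (ω₂ := ω) (ω₂' := ω') h
    rw [hD, Helper2.classInner_zero_left, if_pos rfl, if_neg hne, if_neg (Ne.symm hne),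
      if_pos rfl] at hn
    norm_num at hn
  have hinj : Function.Injective (fun ω => m' (rep ω) ω) := by
    intro ω ω' heq
    have heq' : m' (rep ω) ω = m' (rep ω') ω' := heq
    by_contra hne
    by_cases hag : Helper10.Agree (W₁ ⊔ W₂) W₂ ω ω'
    · exact hne (hinj1 ω ω' hag heq')
    · have hag1 : Helper10.Agree (W₁ ⊔ W₂) W₂ ω (ω * η₀) := fun w hw => by
        rw [MonoidHom.mul_apply, hη₀2 w hw, mul_one]
      have hag2 : Helper10.Agree (W₁ ⊔ W₂) W₂ ω' (ω' * η₀) := fun w hw => by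
        rw [MonoidHom.mul_apply, hη₀2 w hw, mul_one]
      have hne1 : ω ≠ ω * η₀ := by
        intro h
        have h3 : ω * η₀ = ω * 1 := h.symm.trans (mul_one ω).symm
        exact hη₀1 (mul_left_cancel h3)
      have hne2 : ω' ≠ ω' * η₀ := by
        intro h
        have h3 : ω' * η₀ = ω' * 1 := h.symm.trans (mul_one ω').symm
        exact hη₀1 (mul_left_cancel h3)
      have hc1 : ω ≠ ω' * η₀ := by
        intro h
        apply hag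
        intro w hw
        rw [h]
        exact (hag2 w hw).symm
      have hc2 : ω * η₀ ≠ ω' := by
        intro h
        apply hag
        intro w hw
        rw [← h]
        exact hag1 w hw
      have hc3 : ω * η₀ ≠ ω' * η₀ := fun h => hne (mul_right_cancel h)
      have hI := Helper10.D_inner (W₁ ⊔ W₂) W₂ hti' hcW (ω₂ := ω') (ω₂' := ω' * η₀) hag1
      rw [if_neg hne, if_neg hc1, if_neg hc2, if_neg hc3] at hI
      obtain ⟨-, hD1⟩ := hDiff ω (ω * η₀) hag1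
      obtain ⟨-, hD2⟩ := hDiff ω' (ω' * η₀) hag2
      rw [hD1, hD2, Helper2.classInner_smul_left, Helper2.classInner_smul_right,
        Helper2.classInner_sub_left, Helper2.classInner_sub_right,
        Helper2.classInner_sub_right,
        Helper2.classInner_irr (hirr ω) (hirr ω'),
        Helper2.classInner_irr (hirr ω) (hirr (ω' * η₀)),
        Helper2.classInner_irr (hirr (ω * η₀)) (hirr ω'),
        Helper2.classInner_irr (hirr (ω * η₀)) (hirr (ω' * η₀))] at hI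
      have hx1 : m' (rep ω) ω ≠ m' (rep (ω' * η₀)) (ω' * η₀) := by
        rw [heq']
        exact fun h => hne2 (hinj1 ω' (ω' * η₀) hag2 h)
      have hx2' : m' (rep (ω * η₀)) (ω * η₀) ≠ m' (rep ω') ω' := by
        rw [← heq']
        exact fun h => hne1 (hinj1 ω (ω * η₀) hag1 h.symm)
      rw [if_pos heq', if_neg hx1, if_neg hx2'] at hI
      have hδ1 : δ' (rep ω) ≠ 0 := by
        rcases hsign ω with h | h <;> rw [h] <;> norm_num
      have hδ2 : (starRingEnd ℂ) (δ' (rep ω')) ≠ 0 := by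
        rcases hsign ω' with h | h <;> rw [h] <;> simp
      by_cases ht : m' (rep (ω * η₀)) (ω * η₀) = m' (rep (ω' * η₀)) (ω' * η₀)
      · rw [if_pos ht] at hI
        have hnz : δ' (rep ω) * ((starRingEnd ℂ) (δ' (rep ω')) * ((1 - 0) - (0 - 1))) ≠ 0 :=
          mul_ne_zero hδ1 (mul_ne_zero hδ2 (by norm_num))
        exact hnz (by rw [hI]; norm_num)
      · rw [if_neg ht] at hI
        have hnz : δ' (rep ω) * ((starRingEnd ℂ) (δ' (rep ω')) * ((1 - 0) - (0 - 0))) ≠ 0 :=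
          mul_ne_zero hδ1 (mul_ne_zero hδ2 (by norm_num))
        exact hnz (by rw [hI]; norm_num)
  have hvals : ∀ w : ↥(W₁ ⊔ W₂), (w : L) ∉ W₂ →
      (∀ ω, m' (rep ω) ω (w : L) = δ' (rep ω) * ((ω w : ℂˣ) : ℂ)) ∧
      (∀ θ : L → ℂ, IsIrrCharacter L θ → (∀ ω, θ ≠ m' (rep ω) ω) → θ (w : L) = 0) := by
    intro w hw
    have hnot : w ∉ W₂.subgroupOf (W₁ ⊔ W₂) := by
      rw [Subgroup.mem_subgroupOf]
      exact hw
    obtain ⟨η, hη, hηw⟩ :=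
      Helper10.exists_hom_ne_one_of_not_mem hcW (W₂.subgroupOf (W₁ ⊔ W₂)) hnot
    have hη' : ∀ v : ↥(W₁ ⊔ W₂), (v : L) ∈ W₂ → η v = 1 :=
      fun v hv => hη v (Subgroup.mem_subgroupOf.mpr hv)
    have hconst : ∀ ω ω', Helper10.Agree (W₁ ⊔ W₂) W₂ ω ω' →
        m' (rep ω) ω (w : L) - δ' (rep ω) * ((ω w : ℂˣ) : ℂ)
          = m' (rep ω') ω' (w : L) - δ' (rep ω') * ((ω' w : ℂˣ) : ℂ) := by
      intro ω ω' h
      obtain ⟨hδ, hD⟩ := hDiff ω ω' h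
      have h1 := Helper10.D_apply (W₁ ⊔ W₂) W₂ hti' hcW ω ω' w hw
      rw [hD] at h1
      have h2 : δ' (rep ω) * (m' (rep ω) ω (w : L) - m' (rep ω') ω' (w : L))
          = ((ω w : ℂˣ) : ℂ) - ((ω' w : ℂˣ) : ℂ) := h1
      have hsq : δ' (rep ω) * δ' (rep ω) = 1 := by
        rcases hsign ω with h | h <;> rw [h] <;> norm_num
      rw [← hδ]
      linear_combination (δ' (rep ω)) * h2
        - (m' (rep ω) ω (w : L) - m' (rep ω') ω' (w : L)) * hsq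
    have hT : ∑ ω : ↥(W₁ ⊔ W₂) →* ℂˣ, (δ' (rep ω) * ((ω w : ℂˣ) : ℂ)) *
        (starRingEnd ℂ) (m' (rep ω) ω (w : L) - δ' (rep ω) * ((ω w : ℂˣ) : ℂ)) = 0 := by
      have hshift : ∀ ω : ↥(W₁ ⊔ W₂) →* ℂˣ,
          (δ' (rep (η * ω)) * (((η * ω) w : ℂˣ) : ℂ)) *
            (starRingEnd ℂ) (m' (rep (η * ω)) (η * ω) (w : L)
              - δ' (rep (η * ω)) * (((η * ω) w : ℂˣ) : ℂ))
          = ((η w : ℂˣ) : ℂ) * ((δ' (rep ω) * ((ω w : ℂˣ) : ℂ)) *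
            (starRingEnd ℂ) (m' (rep ω) ω (w : L) - δ' (rep ω) * ((ω w : ℂˣ) : ℂ))) := by
        intro ω
        have hag : Helper10.Agree (W₁ ⊔ W₂) W₂ (η * ω) ω := fun v hv => by
          rw [MonoidHom.mul_apply, hη' v hv, one_mul]
        rw [hconst (η * ω) ω hag, hrep2 (η * ω) ω hag, MonoidHom.mul_apply, Units.val_mul]
        ring
      have hre := Equiv.sum_comp (Equiv.mulLeft η) (fun ω : ↥(W₁ ⊔ W₂) →* ℂˣ =>
        (δ' (rep ω) * ((ω w : ℂˣ) : ℂ)) *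
          (starRingEnd ℂ) (m' (rep ω) ω (w : L) - δ' (rep ω) * ((ω w : ℂˣ) : ℂ)))
      have hre' : ∑ ω : ↥(W₁ ⊔ W₂) →* ℂˣ, (δ' (rep (η * ω)) * (((η * ω) w : ℂˣ) : ℂ)) *
            (starRingEnd ℂ) (m' (rep (η * ω)) (η * ω) (w : L)
              - δ' (rep (η * ω)) * (((η * ω) w : ℂˣ) : ℂ))
          = ∑ ω : ↥(W₁ ⊔ W₂) →* ℂˣ, (δ' (rep ω) * ((ω w : ℂˣ) : ℂ)) *
            (starRingEnd ℂ) (m' (rep ω) ω (w : L) - δ' (rep ω) * ((ω w : ℂˣ) : ℂ)) := hre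
      rw [Finset.sum_congr rfl (fun ω _ => hshift ω), ← Finset.mul_sum] at hre'
      have hne : ((η w : ℂˣ) : ℂ) - 1 ≠ 0 := by
        intro h
        apply hηw
        apply Units.ext
        rw [Units.val_one]
        linear_combination h
      have hmul : (((η w : ℂˣ) : ℂ) - 1) * ∑ ω : ↥(W₁ ⊔ W₂) →* ℂˣ,
          (δ' (rep ω) * ((ω w : ℂˣ) : ℂ)) *
            (starRingEnd ℂ) (m' (rep ω) ω (w : L) - δ' (rep ω) * ((ω w : ℂˣ) : ℂ)) = 0 := by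
        linear_combination hre'
      exact (mul_eq_zero.mp hmul).resolve_left hne
    have hcent : Subgroup.centralizer ({(w : L)} : Set L) = W₁ ⊔ W₂ := by
      apply le_antisymm
      · intro y hy
        rw [Subgroup.mem_centralizer_iff] at hy
        have h1 := hy (w : L) (Set.mem_singleton _)
        apply hti' w hw y
        have h2 : y⁻¹ * (w : L) * y = (w : L) := by
          rw [mul_assoc, h1, inv_mul_cancel_left]
        rw [h2]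
        exact w.2
      · intro y hy
        rw [Subgroup.mem_centralizer_iff]
        intro z hz
        rw [Set.mem_singleton_iff] at hz
        rw [hz]
        exact hWcomm _ w.2 y hy
    have hcard : Nat.card (Subgroup.centralizer ({(w : L)} : Set L))
        = Fintype.card (↥(W₁ ⊔ W₂) →* ℂˣ) := by
      rw [hcent, ← Nat.card_eq_fintype_card, Helper10.card_hom_units hcW]
    have hu : ∀ ω : ↥(W₁ ⊔ W₂) →* ℂˣ,
        Complex.normSq (δ' (rep ω) * ((ω w : ℂˣ) : ℂ)) = 1 := by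
      intro ω
      rw [Complex.normSq_mul, Complex.normSq_eq_norm_sq (((ω w : ℂˣ) : ℂ)),
        Helper10.norm_hom_units]
      rcases hsign ω with h | h <;> rw [h] <;> simp
    obtain ⟨hc0, hother⟩ := Helper10.values_of_family (fun ω => m' (rep ω) ω) hirr hinj (w : L)
      (fun ω => δ' (rep ω) * ((ω w : ℂˣ) : ℂ))
      (fun ω => m' (rep ω) ω (w : L) - δ' (rep ω) * ((ω w : ℂˣ) : ℂ))
      (fun ω => (add_sub_cancel _ _).symm) hu hT hcard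
    refine ⟨fun ω => ?_, hother⟩
    have h0 : m' (rep ω) ω (w : L) - δ' (rep ω) * ((ω w : ℂˣ) : ℂ) = 0 := hc0 ω
    exact sub_eq_zero.mp h0
  have hcongr : ∀ ω : ↥(W₁ ⊔ W₂) →* ℂˣ,
      ∃ n : ℤ, m' (rep ω) ω 1 - δ' (rep ω) = n * (Nat.card W₁ : ℂ) := by
    intro ω
    refine Helper10.congr_of_values W₁ (m' (rep ω) ω) (Helper24.isCharacter_of_irr (hirr ω))
      (δ' (rep ω)) (hsign ω)
      (ω.comp (Subgroup.inclusion (le_sup_left : W₁ ≤ W₁ ⊔ W₂))) (fun x hx => ?_)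
    have hxL : (x : L) ∉ W₂ := hx2 (x : L) x.2 (fun h => hx (Subtype.ext h))
    exact (hvals (Subgroup.inclusion (le_sup_left : W₁ ≤ W₁ ⊔ W₂) x) hxL).1 ω
  exact ⟨fun ω => m' (rep ω) ω, fun ω => δ' (rep ω), hinj, hirr, hsign,
    fun ω ω' h => hDiff ω ω' h, fun ω w hw => (hvals w hw).1 ω,
    fun θ hθ hne w hw => (hvals w hw).2 θ hθ hne, hcongr⟩

end Cfsg.Agent.S1511
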