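import Cfsg.Statements.S1512
import Cfsg.Agent.Helper10.CyclicCompl

set_option autoImplicit false
open Cfsg

namespace Cfsg.Agent.S1512

theorem exists_rep {L : Type*} [Group L] [Finite L] (K W₂ : Subgroup L) [hK : K.Normal] (x : L)
    (hx1 : x ≠ 1) (hx : Nat.Coprime (orderOf x) (Nat.card K))
    (hC : ∀ y ∈ Subgroup.zpowers x, y ≠ 1 → K ⊓ Subgroup.centralizer ({y} : Set L) = W₂)
    (C : ConjClasses K)
    (hfix : ConjClasses.map (MulEquiv.toMonoidHom ((MulAut.conjNormal x : MulAut K))) C = C) :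
    ∃ w : L, ∃ hwK : w ∈ K, w ∈ W₂ ∧ ConjClasses.mk (⟨w, hwK⟩ : K) = C := by
  obtain ⟨k₀, rfl⟩ := ConjClasses.mk_surjective C
  have h1 : ConjClasses.mk ((MulAut.conjNormal x : MulAut K) k₀) = ConjClasses.mk k₀ := hfix
  obtain ⟨c, hc⟩ := isConj_iff.mp (ConjClasses.mk_eq_mk_iff_isConj.mp h1)
  have hc' : (c : L) * (x * (k₀ : L) * x⁻¹) * (c : L)⁻¹ = (k₀ : L) := by
    have := congrArg Subtype.val hc
    simpa [MulAut.conjNormal_apply] using this
  have hxn : x ∈ Subgroup.normalizer (K : Set L) := by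
    rw [Subgroup.normalizer_eq_top_iff.mpr hK]; trivial
  have hu : ((c : L) * x) * x⁻¹ ∈ K := by simp
  obtain ⟨y, hy, j, hyj⟩ := Cfsg.Agent.Helper10.exists_pow_conj K x ((c : L) * x) hxn hx hu
  have hcomm : Commute ((c : L) * x) (k₀ : L) := by
    have h2 : (c : L) * x * (k₀ : L) = (c : L) * (x * (k₀ : L) * x⁻¹) * (c : L)⁻¹ * ((c : L) * x) := by
      group
    show (c : L) * x * (k₀ : L) = (k₀ : L) * ((c : L) * x)
    rw [h2, hc']
  have hcomm2 : Commute (y * x * y⁻¹) (k₀ : L) := by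
    rw [hyj]; exact hcomm.pow_left j
  have hwK : y⁻¹ * (k₀ : L) * y ∈ K := K.mul_mem (K.mul_mem (K.inv_mem hy) k₀.2) hy
  refine ⟨y⁻¹ * (k₀ : L) * y, hwK, ?_, ?_⟩
  · rw [← hC x (Subgroup.mem_zpowers x) hx1]
    refine Subgroup.mem_inf.mpr ⟨hwK, ?_⟩
    rw [Subgroup.mem_centralizer_iff]
    intro z hz
    rw [Set.mem_singleton_iff] at hz
    subst hz
    have h3 : y * z * y⁻¹ * (k₀ : L) = (k₀ : L) * (y * z * y⁻¹) := hcomm2
    calc z * (y⁻¹ * (k₀ : L) * y) = y⁻¹ * (y * z * y⁻¹ * (k₀ : L)) * y := by group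
      _ = y⁻¹ * ((k₀ : L) * (y * z * y⁻¹)) * y := by rw [h3]
      _ = y⁻¹ * (k₀ : L) * y * z := by group
  · apply ConjClasses.mk_eq_mk_iff_isConj.mpr
    apply isConj_iff.mpr
    refine ⟨⟨y, hy⟩, ?_⟩
    apply Subtype.ext
    simp [mul_assoc]

/-- If x normalises a finite group K, has order coprime to the order of K, and every nontrivial power of x has the same centraliser W₂ in K, then at most [W₂:1] conjugacy classes of K are fixed by conjugation by x. -/
theorem result {L : Type*} [Group L] [Finite L] (K W₂ : Subgroup L) [hK : K.Normal] (x : L) (hx1 : x ≠ 1) (hx : Nat.Coprime (orderOf x) (Nat.card K)) (hC : ∀ y ∈ Subgroup.zpowers x, y ≠ 1 → K ⊓ Subgroup.centralizer ({y} : Set L) = W₂) : Nat.card {C : ConjClasses K // ConjClasses.map (MulEquiv.toMonoidHom ((MulAut.conjNormal x : MulAut K))) C = C} ≤ Nat.card W₂ := by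
  classical
  have hex := fun C : {C : ConjClasses K // ConjClasses.map (MulEquiv.toMonoidHom ((MulAut.conjNormal x : MulAut K))) C = C} =>
    exists_rep K W₂ x hx1 hx hC C.1 C.2
  choose w hwK hwW hw using hex
  apply Nat.card_le_card_of_injective (fun C => (⟨w C, hwW C⟩ : W₂))
  intro C C' hCC'
  have h1 : w C = w C' := congrArg Subtype.val hCC'
  apply Subtype.ext
  rw [← hw C, ← hw C']
  congr 1
  exact Subtype.ext h1

end Cfsg.Agent.S1512
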