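import Cfsg.Statements.S1513
import Cfsg.Agent.Helper10.TypePKernel
import Cfsg.Agent.Helper10.IndLemmas
import Cfsg.Agent.Helper10.AbQuot
import Cfsg.Agent.Helper6.Clifford
import Cfsg.Agent.Helper6.Inertia
import Cfsg.Agent.Helper6.ExtendCyclic
import Cfsg.Agent.Helper2.CharNat
import Cfsg.Agent.Helper2.CharRep
-- import your own Cfsg.Agent.* helpers here

set_option autoImplicit false
open Cfsg

namespace Cfsg.Agent.S1513



/-- Let L be a finite group with K normal with complement W₁ ≠ 1 a cyclic Hall subgroup, and W₂ ≠ 1 a cyclic subgroup of K equal to C_K(x) for every non-identity x ∈ W₁, with W₁W₂ of odd order. For an irreducible character θ of K: if θ is not fixed under conjugation by some element of W₁, then the function induced from θ to L is an irreducible character of L; and the irreducible characters of K fixed by all of W₁ are exactly Nat.card W₂ in number, each inducing to the sum of Nat.card W₁ pairwise distinct irreducible characters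 of L. -/
theorem result {L : Type*} [Group L] [Fintype L] (K W₁ W₂ : Subgroup L) [hK : K.Normal] (hKW₁ : K ⊓ W₁ = ⊥) (hKW₁' : K ⊔ W₁ = ⊤) (hW₁ : W₁ ≠ ⊥) (hW₁c : IsCyclic W₁) (hHall : Nat.Coprime (Nat.card W₁) W₁.index) (hW₂ : W₂ ≠ ⊥) (hW₂c : IsCyclic W₂) (hW₂K : W₂ ≤ K) (hC : ∀ x ∈ W₁, x ≠ 1 → K ⊓ Subgroup.centralizer ({x} : Set L) = W₂) (hodd : Odd (Nat.card ↥(W₁ ⊔ W₂))) : (∀ θ : K → ℂ, Cfsg.IsIrrCharacter K θ → (∃ x ∈ W₁, (fun k : K => θ ⟨x * k * x⁻¹, hK.conj_mem (k : L) k.2 x⟩) ≠ θ) → Cfsg.IsIrrCharacter L (Cfsg.indFun K θ)) ∧ Nat.card {θ : Cfsg.IrrCharacter K // ∀ x ∈ W₁, (fun k : K => (θ : K → ℂ) ⟨x * k * x⁻¹, hK.conj_mem (k : L) k.2 x⟩) = θ} = Nat.card W₂ ∧ (∀ θ : K → ℂ, Cfsg.IsIrrCharacter K θ → (∀ x ∈ W₁, (fun k : K => θ ⟨x * k * x⁻¹, hK.conj_mem (k : L) k.2 x⟩) = θ) → ∃ C : Finset (L → ℂ), C.card = Nat.card W₁ ∧ (∀ μ ∈ C, Cfsg.IsIrrCharacter L μ) ∧ Cfsg.indFun K θ = ∑ μ ∈ C, μ) := by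
  classical
  have := Fintype.ofFinite K
  have := Helper24.finite_irrCharacter (G := K)
  have := Fintype.ofFinite (IrrCharacter K)
  -- basic facts
  have hmul : ∀ g : L, ∃ k ∈ K, ∃ w ∈ W₁, k * w = g := by
    intro g
    have hg : g ∈ ((K ⊔ W₁ : Subgroup L) : Set L) := by
      rw [hKW₁']
      exact Set.mem_univ g
    rw [Subgroup.normal_mul] at hg
    exact Set.mem_mul.1 hg
  have hcompl : K.IsComplement' W₁ :=
    Subgroup.isComplement'_of_disjoint_and_mul_eq_univ (disjoint_iff.2 hKW₁) (by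
      rw [← Subgroup.normal_mul, hKW₁']
      rfl)
  have hKidx : K.index = Nat.card W₁ := hcompl.symm.index_eq_card
  have hKcard : W₁.index = Nat.card K := hcompl.index_eq_card
  have hcop : ∀ x ∈ W₁, (orderOf x).Coprime (Nat.card K) := by
    intro x hx
    rw [← hKcard]
    refine Nat.Coprime.coprime_dvd_left ?_ hHall
    have h1 := orderOf_dvd_natCard (⟨x, hx⟩ : W₁)
    rwa [Subgroup.orderOf_mk] at h1
  have hab : ∀ a ∈ W₂, ∀ b ∈ W₂, a * b = b * a := by
    intro a ha b hb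
    obtain ⟨g, hg⟩ := hW₂c.exists_generator
    obtain ⟨i, hi⟩ := Subgroup.mem_zpowers_iff.1 (hg ⟨a, ha⟩)
    obtain ⟨j, hj⟩ := Subgroup.mem_zpowers_iff.1 (hg ⟨b, hb⟩)
    have hi' : (g : L) ^ i = a := by
      have := congrArg Subtype.val hi
      simpa using this
    have hj' : (g : L) ^ j = b := by
      have := congrArg Subtype.val hj
      simpa using this
    rw [← hi', ← hj', ← zpow_add, ← zpow_add, add_comm]
  -- a generator of W₁
  obtain ⟨x₁', hx₁'⟩ := hW₁c.exists_generator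
  obtain ⟨x₁, hx₁def⟩ : ∃ x₁ : L, x₁ = (x₁' : L) := ⟨_, rfl⟩
  have hx₁ : x₁ ∈ W₁ := by
    rw [hx₁def]
    exact x₁'.2
  have hgen : ∀ y ∈ W₁, ∃ i : ℤ, x₁ ^ i = y := by
    intro y hy
    obtain ⟨i, hi⟩ := Subgroup.mem_zpowers_iff.1 (hx₁' ⟨y, hy⟩)
    refine ⟨i, ?_⟩
    have := congrArg Subtype.val hi
    rw [hx₁def]
    simpa using this
  have hx₁ne : x₁ ≠ 1 := by
    intro h
    apply hW₁
    rw [eq_bot_iff]
    intro y hy
    obtain ⟨i, hi⟩ := hgen y hy
    rw [Subgroup.mem_bot, ← hi, h, one_zpow]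
  have hfixall : ∀ θ : K → ℂ,
      (fun k : K => θ ⟨x₁ * k * x₁⁻¹, hK.conj_mem (k : L) k.2 x₁⟩) = θ →
      ∀ x ∈ W₁, (fun k : K => θ ⟨x * k * x⁻¹, hK.conj_mem (k : L) k.2 x⟩) = θ := by
    intro θ h x hx
    have h1 : x₁ ∈ Helper6.inertia K θ := by
      rw [Helper6.mem_inertia]
      intro n
      exact congrFun h n
    obtain ⟨i, hi⟩ := hgen x hx
    have h2 : x ∈ Helper6.inertia K θ := by
      rw [← hi]
      exact Subgroup.zpow_mem _ h1 i
    funext n
    exact (Helper6.mem_inertia K θ x).1 h2 n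
  obtain ⟨Fx, hFx⟩ : ∃ Fx : L → Finset (IrrCharacter K), ∀ (x : L) (θ : IrrCharacter K),
      θ ∈ Fx x ↔ (fun k : K => (θ : K → ℂ) ⟨x * k * x⁻¹, hK.conj_mem (k : L) k.2 x⟩) =
        (θ : K → ℂ) :=
    ⟨fun x => Finset.univ.filter (fun θ : IrrCharacter K =>
      (fun k : K => (θ : K → ℂ) ⟨x * k * x⁻¹, hK.conj_mem (k : L) k.2 x⟩) = (θ : K → ℂ)),
      by intro x θ; simp⟩
  have hFcard : ∀ x ∈ W₁, x ≠ 1 → (Fx x).card = Nat.card W₂ := by
    intro x hx hx1
    exact Helper10.card_fixed_irr K W₁ W₂ hKW₁ x hx (hcop x hx) (hC x hx hx1) hab (Fx x) (hFx x)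
  have hFsub : ∀ x ∈ W₁, Fx x₁ ⊆ Fx x := by
    intro x hx θ hθ
    rw [hFx] at hθ ⊢
    exact hfixall θ hθ x hx
  have hFeq : ∀ x ∈ W₁, x ≠ 1 → Fx x₁ = Fx x := fun x hx hx1 =>
    Finset.eq_of_subset_of_card_le (hFsub x hx) (by rw [hFcard x hx hx1, hFcard x₁ hx₁ hx₁ne])
  refine ⟨?_, ?_, ?_⟩
  · rintro θ hθ ⟨x₀, hx₀, hne⟩
    have hθc := Helper24.isCharacter_of_irr hθ
    have hstab : ∀ g : L,
        (θ = fun h : K => θ ⟨g * h * g⁻¹, hK.conj_mem h h.2 g⟩) ↔ g ∈ K := by
      intro g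
      constructor
      · intro hg
        by_contra hgK
        obtain ⟨k, hk, w, hw, hkw⟩ := hmul g
        have hw1 : w ≠ 1 := by
          rintro rfl
          apply hgK
          rw [← hkw, mul_one]
          exact hk
        have hgI : g ∈ Helper6.inertia K θ := by
          rw [Helper6.mem_inertia]
          intro n
          exact (congrFun hg n).symm
        have hkI : k ∈ Helper6.inertia K θ :=
          Helper6.le_inertia K (Helper2.IsIrrCharacter.isClassFunction hθ) hk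
        have hwI : w ∈ Helper6.inertia K θ := by
          have e : w = k⁻¹ * g := by
            rw [← hkw]
            group
          rw [e]
          exact Subgroup.mul_mem _ (Subgroup.inv_mem _ hkI) hgI
        have hθF : (⟨θ, hθ⟩ : IrrCharacter K) ∈ Fx w := by
          rw [hFx]
          funext n
          exact (Helper6.mem_inertia K θ w).1 hwI n
        rw [← hFeq w hw hw1, hFx] at hθF
        exact hne (hfixall θ hθF x₀ hx₀)
      · intro hg
        funext h
        exact ((Helper2.IsIrrCharacter.isClassFunction hθ) h ⟨g, hg⟩).symm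
    have hnorm : classInner (indFun K θ) (indFun K θ) = 1 := by
      rw [Helper10.classInner_indFun_normal K θ hθ]
      have hN0 : (Nat.card K : ℂ) ≠ 0 := by exact_mod_cast Nat.card_pos.ne'
      rw [inv_mul_eq_one₀ hN0]
      congr 1
      rw [Nat.card_eq_fintype_card, Fintype.card_subtype]
      congr 1
      ext x
      simp only [Finset.mem_filter, Finset.mem_univ, true_and]
      exact (hstab x).symm
    exact Helper10.isIrr_of_char_norm_one (Helper2.isCharacter_indFun K hθc) hnorm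
  · rw [← hFcard x₁ hx₁ hx₁ne, ← Fintype.card_coe (Fx x₁), ← Nat.card_eq_fintype_card]
    refine Nat.card_congr (Equiv.subtypeEquivRight fun θ => ?_)
    rw [hFx]
    constructor
    · intro h
      exact h x₁ hx₁
    · intro h
      exact hfixall θ h
  · intro θ hθ hfix
    have hθc := Helper24.isCharacter_of_irr hθ
    have hinv : ∀ (g : L) (n : K), θ ⟨g * n * g⁻¹, hK.conj_mem (n : L) n.2 g⟩ = θ n := by
      intro g
      rw [← Helper6.mem_inertia]
      obtain ⟨k, hk, w, hw, hkw⟩ := hmul g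
      rw [← hkw]
      refine Subgroup.mul_mem _
        (Helper6.le_inertia K (Helper2.IsIrrCharacter.isClassFunction hθ) hk) ?_
      rw [Helper6.mem_inertia]
      intro n
      exact congrFun (hfix w hw) n
    have hcyc : IsCyclic (L ⧸ K) := by
      have hsurj : Function.Surjective ((QuotientGroup.mk' K).comp W₁.subtype) := by
        intro q
        obtain ⟨g, rfl⟩ := QuotientGroup.mk_surjective q
        obtain ⟨k, hk, w, hw, hkw⟩ := hmul g
        refine ⟨⟨w, hw⟩, ?_⟩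
        show ((w : L) : L ⧸ K) = (g : L ⧸ K)
        rw [QuotientGroup.eq, ← hkw]
        have e : w⁻¹ * (k * w) = w⁻¹ * k * w⁻¹⁻¹ := by group
        rw [e]
        exact hK.conj_mem k hk w⁻¹
      exact isCyclic_of_surjective _ hsurj
    have habq : ∀ x y : L, x * y * x⁻¹ * y⁻¹ ∈ K := by
      intro x y
      obtain ⟨q, hq⟩ := hcyc.exists_generator
      obtain ⟨i, hi⟩ := Subgroup.mem_zpowers_iff.1 (hq (x : L ⧸ K))
      obtain ⟨j, hj⟩ := Subgroup.mem_zpowers_iff.1 (hq (y : L ⧸ K))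
      rw [← QuotientGroup.eq_one_iff, QuotientGroup.mk_mul, QuotientGroup.mk_mul,
        QuotientGroup.mk_mul, QuotientGroup.mk_inv, QuotientGroup.mk_inv, ← hi, ← hj,
        ← zpow_neg, ← zpow_neg, ← zpow_add, ← zpow_add, ← zpow_add]
      have e : i + j + -i + -j = 0 := by ring
      rw [e, zpow_zero]
    obtain ⟨e, C, he, hC1, hC2, hC3⟩ := Helper10.clifford_abelian_quot K hθ hinv habq
    -- an extension of θ to L
    obtain ⟨ψ₀, hψ₀c, hψ₀res⟩ : ∃ ψ₀ : L → ℂ, IsCharacter L ψ₀ ∧ (fun n : K => ψ₀ n) = θ := by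
      obtain ⟨n, ρ, hρirr, hρχ⟩ := hθ
      haveI := hρirr
      obtain ⟨P, hP⟩ := Helper6.exists_extension_of_cyclic K hcyc ρ (by
        intro g
        funext m
        have e1 : Representation.character
            (ρ.comp (MulAut.conjNormal g : K ≃* K).toMonoidHom : Representation ℂ K (Fin n → ℂ)) m
            = ρ.character ((MulAut.conjNormal g : K ≃* K) m) := rfl
        rw [e1, hρχ]
        exact hinv g m)
      refine ⟨P.character, Helper2.isCharacter_of_rep P, ?_⟩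
      funext m
      rw [← hρχ]
      show LinearMap.trace ℂ _ (P (m : L)) = LinearMap.trace ℂ _ (ρ m)
      rw [hP m]
    have h1 : classInner (indFun K θ) ψ₀ = 1 := by
      rw [Helper6.classInner_indFun_eq K hθc hψ₀c, hψ₀res, Helper2.classInner_irr hθ hθ,
        if_pos rfl]
    obtain ⟨M, hM⟩ : ∃ M : ℕ, ∑ ψ ∈ C, classInner ψ ψ₀ = (M : ℂ) := by
      refine Finset.sum_induction (fun ψ => classInner ψ ψ₀) (fun z => ∃ M : ℕ, z = (M : ℂ))
        ?_ ⟨0, by simp⟩ ?_
      · rintro a b ⟨m1, rfl⟩ ⟨m2, rfl⟩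
        exact ⟨m1 + m2, by push_cast; rfl⟩
      · intro ψ hψ
        exact Helper2.classInner_char_nat (Helper24.isCharacter_of_irr (hC1 ψ hψ).1) hψ₀c
    rw [hC3, Helper2.classInner_smul_left, Helper2.classInner_sum_left, hM] at h1
    have h2 : e * M = 1 := by exact_mod_cast h1
    have he1 : e = 1 := Nat.dvd_one.1 (Dvd.intro _ h2)
    rw [he1, one_pow, one_mul] at hC2
    refine ⟨C, by rw [hC2, hKidx], fun μ hμ => (hC1 μ hμ).1, ?_⟩
    rw [hC3, he1, Nat.cast_one, one_smul]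

end Cfsg.Agent.S1513
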