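import Cfsg.Statements.S1514
import Cfsg.Agent.Helper10.VirtualChar

set_option autoImplicit false
open Cfsg

namespace Cfsg.Agent.S1514

open scoped ComplexConjugate

theorem classInner_conjFun {X : Type*} [Group X] [Fintype X] (f h : X → ℂ) :
    classInner (conjFun f) (conjFun h) = conj (classInner f h) := by
  unfold classInner conjFun
  rw [map_mul, map_inv₀, Complex.conj_natCast, map_sum]
  congr 1
  exact Finset.sum_congr rfl fun x _ => by simp

theorem conjFun_conjFun {X : Type*} (f : X → ℂ) : conjFun (conjFun f) = f := by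
  funext x
  simp [conjFun]

theorem sign_opp {e₁ e₂ d₁ d₂ : ℝ} (h₁ : e₁ = 1 ∨ e₁ = -1) (h₂ : e₂ = 1 ∨ e₂ = -1)
    (hd₁ : 0 < d₁) (hd₂ : 0 < d₂) (h : e₁ * d₁ + e₂ * d₂ = 0) : e₂ = -e₁ := by
  rcases h₁ with rfl | rfl <;> rcases h₂ with rfl | rfl
  · exfalso; linarith
  · rfl
  · norm_num
  · exfalso; linarith

/-- The decomposition predicate. -/
def Dec {L : Type*} {G : Type*} [Group G] (τ : (L → ℂ) → (G → ℂ)) (χ : L → ℂ)
    (A B : G → ℂ) : Prop :=
  ∃ (φ₁ φ₂ : G → ℂ) (e : ℝ), IsIrrCharacter G φ₁ ∧ IsIrrCharacter G φ₂ ∧ φ₁ ≠ φ₂ ∧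
    (e = 1 ∨ e = -1) ∧ A = (e : ℂ) • φ₁ ∧ B = ((-e : ℝ) : ℂ) • φ₂ ∧ τ (χ - conjFun χ) = A + B

theorem result {L : Type*} [Group L] [Fintype L] {G : Type*} [Group G] [Fintype G] (S : Set (L → ℂ)) (hS : S.Nonempty) (hirr : ∀ χ ∈ S, Cfsg.IsIrrCharacter L χ) (hconj : ∀ χ ∈ S, Cfsg.conjFun χ ∈ S ∧ Cfsg.conjFun χ ≠ χ) (τ : (L → ℂ) → (G → ℂ)) (hτ : Cfsg.IsLinearIsometryOn (Cfsg.zspanOn S {1}ᶜ) τ) (hτ1 : ∀ α ∈ Cfsg.zspanOn S {1}ᶜ, τ α 1 = 0) : ∃ R : (L → ℂ) → Finset (G → ℂ), Cfsg.IsCoherenceSystem S τ R := by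
  classical
  obtain ⟨hadd, hsmul, hiso, hgen⟩ := hτ
  have hmem : ∀ χ ∈ S, (χ - conjFun χ) ∈ zspanOn S {1}ᶜ := by
    intro χ hχ
    refine ⟨Submodule.sub_mem _ (Submodule.subset_span hχ)
      (Submodule.subset_span (hconj χ hχ).1), ?_⟩
    intro x hx
    have hx1 : x = 1 := by simpa using hx
    subst hx1
    have hd := Helper24.charDegree_spec (Helper24.isCharacter_of_irr (hirr χ hχ))
    show χ 1 - conj (χ 1) = 0
    rw [hd, Complex.conj_natCast, sub_self]
  have hnorm2 : ∀ χ ∈ S, classInner (χ - conjFun χ) (χ - conjFun χ) = 2 := by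
    intro χ hχ
    have h1 := hirr χ hχ
    have h2 := hirr _ (hconj χ hχ).1
    rw [Helper2.classInner_sub_left, Helper2.classInner_sub_right, Helper2.classInner_sub_right,
      Helper2.classInner_irr h1 h1, Helper2.classInner_irr h1 h2, Helper2.classInner_irr h2 h1,
      Helper2.classInner_irr h2 h2, if_pos rfl, if_pos rfl, if_neg (hconj χ hχ).2,
      if_neg (Ne.symm (hconj χ hχ).2)]
    norm_num
  have hdec : ∀ χ ∈ S, ∃ A B, Dec τ χ A B := by
    intro χ hχ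
    have hm := hmem χ hχ
    have hn : classInner (τ (χ - conjFun χ)) (τ (χ - conjFun χ)) = 2 := by
      rw [hiso _ hm _ hm, hnorm2 χ hχ]
    obtain ⟨φ₁, φ₂, e₁, e₂, hφ₁, hφ₂, hne, he₁, he₂, hexp⟩ := Helper10.gen_norm_two (hgen _ hm) hn
    obtain ⟨d₁, hd₁, hφ₁1⟩ := Helper10.irr_one_eq hφ₁
    obtain ⟨d₂, hd₂, hφ₂1⟩ := Helper10.irr_one_eq hφ₂
    have h1 := hτ1 _ hm
    rw [hexp, Pi.add_apply, Pi.smul_apply, Pi.smul_apply, smul_eq_mul, smul_eq_mul, hφ₁1,
      hφ₂1] at h1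
    have h1' : e₁ * d₁ + e₂ * d₂ = 0 := by exact_mod_cast h1
    have hopp := sign_opp he₁ he₂ hd₁ hd₂ h1'
    subst hopp
    exact ⟨(e₁ : ℂ) • φ₁, ((-e₁ : ℝ) : ℂ) • φ₂, φ₁, φ₂, e₁, hφ₁, hφ₂, hne, he₁, rfl, rfl, hexp⟩
  choose! A B hAB using hdec
  have hAB_ne : ∀ χ ∈ S, A χ ≠ B χ := by
    intro χ hχ h
    obtain ⟨φ₁, φ₂, e, hφ₁, hφ₂, hne, he, hA, hB, -⟩ := hAB χ hχ
    have h1 : classInner (A χ) (A χ) = 1 := by
      rw [hA, Helper10.classInner_signed hφ₁ hφ₁, if_pos rfl]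
      rcases he with rfl | rfl <;> norm_num
    have h2 : classInner (A χ) (B χ) = 0 := by
      rw [hA, hB, Helper10.classInner_signed hφ₁ hφ₂, if_neg hne, mul_zero]
    rw [← h, h1] at h2
    exact one_ne_zero h2
  refine ⟨fun χ => {A χ, B χ}, ?_⟩
  refine
    { nonempty := hS
      isCharacter := fun χ hχ => Helper24.isCharacter_of_irr (hirr χ hχ)
      conj_mem := fun χ hχ => (hconj χ hχ).1
      conj_ne := fun χ hχ => (hconj χ hχ).2
      isometry := ⟨hadd, hsmul, hiso, hgen⟩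
      map_one := hτ1
      orthogonal := ?_
      orthonormal := ?_
      virtual := ?_
      sum_eq := ?_
      disjoint := ?_ }
  · intro χ hχ φ hφ hne
    rw [Helper2.classInner_irr (hirr χ hχ) (hirr φ hφ), if_neg hne]
  · intro χ hχ α hα β hβ
    obtain ⟨φ₁, φ₂, e, hφ₁, hφ₂, hne, he, hA, hB, -⟩ := hAB χ hχ
    have hee : (e : ℂ) * (e : ℂ) = 1 := by
      rcases he with rfl | rfl <;> norm_num
    have hAA : classInner (A χ) (A χ) = 1 := by
      rw [hA, Helper10.classInner_signed hφ₁ hφ₁, if_pos rfl, mul_one, hee]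
    have hBB : classInner (B χ) (B χ) = 1 := by
      rw [hB, Helper10.classInner_signed hφ₂ hφ₂, if_pos rfl, mul_one]
      push_cast
      linear_combination hee
    have hAB0 : classInner (A χ) (B χ) = 0 := by
      rw [hA, hB, Helper10.classInner_signed hφ₁ hφ₂, if_neg hne, mul_zero]
    have hBA0 : classInner (B χ) (A χ) = 0 := by
      rw [hA, hB, Helper10.classInner_signed hφ₂ hφ₁, if_neg (Ne.symm hne), mul_zero]
    have hα' : α = A χ ∨ α = B χ := by simpa using hα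
    have hβ' : β = A χ ∨ β = B χ := by simpa using hβ
    rcases hα' with rfl | rfl <;> rcases hβ' with rfl | rfl
    · rw [if_pos rfl, hAA]
    · rw [if_neg (hAB_ne χ hχ), hAB0]
    · rw [if_neg (Ne.symm (hAB_ne χ hχ)), hBA0]
    · rw [if_pos rfl, hBB]
  · intro χ hχ α hα
    obtain ⟨φ₁, φ₂, e, hφ₁, hφ₂, hne, he, hA, hB, -⟩ := hAB χ hχ
    have hα' : α = A χ ∨ α = B χ := by simpa using hα
    rcases hα' with rfl | rfl
    · rw [hA]
      exact Helper10.isGeneralizedCharacter_signed hφ₁ he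
    · rw [hB]
      refine Helper10.isGeneralizedCharacter_signed hφ₂ ?_
      rcases he with rfl | rfl
      · right; rfl
      · left; norm_num
  · intro χ hχ
    obtain ⟨φ₁, φ₂, e, hφ₁, hφ₂, hne, he, hA, hB, hsum⟩ := hAB χ hχ
    rw [hsum, Finset.sum_pair (hAB_ne χ hχ)]
  · intro χ hχ φ hφ h1 h2 α hα β hβ
    obtain ⟨φ₁, φ₂, e, hφ₁, hφ₂, hne, he, hA, hB, hsum⟩ := hAB χ hχ
    obtain ⟨ψ₁, ψ₂, f, hψ₁, hψ₂, hne', hf, hA', hB', hsum'⟩ := hAB φ hφ
    have he0 : (e : ℂ) ≠ 0 := by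
      rcases he with rfl | rfl <;> norm_num
    have hf0 : (f : ℂ) ≠ 0 := by
      rcases hf with rfl | rfl <;> norm_num
    have h3 : classInner (conjFun φ) χ = 0 := by
      have := classInner_conjFun φ (conjFun χ)
      rw [conjFun_conjFun, h2, map_zero] at this
      exact this
    have h4 : classInner (conjFun φ) (conjFun χ) = 0 := by
      rw [classInner_conjFun, h1, map_zero]
    have hz : classInner (τ (φ - conjFun φ)) (τ (χ - conjFun χ)) = 0 := by
      rw [hiso _ (hmem φ hφ) _ (hmem χ hχ), Helper2.classInner_sub_left,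
        Helper2.classInner_sub_right, Helper2.classInner_sub_right, h1, h2, h3, h4]
      ring
    rw [hsum, hsum', hA, hB, hA', hB', Helper2.classInner_add_left, Helper2.classInner_add_right,
      Helper2.classInner_add_right, Helper10.classInner_signed hψ₁ hφ₁,
      Helper10.classInner_signed hψ₁ hφ₂, Helper10.classInner_signed hψ₂ hφ₁,
      Helper10.classInner_signed hψ₂ hφ₂] at hz
    have hkey : (if ψ₁ = φ₁ then (1 : ℂ) else 0) - (if ψ₁ = φ₂ then (1 : ℂ) else 0)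
        - (if ψ₂ = φ₁ then (1 : ℂ) else 0) + (if ψ₂ = φ₂ then (1 : ℂ) else 0) = 0 := by
      have : (f : ℂ) * (e : ℂ) * ((if ψ₁ = φ₁ then (1 : ℂ) else 0) - (if ψ₁ = φ₂ then (1 : ℂ) else 0)
        - (if ψ₂ = φ₁ then (1 : ℂ) else 0) + (if ψ₂ = φ₂ then (1 : ℂ) else 0)) = 0 := by
        push_cast at hz
        linear_combination hz
      rcases mul_eq_zero.1 this with h | h
      · exact absurd h (mul_ne_zero hf0 he0)
      · exact h
    have h11 : ψ₁ ≠ φ₁ := by
      intro h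
      subst h
      have h12 : ψ₁ ≠ φ₂ := hne
      have h21 : ψ₂ ≠ ψ₁ := Ne.symm hne'
      rw [if_pos rfl, if_neg h12, if_neg h21] at hkey
      by_cases h22 : ψ₂ = φ₂
      · rw [if_pos h22] at hkey; norm_num at hkey
      · rw [if_neg h22] at hkey; norm_num at hkey
    have h22 : ψ₂ ≠ φ₂ := by
      intro h
      subst h
      have h12 : ψ₁ ≠ ψ₂ := hne'
      have h21 : ψ₂ ≠ φ₁ := Ne.symm hne
      rw [if_neg h11, if_neg h12, if_neg h21, if_pos rfl] at hkey
      norm_num at hkey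
    have h12 : ψ₁ ≠ φ₂ := by
      intro h
      subst h
      rw [if_neg h11, if_pos rfl, if_neg h22] at hkey
      by_cases h21 : ψ₂ = φ₁
      · rw [if_pos h21] at hkey; norm_num at hkey
      · rw [if_neg h21] at hkey; norm_num at hkey
    have h21 : ψ₂ ≠ φ₁ := by
      intro h
      subst h
      rw [if_neg h11, if_neg h12, if_pos rfl, if_neg h22] at hkey
      norm_num at hkey
    have hα' : α = A φ ∨ α = B φ := by simpa using hα
    have hβ' : β = A χ ∨ β = B χ := by simpa using hβ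
    rcases hα' with rfl | rfl <;> rcases hβ' with rfl | rfl
    · rw [hA, hA', Helper10.classInner_signed hψ₁ hφ₁, if_neg h11, mul_zero]
    · rw [hB, hA', Helper10.classInner_signed hψ₁ hφ₂, if_neg h12, mul_zero]
    · rw [hA, hB', Helper10.classInner_signed hψ₂ hφ₁, if_neg h21, mul_zero]
    · rw [hB, hB', Helper10.classInner_signed hψ₂ hφ₂, if_neg h22, mul_zero]

end Cfsg.Agent.S1514
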