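import Cfsg.Statements.S1515
import Cfsg.Agent.Helper10.VirtualChar

set_option autoImplicit false
open Cfsg

namespace Cfsg.Agent.S1515

theorem int_le_sq (a : ℤ) : (a : ℝ) ≤ (a : ℝ) ^ 2 := by
  have h : a ≤ a ^ 2 := by
    rcases le_or_gt a 0 with h | h
    · have := sq_nonneg a
      linarith
    · nlinarith
  exact_mod_cast h

theorem int_eq_of_sq_eq (a : ℤ) (h : (a : ℝ) = (a : ℝ) ^ 2) : a = 0 ∨ a = 1 := by
  have h' : a = a ^ 2 := by exact_mod_cast h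
  have : a * (a - 1) = 0 := by ring_nf; linarith
  rcases mul_eq_zero.1 this with h | h
  · left; exact h
  · right; linarith

theorem result {L : Type*} [Group L] [Fintype L] {G : Type*} [Group G] [Fintype G] (S : Set (L → ℂ)) (τ : (L → ℂ) → (G → ℂ)) (R : (L → ℂ) → Finset (G → ℂ)) (hS : Cfsg.IsCoherenceSystem S τ R) (χ : L → ℂ) (hχ : χ ∈ S) (ψ : L → ℂ) (hψ : ψ ∈ Cfsg.zspan S) (h1 : Cfsg.classInner χ ψ = 0) (h2 : Cfsg.classInner (Cfsg.conjFun χ) ψ = 0) (τ₁ : (L → ℂ) → (G → ℂ)) (hτ₁ : Cfsg.IsLinearIsometryOn (Cfsg.zspan {χ - ψ, χ - Cfsg.conjFun χ}) τ₁) (hagree : ∀ n : ℤ, τ₁ (n • (χ - Cfsg.conjFun χ)) = τ (n • (χ - Cfsg.conjFun χ))) : (Cfsg.classInner χ χ).re ≤ ∑ α ∈ R χ, ‖Cfsg.classInner (τ₁ (χ - ψ)) α‖ ^ 2 ∧ ((Cfsg.classInner ψ ψ).re ≤ (Cfsg.classInner (τ₁ (χ - ψ)) (τ₁ (χ - ψ))).re - ∑ α ∈ R χ, ‖Cfsg.classInner (τ₁ (χ - ψ)) α‖ ^ 2 → (∑ α ∈ R χ, ‖Cfsg.classInner (τ₁ (χ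 - ψ)) α‖ ^ 2 = (Cfsg.classInner χ χ).re ∧ ∀ α ∈ R χ, Cfsg.classInner (τ₁ (χ - ψ)) α = 0 ∨ Cfsg.classInner (τ₁ (χ - ψ)) α = 1)) := by
  classical
  obtain ⟨hadd, hsmul, hiso, hgen⟩ := hτ₁
  have hm1 : (χ - ψ) ∈ zspan {χ - ψ, χ - conjFun χ} :=
    Submodule.subset_span (by simp)
  have hm2 : (χ - conjFun χ) ∈ zspan {χ - ψ, χ - conjFun χ} :=
    Submodule.subset_span (by simp)
  have hX := hgen _ hm1
  have hint : ∀ α ∈ R χ, ∃ n : ℤ, classInner (τ₁ (χ - ψ)) α = n := fun α hα =>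
    Helper10.gen_inner_int hX (hS.virtual χ hχ α hα)
  choose! a ha using hint
  have hτeq : τ₁ (χ - conjFun χ) = ∑ α ∈ R χ, α := by
    have := hagree 1
    rw [one_smul] at this
    rw [this, hS.sum_eq χ hχ]
  have hψχ : classInner ψ χ = 0 := by
    rw [← Helper2.classInner_conj_symm, h1, map_zero]
  have hψχbar : classInner ψ (conjFun χ) = 0 := by
    rw [← Helper2.classInner_conj_symm, h2, map_zero]
  have hχχbar : classInner χ (conjFun χ) = 0 :=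
    hS.orthogonal χ hχ (conjFun χ) (hS.conj_mem χ hχ) (Ne.symm (hS.conj_ne χ hχ))
  have hsum : ∑ α ∈ R χ, (a α : ℂ) = classInner χ χ := by
    have h := hiso _ hm1 _ hm2
    rw [hτeq, Helper2.classInner_sum_right, Helper2.classInner_sub_left,
      Helper2.classInner_sub_right, Helper2.classInner_sub_right, hχχbar, hψχ, hψχbar] at h
    rw [← Finset.sum_congr rfl (fun α hα => ha α hα), h]
    ring
  have hre : (classInner χ χ).re = ∑ α ∈ R χ, (a α : ℝ) := by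
    rw [← hsum, Complex.re_sum]
    exact Finset.sum_congr rfl fun α _ => by simp
  have hnorm : ∑ α ∈ R χ, ‖classInner (τ₁ (χ - ψ)) α‖ ^ 2 = ∑ α ∈ R χ, (a α : ℝ) ^ 2 := by
    refine Finset.sum_congr rfl fun α hα => ?_
    rw [ha α hα, Complex.norm_intCast, sq_abs]
  rw [hnorm, hre]
  refine ⟨Finset.sum_le_sum fun α _ => int_le_sq (a α), ?_⟩
  intro hyp
  have hXX : classInner (τ₁ (χ - ψ)) (τ₁ (χ - ψ)) = classInner χ χ + classInner ψ ψ := by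
    rw [hiso _ hm1 _ hm1, Helper2.classInner_sub_left, Helper2.classInner_sub_right,
      Helper2.classInner_sub_right, h1, hψχ]
    ring
  rw [hXX, Complex.add_re, hre] at hyp
  have hle : ∑ α ∈ R χ, (a α : ℝ) ^ 2 ≤ ∑ α ∈ R χ, (a α : ℝ) := by linarith
  have hge : ∑ α ∈ R χ, (a α : ℝ) ≤ ∑ α ∈ R χ, (a α : ℝ) ^ 2 :=
    Finset.sum_le_sum fun α _ => int_le_sq (a α)
  have heq : ∑ α ∈ R χ, (a α : ℝ) = ∑ α ∈ R χ, (a α : ℝ) ^ 2 := le_antisymm hge hle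
  refine ⟨heq.symm, ?_⟩
  intro α hα
  have hterm := (Finset.sum_eq_sum_iff_of_le (fun α _ => int_le_sq (a α))).1 heq α hα
  rw [ha α hα]
  rcases int_eq_of_sq_eq (a α) hterm with h | h
  · left; rw [h]; simp
  · right; rw [h]; simp

end Cfsg.Agent.S1515
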