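import Cfsg.Statements.S1516
import Cfsg.Agent.Helper10.ZSpan
import Cfsg.Agent.Helper10.IndLemmas
import Cfsg.Agent.Helper10.Bessel
import Cfsg.Agent.Helper10.CohSys
-- import your own Cfsg.Agent.* helpers here

set_option autoImplicit false
open Cfsg

namespace Cfsg.Agent.S1516

open scoped ComplexConjugate

theorem inner_zspan_zero {N : Type*} [Group N] [Fintype N] {S : Set (N → ℂ)} {χ : N → ℂ}
    (h : ∀ ξ ∈ S, classInner ξ χ = 0) : ∀ s ∈ zspan S, classInner s χ = 0 := by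
  intro s hs
  refine Helper10.zspan_induction (p := fun s => classInner s χ = 0) ?_ ?_ ?_ ?_ hs
  · exact h
  · exact Helper2.classInner_zero_left χ
  · intro f g _ _ hf hg
    rw [Helper2.classInner_add_left, hf, hg, add_zero]
  · intro n f _ hf
    rw [Helper10.classInner_zsmul_left, hf, mul_zero]

theorem arith_real (a y d₁ D : ℝ) (ha : 0 ≤ a) (hd : 0 < d₁) (hD : 2 * (d₁ * a) * d₁ < D)
    (hy : y ≤ y ^ 2) (hy0 : y ≠ 0) (h : y ^ 2 / d₁ ^ 2 * D ≤ 2 * a * y) : False := by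
  have hd2 : 0 < d₁ ^ 2 := by positivity
  have h1 : y ^ 2 * D ≤ 2 * a * y * d₁ ^ 2 := by
    rw [div_mul_eq_mul_div, div_le_iff₀ hd2] at h
    linarith
  have hy2 : 0 < y ^ 2 := by positivity
  have h2 := mul_lt_mul_of_pos_left hD hy2
  have h3 := mul_le_mul_of_nonneg_left hy (by positivity : 0 ≤ 2 * a * d₁ ^ 2)
  nlinarith


/-- Let (S, τ, R) be a coherence system from L to G with degrees φ 1 = d φ and squared norms ⟨φ, φ⟩ = n φ for φ ∈ S. Let S₁ ⊆ S be a finite subset closed under complex conjugation such that (S₁, L minus 1, τ) is coherent, let χ ∈ S with χ ∉ S₁ and conj χ ∉ S₁, and let χ₁ ∈ S₁ with d χ₁ dividing d χ and 2 d χ d χ₁ < Σ_{φ ∈ S₁} (d φ)² / n φ. Then S₁ together with χ and conj χ is coherent. -/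
theorem result {L : Type*} [Group L] [Fintype L] {G : Type*} [Group G] [Fintype G] (S : Set (L → ℂ)) (τ : (L → ℂ) → (G → ℂ)) (R : (L → ℂ) → Finset (G → ℂ)) (hS : Cfsg.IsCoherenceSystem S τ R) (d n : (L → ℂ) → ℕ) (hd : ∀ φ ∈ S, φ 1 = (d φ : ℂ)) (hn : ∀ φ ∈ S, Cfsg.classInner φ φ = (n φ : ℂ)) (S₁ : Finset (L → ℂ)) (hS₁ : ↑S₁ ⊆ S) (hS₁c : ∀ φ ∈ S₁, Cfsg.conjFun φ ∈ S₁) (hcoh : Cfsg.IsCoherent (↑S₁ : Set (L → ℂ)) {1}ᶜ τ) (χ : L → ℂ) (hχ : χ ∈ S) (hχ₁ : χ ∉ S₁) (hχ₂ : Cfsg.conjFun χ ∉ S₁) (χ₁ : L → ℂ) (hχ₁S : χ₁ ∈ S₁) (hdvd : d χ₁ ∣ d χ) (hineq : (2 * d χ * d χ₁ : ℝ) < ∑ φ ∈ S₁, ((d φ : ℝ) ^ 2 / (n φ : ℝ))) : Cfsg.IsCoherent (↑S₁ ∪ {χ, Cfsg.conjFun χ} : Set (L → ℂ)) {1}ᶜ τ := by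
  classical
  obtain ⟨⟨α₀, hα₀, hα₀ne⟩, τ₀, hτ₀, hτ₀eq⟩ := hcoh
  obtain ⟨hτadd, hτsmul, hτiso, hτgen⟩ := hS.isometry
  have hτ1 := hS.map_one
  have hmem : ∀ ξ ∈ S₁, ξ ∈ zspan (↑S₁ : Set (L → ℂ)) := fun ξ hξ =>
    Helper10.mem_zspan_of_mem (Finset.mem_coe.2 hξ)
  have hS₁S : ∀ ξ ∈ S₁, ξ ∈ S := fun ξ hξ => hS₁ (Finset.mem_coe.2 hξ)
  have hχc : conjFun χ ∈ S := hS.conj_mem χ hχ
  have hST : ∀ f, f ∈ zspanOn (↑S₁ : Set (L → ℂ)) {1}ᶜ → f ∈ zspanOn S {1}ᶜ := by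
    intro f hf
    obtain ⟨h1, h2⟩ := Helper10.mem_zspanOn_one.1 hf
    exact Helper10.mem_zspanOn_one.2 ⟨Helper10.zspan_mono hS₁ h1, h2⟩
  -- norms and degrees
  have hzero_conj : conjFun (0 : L → ℂ) = 0 := by
    funext x
    simp [conjFun]
  have hnpos : ∀ φ ∈ S, 0 < n φ := by
    intro φ hφ
    rcases Nat.eq_zero_or_pos (n φ) with h | h
    · exfalso
      have h0 := hn φ hφ
      rw [h] at h0
      have h1 : φ = 0 := Helper10.classInner_self_eq_zero (by simpa using h0)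
      apply hS.conj_ne φ hφ
      rw [h1, hzero_conj]
    · exact h
  have hdpos : ∀ φ ∈ S, 0 < d φ := by
    intro φ hφ
    rcases Nat.eq_zero_or_pos (d φ) with h | h
    · exfalso
      have h0 := hd φ hφ
      rw [h] at h0
      have h1 : φ = 0 :=
        Helper10.char_eq_zero_of_apply_one (hS.isCharacter φ hφ) (by simpa using h0)
      apply hS.conj_ne φ hφ
      rw [h1, hzero_conj]
    · exact h
  have hconj1 : ∀ φ ∈ S, conjFun φ 1 = (d φ : ℂ) := by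
    intro φ hφ
    show conj (φ 1) = _
    rw [hd φ hφ, Complex.conj_natCast]
  have hconjn : ∀ φ ∈ S, classInner (conjFun φ) (conjFun φ) = (n φ : ℂ) := by
    intro φ hφ
    rw [Helper10.classInner_conjFun, hn φ hφ, Complex.conj_natCast]
  have horthc : ∀ φ ∈ S, classInner φ (conjFun φ) = 0 := fun φ hφ =>
    hS.orthogonal φ hφ _ (hS.conj_mem φ hφ) (Ne.symm (hS.conj_ne φ hφ))
  have horthc' : ∀ φ ∈ S, classInner (conjFun φ) φ = 0 := fun φ hφ =>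
    hS.orthogonal _ (hS.conj_mem φ hφ) φ hφ (hS.conj_ne φ hφ)
  have hne1 : ∀ φ ∈ S₁, φ ≠ χ := fun φ hφ h => hχ₁ (h ▸ hφ)
  have hne2 : ∀ φ ∈ S₁, φ ≠ conjFun χ := fun φ hφ h => hχ₂ (h ▸ hφ)
  have hφχ : ∀ φ ∈ S₁, classInner φ χ = 0 := fun φ hφ =>
    hS.orthogonal φ (hS₁S φ hφ) χ hχ (hne1 φ hφ)
  have hφχc : ∀ φ ∈ S₁, classInner φ (conjFun χ) = 0 := fun φ hφ =>
    hS.orthogonal φ (hS₁S φ hφ) _ hχc (hne2 φ hφ)
  have hχφ : ∀ φ ∈ S₁, classInner χ φ = 0 := fun φ hφ =>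
    hS.orthogonal χ hχ φ (hS₁S φ hφ) (Ne.symm (hne1 φ hφ))
  have hsχ : ∀ s ∈ zspan (↑S₁ : Set (L → ℂ)), classInner s χ = 0 :=
    inner_zspan_zero (fun ξ hξ => hφχ ξ (Finset.mem_coe.1 hξ))
  have hsχc : ∀ s ∈ zspan (↑S₁ : Set (L → ℂ)), classInner s (conjFun χ) = 0 :=
    inner_zspan_zero (fun ξ hξ => hφχc ξ (Finset.mem_coe.1 hξ))
  have hχs : ∀ s ∈ zspan (↑S₁ : Set (L → ℂ)), classInner χ s = 0 := by
    intro s hs
    rw [← Helper2.classInner_conj_symm, hsχ s hs, map_zero]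
  have hχcs : ∀ s ∈ zspan (↑S₁ : Set (L → ℂ)), classInner (conjFun χ) s = 0 := by
    intro s hs
    rw [← Helper2.classInner_conj_symm, hsχc s hs, map_zero]
  have he_orth : ∀ ξ ∈ S₁, ∀ ξ' ∈ S₁, classInner (τ₀ ξ) (τ₀ ξ') = classInner ξ ξ' :=
    fun ξ hξ ξ' hξ' => hτ₀.2.2.1 ξ (hmem ξ hξ) ξ' (hmem ξ' hξ')
  -- images of S₁ are orthogonal to R χ
  have hR1 : ∀ φ ∈ S, ∀ α ∈ R φ, classInner α α = 1 := by
    intro φ hφ α hα
    rw [hS.orthonormal φ hφ α hα α hα, if_pos rfl]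
  have hR0 : ∀ φ ∈ S, ∀ α ∈ R φ, ∀ β ∈ R φ, α ≠ β → classInner α β = 0 := by
    intro φ hφ α hα β hβ hne
    rw [hS.orthonormal φ hφ α hα β hβ, if_neg hne]
  have hsubmem : ∀ φ ∈ S₁, (φ - conjFun φ) ∈ zspanOn (↑S₁ : Set (L → ℂ)) {1}ᶜ := by
    intro φ hφ
    refine Helper10.mem_zspanOn_one.2
      ⟨Helper10.zspan_sub_mem (hmem φ hφ) (hmem _ (hS₁c φ hφ)), ?_⟩
    rw [Pi.sub_apply, hconj1 φ (hS₁S φ hφ), hd φ (hS₁S φ hφ), sub_self]
  have hτ₀sub : ∀ φ ∈ S₁, τ₀ φ - τ₀ (conjFun φ) = ∑ α ∈ R φ, α := by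
    intro φ hφ
    rw [← hS.sum_eq φ (hS₁S φ hφ), ← hτ₀eq _ (hsubmem φ hφ)]
    have e : φ - conjFun φ = (1 : ℤ) • φ + (-1 : ℤ) • conjFun φ := by module
    rw [e, Helper10.lio_map_comb hτ₀ (hmem φ hφ) (hmem _ (hS₁c φ hφ))]
    module
  have hτ₀R : ∀ φ ∈ S₁, ∀ β ∈ R χ, classInner (τ₀ φ) β = 0 := by
    intro φ hφ β hβ
    have hφS := hS₁S φ hφ
    obtain ⟨p, hp⟩ := Helper10.half_decomp (R φ) (hR1 φ hφS) (hR0 φ hφS) (hS.virtual φ hφS)
      (τ₀ φ) (τ₀ (conjFun φ)) (hτ₀.2.2.2 φ (hmem φ hφ)) (hτ₀.2.2.2 _ (hmem _ (hS₁c φ hφ)))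
      (hτ₀sub φ hφ) (n φ)
      (by rw [hτ₀.2.2.1 φ (hmem φ hφ) φ (hmem φ hφ), hn φ hφS])
      (by rw [hτ₀.2.2.1 _ (hmem _ (hS₁c φ hφ)) _ (hmem _ (hS₁c φ hφ)), hconjn φ hφS])
      (by rw [hτ₀.2.2.1 φ (hmem φ hφ) _ (hmem _ (hS₁c φ hφ)), horthc φ hφS])
    rw [hp, Helper2.classInner_sum_left]
    refine Finset.sum_eq_zero fun α hα => ?_
    rw [Helper10.classInner_zsmul_left,
      hS.disjoint χ hχ φ hφS (hφχ φ hφ) (hφχc φ hφ) α hα β hβ, mul_zero]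
  -- degrees
  have hdχ := hd χ hχ
  have hdχ₁ := hd χ₁ (hS₁S χ₁ hχ₁S)
  have hnχ₁ := hn χ₁ (hS₁S χ₁ hχ₁S)
  have hχ₁pos := hdpos χ₁ (hS₁S χ₁ hχ₁S)
  obtain ⟨a, ha⟩ := hdvd
  have hχ₁Sspan : χ₁ ∈ zspan S := Helper10.mem_zspan_of_mem (hS₁S χ₁ hχ₁S)
  have hβT : (χ + (-(a : ℤ)) • χ₁) ∈ zspanOn S {1}ᶜ := by
    refine Helper10.mem_zspanOn_one.2 ⟨?_, ?_⟩
    · exact Helper10.zspan_add_mem (Helper10.mem_zspan_of_mem hχ)
        (Helper10.zspan_smul_mem _ hχ₁Sspan)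
    · rw [Pi.add_apply, Pi.smul_apply, zsmul_eq_mul, hdχ, hdχ₁, ha]
      push_cast
      ring
  obtain ⟨β, hβdef⟩ : ∃ β : L → ℂ, β = χ + (-(a : ℤ)) • χ₁ := ⟨_, rfl⟩
  rw [← hβdef] at hβT
  have hχχc : (χ - conjFun χ) ∈ zspanOn S {1}ᶜ := by
    refine Helper10.mem_zspanOn_one.2 ⟨Helper10.zspan_sub_mem (Helper10.mem_zspan_of_mem hχ)
      (Helper10.mem_zspan_of_mem hχc), ?_⟩
    rw [Pi.sub_apply, hconj1 χ hχ, hdχ, sub_self]
  obtain ⟨X, hXdef⟩ : ∃ X : G → ℂ, X = τ β + (a : ℤ) • τ₀ χ₁ := ⟨_, rfl⟩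
  have hX_gen : IsGeneralizedCharacter G X := by
    rw [hXdef]
    exact Helper10.IsGeneralizedCharacter.add (hτgen β hβT)
      (Helper10.IsGeneralizedCharacter.zsmul _ (hτ₀.2.2.2 χ₁ (hmem χ₁ hχ₁S)))
  have hδS : ∀ ξ ∈ S₁, ((d χ₁ : ℤ) • ξ + (-(d ξ : ℤ)) • χ₁) ∈
      zspanOn (↑S₁ : Set (L → ℂ)) {1}ᶜ := by
    intro ξ hξ
    refine Helper10.mem_zspanOn_one.2 ⟨?_, ?_⟩
    · exact Helper10.zspan_add_mem (Helper10.zspan_smul_mem _ (hmem ξ hξ))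
        (Helper10.zspan_smul_mem _ (hmem χ₁ hχ₁S))
    · rw [Pi.add_apply, Pi.smul_apply, Pi.smul_apply, zsmul_eq_mul, zsmul_eq_mul,
        hd ξ (hS₁S ξ hξ), hdχ₁]
      push_cast
      ring
  have hτδ : ∀ ξ ∈ S₁, τ ((d χ₁ : ℤ) • ξ + (-(d ξ : ℤ)) • χ₁) =
      (d χ₁ : ℤ) • τ₀ ξ + (-(d ξ : ℤ)) • τ₀ χ₁ := by
    intro ξ hξ
    rw [← hτ₀eq _ (hδS ξ hξ), Helper10.lio_map_comb hτ₀ (hmem ξ hξ) (hmem χ₁ hχ₁S)]
  have key : ∀ ξ ∈ S₁, (d χ₁ : ℂ) * classInner X (τ₀ ξ) = (d ξ : ℂ) * classInner X (τ₀ χ₁) := by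
    intro ξ hξ
    have h := hτiso β hβT _ (hST _ (hδS ξ hξ))
    have hrhs : classInner β ((d χ₁ : ℤ) • ξ + (-(d ξ : ℤ)) • χ₁) =
        -(a : ℂ) * ((d χ₁ : ℂ) * classInner χ₁ ξ - (d ξ : ℂ) * classInner χ₁ χ₁) := by
      rw [hβdef]
      simp only [Helper2.classInner_add_left, Helper2.classInner_add_right,
        Helper10.classInner_zsmul_left, Helper10.classInner_zsmul_right, hχφ ξ hξ,
        hχφ χ₁ hχ₁S]
      push_cast
      ring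
    rw [hτδ ξ hξ, hrhs, Helper2.classInner_add_right, Helper10.classInner_zsmul_right,
      Helper10.classInner_zsmul_right] at h
    rw [hXdef]
    simp only [Helper2.classInner_add_left, Helper10.classInner_zsmul_left,
      he_orth χ₁ hχ₁S ξ hξ, he_orth χ₁ hχ₁S χ₁ hχ₁S]
    push_cast at h ⊢
    linear_combination h
  obtain ⟨y, hy⟩ := Helper10.gen_inner_int hX_gen (hτ₀.2.2.2 χ₁ (hmem χ₁ hχ₁S))
  -- the norm of X
  have h1 : classInner (τ β) (τ₀ χ₁) = (y : ℂ) - (a : ℂ) * (n χ₁ : ℂ) := by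
    have h := hy
    rw [hXdef, Helper2.classInner_add_left, Helper10.classInner_zsmul_left,
      he_orth χ₁ hχ₁S χ₁ hχ₁S, hnχ₁] at h
    push_cast at h
    linear_combination h
  have h2 : classInner (τ₀ χ₁) (τ β) = (y : ℂ) - (a : ℂ) * (n χ₁ : ℂ) := by
    rw [← Helper2.classInner_conj_symm, h1]
    simp
  have hββ : classInner β β = (n χ : ℂ) + (a : ℂ) ^ 2 * (n χ₁ : ℂ) := by
    rw [hβdef]
    simp only [Helper2.classInner_add_left, Helper2.classInner_add_right,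
      Helper10.classInner_zsmul_left, Helper10.classInner_zsmul_right, hχφ χ₁ hχ₁S,
      hφχ χ₁ hχ₁S, hn χ hχ, hnχ₁]
    push_cast
    ring
  have hXX : classInner X X = (((n χ : ℝ) + 2 * (a : ℝ) * (y : ℝ) : ℝ) : ℂ) := by
    have h := hτiso β hβT β hβT
    rw [hββ] at h
    rw [hXdef]
    simp only [Helper2.classInner_add_left, Helper2.classInner_add_right,
      Helper10.classInner_zsmul_left, Helper10.classInner_zsmul_right, h, h1, h2,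
      he_orth χ₁ hχ₁S χ₁ hχ₁S, hnχ₁]
    push_cast
    ring
  -- coefficients along R χ
  have hxex : ∀ α ∈ R χ, ∃ c : ℤ, classInner X α = (c : ℂ) := fun α hα =>
    Helper10.gen_inner_int hX_gen (hS.virtual χ hχ α hα)
  choose! x hx using hxex
  have hXsum : classInner X (∑ α ∈ R χ, α) = (n χ : ℂ) := by
    rw [hXdef, Helper2.classInner_add_left, Helper10.classInner_zsmul_left]
    have e1 : classInner (τ₀ χ₁) (∑ α ∈ R χ, α) = 0 := by
      rw [Helper2.classInner_sum_right]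
      exact Finset.sum_eq_zero fun α hα => hτ₀R χ₁ hχ₁S α hα
    rw [e1, ← hS.sum_eq χ hχ, hτiso β hβT _ hχχc, hβdef]
    simp only [Helper2.classInner_add_left, Helper2.classInner_sub_right,
      Helper10.classInner_zsmul_left, hn χ hχ, horthc χ hχ, hφχ χ₁ hχ₁S, hφχc χ₁ hχ₁S]
    ring
  have hsumx : ∑ α ∈ R χ, x α = (n χ : ℤ) := by
    have h := hXsum
    rw [Helper2.classInner_sum_right, Finset.sum_congr rfl (fun α hα => hx α hα)] at h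
    exact_mod_cast h
  have hχ₁ne : (d χ₁ : ℂ) ≠ 0 := by exact_mod_cast hχ₁pos.ne'
  have hb : ∀ φ ∈ S₁, classInner X (τ₀ φ) =
      (((d φ : ℝ) * (y : ℝ) / (d χ₁ : ℝ) : ℝ) : ℂ) := by
    intro φ hφ
    have h := key φ hφ
    rw [hy] at h
    push_cast
    field_simp
    linear_combination h
  have hbes := Helper10.bessel_two (R χ) S₁ (fun α => α) (fun φ => τ₀ φ) X
    (fun α => (x α : ℝ)) (fun φ => (d φ : ℝ) * (y : ℝ) / (d χ₁ : ℝ)) (fun φ => (n φ : ℝ))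
    (fun φ hφ => by exact_mod_cast hnpos φ (hS₁S φ hφ))
    (hR1 χ hχ) (hR0 χ hχ)
    (fun φ hφ => by rw [he_orth φ hφ φ hφ, hn φ (hS₁S φ hφ)]; push_cast; rfl)
    (fun φ hφ φ' hφ' hne => by
      rw [he_orth φ hφ φ' hφ']
      exact hS.orthogonal φ (hS₁S φ hφ) φ' (hS₁S φ' hφ') hne)
    (fun α hα φ hφ => by rw [← Helper2.classInner_conj_symm, hτ₀R φ hφ α hα, map_zero])
    (fun α hα => by rw [hx α hα]; push_cast; rfl)
    hb ((n χ : ℝ) + 2 * (a : ℝ) * (y : ℝ)) hXX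
  have hy0 : y = 0 := by
    by_contra hy0
    have hxsq : (n χ : ℝ) ≤ ∑ α ∈ R χ, (x α : ℝ) ^ 2 := by
      have h : (n χ : ℤ) ≤ ∑ α ∈ R χ, x α ^ 2 := by
        rw [← hsumx]
        exact Finset.sum_le_sum fun α _ => Int.le_self_sq (x α)
      have h' : ((n χ : ℤ) : ℝ) ≤ ((∑ α ∈ R χ, x α ^ 2 : ℤ) : ℝ) := by exact_mod_cast h
      push_cast at h'
      exact h'
    have hsum2 : ∑ φ ∈ S₁, ((d φ : ℝ) * (y : ℝ) / (d χ₁ : ℝ)) ^ 2 / (n φ : ℝ) =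
        (y : ℝ) ^ 2 / (d χ₁ : ℝ) ^ 2 * ∑ φ ∈ S₁, ((d φ : ℝ) ^ 2 / (n φ : ℝ)) := by
      rw [Finset.mul_sum]
      refine Finset.sum_congr rfl fun φ hφ => ?_
      have hnφ : (n φ : ℝ) ≠ 0 := by exact_mod_cast (hnpos φ (hS₁S φ hφ)).ne'
      have hd₁ : (d χ₁ : ℝ) ≠ 0 := by exact_mod_cast hχ₁pos.ne'
      field_simp
    rw [hsum2] at hbes
    refine arith_real (a : ℝ) (y : ℝ) (d χ₁ : ℝ) (∑ φ ∈ S₁, ((d φ : ℝ) ^ 2 / (n φ : ℝ)))
      (by positivity) (by exact_mod_cast hχ₁pos) ?_ ?_ (by exact_mod_cast hy0) (by linarith)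
    · have h := hineq
      rw [ha] at h
      push_cast at h
      linarith
    · have h : y ≤ y ^ 2 := Int.le_self_sq y
      exact_mod_cast h
  subst hy0
  have hXe : ∀ ξ ∈ S₁, classInner X (τ₀ ξ) = 0 := by
    intro ξ hξ
    rw [hb ξ hξ]
    simp
  have hXX1 : classInner X X = (n χ : ℂ) := by
    rw [hXX]
    push_cast
    ring
  have hsumsum : classInner (∑ α ∈ R χ, α) (∑ α ∈ R χ, α) = 2 * (n χ : ℂ) := by
    rw [← hS.sum_eq χ hχ, hτiso _ hχχc _ hχχc]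
    simp only [Helper2.classInner_sub_left, Helper2.classInner_sub_right, hn χ hχ,
      horthc χ hχ, horthc' χ hχ, hconjn χ hχ]
    ring
  have hsumX : classInner (∑ α ∈ R χ, α) X = (n χ : ℂ) := by
    rw [← Helper2.classInner_conj_symm, hXsum, Complex.conj_natCast]
  obtain ⟨X', hX'def⟩ : ∃ X' : G → ℂ, X' = X - ∑ α ∈ R χ, α := ⟨_, rfl⟩
  have hX'X' : classInner X' X' = (n χ : ℂ) := by
    rw [hX'def]
    simp only [Helper2.classInner_sub_left, Helper2.classInner_sub_right, hXX1, hXsum, hsumX, hsumsum]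
    ring
  have hXX' : classInner X X' = 0 := by
    rw [hX'def, Helper2.classInner_sub_right, hXX1, hXsum, sub_self]
  have hX'X : classInner X' X = 0 := by
    rw [hX'def, Helper2.classInner_sub_left, hXX1, hsumX, sub_self]
  have hsume : ∀ ξ ∈ S₁, classInner (∑ α ∈ R χ, α) (τ₀ ξ) = 0 := by
    intro ξ hξ
    rw [Helper2.classInner_sum_left]
    exact Finset.sum_eq_zero fun α hα => by
      rw [← Helper2.classInner_conj_symm, hτ₀R ξ hξ α hα, map_zero]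
  have hX'e : ∀ ξ ∈ S₁, classInner X' (τ₀ ξ) = 0 := by
    intro ξ hξ
    rw [hX'def, Helper2.classInner_sub_left, hXe ξ hξ, hsume ξ hξ, sub_zero]
  have hX'_gen : IsGeneralizedCharacter G X' := by
    rw [hX'def]
    exact Helper10.IsGeneralizedCharacter.sub hX_gen
      (Helper10.IsGeneralizedCharacter.sum _ _ (fun α hα => hS.virtual χ hχ α hα))
  have hspan0 : ∀ Z : G → ℂ, (∀ ξ ∈ S₁, classInner Z (τ₀ ξ) = 0) →
      ∀ s ∈ zspan (↑S₁ : Set (L → ℂ)), classInner Z (τ₀ s) = 0 ∧ classInner (τ₀ s) Z = 0 := by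
    intro Z hZ s hs
    have h0 : classInner Z (τ₀ s) = 0 := by
      refine Helper10.zspan_induction (p := fun s => classInner Z (τ₀ s) = 0) ?_ ?_ ?_ ?_ hs
      · intro ξ hξ
        exact hZ ξ (Finset.mem_coe.1 hξ)
      · rw [Helper10.lio_map_zero hτ₀]
        exact Helper2.classInner_zero_right _
      · intro f g hfm hgm hf hg
        rw [hτ₀.1 f hfm g hgm, Helper2.classInner_add_right, hf, hg, add_zero]
      · intro k f hfm hf
        rw [hτ₀.2.1 f hfm k, Helper10.classInner_zsmul_right, hf, mul_zero]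
    refine ⟨h0, ?_⟩
    rw [← Helper2.classInner_conj_symm, h0, map_zero]
  have hXs := hspan0 X hXe
  have hX's := hspan0 X' hX'e
  -- the images of β and its conjugate analogue
  have hβ' : (conjFun χ + (-(a : ℤ)) • χ₁) = β + (-1 : ℤ) • (χ - conjFun χ) := by
    rw [hβdef]
    module
  have hτβ' : τ (conjFun χ + (-(a : ℤ)) • χ₁) = X' + (-(a : ℤ)) • τ₀ χ₁ := by
    rw [hβ', hτadd β hβT _ (Helper10.zspanOn_one_smul _ hχχc), hτsmul _ hχχc, hS.sum_eq χ hχ,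
      hX'def, hXdef]
    module
  have hτβ : τ β = X + (-(a : ℤ)) • τ₀ χ₁ := by
    rw [hXdef]
    module
  have hβ'T : (conjFun χ + (-(a : ℤ)) • χ₁) ∈ zspanOn S {1}ᶜ := by
    rw [hβ']
    exact Helper10.zspanOn_one_add hβT (Helper10.zspanOn_one_smul _ hχχc)
  -- the extension
  obtain ⟨τ₁, hτ₁def⟩ : ∃ τ₁ : (L → ℂ) → (G → ℂ), τ₁ = fun f =>
      (classInner f χ / (n χ : ℂ)) • X + (classInner f (conjFun χ) / (n χ : ℂ)) • X' +
        τ₀ (f - (classInner f χ / (n χ : ℂ)) • χ -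
          (classInner f (conjFun χ) / (n χ : ℂ)) • conjFun χ) := ⟨_, rfl⟩
  have hnχne : (n χ : ℂ) ≠ 0 := by exact_mod_cast (hnpos χ hχ).ne'
  have hτ₁ : ∀ (k m : ℤ), ∀ s ∈ zspan (↑S₁ : Set (L → ℂ)),
      τ₁ (k • χ + m • conjFun χ + s) = k • X + m • X' + τ₀ s := by
    intro k m s hs
    have hc1 : classInner (k • χ + m • conjFun χ + s) χ / (n χ : ℂ) = (k : ℂ) := by
      rw [Helper2.classInner_add_left, Helper2.classInner_add_left,
        Helper10.classInner_zsmul_left, Helper10.classInner_zsmul_left, hn χ hχ,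
        horthc' χ hχ, hsχ s hs]
      field_simp
      ring
    have hc2 : classInner (k • χ + m • conjFun χ + s) (conjFun χ) / (n χ : ℂ) = (m : ℂ) := by
      rw [Helper2.classInner_add_left, Helper2.classInner_add_left,
        Helper10.classInner_zsmul_left, Helper10.classInner_zsmul_left, hconjn χ hχ,
        horthc χ hχ, hsχc s hs]
      field_simp
      ring
    rw [hτ₁def]
    show (classInner (k • χ + m • conjFun χ + s) χ / (n χ : ℂ)) • X +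
      (classInner (k • χ + m • conjFun χ + s) (conjFun χ) / (n χ : ℂ)) • X' +
        τ₀ (k • χ + m • conjFun χ + s -
          (classInner (k • χ + m • conjFun χ + s) χ / (n χ : ℂ)) • χ -
          (classInner (k • χ + m • conjFun χ + s) (conjFun χ) / (n χ : ℂ)) • conjFun χ) = _
    rw [hc1, hc2, Int.cast_smul_eq_zsmul ℂ k X, Int.cast_smul_eq_zsmul ℂ m X',
      Int.cast_smul_eq_zsmul ℂ k χ, Int.cast_smul_eq_zsmul ℂ m (conjFun χ)]
    have e : k • χ + m • conjFun χ + s - k • χ - m • conjFun χ = s := by abel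
    rw [e]
  have hdec : ∀ f ∈ zspan (↑S₁ ∪ {χ, conjFun χ} : Set (L → ℂ)), ∃ k m : ℤ,
      ∃ s ∈ zspan (↑S₁ : Set (L → ℂ)), f = k • χ + m • conjFun χ + s := by
    intro f hf
    obtain ⟨s, hs, t, ht, rfl⟩ := Helper10.zspan_union _ _ hf
    obtain ⟨k, m, rfl⟩ := Submodule.mem_span_pair.1 ht
    exact ⟨k, m, s, hs, by abel⟩
  refine ⟨⟨α₀, ?_, hα₀ne⟩, τ₁, ⟨?_, ?_, ?_, ?_⟩, ?_⟩
  · obtain ⟨h1, h2⟩ := Helper10.mem_zspanOn_one.1 hα₀
    exact Helper10.mem_zspanOn_one.2 ⟨Helper10.zspan_mono Set.subset_union_left h1, h2⟩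
  · intro f hf f' hf'
    obtain ⟨k, m, s, hs, rfl⟩ := hdec f hf
    obtain ⟨k', m', s', hs', rfl⟩ := hdec f' hf'
    have e : k • χ + m • conjFun χ + s + (k' • χ + m' • conjFun χ + s') =
        (k + k') • χ + (m + m') • conjFun χ + (s + s') := by module
    rw [e, hτ₁ _ _ _ (Helper10.zspan_add_mem hs hs'), hτ₁ k m s hs, hτ₁ k' m' s' hs',
      hτ₀.1 s hs s' hs']
    module
  · intro f hf j
    obtain ⟨k, m, s, hs, rfl⟩ := hdec f hf
    have e : j • (k • χ + m • conjFun χ + s) = (j * k) • χ + (j * m) • conjFun χ + j • s := by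
      module
    rw [e, hτ₁ _ _ _ (Helper10.zspan_smul_mem j hs), hτ₁ k m s hs, hτ₀.2.1 s hs j]
    module
  · intro f hf f' hf'
    obtain ⟨k, m, s, hs, rfl⟩ := hdec f hf
    obtain ⟨k', m', s', hs', rfl⟩ := hdec f' hf'
    rw [hτ₁ k m s hs, hτ₁ k' m' s' hs']
    simp only [Helper2.classInner_add_left, Helper2.classInner_add_right,
      Helper10.classInner_zsmul_left, Helper10.classInner_zsmul_right]
    rw [hXX1, hX'X', hXX', hX'X, (hXs s' hs').1, (hXs s hs).2, (hX's s' hs').1, (hX's s hs).2,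
      hτ₀.2.2.1 s hs s' hs', hn χ hχ, hconjn χ hχ, horthc χ hχ, horthc' χ hχ, hχs s' hs',
      hχcs s' hs', hsχ s hs, hsχc s hs]
  · intro f hf
    obtain ⟨k, m, s, hs, rfl⟩ := hdec f hf
    rw [hτ₁ k m s hs]
    exact Helper10.IsGeneralizedCharacter.add
      (Helper10.IsGeneralizedCharacter.add (Helper10.IsGeneralizedCharacter.zsmul k hX_gen)
        (Helper10.IsGeneralizedCharacter.zsmul m hX'_gen)) (hτ₀.2.2.2 s hs)
  · intro f hf
    obtain ⟨hfm, hf1⟩ := Helper10.mem_zspanOn_one.1 hf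
    obtain ⟨k, m, s, hs, rfl⟩ := hdec f hfm
    rw [hτ₁ k m s hs]
    have hs'm : (s + ((k + m) * (a : ℤ)) • χ₁) ∈ zspan (↑S₁ : Set (L → ℂ)) :=
      Helper10.zspan_add_mem hs (Helper10.zspan_smul_mem _ (hmem χ₁ hχ₁S))
    have hs'1 : (s + ((k + m) * (a : ℤ)) • χ₁) 1 = 0 := by
      rw [Pi.add_apply, Pi.add_apply, Pi.smul_apply, Pi.smul_apply, zsmul_eq_mul, zsmul_eq_mul,
        hdχ, hconj1 χ hχ, ha] at hf1
      rw [Pi.add_apply, Pi.smul_apply, zsmul_eq_mul, hdχ₁]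
      push_cast at hf1 ⊢
      linear_combination hf1
    have hs'S : (s + ((k + m) * (a : ℤ)) • χ₁) ∈ zspanOn (↑S₁ : Set (L → ℂ)) {1}ᶜ :=
      Helper10.mem_zspanOn_one.2 ⟨hs'm, hs'1⟩
    have e : k • χ + m • conjFun χ + s = k • β + (m • (conjFun χ + (-(a : ℤ)) • χ₁) +
        (s + ((k + m) * (a : ℤ)) • χ₁)) := by
      rw [hβdef]
      module
    rw [e, hτadd _ (Helper10.zspanOn_one_smul k hβT) _
        (Helper10.zspanOn_one_add (Helper10.zspanOn_one_smul m hβ'T) (hST _ hs'S)),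
      hτadd _ (Helper10.zspanOn_one_smul m hβ'T) _ (hST _ hs'S), hτsmul β hβT k,
      hτsmul _ hβ'T m, hτβ, hτβ', ← hτ₀eq _ hs'S,
      hτ₀.1 s hs _ (Helper10.zspan_smul_mem _ (hmem χ₁ hχ₁S)), hτ₀.2.1 χ₁ (hmem χ₁ hχ₁S)]
    module

end Cfsg.Agent.S1516
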