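import Cfsg.Statements.S1517
import Cfsg.Agent.Helper10.ZSpan
import Cfsg.Agent.Helper10.IndLemmas
import Cfsg.Agent.Helper10.Bessel
import Cfsg.Agent.Helper10.CohSys
import Cfsg.Agent.Helper2.CharNat
-- import your own Cfsg.Agent.* helpers here

set_option autoImplicit false
open Cfsg

namespace Cfsg.Agent.S1517

open scoped ComplexConjugate

/-- Structure of the image of a difference of two members not related by conjugation. -/
theorem diff_structure {L : Type*} [Group L] [Fintype L] {G : Type*} [Group G] [Fintype G]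
    (S : Set (L → ℂ)) (τ : (L → ℂ) → (G → ℂ)) (R : (L → ℂ) → Finset (G → ℂ))
    (hS : Cfsg.IsCoherenceSystem S τ R) (hdeg : ∀ φ ∈ S, ∀ ψ ∈ S, φ 1 = ψ 1)
    (χ φ : L → ℂ) (hχ : χ ∈ S) (hφ : φ ∈ S) (hne1 : φ ≠ χ) (hne2 : φ ≠ conjFun χ)
    (n m : ℕ) (hn : classInner χ χ = (n : ℂ)) (hm : classInner φ φ = (m : ℂ)) :
    ∃ c : (G → ℂ) → ℤ, τ (χ - φ) = ∑ α ∈ R χ, c α • α + ∑ β ∈ R φ, c β • β ∧
      ∑ α ∈ R χ, c α = (n : ℤ) ∧ ∑ α ∈ R χ, c α ^ 2 = (n : ℤ) ∧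
      ∀ α ∈ R χ, classInner (τ (χ - φ)) α = (c α : ℂ) := by
  classical
  obtain ⟨hτadd, hτsmul, hτiso, hτgen⟩ := hS.isometry
  have hχc := hS.conj_mem χ hχ
  have hφc := hS.conj_mem φ hφ
  have hne3 : χ ≠ conjFun φ := by
    intro h
    apply hne2
    rw [h, Helper10.conjFun_conjFun]
  have hmemsub : ∀ a ∈ S, ∀ b ∈ S, (a - b) ∈ zspanOn S {1}ᶜ := by
    intro a ha b hb
    refine Helper10.mem_zspanOn_one.2 ⟨Helper10.zspan_sub_mem (Helper10.mem_zspan_of_mem ha)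
      (Helper10.mem_zspan_of_mem hb), ?_⟩
    rw [Pi.sub_apply, hdeg a ha b hb, sub_self]
  have o1 : classInner χ φ = 0 := hS.orthogonal χ hχ φ hφ (Ne.symm hne1)
  have o2 : classInner φ χ = 0 := hS.orthogonal φ hφ χ hχ hne1
  have o3 : classInner χ (conjFun χ) = 0 :=
    hS.orthogonal χ hχ _ hχc (Ne.symm (hS.conj_ne χ hχ))
  have o4 : classInner φ (conjFun χ) = 0 := hS.orthogonal φ hφ _ hχc hne2
  have o5 : classInner χ (conjFun φ) = 0 := hS.orthogonal χ hχ _ hφc hne3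
  have o6 : classInner φ (conjFun φ) = 0 :=
    hS.orthogonal φ hφ _ hφc (Ne.symm (hS.conj_ne φ hφ))
  have hTT : classInner (τ (χ - φ)) (τ (χ - φ)) = (((n : ℤ) + (m : ℤ) : ℤ) : ℂ) := by
    rw [hτiso _ (hmemsub χ hχ φ hφ) _ (hmemsub χ hχ φ hφ)]
    simp only [Helper2.classInner_sub_left, Helper2.classInner_sub_right, hn, hm, o1, o2]
    push_cast
    ring
  have hT1 : classInner (τ (χ - φ)) (∑ α ∈ R χ, α) = (n : ℂ) := by
    rw [← hS.sum_eq χ hχ, hτiso _ (hmemsub χ hχ φ hφ) _ (hmemsub χ hχ _ hχc)]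
    simp only [Helper2.classInner_sub_left, Helper2.classInner_sub_right, hn, o2, o3, o4]
    ring
  have hT2 : classInner (τ (χ - φ)) (∑ α ∈ R φ, α) = -(m : ℂ) := by
    rw [← hS.sum_eq φ hφ, hτiso _ (hmemsub χ hχ φ hφ) _ (hmemsub φ hφ _ hφc)]
    simp only [Helper2.classInner_sub_left, Helper2.classInner_sub_right, hm, o1, o5, o6]
    ring
  have hTgen := hτgen _ (hmemsub χ hχ φ hφ)
  have hcex : ∀ α ∈ R χ ∪ R φ, ∃ c : ℤ, classInner (τ (χ - φ)) α = (c : ℂ) := by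
    intro α hα
    rcases Finset.mem_union.1 hα with h | h
    · exact Helper10.gen_inner_int hTgen (hS.virtual χ hχ α h)
    · exact Helper10.gen_inner_int hTgen (hS.virtual φ hφ α h)
  choose! c hc using hcex
  have hcross : ∀ α ∈ R χ, ∀ β ∈ R φ, classInner α β = 0 := by
    intro α hα β hβ
    rw [← Helper2.classInner_conj_symm, hS.disjoint χ hχ φ hφ o2 o4 β hβ α hα, map_zero]
  have hR1 : ∀ ψ ∈ S, ∀ α ∈ R ψ, classInner α α = 1 := by
    intro ψ hψ α hα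
    rw [hS.orthonormal ψ hψ α hα α hα, if_pos rfl]
  have hR0 : ∀ ψ ∈ S, ∀ α ∈ R ψ, ∀ β ∈ R ψ, α ≠ β → classInner α β = 0 := by
    intro ψ hψ α hα β hβ hne
    rw [hS.orthonormal ψ hψ α hα β hβ, if_neg hne]
  have hdisj : Disjoint (R χ) (R φ) := by
    rw [Finset.disjoint_left]
    intro α hα hα'
    have h1 := hR1 χ hχ α hα
    rw [hcross α hα α hα'] at h1
    exact zero_ne_one h1
  have h1u : ∀ α ∈ R χ ∪ R φ, classInner α α = 1 := by
    intro α hα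
    rcases Finset.mem_union.1 hα with h | h
    · exact hR1 χ hχ α h
    · exact hR1 φ hφ α h
  have h0u : ∀ α ∈ R χ ∪ R φ, ∀ β ∈ R χ ∪ R φ, α ≠ β → classInner α β = 0 := by
    intro α hα β hβ hne
    rcases Finset.mem_union.1 hα with h | h <;> rcases Finset.mem_union.1 hβ with h' | h'
    · exact hR0 χ hχ α h β h' hne
    · exact hcross α h β h'
    · rw [← Helper2.classInner_conj_symm, hcross β h' α h, map_zero]
    · exact hR0 φ hφ α h β h' hne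
  obtain ⟨hle, heq⟩ := Helper10.bessel_int (R χ ∪ R φ) (fun α => α) (τ (χ - φ)) c h1u h0u hc _ hTT
  rw [Finset.sum_union hdisj] at hle
  have hs1 : ∑ α ∈ R χ, c α = (n : ℤ) := by
    have h := hT1
    rw [Helper2.classInner_sum_right,
      Finset.sum_congr rfl (fun α hα => hc α (Finset.mem_union_left _ hα))] at h
    exact_mod_cast h
  have hs2 : ∑ α ∈ R φ, c α = -(m : ℤ) := by
    have h := hT2
    rw [Helper2.classInner_sum_right,
      Finset.sum_congr rfl (fun α hα => hc α (Finset.mem_union_right _ hα))] at h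
    exact_mod_cast h
  have hq1 : (n : ℤ) ≤ ∑ α ∈ R χ, c α ^ 2 := by
    rw [← hs1]
    exact Finset.sum_le_sum fun α _ => Int.le_self_sq _
  have hq2 : (m : ℤ) ≤ ∑ α ∈ R φ, c α ^ 2 := by
    have e : (m : ℤ) = ∑ α ∈ R φ, -c α := by rw [Finset.sum_neg_distrib, hs2, neg_neg]
    rw [e]
    refine Finset.sum_le_sum fun α _ => ?_
    have h := Int.le_self_sq (-c α)
    rwa [neg_sq] at h
  have hq1' : ∑ α ∈ R χ, c α ^ 2 = (n : ℤ) := by linarith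
  refine ⟨c, ?_, hs1, hq1', fun α hα => hc α (Finset.mem_union_left _ hα)⟩
  have h := heq (by rw [Finset.sum_union hdisj]; linarith)
  rw [Finset.sum_union hdisj] at h
  exact h


/-- Let (S, τ, R) be a coherence system from L to G such that φ 1 = ψ 1 for all φ, ψ ∈ S. Then (S, L minus 1, τ) is coherent. -/
theorem result {L : Type*} [Group L] [Fintype L] {G : Type*} [Group G] [Fintype G] (S : Set (L → ℂ)) (τ : (L → ℂ) → (G → ℂ)) (R : (L → ℂ) → Finset (G → ℂ)) (hS : Cfsg.IsCoherenceSystem S τ R) (hdeg : ∀ φ ∈ S, ∀ ψ ∈ S, φ 1 = ψ 1) : Cfsg.IsCoherent S {1}ᶜ τ := by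
  classical
  obtain ⟨χ₀, hχ₀⟩ := hS.nonempty
  obtain ⟨hτadd, hτsmul, hτiso, hτgen⟩ := hS.isometry
  have hχ₀c := hS.conj_mem χ₀ hχ₀
  have hχ₀ne := hS.conj_ne χ₀ hχ₀
  obtain ⟨n₀, hn₀⟩ :=
    Helper2.classInner_char_nat (hS.isCharacter χ₀ hχ₀) (hS.isCharacter χ₀ hχ₀)
  have hmemsub : ∀ a ∈ S, ∀ b ∈ S, (a - b) ∈ zspanOn S {1}ᶜ := by
    intro a ha b hb
    refine Helper10.mem_zspanOn_one.2 ⟨Helper10.zspan_sub_mem (Helper10.mem_zspan_of_mem ha)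
      (Helper10.mem_zspan_of_mem hb), ?_⟩
    rw [Pi.sub_apply, hdeg a ha b hb, sub_self]
  have hR1 : ∀ α ∈ R χ₀, classInner α α = 1 := by
    intro α hα
    rw [hS.orthonormal χ₀ hχ₀ α hα α hα, if_pos rfl]
  have hR0 : ∀ α ∈ R χ₀, ∀ β ∈ R χ₀, α ≠ β → classInner α β = 0 := by
    intro α hα β hβ hne
    rw [hS.orthonormal χ₀ hχ₀ α hα β hβ, if_neg hne]
  have hd0 : χ₀ 1 ≠ 0 := by
    intro h
    have h1 := Helper10.char_eq_zero_of_apply_one (hS.isCharacter χ₀ hχ₀) h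
    apply hχ₀ne
    rw [h1]
    funext x
    simp [conjFun]
  have o3 : classInner χ₀ (conjFun χ₀) = 0 := hS.orthogonal χ₀ hχ₀ _ hχ₀c (Ne.symm hχ₀ne)
  have o3' : classInner (conjFun χ₀) χ₀ = 0 := hS.orthogonal _ hχ₀c χ₀ hχ₀ hχ₀ne
  have hconjn : classInner (conjFun χ₀) (conjFun χ₀) = (n₀ : ℂ) := by
    rw [Helper10.classInner_conjFun, hn₀, Complex.conj_natCast]
  have hτ0 : τ 0 = 0 := by
    have h := hτsmul (χ₀ - χ₀) (hmemsub χ₀ hχ₀ χ₀ hχ₀) 0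
    simpa using h
  have hRR : ∀ φ ∈ S, φ ≠ χ₀ → φ ≠ conjFun χ₀ → ∀ β ∈ R φ, ∀ α ∈ R χ₀, classInner β α = 0 :=
    fun φ hφ h1 h2 => hS.disjoint χ₀ hχ₀ φ hφ (hS.orthogonal φ hφ χ₀ hχ₀ h1)
      (hS.orthogonal φ hφ _ hχ₀c h2)
  have hthird : ∀ φ ∈ S, φ ≠ χ₀ → φ ≠ conjFun χ₀ → ∀ ξ ∈ S, ξ ≠ χ₀ → ξ ≠ conjFun χ₀ →
      ∀ α ∈ R χ₀, classInner (τ (φ - ξ)) α = 0 := by
    intro φ hφ hφ1 hφ2 ξ hξ hξ1 hξ2 α hα
    by_cases h1 : ξ = φ
    · rw [h1, sub_self, hτ0]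
      exact Helper2.classInner_zero_left α
    by_cases h2 : ξ = conjFun φ
    · rw [h2, hS.sum_eq φ hφ, Helper2.classInner_sum_left]
      exact Finset.sum_eq_zero fun β hβ => hRR φ hφ hφ1 hφ2 β hβ α hα
    · obtain ⟨nφ, hnφ⟩ :=
        Helper2.classInner_char_nat (hS.isCharacter φ hφ) (hS.isCharacter φ hφ)
      obtain ⟨nξ, hnξ⟩ :=
        Helper2.classInner_char_nat (hS.isCharacter ξ hξ) (hS.isCharacter ξ hξ)
      obtain ⟨c, hc, -, -, -⟩ := diff_structure S τ R hS hdeg φ ξ hφ hξ h1 h2 nφ nξ hnφ hnξ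
      rw [hc, Helper2.classInner_add_left, Helper2.classInner_sum_left,
        Helper2.classInner_sum_left, Finset.sum_eq_zero, Finset.sum_eq_zero, add_zero]
      · intro β hβ
        rw [Helper10.classInner_zsmul_left, hRR ξ hξ hξ1 hξ2 β hβ α hα, mul_zero]
      · intro β hβ
        rw [Helper10.classInner_zsmul_left, hRR φ hφ hφ1 hφ2 β hβ α hα, mul_zero]
  have hc₀ : ∃ c₀ : (G → ℂ) → ℤ, ∑ α ∈ R χ₀, c₀ α = (n₀ : ℤ) ∧
      ∑ α ∈ R χ₀, c₀ α ^ 2 = (n₀ : ℤ) ∧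
      ∀ ξ ∈ S, ξ ≠ χ₀ → ξ ≠ conjFun χ₀ → ∀ α ∈ R χ₀,
        classInner (τ (χ₀ - ξ)) α = (c₀ α : ℂ) := by
    by_cases hB : ∃ φ₀ ∈ S, φ₀ ≠ χ₀ ∧ φ₀ ≠ conjFun χ₀
    · obtain ⟨φ₀, hφ₀, hφ₀1, hφ₀2⟩ := hB
      obtain ⟨m₀, hm₀⟩ :=
        Helper2.classInner_char_nat (hS.isCharacter φ₀ hφ₀) (hS.isCharacter φ₀ hφ₀)
      obtain ⟨c, hc, hs1, hs2, hcα⟩ :=
        diff_structure S τ R hS hdeg χ₀ φ₀ hχ₀ hφ₀ hφ₀1 hφ₀2 n₀ m₀ hn₀ hm₀
      refine ⟨c, hs1, hs2, ?_⟩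
      intro ξ hξ hξ1 hξ2 α hα
      have e : χ₀ - ξ = (χ₀ - φ₀) + (φ₀ - ξ) := by abel
      rw [e, hτadd _ (hmemsub χ₀ hχ₀ φ₀ hφ₀) _ (hmemsub φ₀ hφ₀ ξ hξ),
        Helper2.classInner_add_left, hcα α hα, hthird φ₀ hφ₀ hφ₀1 hφ₀2 ξ hξ hξ1 hξ2 α hα,
        add_zero]
    · have hcard : (R χ₀).card = 2 * n₀ := by
        have h := Helper10.classInner_sum_orthonormal (R χ₀) hR1 hR0
        rw [← hS.sum_eq χ₀ hχ₀, hτiso _ (hmemsub χ₀ hχ₀ _ hχ₀c) _ (hmemsub χ₀ hχ₀ _ hχ₀c)] at h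
        simp only [Helper2.classInner_sub_left, Helper2.classInner_sub_right, hn₀, o3, o3',
          hconjn] at h
        have h' : ((2 * n₀ : ℕ) : ℂ) = ((R χ₀).card : ℂ) := by
          push_cast
          rw [← h]
          ring
        exact_mod_cast h'.symm
      obtain ⟨A, hA, hAcard⟩ := Finset.exists_subset_card_eq (s := R χ₀) (n := n₀) (by omega)
      have hsum : ∑ α ∈ R χ₀, (if α ∈ A then (1 : ℤ) else 0) = (n₀ : ℤ) := by
        rw [Finset.sum_boole, Finset.filter_mem_eq_inter, Finset.inter_eq_right.2 hA, hAcard]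
      refine ⟨fun α => if α ∈ A then 1 else 0, hsum, ?_, ?_⟩
      · rw [← hsum]
        refine Finset.sum_congr rfl fun α _ => ?_
        show (if α ∈ A then (1 : ℤ) else 0) ^ 2 = if α ∈ A then (1 : ℤ) else 0
        by_cases h : α ∈ A
        · rw [if_pos h]
          norm_num
        · rw [if_neg h]
          norm_num
      · intro ξ hξ hξ1 hξ2
        exact absurd ⟨ξ, hξ, hξ1, hξ2⟩ hB
  obtain ⟨c₀, hc1, hc2, hc3⟩ := hc₀
  obtain ⟨Θ, hΘdef⟩ : ∃ Θ : G → ℂ, Θ = ∑ α ∈ R χ₀, c₀ α • α := ⟨_, rfl⟩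
  have hΘgen : IsGeneralizedCharacter G Θ := by
    rw [hΘdef]
    exact Helper10.IsGeneralizedCharacter.sum _ _ (fun α hα =>
      Helper10.IsGeneralizedCharacter.zsmul _ (hS.virtual χ₀ hχ₀ α hα))
  have hΘZ : ∀ Z : G → ℂ, classInner Θ Z = ∑ α ∈ R χ₀, (c₀ α : ℂ) * classInner α Z := by
    intro Z
    rw [hΘdef, Helper2.classInner_sum_left]
    exact Finset.sum_congr rfl fun α _ => Helper10.classInner_zsmul_left _ _ _
  have hαΘ : ∀ α ∈ R χ₀, classInner α Θ = (c₀ α : ℂ) := by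
    intro α hα
    rw [hΘdef, Helper2.classInner_sum_right, Finset.sum_eq_single α]
    · rw [Helper10.classInner_zsmul_right, hR1 α hα, mul_one]
    · intro β hβ hne
      rw [Helper10.classInner_zsmul_right, hR0 α hα β hβ (Ne.symm hne), mul_zero]
    · intro h
      exact absurd hα h
  have hc2' : ∑ α ∈ R χ₀, (c₀ α : ℂ) * (c₀ α : ℂ) = (n₀ : ℂ) := by
    have h : ((∑ α ∈ R χ₀, c₀ α ^ 2 : ℤ) : ℂ) = ((n₀ : ℤ) : ℂ) := by rw [hc2]
    push_cast at h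
    rw [← h]
    exact Finset.sum_congr rfl fun α _ => by ring
  have hc1' : ∑ α ∈ R χ₀, (c₀ α : ℂ) = (n₀ : ℂ) := by
    have h : ((∑ α ∈ R χ₀, c₀ α : ℤ) : ℂ) = ((n₀ : ℤ) : ℂ) := by rw [hc1]
    push_cast at h
    exact h
  have hΘΘ : classInner Θ Θ = (n₀ : ℂ) := by
    rw [hΘZ, ← hc2']
    exact Finset.sum_congr rfl fun α hα => by rw [hαΘ α hα]
  have hΘ1 : classInner Θ (τ (χ₀ - conjFun χ₀)) = (n₀ : ℂ) := by
    rw [hS.sum_eq χ₀ hχ₀, hΘZ, ← hc1']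
    refine Finset.sum_congr rfl fun α hα => ?_
    rw [← Helper2.classInner_conj_symm,
      Helper10.classInner_sum_orthonormal_right (R χ₀) hR1 hR0 hα, map_one, mul_one]
  have hΘ2 : ∀ ξ ∈ S, ξ ≠ χ₀ → ξ ≠ conjFun χ₀ → classInner Θ (τ (χ₀ - ξ)) = (n₀ : ℂ) := by
    intro ξ hξ h1 h2
    rw [hΘZ, ← hc2']
    refine Finset.sum_congr rfl fun α hα => ?_
    rw [← Helper2.classInner_conj_symm, hc3 ξ hξ h1 h2 α hα, map_intCast]
  obtain ⟨dd, hdd⟩ : ∃ dd : ℂ, dd = χ₀ 1 := ⟨_, rfl⟩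
  have hP : ∀ f ∈ zspan S, ∃ k : ℤ, f 1 = (k : ℂ) * dd ∧ (k • χ₀ - f) ∈ zspanOn S {1}ᶜ ∧
      classInner Θ (τ (k • χ₀ - f)) = classInner χ₀ (k • χ₀ - f) := by
    intro f hf
    refine Helper10.zspan_induction (p := fun f => ∃ k : ℤ, f 1 = (k : ℂ) * dd ∧
      (k • χ₀ - f) ∈ zspanOn S {1}ᶜ ∧
      classInner Θ (τ (k • χ₀ - f)) = classInner χ₀ (k • χ₀ - f)) ?_ ?_ ?_ ?_ hf
    · intro ξ hξ
      refine ⟨1, ?_, ?_, ?_⟩
      · rw [hdd, hdeg ξ hξ χ₀ hχ₀]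
        simp
      · rw [one_smul]
        exact hmemsub χ₀ hχ₀ ξ hξ
      · rw [one_smul]
        by_cases h1 : ξ = χ₀
        · rw [h1, sub_self, hτ0, Helper2.classInner_zero_right, Helper2.classInner_zero_right]
        by_cases h2 : ξ = conjFun χ₀
        · rw [h2, hΘ1, Helper2.classInner_sub_right, hn₀, o3, sub_zero]
        · rw [hΘ2 ξ hξ h1 h2, Helper2.classInner_sub_right, hn₀,
            hS.orthogonal χ₀ hχ₀ ξ hξ (Ne.symm h1), sub_zero]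
    · refine ⟨0, by simp, ?_, ?_⟩
      · rw [zero_smul, sub_zero]
        exact Helper10.mem_zspanOn_one.2 ⟨Helper10.zspan_zero_mem S, rfl⟩
      · rw [zero_smul, sub_zero, hτ0, Helper2.classInner_zero_right,
          Helper2.classInner_zero_right]
    · rintro f g _ _ ⟨k, hk1, hk2, hk3⟩ ⟨k', hk'1, hk'2, hk'3⟩
      have e : (k + k') • χ₀ - (f + g) = (k • χ₀ - f) + (k' • χ₀ - g) := by module
      refine ⟨k + k', ?_, ?_, ?_⟩
      · rw [Pi.add_apply, hk1, hk'1]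
        push_cast
        ring
      · rw [e]
        exact Helper10.zspanOn_one_add hk2 hk'2
      · rw [e, hτadd _ hk2 _ hk'2, Helper2.classInner_add_right, Helper2.classInner_add_right,
          hk3, hk'3]
    · rintro m f _ ⟨k, hk1, hk2, hk3⟩
      have e : (m * k) • χ₀ - m • f = m • (k • χ₀ - f) := by module
      refine ⟨m * k, ?_, ?_, ?_⟩
      · rw [Pi.smul_apply, hk1, zsmul_eq_mul]
        push_cast
        ring
      · rw [e]
        exact Helper10.zspanOn_one_smul m hk2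
      · rw [e, hτsmul _ hk2, Helper10.classInner_zsmul_right, Helper10.classInner_zsmul_right,
          hk3]
  obtain ⟨τ₁, hτ₁def⟩ : ∃ τ₁ : (L → ℂ) → (G → ℂ),
      τ₁ = fun f => (f 1 / dd) • Θ - τ ((f 1 / dd) • χ₀ - f) := ⟨_, rfl⟩
  have hddne : dd ≠ 0 := by
    rw [hdd]
    exact hd0
  have hτ₁ : ∀ (f : L → ℂ) (k : ℤ), f 1 = (k : ℂ) * dd → τ₁ f = k • Θ - τ (k • χ₀ - f) := by
    intro f k hk
    have h : f 1 / dd = (k : ℂ) := by
      rw [hk]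
      field_simp
    rw [hτ₁def]
    show (f 1 / dd) • Θ - τ ((f 1 / dd) • χ₀ - f) = _
    rw [h, Int.cast_smul_eq_zsmul ℂ k Θ, Int.cast_smul_eq_zsmul ℂ k χ₀]
  refine ⟨⟨χ₀ - conjFun χ₀, hmemsub χ₀ hχ₀ _ hχ₀c, sub_ne_zero.2 (Ne.symm hχ₀ne)⟩, τ₁,
    ⟨?_, ?_, ?_, ?_⟩, ?_⟩
  · intro f hf g hg
    obtain ⟨k, hk1, hk2, hk3⟩ := hP f hf
    obtain ⟨k', hk'1, hk'2, hk'3⟩ := hP g hg
    have e : (k + k') • χ₀ - (f + g) = (k • χ₀ - f) + (k' • χ₀ - g) := by module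
    rw [hτ₁ f k hk1, hτ₁ g k' hk'1,
      hτ₁ (f + g) (k + k') (by rw [Pi.add_apply, hk1, hk'1]; push_cast; ring), e,
      hτadd _ hk2 _ hk'2]
    module
  · intro f hf m
    obtain ⟨k, hk1, hk2, hk3⟩ := hP f hf
    have e : (m * k) • χ₀ - m • f = m • (k • χ₀ - f) := by module
    rw [hτ₁ f k hk1,
      hτ₁ (m • f) (m * k) (by rw [Pi.smul_apply, hk1, zsmul_eq_mul]; push_cast; ring), e,
      hτsmul _ hk2]
    module
  · intro f hf g hg
    obtain ⟨k, hk1, hk2, hk3⟩ := hP f hf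
    obtain ⟨k', hk'1, hk'2, hk'3⟩ := hP g hg
    rw [hτ₁ f k hk1, hτ₁ g k' hk'1]
    obtain ⟨u, hu⟩ : ∃ u : L → ℂ, u = k • χ₀ - f := ⟨_, rfl⟩
    obtain ⟨u', hu'⟩ : ∃ u' : L → ℂ, u' = k' • χ₀ - g := ⟨_, rfl⟩
    rw [← hu] at hk2 hk3 ⊢
    rw [← hu'] at hk'2 hk'3 ⊢
    have ef : f = k • χ₀ - u := by rw [hu]; abel
    have eg : g = k' • χ₀ - u' := by rw [hu']; abel
    have hk3' : classInner (τ u) Θ = classInner u χ₀ := by
      rw [← Helper2.classInner_conj_symm, hk3, Helper2.classInner_conj_symm]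
    rw [ef, eg]
    simp only [Helper2.classInner_sub_left, Helper2.classInner_sub_right,
      Helper10.classInner_zsmul_left, Helper10.classInner_zsmul_right]
    rw [hΘΘ, hk'3, hk3', hτiso _ hk2 _ hk'2, hn₀]
  · intro f hf
    obtain ⟨k, hk1, hk2, hk3⟩ := hP f hf
    rw [hτ₁ f k hk1]
    exact Helper10.IsGeneralizedCharacter.sub (Helper10.IsGeneralizedCharacter.zsmul k hΘgen)
      (hτgen _ hk2)
  · intro f hf
    obtain ⟨hfm, hf1⟩ := Helper10.mem_zspanOn_one.1 hf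
    have e : (0 : ℤ) • χ₀ - f = (-1 : ℤ) • f := by module
    rw [hτ₁ f 0 (by rw [hf1]; simp), e, hτsmul f hf]
    module

end Cfsg.Agent.S1517
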