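import Cfsg.Statements.S1519
import Mathlib
import Cfsg.Agent.S1516
import Cfsg.Agent.S1492
import Cfsg.Agent.Helper10.IndAbove
import Cfsg.Agent.Helper24.CharValues
import Cfsg.Agent.Helper2.CharOrtho
-- import your own Cfsg.Agent.* helpers here

set_option autoImplicit false
open Cfsg

namespace Cfsg.Agent.S1519


open Cfsg.Agent Cfsg.Agent.Helper10

open scoped ComplexConjugate

theorem isCoherent_subset {L : Type*} [Group L] [Fintype L] {G : Type*} [Group G] [Fintype G]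
    {S₁ S₂ : Set (L → ℂ)} {A : Set L} {τ : (L → ℂ) → (G → ℂ)} (h : IsCoherent S₂ A τ)
    (hsub : S₁ ⊆ S₂) (hne : ∃ α ∈ zspanOn S₁ A, α ≠ 0) : IsCoherent S₁ A τ := by
  obtain ⟨_, τ₁, hiso, hag⟩ := h
  have hz : zspan S₁ ⊆ zspan S₂ := zspan_mono hsub
  refine ⟨hne, τ₁, ⟨fun α hα β hβ => hiso.1 α (hz hα) β (hz hβ),
    fun α hα n => hiso.2.1 α (hz hα) n,
    fun α hα β hβ => hiso.2.2.1 α (hz hα) β (hz hβ), fun α hα => hiso.2.2.2 α (hz hα)⟩, ?_⟩
  intro α hα
  exact hag α ⟨hz hα.1, hα.2⟩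

theorem coherent_extend {L : Type*} [Group L] [Fintype L] {G : Type*} [Group G] [Fintype G]
    (S : Set (L → ℂ)) (τ : (L → ℂ) → (G → ℂ)) (R : (L → ℂ) → Finset (G → ℂ))
    (hS : IsCoherenceSystem S τ R) (d n : (L → ℂ) → ℕ) (hd : ∀ φ ∈ S, φ 1 = (d φ : ℂ))
    (hn : ∀ φ ∈ S, classInner φ φ = (n φ : ℂ)) (FA F : Finset (L → ℂ)) (hFA : FA ⊆ F)
    (hF : (↑F : Set (L → ℂ)) ⊆ S)
    (hFc : ∀ φ ∈ F, conjFun φ ∈ F) (hFAc : ∀ φ ∈ FA, conjFun φ ∈ FA)
    (hcoh : IsCoherent (↑FA : Set (L → ℂ)) {1}ᶜ τ) (χ₁ : L → ℂ) (hχ₁ : χ₁ ∈ FA)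
    (hstep : ∀ χ ∈ F, χ ∉ FA → d χ₁ ∣ d χ ∧
      (2 * d χ * d χ₁ : ℝ) < ∑ φ ∈ FA, ((d φ : ℝ) ^ 2 / (n φ : ℝ))) :
    IsCoherent (↑F : Set (L → ℂ)) {1}ᶜ τ := by
  classical
  have key : ∀ k : ℕ, ∀ S₁ : Finset (L → ℂ), F.card - S₁.card = k → FA ⊆ S₁ → S₁ ⊆ F →
      (∀ φ ∈ S₁, conjFun φ ∈ S₁) → IsCoherent (↑S₁ : Set (L → ℂ)) {1}ᶜ τ →
      IsCoherent (↑F : Set (L → ℂ)) {1}ᶜ τ := by
    intro k
    induction k using Nat.strong_induction_on with
    | _ k ih =>
      intro S₁ hk hA₁ h₁F h₁c hcoh₁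
      by_cases heq : S₁ = F
      · rw [← heq]; exact hcoh₁
      · obtain ⟨χ, hχF, hχ₁'⟩ : ∃ χ ∈ F, χ ∉ S₁ := by
          by_contra hcon
          push_neg at hcon
          exact heq (Finset.Subset.antisymm h₁F hcon)
        have hχc : conjFun χ ∉ S₁ := by
          intro h
          have := h₁c _ h
          rw [conjFun_conjFun] at this
          exact hχ₁' this
        have hχA : χ ∉ FA := fun h => hχ₁' (hA₁ h)
        obtain ⟨hdvd, hlt⟩ := hstep χ hχF hχA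
        have hmono : ∑ φ ∈ FA, ((d φ : ℝ) ^ 2 / (n φ : ℝ)) ≤
            ∑ φ ∈ S₁, ((d φ : ℝ) ^ 2 / (n φ : ℝ)) :=
          Finset.sum_le_sum_of_subset_of_nonneg hA₁ (fun φ _ _ => by positivity)
        have hres := S1516.result S τ R hS d n hd hn S₁ (fun φ hφ => hF (h₁F hφ)) h₁c hcoh₁ χ
          (hF hχF) hχ₁' hχc χ₁ (hA₁ hχ₁) hdvd (lt_of_lt_of_le hlt hmono)
        have hset : (↑S₁ ∪ {χ, conjFun χ} : Set (L → ℂ)) =
            ↑(insert χ (insert (conjFun χ) S₁)) := by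
          ext f
          simp only [Set.mem_union, Finset.mem_coe, Set.mem_insert_iff, Set.mem_singleton_iff,
            Finset.coe_insert]
          tauto
        rw [hset] at hres
        have hsub' : insert χ (insert (conjFun χ) S₁) ⊆ F := by
          intro f hf
          rw [Finset.mem_insert, Finset.mem_insert] at hf
          rcases hf with rfl | rfl | hf
          · exact hχF
          · exact hFc _ hχF
          · exact h₁F hf
        have hcard : S₁.card < (insert χ (insert (conjFun χ) S₁)).card := by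
          apply Finset.card_lt_card
          refine ⟨fun f hf => by simp [hf], fun h => hχ₁' (h (Finset.mem_insert_self _ _))⟩
        have hcardF : (insert χ (insert (conjFun χ) S₁)).card ≤ F.card :=
          Finset.card_le_card hsub'
        refine ih (F.card - (insert χ (insert (conjFun χ) S₁)).card) (by omega) _ rfl ?_ hsub'
          ?_ hres
        · intro f hf
          simp [hA₁ hf]
        · intro f hf
          rw [Finset.mem_insert, Finset.mem_insert] at hf ⊢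
          rcases hf with rfl | rfl | hf
          · right; left; rfl
          · left; exact conjFun_conjFun _
          · right; right; exact h₁c f hf
  exact key _ FA rfl (Finset.Subset.refl _) hFA hFAc hcoh

theorem exists_finset_above {L : Type*} [Group L] [Fintype L] (K X : Subgroup L)
    [Fintype (IrrCharacter K)] [DecidableEq (L → ℂ)] :
    ∃ T : Finset (IrrCharacter K), (∀ θ : IrrCharacter K, θ ∈ T ↔
      (θ : K → ℂ) ≠ (fun _ => 1) ∧ ∀ a : K, (a : L) ∈ X → (θ : K → ℂ) a = (θ : K → ℂ) 1) ∧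
      (↑(T.image (fun θ : IrrCharacter K => indFun K (θ : K → ℂ))) : Set (L → ℂ)) =
        inducedIrrAbove K X := by
  classical
  refine ⟨Finset.univ.filter (fun θ : IrrCharacter K =>
      (θ : K → ℂ) ≠ (fun _ => 1) ∧ ∀ a : K, (a : L) ∈ X → (θ : K → ℂ) a = (θ : K → ℂ) 1),
    fun θ => by simp, ?_⟩
  ext φ
  simp only [Finset.coe_image, Set.mem_image, Finset.mem_coe, Finset.mem_filter,
    Finset.mem_univ, true_and]
  constructor
  · rintro ⟨θ, hθ, rfl⟩
    exact ⟨θ, θ.2, hθ.1, hθ.2, rfl⟩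
  · rintro ⟨θ, hθ, hne, hker, rfl⟩
    exact ⟨⟨θ, hθ⟩, ⟨hne, hker⟩, rfl⟩

theorem exists_linear_above {L : Type*} [Group L] [Fintype L] (K X : Subgroup L)
    [hX : X.Normal] (hsolv : Group.IsSolvable K) (hXK : X < K) :
    ∃ μ : K →* ℂˣ, μ ≠ 1 ∧ ∀ a : K, (a : L) ∈ X → μ a = 1 := by
  classical
  haveI : Fintype K := Fintype.ofFinite K
  haveI hN : (X.subgroupOf K).Normal := by
    refine ⟨fun n hn g => ?_⟩
    rw [Subgroup.mem_subgroupOf] at hn ⊢
    exact hX.conj_mem n hn g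
  haveI hnt : Nontrivial (K ⧸ X.subgroupOf K) := by
    obtain ⟨k, hkK, hkX⟩ := SetLike.exists_of_lt hXK
    refine ⟨⟨QuotientGroup.mk ⟨k, hkK⟩, 1, ?_⟩⟩
    rw [Ne, QuotientGroup.eq_one_iff, Subgroup.mem_subgroupOf]
    exact hkX
  haveI := hsolv
  have hlt := Group.IsSolvable.commutator_lt_top_of_nontrivial (K ⧸ X.subgroupOf K)
  obtain ⟨q, -, hq⟩ := SetLike.exists_of_lt hlt
  haveI : Fintype (K ⧸ X.subgroupOf K) := Fintype.ofFinite _
  obtain ⟨ν, hν1, hν2⟩ := exists_hom_ne_one_of_abelian_quot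
    (commutator (K ⧸ X.subgroupOf K)) (fun x y => by
      have := Subgroup.commutator_mem_commutator (Subgroup.mem_top x) (Subgroup.mem_top y)
      rw [commutatorElement_def] at this
      exact this) hq
  refine ⟨ν.comp (QuotientGroup.mk' _), ?_, ?_⟩
  · intro h
    obtain ⟨k, rfl⟩ := QuotientGroup.mk_surjective q
    apply hν2
    have := DFunLike.congr_fun h k
    simpa using this
  · intro a ha
    show ν (QuotientGroup.mk a) = 1
    rw [(QuotientGroup.eq_one_iff a).2 (Subgroup.mem_subgroupOf.2 ha), map_one]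

theorem degree_step {L : Type*} [Group L] [Fintype L] (K : Subgroup L) [hK : K.Normal]
    (B C D : Subgroup L) [hB : B.Normal] (hBD : B ≤ D) (hDC : D ≤ C) (hCK : C ≤ K)
    (hcent : ∀ x ∈ D, ∀ y ∈ C, x * y * x⁻¹ * y⁻¹ ∈ B) (am : ℕ)
    (hlt : 4 * C.index ^ 2 * D.relIndex C < am ^ 2)
    (θ : K → ℂ) (hθ : IsIrrCharacter K θ) (hker : ∀ a : K, (a : L) ∈ B → θ a = θ 1) :
    K.index ∣ charDegree (indFun K θ) ∧
    (2 * (charDegree (indFun K θ) : ℝ) * (K.index : ℝ)) < (K.index : ℝ) * (am : ℝ) := by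
  classical
  haveI : Fintype K := Fintype.ofFinite K
  have hθc : IsCharacter K θ := Helper24.isCharacter_of_irr hθ
  have ht := Helper24.charDegree_spec hθc
  obtain ⟨t, htdef⟩ : ∃ t : ℕ, t = charDegree θ := ⟨_, rfl⟩
  rw [← htdef] at ht
  have hχc : IsCharacter L (indFun K θ) := Helper2.isCharacter_indFun K hθc
  have hχ1 := Helper24.charDegree_spec hχc
  have hidx : K.index * Nat.card K = Nat.card L := K.index_mul_card
  have hK0 : (Nat.card K : ℂ) ≠ 0 := by exact_mod_cast Nat.card_pos.ne'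
  have hdeg : charDegree (indFun K θ) = K.index * t := by
    have h1 := indFun_one K θ
    rw [hχ1, ht] at h1
    have h2 : (Nat.card L : ℂ) = (K.index : ℂ) * (Nat.card K : ℂ) := by exact_mod_cast hidx.symm
    rw [h2] at h1
    have h3 : ((charDegree (indFun K θ) : ℕ) : ℂ) = ((K.index * t : ℕ) : ℂ) := by
      rw [h1]; push_cast; field_simp
    exact_mod_cast h3
  refine ⟨⟨t, hdeg⟩, ?_⟩
  rw [hdeg]
  have h92 := S1492.result θ hθ (B.subgroupOf K) (C.subgroupOf K) (D.subgroupOf K)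
    (fun x hx => Subgroup.mem_subgroupOf.2 (hBD (Subgroup.mem_subgroupOf.1 hx)))
    (fun x hx => Subgroup.mem_subgroupOf.2 (hDC (Subgroup.mem_subgroupOf.1 hx)))
    (fun c _ b hb => Subgroup.mem_subgroupOf.2 (hB.conj_mem b (Subgroup.mem_subgroupOf.1 hb) c))
    (fun d hd c hc => Subgroup.mem_subgroupOf.2
      (hcent d (Subgroup.mem_subgroupOf.1 hd) c (Subgroup.mem_subgroupOf.1 hc)))
    (fun b hb => hker b (Subgroup.mem_subgroupOf.1 hb))
  rw [ht, Complex.norm_natCast, Nat.card_congr (Subgroup.subgroupOfEquivOfLe hCK).toEquiv,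
    Nat.card_congr (Subgroup.subgroupOfEquivOfLe (hDC.trans hCK)).toEquiv] at h92
  have hKr : (K.index : ℝ) * (Nat.card K : ℝ) = (Nat.card L : ℝ) := by exact_mod_cast hidx
  have hCr : (C.index : ℝ) * (Nat.card C : ℝ) = (Nat.card L : ℝ) := by
    exact_mod_cast C.index_mul_card
  have hDr : (D.relIndex C : ℝ) * (C.index : ℝ) * (Nat.card D : ℝ) = (Nat.card L : ℝ) := by
    have := D.index_mul_card
    rw [← Subgroup.relIndex_mul_index hDC] at this
    exact_mod_cast this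
  have hltr : (4 * (C.index : ℝ) ^ 2 * (D.relIndex C : ℝ)) < (am : ℝ) ^ 2 := by
    exact_mod_cast hlt
  have hNpos : (0 : ℝ) < (Nat.card L : ℝ) := by exact_mod_cast Nat.card_pos
  have hkpos : (0 : ℝ) < (K.index : ℝ) := by
    have : K.index ≠ 0 := Subgroup.index_ne_zero_of_finite
    exact_mod_cast Nat.pos_of_ne_zero this
  push_cast
  obtain ⟨k, hk⟩ : ∃ k : ℝ, k = (K.index : ℝ) := ⟨_, rfl⟩
  obtain ⟨c, hc⟩ : ∃ c : ℝ, c = (C.index : ℝ) := ⟨_, rfl⟩
  obtain ⟨r, hr⟩ : ∃ r : ℝ, r = (D.relIndex C : ℝ) := ⟨_, rfl⟩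
  obtain ⟨N, hN⟩ : ∃ N : ℝ, N = (Nat.card L : ℝ) := ⟨_, rfl⟩
  obtain ⟨cK, hcK⟩ : ∃ cK : ℝ, cK = (Nat.card K : ℝ) := ⟨_, rfl⟩
  obtain ⟨cC, hcC⟩ : ∃ cC : ℝ, cC = (Nat.card C : ℝ) := ⟨_, rfl⟩
  obtain ⟨cD, hcD⟩ : ∃ cD : ℝ, cD = (Nat.card D : ℝ) := ⟨_, rfl⟩
  obtain ⟨tr, htr⟩ : ∃ tr : ℝ, tr = (t : ℝ) := ⟨_, rfl⟩
  obtain ⟨ar, har⟩ : ∃ ar : ℝ, ar = (am : ℝ) := ⟨_, rfl⟩
  have har0 : 0 ≤ ar := by rw [har]; positivity
  have hc0 : 0 ≤ c := by rw [hc]; positivity
  have hr0 : 0 ≤ r := by rw [hr]; positivity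
  have hcC0 : 0 ≤ cC := by rw [hcC]; positivity
  have hcD0 : 0 ≤ cD := by rw [hcD]; positivity
  have htr0 : 0 ≤ tr := by rw [htr]; positivity
  rw [← hk, ← hcK, ← hN] at hKr
  rw [← hc, ← hcC, ← hN] at hCr
  rw [← hr, ← hc, ← hcD, ← hN] at hDr
  rw [← hc, ← hr, ← har] at hltr
  rw [← hN] at hNpos
  rw [← hk] at hkpos
  rw [← htr, ← hcC, ← hcD, ← hcK] at h92
  rw [← hk, ← htr, ← har]
  have key : tr ^ 2 * k ^ 2 ≤ r * c ^ 2 := by
    have h1 : tr ^ 2 * k ^ 2 * (N * N) ≤ r * c ^ 2 * (N * N) := by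
      have e1 : N * N = (c * cC) * (r * c * cD) := by rw [hCr, hDr]
      have e2 : N * N = (k * cK) * (k * cK) := by rw [hKr]
      calc tr ^ 2 * k ^ 2 * (N * N) = (tr ^ 2 * cC * cD) * (k ^ 2 * c * (r * c)) := by
            rw [e1]; ring
        _ ≤ cK ^ 2 * (k ^ 2 * c * (r * c)) := by
            apply mul_le_mul_of_nonneg_right h92
            positivity
        _ = r * c ^ 2 * (N * N) := by rw [e2]; ring
    exact le_of_mul_le_mul_right h1 (by positivity)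
  have hsq : (2 * (k * tr) * k) ^ 2 < (k * ar) ^ 2 := by
    have e1 : (2 * (k * tr) * k) ^ 2 = k ^ 2 * (4 * (tr ^ 2 * k ^ 2)) := by ring
    have e2 : (k * ar) ^ 2 = k ^ 2 * ar ^ 2 := by ring
    rw [e1, e2]
    have hk2 : 0 < k ^ 2 := by positivity
    have : 4 * (tr ^ 2 * k ^ 2) < ar ^ 2 := by nlinarith
    exact mul_lt_mul_of_pos_left this hk2
  exact lt_of_pow_lt_pow_left₀ 2 (by positivity) hsq


/-- Let K be a solvable normal subgroup of the finite group L and (S, τ, R) a coherence system from L to G where S is the set of functions induced from non-principal irreducible characters of K; write S(A) for those induced from characters whose kernel contains A. Let A, B, C, D be normal subgroups of L with A < K, B < K, B ≤ D ≤ C ≤ K and every commutator of D with C in B. If S(A) is coherent and 4 * [L:C]^2 * [C:D] < ([K:A] − 1)^2, then S(B) is coherent. -/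
theorem result {L : Type*} [Group L] [Fintype L] {G : Type*} [Group G] [Fintype G] (K : Subgroup L) [hK : K.Normal] (hsolv : Group.IsSolvable K) (τ : (L → ℂ) → (G → ℂ)) (R : (L → ℂ) → Finset (G → ℂ)) (hS : Cfsg.IsCoherenceSystem (Cfsg.inducedIrrAbove K ⊥) τ R) (A B C D : Subgroup L) [A.Normal] [B.Normal] [C.Normal] [D.Normal] (hAK : A < K) (hBK : B < K) (hBD : B ≤ D) (hDC : D ≤ C) (hCK : C ≤ K) (hcent : ∀ x ∈ D, ∀ y ∈ C, x * y * x⁻¹ * y⁻¹ ∈ B) (hA : Cfsg.IsCoherent (Cfsg.inducedIrrAbove K A) {1}ᶜ τ) (hlt : 4 * C.index ^ 2 * D.relIndex C < (A.relIndex K - 1) ^ 2) : Cfsg.IsCoherent (Cfsg.inducedIrrAbove K B) {1}ᶜ τ := by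
  classical
  haveI : Fintype K := Fintype.ofFinite K
  haveI : Finite (IrrCharacter K) := Helper24.finite_irrCharacter
  haveI : Fintype (IrrCharacter K) := Fintype.ofFinite _
  have hsubS : ∀ X : Subgroup L, inducedIrrAbove K X ⊆ inducedIrrAbove K ⊥ := by
    rintro X φ ⟨θ, hθ, hne, hker, rfl⟩
    refine ⟨θ, hθ, hne, ?_, rfl⟩
    intro a ha
    have : a = 1 := OneMemClass.coe_eq_one.1 (Subgroup.mem_bot.1 ha)
    rw [this]
  have hd : ∀ φ ∈ inducedIrrAbove K (⊥ : Subgroup L), φ 1 = ((charDegree φ : ℕ) : ℂ) :=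
    fun φ hφ => Helper24.charDegree_spec (hS.isCharacter φ hφ)
  obtain ⟨n, hn⟩ : ∃ n : (L → ℂ) → ℕ, ∀ φ ∈ inducedIrrAbove K (⊥ : Subgroup L),
      classInner φ φ = (n φ : ℂ) := by
    have : ∀ φ : L → ℂ, ∃ m : ℕ, φ ∈ inducedIrrAbove K (⊥ : Subgroup L) →
        classInner φ φ = (m : ℂ) := by
      intro φ
      by_cases hφ : φ ∈ inducedIrrAbove K (⊥ : Subgroup L)
      · obtain ⟨m, hm⟩ := Helper2.classInner_char_nat (hS.isCharacter φ hφ)
          (hS.isCharacter φ hφ)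
        exact ⟨m, fun _ => hm⟩
      · exact ⟨0, fun h => absurd h hφ⟩
    choose n hn using this
    exact ⟨n, hn⟩
  have hconj : ∀ X : Subgroup L, ∀ φ ∈ inducedIrrAbove K X,
      conjFun φ ∈ inducedIrrAbove K X := by
    rintro X φ ⟨θ, hθ, hne, hker, rfl⟩
    refine ⟨conjFun θ, Helper2.isIrrCharacter_conj hθ, ?_, ?_, conjFun_indFun K θ⟩
    · intro h
      apply hne
      funext k
      have h2 : conj (θ k) = 1 := congrFun h k
      have h3 := congrArg conj h2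
      simpa using h3
    · intro a ha
      show conj (θ a) = conj (θ 1)
      rw [hker a ha]
  have hnz : ∀ X : Subgroup L, ∀ χ ∈ inducedIrrAbove K X,
      ∃ α ∈ zspanOn (inducedIrrAbove K X) {1}ᶜ, α ≠ 0 := by
    intro X χ hχ
    refine ⟨χ - conjFun χ, ?_, ?_⟩
    · rw [mem_zspanOn_one]
      refine ⟨zspan_sub_mem (mem_zspan_of_mem hχ) (mem_zspan_of_mem (hconj X χ hχ)), ?_⟩
      show χ 1 - conj (χ 1) = 0
      rw [hd χ (hsubS X hχ), Complex.conj_natCast, sub_self]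
    · intro h
      exact hS.conj_ne χ (hsubS X hχ) (sub_eq_zero.1 h).symm
  obtain ⟨TA, hTA, hFA⟩ := exists_finset_above K A
  obtain ⟨TB, hTB, hFB⟩ := exists_finset_above K B
  obtain ⟨FA, hFAdef⟩ : ∃ FA : Finset (L → ℂ),
      FA = TA.image (fun θ : IrrCharacter K => indFun K (θ : K → ℂ)) := ⟨_, rfl⟩
  obtain ⟨FB, hFBdef⟩ : ∃ FB : Finset (L → ℂ),
      FB = TB.image (fun θ : IrrCharacter K => indFun K (θ : K → ℂ)) := ⟨_, rfl⟩
  rw [← hFAdef] at hFA
  rw [← hFBdef] at hFB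
  have hFAmem : ∀ φ, φ ∈ FA ↔ φ ∈ inducedIrrAbove K A := fun φ => by
    rw [← hFA]; exact Finset.mem_coe.symm
  have hFBmem : ∀ φ, φ ∈ FB ↔ φ ∈ inducedIrrAbove K B := fun φ => by
    rw [← hFB]; exact Finset.mem_coe.symm
  obtain ⟨μA, hμA1, hμA2⟩ := exists_linear_above K A hsolv hAK
  obtain ⟨μB, hμB1, hμB2⟩ := exists_linear_above K B hsolv hBK
  have hlin : ∀ (X : Subgroup L) (μ : K →* ℂˣ), μ ≠ 1 → (∀ a : K, (a : L) ∈ X → μ a = 1) →
      indFun K (fun k => ((μ k : ℂˣ) : ℂ)) ∈ inducedIrrAbove K X := by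
    intro X μ hμ1 hμ2
    refine ⟨fun k => ((μ k : ℂˣ) : ℂ), Helper2.isIrrCharacter_of_hom μ, ?_, ?_, rfl⟩
    · intro h
      apply hμ1
      ext k
      have := congrFun h k
      simpa using this
    · intro a ha
      show ((μ a : ℂˣ) : ℂ) = ((μ 1 : ℂˣ) : ℂ)
      rw [hμ2 a ha, map_one]
  obtain ⟨χ₁, hχ₁def⟩ : ∃ χ₁ : L → ℂ, χ₁ = indFun K (fun k => ((μA k : ℂˣ) : ℂ)) := ⟨_, rfl⟩
  have hχ₁A : χ₁ ∈ inducedIrrAbove K A := by rw [hχ₁def]; exact hlin A μA hμA1 hμA2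
  have hχ₁deg : charDegree χ₁ = K.index := by
    have h1 := indFun_one K (fun k => ((μA k : ℂˣ) : ℂ))
    rw [← hχ₁def, hd χ₁ (hsubS A hχ₁A)] at h1
    have hidx : K.index * Nat.card K = Nat.card L := K.index_mul_card
    have h2 : (Nat.card L : ℂ) = (K.index : ℂ) * (Nat.card K : ℂ) := by exact_mod_cast hidx.symm
    have hK0 : (Nat.card K : ℂ) ≠ 0 := by exact_mod_cast Nat.card_pos.ne'
    rw [h2] at h1
    have h3 : ((charDegree χ₁ : ℕ) : ℂ) = ((K.index : ℕ) : ℂ) := by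
      rw [h1]; simp only [map_one, Units.val_one]; field_simp
    exact_mod_cast h3
  have ha1 : 1 ≤ A.relIndex K := Nat.one_le_iff_ne_zero.2 Subgroup.index_ne_zero_of_finite
  have hsum : ∑ φ ∈ FA, ((charDegree φ : ℝ) ^ 2 / (n φ : ℝ)) =
      (K.index : ℝ) * ((A.relIndex K - 1 : ℕ) : ℝ) := by
    have h := sum_deg_sq_div_norm K A TA hTA (by
      intro θ hθ θ' hθ' hne
      apply hS.orthogonal _ _ _ _ hne
      · exact hsubS A ((hFAmem _).1 (by rw [hFAdef]; exact Finset.mem_image_of_mem _ hθ))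
      · exact hsubS A ((hFAmem _).1 (by rw [hFAdef]; exact Finset.mem_image_of_mem _ hθ')))
    rw [← hFAdef] at h
    apply Complex.ofReal_injective
    push_cast [Nat.cast_sub ha1]
    rw [← h]
    refine Finset.sum_congr rfl fun φ hφ => ?_
    have hφS := hsubS A ((hFAmem φ).1 hφ)
    rw [hd φ hφS, hn φ hφS]
  have hA' : IsCoherent (↑FA : Set (L → ℂ)) {1}ᶜ τ := by rw [hFA]; exact hA
  have hext := coherent_extend (inducedIrrAbove K ⊥) τ R hS (fun φ => charDegree φ) n hd hn FA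
    (FA ∪ FB) Finset.subset_union_left (by
      intro φ hφ
      rw [Finset.mem_coe, Finset.mem_union] at hφ
      rcases hφ with h | h
      · exact hsubS A ((hFAmem φ).1 h)
      · exact hsubS B ((hFBmem φ).1 h)) (by
      intro φ hφ
      rw [Finset.mem_union] at hφ ⊢
      rcases hφ with h | h
      · left; exact (hFAmem _).2 (hconj A φ ((hFAmem φ).1 h))
      · right; exact (hFBmem _).2 (hconj B φ ((hFBmem φ).1 h))) (by
      intro φ h
      exact (hFAmem _).2 (hconj A φ ((hFAmem φ).1 h))) hA' χ₁ ((hFAmem χ₁).2 hχ₁A) (by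
      intro χ hχ hχA
      rw [Finset.mem_union] at hχ
      rcases hχ with h | h
      · exact absurd h hχA
      · obtain ⟨θ, hθ, hne, hker, rfl⟩ := (hFBmem χ).1 h
        have hstep := degree_step K B C D hBD hDC hCK hcent (A.relIndex K - 1) hlt θ hθ hker
        show charDegree χ₁ ∣ charDegree (indFun K θ) ∧ _
        rw [hχ₁deg, hsum]
        exact hstep)
  obtain ⟨χB, hχBdef⟩ : ∃ χB : L → ℂ, χB = indFun K (fun k => ((μB k : ℂˣ) : ℂ)) := ⟨_, rfl⟩
  have hχB : χB ∈ inducedIrrAbove K B := by rw [hχBdef]; exact hlin B μB hμB1 hμB2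
  refine isCoherent_subset hext ?_ (hnz B χB hχB)
  intro φ hφ
  rw [Finset.mem_coe, Finset.mem_union]
  right
  exact (hFBmem φ).2 hφ

end Cfsg.Agent.S1519
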