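import Cfsg.Statements.S1520
import Mathlib
import Cfsg.Agent.S1519
-- import your own Cfsg.Agent.* helpers here

set_option autoImplicit false
open Cfsg

namespace Cfsg.Agent.S1520


open Cfsg.Agent

open scoped commutatorElement

theorem index_ineq (x h l : ℕ) (hx : 4 * l ^ 2 + 2 ≤ x) (hh : 1 ≤ h) :
    4 * (h * l) ^ 2 * x < (x * h - 1) ^ 2 := by
  have hxh : 1 ≤ x * h := by nlinarith
  obtain ⟨y, hy⟩ : ∃ y, x * h = y + 1 := ⟨x * h - 1, by omega⟩
  have e : x * h - 1 = y := by omega
  rw [e]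
  zify at hx hh hy ⊢
  have hy' : (y : ℤ) = x * h - 1 := by linarith
  rw [hy']
  have hx0 : (0 : ℤ) ≤ x := by positivity
  have hh0 : (0 : ℤ) ≤ h := by positivity
  nlinarith [mul_nonneg (mul_nonneg hx0 (sq_nonneg (h : ℤ))) (sub_nonneg.2 hx),
    mul_nonneg (mul_nonneg hx0 hh0) (sub_nonneg.2 hh)]


/-- Let K be a solvable normal subgroup of the finite group L and (S, τ, R) a coherence system from L to G with S the functions induced from non-principal irreducible characters of K; S(A) the members of S induced from characters whose kernel contains A. Let M ≤ H₁ ≤ H ≤ K be normal subgroups of L such that every term of the lower central series of H eventually lies in M (H/M nilpotent), S(H₁) is coherent and [H:H₁] > 4 * [L:K]^2 + 1. Then S(M) is coherent. -/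
theorem result {L : Type*} [Group L] [Fintype L] {G : Type*} [Group G] [Fintype G] (K : Subgroup L) [hK : K.Normal] (hsolv : Group.IsSolvable K) (τ : (L → ℂ) → (G → ℂ)) (R : (L → ℂ) → Finset (G → ℂ)) (hS : Cfsg.IsCoherenceSystem (Cfsg.inducedIrrAbove K ⊥) τ R) (M H₁ H : Subgroup L) [M.Normal] [H₁.Normal] [H.Normal] (hMH₁ : M ≤ H₁) (hH₁H : H₁ ≤ H) (hHK : H ≤ K) [(M.subgroupOf H).Normal] (hnil : Group.IsNilpotent (↥H ⧸ M.subgroupOf H)) (hcoh : Cfsg.IsCoherent (Cfsg.inducedIrrAbove K H₁) {1}ᶜ τ) (hbig : 4 * K.index ^ 2 + 1 < H₁.relIndex H) : Cfsg.IsCoherent (Cfsg.inducedIrrAbove K M) {1}ᶜ τ := by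
  classical
  obtain ⟨A, hA0, hAsucc⟩ : ∃ A : ℕ → Subgroup L, A 0 = H₁ ∧ ∀ j, A (j + 1) = M ⊔ ⁅A j, H⁆ :=
    ⟨fun j => Nat.rec H₁ (fun _ X => M ⊔ ⁅X, H⁆) j, rfl, fun j => rfl⟩
  have hH₁ltH : H₁ < H := by
    refine lt_of_le_of_ne hH₁H ?_
    intro h
    rw [h, Subgroup.relIndex_self] at hbig
    omega
  have hH₁K : H₁ < K := lt_of_lt_of_le hH₁ltH hHK
  have hmain : ∀ j, (A j).Normal ∧ M ≤ A j ∧ A j ≤ H₁ ∧
      IsCoherent (inducedIrrAbove K (A j)) {1}ᶜ τ := by
    intro j
    induction j with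
    | zero =>
      rw [hA0]
      exact ⟨inferInstance, hMH₁, le_refl _, hcoh⟩
    | succ j ih =>
      obtain ⟨hn, hM, hle, hc⟩ := ih
      haveI := hn
      have hle' : A (j + 1) ≤ A j := by
        rw [hAsucc]
        exact sup_le hM (Subgroup.commutator_le_left (A j) H)
      haveI hn' : (A (j + 1)).Normal := by
        rw [hAsucc]
        infer_instance
      refine ⟨hn', by rw [hAsucc]; exact le_sup_left, hle'.trans hle, ?_⟩
      have hAjH : A j ≤ H := hle.trans hH₁H
      refine S1519.result K hsolv τ R hS (A j) (A (j + 1)) H (A j)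
        (lt_of_le_of_lt hle hH₁K) (lt_of_le_of_lt (hle'.trans hle) hH₁K) hle' hAjH hHK ?_ hc ?_
      · intro x hx y hy
        rw [hAsucc]
        have := Subgroup.commutator_mem_commutator hx hy
        rw [commutatorElement_def] at this
        exact (le_sup_right : ⁅A j, H⁆ ≤ M ⊔ ⁅A j, H⁆) this
      · have e1 : H.relIndex K * K.index = H.index := Subgroup.relIndex_mul_index hHK
        have e2 : (A j).relIndex H * H.relIndex K = (A j).relIndex K :=
          Subgroup.relIndex_mul_relIndex (A j) H K hAjH hHK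
        have e3 : (A j).relIndex H₁ * H₁.relIndex H = (A j).relIndex H :=
          Subgroup.relIndex_mul_relIndex (A j) H₁ H hle hH₁H
        have p1 : 1 ≤ (A j).relIndex H₁ :=
          Nat.one_le_iff_ne_zero.2 Subgroup.index_ne_zero_of_finite
        have p2 : 1 ≤ H.relIndex K := Nat.one_le_iff_ne_zero.2 Subgroup.index_ne_zero_of_finite
        rw [← e1, ← e2]
        apply index_ineq
        · rw [← e3]
          nlinarith
        · exact p2
  obtain ⟨c, hc⟩ := Subgroup.nilpotent_iff_lowerCentralSeries.1 hnil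
  have hP : ∀ j, A j ≤ (((⊤ : Subgroup (H ⧸ M.subgroupOf H)).lowerCentralSeries j).comap
      (QuotientGroup.mk' (M.subgroupOf H))).map H.subtype := by
    intro j
    induction j with
    | zero =>
      rw [hA0]
      intro g hg
      exact ⟨⟨g, hH₁H hg⟩, by simp, rfl⟩
    | succ j ih =>
      rw [hAsucc]
      apply sup_le
      · intro m hm
        refine ⟨⟨m, hH₁H (hMH₁ hm)⟩, ?_, rfl⟩
        show QuotientGroup.mk' (M.subgroupOf H) ⟨m, hH₁H (hMH₁ hm)⟩ ∈
          (⊤ : Subgroup (H ⧸ M.subgroupOf H)).lowerCentralSeries (j + 1)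
        have : QuotientGroup.mk' (M.subgroupOf H) ⟨m, hH₁H (hMH₁ hm)⟩ = 1 :=
          (QuotientGroup.eq_one_iff _).2 (Subgroup.mem_subgroupOf.2 hm)
        rw [this]
        exact one_mem _
      · rw [Subgroup.commutator_le]
        intro a ha h hh
        obtain ⟨a', ha', rfl⟩ := ih ha
        refine ⟨⁅a', ⟨h, hh⟩⁆, ?_, rfl⟩
        show QuotientGroup.mk' (M.subgroupOf H) ⁅a', ⟨h, hh⟩⁆ ∈
          (⊤ : Subgroup (H ⧸ M.subgroupOf H)).lowerCentralSeries (j + 1)
        rw [map_commutatorElement, Subgroup.lowerCentralSeries_succ]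
        exact Subgroup.commutator_mem_commutator ha' (Subgroup.mem_top _)
  have hAc : A c = M := by
    apply le_antisymm
    · intro g hg
      obtain ⟨g', hg', rfl⟩ := hP c hg
      rw [hc] at hg'
      have h1 : QuotientGroup.mk' (M.subgroupOf H) g' = 1 := Subgroup.mem_bot.1 hg'
      exact Subgroup.mem_subgroupOf.1 ((QuotientGroup.eq_one_iff _).1 h1)
    · exact (hmain c).2.1
  rw [← hAc]
  exact (hmain c).2.2.2

end Cfsg.Agent.S1520
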