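import Cfsg.Statements.S1521
import Mathlib
import Cfsg.Agent.S1517
import Cfsg.Agent.S1520
import Cfsg.Agent.Helper10.CohAbove
import Cfsg.Agent.Helper10.FrobQuot
-- import your own Cfsg.Agent.* helpers here

set_option autoImplicit false
open Cfsg

namespace Cfsg.Agent.S1521


open Cfsg.Agent Cfsg.Agent.Helper10


/-- Let K be a solvable normal subgroup of the finite group L of odd order and (S, τ, R) a coherence system from L to G with S the functions induced from non-principal irreducible characters of K; S(A) as before. Let M ≤ K be normal in L with K/M nilpotent, H₁ = [K, K] ⊔ M, H₁ < K < L, and suppose every element of K outside H₁ is centralised modulo H₁ only from inside K (L/H₁ is a Frobenius group with kernel K/H₁). Suppose one of the following: some normal subgroup of L lies strictly between H₁ and K; or [K:H₁] > 4[L:K]^2 + 1; or [K:M] is not a prime power; or [K,K] ≤ M; or [K:M] is a power of a prime p with [L:K]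 dividing p − 1. Then S(M) is coherent. -/
theorem result {L : Type*} [Group L] [Fintype L] {G : Type*} [Group G] [Fintype G] (K : Subgroup L) [hK : K.Normal] (hsolv : Group.IsSolvable K) (τ : (L → ℂ) → (G → ℂ)) (R : (L → ℂ) → Finset (G → ℂ)) (hS : Cfsg.IsCoherenceSystem (Cfsg.inducedIrrAbove K ⊥) τ R) (hodd : Odd (Nat.card L)) (M : Subgroup L) [M.Normal] (hMK : M ≤ K) [(M.subgroupOf K).Normal] (hnil : Group.IsNilpotent (↥K ⧸ M.subgroupOf K)) (H₁ : Subgroup L) (hH₁ : H₁ = ⁅K, K⁆ ⊔ M) (hH₁K : H₁ < K) (hKL : K < ⊤) (hfrob : ∀ k ∈ K, k ∉ H₁ → ∀ x : L, x * k * x⁻¹ * k⁻¹ ∈ H₁ → x ∈ K) (hgood : (∃ N : Subgroup L, N.Normal ∧ H₁ < N ∧ N < K) ∨ 4 * K.index ^ 2 + 1 < H₁.relIndex K ∨ (¬ ∃ p m : ℕ, p.Prime ∧ M.relIndex K = p ^ m) ∨ ⁅K, K⁆ ≤ M ∨ (∃ p m : ℕ, p.Prime ∧ M.relIndex K = p ^ m ∧ K.index ∣ p - 1)) : Cfsg.IsCoherent (Cfsg.inducedIrrAbove K M) {1}ᶜ τ := by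
  classical
  subst hH₁
  have hMH₁ : M ≤ ⁅K, K⁆ ⊔ M := le_sup_right
  have hcommH₁ : ⁅K, K⁆ ≤ ⁅K, K⁆ ⊔ M := le_sup_left
  have hbase : IsCoherent (inducedIrrAbove K (⁅K, K⁆ ⊔ M)) {1}ᶜ τ := by
    apply S1517.result _ τ R (cohSys_mono hS (inducedIrrAbove_subset_bot K _)
      (inducedIrrAbove_nonempty K _ hsolv hH₁K) (fun χ hχ => inducedIrrAbove_conj K _ hχ))
    intro φ hφ ψ hψ
    rw [inducedIrrAbove_apply_one_of_comm K _ hcommH₁ hφ,
      inducedIrrAbove_apply_one_of_comm K _ hcommH₁ hψ]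
  have hb : 4 * K.index ^ 2 + 1 < (⁅K, K⁆ ⊔ M).relIndex K →
      IsCoherent (inducedIrrAbove K M) {1}ᶜ τ :=
    fun hbig => S1520.result K hsolv τ R hS M (⁅K, K⁆ ⊔ M) K hMH₁ hH₁K.le le_rfl hnil hbase hbig
  have hd : ⁅K, K⁆ ≤ M → IsCoherent (inducedIrrAbove K M) {1}ᶜ τ := by
    intro h
    have e : ⁅K, K⁆ ⊔ M = M := sup_eq_right.2 h
    rw [e] at hbase
    exact hbase
  have hoddK : Odd K.index := hodd.of_dvd_nat (Subgroup.index_dvd_card K)
  have hoddrel : ∀ X Y : Subgroup L, Odd (X.relIndex Y) := fun X Y =>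
    hodd.of_dvd_nat (dvd_trans (Subgroup.relIndex_dvd_card X Y)
      (Subgroup.card_subgroup_dvd_card Y))
  have hrel1 : ∀ X Y : Subgroup L, X < Y → 1 < X.relIndex Y := by
    intro X Y hXY
    have h0 : X.relIndex Y ≠ 0 := Subgroup.index_ne_zero_of_finite
    have h1 : X.relIndex Y ≠ 1 := fun h => not_le_of_gt hXY (Subgroup.relIndex_eq_one.1 h)
    omega
  have ha : (∃ N : Subgroup L, N.Normal ∧ ⁅K, K⁆ ⊔ M < N ∧ N < K) →
      IsCoherent (inducedIrrAbove K M) {1}ᶜ τ := by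
    rintro ⟨N, hNn, hH₁N, hNK⟩
    haveI := hNn
    apply hb
    have e1 := Subgroup.relIndex_mul_relIndex (⁅K, K⁆ ⊔ M) N K hH₁N.le hNK.le
    have d1 := frob_dvd K (⁅K, K⁆ ⊔ M) N hH₁N.le hNK.le hcommH₁ hfrob
    have d2 := frob_dvd K (⁅K, K⁆ ⊔ M) K hH₁K.le le_rfl hcommH₁ hfrob
    rw [← e1] at d2 ⊢
    exact frob_arith _ _ _ hoddK (hoddrel _ _) (hoddrel _ _) (hrel1 _ _ hH₁N) (hrel1 _ _ hNK)
      d1 d2
  rcases hgood with h | h | h | h | h
  · exact ha h
  · exact hb h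
  · by_cases hpp : ∃ p j : ℕ, p.Prime ∧ (⁅K, K⁆ ⊔ M).relIndex K = p ^ j
    · exfalso
      obtain ⟨p, j, hp, hj⟩ := hpp
      apply h
      obtain ⟨k, hk⟩ := card_eq_prime_pow_of_commutator_index hnil p j hp (by
        rw [commutator_quot_index K M hMK, hj])
      exact ⟨p, k, hp, hk⟩
    · exact ha (exists_normal_between K _ hH₁K hcommH₁ hpp)
  · exact hd h
  · obtain ⟨p, m, hp, hKM, hdvd⟩ := h
    by_cases hbig : 4 * K.index ^ 2 + 1 < (⁅K, K⁆ ⊔ M).relIndex K
    · exact hb hbig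
    · push_neg at hbig
      have e1 := Subgroup.relIndex_mul_relIndex M (⁅K, K⁆ ⊔ M) K hMH₁ hH₁K.le
      have hcdvd : (⁅K, K⁆ ⊔ M).relIndex K ∣ p ^ m := by
        rw [← hKM, ← e1]
        exact dvd_mul_left _ _
      obtain ⟨j, hjm, hj⟩ := (Nat.dvd_prime_pow hp).1 hcdvd
      have hc1 := hrel1 _ _ hH₁K
      have hj0 : j ≠ 0 := by
        intro h0
        rw [hj, h0, pow_zero] at hc1
        omega
      have hpodd : Odd p := by
        have : p ∣ (⁅K, K⁆ ⊔ M).relIndex K := by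
          rw [hj]
          exact dvd_pow_self p hj0
        exact (hoddrel _ _).of_dvd_nat this
      have hj1 : j ≤ 1 := prime_pow_arith K.index p j hp hoddK hpodd hdvd (by
        rw [← hj]
        exact hbig)
      have hj' : j = 1 := by omega
      rw [hj', pow_one] at hj
      apply hd
      exact commutator_le_of_quot_commutator_eq_bot K M
        (commutator_eq_bot_of_index_prime hnil p hp (by rw [commutator_quot_index K M hMK, hj]))

end Cfsg.Agent.S1521
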