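import Cfsg.Statements.S1522
import Mathlib
import Cfsg.Agent.S1517
import Cfsg.Agent.S1519
import Cfsg.Agent.S1521
import Cfsg.Agent.Helper10.CohAbove
import Cfsg.Agent.Helper10.FrobQuot
import Cfsg.Agent.Helper10.IrrCoh
-- import your own Cfsg.Agent.* helpers here

set_option autoImplicit false
open Cfsg

namespace Cfsg.Agent.S1522


open Cfsg.Agent Cfsg.Agent.Helper10

open scoped ComplexConjugate


/-- Let K be a nilpotent normal subgroup of the finite group L of odd order with [K,K] < K < L and L/[K,K] a Frobenius group with kernel K/[K,K] (elements of K outside [K,K] are centralised modulo [K,K] only from inside K); let (S, τ, R) be a coherence system from L to G with S the functions induced from non-principal irreducible characters of K. Let Z be a nontrivial normal subgroup of L contained in the centre of K, and suppose every member of S outside S(Z) is an irreducible character of L. Then S minus S(Z) is the set of irreducible characters χ of L with χ z ≠ χ 1 for some z ∈ Z, and it is coherent.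 -/
theorem result {L : Type*} [Group L] [Fintype L] {G : Type*} [Group G] [Fintype G] (K : Subgroup L) [hK : K.Normal] (hsolv : Group.IsSolvable K) (τ : (L → ℂ) → (G → ℂ)) (R : (L → ℂ) → Finset (G → ℂ)) (hS : Cfsg.IsCoherenceSystem (Cfsg.inducedIrrAbove K ⊥) τ R) (hodd : Odd (Nat.card L)) (hnil : Group.IsNilpotent K) (hH₁K : ⁅K, K⁆ < K) (hKL : K < ⊤) (hfrob : ∀ k ∈ K, k ∉ ⁅K, K⁆ → ∀ x : L, x * k * x⁻¹ * k⁻¹ ∈ ⁅K, K⁆ → x ∈ K) (Z : Subgroup L) [Z.Normal] (hZ1 : Z ≠ ⊥) (hZK : Z ≤ K) (hZc : ∀ z ∈ Z, ∀ k ∈ K, z * k = k * z) (hirr : ∀ χ ∈ Cfsg.inducedIrrAbove K ⊥ \ Cfsg.inducedIrrAbove K Z, Cfsg.IsIrrCharacter L χ) : Cfsg.inducedIrrAbove K ⊥ \ Cfsg.inducedIrrAbove K Z = {χ | Cfsg.IsIrrCharacter L χ ∧ ∃ z ∈ Z, χ z ≠ χ 1} ∧ Cfsg.IsCoherent (Cfsg.inducedIrrAbove K ⊥ \ Cfsg.inducedIrrAbove K Z) {1}ᶜ τ := by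
  classical
  haveI : Fintype K := Fintype.ofFinite K
  haveI : Finite (IrrCharacter K) := Helper24.finite_irrCharacter
  haveI : Fintype (IrrCharacter K) := Fintype.ofFinite _
  have hmemT : ∀ θ : K → ℂ, IsIrrCharacter K θ → θ ≠ (fun _ => 1) →
      (indFun K θ ∈ inducedIrrAbove K ⊥ \ inducedIrrAbove K Z ↔
        ¬ ∀ a : K, (a : L) ∈ Z → θ a = θ 1) := by
    intro θ hθ hne
    rw [Set.mem_diff, indFun_mem_above_iff K Z hZK hθ hne]
    constructor
    · exact fun h => h.2
    · intro h
      exact ⟨⟨θ, hθ, hne, fun a ha => by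
        have : a = 1 := OneMemClass.coe_eq_one.1 (Subgroup.mem_bot.1 ha)
        rw [this], rfl⟩, h⟩
  have hnotker_ne : ∀ θ : K → ℂ, (¬ ∀ a : K, (a : L) ∈ Z → θ a = θ 1) → θ ≠ (fun _ => 1) := by
    intro θ h hθ
    apply h
    intro a _
    rw [hθ]
  have part1 : inducedIrrAbove K ⊥ \ inducedIrrAbove K Z =
      {χ | IsIrrCharacter L χ ∧ ∃ z ∈ Z, χ z ≠ χ 1} := by
    ext χ
    constructor
    · intro hχ
      refine ⟨hirr χ hχ, ?_⟩
      obtain ⟨θ, hθ, hne, -, rfl⟩ := hχ.1
      by_contra hcon
      push_neg at hcon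
      exact (hmemT θ hθ hne).1 hχ ((S1487.result Z K hZK θ hθ).2 hcon)
    · rintro ⟨hχ, z, hz, hzne⟩
      have hχc := Helper24.isCharacter_of_irr hχ
      have hres : IsCharacter K (fun k : K => χ k) := Helper24.isCharacter_restrict K hχc
      have hexp := Helper2.class_fn_expansion (Helper2.IsCharacter.isClassFunction hres)
      have h1 : χ z = ∑ θ : IrrCharacter K,
          classInner (fun k : K => χ k) (θ : K → ℂ) * (θ : K → ℂ) ⟨z, hZK hz⟩ := by
        have := congrFun hexp ⟨z, hZK hz⟩
        simpa only [Finset.sum_apply, Pi.smul_apply, smul_eq_mul] using this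
      have h2 : χ 1 = ∑ θ : IrrCharacter K,
          classInner (fun k : K => χ k) (θ : K → ℂ) * (θ : K → ℂ) 1 := by
        have := congrFun hexp 1
        simpa only [Finset.sum_apply, Pi.smul_apply, smul_eq_mul, OneMemClass.coe_one] using this
      have hex : ∃ θ : IrrCharacter K, classInner (fun k : K => χ k) (θ : K → ℂ) ≠ 0 ∧
          (θ : K → ℂ) ⟨z, hZK hz⟩ ≠ (θ : K → ℂ) 1 := by
        by_contra hcon
        push_neg at hcon
        apply hzne
        rw [h1, h2]
        refine Finset.sum_congr rfl fun θ _ => ?_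
        by_cases h0 : classInner (fun k : K => χ k) (θ : K → ℂ) = 0
        · rw [h0, zero_mul, zero_mul]
        · rw [hcon θ h0]
      obtain ⟨θ, hθ0, hθz⟩ := hex
      have hθne : (θ : K → ℂ) ≠ fun _ => 1 := by
        intro h
        apply hθz
        rw [h]
      have hnk : ¬ ∀ a : K, (a : L) ∈ Z → (θ : K → ℂ) a = (θ : K → ℂ) 1 :=
        fun h => hθz (h ⟨z, hZK hz⟩ hz)
      have hT := (hmemT θ θ.2 hθne).2 hnk
      have hirrInd := hirr _ hT
      have hfr := Helper2.frobenius_reciprocity K (θ : K → ℂ) χ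
        (Helper2.IsIrrCharacter.isClassFunction hχ)
      have hne0 : classInner (indFun K (θ : K → ℂ)) χ ≠ 0 := by
        rw [hfr, ← Helper2.classInner_conj_symm]
        exact (map_ne_zero _).2 hθ0
      have hcl := Helper2.classInner_irr hirrInd hχ
      by_cases heq : indFun K (θ : K → ℂ) = χ
      · rw [← heq]
        exact hT
      · rw [if_neg heq] at hcl
        exact absurd hcl hne0
  refine ⟨part1, ?_⟩
  obtain ⟨z₀, hz₀, hz₀1⟩ : ∃ z ∈ Z, z ≠ 1 := by
    by_contra hcon
    push_neg at hcon
    exact hZ1 ((Subgroup.eq_bot_iff_forall Z).2 hcon)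
  have hTne : (inducedIrrAbove K ⊥ \ inducedIrrAbove K Z).Nonempty := by
    haveI : Finite (IrrCharacter L) := Helper24.finite_irrCharacter
    haveI : Fintype (IrrCharacter L) := Fintype.ofFinite _
    have h1 := sum_irr_ker_mul (⊥ : Subgroup L) z₀ Finset.univ (by
      intro θ
      simp)
    have h2 := sum_irr_ker_mul (⊥ : Subgroup L) (1 : L) Finset.univ (by
      intro θ
      simp)
    rw [if_neg (by rwa [Subgroup.mem_bot])] at h1
    rw [if_pos (one_mem _), Subgroup.index_bot] at h2
    have hex : ∃ χ : IrrCharacter L, (χ : L → ℂ) z₀ ≠ (χ : L → ℂ) 1 := by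
      by_contra hcon
      push_neg at hcon
      have : (Nat.card L : ℂ) = 0 := by
        rw [← h2, ← h1]
        exact Finset.sum_congr rfl fun χ _ => by rw [hcon χ]
      exact (by exact_mod_cast Nat.card_pos.ne' : (Nat.card L : ℂ) ≠ 0) this
    obtain ⟨χ, hχ⟩ := hex
    refine ⟨χ, ?_⟩
    rw [part1]
    exact ⟨χ.2, z₀, hz₀, hχ⟩
  have hTconj : ∀ χ ∈ inducedIrrAbove K ⊥ \ inducedIrrAbove K Z,
      conjFun χ ∈ inducedIrrAbove K ⊥ \ inducedIrrAbove K Z := by
    intro χ hχ
    refine ⟨inducedIrrAbove_conj K ⊥ hχ.1, fun h => hχ.2 ?_⟩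
    have := inducedIrrAbove_conj K Z h
    rwa [conjFun_conjFun] at this
  have hT := cohSys_mono hS Set.diff_subset hTne hTconj
  by_cases hgood : (∃ N : Subgroup L, N.Normal ∧ ⁅K, K⁆ < N ∧ N < K) ∨
      4 * K.index ^ 2 + 1 < (⁅K, K⁆).relIndex K ∨
      (¬ ∃ p m : ℕ, p.Prime ∧ (⊥ : Subgroup L).relIndex K = p ^ m) ∨ ⁅K, K⁆ ≤ ⊥ ∨
      (∃ p m : ℕ, p.Prime ∧ (⊥ : Subgroup L).relIndex K = p ^ m ∧ K.index ∣ p - 1)
  · have hcohS : IsCoherent (inducedIrrAbove K ⊥) {1}ᶜ τ :=
      S1521.result K hsolv τ R hS hodd ⊥ bot_le (haveI := hnil; inferInstance) ⁅K, K⁆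
        (sup_bot_eq _).symm hH₁K hKL hfrob hgood
    exact isCoherent_of_subset hcohS Set.diff_subset (cohSys_exists_ne_zero hT)
  · have hpp : ∃ p m : ℕ, p.Prime ∧ (⊥ : Subgroup L).relIndex K = p ^ m := by
      by_contra h
      exact hgood (Or.inr (Or.inr (Or.inl h)))
    obtain ⟨p, m, hp, hpm⟩ := hpp
    rw [Subgroup.relIndex_bot_left] at hpm
    have he_pos : 0 < K.index := Nat.pos_of_ne_zero Subgroup.index_ne_zero_of_finite
    have hpe : ¬ p ∣ K.index := by
      intro hpe
      have d := frob_dvd K ⁅K, K⁆ K (Subgroup.commutator_le_self K) le_rfl le_rfl hfrob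
      have hc_dvd : (⁅K, K⁆).relIndex K ∣ p ^ m := by
        rw [← hpm]
        exact Subgroup.relIndex_dvd_card _ _
      obtain ⟨j, -, hj⟩ := (Nat.dvd_prime_pow hp).1 hc_dvd
      have hj0 : j ≠ 0 := by
        intro h0
        rw [h0, pow_zero] at hj
        exact not_le_of_gt hH₁K (Subgroup.relIndex_eq_one.1 hj)
      have hpc : p ∣ (⁅K, K⁆).relIndex K := by
        rw [hj]
        exact dvd_pow_self p hj0
      have hp1 : p ∣ (⁅K, K⁆).relIndex K - 1 := dvd_trans hpe d
      have hc1 : 1 ≤ (⁅K, K⁆).relIndex K :=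
        Nat.one_le_iff_ne_zero.2 Subgroup.index_ne_zero_of_finite
      have h := Nat.dvd_sub hpc hp1
      have e1 : (⁅K, K⁆).relIndex K - ((⁅K, K⁆).relIndex K - 1) = 1 := by omega
      rw [e1] at h
      exact hp.one_lt.ne' (Nat.dvd_one.1 h)
    have hp3 : 3 ≤ p := by
      have hm0 : m ≠ 0 := by
        intro h0
        rw [h0, pow_zero] at hpm
        have : K = ⊥ := Subgroup.card_eq_one.1 hpm
        rw [this] at hH₁K
        exact not_lt_bot hH₁K
      have hpL : p ∣ Nat.card L :=
        dvd_trans (dvd_trans (dvd_pow_self p hm0) (by rw [← hpm]))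
          (Subgroup.card_subgroup_dvd_card K)
      have hpodd : Odd p := hodd.of_dvd_nat hpL
      have := hp.two_le
      rcases hpodd with ⟨r, hr⟩
      omega
    obtain ⟨TZ, hTZ⟩ : ∃ TZ : Finset (IrrCharacter K), ∀ θ : IrrCharacter K, θ ∈ TZ ↔
        ¬ ∀ a : K, (a : L) ∈ Z → (θ : K → ℂ) a = (θ : K → ℂ) 1 :=
      ⟨Finset.univ.filter (fun θ : IrrCharacter K =>
        ¬ ∀ a : K, (a : L) ∈ Z → (θ : K → ℂ) a = (θ : K → ℂ) 1), fun θ => by
        rw [Finset.mem_filter]
        simp only [Finset.mem_univ, true_and]⟩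
    obtain ⟨FT, hFTdef⟩ : ∃ FT : Finset (L → ℂ),
        FT = TZ.image (fun θ : IrrCharacter K => indFun K (θ : K → ℂ)) := ⟨_, rfl⟩
    have hFTmem : ∀ φ, φ ∈ FT ↔ ∃ θ ∈ TZ, indFun K (θ : K → ℂ) = φ := fun φ => by
      rw [hFTdef, Finset.mem_image]
    have hFT : ∀ φ, φ ∈ FT ↔ φ ∈ inducedIrrAbove K ⊥ \ inducedIrrAbove K Z := by
      intro φ
      rw [hFTmem]
      constructor
      · rintro ⟨θ, hθ, rfl⟩
        exact (hmemT θ θ.2 (hnotker_ne _ ((hTZ θ).1 hθ))).2 ((hTZ θ).1 hθ)
      · intro hφ
        obtain ⟨θ, hθ, hne, -, rfl⟩ := hφ.1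
        exact ⟨⟨θ, hθ⟩, (hTZ _).2 ((hmemT θ hθ hne).1 hφ), rfl⟩
    have hd : ∀ φ ∈ inducedIrrAbove K ⊥ \ inducedIrrAbove K Z,
        φ 1 = ((charDegree φ : ℕ) : ℂ) :=
      fun φ hφ => Helper24.charDegree_spec (hT.isCharacter φ hφ)
    have hn : ∀ φ ∈ inducedIrrAbove K ⊥ \ inducedIrrAbove K Z,
        classInner φ φ = (((fun _ => 1 : (L → ℂ) → ℕ) φ : ℕ) : ℂ) := by
      intro φ hφ
      rw [Helper2.classInner_irr (hirr φ hφ) (hirr φ hφ), if_pos rfl]
      simp
    have hdegInd : ∀ θ : IrrCharacter K, charDegree (indFun K (θ : K → ℂ)) =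
        K.index * charDegree (θ : K → ℂ) :=
      fun θ => charDegree_indFun K (Helper24.isCharacter_of_irr θ.2)
    have hdegpow : ∀ θ : IrrCharacter K, ∃ j, charDegree (θ : K → ℂ) = p ^ j := by
      intro θ
      have := Helper2.irr_degree_dvd_card θ.2
      rw [hpm] at this
      obtain ⟨j, -, hj⟩ := (Nat.dvd_prime_pow hp).1 this
      exact ⟨j, hj⟩
    have hconjdeg : ∀ φ : L → ℂ, charDegree (conjFun φ) = charDegree φ := by
      intro φ
      unfold charDegree
      show ⌊((starRingEnd ℂ) (φ 1)).re⌋₊ = _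
      rw [Complex.conj_re]
    have hFTne : FT.Nonempty := by
      obtain ⟨χ, hχ⟩ := hTne
      exact ⟨χ, (hFT χ).2 hχ⟩
    obtain ⟨χ₁, hχ₁, hmin⟩ := Finset.exists_min_image FT (fun φ => charDegree φ) hFTne
    obtain ⟨θ₁, hθ₁, hχ₁eq⟩ := (hFTmem χ₁).1 hχ₁
    have hFconj : ∀ D : ℕ, ∀ φ ∈ FT.filter (fun φ => charDegree φ < D),
        conjFun φ ∈ FT.filter (fun φ => charDegree φ < D) := by
      intro D φ hφ
      rw [Finset.mem_filter] at hφ ⊢
      exact ⟨(hFT _).2 (hTconj φ ((hFT φ).1 hφ.1)), by rw [hconjdeg]; exact hφ.2⟩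
    have hFsub : ∀ D : ℕ, (↑(FT.filter (fun φ => charDegree φ < D)) : Set (L → ℂ)) ⊆
        inducedIrrAbove K ⊥ \ inducedIrrAbove K Z := by
      intro D φ hφ
      rw [Finset.mem_coe, Finset.mem_filter] at hφ
      exact (hFT φ).1 hφ.1
    have hK2 : ∑ θ ∈ TZ, (charDegree (θ : K → ℂ)) ^ 2 + (Z.subgroupOf K).index = Nat.card K := by
      have h := sum_deg_sq_not_ker (Z.subgroupOf K) TZ (fun θ => hTZ θ)
      have e : ∀ θ ∈ TZ, (θ : K → ℂ) 1 * (θ : K → ℂ) 1 =
          (((charDegree (θ : K → ℂ)) ^ 2 : ℕ) : ℂ) := by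
        intro θ _
        rw [Helper24.charDegree_spec (Helper24.isCharacter_of_irr θ.2)]
        push_cast
        ring
      rw [Finset.sum_congr rfl e] at h
      exact_mod_cast h
    have hidx_dvd : (Z.subgroupOf K).index ∣ p ^ m := by
      rw [← hpm]
      exact Subgroup.index_dvd_card _
    have hclaim : ∀ D, charDegree χ₁ + 1 ≤ D →
        IsCoherent (↑(FT.filter (fun φ => charDegree φ < D)) : Set (L → ℂ)) {1}ᶜ τ := by
      intro D hD
      induction D, hD using Nat.le_induction with
      | base =>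
        apply S1517.result _ τ R (cohSys_mono hT (hFsub _) ⟨χ₁, by
          rw [Finset.mem_coe, Finset.mem_filter]
          exact ⟨hχ₁, Nat.lt_succ_self _⟩⟩ (fun φ hφ => by
          rw [Finset.mem_coe] at hφ ⊢
          exact hFconj _ φ hφ))
        intro φ hφ ψ hψ
        rw [Finset.mem_coe, Finset.mem_filter] at hφ hψ
        have e1 : charDegree φ = charDegree χ₁ := le_antisymm (by omega) (hmin φ hφ.1)
        have e2 : charDegree ψ = charDegree χ₁ := le_antisymm (by omega) (hmin ψ hψ.1)
        rw [hd φ ((hFT φ).1 hφ.1), hd ψ ((hFT ψ).1 hψ.1), e1, e2]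
      | succ D hD ih =>
        refine S1519.coherent_extend (inducedIrrAbove K ⊥ \ inducedIrrAbove K Z) τ R hT
          (fun φ => charDegree φ) (fun _ => 1) hd hn (FT.filter (fun φ => charDegree φ < D))
          (FT.filter (fun φ => charDegree φ < D + 1)) ?_ (hFsub _) (hFconj _) (hFconj _) ih χ₁
          ?_ ?_
        · intro φ hφ
          rw [Finset.mem_filter] at hφ ⊢
          exact ⟨hφ.1, by omega⟩
        · rw [Finset.mem_filter]
          exact ⟨hχ₁, by omega⟩
        · intro χ hχ hχn
          rw [Finset.mem_filter] at hχ hχn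
          have hχD : charDegree χ = D := by
            have h1 := hχ.2
            have h2 : ¬ charDegree χ < D := fun h => hχn ⟨hχ.1, h⟩
            omega
          obtain ⟨θ, hθTZ, rfl⟩ := (hFTmem χ).1 hχ.1
          obtain ⟨k, hk⟩ := hdegpow θ
          obtain ⟨k₀, hk₀⟩ := hdegpow θ₁
          have hD' : D = K.index * p ^ k := by rw [← hχD, hdegInd, hk]
          have hd₀ : charDegree χ₁ = K.index * p ^ k₀ := by rw [← hχ₁eq, hdegInd, hk₀]
          have hkk : k₀ < k := by
            have h1 : K.index * p ^ k₀ < K.index * p ^ k := by rw [← hd₀, ← hD']; omega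
            have h2 : p ^ k₀ < p ^ k := lt_of_mul_lt_mul_left h1 (Nat.zero_le _)
            exact (Nat.pow_lt_pow_iff_right hp.one_lt).1 h2
          obtain ⟨T', hT'⟩ : ∃ T' : Finset (IrrCharacter K), ∀ θ' : IrrCharacter K, θ' ∈ T' ↔
              θ' ∈ TZ ∧ charDegree (θ' : K → ℂ) < p ^ k :=
            ⟨TZ.filter (fun θ' : IrrCharacter K => charDegree (θ' : K → ℂ) < p ^ k),
              fun θ' => by rw [Finset.mem_filter]⟩
          have hFD : FT.filter (fun φ => charDegree φ < D) =
              T'.image (fun θ : IrrCharacter K => indFun K (θ : K → ℂ)) := by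
            ext φ
            rw [Finset.mem_filter, Finset.mem_image, hFTmem]
            constructor
            · rintro ⟨⟨θ', hθ', rfl⟩, hlt⟩
              refine ⟨θ', (hT' θ').2 ⟨hθ', ?_⟩, rfl⟩
              rw [hdegInd, hD'] at hlt
              exact lt_of_mul_lt_mul_left hlt (Nat.zero_le _)
            · rintro ⟨θ', hθ', rfl⟩
              refine ⟨⟨θ', ((hT' θ').1 hθ').1, rfl⟩, ?_⟩
              rw [hdegInd, hD']
              exact Nat.mul_lt_mul_of_pos_left ((hT' θ').1 hθ').2 he_pos
          have hmemT' : ∀ θ' ∈ T', indFun K (θ' : K → ℂ) ∈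
              inducedIrrAbove K ⊥ \ inducedIrrAbove K Z := by
            intro θ' hθ'
            exact (hFT _).1 ((hFTmem _).2 ⟨θ', ((hT' θ').1 hθ').1, rfl⟩)
          have hA := sum_deg_sq_div_norm_stable K T' (by
            intro θ' hθ' x
            refine ⟨⟨Helper6.conjFun K x (θ' : K → ℂ), Helper6.isIrrCharacter_conjFun K x θ'.2⟩,
              ?_, rfl⟩
            rw [hT', hTZ]
            obtain ⟨h1, h2⟩ := (hT' θ').1 hθ'
            constructor
            · intro h
              apply (hTZ θ').1 h1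
              intro a ha
              have hmem : x⁻¹ * (a : L) * x ∈ K := by
                have := hK.conj_mem (a : L) a.2 x⁻¹
                simpa using this
              have hmemZ : x⁻¹ * (a : L) * x ∈ Z := by
                have := ‹Z.Normal›.conj_mem (a : L) ha x⁻¹
                simpa using this
              have h3 := h ⟨x⁻¹ * (a : L) * x, hmem⟩ hmemZ
              have h4 : Helper6.conjFun K x (θ' : K → ℂ) ⟨x⁻¹ * (a : L) * x, hmem⟩ =
                  (θ' : K → ℂ) a := by
                rw [Helper6.conjFun_apply]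
                exact congrArg (θ' : K → ℂ) (Subtype.ext (by
                  show x * (x⁻¹ * (a : L) * x) * x⁻¹ = (a : L)
                  group))
              rw [← h4]
              rw [← Helper6.conjFun_one_apply K x (θ' : K → ℂ)]
              exact h3
            · show charDegree (Helper6.conjFun K x (θ' : K → ℂ)) < p ^ k
              have : charDegree (Helper6.conjFun K x (θ' : K → ℂ)) =
                  charDegree (θ' : K → ℂ) := by
                unfold charDegree
                rw [Helper6.conjFun_one_apply]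
              rw [this]
              exact h2) (by
            intro θ' hθ' θ'' hθ'' hne
            exact hT.orthogonal _ (hmemT' θ' hθ') _ (hmemT' θ'' hθ'') hne)
          have hsumN : ∑ φ ∈ FT.filter (fun φ => charDegree φ < D), (charDegree φ) ^ 2 =
              K.index * ∑ θ' ∈ T', (charDegree (θ' : K → ℂ)) ^ 2 := by
            have hc : ((∑ φ ∈ FT.filter (fun φ => charDegree φ < D), (charDegree φ) ^ 2 : ℕ) : ℂ)
                = ((K.index * ∑ θ' ∈ T', (charDegree (θ' : K → ℂ)) ^ 2 : ℕ) : ℂ) := by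
              push_cast
              rw [hFD]
              have e1 : ∀ θ' ∈ T', ((charDegree (θ' : K → ℂ) : ℕ) : ℂ) ^ 2 =
                  (θ' : K → ℂ) 1 ^ 2 := by
                intro θ' _
                rw [Helper24.charDegree_spec (Helper24.isCharacter_of_irr θ'.2)]
              rw [Finset.sum_congr rfl e1, ← hA]
              refine Finset.sum_congr rfl fun φ hφ => ?_
              obtain ⟨θ', hθ', rfl⟩ := Finset.mem_image.1 hφ
              have hm := hmemT' θ' hθ'
              rw [Helper2.classInner_irr (hirr _ hm) (hirr _ hm), if_pos rfl, div_one, hd _ hm]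
            exact_mod_cast hc
          have he2 : K.index ^ 2 ∣ ∑ φ ∈ FT.filter (fun φ => charDegree φ < D),
              (charDegree φ) ^ 2 := by
            apply Finset.dvd_sum
            intro φ hφ
            rw [Finset.mem_filter] at hφ
            obtain ⟨θ', -, rfl⟩ := (hFTmem φ).1 hφ.1
            rw [hdegInd, mul_pow]
            exact dvd_mul_right _ _
          have hθ₁T' : θ₁ ∈ T' := by
            rw [hT']
            exact ⟨hθ₁, by rw [hk₀]; exact Nat.pow_lt_pow_right hp.one_lt hkk⟩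
          have hNpos : 0 < ∑ θ' ∈ T', (charDegree (θ' : K → ℂ)) ^ 2 := by
            have h1 : (charDegree (θ₁ : K → ℂ)) ^ 2 ≤ ∑ θ' ∈ T', (charDegree (θ' : K → ℂ)) ^ 2 :=
              Finset.single_le_sum (f := fun θ' : IrrCharacter K => (charDegree (θ' : K → ℂ)) ^ 2)
                (fun _ _ => Nat.zero_le _) hθ₁T'
            have h2 : 0 < (charDegree (θ₁ : K → ℂ)) ^ 2 := by
              rw [hk₀]
              exact pow_pos (pow_pos hp.pos _) _
            omega
          have hpN : p ^ (2 * k) ∣ ∑ θ' ∈ T', (charDegree (θ' : K → ℂ)) ^ 2 := by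
            have hsplit := Finset.sum_filter_add_sum_filter_not TZ
              (fun θ' : IrrCharacter K => charDegree (θ' : K → ℂ) < p ^ k)
              (fun θ' : IrrCharacter K => (charDegree (θ' : K → ℂ)) ^ 2)
            have hT'eq : TZ.filter (fun θ' : IrrCharacter K => charDegree (θ' : K → ℂ) < p ^ k)
                = T' := by
              ext θ'
              rw [Finset.mem_filter, hT']
            rw [hT'eq] at hsplit
            have hbig : p ^ (2 * k) ∣ ∑ θ' ∈ TZ.filter
                (fun θ' : IrrCharacter K => ¬ charDegree (θ' : K → ℂ) < p ^ k),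
                (charDegree (θ' : K → ℂ)) ^ 2 := by
              apply Finset.dvd_sum
              intro θ' hθ'
              rw [Finset.mem_filter] at hθ'
              obtain ⟨j, hj⟩ := hdegpow θ'
              have hkj : k ≤ j := by
                by_contra hcon
                push_neg at hcon
                exact hθ'.2 (by rw [hj]; exact Nat.pow_lt_pow_right hp.one_lt hcon)
              rw [hj, ← pow_mul]
              exact pow_dvd_pow p (by omega)
            have hidx : p ^ (2 * k) ∣ (Z.subgroupOf K).index := by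
              obtain ⟨a, -, ha⟩ := (Nat.dvd_prime_pow hp).1 hidx_dvd
              have hle := irr_deg_sq_le_index_central θ.2 (Z.subgroupOf K) (by
                intro z hz k'
                apply Subtype.ext
                exact hZc z (Subgroup.mem_subgroupOf.1 hz) k' k'.2)
              rw [hk, ha, ← pow_mul] at hle
              rw [ha]
              exact pow_dvd_pow p ((Nat.pow_le_pow_iff_right hp.one_lt).1 (by
                rw [mul_comm]
                exact hle))
            have hcard : p ^ (2 * k) ∣ Nat.card K :=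
              dvd_trans hidx (Subgroup.index_dvd_card _)
            rw [← hK2, ← hsplit, add_assoc] at hcard
            exact (Nat.dvd_add_left (Dvd.dvd.add hbig hidx)).1 hcard
          have hcore := core_arith K.index p k k₀ _ _ hp hp3 hpe he_pos hkk hsumN he2 hpN hNpos
          refine ⟨?_, ?_⟩
          · show charDegree χ₁ ∣ charDegree (indFun K (θ : K → ℂ))
            rw [hd₀, hχD, hD']
            exact Nat.mul_dvd_mul_left _ (pow_dvd_pow p hkk.le)
          · show (2 * ((charDegree (indFun K (θ : K → ℂ)) : ℕ) : ℝ) * ((charDegree χ₁ : ℕ) : ℝ)) <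
              ∑ φ ∈ FT.filter (fun φ => charDegree φ < D),
                (((charDegree φ : ℕ) : ℝ) ^ 2 / (((1 : ℕ)) : ℝ))
            have e3 : charDegree (indFun K (θ : K → ℂ)) = K.index * p ^ k := by
              rw [hdegInd, hk]
            rw [hd₀, e3]
            have hc : ((2 * (K.index * p ^ k) * (K.index * p ^ k₀) : ℕ) : ℝ) <
                ((∑ φ ∈ FT.filter (fun φ => charDegree φ < D), (charDegree φ) ^ 2 : ℕ) : ℝ) := by
              exact_mod_cast hcore
            push_cast at hc
            simp only [Nat.cast_one, div_one]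
            push_cast
            exact hc
    have hfin : ∃ D, charDegree χ₁ + 1 ≤ D ∧ FT.filter (fun φ => charDegree φ < D) = FT := by
      refine ⟨FT.sup (fun φ => charDegree φ) + 1 + charDegree χ₁, by omega, ?_⟩
      apply Finset.filter_true_of_mem
      intro φ hφ
      have := Finset.le_sup (f := fun φ => charDegree φ) hφ
      have h2 : charDegree φ ≤ FT.sup (fun φ => charDegree φ) := this
      omega
    obtain ⟨D, hD1, hD2⟩ := hfin
    have hres := hclaim D hD1
    rw [hD2] at hres
    have hset : (↑FT : Set (L → ℂ)) = inducedIrrAbove K ⊥ \ inducedIrrAbove K Z := by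
      ext φ
      rw [Finset.mem_coe]
      exact hFT φ
    rw [hset] at hres
    exact hres

end Cfsg.Agent.S1522
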