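import Cfsg.Statements.S1525
import Cfsg.Agent.Helper10.DadeCount
-- import your own Cfsg.Agent.* helpers here

set_option autoImplicit false
open Cfsg

namespace Cfsg.Agent.S1525



/-- Under the Dade hypothesis for (A, L, H), let χ be a class function of G and let ψ be a function on L whose value at each a ∈ A is the average of χ over the coset a·H(a). Then (1/|G|) Σ |χ g|² over the elements g of G conjugate into some coset a·H(a) with a ∈ A is at least (1/|L|) Σ_{a ∈ A ∩ L} |ψ a|². -/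
theorem result {G : Type*} [Group G] [Fintype G] (A : Set G) (L : Subgroup G) [Fintype L] (H : G → Subgroup G) (hD : Cfsg.DadeHypothesis A L H) (χ : G → ℂ) (hχ : Cfsg.IsClassFunction G χ) (ψ : L → ℂ) (hψ : ∀ a : L, (a : G) ∈ A → ψ a = (Nat.card (H a) : ℂ)⁻¹ * ∑ᶠ u ∈ (H a : Set G), χ (a * u)) : (Nat.card L : ℝ)⁻¹ * ∑ᶠ a ∈ {a : L | (a : G) ∈ A}, ‖ψ a‖ ^ 2 ≤ (Nat.card G : ℝ)⁻¹ * ∑ᶠ g ∈ {g : G | ∃ a ∈ A, ∃ u ∈ H a, ∃ x : G, x * g * x⁻¹ = a * u}, ‖χ g‖ ^ 2 := by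
  classical
  obtain ⟨Dset, hDset⟩ : ∃ Dset : Finset G, ∀ g, g ∈ Dset ↔
      ∃ a ∈ A, ∃ u ∈ H a, ∃ x : G, x * g * x⁻¹ = a * u :=
    ⟨Finset.univ.filter (fun g => ∃ a ∈ A, ∃ u ∈ H a, ∃ x : G, x * g * x⁻¹ = a * u), by simp⟩
  obtain ⟨Aset, hAset⟩ : ∃ Aset : Finset L, ∀ a : L, a ∈ Aset ↔ (a : G) ∈ A :=
    ⟨Finset.univ.filter (fun a : L => (a : G) ∈ A), by simp⟩
  obtain ⟨Hset, hHset⟩ : ∃ Hset : G → Finset G, ∀ a u : G, u ∈ Hset a ↔ u ∈ H a :=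
    ⟨fun a => Finset.univ.filter (fun u => u ∈ H a), by simp⟩
  have hcard : ∀ a : G, (Hset a).card = Nat.card (H a) := by
    intro a
    rw [Nat.card_eq_fintype_card, Fintype.card_subtype]
    congr 1
    ext u
    simp only [Finset.mem_filter, Finset.mem_univ, true_and]
    exact hHset a u
  have hfinsum : ∀ (a : G) (f : G → ℂ), ∑ᶠ u ∈ (H a : Set G), f u = ∑ u ∈ Hset a, f u := by
    intro a f
    refine finsum_cond_eq_sum_of_cond_iff f ?_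
    intro u _
    exact (hHset a u).symm
  have hfinA : ∑ᶠ a ∈ {a : L | (a : G) ∈ A}, ‖ψ a‖ ^ 2 = ∑ a ∈ Aset, ‖ψ a‖ ^ 2 := by
    refine finsum_cond_eq_sum_of_cond_iff _ ?_
    intro a _
    exact (hAset a).symm
  have hfinD : ∑ᶠ g ∈ {g : G | ∃ a ∈ A, ∃ u ∈ H a, ∃ x : G, x * g * x⁻¹ = a * u}, ‖χ g‖ ^ 2 =
      ∑ g ∈ Dset, ‖χ g‖ ^ 2 := by
    refine finsum_cond_eq_sum_of_cond_iff _ ?_
    intro g _
    exact (hDset g).symm
  rw [hfinA, hfinD]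
  have hF : IsClassFunction G (fun g => (((‖χ g‖ ^ 2 : ℝ)) : ℂ)) := by
    intro g h
    show (((‖χ (h * g * h⁻¹)‖ ^ 2 : ℝ)) : ℂ) = _
    rw [hχ g h]
  have hcount := Helper10.dade_count A L H hD _ hF Dset hDset Aset hAset Hset hHset
  have hcountR : (Nat.card L : ℝ) * ∑ g ∈ Dset, ‖χ g‖ ^ 2 =
      (Nat.card G : ℝ) * ∑ a ∈ Aset, (Nat.card (H a) : ℝ)⁻¹ *
        ∑ u ∈ Hset a, ‖χ (a * u)‖ ^ 2 := by
    have h := hcount
    apply Complex.ofReal_injective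
    push_cast at h ⊢
    exact h
  have hterm : ∀ a ∈ Aset, ‖ψ a‖ ^ 2 ≤
      (Nat.card (H a) : ℝ)⁻¹ * ∑ u ∈ Hset a, ‖χ (a * u)‖ ^ 2 := by
    intro a ha
    have haA := (hAset a).1 ha
    rw [hψ a haA, hfinsum (a : G) (fun u => χ ((a : G) * u)), norm_mul, norm_inv,
      Complex.norm_natCast, mul_pow]
    have hH0 : (0 : ℝ) < (Nat.card (H (a : G)) : ℝ) := by exact_mod_cast Nat.card_pos
    have h1 : ‖∑ u ∈ Hset (a : G), χ ((a : G) * u)‖ ^ 2 ≤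
        (Nat.card (H (a : G)) : ℝ) * ∑ u ∈ Hset (a : G), ‖χ ((a : G) * u)‖ ^ 2 := by
      have h2 := norm_sum_le (Hset (a : G)) (fun u => χ ((a : G) * u))
      have h3 : (∑ u ∈ Hset (a : G), ‖χ ((a : G) * u)‖) ^ 2 ≤
          ((Hset (a : G)).card : ℝ) * ∑ u ∈ Hset (a : G), ‖χ ((a : G) * u)‖ ^ 2 :=
        sq_sum_le_card_mul_sum_sq
      rw [hcard] at h3
      refine le_trans ?_ h3
      exact pow_le_pow_left₀ (norm_nonneg _) h2 2
    calc ((Nat.card (H (a : G)) : ℝ)⁻¹) ^ 2 * ‖∑ u ∈ Hset (a : G), χ ((a : G) * u)‖ ^ 2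
        ≤ ((Nat.card (H (a : G)) : ℝ)⁻¹) ^ 2 * ((Nat.card (H (a : G)) : ℝ) *
          ∑ u ∈ Hset (a : G), ‖χ ((a : G) * u)‖ ^ 2) :=
          mul_le_mul_of_nonneg_left h1 (sq_nonneg _)
      _ = (Nat.card (H (a : G)) : ℝ)⁻¹ * ∑ u ∈ Hset (a : G), ‖χ ((a : G) * u)‖ ^ 2 := by
          field_simp
  have hsum := Finset.sum_le_sum hterm
  have hG0 : (0 : ℝ) < Nat.card G := by exact_mod_cast Nat.card_pos
  have hL0 : (0 : ℝ) < Nat.card L := by exact_mod_cast Nat.card_pos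
  have key : ∀ (x y : ℝ), (Nat.card L : ℝ) * x = (Nat.card G : ℝ) * y →
      (Nat.card G : ℝ)⁻¹ * x = (Nat.card L : ℝ)⁻¹ * y := by
    intro x y h
    field_simp
    linear_combination h
  rw [key _ _ hcountR]
  exact mul_le_mul_of_nonneg_left hsum (inv_nonneg.2 hL0.le)

end Cfsg.Agent.S1525
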