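import Cfsg.Statements.S1527
import Mathlib

set_option autoImplicit false
open Cfsg

namespace Cfsg.Agent.S1527

theorem card_filter_mem {G : Type*} [Group G] [Fintype G] (K : Subgroup G) [DecidablePred (· ∈ K)] :
    (Finset.univ.filter (· ∈ K)).card = Nat.card K := by
  rw [Nat.card_eq_fintype_card, Fintype.card_subtype]

theorem card_conj_set {G : Type*} [Group G] [Fintype G] [DecidableEq G] (K : Subgroup G)
    [DecidablePred (· ∈ K)] (hTI : Cfsg.IsTISubset (K : Set G)) :
    (Finset.univ.filter (fun g : G => g ≠ 1 ∧ ∃ x : G, x * g * x⁻¹ ∈ K)).card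
      = (Subgroup.normalizer (K : Set G)).index * (Nat.card K - 1) := by
  classical
  have hdc := Finset.sum_card_bipartiteAbove_eq_sum_card_bipartiteBelow
    (s := (Finset.univ : Finset G)) (t := (Finset.univ : Finset G))
    (r := fun x g => g ≠ 1 ∧ x * g * x⁻¹ ∈ K)
  have hL : ∀ x : G, ((Finset.univ : Finset G).bipartiteAbove (fun x g => g ≠ 1 ∧ x * g * x⁻¹ ∈ K) x).card
      = Nat.card K - 1 := by
    intro x
    have h1 : ((Finset.univ : Finset G).bipartiteAbove (fun x g => g ≠ 1 ∧ x * g * x⁻¹ ∈ K) x).card
        = ((Finset.univ.filter (· ∈ K)).erase 1).card := by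
      apply Finset.card_equiv (MulAut.conj x).toEquiv
      intro g
      simp only [Finset.bipartiteAbove, Finset.mem_filter, Finset.mem_univ, true_and,
        Finset.mem_erase, MulEquiv.toEquiv_eq_coe, MulEquiv.coe_toEquiv, MulAut.conj_apply]
      constructor
      · rintro ⟨h1, h2⟩
        refine ⟨?_, h2⟩
        intro h3
        apply h1
        have : g = x⁻¹ * (x * g * x⁻¹) * x := by group
        rw [this, h3]; simp
      · rintro ⟨h1, h2⟩
        refine ⟨?_, h2⟩
        intro h3
        apply h1
        rw [h3]; simp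
    rw [h1, Finset.card_erase_of_mem (by simp [K.one_mem]), card_filter_mem]
  have hR : ∀ g : G, ((Finset.univ : Finset G).bipartiteBelow (fun x g => g ≠ 1 ∧ x * g * x⁻¹ ∈ K) g).card
      = if g ≠ 1 ∧ ∃ x : G, x * g * x⁻¹ ∈ K then Nat.card (Subgroup.normalizer (K : Set G)) else 0 := by
    intro g
    split_ifs with hg
    · obtain ⟨hg1, x₀, hx₀⟩ := hg
      have h1 : ((Finset.univ : Finset G).bipartiteBelow (fun x g => g ≠ 1 ∧ x * g * x⁻¹ ∈ K) g).card
          = (Finset.univ.filter (· ∈ Subgroup.normalizer (K : Set G))).card := by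
        apply Finset.card_equiv (Equiv.mulRight x₀⁻¹)
        intro x
        simp only [Finset.bipartiteBelow, Finset.mem_filter, Finset.mem_univ, true_and,
          Equiv.coe_mulRight]
        have hne : x₀ * g * x₀⁻¹ ≠ 1 := by
          intro h3
          apply hg1
          have : g = x₀⁻¹ * (x₀ * g * x₀⁻¹) * x₀ := by group
          rw [this, h3]; simp
        have heq : x * g * x⁻¹ = (x * x₀⁻¹) * (x₀ * g * x₀⁻¹) * (x * x₀⁻¹)⁻¹ := by group
        constructor
        · rintro ⟨_, h2⟩
          by_contra hn
          rw [heq] at h2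
          exact hne (hTI _ hn _ hx₀ h2)
        · intro h2
          refine ⟨hg1, ?_⟩
          rw [heq]
          exact (Subgroup.mem_normalizer_iff.mp h2 _).mp hx₀
      rw [h1, card_filter_mem]
    · apply Finset.card_eq_zero.mpr
      apply Finset.filter_eq_empty_iff.mpr
      intro x _ hx
      exact hg ⟨hx.1, x, hx.2⟩
  rw [Finset.sum_congr rfl (fun x _ => hL x), Finset.sum_congr rfl (fun g _ => hR g),
    Finset.sum_const, Finset.card_univ, smul_eq_mul, ← Finset.sum_filter, Finset.sum_const,
    smul_eq_mul] at hdc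
  have hidx : (Subgroup.normalizer (K : Set G)).index * Nat.card (Subgroup.normalizer (K : Set G))
      = Fintype.card G := by
    rw [Subgroup.index_mul_card, Nat.card_eq_fintype_card]
  rw [← hidx] at hdc
  have hpos : 0 < Nat.card (Subgroup.normalizer (K : Set G)) := Nat.card_pos
  have : (Finset.univ.filter (fun g : G => g ≠ 1 ∧ ∃ x : G, x * g * x⁻¹ ∈ K)).card
      * Nat.card (Subgroup.normalizer (K : Set G))
      = (Subgroup.normalizer (K : Set G)).index * (Nat.card K - 1)
        * Nat.card (Subgroup.normalizer (K : Set G)) := by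
    rw [← hdc]; ring
  exact Nat.eq_of_mul_eq_mul_right hpos this

/-- If subgroups H_i of a finite group G of pairwise coprime orders are TI-subsets and every non-identity element of G is conjugate into some H_i, then the order of G minus 1 equals the sum over i of [G : N_G(H_i)] times (order of H_i minus 1). -/
theorem result {G : Type*} [Group G] [Finite G] {ι : Type*} [Fintype ι] (H : ι → Subgroup G) (hcop : ∀ i j, i ≠ j → Nat.Coprime (Nat.card (H i)) (Nat.card (H j))) (hTI : ∀ i, Cfsg.IsTISubset (H i : Set G)) (hcover : ∀ g : G, g ≠ 1 → ∃ i, ∃ x : G, x * g * x⁻¹ ∈ H i) : Nat.card G - 1 = ∑ i, (Subgroup.normalizer (H i : Set G)).index * (Nat.card (H i) - 1) := by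
  classical
  have := Fintype.ofFinite G
  have hS : ∀ i, (Finset.univ.filter (fun g : G => g ≠ 1 ∧ ∃ x : G, x * g * x⁻¹ ∈ H i)).card
      = (Subgroup.normalizer (H i : Set G)).index * (Nat.card (H i) - 1) :=
    fun i => card_conj_set (H i) (hTI i)
  rw [← Finset.sum_congr rfl (fun i _ => hS i), ← Finset.card_biUnion]
  · have h1 : (Finset.univ.biUnion (fun i => Finset.univ.filter (fun g : G => g ≠ 1 ∧ ∃ x : G, x * g * x⁻¹ ∈ H i)))
        = (Finset.univ : Finset G).erase 1 := by
      ext g
      simp only [Finset.mem_biUnion, Finset.mem_univ, Finset.mem_filter, true_and, Finset.mem_erase,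
        and_true]
      constructor
      · rintro ⟨i, h1, _⟩
        exact h1
      · intro hg
        obtain ⟨i, x, hx⟩ := hcover g hg
        exact ⟨i, hg, x, hx⟩
    rw [h1, Finset.card_erase_of_mem (Finset.mem_univ _), Finset.card_univ, Nat.card_eq_fintype_card]
  · intro i _ j _ hij
    show Disjoint _ _
    rw [Finset.disjoint_left]
    intro g hgi hgj
    simp only [Finset.mem_filter, Finset.mem_univ, true_and] at hgi hgj
    obtain ⟨hg1, x, hx⟩ := hgi
    obtain ⟨_, y, hy⟩ := hgj
    apply hg1
    have ho : ∀ x : G, orderOf (x * g * x⁻¹) = orderOf g := by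
      intro x
      have := orderOf_injective (MulAut.conj x).toMonoidHom (MulAut.conj x).injective g
      simpa [MulAut.conj_apply] using this
    have h1 : orderOf g ∣ Nat.card (H i) := by
      rw [← ho x]; exact Subgroup.orderOf_dvd_natCard _ hx
    have h2 : orderOf g ∣ Nat.card (H j) := by
      rw [← ho y]; exact Subgroup.orderOf_dvd_natCard _ hy
    exact orderOf_eq_one_iff.mp (Nat.eq_one_of_dvd_coprimes (hcop i j hij) h1 h2)

end Cfsg.Agent.S1527
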