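import Cfsg.Statements.S1528
import Cfsg.Agent.Helper10.BrauerPerm
import Cfsg.Agent.Helper10.IndLemmas
import Cfsg.Agent.Helper6.Clifford
import Cfsg.Agent.Helper2.CharNat
-- import your own Cfsg.Agent.* helpers here

set_option autoImplicit false
open Cfsg

namespace Cfsg.Agent.S1528

open scoped ComplexConjugate


/-- Let N be a normal subgroup of the finite group G such that every element of G commuting with a non-identity element of N lies in N. If χ is an irreducible character of G with χ n ≠ χ 1 for some n ∈ N, then χ is the function induced from some irreducible character of N. -/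
theorem result {G : Type*} [Group G] [Fintype G] (N : Subgroup G) [N.Normal] (hC : ∀ n ∈ N, n ≠ 1 → Subgroup.centralizer ({n} : Set G) ≤ N) (χ : G → ℂ) (hχ : Cfsg.IsIrrCharacter G χ) (hker : ∃ n ∈ N, χ n ≠ χ 1) : ∃ φ : N → ℂ, Cfsg.IsIrrCharacter N φ ∧ χ = Cfsg.indFun N φ := by
  classical
  have hN : N.Normal := inferInstance
  have := Fintype.ofFinite N
  have := Helper24.finite_irrCharacter (G := N)
  have := Fintype.ofFinite (IrrCharacter N)
  have hχc := Helper24.isCharacter_of_irr hχ
  have hresc : IsCharacter N (fun n : N => χ n) := Helper24.isCharacter_restrict N hχc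
  -- a nonprincipal constituent of the restriction
  have hex : ∃ φ : IrrCharacter N, (φ : N → ℂ) ≠ (fun _ => 1) ∧
      classInner (fun n : N => χ n) (φ : N → ℂ) ≠ 0 := by
    by_contra hcon
    push Not at hcon
    have hexp := Helper2.class_fn_expansion (Helper2.IsCharacter.isClassFunction hresc)
    have hval : ∀ n : N, χ n = classInner (fun n : N => χ n) (fun _ : N => (1 : ℂ)) := by
      intro n
      have h := congrFun hexp n
      rw [Finset.sum_apply, Finset.sum_eq_single
        (⟨fun _ => 1, Helper2.isIrrCharacter_one_fun⟩ : IrrCharacter N)] at h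
      · rw [Pi.smul_apply, smul_eq_mul, mul_one] at h
        exact h
      · intro φ _ hφ
        have h1 : (φ : N → ℂ) ≠ (fun _ => 1) := by
          intro h2
          apply hφ
          exact Subtype.ext h2
        rw [Pi.smul_apply, hcon φ h1, zero_smul]
      · intro h1
        exact absurd (Finset.mem_univ _) h1
    obtain ⟨n, hn, hne⟩ := hker
    apply hne
    have h1 := hval ⟨n, hn⟩
    have h2 := hval 1
    rw [h1]
    exact h2.symm
  obtain ⟨φ, hφ1, hφne⟩ := hex
  have hφc := Helper24.isCharacter_of_irr φ.2
  -- the stabilizer of φ is N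
  have hstab : ∀ x : G, ((φ : N → ℂ) = fun h : N => (φ : N → ℂ) ⟨x * h * x⁻¹, hN.conj_mem h h.2 x⟩)
      ↔ x ∈ N := by
    intro x
    constructor
    · intro hx
      by_contra hxN
      apply hφ1
      refine Helper10.irr_eq_one_of_fixed (MulAut.conjNormal x : N ≃* N) ?_ φ.2 ?_
      · intro n hn hc
        obtain ⟨c, hc⟩ := isConj_iff.1 hc
        have hc' : ((c : G) * (x * n * x⁻¹) * (c : G)⁻¹) = n := by
          have := congrArg (Subtype.val : N → G) hc
          simpa using this
        have hmem : (c : G) * x ∈ Subgroup.centralizer ({(n : G)} : Set G) := by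
          rw [Subgroup.mem_centralizer_iff]
          intro y hy
          rw [Set.mem_singleton_iff] at hy
          rw [hy]
          have e : (n : G) * ((c : G) * x) = (c : G) * (x * n * x⁻¹) * (c : G)⁻¹ * ((c : G) * x) := by
            rw [hc']
          rw [e]
          group
        have hn' : (n : G) ≠ 1 := fun h => hn (Subtype.ext h)
        have h2 := hC n n.2 hn' hmem
        apply hxN
        have h3 : x = (c : G)⁻¹ * ((c : G) * x) := by group
        rw [h3]
        exact N.mul_mem (N.inv_mem c.2) h2
      · have e : (fun n : N => (φ : N → ℂ) ((MulAut.conjNormal x : N ≃* N) n)) =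
            fun h : N => (φ : N → ℂ) ⟨x * h * x⁻¹, hN.conj_mem h h.2 x⟩ := by
          funext n
          congr 1
        rw [e]
        exact hx.symm
    · intro hx
      funext h
      have hcl := Helper2.IsIrrCharacter.isClassFunction φ.2
      exact (hcl h ⟨x, hx⟩).symm
  have hnorm : classInner (indFun N (φ : N → ℂ)) (indFun N (φ : N → ℂ)) = 1 := by
    rw [Helper10.classInner_indFun_normal N (φ : N → ℂ) φ.2]
    have hN0 : (Nat.card N : ℂ) ≠ 0 := by exact_mod_cast Nat.card_pos.ne'
    rw [inv_mul_eq_one₀ hN0]
    congr 1
    rw [Nat.card_eq_fintype_card, Fintype.card_subtype]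
    congr 1
    ext x
    simp only [Finset.mem_filter, Finset.mem_univ, true_and]
    exact (hstab x).symm
  have hind : IsIrrCharacter G (indFun N (φ : N → ℂ)) :=
    Helper10.isIrr_of_char_norm_one (Helper2.isCharacter_indFun N hφc) hnorm
  have hinner : classInner (indFun N (φ : N → ℂ)) χ ≠ 0 := by
    rw [Helper6.classInner_indFun_eq N hφc hχc]
    exact hφne
  refine ⟨(φ : N → ℂ), φ.2, ?_⟩
  by_contra hne
  rw [Helper2.classInner_irr hind hχ, if_neg (fun h => hne h.symm)] at hinner
  exact hinner rfl

end Cfsg.Agent.S1528
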