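import Cfsg.Statements.S1529
import Cfsg.Agent.Helper10.VirtualChar

set_option autoImplicit false
open Cfsg

namespace Cfsg.Agent.S1529

theorem sign_aux {e f a b c d : ℝ} (he : e = 1 ∨ e = -1) (hf : f = 1 ∨ f = -1)
    (ha : 0 < a) (hb : 0 < b) (hc : 0 < c) (hd : 0 < d)
    (h : a * (e * b) - c * (f * d) = 0) : e = f := by
  have hab : 0 < a * b := mul_pos ha hb
  have hcd : 0 < c * d := mul_pos hc hd
  rcases he with rfl | rfl <;> rcases hf with rfl | rfl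
  · rfl
  · exfalso; nlinarith
  · exfalso; nlinarith
  · rfl

theorem result {G : Type*} [Group G] [Fintype G] (N : Subgroup G) [Fintype N] (S : Set (N → ℂ)) (hirr : ∀ χ ∈ S, Cfsg.IsIrrCharacter N χ) (htwo : ∃ χ ∈ S, ∃ ψ ∈ S, χ ≠ ψ) (τ₁ : (N → ℂ) → (G → ℂ)) (hτ₁ : Cfsg.IsLinearIsometryOn (Cfsg.zspan S) τ₁) (h0 : ∀ α ∈ Cfsg.zspan S, α 1 = 0 → τ₁ α 1 = 0) : ∃ ε : ℂ, (ε = 1 ∨ ε = -1) ∧ (∀ χ ∈ S, Cfsg.IsIrrCharacter G (ε • τ₁ χ)) ∧ (∀ χ ∈ S, ∀ ψ ∈ S, τ₁ χ = τ₁ ψ → χ = ψ) := by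
  classical
  obtain ⟨hadd, hsmul, hiso, hgen⟩ := hτ₁
  have hmem : ∀ χ ∈ S, χ ∈ zspan S := fun χ hχ => Submodule.subset_span hχ
  have hnorm : ∀ χ ∈ S, classInner (τ₁ χ) (τ₁ χ) = 1 := by
    intro χ hχ
    rw [hiso χ (hmem χ hχ) χ (hmem χ hχ), Helper2.classInner_irr (hirr χ hχ) (hirr χ hχ),
      if_pos rfl]
  have hdec : ∀ χ ∈ S, ∃ (θ : G → ℂ) (e : ℝ), IsIrrCharacter G θ ∧ (e = 1 ∨ e = -1) ∧
      τ₁ χ = (e : ℂ) • θ := fun χ hχ =>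
    Helper10.gen_norm_one (hgen χ (hmem χ hχ)) (hnorm χ hχ)
  have hsign : ∀ χ ∈ S, ∀ ψ ∈ S, ∀ (θ θ' : G → ℂ) (e f : ℝ), IsIrrCharacter G θ →
      IsIrrCharacter G θ' → (e = 1 ∨ e = -1) → (f = 1 ∨ f = -1) → τ₁ χ = (e : ℂ) • θ →
      τ₁ ψ = (f : ℂ) • θ' → e = f := by
    intro χ hχ ψ hψ θ θ' e f hθ hθ' he hf hχe hψf
    have hdχ := Helper24.charDegree_spec (Helper24.isCharacter_of_irr (hirr χ hχ))
    have hdψ := Helper24.charDegree_spec (Helper24.isCharacter_of_irr (hirr ψ hψ))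
    have hdχpos := Helper24.irr_degree_pos (hirr χ hχ)
    have hdψpos := Helper24.irr_degree_pos (hirr ψ hψ)
    have hdθ := Helper24.charDegree_spec (Helper24.isCharacter_of_irr hθ)
    have hdθ' := Helper24.charDegree_spec (Helper24.isCharacter_of_irr hθ')
    have hdθpos := Helper24.irr_degree_pos hθ
    have hdθ'pos := Helper24.irr_degree_pos hθ'
    have hm1 : ((charDegree ψ : ℤ) • χ) ∈ zspan S :=
      Submodule.smul_mem _ _ (hmem χ hχ)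
    have hm2 : ((-(charDegree χ : ℤ)) • ψ) ∈ zspan S :=
      Submodule.smul_mem _ _ (hmem ψ hψ)
    have hm : ((charDegree ψ : ℤ) • χ + (-(charDegree χ : ℤ)) • ψ) ∈ zspan S :=
      Submodule.add_mem _ hm1 hm2
    have hz : ((charDegree ψ : ℤ) • χ + (-(charDegree χ : ℤ)) • ψ) 1 = 0 := by
      rw [Pi.add_apply, Pi.smul_apply, Pi.smul_apply, zsmul_eq_mul, zsmul_eq_mul, hdχ, hdψ]
      push_cast
      ring
    have h1 := h0 _ hm hz
    rw [hadd _ hm1 _ hm2, hsmul χ (hmem χ hχ), hsmul ψ (hmem ψ hψ), hχe, hψf] at h1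
    rw [Pi.add_apply, Pi.smul_apply, Pi.smul_apply, Pi.smul_apply, Pi.smul_apply, zsmul_eq_mul,
      zsmul_eq_mul, smul_eq_mul, smul_eq_mul, hdθ, hdθ'] at h1
    have h2 : ((charDegree ψ : ℝ) * (e * (charDegree θ : ℝ)) -
        (charDegree χ : ℝ) * (f * (charDegree θ' : ℝ)) : ℝ) = 0 := by
      have : (((charDegree ψ : ℝ) * (e * (charDegree θ : ℝ)) -
        (charDegree χ : ℝ) * (f * (charDegree θ' : ℝ)) : ℝ) : ℂ) = 0 := by
        push_cast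
        push_cast at h1
        linear_combination h1
      exact_mod_cast this
    exact sign_aux he hf (by exact_mod_cast hdψpos) (by exact_mod_cast hdθpos)
      (by exact_mod_cast hdχpos) (by exact_mod_cast hdθ'pos) h2
  obtain ⟨χ₀, hχ₀, -⟩ := htwo
  obtain ⟨θ₀, e₀, hθ₀, he₀, hτ₀⟩ := hdec χ₀ hχ₀
  refine ⟨(e₀ : ℂ), ?_, ?_, ?_⟩
  · rcases he₀ with h | h
    · left; rw [h]; norm_num
    · right; rw [h]; norm_num
  · intro χ hχ
    obtain ⟨θ, e, hθ, he, hτ⟩ := hdec χ hχ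
    have hee : e₀ = e := hsign χ₀ hχ₀ χ hχ θ₀ θ e₀ e hθ₀ hθ he₀ he hτ₀ hτ
    subst hee
    rw [hτ, smul_smul]
    have : (e₀ : ℂ) * (e₀ : ℂ) = 1 := by
      rcases he₀ with h | h <;> rw [h] <;> norm_num
    rw [this, one_smul]
    exact hθ
  · intro χ hχ ψ hψ h
    have h1 := hiso χ (hmem χ hχ) ψ (hmem ψ hψ)
    rw [← h, hnorm χ hχ, Helper2.classInner_irr (hirr χ hχ) (hirr ψ hψ)] at h1
    by_contra hne
    rw [if_neg hne] at h1
    exact one_ne_zero h1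

end Cfsg.Agent.S1529
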