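import Cfsg.Statements.S1530
import Cfsg.Agent.Helper10.ZSpan
import Cfsg.Agent.Helper10.IndLemmas
import Cfsg.Agent.Helper10.Bessel
import Cfsg.Agent.Helper24.CharValues
import Cfsg.Agent.Helper24.CharInv
import Cfsg.Agent.Helper2.CharComplete
-- import your own Cfsg.Agent.* helpers here

set_option autoImplicit false
open Cfsg

namespace Cfsg.Agent.S1530

open scoped ComplexConjugate

/-- An irreducible character outside a set of irreducible characters is orthogonal to its span. -/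
theorem inner_zspan_irr {N : Type*} [Group N] [Fintype N] {S : Set (N → ℂ)}
    (hirr : ∀ ξ ∈ S, IsIrrCharacter N ξ) {χ : N → ℂ} (hχ : IsIrrCharacter N χ) (hχS : χ ∉ S) :
    ∀ s ∈ zspan S, classInner s χ = 0 := by
  classical
  intro s hs
  refine Helper10.zspan_induction (p := fun s => classInner s χ = 0) ?_ ?_ ?_ ?_ hs
  · intro ξ hξ
    rw [Helper2.classInner_irr (hirr ξ hξ) hχ, if_neg]
    intro h
    exact hχS (h ▸ hξ)
  · exact Helper2.classInner_zero_left χ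
  · intro f g _ _ hf hg
    rw [Helper2.classInner_add_left, hf, hg, add_zero]
  · intro n f _ hf
    rw [Helper10.classInner_zsmul_left, hf, mul_zero]

theorem decomp_insert {N : Type*} (S : Set (N → ℂ)) (χ : N → ℂ) {f : N → ℂ}
    (hf : f ∈ zspan (insert χ S)) : ∃ n : ℤ, ∃ s ∈ zspan S, f = n • χ + s := by
  have h : f ∈ zspan ({χ} ∪ S) := by
    rw [Set.singleton_union]
    exact hf
  obtain ⟨x, hx, y, hy, rfl⟩ := Helper10.zspan_union {χ} S h
  obtain ⟨n, rfl⟩ := Submodule.mem_span_singleton.1 hx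
  exact ⟨n, y, hy, rfl⟩

/-- Integer arithmetic at the heart of Feit's criterion. -/
theorem arith_key (a y dψ D sc : ℤ) (ha : 1 ≤ a) (hdψ : 1 ≤ dψ) (hD : 2 * dψ ^ 2 * a < D)
    (hrel : dψ ^ 2 * sc = y ^ 2 * D) (hle : sc ≤ 1 + 2 * a * y) :
    y = 0 ∨ (y = 1 ∧ sc = 2 * a + 1) := by
  by_cases hy0 : y = 0
  · exact Or.inl hy0
  right
  have hy2 : 1 ≤ y ^ 2 := by
    have : 0 < y ^ 2 := by positivity
    omega
  have hd2 : 1 ≤ dψ ^ 2 := by nlinarith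
  have h1 : y ^ 2 * (2 * dψ ^ 2 * a) < y ^ 2 * D := by nlinarith
  have h2 : dψ ^ 2 * sc ≤ dψ ^ 2 * (1 + 2 * a * y) := by nlinarith
  have h3 : dψ ^ 2 * (2 * a * y ^ 2) < dψ ^ 2 * (1 + 2 * a * y) := by nlinarith
  have h4 : 2 * a * y ^ 2 < 1 + 2 * a * y := lt_of_mul_lt_mul_left h3 (by positivity)
  have hy1 : y = 1 := by
    rcases lt_trichotomy y 1 with h | h | h
    · have hy' : y ≤ -1 := by omega
      have e1 : 0 ≤ a * y ^ 2 := by positivity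
      have e3 : a * y ≤ a * (-1) := mul_le_mul_of_nonneg_left hy' (by omega)
      nlinarith
    · exact h
    · have hy' : 2 ≤ y := by omega
      have e1 : 2 * y ≤ y ^ 2 := by nlinarith
      have e2 : a * (2 * y) ≤ a * y ^ 2 := mul_le_mul_of_nonneg_left e1 (by omega)
      have e3 : a * 2 ≤ a * y := mul_le_mul_of_nonneg_left hy' (by omega)
      nlinarith
  refine ⟨hy1, ?_⟩
  subst hy1
  have h5 : dψ ^ 2 * (2 * a) < dψ ^ 2 * sc := by nlinarith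
  have h6 : 2 * a < sc := lt_of_mul_lt_mul_left h5 (by positivity)
  omega


/-- Let N be a subgroup of the finite group G and S₀ a finite set of irreducible characters of N, χ an irreducible character of N not in S₀, with degrees ξ 1 = d ξ. Let τ be a linear isometry on the integer combinations of S₀ ∪ {χ} vanishing at 1, with values virtual characters of G vanishing at 1, such that (S₀, N minus 1, τ) is coherent. If some ψ ∈ S₀ has d ψ dividing d χ and 2 · d ψ · d χ < Σ_{ξ ∈ S₀} (d ξ)², then (S₀ ∪ {χ}, N minus 1, τ) is coherent. -/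
theorem result {G : Type*} [Group G] [Fintype G] (N : Subgroup G) [Fintype N] (S₀ : Finset (N → ℂ)) (χ : N → ℂ) (hirr : ∀ ξ ∈ S₀, Cfsg.IsIrrCharacter N ξ) (hχ : Cfsg.IsIrrCharacter N χ) (hχS : χ ∉ S₀) (d : (N → ℂ) → ℕ) (hd : ∀ ξ ∈ insert χ S₀, ξ 1 = (d ξ : ℂ)) (τ : (N → ℂ) → (G → ℂ)) (hτ : Cfsg.IsLinearIsometryOn (Cfsg.zspanOn (↑(insert χ S₀) : Set (N → ℂ)) {1}ᶜ) τ) (hτ1 : ∀ α ∈ Cfsg.zspanOn (↑(insert χ S₀) : Set (N → ℂ)) {1}ᶜ, τ α 1 = 0) (hcoh : Cfsg.IsCoherent (↑S₀ : Set (N → ℂ)) {1}ᶜ τ) (ψ : N → ℂ) (hψ : ψ ∈ S₀) (hdvd : d ψ ∣ d χ) (hlt : 2 * d ψ * d χ < ∑ ξ ∈ S₀, d ξ ^ 2) : Cfsg.IsCoherent (↑(insert χ S₀) : Set (N → ℂ)) {1}ᶜ τ := by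
  classical
  obtain ⟨⟨α₀, hα₀, hα₀ne⟩, τ₀, hτ₀, hτ₀eq⟩ := hcoh
  obtain ⟨hτadd, hτsmul, hτiso, hτgen⟩ := hτ
  have hS₀T : (↑S₀ : Set (N → ℂ)) ⊆ ↑(insert χ S₀) := by
    intro x hx
    exact Finset.mem_coe.2 (Finset.mem_insert_of_mem (Finset.mem_coe.1 hx))
  have hχT : χ ∈ (↑(insert χ S₀) : Set (N → ℂ)) := Finset.mem_coe.2 (Finset.mem_insert_self χ S₀)
  have hχS' : χ ∉ (↑S₀ : Set (N → ℂ)) := fun h => hχS (Finset.mem_coe.1 h)
  have hirr' : ∀ ξ ∈ (↑S₀ : Set (N → ℂ)), IsIrrCharacter N ξ := fun ξ hξ =>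
    hirr ξ (Finset.mem_coe.1 hξ)
  have hmem : ∀ ξ ∈ S₀, ξ ∈ zspan (↑S₀ : Set (N → ℂ)) := fun ξ hξ =>
    Helper10.mem_zspan_of_mem (Finset.mem_coe.2 hξ)
  have hχorth := inner_zspan_irr hirr' hχ hχS'
  -- degrees
  have hdχ : χ 1 = (d χ : ℂ) := hd χ (Finset.mem_insert_self _ _)
  have hdS : ∀ ξ ∈ S₀, ξ 1 = (d ξ : ℂ) := fun ξ hξ => hd ξ (Finset.mem_insert_of_mem hξ)
  have hdpos : ∀ ξ, IsIrrCharacter N ξ → ξ 1 = (d ξ : ℂ) → 0 < d ξ := by
    intro ξ hξ h1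
    have hp := Helper24.irr_degree_pos hξ
    have h2 := Helper24.charDegree_spec (Helper24.isCharacter_of_irr hξ)
    rw [h1] at h2
    have h3 : d ξ = charDegree ξ := by exact_mod_cast h2
    omega
  have hdψ := hdS ψ hψ
  have hψpos : 0 < d ψ := hdpos ψ (hirr ψ hψ) hdψ
  have hχpos : 0 < d χ := hdpos χ hχ hdχ
  obtain ⟨a, ha⟩ := hdvd
  have hapos : 0 < a := by
    rcases Nat.eq_zero_or_pos a with h | h
    · rw [h, mul_zero] at ha
      omega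
    · exact h
  -- the element β
  have hβT : (χ + (-(a : ℤ)) • ψ) ∈ zspanOn (↑(insert χ S₀) : Set (N → ℂ)) {1}ᶜ := by
    refine Helper10.mem_zspanOn_one.2 ⟨?_, ?_⟩
    · exact Helper10.zspan_add_mem (Helper10.mem_zspan_of_mem hχT)
        (Helper10.zspan_smul_mem _ (Helper10.zspan_mono hS₀T (hmem ψ hψ)))
    · rw [Pi.add_apply, Pi.smul_apply, zsmul_eq_mul, hdχ, hdψ, ha]
      push_cast
      ring
  obtain ⟨β, hβdef⟩ : ∃ β : N → ℂ, β = χ + (-(a : ℤ)) • ψ := ⟨_, rfl⟩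
  rw [← hβdef] at hβT
  -- orthonormality of images
  have he_orth : ∀ ξ ∈ S₀, ∀ ξ' ∈ S₀, classInner (τ₀ ξ) (τ₀ ξ') = classInner ξ ξ' :=
    fun ξ hξ ξ' hξ' => hτ₀.2.2.1 ξ (hmem ξ hξ) ξ' (hmem ξ' hξ')
  have he_one : ∀ ξ ∈ S₀, classInner (τ₀ ξ) (τ₀ ξ) = 1 := by
    intro ξ hξ
    rw [he_orth ξ hξ ξ hξ, Helper2.classInner_irr (hirr ξ hξ) (hirr ξ hξ), if_pos rfl]
  have he_zero : ∀ ξ ∈ S₀, ∀ ξ' ∈ S₀, ξ ≠ ξ' → classInner (τ₀ ξ) (τ₀ ξ') = 0 := by
    intro ξ hξ ξ' hξ' hne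
    rw [he_orth ξ hξ ξ' hξ', Helper2.classInner_irr (hirr ξ hξ) (hirr ξ' hξ'), if_neg hne]
  have he_gen : ∀ ξ ∈ S₀, IsGeneralizedCharacter G (τ₀ ξ) := fun ξ hξ => hτ₀.2.2.2 ξ (hmem ξ hξ)
  obtain ⟨X, hXdef⟩ : ∃ X : G → ℂ, X = τ β + (a : ℤ) • τ₀ ψ := ⟨_, rfl⟩
  have hX_gen : IsGeneralizedCharacter G X := by
    rw [hXdef]
    exact Helper10.IsGeneralizedCharacter.add (hτgen β hβT)
      (Helper10.IsGeneralizedCharacter.zsmul _ (he_gen ψ hψ))
  -- the elements δ ξ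
  have hδS : ∀ ξ ∈ S₀, ((d ψ : ℤ) • ξ + (-(d ξ : ℤ)) • ψ) ∈ zspanOn (↑S₀ : Set (N → ℂ)) {1}ᶜ := by
    intro ξ hξ
    refine Helper10.mem_zspanOn_one.2 ⟨?_, ?_⟩
    · exact Helper10.zspan_add_mem (Helper10.zspan_smul_mem _ (hmem ξ hξ))
        (Helper10.zspan_smul_mem _ (hmem ψ hψ))
    · rw [Pi.add_apply, Pi.smul_apply, Pi.smul_apply, zsmul_eq_mul, zsmul_eq_mul, hdS ξ hξ, hdψ]
      push_cast
      ring
  have hST : ∀ f, f ∈ zspanOn (↑S₀ : Set (N → ℂ)) {1}ᶜ →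
      f ∈ zspanOn (↑(insert χ S₀) : Set (N → ℂ)) {1}ᶜ := by
    intro f hf
    obtain ⟨h1, h2⟩ := Helper10.mem_zspanOn_one.1 hf
    exact Helper10.mem_zspanOn_one.2 ⟨Helper10.zspan_mono hS₀T h1, h2⟩
  have hτδ : ∀ ξ ∈ S₀, τ ((d ψ : ℤ) • ξ + (-(d ξ : ℤ)) • ψ) =
      (d ψ : ℤ) • τ₀ ξ + (-(d ξ : ℤ)) • τ₀ ψ := by
    intro ξ hξ
    rw [← hτ₀eq _ (hδS ξ hξ), Helper10.lio_map_comb hτ₀ (hmem ξ hξ) (hmem ψ hψ)]
  have hχξ : ∀ ξ ∈ S₀, classInner χ ξ = 0 := by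
    intro ξ hξ
    rw [Helper2.classInner_irr hχ (hirr ξ hξ), if_neg]
    intro h
    exact hχS (h ▸ hξ)
  have hψψ : classInner ψ ψ = 1 := by
    rw [Helper2.classInner_irr (hirr ψ hψ) (hirr ψ hψ), if_pos rfl]
  have hχχ : classInner χ χ = 1 := by
    rw [Helper2.classInner_irr hχ hχ, if_pos rfl]
  have hψχ : classInner ψ χ = 0 := hχorth ψ (hmem ψ hψ)
  -- key proportionality
  have key : ∀ ξ ∈ S₀, (d ψ : ℂ) * classInner X (τ₀ ξ) = (d ξ : ℂ) * classInner X (τ₀ ψ) := by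
    intro ξ hξ
    have h := hτiso β hβT _ (hST _ (hδS ξ hξ))
    rw [hτδ ξ hξ, hβdef] at h
    rw [hXdef, Helper2.classInner_add_left, Helper2.classInner_add_left,
      Helper10.classInner_zsmul_left, Helper10.classInner_zsmul_left, he_one ψ hψ]
    simp only [Helper2.classInner_add_left, Helper2.classInner_add_right,
      Helper10.classInner_zsmul_left, Helper10.classInner_zsmul_right, hχξ ξ hξ, hχξ ψ hψ,
      hψψ] at h
    rw [← hβdef] at h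
    by_cases hψξ : ψ = ξ
    · subst hψξ
      rw [he_one ψ hψ]
    · rw [he_zero ψ hψ ξ hξ hψξ]
      rw [Helper2.classInner_irr (hirr ψ hψ) (hirr ξ hξ), if_neg hψξ] at h
      push_cast at h ⊢
      linear_combination h
  obtain ⟨y, hy⟩ := Helper10.gen_inner_int hX_gen (he_gen ψ hψ)
  have hcex : ∀ ξ ∈ S₀, ∃ c : ℤ, classInner X (τ₀ ξ) = (c : ℂ) := fun ξ hξ =>
    Helper10.gen_inner_int hX_gen (he_gen ξ hξ)
  choose! c hc using hcex
  have hrel : ∀ ξ ∈ S₀, (d ψ : ℤ) * c ξ = (d ξ : ℤ) * y := by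
    intro ξ hξ
    have h := key ξ hξ
    rw [hc ξ hξ, hy] at h
    exact_mod_cast h
  -- the norm of X
  have h1 : classInner (τ β) (τ₀ ψ) = (y : ℂ) - (a : ℂ) := by
    have h := hy
    rw [hXdef, Helper2.classInner_add_left, Helper10.classInner_zsmul_left, he_one ψ hψ] at h
    push_cast at h
    linear_combination h
  have h2 : classInner (τ₀ ψ) (τ β) = (y : ℂ) - (a : ℂ) := by
    rw [← Helper2.classInner_conj_symm, h1]
    simp
  have hββ : classInner β β = 1 + (a : ℂ) ^ 2 := by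
    rw [hβdef]
    simp only [Helper2.classInner_add_left, Helper2.classInner_add_right,
      Helper10.classInner_zsmul_left, Helper10.classInner_zsmul_right, hχξ ψ hψ, hψψ, hχχ, hψχ]
    push_cast
    ring
  have hXX : classInner X X = ((1 + 2 * (a : ℤ) * y : ℤ) : ℂ) := by
    have h := hτiso β hβT β hβT
    rw [hββ] at h
    rw [hXdef]
    simp only [Helper2.classInner_add_left, Helper2.classInner_add_right,
      Helper10.classInner_zsmul_left, Helper10.classInner_zsmul_right, h, h1, h2, he_one ψ hψ]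
    push_cast
    ring
  obtain ⟨hle, heq⟩ := Helper10.bessel_int S₀ (fun ξ => τ₀ ξ) X c he_one he_zero hc _ hXX
  have hsumrel : (d ψ : ℤ) ^ 2 * ∑ ξ ∈ S₀, c ξ ^ 2 = y ^ 2 * ∑ ξ ∈ S₀, (d ξ : ℤ) ^ 2 := by
    rw [Finset.mul_sum, Finset.mul_sum]
    refine Finset.sum_congr rfl fun ξ hξ => ?_
    have h := hrel ξ hξ
    calc (d ψ : ℤ) ^ 2 * c ξ ^ 2 = ((d ψ : ℤ) * c ξ) ^ 2 := by ring
      _ = ((d ξ : ℤ) * y) ^ 2 := by rw [h]
      _ = y ^ 2 * (d ξ : ℤ) ^ 2 := by ring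
  have hD : 2 * (d ψ : ℤ) ^ 2 * (a : ℤ) < ∑ ξ ∈ S₀, (d ξ : ℤ) ^ 2 := by
    have h : ((2 * d ψ * d χ : ℕ) : ℤ) < ((∑ ξ ∈ S₀, d ξ ^ 2 : ℕ) : ℤ) := by exact_mod_cast hlt
    rw [ha] at h
    push_cast at h
    linarith
  have hy0 : y = 0 := by
    rcases arith_key (a : ℤ) y (d ψ : ℤ) _ _ (by exact_mod_cast hapos) (by exact_mod_cast hψpos)
      hD hsumrel hle with h | ⟨hy1, hsum⟩
    · exact h
    · exfalso
      subst hy1
      have hXeq := heq (by rw [hsum]; ring)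
      -- values at one
      have hval : ∀ ξ ∈ S₀, τ₀ ξ 1 = (c ξ : ℂ) * τ₀ ψ 1 := by
        intro ξ hξ
        have h := hτ1 _ (hST _ (hδS ξ hξ))
        rw [hτδ ξ hξ, Pi.add_apply, Pi.smul_apply, Pi.smul_apply, zsmul_eq_mul, zsmul_eq_mul] at h
        have hr := hrel ξ hξ
        have hr' : (d ξ : ℂ) = (d ψ : ℂ) * (c ξ : ℂ) := by
          have : ((d ξ : ℤ) : ℂ) = (((d ψ : ℤ) * c ξ : ℤ) : ℂ) := by rw [hr]; push_cast; ring
          exact_mod_cast this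
        have hψne : (d ψ : ℂ) ≠ 0 := by exact_mod_cast hψpos.ne'
        push_cast at h
        rw [hr'] at h
        have h' : (d ψ : ℂ) * (τ₀ ξ 1 - (c ξ : ℂ) * τ₀ ψ 1) = 0 := by linear_combination h
        rcases mul_eq_zero.1 h' with h0 | h0
        · exact absurd h0 hψne
        · exact sub_eq_zero.1 h0
      have hX1 : X 1 = (a : ℂ) * τ₀ ψ 1 := by
        rw [hXdef, Pi.add_apply, hτ1 β hβT, Pi.smul_apply, zsmul_eq_mul]
        push_cast
        ring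
      have hX1' : X 1 = ((∑ ξ ∈ S₀, c ξ ^ 2 : ℤ) : ℂ) * τ₀ ψ 1 := by
        rw [hXeq, Finset.sum_apply]
        push_cast
        rw [Finset.sum_mul]
        refine Finset.sum_congr rfl fun ξ hξ => ?_
        rw [Pi.smul_apply, zsmul_eq_mul, hval ξ hξ]
        ring
      rw [hsum, hX1] at hX1'
      have h0 : τ₀ ψ 1 = 0 := by
        have h' : ((a : ℂ) + 1) * τ₀ ψ 1 = 0 := by
          push_cast at hX1'
          linear_combination -hX1'
        rcases mul_eq_zero.1 h' with h0 | h0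
        · exfalso
          have : ((a + 1 : ℕ) : ℂ) = 0 := by push_cast; exact h0
          exact (Nat.cast_ne_zero.2 (Nat.succ_ne_zero a)) this
        · exact h0
      obtain ⟨χ', ε, hχ', hε, hεeq⟩ := Helper10.gen_norm_one (he_gen ψ hψ) (he_one ψ hψ)
      rw [hεeq, Pi.smul_apply, smul_eq_mul,
        Helper24.charDegree_spec (Helper24.isCharacter_of_irr hχ')] at h0
      have hp := Helper24.irr_degree_pos hχ'
      rcases mul_eq_zero.1 h0 with h | h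
      · rcases hε with rfl | rfl <;> simp at h
      · have : charDegree χ' = 0 := by exact_mod_cast h
        omega
  subst hy0
  have hXe : ∀ ξ ∈ S₀, classInner X (τ₀ ξ) = 0 := by
    intro ξ hξ
    have h := hrel ξ hξ
    rw [mul_zero] at h
    have hψne : (d ψ : ℤ) ≠ 0 := by exact_mod_cast hψpos.ne'
    rcases mul_eq_zero.1 h with h0 | h0
    · exact absurd h0 hψne
    · rw [hc ξ hξ, h0]
      simp
  have hXX1 : classInner X X = 1 := by
    rw [hXX]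
    push_cast
    ring
  have hXs : ∀ s ∈ zspan (↑S₀ : Set (N → ℂ)), classInner X (τ₀ s) = 0 := by
    intro s hs
    refine Helper10.zspan_induction (p := fun s => classInner X (τ₀ s) = 0) ?_ ?_ ?_ ?_ hs
    · intro ξ hξ
      exact hXe ξ (Finset.mem_coe.1 hξ)
    · rw [Helper10.lio_map_zero hτ₀]
      exact Helper2.classInner_zero_right _
    · intro f g hfm hgm hf hg
      rw [hτ₀.1 f hfm g hgm, Helper2.classInner_add_right, hf, hg, add_zero]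
    · intro n f hfm hf
      rw [hτ₀.2.1 f hfm n, Helper10.classInner_zsmul_right, hf, mul_zero]
  have hXs' : ∀ s ∈ zspan (↑S₀ : Set (N → ℂ)), classInner (τ₀ s) X = 0 := by
    intro s hs
    rw [← Helper2.classInner_conj_symm, hXs s hs, map_zero]
  have hχs' : ∀ s ∈ zspan (↑S₀ : Set (N → ℂ)), classInner χ s = 0 := by
    intro s hs
    rw [← Helper2.classInner_conj_symm, hχorth s hs, map_zero]
  -- the extension
  obtain ⟨τ₁, hτ₁def⟩ : ∃ τ₁ : (N → ℂ) → (G → ℂ),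
      τ₁ = fun f => classInner f χ • X + τ₀ (f - classInner f χ • χ) := ⟨_, rfl⟩
  have hτ₁ : ∀ (n : ℤ), ∀ s ∈ zspan (↑S₀ : Set (N → ℂ)), τ₁ (n • χ + s) = n • X + τ₀ s := by
    intro n s hs
    have hcoef : classInner (n • χ + s) χ = (n : ℂ) := by
      rw [Helper2.classInner_add_left, Helper10.classInner_zsmul_left, hχχ, hχorth s hs]
      ring
    rw [hτ₁def]
    show classInner (n • χ + s) χ • X + τ₀ (n • χ + s - classInner (n • χ + s) χ • χ) = _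
    rw [hcoef, Int.cast_smul_eq_zsmul ℂ n X, Int.cast_smul_eq_zsmul ℂ n χ, add_sub_cancel_left]
  have hdec := fun f (hf : f ∈ zspan (↑(insert χ S₀) : Set (N → ℂ))) =>
    decomp_insert (↑S₀ : Set (N → ℂ)) χ (by rw [Finset.coe_insert] at hf; exact hf)
  refine ⟨⟨α₀, hST α₀ hα₀, hα₀ne⟩, τ₁, ⟨?_, ?_, ?_, ?_⟩, ?_⟩
  · intro f hf f' hf'
    obtain ⟨n, s, hs, rfl⟩ := hdec f hf
    obtain ⟨n', s', hs', rfl⟩ := hdec f' hf'
    have e : n • χ + s + (n' • χ + s') = (n + n') • χ + (s + s') := by module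
    rw [e, hτ₁ _ _ (Helper10.zspan_add_mem hs hs'), hτ₁ n s hs, hτ₁ n' s' hs', hτ₀.1 s hs s' hs']
    module
  · intro f hf m
    obtain ⟨n, s, hs, rfl⟩ := hdec f hf
    have e : m • (n • χ + s) = (m * n) • χ + m • s := by module
    rw [e, hτ₁ _ _ (Helper10.zspan_smul_mem m hs), hτ₁ n s hs, hτ₀.2.1 s hs m]
    module
  · intro f hf f' hf'
    obtain ⟨n, s, hs, rfl⟩ := hdec f hf
    obtain ⟨n', s', hs', rfl⟩ := hdec f' hf'
    rw [hτ₁ n s hs, hτ₁ n' s' hs']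
    simp only [Helper2.classInner_add_left, Helper2.classInner_add_right,
      Helper10.classInner_zsmul_left, Helper10.classInner_zsmul_right]
    rw [hXX1, hXs s' hs', hXs' s hs, hτ₀.2.2.1 s hs s' hs', hχχ, hχs' s' hs', hχorth s hs]
  · intro f hf
    obtain ⟨n, s, hs, rfl⟩ := hdec f hf
    rw [hτ₁ n s hs]
    exact Helper10.IsGeneralizedCharacter.add (Helper10.IsGeneralizedCharacter.zsmul n hX_gen)
      (hτ₀.2.2.2 s hs)
  · intro f hf
    obtain ⟨hfm, hf1⟩ := Helper10.mem_zspanOn_one.1 hf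
    obtain ⟨n, s, hs, rfl⟩ := hdec f hfm
    rw [hτ₁ n s hs]
    have hs'm : (s + (n * (a : ℤ)) • ψ) ∈ zspan (↑S₀ : Set (N → ℂ)) :=
      Helper10.zspan_add_mem hs (Helper10.zspan_smul_mem _ (hmem ψ hψ))
    have hs'1 : (s + (n * (a : ℤ)) • ψ) 1 = 0 := by
      rw [Pi.add_apply, Pi.smul_apply, zsmul_eq_mul, hdχ, ha] at hf1
      rw [Pi.add_apply, Pi.smul_apply, zsmul_eq_mul, hdψ]
      push_cast at hf1 ⊢
      linear_combination hf1
    have hs'S : (s + (n * (a : ℤ)) • ψ) ∈ zspanOn (↑S₀ : Set (N → ℂ)) {1}ᶜ :=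
      Helper10.mem_zspanOn_one.2 ⟨hs'm, hs'1⟩
    have e : n • χ + s = n • β + (s + (n * (a : ℤ)) • ψ) := by
      rw [hβdef]
      module
    rw [e, hτadd _ (Helper10.zspanOn_one_smul n hβT) _ (hST _ hs'S), hτsmul β hβT n,
      ← hτ₀eq _ hs'S, hτ₀.1 s hs _ (Helper10.zspan_smul_mem _ (hmem ψ hψ)),
      hτ₀.2.1 ψ (hmem ψ hψ), hXdef]
    module

end Cfsg.Agent.S1530
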