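import Cfsg.Statements.S1531
import Cfsg.Agent.Helper10.ZSpan
import Cfsg.Agent.Helper10.IndLemmas
import Cfsg.Agent.S1529

set_option autoImplicit false
open Cfsg

namespace Cfsg.Agent.S1531

open scoped ComplexConjugate

theorem exists_partner {α : Type*} {X : Set α} (hX2 : ∃ a ∈ X, ∃ b ∈ X, a ≠ b) (χ : α) :
    ∃ χ' ∈ X, χ' ≠ χ := by
  obtain ⟨a, ha, b, hb, hab⟩ := hX2
  by_cases h : a = χ
  · exact ⟨b, hb, fun h' => hab (h.trans h'.symm)⟩
  · exact ⟨a, ha, h⟩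

theorem sign_sq {ε : ℂ} (h : ε = 1 ∨ ε = -1) : ε * ε = 1 := by
  rcases h with rfl | rfl <;> norm_num

theorem sign_conj {ε : ℂ} (h : ε = 1 ∨ ε = -1) : conj ε = ε := by
  rcases h with rfl | rfl <;> simp

theorem sign_ne {ε : ℂ} (h : ε = 1 ∨ ε = -1) : ε ≠ 0 := by
  rcases h with rfl | rfl <;> norm_num

/-- Degree combination vanishing at one. -/
theorem comb_one {N : Type*} [Group N] {χ χ' : N → ℂ} (h : IsCharacter N χ)
    (h' : IsCharacter N χ') :
    ((charDegree χ' : ℤ) • χ + (-(charDegree χ : ℤ)) • χ') 1 = 0 := by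
  rw [Pi.add_apply, Pi.smul_apply, Pi.smul_apply, zsmul_eq_mul, zsmul_eq_mul,
    Helper24.charDegree_spec h, Helper24.charDegree_spec h']
  push_cast
  ring

section Main

variable {G : Type*} [Group G] [Fintype G] (N : Subgroup G) [Fintype N] (S X Y : Set (N → ℂ))
  (hirr : ∀ ξ ∈ S, Cfsg.IsIrrCharacter N ξ) (hXS : X ⊆ S) (hYS : Y ⊆ S) (hXY : Disjoint X Y)
  (hX2 : ∃ a ∈ X, ∃ b ∈ X, a ≠ b) (hY2 : ∃ a ∈ Y, ∃ b ∈ Y, a ≠ b)
  (α : (N → ℂ) → (G → ℂ)) (hα : Cfsg.IsLinearIsometryOn (Cfsg.zspanOn S {1}ᶜ) α)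
  (hα1 : ∀ θ ∈ Cfsg.zspanOn S {1}ᶜ, α θ 1 = 0) (σ τ : (N → ℂ) → (G → ℂ))
  (hσ : Cfsg.IsLinearIsometryOn (Cfsg.zspan X) σ) (hσα : ∀ θ ∈ Cfsg.zspanOn X {1}ᶜ, σ θ = α θ)
  (hτ : Cfsg.IsLinearIsometryOn (Cfsg.zspan Y) τ) (hτα : ∀ θ ∈ Cfsg.zspanOn Y {1}ᶜ, τ θ = α θ)

include hirr hXS hYS hXY hX2 hY2 hα hα1 hσ hσα hτ hτα in
theorem part1 : ∀ χ ∈ X, ∀ η ∈ Y, Cfsg.classInner (σ χ) (τ η) = 0 := by
  classical
  obtain ⟨hαadd, hαsmul, hαiso, hαgen⟩ := hα
  have hXirr : ∀ χ ∈ X, IsIrrCharacter N χ := fun χ hχ => hirr χ (hXS hχ)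
  have hYirr : ∀ η ∈ Y, IsIrrCharacter N η := fun η hη => hirr η (hYS hη)
  have h0σ : ∀ θ ∈ zspan X, θ 1 = 0 → σ θ 1 = 0 := by
    intro θ hθ h1
    have hm : θ ∈ zspanOn X {1}ᶜ := Helper10.mem_zspanOn_one.2 ⟨hθ, h1⟩
    rw [hσα θ hm]
    exact hα1 θ (Helper10.mem_zspanOn_one.2 ⟨Helper10.zspan_mono hXS hθ, h1⟩)
  have h0τ : ∀ θ ∈ zspan Y, θ 1 = 0 → τ θ 1 = 0 := by
    intro θ hθ h1
    have hm : θ ∈ zspanOn Y {1}ᶜ := Helper10.mem_zspanOn_one.2 ⟨hθ, h1⟩
    rw [hτα θ hm]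
    exact hα1 θ (Helper10.mem_zspanOn_one.2 ⟨Helper10.zspan_mono hYS hθ, h1⟩)
  obtain ⟨ε, hε, hεirr, hεinj⟩ := Cfsg.Agent.S1529.result N X hXirr hX2 σ hσ h0σ
  obtain ⟨ε', hε', hε'irr, hε'inj⟩ := Cfsg.Agent.S1529.result N Y hYirr hY2 τ hτ h0τ
  intro χ hχ η hη
  obtain ⟨χ', hχ', hne⟩ := exists_partner hX2 χ
  obtain ⟨η', hη', hne'⟩ := exists_partner hY2 η
  have hdisj : ∀ x ∈ X, ∀ y ∈ Y, x ≠ y := by
    intro x hx y hy hxy
    exact Set.disjoint_left.1 hXY hx (hxy ▸ hy)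
  have hcχ := Helper24.isCharacter_of_irr (hXirr χ hχ)
  have hcχ' := Helper24.isCharacter_of_irr (hXirr χ' hχ')
  have hcη := Helper24.isCharacter_of_irr (hYirr η hη)
  have hcη' := Helper24.isCharacter_of_irr (hYirr η' hη')
  have hpχ := Helper24.irr_degree_pos (hXirr χ hχ)
  have hpχ' := Helper24.irr_degree_pos (hXirr χ' hχ')
  have hpη := Helper24.irr_degree_pos (hYirr η hη)
  have hpη' := Helper24.irr_degree_pos (hYirr η' hη')
  have hmχ := Helper10.mem_zspan_of_mem hχ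
  have hmχ' := Helper10.mem_zspan_of_mem hχ'
  have hmη := Helper10.mem_zspan_of_mem hη
  have hmη' := Helper10.mem_zspan_of_mem hη'
  have haX : ((charDegree χ' : ℤ) • χ + (-(charDegree χ : ℤ)) • χ') ∈ zspan X :=
    Helper10.zspan_add_mem (Helper10.zspan_smul_mem _ hmχ) (Helper10.zspan_smul_mem _ hmχ')
  have hbY : ((charDegree η' : ℤ) • η + (-(charDegree η : ℤ)) • η') ∈ zspan Y :=
    Helper10.zspan_add_mem (Helper10.zspan_smul_mem _ hmη) (Helper10.zspan_smul_mem _ hmη')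
  have ha1 := comb_one hcχ hcχ'
  have hb1 := comb_one hcη hcη'
  have hiso := hαiso _ (Helper10.mem_zspanOn_one.2 ⟨Helper10.zspan_mono hXS haX, ha1⟩) _
    (Helper10.mem_zspanOn_one.2 ⟨Helper10.zspan_mono hYS hbY, hb1⟩)
  rw [← hσα _ (Helper10.mem_zspanOn_one.2 ⟨haX, ha1⟩),
    ← hτα _ (Helper10.mem_zspanOn_one.2 ⟨hbY, hb1⟩),
    Helper10.lio_map_comb hσ hmχ hmχ', Helper10.lio_map_comb hτ hmη hmη'] at hiso
  have hab0 : classInner ((charDegree χ' : ℤ) • χ + (-(charDegree χ : ℤ)) • χ')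
      ((charDegree η' : ℤ) • η + (-(charDegree η : ℤ)) • η') = 0 := by
    simp only [Helper2.classInner_add_left, Helper2.classInner_add_right,
      Helper10.classInner_zsmul_left, Helper10.classInner_zsmul_right]
    rw [Helper2.classInner_irr (hXirr χ hχ) (hYirr η hη),
      Helper2.classInner_irr (hXirr χ hχ) (hYirr η' hη'),
      Helper2.classInner_irr (hXirr χ' hχ') (hYirr η hη),
      Helper2.classInner_irr (hXirr χ' hχ') (hYirr η' hη'),
      if_neg (hdisj χ hχ η hη), if_neg (hdisj χ hχ η' hη'), if_neg (hdisj χ' hχ' η hη),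
      if_neg (hdisj χ' hχ' η' hη')]
    ring
  rw [hab0] at hiso
  obtain ⟨A, hAd⟩ : ∃ A : G → ℂ, A = ε • σ χ := ⟨_, rfl⟩
  obtain ⟨A', hA'd⟩ : ∃ A' : G → ℂ, A' = ε • σ χ' := ⟨_, rfl⟩
  obtain ⟨B, hBd⟩ : ∃ B : G → ℂ, B = ε' • τ η := ⟨_, rfl⟩
  obtain ⟨B', hB'd⟩ : ∃ B' : G → ℂ, B' = ε' • τ η' := ⟨_, rfl⟩
  have hA : IsIrrCharacter G A := hAd ▸ hεirr χ hχ
  have hA' : IsIrrCharacter G A' := hA'd ▸ hεirr χ' hχ'
  have hB : IsIrrCharacter G B := hBd ▸ hε'irr η hη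
  have hB' : IsIrrCharacter G B' := hB'd ▸ hε'irr η' hη'
  have eA : σ χ = ε • A := by rw [hAd, smul_smul, sign_sq hε, one_smul]
  have eA' : σ χ' = ε • A' := by rw [hA'd, smul_smul, sign_sq hε, one_smul]
  have eB : τ η = ε' • B := by rw [hBd, smul_smul, sign_sq hε', one_smul]
  have eB' : τ η' = ε' • B' := by rw [hB'd, smul_smul, sign_sq hε', one_smul]
  have hAA' : A ≠ A' := by
    intro h
    have h2 : σ χ = σ χ' := by rw [eA, eA', h]
    exact hne (hεinj χ hχ χ' hχ' h2).symm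
  have hBB' : B ≠ B' := by
    intro h
    have h2 : τ η = τ η' := by rw [eB, eB', h]
    exact hne' (hε'inj η hη η' hη' h2).symm
  rw [eA, eA', eB, eB'] at hiso
  simp only [Helper2.classInner_add_left, Helper2.classInner_add_right,
    Helper10.classInner_zsmul_left, Helper10.classInner_zsmul_right,
    Helper2.classInner_smul_left, Helper2.classInner_smul_right, sign_conj hε',
    Helper2.classInner_irr hA hB, Helper2.classInner_irr hA hB', Helper2.classInner_irr hA' hB,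
    Helper2.classInner_irr hA' hB'] at hiso
  rw [eA, eB, Helper2.classInner_smul_left, Helper2.classInner_smul_right,
    Helper2.classInner_irr hA hB]
  by_cases hAB : A = B
  · exfalso
    have hAB' : A ≠ B' := fun h => hBB' (hAB.symm.trans h)
    have hA'B : A' ≠ B := fun h => hAA' (hAB.trans h.symm)
    rw [if_pos hAB, if_neg hAB', if_neg hA'B] at hiso
    have hee : ε * ε' ≠ 0 := mul_ne_zero (sign_ne hε) (sign_ne hε')
    by_cases hA'B' : A' = B'
    · rw [if_pos hA'B'] at hiso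
      have h1 : (ε * ε') * (((charDegree χ' * charDegree η' + charDegree χ * charDegree η : ℕ)) : ℂ)
          = 0 := by
        push_cast
        push_cast at hiso
        linear_combination hiso
      rcases mul_eq_zero.1 h1 with h | h
      · exact hee h
      · have h2 : charDegree χ' * charDegree η' + charDegree χ * charDegree η = 0 := by
          exact_mod_cast h
        have := Nat.mul_pos hpχ' hpη'
        omega
    · rw [if_neg hA'B'] at hiso
      have h1 : (ε * ε') * (((charDegree χ' * charDegree η' : ℕ)) : ℂ) = 0 := by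
        push_cast
        push_cast at hiso
        linear_combination hiso
      rcases mul_eq_zero.1 h1 with h | h
      · exact hee h
      · have h2 : charDegree χ' * charDegree η' = 0 := by exact_mod_cast h
        have := Nat.mul_pos hpχ' hpη'
        omega
  · rw [if_neg hAB]
    ring

include hirr hXS hYS hXY in
theorem orth_XY : ∀ x ∈ zspan X, ∀ y ∈ zspan Y, classInner x y = 0 := by
  have hdisj : ∀ x ∈ X, ∀ y ∈ Y, x ≠ y := by
    intro x hx y hy hxy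
    exact Set.disjoint_left.1 hXY hx (hxy ▸ hy)
  intro x hx
  refine Helper10.zspan_induction (p := fun x => ∀ y ∈ zspan Y, classInner x y = 0) ?_ ?_ ?_ ?_ hx
  · intro χ hχ y hy
    refine Helper10.zspan_induction (p := fun y => classInner χ y = 0) ?_ ?_ ?_ ?_ hy
    · intro η hη
      rw [Helper2.classInner_irr (hirr χ (hXS hχ)) (hirr η (hYS hη)), if_neg (hdisj χ hχ η hη)]
    · exact Helper2.classInner_zero_right χ
    · intro f g _ _ hf hg
      rw [Helper2.classInner_add_right, hf, hg, add_zero]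
    · intro n f _ hf
      rw [Helper10.classInner_zsmul_right, hf, mul_zero]
  · intro y _
    exact Helper2.classInner_zero_left y
  · intro f g _ _ hf hg y hy
    rw [Helper2.classInner_add_left, hf y hy, hg y hy, add_zero]
  · intro n f _ hf y hy
    rw [Helper10.classInner_zsmul_left, hf y hy, mul_zero]

include hirr hXS hYS hXY hX2 hY2 hα hα1 hσ hσα hτ hτα in
theorem orth_στ : ∀ x ∈ zspan X, ∀ y ∈ zspan Y, classInner (σ x) (τ y) = 0 := by
  have hp1 := part1 N S X Y hirr hXS hYS hXY hX2 hY2 α hα hα1 σ τ hσ hσα hτ hτα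
  intro x hx
  refine Helper10.zspan_induction (p := fun x => ∀ y ∈ zspan Y, classInner (σ x) (τ y) = 0)
    ?_ ?_ ?_ ?_ hx
  · intro χ hχ y hy
    refine Helper10.zspan_induction (p := fun y => classInner (σ χ) (τ y) = 0) ?_ ?_ ?_ ?_ hy
    · intro η hη
      exact hp1 χ hχ η hη
    · rw [Helper10.lio_map_zero hτ]
      exact Helper2.classInner_zero_right _
    · intro f g hfm hgm hf hg
      rw [hτ.1 f hfm g hgm, Helper2.classInner_add_right, hf, hg, add_zero]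
    · intro n f hfm hf
      rw [hτ.2.1 f hfm n, Helper10.classInner_zsmul_right, hf, mul_zero]
  · intro y _
    rw [Helper10.lio_map_zero hσ]
    exact Helper2.classInner_zero_left _
  · intro f g hfm hgm hf hg y hy
    rw [hσ.1 f hfm g hgm, Helper2.classInner_add_left, hf y hy, hg y hy, add_zero]
  · intro n f hfm hf y hy
    rw [hσ.2.1 f hfm n, Helper10.classInner_zsmul_left, hf y hy, mul_zero]

include hirr hXS hYS hXY in
theorem decomp_unique : ∀ x ∈ zspan X, ∀ y ∈ zspan Y, ∀ x' ∈ zspan X, ∀ y' ∈ zspan Y,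
    x + y = x' + y' → x = x' ∧ y = y' := by
  intro x hx y hy x' hx' y' hy' h
  have hz : x - x' = y' - y := by
    rw [sub_eq_sub_iff_add_eq_add]
    rw [h]
    abel
  have hzX : x - x' ∈ zspan X := Helper10.zspan_sub_mem hx hx'
  have hzY : x - x' ∈ zspan Y := by rw [hz]; exact Helper10.zspan_sub_mem hy' hy
  have h0 := orth_XY N S X Y hirr hXS hYS hXY _ hzX _ hzY
  have h1 := Helper10.classInner_self_eq_zero h0
  have h2 : x = x' := sub_eq_zero.1 h1
  refine ⟨h2, ?_⟩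
  rw [h1] at hz
  exact (sub_eq_zero.1 hz.symm).symm

open Classical in
/-- The glued map. -/
noncomputable def glue (f : N → ℂ) : G → ℂ :=
  if h : ∃ x ∈ zspan X, ∃ y ∈ zspan Y, f = x + y then
    σ (Classical.choose h) + τ (Classical.choose (Classical.choose_spec h).2)
  else 0

include hirr hXS hYS hXY in
theorem glue_spec : ∀ x ∈ zspan X, ∀ y ∈ zspan Y, glue N X Y σ τ (x + y) = σ x + τ y := by
  intro x hx y hy
  have h : ∃ x' ∈ zspan X, ∃ y' ∈ zspan Y, x + y = x' + y' := ⟨x, hx, y, hy, rfl⟩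
  unfold glue
  rw [dif_pos h]
  obtain ⟨hx', hrest⟩ := Classical.choose_spec h
  obtain ⟨hy', heq⟩ := Classical.choose_spec hrest
  obtain ⟨e1, e2⟩ := decomp_unique N S X Y hirr hXS hYS hXY _ hx' _ hy' x hx y hy heq.symm
  exact congrArg₂ (· + ·) (congrArg σ e1) (congrArg τ e2)

include hirr hXS in
theorem int_at_one : ∀ x ∈ zspan X, ∃ m : ℤ, x 1 = (m : ℂ) := by
  intro x hx
  refine Helper10.zspan_induction (p := fun x => ∃ m : ℤ, x 1 = (m : ℂ)) ?_ ?_ ?_ ?_ hx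
  · intro χ hχ
    refine ⟨(charDegree χ : ℤ), ?_⟩
    rw [Helper24.charDegree_spec (Helper24.isCharacter_of_irr (hirr χ (hXS hχ)))]
    simp
  · exact ⟨0, by simp⟩
  · rintro f g _ _ ⟨a, ha⟩ ⟨b, hb⟩
    exact ⟨a + b, by rw [Pi.add_apply, ha, hb]; push_cast; rfl⟩
  · rintro n f _ ⟨a, ha⟩
    exact ⟨n * a, by rw [Pi.smul_apply, ha, zsmul_eq_mul]; push_cast; rfl⟩

end Main

/-- Let N be a subgroup of the finite group G, S a set of irreducible characters of N, and α a linear isometry on the integer combinations of S vanishing at 1 with values virtual characters of G vanishing at 1. Let X, Y ⊆ S be disjoint, each with at least two members, and σ, τ linear isometries on ℤ[X], ℤ[Y] into virtual characters agreeing with α on the members vanishing at 1. Then ⟨σ χ, τ η⟩ = 0 for χ ∈ X, η ∈ Y; and if for some χ₀ ∈ X, η₀ ∈ Y with degrees c = χ₀ 1, e = η₀ 1 one has α (c • η₀ − e • χ₀) = c • τ η₀ − e • σ χ₀, then (X ∪ Y, N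 minus 1, α) is coherent. -/
theorem result {G : Type*} [Group G] [Fintype G] (N : Subgroup G) [Fintype N] (S X Y : Set (N → ℂ)) (hirr : ∀ ξ ∈ S, Cfsg.IsIrrCharacter N ξ) (hXS : X ⊆ S) (hYS : Y ⊆ S) (hXY : Disjoint X Y) (hX2 : ∃ a ∈ X, ∃ b ∈ X, a ≠ b) (hY2 : ∃ a ∈ Y, ∃ b ∈ Y, a ≠ b) (α : (N → ℂ) → (G → ℂ)) (hα : Cfsg.IsLinearIsometryOn (Cfsg.zspanOn S {1}ᶜ) α) (hα1 : ∀ θ ∈ Cfsg.zspanOn S {1}ᶜ, α θ 1 = 0) (σ τ : (N → ℂ) → (G → ℂ)) (hσ : Cfsg.IsLinearIsometryOn (Cfsg.zspan X) σ) (hσα : ∀ θ ∈ Cfsg.zspanOn X {1}ᶜ, σ θ = α θ) (hτ : Cfsg.IsLinearIsometryOn (Cfsg.zspan Y) τ) (hτα : ∀ θ ∈ Cfsg.zspanOn Y {1}ᶜ, τ θ = α θ) : (∀ χ ∈ X, ∀ η ∈ Y, Cfsg.classInner (σ χ) (τ η) = 0) ∧ ((∃ χ₀ ∈ X, ∃ η₀ ∈ Y, α (χ₀ 1 • η₀ - η₀ 1 • χ₀) = χ₀ 1 • τ η₀ - η₀ 1 • σ χ₀) → Cfsg.IsCoherent (X ∪ Y) {1}ᶜ α) := by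
  classical
  refine ⟨part1 N S X Y hirr hXS hYS hXY hX2 hY2 α hα hα1 σ τ hσ hσα hτ hτα, ?_⟩
  rintro ⟨χ₀, hχ₀, η₀, hη₀, hχη⟩
  have hXirr : ∀ χ ∈ X, IsIrrCharacter N χ := fun χ hχ => hirr χ (hXS hχ)
  have hYirr : ∀ η ∈ Y, IsIrrCharacter N η := fun η hη => hirr η (hYS hη)
  have hXYS : X ∪ Y ⊆ S := Set.union_subset hXS hYS
  have hspec := glue_spec N S X Y hirr hXS hYS hXY σ τ
  have horth := orth_XY N S X Y hirr hXS hYS hXY
  have horth' := orth_στ N S X Y hirr hXS hYS hXY hX2 hY2 α hα hα1 σ τ hσ hσα hτ hτα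
  obtain ⟨hαadd, hαsmul, hαiso, hαgen⟩ := hα
  refine ⟨?_, glue N X Y σ τ, ⟨?_, ?_, ?_, ?_⟩, ?_⟩
  · obtain ⟨χ, hχ, χ', hχ', hne⟩ := hX2
    have hcχ := Helper24.isCharacter_of_irr (hXirr χ hχ)
    have hcχ' := Helper24.isCharacter_of_irr (hXirr χ' hχ')
    refine ⟨(charDegree χ' : ℤ) • χ + (-(charDegree χ : ℤ)) • χ', ?_, ?_⟩
    · refine Helper10.mem_zspanOn_one.2 ⟨?_, comb_one hcχ hcχ'⟩
      exact Helper10.zspan_add_mem
        (Helper10.zspan_smul_mem _ (Helper10.mem_zspan_of_mem (Or.inl hχ)))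
        (Helper10.zspan_smul_mem _ (Helper10.mem_zspan_of_mem (Or.inl hχ')))
    · intro h0
      have h1 : classInner ((charDegree χ' : ℤ) • χ + (-(charDegree χ : ℤ)) • χ') χ = 0 := by
        rw [h0]; exact Helper2.classInner_zero_left χ
      rw [Helper2.classInner_add_left, Helper10.classInner_zsmul_left,
        Helper10.classInner_zsmul_left, Helper2.classInner_irr (hXirr χ hχ) (hXirr χ hχ),
        Helper2.classInner_irr (hXirr χ' hχ') (hXirr χ hχ), if_pos rfl,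
        if_neg (Ne.symm hne)] at h1
      have h2 : ((charDegree χ' : ℤ) : ℂ) = 0 := by linear_combination h1
      have h3 : charDegree χ' = 0 := by exact_mod_cast h2
      exact (Helper24.irr_degree_pos (hXirr χ' hχ')).ne' h3
  · intro f hf f' hf'
    obtain ⟨x, hx, y, hy, rfl⟩ := Helper10.zspan_union X Y hf
    obtain ⟨x', hx', y', hy', rfl⟩ := Helper10.zspan_union X Y hf'
    have e : x + y + (x' + y') = (x + x') + (y + y') := by abel
    rw [e, hspec _ (Helper10.zspan_add_mem hx hx') _ (Helper10.zspan_add_mem hy hy'),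
      hspec x hx y hy, hspec x' hx' y' hy', hσ.1 x hx x' hx', hτ.1 y hy y' hy']
    abel
  · intro f hf n
    obtain ⟨x, hx, y, hy, rfl⟩ := Helper10.zspan_union X Y hf
    rw [smul_add, hspec _ (Helper10.zspan_smul_mem n hx) _ (Helper10.zspan_smul_mem n hy),
      hspec x hx y hy, hσ.2.1 x hx n, hτ.2.1 y hy n, smul_add]
  · intro f hf f' hf'
    obtain ⟨x, hx, y, hy, rfl⟩ := Helper10.zspan_union X Y hf
    obtain ⟨x', hx', y', hy', rfl⟩ := Helper10.zspan_union X Y hf'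
    rw [hspec x hx y hy, hspec x' hx' y' hy']
    simp only [Helper2.classInner_add_left, Helper2.classInner_add_right]
    rw [hσ.2.2.1 x hx x' hx', hτ.2.2.1 y hy y' hy', horth' x hx y' hy', horth x hx y' hy']
    have h1 : classInner (τ y) (σ x') = 0 := by
      rw [← Helper2.classInner_conj_symm, horth' x' hx' y hy, map_zero]
    have h2 : classInner y x' = 0 := by
      rw [← Helper2.classInner_conj_symm, horth x' hx' y hy, map_zero]
    rw [h1, h2]
  · intro f hf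
    obtain ⟨x, hx, y, hy, rfl⟩ := Helper10.zspan_union X Y hf
    rw [hspec x hx y hy]
    exact Helper10.IsGeneralizedCharacter.add (hσ.2.2.2 x hx) (hτ.2.2.2 y hy)
  · intro f hf
    obtain ⟨hfm, hf1⟩ := Helper10.mem_zspanOn_one.1 hf
    obtain ⟨x, hx, y, hy, rfl⟩ := Helper10.zspan_union X Y hfm
    rw [hspec x hx y hy]
    obtain ⟨m, hm⟩ := int_at_one N S X hirr hXS x hx
    have hy1 : y 1 = -(m : ℂ) := by
      rw [Pi.add_apply, hm] at hf1
      linear_combination hf1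
    have hcχ₀ := Helper24.isCharacter_of_irr (hXirr χ₀ hχ₀)
    have hcη₀ := Helper24.isCharacter_of_irr (hYirr η₀ hη₀)
    have hχ₀1 := Helper24.charDegree_spec hcχ₀
    have hη₀1 := Helper24.charDegree_spec hcη₀
    have hpχ₀ := Helper24.irr_degree_pos (hXirr χ₀ hχ₀)
    have hpη₀ := Helper24.irr_degree_pos (hYirr η₀ hη₀)
    have hmχ₀ := Helper10.mem_zspan_of_mem hχ₀
    have hmη₀ := Helper10.mem_zspan_of_mem hη₀
    have huX : ((charDegree χ₀ : ℤ) • x + (-m) • χ₀) ∈ zspan X :=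
      Helper10.zspan_add_mem (Helper10.zspan_smul_mem _ hx) (Helper10.zspan_smul_mem _ hmχ₀)
    have hu1 : ((charDegree χ₀ : ℤ) • x + (-m) • χ₀) 1 = 0 := by
      rw [Pi.add_apply, Pi.smul_apply, Pi.smul_apply, zsmul_eq_mul, zsmul_eq_mul, hm, hχ₀1]
      push_cast
      ring
    have hvY : ((charDegree η₀ : ℤ) • y + m • η₀) ∈ zspan Y :=
      Helper10.zspan_add_mem (Helper10.zspan_smul_mem _ hy) (Helper10.zspan_smul_mem _ hmη₀)
    have hv1 : ((charDegree η₀ : ℤ) • y + m • η₀) 1 = 0 := by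
      rw [Pi.add_apply, Pi.smul_apply, Pi.smul_apply, zsmul_eq_mul, zsmul_eq_mul, hy1, hη₀1]
      push_cast
      ring
    have hw_eq : χ₀ 1 • η₀ - η₀ 1 • χ₀ =
        (charDegree χ₀ : ℤ) • η₀ + (-(charDegree η₀ : ℤ)) • χ₀ := by
      funext t
      simp only [Pi.sub_apply, Pi.add_apply, Pi.smul_apply, smul_eq_mul, hχ₀1, hη₀1]
      simp only [zsmul_eq_mul]
      push_cast
      ring
    have hwS : (χ₀ 1 • η₀ - η₀ 1 • χ₀) ∈ zspanOn S {1}ᶜ := by
      rw [hw_eq]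
      refine Helper10.mem_zspanOn_one.2 ⟨?_, comb_one hcη₀ hcχ₀⟩
      exact Helper10.zspan_add_mem
        (Helper10.zspan_smul_mem _ (Helper10.mem_zspan_of_mem (hYS hη₀)))
        (Helper10.zspan_smul_mem _ (Helper10.mem_zspan_of_mem (hXS hχ₀)))
    have huS : ((charDegree χ₀ : ℤ) • x + (-m) • χ₀) ∈ zspanOn S {1}ᶜ :=
      Helper10.mem_zspanOn_one.2 ⟨Helper10.zspan_mono hXS huX, hu1⟩
    have hvS : ((charDegree η₀ : ℤ) • y + m • η₀) ∈ zspanOn S {1}ᶜ :=
      Helper10.mem_zspanOn_one.2 ⟨Helper10.zspan_mono hYS hvY, hv1⟩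
    have hfS : (x + y) ∈ zspanOn S {1}ᶜ :=
      Helper10.mem_zspanOn_one.2 ⟨Helper10.zspan_mono hXYS hfm, hf1⟩
    have hαu : α ((charDegree χ₀ : ℤ) • x + (-m) • χ₀) =
        (charDegree χ₀ : ℤ) • σ x + (-m) • σ χ₀ := by
      rw [← hσα _ (Helper10.mem_zspanOn_one.2 ⟨huX, hu1⟩), Helper10.lio_map_comb hσ hx hmχ₀]
    have hαv : α ((charDegree η₀ : ℤ) • y + m • η₀) =
        (charDegree η₀ : ℤ) • τ y + m • τ η₀ := by
      rw [← hτα _ (Helper10.mem_zspanOn_one.2 ⟨hvY, hv1⟩), Helper10.lio_map_comb hτ hy hmη₀]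
    have hid : ((charDegree χ₀ : ℤ) * (charDegree η₀ : ℤ)) • (x + y) =
        (charDegree η₀ : ℤ) • ((charDegree χ₀ : ℤ) • x + (-m) • χ₀) +
          ((charDegree χ₀ : ℤ) • ((charDegree η₀ : ℤ) • y + m • η₀) +
            (-m) • (χ₀ 1 • η₀ - η₀ 1 • χ₀)) := by
      funext t
      simp only [Pi.sub_apply, Pi.add_apply, Pi.smul_apply, smul_eq_mul, hχ₀1, hη₀1]
      simp only [zsmul_eq_mul]
      push_cast
      ring
    have hα1' := congrArg α hid
    rw [hαsmul _ hfS,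
      hαadd _ (Helper10.zspanOn_one_smul _ huS) _
        (Helper10.zspanOn_one_add (Helper10.zspanOn_one_smul _ hvS)
          (Helper10.zspanOn_one_smul _ hwS)),
      hαadd _ (Helper10.zspanOn_one_smul _ hvS) _ (Helper10.zspanOn_one_smul _ hwS),
      hαsmul _ huS, hαsmul _ hvS, hαsmul _ hwS, hαu, hαv, hχη] at hα1'
    funext g
    have h2 := congrFun hα1' g
    simp only [Pi.sub_apply, Pi.add_apply, Pi.smul_apply, smul_eq_mul, hχ₀1, hη₀1] at h2
    simp only [zsmul_eq_mul] at h2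
    push_cast at h2
    have hne : ((charDegree χ₀ : ℂ) * (charDegree η₀ : ℂ)) ≠ 0 := by
      apply mul_ne_zero
      · exact_mod_cast hpχ₀.ne'
      · exact_mod_cast hpη₀.ne'
    have h3 : ((charDegree χ₀ : ℂ) * (charDegree η₀ : ℂ)) * ((σ x + τ y) g - α (x + y) g) = 0 := by
      rw [Pi.add_apply]
      linear_combination -h2
    rcases mul_eq_zero.1 h3 with h | h
    · exact absurd h hne
    · exact sub_eq_zero.1 h

end Cfsg.Agent.S1531
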