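import Cfsg.Statements.S1532
import Mathlib
import Cfsg.Agent.S1514
import Cfsg.Agent.S1522
import Cfsg.Agent.Helper10.CohAbove
import Cfsg.Agent.Helper10.FrobQuot
import Cfsg.Agent.Helper10.FrobKernel
import Cfsg.Agent.Helper10.Bessel
import Cfsg.Agent.Helper10.ZSpan
import Cfsg.Agent.Helper10.VirtualChar
import Cfsg.Agent.Helper10.IndLemmas
import Cfsg.Agent.Helper6.Clifford
-- import your own Cfsg.Agent.* helpers here

set_option autoImplicit false
open Cfsg

namespace Cfsg.Agent.S1532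


open Cfsg.Agent Cfsg.Agent.Helper10

open scoped ComplexConjugate

/-- A coherence system for the characters induced from the kernel of a Frobenius-type group of
odd order whose kernel is a TI-subgroup with normalizer `N`. -/
theorem ti_frob_cohSys {G : Type*} [Group G] [Fintype G] (N K : Subgroup G) [Fintype N]
    (hKN : K ≤ N) [hK₀ : (K.subgroupOf N).Normal] (hsolv : Group.IsSolvable (K.subgroupOf N))
    (hK1 : K.subgroupOf N ≠ ⊥) (hodd : Odd (Nat.card N))
    (hti : ∀ y : G, ∀ x ∈ K, x ≠ 1 → y⁻¹ * x * y ∈ K → y ∈ N)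
    (hC : ∀ w ∈ K.subgroupOf N, w ≠ 1 → ∀ c : N, c * w = w * c → c ∈ K.subgroupOf N) :
    (∀ χ ∈ inducedIrrAbove (K.subgroupOf N) ⊥, IsIrrCharacter N χ) ∧
    ∃ R : (N → ℂ) → Finset (G → ℂ),
      IsCoherenceSystem (inducedIrrAbove (K.subgroupOf N) ⊥) (fun α => indFun N α) R := by
  classical
  have hirr : ∀ χ ∈ inducedIrrAbove (K.subgroupOf N) ⊥, IsIrrCharacter N χ := by
    rintro χ ⟨θ, hθ, hne, -, rfl⟩
    exact frob_ind_irr (K.subgroupOf N) hC hθ hne
  refine ⟨hirr, ?_⟩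
  have hSne : (inducedIrrAbove (K.subgroupOf N) ⊥).Nonempty :=
    inducedIrrAbove_nonempty (K.subgroupOf N) ⊥ hsolv (bot_lt_iff_ne_bot.2 hK1)
  have hconj : ∀ χ ∈ inducedIrrAbove (K.subgroupOf N) ⊥,
      conjFun χ ∈ inducedIrrAbove (K.subgroupOf N) ⊥ ∧ conjFun χ ≠ χ := by
    intro χ hχ
    refine ⟨inducedIrrAbove_conj _ _ hχ, ?_⟩
    intro hreal
    have h1 := real_irr_of_odd hodd (hirr χ hχ) hreal
    obtain ⟨θ, hθ, hne, -, rfl⟩ := hχ
    haveI : Fintype (K.subgroupOf N) := Fintype.ofFinite _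
    have h2 := Helper2.frobenius_reciprocity (K.subgroupOf N) θ (fun _ => (1 : ℂ))
      (fun _ _ => rfl)
    have h3 : classInner (fun _ : N => (1 : ℂ)) (fun _ : N => (1 : ℂ)) = 1 := by
      rw [Helper2.classInner_irr Helper2.isIrrCharacter_one_fun Helper2.isIrrCharacter_one_fun,
        if_pos rfl]
    have h4 : classInner θ (fun _ : K.subgroupOf N => (1 : ℂ)) = 0 := by
      rw [Helper2.classInner_irr hθ Helper2.isIrrCharacter_one_fun, if_neg hne]
    rw [h1, h3] at h2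
    exact one_ne_zero (h2.trans h4)
  have hprop : ∀ α ∈ zspan (inducedIrrAbove (K.subgroupOf N) ⊥),
      IsClassFunction N α ∧ (∀ n : N, (n : G) ∉ K → α n = 0) ∧ IsGeneralizedCharacter N α := by
    intro α hα
    refine zspan_induction (p := fun α => IsClassFunction N α ∧
      (∀ n : N, (n : G) ∉ K → α n = 0) ∧ IsGeneralizedCharacter N α) ?_ ?_ ?_ ?_ hα
    · intro f hf
      have hfi := hirr f hf
      obtain ⟨θ, hθ, hne, -, rfl⟩ := hf
      exact ⟨Helper2.isClassFunction_indFun _ θ,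
        fun n hn => Helper6.indFun_apply_of_not_mem (K.subgroupOf N) θ hn,
        isGeneralizedCharacter_of_irr hfi⟩
    · exact ⟨fun _ _ => rfl, fun _ _ => rfl,
        isGeneralizedCharacter_of_char Helper2.isCharacter_zero⟩
    · intro f g _ _ hf hg
      refine ⟨Helper2.IsClassFunction.add hf.1 hg.1, fun n hn => ?_,
        IsGeneralizedCharacter.add hf.2.2 hg.2.2⟩
      rw [Pi.add_apply, hf.2.1 n hn, hg.2.1 n hn, add_zero]
    · intro m f _ hf
      refine ⟨?_, fun n hn => ?_, IsGeneralizedCharacter.zsmul m hf.2.2⟩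
      · rw [← Int.cast_smul_eq_zsmul ℂ m f]
        exact Helper2.IsClassFunction.smul hf.1 _
      · rw [Pi.smul_apply, hf.2.1 n hn, smul_zero]
  have hτ : IsLinearIsometryOn (zspanOn (inducedIrrAbove (K.subgroupOf N) ⊥) {1}ᶜ)
      (fun α => indFun N α) := by
    refine ⟨?_, ?_, ?_, ?_⟩
    · intro α _ β _
      exact indFun_add N α β
    · intro α _ m
      show indFun N (m • α) = m • indFun N α
      rw [← Int.cast_smul_eq_zsmul ℂ m α, indFun_smul, Int.cast_smul_eq_zsmul]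
    · intro α hα β hβ
      obtain ⟨-, hα0, -⟩ := hprop α hα.1
      obtain ⟨hβc, hβ0, -⟩ := hprop β hβ.1
      exact ti_ind_inner N K hti α β hβc hα0 ((mem_zspanOn_one.1 hα).2) hβ0
    · intro α hα
      obtain ⟨-, -, χ, ψ, hχ, hψ, rfl⟩ := hprop α hα.1
      refine ⟨indFun N χ, indFun N ψ, Helper2.isCharacter_indFun N hχ,
        Helper2.isCharacter_indFun N hψ, ?_⟩
      show indFun N (χ - ψ) = indFun N χ - indFun N ψ
      have h1 : χ - ψ = χ + (-1 : ℂ) • ψ := by
        rw [neg_one_smul, sub_eq_add_neg]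
      rw [h1, indFun_add, indFun_smul, neg_one_smul, sub_eq_add_neg]
  have hτ1 : ∀ α ∈ zspanOn (inducedIrrAbove (K.subgroupOf N) ⊥) {1}ᶜ,
      (fun α => indFun N α) α 1 = 0 := by
    intro α hα
    show indFun N α 1 = 0
    rw [indFun_one, (mem_zspanOn_one.1 hα).2, mul_zero]
  exact S1514.result _ hSne hirr hconj _ hτ hτ1

/-- The general form: `K` a non-abelian `p`-subgroup (`p` odd), TI with normalizer `N > K`,
Hall in `N`, containing the centralizers of its non-identity elements; `Z ≠ 1` central in `K`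
and normal in `N`. -/
theorem ti_frob_central_coherent {G : Type*} [Group G] [Fintype G] (p : ℕ) [Fact p.Prime]
    (hp : p ≠ 2) (N K Z : Subgroup G) [Fintype N] (hKN : K ≤ N)
    (hKnorm : ∀ x ∈ N, ∀ k ∈ K, x * k * x⁻¹ ∈ K) (hpK : IsPGroup p K)
    (hcop : Nat.Coprime (Nat.card K) (K.relIndex N)) (hKlt : K < N)
    (hna : ¬ ∀ a ∈ K, ∀ b ∈ K, a * b = b * a)
    (hti : ∀ y : G, ∀ x ∈ K, x ≠ 1 → y⁻¹ * x * y ∈ K → y ∈ N)
    (hC : ∀ w ∈ K, w ≠ 1 → ∀ c : G, c * w = w * c → c ∈ K)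
    (hZ1 : Z ≠ ⊥) (hZK : Z ≤ K) (hZc : ∀ z ∈ Z, ∀ k ∈ K, z * k = k * z)
    (hZn : ∀ x ∈ N, ∀ z ∈ Z, x * z * x⁻¹ ∈ Z) :
    IsCoherent {χ : N → ℂ | IsIrrCharacter N χ ∧ ∃ z : N, (z : G) ∈ Z ∧ χ z ≠ χ 1} {1}ᶜ
      (fun α => indFun N α) := by
  classical
  haveI hK₀n : (K.subgroupOf N).Normal := ⟨fun k hk x => hKnorm x x.2 k hk⟩
  haveI hZ₀n : (Z.subgroupOf N).Normal := ⟨fun z hz x => hZn x x.2 z hz⟩
  have hpK₀ : IsPGroup p (K.subgroupOf N) := hpK.comap_subtype
  have hnil : Group.IsNilpotent (K.subgroupOf N) := hpK₀.isNilpotent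
  have hsolv : Group.IsSolvable (K.subgroupOf N) := by
    haveI := hnil
    infer_instance
  have hC₀ : ∀ w ∈ K.subgroupOf N, w ≠ 1 → ∀ c : N, c * w = w * c → c ∈ K.subgroupOf N := by
    intro w hw hw1 c hc
    exact hC (w : G) hw (fun h => hw1 (Subtype.ext h)) (c : G) (congrArg Subtype.val hc)
  have hna₀ : ¬ ∀ a ∈ K.subgroupOf N, ∀ b ∈ K.subgroupOf N, a * b = b * a := by
    intro h
    apply hna
    intro a ha b hb
    exact congrArg Subtype.val (h ⟨a, hKN ha⟩ ha ⟨b, hKN hb⟩ hb)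
  have hcardK₀ : Nat.card (K.subgroupOf N) = Nat.card K :=
    Nat.card_congr (Subgroup.subgroupOfEquivOfLe hKN).toEquiv
  have hoddK₀ : Odd (Nat.card (K.subgroupOf N)) := by
    obtain ⟨n, hn⟩ := IsPGroup.iff_card.1 hpK₀
    rw [hn]
    exact Odd.pow ((Fact.out : p.Prime).odd_of_ne_two hp)
  have hodd : Odd (Nat.card N) :=
    odd_card_of_nonabelian_kernel (K.subgroupOf N) hoddK₀ hC₀ hna₀
  have hK1 : K.subgroupOf N ≠ ⊥ := by
    intro h
    apply hna₀
    intro a ha b hb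
    rw [h, Subgroup.mem_bot] at ha hb
    rw [ha, hb]
  obtain ⟨hirrS, R, hR⟩ := ti_frob_cohSys N K hKN hsolv hK1 hodd hti hC₀
  have hcomm_lt : ⁅K.subgroupOf N, K.subgroupOf N⁆ < K.subgroupOf N := by
    refine lt_of_le_of_ne (Subgroup.commutator_le_self _) (fun h => ?_)
    haveI : Nontrivial (K.subgroupOf N) := (Subgroup.nontrivial_iff_ne_bot _).2 hK1
    haveI := hsolv
    have h1 := Group.IsSolvable.commutator_lt_top_of_nontrivial (K.subgroupOf N)
    rw [← commutator_subgroupOf_self, h, Subgroup.subgroupOf_self] at h1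
    exact lt_irrefl _ h1
  have hKtop : K.subgroupOf N < ⊤ := by
    refine lt_of_le_of_ne le_top (fun h => ?_)
    rw [Subgroup.subgroupOf_eq_top] at h
    exact absurd h (not_le_of_gt hKlt)
  have hfrob := frob_quot (K.subgroupOf N) ⁅K.subgroupOf N, K.subgroupOf N⁆ hcomm_lt.le
    (by rw [hcardK₀]; exact hcop) hC₀
  have hZ₀1 : Z.subgroupOf N ≠ ⊥ := by
    intro h
    obtain ⟨⟨z, hz⟩, hz1⟩ := Subgroup.ne_bot_iff_exists_ne_one.1 hZ1
    have h1 : (⟨z, hKN (hZK hz)⟩ : N) ∈ Z.subgroupOf N := hz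
    rw [h, Subgroup.mem_bot] at h1
    apply hz1
    have h5 : z = 1 := congrArg Subtype.val h1
    exact Subtype.ext h5
  have hZ₀K : Z.subgroupOf N ≤ K.subgroupOf N := fun z hz => hZK hz
  have hZ₀c : ∀ z ∈ Z.subgroupOf N, ∀ k ∈ K.subgroupOf N, z * k = k * z :=
    fun z hz k hk => Subtype.ext (hZc z hz k hk)
  obtain ⟨h1, h2⟩ := S1522.result (K.subgroupOf N) hsolv (fun α => indFun N α) R hR hodd hnil
    hcomm_lt hKtop hfrob (Z.subgroupOf N) hZ₀1 hZ₀K hZ₀c (fun χ hχ => hirrS χ hχ.1)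
  rw [h1] at h2
  exact h2



/-- Let G be a finite group, p an odd prime and P a Sylow p-subgroup that is non-abelian, whose underlying set is a TI-subset of G, with P properly contained in its set normaliser N and C_G(x) ≤ P for every non-identity x ∈ P. Let Z be a nontrivial subgroup of the centre of P normalised by N. Then the set of irreducible characters χ of N with χ z ≠ χ 1 for some z ∈ Z is coherent for the map induced by induction from N to G. -/
theorem result {G : Type*} [Group G] [Fintype G] (p : ℕ) [Fact p.Prime] (hp : p ≠ 2) (P : Sylow p G) (hna : ¬ IsMulCommutative (P : Subgroup G)) (hTI : Cfsg.IsTISubset ((P : Subgroup G) : Set G)) (hlt : (P : Subgroup G) < Subgroup.normalizer ((P : Subgroup G) : Set G)) (hC : ∀ k ∈ (P : Subgroup G), k ≠ 1 → Subgroup.centralizer ({k} : Set G) ≤ (P : Subgroup G)) [Fintype ↥(Subgroup.normalizer ((P : Subgroup G) : Set G))] (Z : Subgroup G) (hZ1 : Z ≠ ⊥) (hZP : ∀ z ∈ Z, z ∈ (P : Subgroup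 G) ∧ ∀ y ∈ (P : Subgroup G), z * y = y * z) (hZn : ∀ x ∈ Subgroup.normalizer ((P : Subgroup G) : Set G), ∀ z ∈ Z, x * z * x⁻¹ ∈ Z) : Cfsg.IsCoherent {χ : ↥(Subgroup.normalizer ((P : Subgroup G) : Set G)) → ℂ | Cfsg.IsIrrCharacter ↥(Subgroup.normalizer ((P : Subgroup G) : Set G)) χ ∧ ∃ z : ↥(Subgroup.normalizer ((P : Subgroup G) : Set G)), (z : G) ∈ Z ∧ χ z ≠ χ 1} {1}ᶜ (fun α => Cfsg.indFun (Subgroup.normalizer ((P : Subgroup G) : Set G)) α) := by
  have hKN : (P : Subgroup G) ≤ Subgroup.normalizer ((P : Subgroup G) : Set G) := hlt.le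
  refine ti_frob_central_coherent p hp (Subgroup.normalizer ((P : Subgroup G) : Set G))
    (P : Subgroup G) Z hKN ?_ P.isPGroup' ?_ hlt ?_ ?_ ?_ hZ1 (fun z hz => (hZP z hz).1)
    (fun z hz k hk => (hZP z hz).2 k hk) hZn
  · intro x hx k hk
    exact (Subgroup.mem_normalizer_iff.1 hx k).1 hk
  · have h1 := Sylow.card_coprime_index P
    have h2 := Subgroup.relIndex_mul_index hKN
    exact Nat.Coprime.coprime_dvd_right (Dvd.intro _ h2) h1
  · intro h
    exact hna ⟨⟨fun a b => Subtype.ext (h a a.2 b b.2)⟩⟩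
  · intro y x hx hx1 hy
    by_contra hyN
    have hyN' : y⁻¹ ∉ Subgroup.normalizer ((P : Subgroup G) : Set G) := fun h =>
      hyN (by simpa using Subgroup.inv_mem _ h)
    have h3 := hTI y⁻¹ hyN' x hx (by rw [inv_inv]; exact hy)
    exact hx1 h3
  · intro w hw hw1 c hc
    apply hC w hw hw1
    rw [Subgroup.mem_centralizer_iff]
    intro h hh
    rw [Set.mem_singleton_iff] at hh
    rw [hh]
    exact hc.symm

end Cfsg.Agent.S1532
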