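import Cfsg.Statements.S1536
import Cfsg.Agent.Helper10.BrauerPerm
-- import your own Cfsg.Agent.* helpers here

set_option autoImplicit false
open Cfsg

namespace Cfsg.Agent.S1536



/-- Let H be a normal subgroup of the finite group M whose order is coprime to its index. For x ∈ M: some non-principal irreducible character of H is unchanged under h ↦ θ(x h x⁻¹) if and only if some non-identity element of H commutes with x. -/
theorem result {M : Type*} [Group M] [Finite M] (H : Subgroup M) [hN : H.Normal] (hHall : Nat.Coprime (Nat.card H) H.index) (x : M) : (∃ θ : H → ℂ, Cfsg.IsIrrCharacter H θ ∧ θ ≠ (fun _ => 1) ∧ (fun h : H => θ ⟨x * h * x⁻¹, hN.conj_mem h h.2 x⟩) = θ) ↔ ∃ h ∈ H, h ≠ 1 ∧ x * h = h * x := by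
  classical
  have := Fintype.ofFinite H
  have hσ : ∀ θ : H → ℂ, (fun n : H => θ ((MulAut.conjNormal x : H ≃* H) n)) =
      fun h : H => θ ⟨x * h * x⁻¹, hN.conj_mem h h.2 x⟩ := by
    intro θ
    funext n
    congr 1
  have hσval : ∀ n : H, (((MulAut.conjNormal x : H ≃* H) n : H) : M) = x * n * x⁻¹ := by
    intro n
    rfl
  constructor
  · rintro ⟨θ, hθ, hθ1, hθx⟩
    by_contra hcon
    push Not at hcon
    have hfpf : ∀ n : H, (MulAut.conjNormal x : H ≃* H) n = n → n = 1 := by
      intro n hn
      by_contra hn1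
      have h1 : (n : M) ≠ 1 := fun h => hn1 (Subtype.ext h)
      apply hcon n n.2 h1
      have h2 := congrArg (Subtype.val : H → M) hn
      rw [hσval] at h2
      calc x * (n : M) = x * n * x⁻¹ * x := by group
        _ = n * x := by rw [h2]
    have hinj : Function.Injective (fun h : H => h⁻¹ * (MulAut.conjNormal x : H ≃* H) h) := by
      intro h k hhk
      have h1 : (MulAut.conjNormal x : H ≃* H) (k * h⁻¹) = k * h⁻¹ := by
        rw [map_mul, map_inv]
        have h2 : (MulAut.conjNormal x : H ≃* H) k = k * (h⁻¹ * (MulAut.conjNormal x : H ≃* H) h) := by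
          have h3 : h⁻¹ * (MulAut.conjNormal x : H ≃* H) h =
              k⁻¹ * (MulAut.conjNormal x : H ≃* H) k := hhk
          rw [h3]
          group
        rw [h2]
        group
      have h2 := hfpf _ h1
      have h3 : k = h := by
        have := mul_inv_eq_one.1 h2
        exact this
      exact h3.symm
    have hsurj := Finite.injective_iff_surjective.1 hinj
    apply hθ1
    refine Helper10.irr_eq_one_of_fixed (MulAut.conjNormal x : H ≃* H) ?_ hθ ?_
    · intro n hn hc
      obtain ⟨c, hc⟩ := isConj_iff.1 hc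
      obtain ⟨h, hh⟩ := hsurj c
      have hh' : h⁻¹ * (MulAut.conjNormal x : H ≃* H) h = c := hh
      have h1 : (MulAut.conjNormal x : H ≃* H) (h * n * h⁻¹) = h * n * h⁻¹ := by
        rw [map_mul, map_mul, map_inv]
        have e1 : (MulAut.conjNormal x : H ≃* H) h = h * c := by
          rw [← hh']
          group
        have e2 : (MulAut.conjNormal x : H ≃* H) n = c⁻¹ * n * c := by
          have e3 : c⁻¹ * (c * (MulAut.conjNormal x : H ≃* H) n * c⁻¹) * c =
              (MulAut.conjNormal x : H ≃* H) n := by group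
          rw [← e3, hc]
        rw [e1, e2]
        group
      have h2 := hfpf _ h1
      apply hn
      have h3 : n = h⁻¹ * (h * n * h⁻¹) * h := by group
      rw [h3, h2]
      group
    · rw [hσ θ]
      exact hθx
  · rintro ⟨h, hh, hh1, hxh⟩
    have hn₀ : (⟨h, hh⟩ : H) ≠ 1 := fun e => hh1 (congrArg Subtype.val e)
    have hfix : (MulAut.conjNormal x : H ≃* H) ⟨h, hh⟩ = ⟨h, hh⟩ := by
      apply Subtype.ext
      rw [hσval]
      show x * h * x⁻¹ = h
      rw [hxh]
      group
    obtain ⟨θ, hθ, hθ1, hθx⟩ := Helper10.exists_fixed_irr_ne_one (MulAut.conjNormal x : H ≃* H)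
      hn₀ (by rw [hfix])
    refine ⟨θ, hθ, hθ1, ?_⟩
    rw [← hσ θ]
    exact hθx

end Cfsg.Agent.S1536
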