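import Cfsg.Statements.S1546
import Mathlib

set_option autoImplicit false
open Cfsg

namespace Cfsg.Agent.S1546

theorem geom_mod {p m : ℕ} (q : ℕ) (h : p % m = 1 % m) :
    (∑ i ∈ Finset.range q, p ^ i) % m = q % m := by
  have h1 : ∀ i ∈ Finset.range q, p ^ i ≡ 1 [MOD m] := by
    intro i _
    have : p ≡ 1 [MOD m] := h
    simpa using this.pow i
  have h2 : (∑ i ∈ Finset.range q, p ^ i) ≡ ∑ i ∈ Finset.range q, 1 [MOD m] := by
    unfold Nat.ModEq
    rw [Finset.sum_nat_mod, Finset.sum_nat_mod (f := fun _ => 1)]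
    congr 1
    apply Finset.sum_congr rfl
    intro i hi
    exact h1 i hi
  have h3 : ∑ i ∈ Finset.range q, 1 = q := by simp
  rw [h3] at h2
  exact h2

/-- For odd primes p and q, the integer (p^q − 1)/(p − 1) is odd; if p ≡ 1 (mod q) it is divisible by q; and if p ≢ 1 (mod q) it is coprime to p − 1 and each of its divisors is ≡ 1 (mod q). -/
theorem result (p q : ℕ) (hp : p.Prime) (hq : q.Prime) (hp2 : p ≠ 2) (hq2 : q ≠ 2) : Odd ((p ^ q - 1) / (p - 1)) ∧ (p % q = 1 → q ∣ (p ^ q - 1) / (p - 1)) ∧ (p % q ≠ 1 → Nat.Coprime ((p ^ q - 1) / (p - 1)) (p - 1) ∧ ∀ x : ℕ, x ∣ (p ^ q - 1) / (p - 1) → x % q = 1) := by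
  have hp3 : 3 ≤ p := by
    have := hp.two_le
    omega
  have hq3 : 3 ≤ q := by
    have := hq.two_le
    omega
  have hu : (p ^ q - 1) / (p - 1) = ∑ i ∈ Finset.range q, p ^ i := (Nat.geomSum_eq hp.two_le q).symm
  have hmul : (∑ i ∈ Finset.range q, p ^ i) * (p - 1) = p ^ q - 1 :=
    geom_sum_mul_of_one_le (by omega) q
  rw [hu]
  have hpodd : Odd p := hp.odd_of_ne_two hp2
  have hqodd : Odd q := hq.odd_of_ne_two hq2
  have hodd : Odd (∑ i ∈ Finset.range q, p ^ i) := by
    rw [Nat.odd_iff, geom_mod (m := 2) q (by rw [Nat.odd_iff.mp hpodd])]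
    exact Nat.odd_iff.mp hqodd
  refine ⟨hodd, ?_, ?_⟩
  · intro h
    rw [Nat.dvd_iff_mod_eq_zero, geom_mod (m := q) q (by rw [h, Nat.mod_eq_of_lt (by omega)])]
    simp
  · intro h
    have hqp : ¬ q ∣ p - 1 := by
      intro hd
      apply h
      obtain ⟨k, hk⟩ := hd
      have : p = q * k + 1 := by omega
      rw [this, Nat.mul_add_mod, Nat.mod_eq_of_lt (by omega)]
    constructor
    · have h1 : (∑ i ∈ Finset.range q, p ^ i) % (p - 1) = q % (p - 1) := by
        apply geom_mod
        obtain ⟨m, hm⟩ : ∃ m, p = m + 1 := ⟨p - 1, by omega⟩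
        rw [hm, Nat.add_sub_cancel, Nat.add_mod_left]
      rw [Nat.Coprime, Nat.gcd_comm, Nat.gcd_rec, h1, ← Nat.gcd_rec, Nat.gcd_comm]
      exact (Nat.Prime.coprime_iff_not_dvd hq).mpr hqp
    · have hprime : ∀ r : ℕ, r.Prime → r ∣ ∑ i ∈ Finset.range q, p ^ i → r % q = 1 := by
        intro r hr hrd
        have : Fact r.Prime := ⟨hr⟩
        have h1 : ((p : ZMod r)) ^ q = 1 := by
          have h2 : r ∣ p ^ q - 1 := by
            rw [← hmul]; exact Dvd.dvd.mul_right hrd _
          have h3 : ((p ^ q - 1 : ℕ) : ZMod r) = 0 := (ZMod.natCast_eq_zero_iff _ _).mpr h2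
          have h4 : 1 ≤ p ^ q := Nat.one_le_pow _ _ (by omega)
          rw [Nat.cast_sub h4] at h3
          push_cast at h3
          exact sub_eq_zero.mp h3
        have hpne : (p : ZMod r) ≠ 0 := by
          intro h0
          rw [h0, zero_pow (by omega)] at h1
          exact zero_ne_one h1
        have h5 : orderOf (p : ZMod r) ∣ q := orderOf_dvd_of_pow_eq_one h1
        rcases (Nat.dvd_prime hq).mp h5 with h6 | h6
        · exfalso
          rw [orderOf_eq_one_iff] at h6
          have h7 : p % r = 1 % r := by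
            have : ((p : ℕ) : ZMod r) = ((1 : ℕ) : ZMod r) := by simpa using h6
            exact (ZMod.natCast_eq_natCast_iff' _ _ _).mp this
          have h8 := geom_mod (m := r) q h7
          rw [Nat.mod_eq_zero_of_dvd hrd] at h8
          have h9 : r ∣ q := Nat.dvd_of_mod_eq_zero h8.symm
          have h10 : r = q := (Nat.prime_dvd_prime_iff_eq hr hq).mp h9
          subst h10
          apply h
          rw [h7, Nat.mod_eq_of_lt (by omega)]
        · have h7 : orderOf (p : ZMod r) ∣ r - 1 := ZMod.orderOf_dvd_card_sub_one hpne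
          rw [h6] at h7
          obtain ⟨k, hk⟩ := h7
          have hr1 := hr.two_le
          have : r = q * k + 1 := by omega
          rw [this, Nat.mul_add_mod, Nat.mod_eq_of_lt (by omega)]
      intro x
      induction x using Nat.strong_induction_on with
      | _ x ih =>
        intro hx
        rcases Nat.eq_zero_or_pos x with h0 | hpos
        · subst h0
          rw [zero_dvd_iff] at hx
          rw [hx] at hodd
          exact absurd hodd (by decide)
        · rcases Nat.eq_or_lt_of_le hpos with h1 | h1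
          · rw [← h1, Nat.mod_eq_of_lt (by omega)]
          · have hmf : (Nat.minFac x).Prime := Nat.minFac_prime (by omega)
            have hmd : Nat.minFac x ∣ x := Nat.minFac_dvd x
            obtain ⟨y, hy⟩ := hmd
            have hylt : y < x := by
              have := hmf.two_le
              rcases Nat.eq_zero_or_pos y with hy0 | hy0
              · omega
              · nlinarith
            have hyd : y ∣ ∑ i ∈ Finset.range q, p ^ i := (Dvd.intro_left _ hy.symm).trans hx
            have h2 := ih y hylt hyd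
            have h3 := hprime _ hmf ((Dvd.intro _ hy.symm).trans hx)
            rw [hy, Nat.mul_mod, h2, h3, Nat.mod_eq_of_lt (by omega)]

end Cfsg.Agent.S1546
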