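import Cfsg.Statements.S1550
import Cfsg.Agent.Helper3.Fam.Sext

set_option autoImplicit false
open scoped Pointwise
open Cfsg

namespace Cfsg.Agent.S1550

open Cfsg.Agent.Helper3

/-- Every 4-element set of the 24 points is a tetrad of exactly one sextet, and the sextets number 1771. -/
theorem result : (∀ t : Finset Cfsg.GolayPt, t.card = 4 → ∃! S : Finset (Finset Cfsg.GolayPt), S ∈ Cfsg.sextets ∧ t ∈ S) ∧ Cfsg.sextets.ncard = 1771 := by
  refine ⟨?_, sextets_ncard⟩
  intro t ht
  obtain ⟨c, hc, hct⟩ := tetrad_frame t ht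
  have hX := smul_mem_sextets hc sxX_mem
  have htX : t ∈ c • gFam sxX := by
    rw [← hct]
    exact Finset.smul_mem_smul_finset tetrad_mem_sx
  refine ⟨c • gFam sxX, ⟨hX, htX⟩, ?_⟩
  rintro S' ⟨hS', htS'⟩
  exact sextet_unique hS' hX htS' htX

end Cfsg.Agent.S1550
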