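import Cfsg.Statements.S1552
import Cfsg.Agent.Helper3.Fam.Sext
import Cfsg.Agent.Helper3.Fam.D1552
import Cfsg.Agent.Helper3.Fam.Orbits

set_option autoImplicit false
open scoped Pointwise
open Cfsg

namespace Cfsg.Agent.S1552

open Cfsg.Agent.Helper3

/-- A sextet stabiliser has four orbits on the 1771 sextets, of sizes 1, 90, 240, 1440; and the stabiliser is a maximal proper subgroup. -/
theorem result (S : Finset (Finset Cfsg.GolayPt)) (hS : S ∈ Cfsg.sextets) : ∃ X₁ ∈ Cfsg.sextets, ∃ X₂ ∈ Cfsg.sextets, ∃ X₃ ∈ Cfsg.sextets, (MulAction.orbit ↥(MulAction.stabilizer Cfsg.M24 S) X₁).ncard = 90 ∧ (MulAction.orbit ↥(MulAction.stabilizer Cfsg.M24 S) X₂).ncard = 240 ∧ (MulAction.orbit ↥(MulAction.stabilizer Cfsg.M24 S) X₃).ncard = 1440 ∧ Cfsg.sextets = {S} ∪ MulAction.orbit ↥(MulAction.stabilizer Cfsg.M24 S) X₁ ∪ MulAction.orbit ↥(MulAction.stabilizer Cfsg.M24 S) X₂ ∪ MulAction.orbit ↥(MulAction.stabilizer Cfsg.M24 S) X₃ ∧ IsCoatom (MulAction.stabilizer Cfsg.M24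 S) := by
  obtain ⟨c, hc, rfl⟩ := sextet_trans hS
  have hA : ∀ g ∈ M24, g • (c • gFam sxX) = c • gFam sxX ↔ c⁻¹ * g * c ∈ fSub [sxX] 0 :=
    fun g hg => stab_bridge_fam sxX c hc g hg
  have key : ∀ x : Finset (Finset GolayPt),
      (MulAction.orbit ↥(MulAction.stabilizer M24 (c • gFam sxX)) (c • x)).ncard =
        (fOrb [sxX] x).ncard :=
    fun x => orbit_transport_ncard (c • gFam sxX) [sxX] c hc hA x
  have hSx : ∀ (g : ↥(MulAction.stabilizer M24 (c • gFam sxX))) (y : Finset (Finset GolayPt)),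
      y ∈ sextets → g • y ∈ sextets := fun g y hy => smul_mem_sextets g.1.2 hy
  have m0 : c • gFam sxX ∈ sextets := smul_mem_sextets hc sxX_mem
  have m1 : c • gFam q521X ∈ sextets := smul_mem_sextets hc (sextOK_mem (by decide +kernel))
  have m2 : c • gFam q522X ∈ sextets := smul_mem_sextets hc (sextOK_mem (by decide +kernel))
  have m3 : c • gFam q523X ∈ sextets := smul_mem_sextets hc (sextOK_mem (by decide +kernel))
  have n1 := (key (gFam q521X)).trans q521_ok.1
  have n2 := (key (gFam q522X)).trans q522_ok.1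
  have n3 := (key (gFam q523X)).trans q523_ok.1
  have hun := orb_union3' sextets (c • gFam sxX) _ _ _ 90 240 1440 m0 n1 n2 n3
    (orbit_sub _ _ m1 hSx) (orbit_sub _ _ m2 hSx) (orbit_sub _ _ m3 hSx) (by norm_num)
    (by norm_num) (by norm_num) (by norm_num) (by norm_num) (by norm_num)
    (sextets_ncard.trans (by norm_num))
  refine ⟨_, m1, _, m2, _, m3, n1, n2, n3, hun, ?_⟩
  refine coatom_of_orbit_reps (G := ↥M24) (c • gFam sxX)
    ![c • gFam q521X, c • gFam q522X, c • gFam q523X] ![90, 240, 1440] 1771 ?_ (by norm_num)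
    ?_ (by decide) (by decide) ?_ (by decide) (by decide)
  · rw [sextet_orbit m0]
    exact sextets_ncard
  · intro i
    fin_cases i
    · exact n1
    · exact n2
    · exact n3
  · intro g hg
    have hm : g • (c • gFam sxX) ∈ sextets := smul_mem_sextets g.2 m0
    rw [hun] at hm
    rcases hm with ((hm | hm) | hm) | hm
    · exact absurd (Set.mem_singleton_iff.1 hm) hg
    · exact ⟨0, hm⟩
    · exact ⟨1, hm⟩
    · exact ⟨2, hm⟩

end Cfsg.Agent.S1552
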