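import Cfsg.Statements.S1559
import Cfsg.Agent.Helper3.Fam.Trio
import Cfsg.Agent.Helper3.Fam.D1559
import Cfsg.Agent.Helper3.Fam.Orbits

set_option autoImplicit false
open scoped Pointwise
open Cfsg

namespace Cfsg.Agent.S1559

open Cfsg.Agent.Helper3

/-- A trio stabiliser has five orbits on the 3795 trios, of sizes 1, 42, 56, 1008, 2688; and the stabiliser is a maximal proper subgroup. -/
theorem result (T : Finset (Finset Cfsg.GolayPt)) (hT : T ∈ Cfsg.trios) : ∃ X₁ ∈ Cfsg.trios, ∃ X₂ ∈ Cfsg.trios, ∃ X₃ ∈ Cfsg.trios, ∃ X₄ ∈ Cfsg.trios, (MulAction.orbit ↥(MulAction.stabilizer Cfsg.M24 T) X₁).ncard = 42 ∧ (MulAction.orbit ↥(MulAction.stabilizer Cfsg.M24 T) X₂).ncard = 56 ∧ (MulAction.orbit ↥(MulAction.stabilizer Cfsg.M24 T) X₃).ncard = 1008 ∧ (MulAction.orbit ↥(MulAction.stabilizer Cfsg.M24 T) X₄).ncard = 2688 ∧ Cfsg.trios = {T} ∪ MulAction.orbit ↥(MulAction.stabilizer Cfsg.M24 T) X₁ ∪ MulAction.orbit ↥(MulAction.stabilizer Cfsg.M24 T) X₂ ∪ MulAction.orbit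 ↥(MulAction.stabilizer Cfsg.M24 T) X₃ ∪ MulAction.orbit ↥(MulAction.stabilizer Cfsg.M24 T) X₄ ∧ IsCoatom (MulAction.stabilizer Cfsg.M24 T) := by
  obtain ⟨c, hc, rfl⟩ := trio_trans hT
  have hA : ∀ g ∈ M24, g • (c • gFam trX) = c • gFam trX ↔ c⁻¹ * g * c ∈ fSub [trX] 0 :=
    fun g hg => stab_bridge_fam trX c hc g hg
  have key : ∀ x : Finset (Finset GolayPt),
      (MulAction.orbit ↥(MulAction.stabilizer M24 (c • gFam trX)) (c • x)).ncard =
        (fOrb [trX] x).ncard :=
    fun x => orbit_transport_ncard (c • gFam trX) [trX] c hc hA x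
  have hTx : ∀ (g : ↥(MulAction.stabilizer M24 (c • gFam trX))) (y : Finset (Finset GolayPt)),
      y ∈ trios → g • y ∈ trios := fun g y hy => smul_mem_trios g.1.2 hy
  have m0 : c • gFam trX ∈ trios := smul_mem_trios hc trX_mem
  have m1 : c • gFam q591X ∈ trios := smul_mem_trios hc (trioOK_mem (by decide +kernel))
  have m2 : c • gFam q592X ∈ trios := smul_mem_trios hc (trioOK_mem (by decide +kernel))
  have m3 : c • gFam q593X ∈ trios := smul_mem_trios hc (trioOK_mem (by decide +kernel))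
  have m4 : c • gFam q594X ∈ trios := smul_mem_trios hc (trioOK_mem (by decide +kernel))
  have n1 := (key (gFam q591X)).trans q591_ok.1
  have n2 := (key (gFam q592X)).trans q592_ok.1
  have n3 := (key (gFam q593X)).trans q593_ok.1
  have n4 := (key (gFam q594X)).trans q594_ok.1
  have hun := orb_union4' trios (c • gFam trX) _ _ _ _ 42 56 1008 2688 m0 n1 n2 n3 n4
    (orbit_sub _ _ m1 hTx) (orbit_sub _ _ m2 hTx) (orbit_sub _ _ m3 hTx) (orbit_sub _ _ m4 hTx)
    (by norm_num) (by norm_num) (by norm_num) (by norm_num) (by norm_num) (by norm_num)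
    (by norm_num) (by norm_num) (by norm_num) (by norm_num)
    (trios_ncard.trans (by norm_num))
  refine ⟨_, m1, _, m2, _, m3, _, m4, n1, n2, n3, n4, hun, ?_⟩
  refine coatom_of_orbit_reps (G := ↥M24) (c • gFam trX)
    ![c • gFam q591X, c • gFam q592X, c • gFam q593X, c • gFam q594X] ![42, 56, 1008, 2688] 3795
    ?_ (by norm_num) ?_ (by decide) (by decide) ?_ (by decide) (by decide)
  · rw [trio_orbit m0]
    exact trios_ncard
  · intro i
    fin_cases i
    · exact n1
    · exact n2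
    · exact n3
    · exact n4
  · intro g hg
    have hm : g • (c • gFam trX) ∈ trios := smul_mem_trios g.2 m0
    rw [hun] at hm
    rcases hm with (((hm | hm) | hm) | hm) | hm
    · exact absurd (Set.mem_singleton_iff.1 hm) hg
    · exact ⟨0, hm⟩
    · exact ⟨1, hm⟩
    · exact ⟨2, hm⟩
    · exact ⟨3, hm⟩

end Cfsg.Agent.S1559
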