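import Cfsg.Statements.S1567
import Cfsg.Agent.Helper28.LeechGen
import Cfsg.Agent.Helper28.Leech
import Cfsg.Agent.Helper28.GolayConc

set_option autoImplicit false
open Cfsg

namespace Cfsg.Agent.S1567

/-- The rank-24 lattice is the additive subgroup generated by its 196560 minimal vectors. -/
theorem result : AddSubgroup.closure {x : Cfsg.GolayPt → ℤ | x ∈ Cfsg.leechLattice ∧ Cfsg.sqNorm x = 32} = Cfsg.leechLattice := by
  have hset : {x : Cfsg.GolayPt → ℤ | x ∈ Cfsg.leechLattice ∧ Cfsg.sqNorm x = 32} =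
      {x : Cfsg.GolayPt → ℤ | x ∈ Cfsg.Agent.Helper28.leechSetOf Cfsg.golayCode ∧
        ∑ i, x i ^ 2 = 32} := by
    ext x
    simp only [Set.mem_ofPred_eq]
    rw [Cfsg.Agent.Helper28.mem_leechLattice, Cfsg.Agent.Helper28.leechSet_eq]
    rfl
  rw [hset, Cfsg.Agent.Helper28.gen_min Cfsg.golayCode Cfsg.Agent.Helper28.golayLike
    Cfsg.Agent.Helper28.one_mem_golay, Cfsg.Agent.Helper28.leechLattice_eq]

end Cfsg.Agent.S1567
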