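import Cfsg.Statements.S1568
import Cfsg.Agent.Helper28.Count48

set_option autoImplicit false
open Cfsg

namespace Cfsg.Agent.S1568

/-- Shape census of the lattice vectors of sum of squares 48 (customary norm 6): the four families (2^12, 0^12), (±3^3, ±1^21), (±4, ±2^8, 0^15) and (±5, ±1^23) have 5275648, 8290304, 3108864 and 98304 members. -/
theorem result : {x : Cfsg.GolayPt → ℤ | x ∈ Cfsg.leechLattice ∧ Cfsg.sqNorm x = 48 ∧ ∀ i, x i = 0 ∨ x i = 2 ∨ x i = -2}.ncard = 5275648 ∧ {x : Cfsg.GolayPt → ℤ | x ∈ Cfsg.leechLattice ∧ Cfsg.sqNorm x = 48 ∧ ∃ i j k, i ≠ j ∧ j ≠ k ∧ i ≠ k ∧ |x i| = 3 ∧ |x j| = 3 ∧ |x k| = 3}.ncard = 8290304 ∧ {x : Cfsg.GolayPt → ℤ | x ∈ Cfsg.leechLattice ∧ Cfsg.sqNorm x = 48 ∧ ∃ i, |x i| = 4}.ncard = 3108864 ∧ {x : Cfsg.GolayPt → ℤ | x ∈ Cfsg.leechLattice ∧ Cfsg.sqNorm x = 48 ∧ ∃ i, |x i| = 5}.ncard = 98304 := by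
  refine ⟨Cfsg.Agent.Helper28.count48_two, ?_, ?_, ?_⟩
  · have hset : {x : Cfsg.GolayPt → ℤ | x ∈ Cfsg.leechLattice ∧ Cfsg.sqNorm x = 48 ∧
        ∃ i j k, i ≠ j ∧ j ≠ k ∧ i ≠ k ∧ |x i| = 3 ∧ |x j| = 3 ∧ |x k| = 3} =
        {x : Cfsg.GolayPt → ℤ | x ∈ Cfsg.leechLattice ∧ Cfsg.sqNorm x = 48 ∧
          ∃ i, |x i| = 3} := by
      ext x
      constructor
      · rintro ⟨hx, hn, i, j, k, _, _, _, hi, _, _⟩
        exact ⟨hx, hn, i, hi⟩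
      · rintro ⟨hx, hn, i, hi⟩
        exact ⟨hx, hn, Cfsg.Agent.Helper28.three3 hx hn hi⟩
    rw [hset, Cfsg.Agent.Helper28.count_exists 3 (by norm_num),
      Cfsg.Agent.Helper28.count_lattice _ (Cfsg.Agent.Helper28.avoid_subset 3) 48,
      Cfsg.Agent.Helper28.num48_three]
  · rw [Cfsg.Agent.Helper28.count_exists 4 (by norm_num),
      Cfsg.Agent.Helper28.count_lattice _ (Cfsg.Agent.Helper28.avoid_subset 4) 48,
      Cfsg.Agent.Helper28.num48_four]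
  · rw [Cfsg.Agent.Helper28.count_exists 5 (by norm_num),
      Cfsg.Agent.Helper28.count_lattice _ (Cfsg.Agent.Helper28.avoid_subset 5) 48,
      Cfsg.Agent.Helper28.num48_five]

end Cfsg.Agent.S1568
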