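import Cfsg.Statements.S1587
-- import your own Cfsg.Agent.* helpers here

set_option autoImplicit false
open Matrix
open Cfsg

namespace Cfsg.Agent.S1587

/-- First step of the characterisation of the rank-24 lattice: in an even lattice without roots, norm-8 vectors congruent modulo 2 are equal, opposite or orthogonal. -/
theorem result (B : Matrix (Fin 24) (Fin 24) ℤ) (hsymm : B.IsSymm) (hpos : ∀ x : Fin 24 → ℤ, x ≠ 0 → 0 < x ⬝ᵥ (B *ᵥ x)) (heven : ∀ x : Fin 24 → ℤ, (2 : ℤ) ∣ x ⬝ᵥ (B *ᵥ x)) (h2 : ∀ x : Fin 24 → ℤ, x ⬝ᵥ (B *ᵥ x) ≠ 2) (x y : Fin 24 → ℤ) (hx : x ⬝ᵥ (B *ᵥ x) = 8) (hy : y ⬝ᵥ (B *ᵥ y) = 8) (hc : ∀ i, (2 : ℤ) ∣ (x - y) i) : y = x ∨ y = -x ∨ x ⬝ᵥ (B *ᵥ y) = 0 := by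
  choose z hz using hc
  have hsym : ∀ u v : Fin 24 → ℤ, u ⬝ᵥ (B *ᵥ v) = v ⬝ᵥ (B *ᵥ u) := by
    intro u v
    rw [Matrix.dotProduct_mulVec, ← Matrix.mulVec_transpose, hsymm.eq, dotProduct_comm]
  have hxe : x = (y + z) + z := by
    funext i
    have := hz i
    simp only [Pi.sub_apply, Pi.add_apply] at this ⊢
    linarith
  have hye : y = (y + z) - z := by
    funext i
    simp
  set w := y + z with hw
  have e1 : (w + z) ⬝ᵥ (B *ᵥ (w + z)) = w ⬝ᵥ (B *ᵥ w) + z ⬝ᵥ (B *ᵥ z) + 2 * (w ⬝ᵥ (B *ᵥ z)) := by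
    rw [Matrix.mulVec_add, add_dotProduct, dotProduct_add, dotProduct_add, hsym z w]
    ring
  have e2 : (w - z) ⬝ᵥ (B *ᵥ (w - z)) = w ⬝ᵥ (B *ᵥ w) + z ⬝ᵥ (B *ᵥ z) - 2 * (w ⬝ᵥ (B *ᵥ z)) := by
    rw [Matrix.mulVec_sub, sub_dotProduct, dotProduct_sub, dotProduct_sub, hsym z w]
    ring
  have e3 : (w + z) ⬝ᵥ (B *ᵥ (w - z)) = w ⬝ᵥ (B *ᵥ w) - z ⬝ᵥ (B *ᵥ z) := by
    rw [Matrix.mulVec_sub, add_dotProduct, dotProduct_sub, dotProduct_sub, hsym z w]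
    ring
  rw [hxe] at hx
  rw [hye] at hy
  rw [e1] at hx
  rw [e2] at hy
  have hnn : ∀ v : Fin 24 → ℤ, v = 0 ∨ 4 ≤ v ⬝ᵥ (B *ᵥ v) := by
    intro v
    by_cases hv : v = 0
    · left; exact hv
    · right
      have h1 := hpos v hv
      have h3 := h2 v
      obtain ⟨k, hk⟩ := heven v
      omega
  rcases hnn z with hz0 | hz4
  · left
    calc y = w - z := hye
      _ = w + z := by rw [hz0]; simp
      _ = x := hxe.symm
  · rcases hnn w with hw0 | hw4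
    · right; left
      calc y = w - z := hye
        _ = -(w + z) := by rw [hw0]; simp
        _ = -x := by rw [← hxe]
    · right; right
      have e4 : x ⬝ᵥ (B *ᵥ y) = (w + z) ⬝ᵥ (B *ᵥ (w - z)) := by
        rw [← hxe, ← hye]
      rw [e4, e3]
      omega

end Cfsg.Agent.S1587
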