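import Cfsg.Statements.S1591
-- import your own Cfsg.Agent.* helpers here
import Cfsg.Agent.Helper11.TGolay

set_option autoImplicit false
open Cfsg

namespace Cfsg.Agent.S1591

/-- Any two words of the length-12 ternary code have dot product zero. -/
theorem result (x y : Cfsg.ArrayPt → ZMod 3) (hx : x ∈ Cfsg.ternaryGolayCode) (hy : y ∈ Cfsg.ternaryGolayCode) : ∑ p, x p * y p = 0 := by
  open Cfsg.Agent.Helper11 in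
  obtain ⟨c, rfl⟩ := (tg_mem_iff x).mp hx
  obtain ⟨d, rfl⟩ := (tg_mem_iff y).mp hy
  obtain ⟨c0, c1, c2, c3, c4, c5⟩ := c
  obtain ⟨d0, d1, d2, d3, d4, d5⟩ := d
  rw [Cfsg.Agent.Helper11.tg_sum12]
  show c0 * d0 + c1 * d1 + c2 * d2 + c3 * d3 + c4 * d4 + (c0 + c1 + c2 + 2 * c3 + 2 * c4) * (d0 + d1 + d2 + 2 * d3 + 2 * d4) + c5 * d5 + (2 * c1 + c2 + 2 * c3 + c4 + c5) * (2 * d1 + d2 + 2 * d3 + d4 + d5) + (c0 + 2 * c1 + c3 + 2 * c4 + c5) * (d0 + 2 * d1 + d3 + 2 * d4 + d5) + (c0 + 2 * c1 + 2 * c2 + 2 * c3 + 2 * c5) * (d0 + 2 * d1 + 2 * d2 + 2 * d3 + 2 * d5) + (c0 + c2 + c3 + c4 + 2 * c5) * (d0 + d2 + d3 + d4 + 2 * d5) + (2 * c0 + 2 * c1 + c2 + 2 * c4 + 2 * c5) * (2 * d0 + 2 * d1 + d2 + 2 * d4 + 2 * d5) = 0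
  linear_combination ((3) * c0 * d0 + (3) * c0 * d1 + (2) * c0 * d2 + (2) * c0 * d3 + (3) * c0 * d4 + (3) * c0 * d5 + (3) * c1 * d0 + (6) * c1 * d1 + (3) * c1 * d2 + (4) * c1 * d3 + (4) * c1 * d4 + (4) * c1 * d5 + (2) * c2 * d0 + (3) * c2 * d1 + (3) * c2 * d2 + (3) * c2 * d3 + (2) * c2 * d4 + (3) * c2 * d5 + (2) * c3 * d0 + (4) * c3 * d1 + (3) * c3 * d2 + (5) * c3 * d3 + (3) * c3 * d4 + (3) * c3 * d5 + (3) * c4 * d0 + (4) * c4 * d1 + (2) * c4 * d2 + (3) * c4 * d3 + (5) * c4 * d4 + (3) * c4 * d5 + (3) * c5 * d0 + (4) * c5 * d1 + (3) * c5 * d2 + (3) * c5 * d3 + (3) * c5 * d4 + (5) * c5 * d5) * Cfsg.Agent.Helper11.tg_h3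

end Cfsg.Agent.S1591
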