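import Cfsg.Statements.S1593
-- import your own Cfsg.Agent.* helpers here
import Cfsg.Agent.Helper11.TGolay

set_option autoImplicit false
open Cfsg

namespace Cfsg.Agent.S1593

/-- The only sign changes preserving the length-12 ternary code are the identity and negation of all coordinates. -/
theorem result (c : Cfsg.ArrayPt → (ZMod 3)ˣ) (h : (∀ x ∈ Cfsg.ternaryGolayCode, Cfsg.monomialMap 1 c x ∈ Cfsg.ternaryGolayCode)) : (∀ p, c p = 1) ∨ (∀ p, c p = -1) := by
  open Cfsg.Agent.Helper11 in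
  have hu : ∀ u : (ZMod 3)ˣ, u = 1 ∨ u = -1 := by decide
  have hne : (1 : (ZMod 3)ˣ) ≠ -1 := by decide
  have f1 : ∀ a : ZMod 3, a ≠ 0 → a + 1 * a ≠ 0 := by decide
  have f2 : ∀ a : ZMod 3, a + -1 * a = 0 := by decide
  by_contra hcon
  rw [not_or] at hcon
  obtain ⟨h1, h2⟩ := hcon
  obtain ⟨q, hq⟩ := not_forall.mp h1
  obtain ⟨p, hp⟩ := not_forall.mp h2
  have hq' : c q = -1 := (hu (c q)).resolve_left hq
  have hp' : c p = 1 := (hu (c p)).resolve_right hp
  have hpq : p ≠ q := by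
    rintro rfl
    rw [hp'] at hq'
    exact hne hq'
  obtain ⟨w, hwp, hwq, hw6⟩ := tg_pairs p q hpq
  obtain ⟨x, hxdef⟩ : ∃ x, x = tgEnc w := ⟨_, rfl⟩
  rw [← hxdef] at hwp hwq
  have hw6' : (Cfsg.ternarySupport x).card = 6 := by rw [hxdef]; exact hw6
  have hx : x ∈ Cfsg.ternaryGolayCode := by rw [hxdef]; exact tg_enc_mem w
  have hy : x + Cfsg.monomialMap 1 c x ∈ Cfsg.ternaryGolayCode :=
    Submodule.add_mem _ hx (h x hx)
  have hval : ∀ r, (x + Cfsg.monomialMap 1 c x) r = x r + ((c r : (ZMod 3)ˣ) : ZMod 3) * x r :=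
    fun r => rfl
  have hyp : (x + Cfsg.monomialMap 1 c x) p ≠ 0 := by
    rw [hval, hp', Units.val_one]
    exact f1 _ hwp
  have hyq : (x + Cfsg.monomialMap 1 c x) q = 0 := by
    rw [hval, hq', Units.val_neg, Units.val_one]
    exact f2 _
  have hy0 : x + Cfsg.monomialMap 1 c x ≠ 0 := by
    intro h0
    apply hyp
    rw [h0]
    rfl
  have hsub : Cfsg.ternarySupport (x + Cfsg.monomialMap 1 c x) ⊆ Cfsg.ternarySupport x := by
    intro r hr
    simp only [Cfsg.ternarySupport, Finset.mem_filter, Finset.mem_univ, true_and] at hr ⊢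
    intro hx0
    apply hr
    rw [hval, hx0, mul_zero, add_zero]
  have hss : Cfsg.ternarySupport (x + Cfsg.monomialMap 1 c x) ⊂ Cfsg.ternarySupport x := by
    refine (Finset.ssubset_iff_of_subset hsub).mpr ⟨q, ?_, ?_⟩
    · simp only [Cfsg.ternarySupport, Finset.mem_filter, Finset.mem_univ, true_and]
      exact hwq
    · simp only [Cfsg.ternarySupport, Finset.mem_filter, Finset.mem_univ, true_and, not_not]
      exact hyq
  have hlt := Finset.card_lt_card hss
  rcases tg_wt_mem _ hy hy0 with h6 | h6 | h6 <;> omega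

end Cfsg.Agent.S1593
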