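import Cfsg.Statements.S1600
import Cfsg.Agent.Helper3.Rank.D00

set_option autoImplicit false
open scoped Pointwise
open Cfsg

namespace Cfsg.Agent.S1600

open Cfsg.Agent.Helper3

theorem pt7 (a : GolayPt) (h : (7 : ℕ).testBit (gIdx a) = true) :
    a = gPt 0 ∨ a = gPt 1 ∨ a = gPt 2 := by
  revert a; decide +kernel

theorem atom_out : ∀ i < 24, (340831 : ℕ).testBit i = false →
    (gAtom 7 [] [340831]).testBit i = true := by
  decide +kernel

theorem card4 (d : Finset GolayPt) (p q r : GolayPt) :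
    Nat.card ↥(MulAction.stabilizer M24 d ⊓ MulAction.stabilizer M24 p ⊓
      MulAction.stabilizer M24 q ⊓ MulAction.stabilizer M24 r) =
    Nat.card ↥(M24 ⊓ MulAction.stabilizer (Equiv.Perm GolayPt) d ⊓
      MulAction.stabilizer (Equiv.Perm GolayPt) p ⊓ MulAction.stabilizer (Equiv.Perm GolayPt) q ⊓
      MulAction.stabilizer (Equiv.Perm GolayPt) r) := by
  refine Nat.card_congr ⟨fun x => ⟨x.1.1, ⟨⟨⟨x.1.2, x.2.1.1.1⟩, x.2.1.1.2⟩, x.2.1.2⟩, x.2.2⟩,
    fun y => ⟨⟨y.1, y.2.1.1.1.1⟩, ⟨⟨y.2.1.1.1.2, y.2.1.1.2⟩, y.2.1.2⟩, y.2.2⟩, ?_, ?_⟩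
  · intro x; rfl
  · intro y; rfl

theorem key (d : Finset GolayPt) (p q r : GolayPt) (c : Equiv.Perm GolayPt) (hc : c ∈ M24)
    (hcd : c • gSupp 340831 = d) (h0 : c (gPt 0) = p) (h1 : c (gPt 1) = q)
    (h2 : c (gPt 2) = r) (k : Equiv.Perm GolayPt) :
    k ∈ (M24 ⊓ MulAction.stabilizer (Equiv.Perm GolayPt) d ⊓
      MulAction.stabilizer (Equiv.Perm GolayPt) p ⊓ MulAction.stabilizer (Equiv.Perm GolayPt) q ⊓
      MulAction.stabilizer (Equiv.Perm GolayPt) r) ↔ c⁻¹ * k * c ∈ gSub [340831] 7 := by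
  constructor
  · rintro ⟨⟨⟨⟨hk, hkd⟩, hkp⟩, hkq⟩, hkr⟩
    replace hkd : k • d = d := hkd
    replace hkp : k p = p := hkp
    replace hkq : k q = q := hkq
    replace hkr : k r = r := hkr
    replace hk : k ∈ M24 := hk
    refine ⟨M24.mul_mem (M24.mul_mem (M24.inv_mem hc) hk) hc, ?_, ?_⟩
    · intro m hm
      rw [List.mem_singleton] at hm
      subst hm
      rw [setInv_iff_smul, mul_smul, mul_smul, hcd, hkd, ← hcd, inv_smul_smul]
    · intro a ha
      have e0 : c⁻¹ p = gPt 0 := by rw [← h0, perm_inv_apply]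
      have e1 : c⁻¹ q = gPt 1 := by rw [← h1, perm_inv_apply]
      have e2 : c⁻¹ r = gPt 2 := by rw [← h2, perm_inv_apply]
      rcases pt7 a ha with rfl | rfl | rfl
      · rw [Equiv.Perm.mul_apply, Equiv.Perm.mul_apply, h0, hkp, e0]
      · rw [Equiv.Perm.mul_apply, Equiv.Perm.mul_apply, h1, hkq, e1]
      · rw [Equiv.Perm.mul_apply, Equiv.Perm.mul_apply, h2, hkr, e2]
  · intro hk
    have hk' : c * (c⁻¹ * k * c) * c⁻¹ = k := by
      simp only [mul_assoc, mul_inv_cancel, mul_one, mul_inv_cancel_left]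
    have hm := rk_conj_mem c _ hc hk.1
    have hd' := rk_conj_set c _ _ _ hcd (rk_smul hk 340831 List.mem_cons_self)
    have hp' := rk_conj_pt c _ _ _ h0 (rk_fix hk 0 (by norm_num) (by decide))
    have hq' := rk_conj_pt c _ _ _ h1 (rk_fix hk 1 (by norm_num) (by decide))
    have hr' := rk_conj_pt c _ _ _ h2 (rk_fix hk 2 (by norm_num) (by decide))
    rw [hk'] at hm hd' hp' hq' hr'
    exact ⟨⟨⟨⟨hm, hd'⟩, hp'⟩, hq'⟩, hr'⟩

/-- The pointwise stabiliser of three points of a dodecad inside the dodecad stabiliser (order 72) is transitive on the complementary dodecad. -/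
theorem result (d : Finset Cfsg.GolayPt) (hd : d ∈ Cfsg.dodecads) (p q r : Cfsg.GolayPt) (hp : p ∈ d) (hq : q ∈ d) (hr : r ∈ d) (hpq : p ≠ q) (hpr : p ≠ r) (hqr : q ≠ r) : Nat.card ↥(MulAction.stabilizer Cfsg.M24 d ⊓ MulAction.stabilizer Cfsg.M24 p ⊓ MulAction.stabilizer Cfsg.M24 q ⊓ MulAction.stabilizer Cfsg.M24 r) = 72 ∧ ∀ x ∉ d, ∀ y ∉ d, ∃ g ∈ (MulAction.stabilizer Cfsg.M24 d ⊓ MulAction.stabilizer Cfsg.M24 p ⊓ MulAction.stabilizer Cfsg.M24 q ⊓ MulAction.stabilizer Cfsg.M24 r), ((g : ↥Cfsg.M24) : Equiv.Perm Cfsg.GolayPt) x = y := by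
  have hqp := hpq.symm
  have hrp := hpr.symm
  have hrq := hqr.symm
  obtain ⟨c, hc, hcd, hcx⟩ := exists_frame d hd 3 (by norm_num)
    (fun i => if i = 0 then p else if i = 1 then q else r)
    (by intro i hi; interval_cases i <;> simp [hp, hq, hr])
    (by
      intro i hi j hj hij
      interval_cases i <;> interval_cases j <;> simp_all)
  have h0 : c (gPt 0) = p := by simpa using hcx 0 (by norm_num)
  have h1 : c (gPt 1) = q := by simpa using hcx 1 (by norm_num)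
  have h2 : c (gPt 2) = r := by simpa using hcx 2 (by norm_num)
  have hK := key d p q r c hc hcd h0 h1 h2
  constructor
  · rw [card4, card_conj (gSub [340831] 7) _ c hK, prog_card r00K [340831] 7 r00K_ok]
    decide +kernel
  · intro x hx y hy
    have tr : ∀ z : GolayPt, z ∉ d → ∃ k ∈ gSub [340831] 7, k (gPt 5) = c⁻¹ z := by
      intro z hz
      have hz' : c⁻¹ z ∉ gSupp 340831 := not_mem_of_smul hcd hz
      have hb : (340831 : ℕ).testBit (gIdx (c⁻¹ z)) = false := by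
        by_contra hcon
        simp only [Bool.not_eq_false] at hcon
        exact hz' ((mem_gSupp _ _).2 hcon)
      obtain ⟨k, hk, hk5⟩ := level_trans_pt r00L_ok (c⁻¹ z) (atom_out _ (gIdx_lt _) hb)
      exact ⟨k, hk.1, hk5⟩
    obtain ⟨k1, hk1, e1⟩ := tr x hx
    obtain ⟨k2, hk2, e2⟩ := tr y hy
    have hkk : k2 * k1⁻¹ ∈ gSub [340831] 7 :=
      (gSub [340831] 7).mul_mem hk2 ((gSub [340831] 7).inv_mem hk1)
    have hg := (hK (c * (k2 * k1⁻¹) * c⁻¹)).2 (by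
      have e : c⁻¹ * (c * (k2 * k1⁻¹) * c⁻¹) * c = k2 * k1⁻¹ := by
        simp only [mul_assoc, inv_mul_cancel, mul_one, inv_mul_cancel_left]
      rw [e]; exact hkk)
    obtain ⟨⟨⟨⟨hm, hd'⟩, hp'⟩, hq'⟩, hr'⟩ := hg
    refine ⟨⟨c * (k2 * k1⁻¹) * c⁻¹, hm⟩, ⟨⟨⟨hd', hp'⟩, hq'⟩, hr'⟩, ?_⟩
    show (c * (k2 * k1⁻¹) * c⁻¹) x = y
    rw [Equiv.Perm.mul_apply, Equiv.Perm.mul_apply, Equiv.Perm.mul_apply, ← e1, perm_inv_apply,
      e2, perm_apply_inv]

end Cfsg.Agent.S1600
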