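import Cfsg.Statements.S1604
import Cfsg.Agent.Helper3.Rank.D04

set_option autoImplicit false
open scoped Pointwise
open Cfsg

namespace Cfsg.Agent.S1604

open Cfsg.Agent.Helper3

theorem aux (p q : GolayPt) (o : Finset GolayPt) (c : Equiv.Perm GolayPt) (hc : c ∈ M24)
    (hco : c • gSupp 5279 = o) (hcp : c (gPt 0) = p) (hcq : c (gPt 1) = q) (j N m : ℕ)
    (pS : List (ℕ × ℕ × List ℕ × List ℕ × List (List ℕ)))
    (hS : gProgOK [m, 5279] 3 pS = true)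
    (hm : (Nat.blt m 16777216 && gIsCw m && Nat.beq (gPopc m) 8 &&
      ((m.testBit 0 && m.testBit 1) && Nat.beq (gPopc (Nat.land m 5279)) j)) = true)
    (hN : gCountLt 4096 (fun k => Nat.beq (gPopc (gCw k)) 8 &&
      (((gCw k).testBit 0 && (gCw k).testBit 1) &&
        Nat.beq (gPopc (Nat.land (gCw k) 5279)) j)) = N)
    (hp : gProgProd 3 r04K = N * gProgProd 3 pS) :
    {x : Finset GolayPt | x ∈ octads ∧ p ∈ x ∧ q ∈ x ∧ (o ∩ x).card = j}.ncard = N ∧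
      ∀ y y' : Finset GolayPt, y ∈ octads → y' ∈ octads → (p ∈ y ∧ q ∈ y) → (p ∈ y' ∧ q ∈ y') →
        (o ∩ y).card = j → (o ∩ y').card = j →
        ∃ g ∈ gSub [5279] 3, (c * g * c⁻¹) • y = y' := by
  have e : {x : Finset GolayPt | x ∈ octads ∧ p ∈ x ∧ q ∈ x ∧ (o ∩ x).card = j} =
      {x : Finset GolayPt | x ∈ wordsOfWeight (golayCode : Set (GolayPt → ZMod 2)) 8 ∧
        (p ∈ x ∧ q ∈ x) ∧ (o ∩ x).card = j} := by
    ext y
    constructor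
    · rintro ⟨h1, h2, h3, h4⟩
      exact ⟨h1, ⟨h2, h3⟩, h4⟩
    · rintro ⟨h1, ⟨h2, h3⟩, h4⟩
      exact ⟨h1, h2, h3, h4⟩
  rw [e]
  exact rk_class 8 5279 3 j N m (fun m => m.testBit 0 && m.testBit 1)
    (fun y => gPt 0 ∈ y ∧ gPt 1 ∈ y) (fun y => p ∈ y ∧ q ∈ y) c hc o hco
    (fun y => and_congr (rk_mem_smul hcp y) (rk_mem_smul hcq y))
    (fun m => rk_and (rk_pt_mem 0 m (by norm_num)) (rk_pt_mem 1 m (by norm_num)))
    (fun g hg y h => ⟨(rk_mem_smul (rk_fix hg 0 (by norm_num) (by decide)) y).2 h.1,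
      (rk_mem_smul (rk_fix hg 1 (by norm_num) (by decide)) y).2 h.2⟩)
    r04K pS r04K_ok hS hm hN hp

/-- A hexad stabiliser in the two-point stabiliser has orbits of sizes 1, 16, 60 on the 77 hexads: the 16 hexads disjoint from it and the 60 meeting it in two points. -/
theorem result (p q : Cfsg.GolayPt) (hpq : p ≠ q) (o o' o'' : Finset Cfsg.GolayPt) (ho : o ∈ Cfsg.octads) (ho' : o' ∈ Cfsg.octads) (ho'' : o'' ∈ Cfsg.octads) (hp : p ∈ o ∧ p ∈ o' ∧ p ∈ o'') (hq : q ∈ o ∧ q ∈ o' ∧ q ∈ o'') (h : (o ∩ o').card = (o ∩ o'').card) : {x : Finset Cfsg.GolayPt | x ∈ Cfsg.octads ∧ p ∈ x ∧ q ∈ x ∧ (o ∩ x).card = 2}.ncard = 16 ∧ {x : Finset Cfsg.GolayPt | x ∈ Cfsg.octads ∧ p ∈ x ∧ q ∈ x ∧ (o ∩ x).card = 4}.ncard = 60 ∧ ∃ g : Equiv.Perm Cfsg.GolayPt, g ∈ Cfsg.M24 ∧ g p = p ∧ g q = q ∧ g • o = o ∧ g • o' = o'' := by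
  obtain ⟨c, hc, hco, hcp, hcq⟩ := oct_frame2 o ho p q hp.1 hq.1 hpq
  have k2 := aux p q o c hc hco hcp hcq 2 16 352547 r04S2 r04S2_ok (by decide +kernel)
    (by decide +kernel) (by decide +kernel)
  have k4 := aux p q o c hc hco hcp hcq 4 60 18147 r04S4 r04S4_ok (by decide +kernel)
    (by decide +kernel) (by decide +kernel)
  refine ⟨k2.1, k4.1, ?_⟩
  have fin : ∀ g ∈ gSub [5279] 3, (c * g * c⁻¹) • o' = o'' →
      ∃ g : Equiv.Perm GolayPt, g ∈ M24 ∧ g p = p ∧ g q = q ∧ g • o = o ∧ g • o' = o'' :=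
    fun g hg hgy => ⟨c * g * c⁻¹, rk_conj_mem c g hc hg.1,
      rk_conj_pt c g _ _ hcp (rk_fix hg 0 (by norm_num) (by decide)),
      rk_conj_pt c g _ _ hcq (rk_fix hg 1 (by norm_num) (by decide)),
      rk_conj_set c g _ _ hco (rk_smul hg 5279 List.mem_cons_self), hgy⟩
  rcases octad_inter_card ho ho' with h0 | h0 | h0 | h0
  · exfalso
    have h1 : 0 < (o ∩ o').card := Finset.card_pos.2 ⟨p, Finset.mem_inter.2 ⟨hp.1, hp.2.1⟩⟩
    omega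
  · obtain ⟨g, hg, hgy⟩ := k2.2 o' o'' ho' ho'' ⟨hp.2.1, hq.2.1⟩ ⟨hp.2.2, hq.2.2⟩ h0
      (by rw [← h, h0])
    exact fin g hg hgy
  · obtain ⟨g, hg, hgy⟩ := k4.2 o' o'' ho' ho'' ⟨hp.2.1, hq.2.1⟩ ⟨hp.2.2, hq.2.2⟩ h0
      (by rw [← h, h0])
    exact fin g hg hgy
  · have h1 : o' = o := (octad_eq_of_inter ho ho' (by rw [h0]; norm_num)).symm
    have h2 : o'' = o := (octad_eq_of_inter ho ho'' (by rw [← h, h0]; norm_num)).symm
    exact ⟨1, M24.one_mem, rfl, rfl, one_smul _ _, by rw [one_smul, h1, h2]⟩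

end Cfsg.Agent.S1604
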