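import Cfsg.Statements.S1608
import Cfsg.Agent.Helper3.Rank.D08

set_option autoImplicit false
open scoped Pointwise
open Cfsg

namespace Cfsg.Agent.S1608

open Cfsg.Agent.Helper3

theorem aux (x : GolayPt) (o : Finset GolayPt) (c : Equiv.Perm GolayPt) (hc : c ∈ M24)
    (hco : c • gSupp 5279 = o) (hcx : c (gPt 5) = x) (j N m : ℕ)
    (pS : List (ℕ × ℕ × List ℕ × List ℕ × List (List ℕ)))
    (hS : gProgOK [m, 5279] 32 pS = true)
    (hm : (Nat.blt m 16777216 && gIsCw m && Nat.beq (gPopc m) 8 &&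
      ((!m.testBit 5) && Nat.beq (gPopc (Nat.land m 5279)) j)) = true)
    (hN : gCountLt 4096 (fun k => Nat.beq (gPopc (gCw k)) 8 &&
      ((!(gCw k).testBit 5) && Nat.beq (gPopc (Nat.land (gCw k) 5279)) j)) = N)
    (hp : gProgProd 32 r08K = N * gProgProd 32 pS) :
    {o' : Finset GolayPt | o' ∈ octads ∧ x ∉ o' ∧ (o ∩ o').card = j}.ncard = N ∧
      ∀ y y' : Finset GolayPt, y ∈ octads → y' ∈ octads → x ∉ y → x ∉ y' →
        (o ∩ y).card = j → (o ∩ y').card = j →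
        ∃ g ∈ gSub [5279] 32, (c * g * c⁻¹) • y = y' :=
  rk_class 8 5279 32 j N m (fun m => !m.testBit 5) (fun y => gPt 5 ∉ y) (fun y => x ∉ y) c hc o hco
    (fun y => not_congr (rk_mem_smul hcx y)) (fun m => rk_pt_not_mem 5 m (by norm_num))
    (fun g hg y h => (not_congr (rk_mem_smul (rk_fix hg 5 (by norm_num) (by decide)) y)).2 h)
    r08K pS r08K_ok hS hm hN hp

/-- The point stabiliser acts on the 506 octads avoiding the point with rank 4 and subdegrees 1, 15, 210, 280, the suborbits being given by intersection size with the fixed octad. -/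
theorem result (x : Cfsg.GolayPt) (o : Finset Cfsg.GolayPt) (ho : o ∈ Cfsg.octads) (hx : x ∉ o) : {o' : Finset Cfsg.GolayPt | o' ∈ Cfsg.octads ∧ x ∉ o' ∧ (o ∩ o').card = 0}.ncard = 15 ∧ {o' : Finset Cfsg.GolayPt | o' ∈ Cfsg.octads ∧ x ∉ o' ∧ (o ∩ o').card = 4}.ncard = 210 ∧ {o' : Finset Cfsg.GolayPt | o' ∈ Cfsg.octads ∧ x ∉ o' ∧ (o ∩ o').card = 2}.ncard = 280 ∧ ∀ o' o'' : Finset Cfsg.GolayPt, o' ∈ Cfsg.octads → o'' ∈ Cfsg.octads → x ∉ o' → x ∉ o'' → (o ∩ o').card = (o ∩ o'').card → ∃ g : Equiv.Perm Cfsg.GolayPt, g ∈ Cfsg.M24 ∧ g x = x ∧ g • o = o ∧ g • o' = o'' := by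
  obtain ⟨c, hc, hco, hcx⟩ := octad_point_frame o ho x hx
  have k0 := aux x o c hc hco hcx 0 15 1009728 r08S0 r08S0_ok (by decide +kernel)
    (by decide +kernel) (by decide +kernel)
  have k4 := aux x o c hc hco hcx 4 210 36294 r08S4 r08S4_ok (by decide +kernel)
    (by decide +kernel) (by decide +kernel)
  have k2 := aux x o c hc hco hcx 2 280 31554 r08S2 r08S2_ok (by decide +kernel)
    (by decide +kernel) (by decide +kernel)
  refine ⟨k0.1, k4.1, k2.1, ?_⟩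
  intro o' o'' ho' ho'' hx' hx'' h
  have fin : ∀ g ∈ gSub [5279] 32, (c * g * c⁻¹) • o' = o'' →
      ∃ g : Equiv.Perm GolayPt, g ∈ M24 ∧ g x = x ∧ g • o = o ∧ g • o' = o'' :=
    fun g hg hgy => ⟨c * g * c⁻¹, rk_conj_mem c g hc hg.1,
      rk_conj_pt c g _ _ hcx (rk_fix hg 5 (by norm_num) (by decide)),
      rk_conj_set c g _ _ hco (rk_smul hg 5279 List.mem_cons_self), hgy⟩
  rcases octad_inter_card ho ho' with h0 | h0 | h0 | h0
  · obtain ⟨g, hg, hgy⟩ := k0.2 o' o'' ho' ho'' hx' hx'' h0 (by rw [← h, h0])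
    exact fin g hg hgy
  · obtain ⟨g, hg, hgy⟩ := k2.2 o' o'' ho' ho'' hx' hx'' h0 (by rw [← h, h0])
    exact fin g hg hgy
  · obtain ⟨g, hg, hgy⟩ := k4.2 o' o'' ho' ho'' hx' hx'' h0 (by rw [← h, h0])
    exact fin g hg hgy
  · have h1 : o' = o := (octad_eq_of_inter ho ho' (by rw [h0]; norm_num)).symm
    have h2 : o'' = o := (octad_eq_of_inter ho ho'' (by rw [← h, h0]; norm_num)).symm
    exact ⟨1, M24.one_mem, rfl, one_smul _ _, by rw [one_smul, h1, h2]⟩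

end Cfsg.Agent.S1608
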