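import Cfsg.Statements.S1638
import Cfsg.Agent.Helper3.Fam.Pairs38

set_option autoImplicit false
open scoped Pointwise
open Cfsg

namespace Cfsg.Agent.S1638

open Cfsg.Agent.Helper3

/-- Fix two points p ≠ q and a pair s of two further points. Among the pairs avoiding p, q and disjoint from s, exactly 30 lie in an octad together with p, q and s and exactly 160 do not; and any two pairs other than s that meet s in equally many points and agree on that octad property are carried to one another by an element of the group of the length-24 code fixing p, q and s. -/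
theorem result (p q : Cfsg.GolayPt) (hpq : p ≠ q) (s : Finset Cfsg.GolayPt) (hs : (s.card = 2 ∧ p ∉ s ∧ q ∉ s)) : {t : Finset Cfsg.GolayPt | (t.card = 2 ∧ p ∉ t ∧ q ∉ t) ∧ Disjoint s t ∧ (∃ o ∈ Cfsg.octads, p ∈ o ∧ q ∈ o ∧ s ∪ t ⊆ o)}.ncard = 30 ∧ {t : Finset Cfsg.GolayPt | (t.card = 2 ∧ p ∉ t ∧ q ∉ t) ∧ Disjoint s t ∧ ¬ (∃ o ∈ Cfsg.octads, p ∈ o ∧ q ∈ o ∧ s ∪ t ⊆ o)}.ncard = 160 ∧ ∀ t t' : Finset Cfsg.GolayPt, (t.card = 2 ∧ p ∉ t ∧ q ∉ t) → (t'.card = 2 ∧ p ∉ t' ∧ q ∉ t') → t ≠ s → t' ≠ s → (s ∩ t).card = (s ∩ t').card → ((∃ o ∈ Cfsg.octads, p ∈ o ∧ q ∈ o ∧ s ∪ t ⊆ o) ↔ (∃ o ∈ Cfsg.octads, p ∈ o ∧ q ∈ o ∧ s ∪ t' ⊆ o)) → ∃ g : Equiv.Perm Cfsg.GolayPt, g ∈ Cfsg.M24 ∧ g p = p ∧ g q = q ∧ g • s = s ∧ g • t = t' := by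
  obtain ⟨a, b, hab, rfl⟩ := Finset.card_eq_two.1 hs.1
  have hpa : p ≠ a := fun h => hs.2.1 (by rw [h]; exact Finset.mem_insert_self a {b})
  have hpb : p ≠ b := fun h => hs.2.1
    (by rw [h]; exact Finset.mem_insert_of_mem (Finset.mem_singleton_self b))
  have hqa : q ≠ a := fun h => hs.2.2 (by rw [h]; exact Finset.mem_insert_self a {b})
  have hqb : q ≠ b := fun h => hs.2.2
    (by rw [h]; exact Finset.mem_insert_of_mem (Finset.mem_singleton_self b))
  obtain ⟨c, hc, hmap⟩ := M24_trans_list [gPt 0, gPt 1, gPt 2, gPt 3] [p, q, a, b]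
    (by decide +kernel) (by simp [hpq, hpa, hpb, hqa, hqb, hab]) rfl (by simp)
  simp only [List.map_cons, List.map_nil, List.cons.injEq, and_true] at hmap
  obtain ⟨h0, h1, h2, h3⟩ := hmap
  have hs' : c • gSupp 12 = {a, b} := by
    rw [gSupp_m12, Finset.smul_finset_insert, Finset.smul_finset_singleton]
    show ({c (gPt 2), c (gPt 3)} : Finset GolayPt) = {a, b}
    rw [h2, h3]
  exact pairs38_main c hc p q {a, b} h0 h1 hs' hpq hs

end Cfsg.Agent.S1638
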