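import Cfsg.Statements.S1639
import Cfsg.Agent.Helper3.Rank.D39

set_option autoImplicit false
open scoped Pointwise
open Cfsg

namespace Cfsg.Agent.S1639

open Cfsg.Agent.Helper3

theorem aux (x : GolayPt) (d : Finset GolayPt) (c : Equiv.Perm GolayPt) (hc : c ∈ M24)
    (hcd : c • gSupp 340831 = d) (hcx : c (gPt 0) = x) (j N m : ℕ)
    (pS : List (ℕ × ℕ × List ℕ × List ℕ × List (List ℕ)))
    (hS : gProgOK [m, 340831] 1 pS = true)
    (hm : (Nat.blt m 16777216 && gIsCw m && Nat.beq (gPopc m) 12 &&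
      (m.testBit 0 && Nat.beq (gPopc (Nat.land m 340831)) j)) = true)
    (hN : gCountLt 4096 (fun k => Nat.beq (gPopc (gCw k)) 12 &&
      ((gCw k).testBit 0 && Nat.beq (gPopc (Nat.land (gCw k) 340831)) j)) = N)
    (hp : gProgProd 1 r39K = N * gProgProd 1 pS) :
    {d' : Finset GolayPt | d' ∈ dodecads ∧ x ∈ d' ∧ (d ∩ d').card = j}.ncard = N ∧
      ∀ y y' : Finset GolayPt, y ∈ dodecads → y' ∈ dodecads → x ∈ y → x ∈ y' →
        (d ∩ y).card = j → (d ∩ y').card = j →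
        ∃ g ∈ gSub [340831] 1, (c * g * c⁻¹) • y = y' :=
  rk_class 12 340831 1 j N m (fun m => m.testBit 0) (fun y => gPt 0 ∈ y) (fun y => x ∈ y) c hc d
    hcd (fun y => rk_mem_smul hcx y) (fun m => rk_pt_mem 0 m (by norm_num))
    (fun g hg y h => (rk_mem_smul (rk_fix hg 0 (by norm_num) (by decide)) y).2 h)
    r39K pS r39K_ok hS hm hN hp

/-- The point stabiliser acts on the 1288 dodecads through the point with rank 4 and subdegrees 1, 165, 330, 792, distinguished by intersection 4, 8, 6 with the fixed dodecad. -/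
theorem result (x : Cfsg.GolayPt) (d : Finset Cfsg.GolayPt) (hd : d ∈ Cfsg.dodecads) (hx : x ∈ d) : {d' : Finset Cfsg.GolayPt | d' ∈ Cfsg.dodecads ∧ x ∈ d' ∧ (d ∩ d').card = 4}.ncard = 165 ∧ {d' : Finset Cfsg.GolayPt | d' ∈ Cfsg.dodecads ∧ x ∈ d' ∧ (d ∩ d').card = 8}.ncard = 330 ∧ {d' : Finset Cfsg.GolayPt | d' ∈ Cfsg.dodecads ∧ x ∈ d' ∧ (d ∩ d').card = 6}.ncard = 792 ∧ ∀ d' d'' : Finset Cfsg.GolayPt, d' ∈ Cfsg.dodecads → d'' ∈ Cfsg.dodecads → x ∈ d' → x ∈ d'' → (d ∩ d').card = (d ∩ d'').card → ∃ g : Equiv.Perm Cfsg.GolayPt, g ∈ Cfsg.M24 ∧ g x = x ∧ g • d = d ∧ g • d' = d'' := by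
  obtain ⟨c, hc, hcd, hcx'⟩ := exists_frame d hd 1 (by norm_num) (fun _ => x) (fun _ _ => hx)
    (fun i hi j hj _ => by omega)
  have hcx : c (gPt 0) = x := hcx' 0 (by norm_num)
  have k4 := aux x d c hc hcd hcx 4 165 1727659 r39S4 r39S4_ok (by decide +kernel)
    (by decide +kernel) (by decide +kernel)
  have k8 := aux x d c hc hcd hcx 8 330 28637 r39S8 r39S8_ok (by decide +kernel)
    (by decide +kernel) (by decide +kernel)
  have k6 := aux x d c hc hcd hcx 6 792 195645 r39S6 r39S6_ok (by decide +kernel)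
    (by decide +kernel) (by decide +kernel)
  refine ⟨k4.1, k8.1, k6.1, ?_⟩
  intro d' d'' hd' hd'' hx' hx'' h
  have fin : ∀ g ∈ gSub [340831] 1, (c * g * c⁻¹) • d' = d'' →
      ∃ g : Equiv.Perm GolayPt, g ∈ M24 ∧ g x = x ∧ g • d = d ∧ g • d' = d'' :=
    fun g hg hgy => ⟨c * g * c⁻¹, rk_conj_mem c g hc hg.1,
      rk_conj_pt c g _ _ hcx (rk_fix hg 0 (by norm_num) (by decide)),
      rk_conj_set c g _ _ hcd (rk_smul hg 340831 List.mem_cons_self), hgy⟩
  rcases dodecad_inter_card hd hd' with h0 | h0 | h0 | h0 | h0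
  · exfalso
    have h1 : 0 < (d ∩ d').card := Finset.card_pos.2 ⟨x, Finset.mem_inter.2 ⟨hx, hx'⟩⟩
    omega
  · obtain ⟨g, hg, hgy⟩ := k4.2 d' d'' hd' hd'' hx' hx'' h0 (by rw [← h, h0])
    exact fin g hg hgy
  · obtain ⟨g, hg, hgy⟩ := k6.2 d' d'' hd' hd'' hx' hx'' h0 (by rw [← h, h0])
    exact fin g hg hgy
  · obtain ⟨g, hg, hgy⟩ := k8.2 d' d'' hd' hd'' hx' hx'' h0 (by rw [← h, h0])
    exact fin g hg hgy
  · have h1 : d' = d := eq_of_inter_card_eq (by rw [h0, dodecads_card hd])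
      (by rw [dodecads_card hd, dodecads_card hd'])
    have h2 : d'' = d := eq_of_inter_card_eq (s := d) (t := d'')
      (by rw [← h, h0, dodecads_card hd]) (by rw [dodecads_card hd, dodecads_card hd''])
    exact ⟨1, M24.one_mem, rfl, one_smul _ _, by rw [one_smul, h1, h2]⟩

end Cfsg.Agent.S1639
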