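import Cfsg.Statements.S1691
-- import your own Cfsg.Agent.* helpers here


set_option autoImplicit false
open Cfsg

namespace Cfsg.Agent.S1691


open Cfsg.Spor

theorem rel_one {x y : Fi24.Gen} (hx : x ∈ coxNodes Fi24.edges) (hy : y ∈ coxNodes Fi24.edges) :
    ((PresentedGroup.of x : Fi24) * PresentedGroup.of y) ^ coxLabel Fi24.edges x y = 1 := by
  have h : (FreeGroup.of x * FreeGroup.of y) ^ coxLabel Fi24.edges x y ∈
      (coxRelators Fi24.edges ∪ {r | r ∈ Fi24.extra}) :=
    Or.inl ⟨x, hx, y, hy, rfl⟩
  have h2 := PresentedGroup.one_of_mem h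
  simpa [PresentedGroup.of] using h2

theorem sq_one {x : Fi24.Gen} (hx : x ∈ coxNodes Fi24.edges) :
    (PresentedGroup.of x : Fi24) ^ 2 = 1 := by
  have h := rel_one hx hx
  have hl : coxLabel Fi24.edges x x = 1 := by simp [coxLabel]
  rw [hl, pow_one] at h
  rw [pow_two]; exact h

theorem ab_eq {x y : Fi24.Gen} (hx : x ∈ coxNodes Fi24.edges) (hy : y ∈ coxNodes Fi24.edges)
    (hl : coxLabel Fi24.edges x y = 3) :
    (Abelianization.of (PresentedGroup.of x : Fi24)) = Abelianization.of (PresentedGroup.of y : Fi24) := by
  have h := rel_one hx hy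
  rw [hl] at h
  have h1 := congrArg (Abelianization.of (G := Fi24)) h
  have hx2 := congrArg (Abelianization.of (G := Fi24)) (sq_one hx)
  have hy2 := congrArg (Abelianization.of (G := Fi24)) (sq_one hy)
  simp only [map_pow, map_mul, map_one] at h1 hx2 hy2
  generalize Abelianization.of (PresentedGroup.of x : Fi24) = X at *
  generalize Abelianization.of (PresentedGroup.of y : Fi24) = Y at *
  have e : X * Y = 1 := by
    calc X * Y = (X * Y) ^ 3 * ((X ^ 2)⁻¹ * (Y ^ 2)⁻¹) := by
          have hX3 : X ^ 3 = X ^ 2 * X := pow_succ X 2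
          have hY3 : Y ^ 3 = Y ^ 2 * Y := pow_succ Y 2
          rw [mul_pow, hX3, hY3, hx2, hy2]; simp
      _ = 1 := by rw [h1, hx2, hy2]; simp
  have e2 : X = Y⁻¹ := eq_inv_of_mul_eq_one_left e
  rw [e2]
  exact inv_eq_of_mul_eq_one_left (by rw [← pow_two]; exact hy2)

/-- The commutator subgroup of the presented group Fi₂₄ has index 2 (the presented group is Fi₂₄′:2 with Fi₂₄′ its derived subgroup). -/
theorem result : (commutator Cfsg.Spor.Fi24).index = 2 := by
  classical
  have hall : ∀ x : Fi24.Gen, Abelianization.of (PresentedGroup.of x : Fi24) =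
      Abelianization.of (PresentedGroup.of Fi24.Gen.d : Fi24) := by
    have hc := ab_eq (x := .c) (y := .d) (by decide) (by decide) (by decide)
    have hb := (ab_eq (x := .b) (y := .c) (by decide) (by decide) (by decide)).trans hc
    have ha := (ab_eq (x := .a) (y := .b) (by decide) (by decide) (by decide)).trans hb
    have hk := (ab_eq (x := .k) (y := .a) (by decide) (by decide) (by decide)).trans ha
    have hl := (ab_eq (x := .l) (y := .k) (by decide) (by decide) (by decide)).trans hk
    have he := (ab_eq (x := .e) (y := .d) (by decide) (by decide) (by decide))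
    have hf := (ab_eq (x := .f) (y := .e) (by decide) (by decide) (by decide)).trans he
    have hg := (ab_eq (x := .g) (y := .f) (by decide) (by decide) (by decide)).trans hf
    have hj := (ab_eq (x := .j) (y := .g) (by decide) (by decide) (by decide)).trans hg
    have hh := (ab_eq (x := .h) (y := .d) (by decide) (by decide) (by decide))
    have hi := (ab_eq (x := .i) (y := .h) (by decide) (by decide) (by decide)).trans hh
    intro x
    cases x <;> first | rfl | assumption
  have hd2 : (Abelianization.of (PresentedGroup.of Fi24.Gen.d : Fi24)) ^ 2 = 1 := by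
    rw [← map_pow, sq_one (by decide), map_one]
  have htop : Subgroup.zpowers (Abelianization.of (PresentedGroup.of Fi24.Gen.d : Fi24)) = ⊤ := by
    rw [eq_top_iff]
    intro u _
    obtain ⟨v, rfl⟩ := QuotientGroup.mk_surjective u
    have := PresentedGroup.generated_by _ ((Subgroup.zpowers
      (Abelianization.of (PresentedGroup.of Fi24.Gen.d : Fi24))).comap Abelianization.of)
      (fun x => by
        rw [Subgroup.mem_comap, hall x]
        exact Subgroup.mem_zpowers _) v
    exact this
  have hidx : (commutator Cfsg.Spor.Fi24).index =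
      orderOf (Abelianization.of (PresentedGroup.of Fi24.Gen.d : Fi24)) := by
    rw [← Nat.card_zpowers, htop, Subgroup.card_top]
    rfl
  have hdvd : (commutator Cfsg.Spor.Fi24).index ∣ 2 := by
    rw [hidx]
    exact orderOf_dvd_of_pow_eq_one hd2
  rcases (Nat.dvd_prime Nat.prime_two).mp hdvd with h1 | h2
  · exfalso
    rw [Subgroup.index_eq_one] at h1
    let f : Fi24.Gen → Multiplicative (ZMod 2) := fun _ => Multiplicative.ofAdd 1
    have hf : ∀ r ∈ (coxRelators Fi24.edges ∪ {r | r ∈ Fi24.extra}), FreeGroup.lift f r = 1 := by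
      intro r hr
      rcases hr with ⟨x, hx, y, hy, rfl⟩ | hr
      · rw [map_pow, map_mul, FreeGroup.lift_apply_of, FreeGroup.lift_apply_of]
        have : f x * f y = 1 := by decide
        rw [this, one_pow]
      · simp only [Fi24.extra, List.mem_cons, List.not_mem_nil, or_false, Set.mem_ofPred_eq] at hr
        rcases hr with rfl | rfl
        · simp only [map_mul, map_pow, map_inv, FreeGroup.lift_apply_of, f]
          decide
        · simp only [map_mul, map_pow, FreeGroup.lift_apply_of, f]
          decide
    have hker : commutator Fi24 ≤ (PresentedGroup.toGroup hf).ker :=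
      Abelianization.commutator_subset_ker _
    have hmem : (PresentedGroup.of Fi24.Gen.d : Fi24) ∈ (PresentedGroup.toGroup hf).ker := by
      apply hker
      rw [h1]
      exact Subgroup.mem_top _
    rw [MonoidHom.mem_ker, PresentedGroup.toGroup.of] at hmem
    revert hmem
    decide
  · exact h2

end Cfsg.Agent.S1691
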