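import Cfsg.Statements.S1717
import Cfsg.Agent.Helper29.Transv

set_option autoImplicit false
open Cfsg

namespace Cfsg.Agent.S1717

/-- Let G be a finite group with an involution z whose centraliser C is isomorphic to the centraliser of a transvection of SL(5, 2). Then a Sylow 2-subgroup of C, viewed in G, is a Sylow 2-subgroup of G (its index in G is odd). -/
theorem result {G : Type*} [Group G] [Finite G] (s : Matrix.SpecialLinearGroup (Fin 5) (ZMod 2)) (hs : (s : Matrix (Fin 5) (Fin 5) (ZMod 2)) = Matrix.transvection 0 1 1) (z : G) (hz : orderOf z = 2) (e : (Subgroup.centralizer ({z} : Set G)) ≃* Subgroup.centralizer ({s} : Set (Matrix.SpecialLinearGroup (Fin 5) (ZMod 2)))) (T : Sylow 2 (Subgroup.centralizer ({z} : Set G))) : ¬ 2 ∣ ((T : Subgroup (Subgroup.centralizer ({z} : Set G))).map (Subgroup.subtype (Subgroup.centralizer ({z} : Set G)))).index := by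
  classical
apply Cfsg.Agent.Helper29.Transv.sylow_of_centre_small z hz T
have hsurj : (T : Subgroup (Subgroup.centralizer ({z} : Set G))) ≤ (e.symm.toMonoidHom).range := by
  intro x _
  exact ⟨e x, e.symm_apply_apply x⟩
have hmem : ∀ x0, x0 ∈ T.comapOfInjective e.symm.toMonoidHom e.symm.injective hsurj ↔
    e.symm x0 ∈ T := by
  intro x0
  exact Iff.rfl
have hsm := Cfsg.Agent.Helper29.Transv.centre_small s hs
  (T.comapOfInjective e.symm.toMonoidHom e.symm.injective hsurj)
intro x1 hx1 x2 hx2 hc1 hc2 hn1 hn2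
have h1 : e x1 ∈ T.comapOfInjective e.symm.toMonoidHom e.symm.injective hsurj :=
  (hmem _).mpr (by rw [e.symm_apply_apply]; exact hx1)
have h2 : e x2 ∈ T.comapOfInjective e.symm.toMonoidHom e.symm.injective hsurj :=
  (hmem _).mpr (by rw [e.symm_apply_apply]; exact hx2)
have hcen : ∀ x ∈ T, (∀ y ∈ T, x * y = y * x) →
    ∀ y0 ∈ T.comapOfInjective e.symm.toMonoidHom e.symm.injective hsurj,
      e x * y0 = y0 * e x := by
  intro x hx hc y0 hy0
  have h3 := congrArg e (hc (e.symm y0) ((hmem y0).mp hy0))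
  rwa [map_mul, map_mul, e.apply_symm_apply] at h3
have hne : ∀ x : Subgroup.centralizer ({z} : Set G), x ≠ 1 → e x ≠ 1 := by
  intro x hx h
  exact hx (e.injective (by rw [h, map_one]))
exact e.injective (hsm _ h1 _ h2 (hcen x1 hx1 hc1) (hcen x2 hx2 hc2) (hne x1 hn1) (hne x2 hn2))

end Cfsg.Agent.S1717
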