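import Cfsg.Statements.S1753
-- import your own Cfsg.Agent.* helpers here

set_option autoImplicit false
universe u
open Cfsg

namespace Cfsg.Agent.S1753

theorem part1 (K : ∀ (X : Type u) [Group X], Prop) (G : Type u) [Group G]
    (h : Cfsg.IsMinCounterexampleWith K G) : Cfsg.IsKProperWith K G := by
  obtain ⟨hfin, hsimp, hna, hnK, hmin⟩ := h
  intro H hH H' N hN hs hc
  haveI : Finite G := hfin
  apply hmin (↥H' ⧸ N) hs hc
  have h1 : Nat.card (↥H' ⧸ N) ≤ Nat.card ↥H' :=
    Nat.card_le_card_of_surjective _ (QuotientGroup.mk_surjective (s := N))
  have h2 : Nat.card ↥H' ≤ Nat.card ↥H := Nat.card_le_card_of_injective _ (Subgroup.subtype_injective H')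
  have h3 : Nat.card ↥H < Nat.card G := by
    by_contra hlt
    push_neg at hlt
    apply hH
    exact Subgroup.eq_top_of_le_card H hlt
  omega

/-- Let K be any property of groups. (1) If G is a minimal counterexample relative to K — a finite non-abelian simple group not satisfying K such that every finite non-abelian simple group of smaller order satisfies K — then every proper subgroup of G is a K-group (all its non-abelian simple sections satisfy K), since such sections have smaller order than G. (2) Consequently (induction on the order), if every finite non-abelian simple group all of whose proper subgroups are K-groups satisfies K, then every finite non-abelian simple group satisfies K. -/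
theorem result (K : ∀ (X : Type u) [Group X], Prop) :
    (∀ (G : Type u) [Group G], Cfsg.IsMinCounterexampleWith K G → Cfsg.IsKProperWith K G) ∧
      ((∀ (X : Type u) [Group X] [Finite X], IsSimpleGroup X → ¬ IsMulCommutative X → Cfsg.IsKProperWith K X → K X) →
        ∀ (G : Type u) [Group G] [Finite G], IsSimpleGroup G → ¬ IsMulCommutative G → K G) := by
  refine ⟨fun G _ h => part1 K G h, ?_⟩
  intro hstep
  have key : ∀ n : ℕ, ∀ (G : Type u) [Group G] [Finite G], Nat.card G = n →
      IsSimpleGroup G → ¬ IsMulCommutative G → K G := by
    intro n
    induction n using Nat.strong_induction_on with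
    | _ n ih =>
      intro G _ _ hn hs hc
      by_contra hK
      apply hK
      apply hstep G hs hc
      apply part1 K G
      refine ⟨inferInstance, hs, hc, hK, ?_⟩
      intro X _ _ hXs hXc hlt
      exact ih (Nat.card X) (hn ▸ hlt) X rfl hXs hXc
  intro G _ _ hs hc
  exact key (Nat.card G) G rfl hs hc

end Cfsg.Agent.S1753
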