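import Cfsg.Statements.S1754
-- import your own Cfsg.Agent.* helpers here
import Cfsg.Agent.Helper9.Comp

set_option autoImplicit false
open Cfsg

namespace Cfsg.Agent.S1754

/-- Let A be a standard subgroup of the finite group G (A quasisimple, C_G(A) tightly embedded of even order, A commuting elementwise with no other conjugate of itself, and N_G(A) = N_G(C_G(A))), and let t be an involution of G centralizing A. Then the centralizer of t lies in the normalizer of A; in particular A, viewed inside C_G(t), is a component of C_G(t). -/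
theorem result {G : Type*} [Group G] [Finite G]
    (A : Subgroup G) (hA : Cfsg.IsStandardSubgroup A) (t : G) (ht : orderOf t = 2) (htA : t ∈ Subgroup.centralizer (A : Set G)) :
    Subgroup.centralizer ({t} : Set G) ≤ Subgroup.normalizer (A : Set G) ∧
      Cfsg.IsComponent (A.subgroupOf (Subgroup.centralizer ({t} : Set G))) := by
  obtain ⟨hq, ⟨heven, hodd⟩, hcomm, hN⟩ := hA
  have hC : Subgroup.centralizer ({t} : Set G) ≤ Subgroup.normalizer (A : Set G) := by
    intro g hg
    rw [hN]
    by_contra hgN
    have ho := hodd g hgN
    have hgt : g * t = t * g := by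
      have := Subgroup.mem_centralizer_iff.mp hg t (Set.mem_singleton t)
      exact this.symm
    have ht2 : t ∈ Subgroup.centralizer (A : Set G) ⊓
        (Subgroup.centralizer (A : Set G)).map (MulAut.conj g).toMonoidHom := by
      refine ⟨htA, ?_⟩
      refine ⟨t, htA, ?_⟩
      simp only [MulEquiv.coe_toMonoidHom, MulAut.conj_apply]
      rw [hgt, mul_inv_cancel_right]
    have hd : orderOf (⟨t, ht2⟩ : ↥(Subgroup.centralizer (A : Set G) ⊓
        (Subgroup.centralizer (A : Set G)).map (MulAut.conj g).toMonoidHom)) ∣ Nat.card _ :=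
      orderOf_dvd_natCard _
    rw [Subgroup.orderOf_mk, ht] at hd
    exact (Nat.not_even_iff_odd.mpr ho) (even_iff_two_dvd.mpr hd)
  refine ⟨hC, ?_⟩
  have hAC : A ≤ Subgroup.centralizer ({t} : Set G) := by
    intro a ha
    rw [Subgroup.mem_centralizer_iff]
    intro h hh
    rw [Set.mem_singleton_iff] at hh
    subst hh
    exact (Subgroup.mem_centralizer_iff.mp htA a ha).symm
  have hn : (A.subgroupOf (Subgroup.centralizer ({t} : Set G))).Normal :=
    (Subgroup.normal_subgroupOf_iff_le_normalizer hAC).mpr hC
  exact ⟨hn.isSubnormal, (Cfsg.Agent.Helper9.quasi_subgroupOf_iff hAC).mpr hq⟩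

end Cfsg.Agent.S1754
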