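import Cfsg.Statements.S1755
-- import your own Cfsg.Agent.* helpers here
import Cfsg.Agent.Helper11.Fstar

set_option autoImplicit false
open Cfsg

namespace Cfsg.Agent.S1755


theorem key {Q : Type*} [Group Q] [Finite Q] (hQ : Cfsg.IsOfSymplecticType Q) (B : Subgroup Q)
    (hBc : B.Characteristic) (hBa : IsMulCommutative ↥B) (w : Q) (hw : w ∈ Subgroup.center Q)
    (hw2 : orderOf w = 2) (y : Q) (hy : y ∈ B) (hy1 : y ≠ 1) : y ^ (orderOf y / 2) = w := by
  obtain ⟨hp, hcyc⟩ := hQ
  have hcB : IsCyclic ↥B := hcyc B hBc hBa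
  have hcZ : IsCyclic ↥(Subgroup.center Q) := hcyc _ inferInstance inferInstance
  obtain ⟨k, hk⟩ := (IsPGroup.iff_orderOf.mp hp) y
  have hk0 : k ≠ 0 := by
    rintro rfl
    rw [pow_zero, orderOf_eq_one_iff] at hk
    exact hy1 hk
  obtain ⟨j, rfl⟩ := Nat.exists_eq_succ_of_ne_zero hk0
  have hm : orderOf y / 2 = 2 ^ j := by
    rw [hk, pow_succ]
    exact Nat.mul_div_cancel _ (by norm_num)
  rw [hm]
  have ho : orderOf (y ^ 2 ^ j) = 2 := by
    rw [orderOf_pow_of_dvd (by positivity) (by rw [hk]; exact pow_dvd_pow 2 (Nat.le_succ j)), hk,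
      pow_succ]
    exact Nat.mul_div_cancel_left _ (by positivity)
  have hyB : y ^ 2 ^ j ∈ B := B.pow_mem hy _
  have hn : B.Normal := Subgroup.normal_of_characteristic B
  have hcen : y ^ 2 ^ j ∈ Subgroup.center Q := by
    rw [Subgroup.mem_center_iff]
    intro q
    have h1 : q * y ^ 2 ^ j * q⁻¹ ∈ B := hn.conj_mem _ hyB q
    have h2 : orderOf (q * y ^ 2 ^ j * q⁻¹) = 2 := by
      have := (MulAut.conj q).orderOf_eq (y ^ 2 ^ j)
      rw [MulAut.conj_apply] at this
      rw [this, ho]
    have h3 := Cfsg.Agent.Helper11.cyclic_invol_unique (H := ↥B) ⟨q * y ^ 2 ^ j * q⁻¹, h1⟩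
      ⟨y ^ 2 ^ j, hyB⟩ (by rw [Subgroup.orderOf_mk]; exact h2) (by rw [Subgroup.orderOf_mk]; exact ho)
    have h4 := congrArg Subtype.val h3
    simp only at h4
    calc q * y ^ 2 ^ j = (q * y ^ 2 ^ j * q⁻¹) * q := by group
      _ = y ^ 2 ^ j * q := by rw [h4]
  have h5 := Cfsg.Agent.Helper11.cyclic_invol_unique (H := ↥(Subgroup.center Q)) ⟨y ^ 2 ^ j, hcen⟩
    ⟨w, hw⟩ (by rw [Subgroup.orderOf_mk]; exact ho) (by rw [Subgroup.orderOf_mk]; exact hw2)
  exact congrArg Subtype.val h5

/-- Let G be a finite group and let z be an involution of G such that Q, the generalized Fitting subgroup of the centralizer C of z, is a 2-group of symplectic type (every characteristic abelian subgroup of Q is cyclic). Let B be a characteristic abelian subgroup of Q, viewed as a subgroup of G. Then for every g in G, the conjugate of B by g either equals B or meets B trivially. -/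
theorem result {G : Type*} [Group G] [Finite G] (z : G) (hz : orderOf z = 2) (hQ : Cfsg.IsOfSymplecticType ↥(Cfsg.generalizedFittingSubgroup ↥(Subgroup.centralizer ({z} : Set G))))
    (B : Subgroup ↥(Cfsg.generalizedFittingSubgroup ↥(Subgroup.centralizer ({z} : Set G)))) (hBc : B.Characteristic) (hBa : IsMulCommutative ↥B) (g : G) :
    ((B.map (Cfsg.generalizedFittingSubgroup ↥(Subgroup.centralizer ({z} : Set G))).subtype).map (Subgroup.centralizer ({z} : Set G)).subtype).map (MulAut.conj g).toMonoidHom =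
        (B.map (Cfsg.generalizedFittingSubgroup ↥(Subgroup.centralizer ({z} : Set G))).subtype).map (Subgroup.centralizer ({z} : Set G)).subtype ∨
      ((B.map (Cfsg.generalizedFittingSubgroup ↥(Subgroup.centralizer ({z} : Set G))).subtype).map (Subgroup.centralizer ({z} : Set G)).subtype).map (MulAut.conj g).toMonoidHom ⊓
        (B.map (Cfsg.generalizedFittingSubgroup ↥(Subgroup.centralizer ({z} : Set G))).subtype).map (Subgroup.centralizer ({z} : Set G)).subtype = ⊥ := by
  classical
  have hzC : z ∈ Subgroup.centralizer ({z} : Set G) :=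
    Subgroup.mem_centralizer_iff.mpr (fun h hh => by rw [Set.mem_singleton_iff] at hh; rw [hh])
  have hzcen : (⟨z, hzC⟩ : ↥(Subgroup.centralizer ({z} : Set G))) ∈
      Subgroup.center ↥(Subgroup.centralizer ({z} : Set G)) := by
    rw [Subgroup.mem_center_iff]
    intro c
    apply Subtype.ext
    have := Subgroup.mem_centralizer_iff.mp c.2 z (Set.mem_singleton z)
    simpa using this.symm
  have hzQ : (⟨z, hzC⟩ : ↥(Subgroup.centralizer ({z} : Set G))) ∈
      Cfsg.generalizedFittingSubgroup ↥(Subgroup.centralizer ({z} : Set G)) :=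
    Cfsg.Agent.Helper11.fitting_le_genFitting _ (Cfsg.Agent.Helper11.center_le_fitting _ hzcen)
  have hwc : (⟨⟨z, hzC⟩, hzQ⟩ : ↥(Cfsg.generalizedFittingSubgroup
      ↥(Subgroup.centralizer ({z} : Set G)))) ∈ Subgroup.center _ := by
    rw [Subgroup.mem_center_iff]
    intro q
    apply Subtype.ext
    exact (Subgroup.mem_center_iff.mp hzcen q.1)
  have hw2 : orderOf (⟨⟨z, hzC⟩, hzQ⟩ : ↥(Cfsg.generalizedFittingSubgroup
      ↥(Subgroup.centralizer ({z} : Set G)))) = 2 := by
    rw [Subgroup.orderOf_mk, Subgroup.orderOf_mk]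
    exact hz
  have hkey : ∀ x ∈ (B.map (Cfsg.generalizedFittingSubgroup
      ↥(Subgroup.centralizer ({z} : Set G))).subtype).map
        (Subgroup.centralizer ({z} : Set G)).subtype, x ≠ 1 → x ^ (orderOf x / 2) = z := by
    rintro x ⟨c, ⟨y, hy, rfl⟩, rfl⟩ hx1
    have h0 := key hQ B hBc hBa _ hwc hw2 y hy (by rintro rfl; exact hx1 rfl)
    have h1 : orderOf ((Subgroup.centralizer ({z} : Set G)).subtype
        ((Cfsg.generalizedFittingSubgroup ↥(Subgroup.centralizer ({z} : Set G))).subtype y))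
        = orderOf y := by
      rw [Subgroup.subtype_apply, Subgroup.subtype_apply, Subgroup.orderOf_coe,
        Subgroup.orderOf_coe]
    rw [h1]
    have h2 := congrArg (fun q : ↥(Cfsg.generalizedFittingSubgroup
      ↥(Subgroup.centralizer ({z} : Set G))) => ((q : ↥(Subgroup.centralizer ({z} : Set G))) : G)) h0
    simpa using h2
  have hQn : (Cfsg.generalizedFittingSubgroup ↥(Subgroup.centralizer ({z} : Set G))).Normal :=
    Cfsg.Agent.Helper11.genFitting_normal _
  have hBn : (B.map (Cfsg.generalizedFittingSubgroup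
      ↥(Subgroup.centralizer ({z} : Set G))).subtype).Normal := inferInstance
  by_cases hbot : ((B.map (Cfsg.generalizedFittingSubgroup ↥(Subgroup.centralizer ({z} : Set G))).subtype).map (Subgroup.centralizer ({z} : Set G)).subtype).map (MulAut.conj g).toMonoidHom ⊓
        (B.map (Cfsg.generalizedFittingSubgroup ↥(Subgroup.centralizer ({z} : Set G))).subtype).map (Subgroup.centralizer ({z} : Set G)).subtype = ⊥
  · right; exact hbot
  · left
    obtain ⟨⟨x, hx⟩, hx1⟩ := (Subgroup.ne_bot_iff_exists_ne_one).mp hbot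
    have hx1' : x ≠ 1 := fun h => hx1 (Subtype.ext h)
    obtain ⟨⟨x0, hx0, hx0x⟩, hxB⟩ := hx
    simp only [MulEquiv.coe_toMonoidHom, MulAut.conj_apply] at hx0x
    have hx01 : x0 ≠ 1 := by
      rintro rfl
      apply hx1'
      rw [← hx0x]
      group
    have ho : orderOf x = orderOf x0 := by
      rw [← hx0x]
      have := (MulAut.conj g).orderOf_eq x0
      rw [MulAut.conj_apply] at this
      exact this
    have e1 := hkey x hxB hx1'
    have e2 := hkey x0 hx0 hx01
    rw [ho, ← hx0x, conj_pow, e2] at e1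
    have hgC : g ∈ Subgroup.centralizer ({z} : Set G) := by
      rw [Subgroup.mem_centralizer_iff]
      intro h hh
      rw [Set.mem_singleton_iff] at hh
      subst hh
      calc h * g = (g * h * g⁻¹) * g := by rw [e1]
        _ = g * h := by group
    ext u
    constructor
    · rintro ⟨v, ⟨c, hc, rfl⟩, rfl⟩
      exact ⟨⟨g, hgC⟩ * c * ⟨g, hgC⟩⁻¹, hBn.conj_mem c hc ⟨g, hgC⟩, rfl⟩
    · rintro ⟨c, hc, rfl⟩
      refine ⟨g⁻¹ * c * g, ⟨⟨g, hgC⟩⁻¹ * c * ⟨g, hgC⟩, ?_, rfl⟩, ?_⟩
      · have := hBn.conj_mem c hc ⟨g, hgC⟩⁻¹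
        simpa using this
      · simp only [MulEquiv.coe_toMonoidHom, MulAut.conj_apply, Subgroup.subtype_apply]
        group

end Cfsg.Agent.S1755
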