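import Cfsg.Statements.S1756
-- import your own Cfsg.Agent.* helpers here
import Cfsg.Agent.Helper11.Extra
import Cfsg.Agent.Helper11.TI

set_option autoImplicit false
open Cfsg

namespace Cfsg.Agent.S1756

/-- Let Q be an extraspecial 2-subgroup of the finite group G (special with centre of order 2) and t an involution of G normalizing Q such that the centralizer of t in Q has index at most 2 in Q. Then t lies in the product of Q with the centralizer of Q. -/
theorem result {G : Type*} [Group G] [Finite G] (Q : Subgroup G)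
    (hQ : Cfsg.IsExtraspecial 2 ↥Q) (t : G) (ht : orderOf t = 2) (htN : t ∈ Subgroup.normalizer (Q : Set G))
    (hi : (Subgroup.centralizer ({t} : Set G) ⊓ Q).relIndex Q ≤ 2) :
    t ∈ Q ⊔ Subgroup.centralizer (Q : Set G) := by
  classical
  obtain ⟨⟨hp, hfr, hcomm⟩, hZ⟩ := hQ
  have htt : t * t = 1 := by
    rw [← pow_two, ← ht]
    exact pow_orderOf_eq_one t
  have htinv : t⁻¹ = t := inv_eq_of_mul_eq_one_left htt
  have hτ2 : ∀ q : ↥Q, (Cfsg.Agent.Helper11.conjAut Q t htN) ((Cfsg.Agent.Helper11.conjAut Q t htN) q) = q := by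
    intro q
    apply Subtype.ext
    rw [Cfsg.Agent.Helper11.conjAut_apply, Cfsg.Agent.Helper11.conjAut_apply, htinv]
    calc t * (t * (q : G) * t) * t = (t * t) * q * (t * t) := by group
      _ = q := by rw [htt, one_mul, mul_one]
  have hF : ∀ q : ↥Q, q ∈ (Subgroup.centralizer ({t} : Set G) ⊓ Q).subgroupOf Q ↔
      (Cfsg.Agent.Helper11.conjAut Q t htN) q = q := by
    intro q
    rw [Subgroup.mem_subgroupOf, Subgroup.mem_inf, Subgroup.mem_centralizer_iff]
    constructor
    · rintro ⟨h, _⟩
      apply Subtype.ext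
      rw [Cfsg.Agent.Helper11.conjAut_apply]
      have := h t (Set.mem_singleton t)
      rw [this, mul_inv_cancel_right]
    · intro h
      refine ⟨?_, q.2⟩
      intro x hx
      rw [Set.mem_singleton_iff] at hx
      subst hx
      have h' := congrArg Subtype.val h
      rw [Cfsg.Agent.Helper11.conjAut_apply] at h'
      calc x * (q : G) = (x * q * x⁻¹) * x := by group
        _ = q * x := by rw [h']
  obtain ⟨a, ha⟩ := Cfsg.Agent.Helper11.inner_of_fix (Cfsg.Agent.Helper11.conjAut Q t htN) hτ2 _ hF hi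
    hcomm hZ
  have hmem : (a : G)⁻¹ * t ∈ Subgroup.centralizer (Q : Set G) := by
    rw [Subgroup.mem_centralizer_iff]
    intro q hq
    have h1 := congrArg Subtype.val (ha ⟨q, hq⟩)
    rw [Cfsg.Agent.Helper11.conjAut_apply] at h1
    have h2 : t * q * t⁻¹ = (a : G) * q * (a : G)⁻¹ := by simpa using h1
    calc q * ((a : G)⁻¹ * t) = (a : G)⁻¹ * ((a : G) * q * (a : G)⁻¹) * t := by group
      _ = (a : G)⁻¹ * (t * q * t⁻¹) * t := by rw [h2]
      _ = (a : G)⁻¹ * t * q := by group
  have hsplit : t = (a : G) * ((a : G)⁻¹ * t) := by group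
  rw [hsplit]
  exact Subgroup.mul_mem_sup a.2 hmem

end Cfsg.Agent.S1756
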