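import Cfsg.Statements.S1774
-- import your own Cfsg.Agent.* helpers here
import Cfsg.Agent.Helper11.Symp2
import Cfsg.Agent.Helper11.Fstar
import Cfsg.Agent.Helper9.FStar

set_option autoImplicit false
open Cfsg

namespace Cfsg.Agent.S1774


open Cfsg.Agent.Helper11 in
theorem aux {G : Type*} [Group G] [Finite G] (z : G) (hz : orderOf z = 2) (C : Subgroup G)
    (hC : ∀ c : G, c ∈ C ↔ c * z = z * c)
    (F : Subgroup ↥C) (hFn : F.Normal) (hcent : Subgroup.centralizer (F : Set ↥C) ≤ F)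
    (hzF : ∀ hzC : z ∈ C, (⟨z, hzC⟩ : ↥C) ∈ F)
    (hS : Cfsg.IsOfSymplecticType ↥F)
    (h4 : ∀ q ∈ F.map C.subtype, q ^ 4 = 1) (g : G) (hne : g * z * g⁻¹ ≠ z)
    (hin : g * z * g⁻¹ ∈ F.map C.subtype) :
    z ∈ (F.map C.subtype).map (MulAut.conj g).toMonoidHom ∧
      ∀ u ∈ Subgroup.closure ({z, g * z * g⁻¹} : Set G),
        ∀ v ∈ Subgroup.closure ({z, g * z * g⁻¹} : Set G),
        u ≠ 1 → v ≠ 1 → u ≠ v →
          ∃ x ∈ F.map C.subtype ⊔ (F.map C.subtype).map (MulAut.conj g).toMonoidHom,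
            x * z * x⁻¹ = u ∧ x * (g * z * g⁻¹) * x⁻¹ = v := by
  classical
  have hz2 : z * z = 1 := by
    rw [← pow_two, ← hz]
    exact pow_orderOf_eq_one z
  have hz1 : z ≠ 1 := by
    intro h
    rw [h, orderOf_one] at hz
    exact absurd hz (by norm_num)
  have hzC : z ∈ C := (hC z).mpr rfl
  have hzF' := hzF hzC
  have hzQ : z ∈ F.map C.subtype := Subgroup.mem_map.mpr ⟨⟨z, hzC⟩, hzF', rfl⟩
  have hQ2 : IsPGroup 2 ↥(F.map C.subtype) := hS.1.map C.subtype
  have hQC : ∀ q ∈ F.map C.subtype, q * z = z * q := by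
    intro q hq
    obtain ⟨q0, -, rfl⟩ := Subgroup.mem_map.mp hq
    exact (hC _).mp q0.2
  have hQN : ∀ c : G, c * z = z * c → ∀ q ∈ F.map C.subtype,
      c * q * c⁻¹ ∈ F.map C.subtype := by
    intro c hc q hq
    obtain ⟨q0, hq0, rfl⟩ := Subgroup.mem_map.mp hq
    exact Subgroup.mem_map.mpr ⟨⟨c, (hC c).mpr hc⟩ * q0 * ⟨c, (hC c).mpr hc⟩⁻¹,
      hFn.conj_mem q0 hq0 _, rfl⟩
  have hz1cen : (⟨⟨z, hzC⟩, hzF'⟩ : ↥F) ∈ Subgroup.center ↥F := by
    rw [Subgroup.mem_center_iff]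
    intro q
    apply Subtype.ext
    apply Subtype.ext
    exact (hC _).mp q.1.2
  have hz1sq : (⟨⟨z, hzC⟩, hzF'⟩ : ↥F) * ⟨⟨z, hzC⟩, hzF'⟩ = 1 :=
    Subtype.ext (Subtype.ext hz2)
  have hz1ne : (⟨⟨z, hzC⟩, hzF'⟩ : ↥F) ≠ 1 := by
    intro h
    exact hz1 (congrArg (fun q : ↥F => ((q : ↥C) : G)) h)
  have h4' : ∀ x : ↥F, x ^ 4 = 1 := by
    intro x
    apply Subtype.ext
    apply Subtype.ext
    have h := h4 ((x : ↥C) : G) (Subgroup.mem_map.mpr ⟨x.1, x.2, rfl⟩)
    rw [Subgroup.coe_pow, Subgroup.coe_pow]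
    exact h
  have hstruct := symp_struct h4' hS.2 _ hz1cen hz1sq hz1ne
  have hcomm : ∀ p ∈ F.map C.subtype, ∀ q ∈ F.map C.subtype,
      p * q * p⁻¹ * q⁻¹ = 1 ∨ p * q * p⁻¹ * q⁻¹ = z := by
    intro p hp q hq
    obtain ⟨p0, hp0, rfl⟩ := Subgroup.mem_map.mp hp
    obtain ⟨q0, hq0, rfl⟩ := Subgroup.mem_map.mp hq
    rcases hstruct ⟨p0, hp0⟩ ⟨q0, hq0⟩ with h | h
    · left
      exact congrArg (fun t : ↥F => ((t : ↥C) : G)) h
    · right
      exact congrArg (fun t : ↥F => ((t : ↥C) : G)) h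
  have hcen : ∀ ζ ∈ F.map C.subtype, (∀ q ∈ F.map C.subtype, q * ζ = ζ * q) → ζ * ζ = 1 →
      ζ = 1 ∨ ζ = z := by
    intro ζ hζ hζc hζ2
    obtain ⟨ζ0, hζ0, rfl⟩ := Subgroup.mem_map.mp hζ
    have h1 : (⟨ζ0, hζ0⟩ : ↥F) ∈ Subgroup.center ↥F := by
      rw [Subgroup.mem_center_iff]
      intro q
      apply Subtype.ext
      apply Subtype.ext
      exact hζc _ (Subgroup.mem_map.mpr ⟨q.1, q.2, rfl⟩)
    have h2 : (⟨ζ0, hζ0⟩ : ↥F) * ⟨ζ0, hζ0⟩ = 1 := Subtype.ext (Subtype.ext hζ2)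
    rcases symp_center hS.2 _ hz1cen hz1sq hz1ne _ h1 h2 with h | h
    · left
      exact congrArg (fun t : ↥F => ((t : ↥C) : G)) h
    · right
      exact congrArg (fun t : ↥F => ((t : ↥C) : G)) h
  have hself : ∀ c : G, (∀ q ∈ F.map C.subtype, c * q = q * c) → c ∈ F.map C.subtype := by
    intro c hc
    have hcC : c ∈ C := (hC c).mpr (hc z hzQ)
    have h1 : (⟨c, hcC⟩ : ↥C) ∈ Subgroup.centralizer (F : Set ↥C) := by
      rw [Subgroup.mem_centralizer_iff]
      intro f hf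
      apply Subtype.ext
      exact (hc _ (Subgroup.mem_map.mpr ⟨f, hf, rfl⟩)).symm
    exact Subgroup.mem_map.mpr ⟨⟨c, hcC⟩, hcent h1, rfl⟩
  exact symp_main (F.map C.subtype) z hzQ hz2 hz1 hQ2 hQC hQN hcomm hcen hself g
    (g * z * g⁻¹) rfl hin hne

/-- Let G be a finite group and let z be an involution of G such that Q, the generalized Fitting subgroup of the centralizer C of z, is a 2-group of symplectic type (every characteristic abelian subgroup of Q is cyclic); suppose every element of Q has order dividing 4. Let g ∈ G with z' = g z g⁻¹ ≠ z and z' ∈ Q. Then z lies in the conjugate g Q g⁻¹, and the subgroup X generated by Q and g Q g⁻¹ induces every automorphism of the four-group generated by z and z': for any two distinct non-identity elements u, v of that four-group there is x ∈ X with x z x⁻¹ = u and x z' x⁻¹ = v. -/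
theorem result {G : Type*} [Group G] [Finite G] (z : G) (hz : orderOf z = 2) (hQ : Cfsg.IsOfSymplecticType ↥(Cfsg.generalizedFittingSubgroup ↥(Subgroup.centralizer ({z} : Set G))))
    (h4 : ∀ q ∈ (Cfsg.generalizedFittingSubgroup ↥(Subgroup.centralizer ({z} : Set G))).map (Subgroup.centralizer ({z} : Set G)).subtype, q ^ 4 = 1) (g : G) (hne : g * z * g⁻¹ ≠ z) (hin : g * z * g⁻¹ ∈ (Cfsg.generalizedFittingSubgroup ↥(Subgroup.centralizer ({z} : Set G))).map (Subgroup.centralizer ({z} : Set G)).subtype) :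
    z ∈ ((Cfsg.generalizedFittingSubgroup ↥(Subgroup.centralizer ({z} : Set G))).map (Subgroup.centralizer ({z} : Set G)).subtype).map (MulAut.conj g).toMonoidHom ∧
      ∀ u ∈ Subgroup.closure ({z, g * z * g⁻¹} : Set G), ∀ v ∈ Subgroup.closure ({z, g * z * g⁻¹} : Set G),
        u ≠ 1 → v ≠ 1 → u ≠ v →
          ∃ x ∈ (Cfsg.generalizedFittingSubgroup ↥(Subgroup.centralizer ({z} : Set G))).map (Subgroup.centralizer ({z} : Set G)).subtype ⊔ ((Cfsg.generalizedFittingSubgroup ↥(Subgroup.centralizer ({z} : Set G))).map (Subgroup.centralizer ({z} : Set G)).subtype).map (MulAut.conj g).toMonoidHom, x * z * x⁻¹ = u ∧ x * (g * z * g⁻¹) * x⁻¹ = v := by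
  exact aux z hz (Subgroup.centralizer ({z} : Set G))
    (fun c => Subgroup.mem_centralizer_singleton_iff)
    (Cfsg.generalizedFittingSubgroup ↥(Subgroup.centralizer ({z} : Set G)))
    (Cfsg.Agent.Helper11.genFitting_normal _) Cfsg.Agent.Helper9.centralizer_genFitting_le
    (fun hzC => Cfsg.Agent.Helper11.fitting_le_genFitting _
      (Cfsg.Agent.Helper11.center_le_fitting _
        (Subgroup.mem_center_iff.mpr
          (fun c => Subtype.ext (Subgroup.mem_centralizer_singleton_iff.mp c.2)))))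
    hQ h4 g hne hin

end Cfsg.Agent.S1774
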