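import Cfsg.Statements.S1783
-- import your own Cfsg.Agent.* helpers here
import Cfsg.Agent.Helper11.TI2
import Cfsg.Agent.Helper9.FStar

set_option autoImplicit false
open Cfsg

namespace Cfsg.Agent.S1783

/-- Let X be a finite group whose generalized Fitting subgroup equals its largest normal 2-subgroup Q, and let A be an abelian 2-subgroup of X such that every conjugate of A equals A or meets A trivially. Let B be the subgroup generated by the squares of the elements of A. Then B lies in Q, and if B is not an elementary abelian 2-group then the normal closure of B in X is commutative. -/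
theorem result {X : Type*} [Group X] [Finite X]
    (hX : Cfsg.generalizedFittingSubgroup X = Cfsg.pCore 2 X) (A : Subgroup X) (hA2 : IsPGroup 2 ↥A) (hAa : IsMulCommutative ↥A)
    (hti : ∀ h : X, A.map (MulAut.conj h).toMonoidHom = A ∨ A.map (MulAut.conj h).toMonoidHom ⊓ A = ⊥) :
    Subgroup.closure ((fun a : X => a ^ 2) '' (A : Set X)) ≤ Cfsg.pCore 2 X ∧
      (¬ Cfsg.IsElementaryAbelian 2 (Subgroup.closure ((fun a : X => a ^ 2) '' (A : Set X))) →
        IsMulCommutative ↥(Subgroup.normalClosure ((fun a : X => a ^ 2) '' (A : Set X)))) := by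
  haveI : Fact (Nat.Prime 2) := ⟨Nat.prime_two⟩
  have hC : Subgroup.centralizer ((Cfsg.pCore 2 X : Subgroup X) : Set X) ≤ Cfsg.pCore 2 X := by
    have h := Cfsg.Agent.Helper9.centralizer_genFitting_le (G := X)
    rw [hX] at h
    exact h
  exact Cfsg.Agent.Helper11.ti_squares (Cfsg.Agent.Helper16.pCore_normal 2 X)
    (Cfsg.Agent.Helper16.pCore_isPGroup 2 X) hC
    (fun N hN hp => Cfsg.Agent.Helper16.le_pCore hN hp) A hA2 hAa hti

end Cfsg.Agent.S1783
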