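import Cfsg.Statements.S1784
-- import your own Cfsg.Agent.* helpers here
import Cfsg.Agent.Helper11.Extra2
import Cfsg.Agent.Helper11.TI
import Cfsg.Agent.Helper11.TwoGroup
import Cfsg.Agent.Helper11.Fstar
import Cfsg.Agent.Helper9.FStar

set_option autoImplicit false
open Cfsg

namespace Cfsg.Agent.S1784


open Cfsg.Agent.Helper11 in
theorem aux {G : Type*} [Group G] [Finite G] (z : G) (hz : orderOf z = 2) (C : Subgroup G)
    (F : Subgroup ↥C) (hFn : F.Normal) (hcent : Subgroup.centralizer (F : Set ↥C) ≤ F)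
    (hzC : z ∈ C) (hzF : (⟨z, hzC⟩ : ↥C) ∈ F) (hzcen : ∀ c : ↥C, c * ⟨z, hzC⟩ = ⟨z, hzC⟩ * c)
    (hc : commutator ↥F = Subgroup.center ↥F) (hZ : Nat.card (Subgroup.center ↥F) = 2)
    (α : G) (hα : orderOf α = 2) (hαC : α ∈ C) (hαQ : α ∉ F.map C.subtype)
    (Q₀ : Subgroup G)
    (hQ₀ : ∀ q : G, q ∈ Q₀ ↔ (q ∈ F.map C.subtype ∧ α * q * α⁻¹ * q⁻¹ ∈ Subgroup.zpowers z)) :
    Subgroup.closure ((fun q : G => α * q * α⁻¹ * q⁻¹) '' (F.map C.subtype : Set G)) =
        (Subgroup.center ↥Q₀).map Q₀.subtype ∧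
      (¬ Q₀ ≤ (F.map C.subtype ⊓ Subgroup.centralizer ({α} : Set G)) ⊔ Subgroup.zpowers z →
        ∃ q ∈ F.map C.subtype, q * α * q⁻¹ = α * z) := by
  classical
  have hα2 : α * α = 1 := by
    rw [← pow_two, ← hα]
    exact pow_orderOf_eq_one α
  have hαinv : α⁻¹ = α := inv_eq_of_mul_eq_one_left hα2
  have hαN : (⟨α, hαC⟩ : ↥C) ∈ Subgroup.normalizer (F : Set ↥C) :=
    mem_normalizer_of_conj_mem (fun x hx => hFn.conj_mem x hx _)
  have hwc : (⟨⟨z, hzC⟩, hzF⟩ : ↥F) ∈ Subgroup.center ↥F := by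
    rw [Subgroup.mem_center_iff]
    intro q
    apply Subtype.ext
    exact hzcen q.1
  have hw1 : (⟨⟨z, hzC⟩, hzF⟩ : ↥F) ≠ 1 := by
    intro h
    have h1 : z = 1 := congrArg (fun q : ↥F => ((q : ↥C) : G)) h
    rw [h1, orderOf_one] at hz
    exact absurd hz (by norm_num)
  have hτ2 : ∀ q : ↥F, (conjAut F ⟨α, hαC⟩ hαN) ((conjAut F ⟨α, hαC⟩ hαN) q) = q := by
    intro q
    apply Subtype.ext
    apply Subtype.ext
    show α * (α * ((q : ↥C) : G) * α⁻¹) * α⁻¹ = ((q : ↥C) : G)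
    rw [hαinv]
    calc α * (α * ((q : ↥C) : G) * α) * α = (α * α) * ((q : ↥C) : G) * (α * α) := by group
      _ = ((q : ↥C) : G) := by rw [hα2, one_mul, mul_one]
  have hne : ∃ q : ↥F, (conjAut F ⟨α, hαC⟩ hαN) q ≠ q := by
    by_contra hcon
    push Not at hcon
    apply hαQ
    have hmem : (⟨α, hαC⟩ : ↥C) ∈ Subgroup.centralizer (F : Set ↥C) := by
      rw [Subgroup.mem_centralizer_iff]
      intro y hy
      have h1 : (⟨α, hαC⟩ : ↥C) * y * (⟨α, hαC⟩ : ↥C)⁻¹ = y :=
        congrArg Subtype.val (hcon ⟨y, hy⟩)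
      calc y * ⟨α, hαC⟩ = ((⟨α, hαC⟩ : ↥C) * y * (⟨α, hαC⟩ : ↥C)⁻¹) * ⟨α, hαC⟩ := by rw [h1]
        _ = ⟨α, hαC⟩ * y := by group
    exact Subgroup.mem_map.mpr ⟨⟨α, hαC⟩, hcent hmem, rfl⟩
  have hj : Function.Injective (C.subtype.comp F.subtype) := by
    intro a b h
    exact Subtype.ext (Subtype.ext h)
  have hQ : ∀ x, x ∈ F.map C.subtype ↔ ∃ y : ↥F, (C.subtype.comp F.subtype) y = x := by
    intro x
    rw [Subgroup.mem_map]
    constructor
    · rintro ⟨c, hc', rfl⟩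
      exact ⟨⟨c, hc'⟩, rfl⟩
    · rintro ⟨y, rfl⟩
      exact ⟨y.1, y.2, rfl⟩
  have hZj : ∀ y : ↥F, (C.subtype.comp F.subtype) y ∈ Subgroup.zpowers z ↔
      y ∈ Subgroup.center ↥F := by
    intro y
    constructor
    · intro h
      rcases mem_zpowers_two hz h with h1 | h1
      · have h2 : y = 1 := hj (h1.trans (map_one _).symm)
        rw [h2]
        exact Subgroup.one_mem _
      · have h2 : y = ⟨⟨z, hzC⟩, hzF⟩ := hj (h1.trans rfl)
        rw [h2]
        exact hwc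
    · intro h
      by_cases hy1 : y = 1
      · rw [hy1, map_one]
        exact Subgroup.one_mem _
      · have h2 : y = ⟨⟨z, hzC⟩, hzF⟩ := center_eq_of_ne_one hZ h hwc hy1 hw1
        rw [h2]
        exact Subgroup.mem_zpowers z
  refine ⟨comm_closure_map (C.subtype.comp F.subtype) hj hc hZ (conjAut F ⟨α, hαC⟩ hαN) hτ2 hne α
    (fun y => rfl) (F.map C.subtype) (Subgroup.zpowers z) Q₀ hQ hZj hQ₀, ?_⟩
  intro hnot
  obtain ⟨q, hq, hqn⟩ := SetLike.not_le_iff_exists.mp hnot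
  obtain ⟨hqQ, hqz⟩ := (hQ₀ q).mp hq
  rcases mem_zpowers_two hz hqz with h1 | h1
  · exfalso
    apply hqn
    apply Subgroup.mem_sup_left
    refine Subgroup.mem_inf.mpr ⟨hqQ, ?_⟩
    rw [Subgroup.mem_centralizer_iff]
    intro x hx
    rw [Set.mem_singleton_iff] at hx
    rw [hx]
    calc α * q = (α * q * α⁻¹ * q⁻¹) * (q * α) := by group
      _ = q * α := by rw [h1, one_mul]
  · refine ⟨q, hqQ, ?_⟩
    calc q * α * q⁻¹ = α * (α⁻¹ * q * α * q⁻¹) := by group
      _ = α * (α * q * α⁻¹ * q⁻¹) := by rw [hαinv]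
      _ = α * z := by rw [h1]

/-- Let G be a finite group and let z be an involution of G such that Q, the generalized Fitting subgroup of the centralizer C of z, is a 2-group of symplectic type (every characteristic abelian subgroup of Q is cyclic); suppose Q is extraspecial, and view Q inside G. Let α be an involution of C that is not in Q, and let Q₀ be the subgroup of those q ∈ Q whose commutator with α lies in the subgroup generated by z. Then (a) the subgroup generated by the commutators α q α⁻¹ q⁻¹, q ∈ Q, equals the centre of Q₀; and (b) if Q₀ is not contained in the product of the centralizer of α in Q with the subgroup generated by z, then some element of Q conjugates α to α z. -/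
theorem result {G : Type*} [Group G] [Finite G] (z : G) (hz : orderOf z = 2) (hQ : Cfsg.IsOfSymplecticType ↥(Cfsg.generalizedFittingSubgroup ↥(Subgroup.centralizer ({z} : Set G)))) (hE : Cfsg.IsExtraspecial 2 ↥(Cfsg.generalizedFittingSubgroup ↥(Subgroup.centralizer ({z} : Set G))))
    (α : G) (hα : orderOf α = 2) (hαC : α ∈ Subgroup.centralizer ({z} : Set G)) (hαQ : α ∉ (Cfsg.generalizedFittingSubgroup ↥(Subgroup.centralizer ({z} : Set G))).map (Subgroup.centralizer ({z} : Set G)).subtype)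
    (Q₀ : Subgroup G) (hQ₀ : ∀ q : G, q ∈ Q₀ ↔ (q ∈ (Cfsg.generalizedFittingSubgroup ↥(Subgroup.centralizer ({z} : Set G))).map (Subgroup.centralizer ({z} : Set G)).subtype ∧ α * q * α⁻¹ * q⁻¹ ∈ Subgroup.zpowers z)) :
    Subgroup.closure ((fun q : G => α * q * α⁻¹ * q⁻¹) '' ((Cfsg.generalizedFittingSubgroup ↥(Subgroup.centralizer ({z} : Set G))).map (Subgroup.centralizer ({z} : Set G)).subtype : Set G)) = (Subgroup.center ↥Q₀).map Q₀.subtype ∧
      (¬ Q₀ ≤ ((Cfsg.generalizedFittingSubgroup ↥(Subgroup.centralizer ({z} : Set G))).map (Subgroup.centralizer ({z} : Set G)).subtype ⊓ Subgroup.centralizer ({α} : Set G)) ⊔ Subgroup.zpowers z →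
        ∃ q ∈ (Cfsg.generalizedFittingSubgroup ↥(Subgroup.centralizer ({z} : Set G))).map (Subgroup.centralizer ({z} : Set G)).subtype, q * α * q⁻¹ = α * z) := by
  obtain ⟨⟨hp, hfr, hcomm⟩, hZ⟩ := hE
  have hzC : z ∈ Subgroup.centralizer ({z} : Set G) :=
    Subgroup.mem_centralizer_iff.mpr (fun h hh => by rw [Set.mem_singleton_iff] at hh; rw [hh])
  have hzcen : ∀ c : ↥(Subgroup.centralizer ({z} : Set G)), c * ⟨z, hzC⟩ = ⟨z, hzC⟩ * c := by
    intro c
    apply Subtype.ext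
    have := Subgroup.mem_centralizer_iff.mp c.2 z (Set.mem_singleton z)
    simpa using this.symm
  have hzcen' : (⟨z, hzC⟩ : ↥(Subgroup.centralizer ({z} : Set G))) ∈
      Subgroup.center ↥(Subgroup.centralizer ({z} : Set G)) :=
    Subgroup.mem_center_iff.mpr hzcen
  have hzQ : (⟨z, hzC⟩ : ↥(Subgroup.centralizer ({z} : Set G))) ∈
      Cfsg.generalizedFittingSubgroup ↥(Subgroup.centralizer ({z} : Set G)) :=
    Cfsg.Agent.Helper11.fitting_le_genFitting _ (Cfsg.Agent.Helper11.center_le_fitting _ hzcen')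
  exact aux z hz _ _ (Cfsg.Agent.Helper11.genFitting_normal _)
    Cfsg.Agent.Helper9.centralizer_genFitting_le hzC hzQ hzcen hcomm hZ α hα hαC hαQ Q₀ hQ₀

end Cfsg.Agent.S1784
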