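import Cfsg.Statements.S1957
-- import your own Cfsg.Agent.* helpers here
import Cfsg.Agent.Helper12.NFour
import Cfsg.Agent.S1324

set_option autoImplicit false
open Cfsg

namespace Cfsg.Agent.S1957

open Cfsg.Agent.Helper12 Cfsg.Agent.Helper16

/-- Let `G` be a finite non-abelian simple group in which every local subgroup is solvable and which is of characteristic 2 type. Let `P` be a Sylow 2-subgroup of `G` and `U` a normal subgroup of `P` that is a four-group, with `U` central in `P` if the centre of `P` is not cyclic. Then `U` centralizes every subgroup of odd order of `G` that it normalizes. -/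
theorem result {G : Type*} [Group G] [Finite G]
    [IsSimpleGroup G] (hna : ¬ IsMulCommutative G) (hN : Cfsg.IsNGroup G) (h2 : Cfsg.IsCharacteristicTwoType G)
    (P : Sylow 2 G) (U : Subgroup G) (hUP : U ≤ (P : Subgroup G)) (hUn : (P : Subgroup G) ≤ Subgroup.normalizer (U : Set G))
    (hU4 : IsKleinFour ↥U)
    (hUZ : ¬ IsCyclic ↥((P : Subgroup G) ⊓ Subgroup.centralizer ((P : Subgroup G) : Set G)) →
      U ≤ Subgroup.centralizer ((P : Subgroup G) : Set G))
    (K : Subgroup G) (hK : Odd (Nat.card K)) (hUK : U ≤ Subgroup.normalizer (K : Set G)) :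
    U ≤ Subgroup.centralizer (K : Set G) := by
  obtain ⟨-, hch⟩ := h2
  obtain ⟨hsq, hUc, hen⟩ := klein_facts U hU4
  have hclaim : ∀ u ∈ U, u ≠ 1 → U ≤ Cfsg.pCoreOf 2 (nfLoc u) := by
    intro u hu hu1
    by_cases hc : U ≤ Subgroup.centralizer ((P : Subgroup G) : Set G)
    · exact four_le_pCoreOf_central hch P U hUP hsq hc u hu hu1
    · have hcyc : IsCyclic ↥((P : Subgroup G) ⊓
          Subgroup.centralizer ((P : Subgroup G) : Set G)) := by
        by_contra h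
        exact hc (hUZ h)
      exact four_le_pCoreOf_cyclic hch P U hUP hUn hU4 hcyc hc u hu hu1
  have hcentK : ∀ u ∈ U, u ≠ 1 → ∀ k ∈ K, k * u = u * k → ∀ w ∈ U, w * k = k * w := by
    intro u hu hu1 k hk hku w hw
    obtain ⟨hmem, -, -⟩ := local_facts hch u hu1 (hsq u hu)
    have hkM : k ∈ nfLoc u := (hmem k).mpr hku
    have hwQ := hclaim u hu hu1 hw
    have hcK : w * k * w⁻¹ * k⁻¹ ∈ K :=
      K.mul_mem ((Subgroup.mem_normalizer_iff.mp (hUK hw) k).mp hk) (K.inv_mem hk)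
    have hcQ : w * k * w⁻¹ * k⁻¹ ∈ Cfsg.pCoreOf 2 (nfLoc u) := by
      have h1 : k * w⁻¹ * k⁻¹ ∈ Cfsg.pCoreOf 2 (nfLoc u) :=
        (Subgroup.mem_normalizer_iff.mp (le_normalizer_pCoreOf 2 (nfLoc u) hkM) w⁻¹).mp
          (Subgroup.inv_mem _ hwQ)
      have e : w * k * w⁻¹ * k⁻¹ = w * (k * w⁻¹ * k⁻¹) := by group
      rw [e]
      exact Subgroup.mul_mem _ hwQ h1
    have hc1 : w * k * w⁻¹ * k⁻¹ = 1 := by
      obtain ⟨n, hn⟩ := (isPGroup_pCoreOf 2 (nfLoc u)) ⟨_, hcQ⟩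
      have hn' : (w * k * w⁻¹ * k⁻¹) ^ 2 ^ n = 1 := congrArg Subtype.val hn
      have hd1 : orderOf (w * k * w⁻¹ * k⁻¹) ∣ 2 ^ n := orderOf_dvd_of_pow_eq_one hn'
      have hd2 : orderOf (w * k * w⁻¹ * k⁻¹) ∣ Nat.card ↥K := by
        have h3 := orderOf_dvd_natCard (⟨_, hcK⟩ : ↥K)
        rwa [Subgroup.orderOf_mk] at h3
      have hcop : Nat.Coprime (2 ^ n) (Nat.card ↥K) :=
        Nat.Coprime.pow_left n (Nat.coprime_two_left.mpr hK)
      have h4 : orderOf (w * k * w⁻¹ * k⁻¹) = 1 :=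
        (Nat.Coprime.coprime_dvd_left hd1 hcop).eq_one_of_dvd hd2
      exact orderOf_eq_one_iff.mp h4
    calc w * k = (w * k * w⁻¹ * k⁻¹) * k * w := by group
      _ = k * w := by rw [hc1, one_mul]
  have hEA : Cfsg.IsElementaryAbelian 2 U :=
    ⟨⟨⟨fun a b => Subtype.ext (hUc a.1 a.2 b.1 b.2)⟩⟩, fun a ha => by
      rw [pow_two]; exact hsq a ha⟩
  have hcard4 : Nat.card ↥U = 4 := hU4.card_four
  have hcard : 2 ^ 2 ≤ Nat.card ↥U := by rw [hcard4]; norm_num
  have hodd : ¬ 2 ∣ Nat.card ↥K := by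
    rw [← even_iff_two_dvd, Nat.not_even_iff_odd]
    exact hK
  have hgen := Cfsg.Agent.S1324.result 2 U K hEA hcard hodd hUK
  rw [Subgroup.le_centralizer_iff, hgen]
  apply iSup_le
  rintro ⟨B, hBU, hBr⟩
  have hBne : B ≠ ⊥ := by
    rintro rfl
    rw [Subgroup.relIndex_bot_left, hcard4] at hBr
    omega
  obtain ⟨⟨b, hbB⟩, hb1⟩ := (Subgroup.ne_bot_iff_exists_ne_one).mp hBne
  have hb1' : b ≠ 1 := fun h => hb1 (Subtype.ext h)
  intro k hk
  obtain ⟨hkK, hkB⟩ := hk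
  rw [Subgroup.mem_centralizer_iff]
  intro w hw
  have hkb : k * b = b * k := (Subgroup.mem_centralizer_iff.mp hkB b hbB).symm
  exact hcentK b (hBU hbB) hb1' k hkK hkb w hw

end Cfsg.Agent.S1957
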