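import Cfsg.Statements.S1958
-- import your own Cfsg.Agent.* helpers here
import Cfsg.Agent.Helper9.PLocal
import Cfsg.Agent.Helper12.SylSub

set_option autoImplicit false
open Cfsg

namespace Cfsg.Agent.S1958

open Cfsg.Agent.Helper9 Cfsg.Agent.Helper12 in
private theorem half {G : Type*} [Group G] [Finite G] (p : ℕ) [Fact p.Prime] (x y : G)
    (hx : orderOf x = p) (hxy : x * y = y * x)
    (hCy : Group.IsSolvable ↥(Subgroup.centralizer ({y} : Set G))) :
    Cfsg.centralizerPPrimeCore p x ⊓ Subgroup.centralizer {y} ≤ Cfsg.centralizerPPrimeCore p y := by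
  have hle : Cfsg.centralizerPPrimeCore p x ≤ Subgroup.centralizer ({x} : Set G) := by
    rintro _ ⟨d, -, rfl⟩; exact d.2
  have hxC : x ∈ Subgroup.centralizer ({y} : Set G) := mem_centralizer_singleton_iff'.mpr hxy.symm
  have ha : (⟨x, hxC⟩ : ↥(Subgroup.centralizer ({y} : Set G))) ^ p = 1 := by
    apply Subtype.ext
    show x ^ p = 1
    rw [← hx]; exact pow_orderOf_eq_one x
  have hD : (Cfsg.centralizerPPrimeCore p x).subgroupOf (Subgroup.centralizer ({y} : Set G)) ≤
      Subgroup.centralizer ({(⟨x, hxC⟩ : ↥(Subgroup.centralizer ({y} : Set G)))} : Set _) := by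
    intro d hd
    rw [mem_centralizer_singleton_iff']
    apply Subtype.ext
    exact mem_centralizer_singleton_iff'.mp (hle (Subgroup.mem_subgroupOf.mp hd))
  have hn : Subgroup.centralizer ({(⟨x, hxC⟩ : ↥(Subgroup.centralizer ({y} : Set G)))} : Set _) ≤
      Subgroup.normalizer (((Cfsg.centralizerPPrimeCore p x).subgroupOf
        (Subgroup.centralizer ({y} : Set G)) : Subgroup _) : Set _) := by
    apply le_normalizer_of_conj_inv
    intro c hc d hd
    rw [mem_centralizer_singleton_iff'] at hc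
    have hc' : x * (c : G) = (c : G) * x := congrArg Subtype.val hc
    have hcx : (c : G) ∈ Subgroup.centralizer ({x} : Set G) := mem_centralizer_singleton_iff'.mpr hc'
    rw [Subgroup.mem_subgroupOf] at hd ⊢
    obtain ⟨d', hd', hdd⟩ := hd
    refine ⟨⟨c, hcx⟩ * d' * ⟨c, hcx⟩⁻¹,
      (inferInstance : (Cfsg.pPrimeCore p ↥(Subgroup.centralizer ({x} : Set G))).Normal).conj_mem
        d' hd' _, ?_⟩
    show (c : G) * (d' : G) * (c : G)⁻¹ = (c : G) * (d : G) * (c : G)⁻¹
    have hdd' : (d' : G) = (d : G) := hdd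
    rw [hdd']
  have hc : (Nat.card ↥((Cfsg.centralizerPPrimeCore p x).subgroupOf
      (Subgroup.centralizer ({y} : Set G)))).Coprime p := by
    have h3 : Nat.card ↥((Cfsg.centralizerPPrimeCore p x).subgroupOf
        (Subgroup.centralizer ({y} : Set G))) ∣ Nat.card ↥(Cfsg.centralizerPPrimeCore p x) := by
      rw [← Subgroup.inf_subgroupOf_right,
        Nat.card_congr (Subgroup.subgroupOfEquivOfLe (inf_le_right :
          Cfsg.centralizerPPrimeCore p x ⊓ Subgroup.centralizer ({y} : Set G) ≤ _)).toEquiv]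
      exact Subgroup.card_dvd_of_le inf_le_left
    exact Nat.Coprime.coprime_dvd_left h3 (ppcOf_coprime p _)
  have hmain := le_pPrimeCore_of_centralizer_elt p (pLayer_eq_bot_of_solvable p hCy) _ ha _ hD hn hc
  rintro g ⟨hg1, hg2⟩
  exact ⟨⟨g, hg2⟩, hmain (Subgroup.mem_subgroupOf.mpr hg1), rfl⟩

/-- Let `G` be a finite group, `p` a prime, and `x, y` commuting elements of order `p` whose centralizers `C_G(x)` and `C_G(y)` are both solvable. Then `O_{p'}(C_G(x)) ∩ C_G(y) = O_{p'}(C_G(y)) ∩ C_G(x)` (balance). -/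
theorem result {G : Type*} [Group G] [Finite G]
    (p : ℕ) [Fact p.Prime] (x y : G) (hx : orderOf x = p) (hy : orderOf y = p) (hxy : x * y = y * x)
    (hCx : Group.IsSolvable ↥(Subgroup.centralizer ({x} : Set G))) (hCy : Group.IsSolvable ↥(Subgroup.centralizer ({y} : Set G))) :
    Cfsg.centralizerPPrimeCore p x ⊓ Subgroup.centralizer {y} = Cfsg.centralizerPPrimeCore p y ⊓ Subgroup.centralizer {x} := by
  have hlex : Cfsg.centralizerPPrimeCore p x ≤ Subgroup.centralizer ({x} : Set G) := by
    rintro _ ⟨d, -, rfl⟩; exact d.2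
  have hley : Cfsg.centralizerPPrimeCore p y ≤ Subgroup.centralizer ({y} : Set G) := by
    rintro _ ⟨d, -, rfl⟩; exact d.2
  apply le_antisymm
  · exact le_inf (half p x y hx hxy hCy) (inf_le_left.trans hlex)
  · exact le_inf (half p y x hy hxy.symm hCx) (inf_le_left.trans hley)

end Cfsg.Agent.S1958
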