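import Cfsg.Statements.S1961
-- import your own Cfsg.Agent.* helpers here
import Cfsg.Agent.Helper12.StrongFusion

set_option autoImplicit false
open Cfsg

namespace Cfsg.Agent.S1961

/-- Local-to-global control of strong fusion through well-placed subgroups. Let p be a prime, G a finite group with Sylow p-subgroup S, and W a conjugacy functor for p on G. If W controls strong fusion in N_G(T) for every nonidentity subgroup T of S that is well placed in S with respect to W, then W controls strong fusion in G. -/
theorem result {G : Type*} [Group G] [Finite G] {p : ℕ} [Fact p.Prime] (S : Sylow p G) (W : Subgroup G → Subgroup G) (hW : Cfsg.IsConjugacyFunctor p W) (hloc : ∀ T : Subgroup G, T ≠ ⊥ → Cfsg.IsWellPlaced p W (S : Subgroup G) T → Cfsg.ControlsStrongFusionIn p W (Subgroup.normalizer ((T : Subgroup G) : Set G))) : Cfsg.ControlsStrongFusionIn p W ⊤ := by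
  refine ⟨(S : Subgroup G), le_top, S.isPGroup', ?_, ?_⟩
  · rw [Subgroup.relIndex_top_right]
    exact S.not_dvd_index
  · intro A h _ hAS hhA
    have hcj : Cfsg.Agent.Helper12.cj h⁻¹ A ⊆ (S : Subgroup G) := by
      rintro _ ⟨a, ha, rfl⟩
      have := hhA ⟨a, ha, rfl⟩
      rw [inv_inv]
      exact this
    obtain ⟨y, hy, hya⟩ := Cfsg.Agent.Helper12.csf_global hW S hloc A h⁻¹ hAS hcj
    refine ⟨y⁻¹, Subgroup.mem_inf.2 ⟨Subgroup.mem_top _, inv_mem hy⟩, fun a ha => ?_⟩
    have := hya a ha
    rw [inv_inv] at this ⊢
    exact this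

end Cfsg.Agent.S1961
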