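import Cfsg.Statements.S1966
-- import your own Cfsg.Agent.* helpers here

set_option autoImplicit false
open Cfsg

namespace Cfsg.Agent.S1966

/-- Let p be a prime, G a finite group with Sylow p-subgroup S and 𝓕 a conjugation family for S in G. Then the members of 𝓕 containing O_p(G) still form a conjugation family for S in G. -/
theorem result {G : Type*} [Group G] [Finite G] {p : ℕ} [Fact p.Prime] (S : Sylow p G) (𝓕 : Set (Subgroup G)) (h : Cfsg.IsConjugationFamily 𝓕 (S : Subgroup G)) : Cfsg.IsConjugationFamily {T : Subgroup G | T ∈ 𝓕 ∧ Cfsg.pCore p G ≤ T} (S : Subgroup G) := by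
  classical
  obtain ⟨h1, h2⟩ := h
  refine ⟨fun T hT => h1 T hT.1, ?_⟩
  intro A g hAne hAS hgA
  set B : Set G := {x : G | ∃ N : Subgroup G, N.Normal ∧ IsPGroup p N ∧ x ∈ N} with hB
  have hBS : B ⊆ (S : Subgroup G) := by
    rintro x ⟨N, hN, hNp, hx⟩
    haveI := hN
    exact hNp.le_sylow_of_normal S hx
  have hBg : ∀ y : G, ∀ x ∈ B, y * x * y⁻¹ ∈ B := by
    rintro y x ⟨N, hN, hNp, hx⟩
    exact ⟨N, hN, hNp, hN.conj_mem x hx y⟩
  have hA'S : A ∪ B ⊆ (S : Subgroup G) := Set.union_subset hAS hBS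
  have hgA' : (fun a => g⁻¹ * a * g) '' (A ∪ B) ⊆ (S : Subgroup G) := by
    rintro _ ⟨a, ha | ha, rfl⟩
    · exact hgA ⟨a, ha, rfl⟩
    · have := hBg g⁻¹ a ha
      simp only [inv_inv] at this
      exact hBS this
  obtain ⟨n, T, x, hprod, hT, hx, h0, hstep⟩ :=
    h2 (A ∪ B) g (hAne.mono Set.subset_union_left) hA'S hgA'
  refine ⟨n, T, x, hprod, ?_, hx, fun h => Set.subset_union_left.trans (h0 h), ?_⟩
  · intro i
    refine ⟨hT i, ?_⟩
    apply sSup_le
    rintro N ⟨hN, hNp⟩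
    intro y hy
    rcases Nat.eq_zero_or_pos i.val with hi | hi
    · have hn : 0 < n := lt_of_le_of_lt (Nat.zero_le _) i.2
      have e : i = ⟨0, hn⟩ := Fin.ext hi
      rw [e]
      exact h0 hn (Or.inr ⟨N, hN, hNp, hy⟩)
    · obtain ⟨j, hj⟩ := Nat.exists_eq_succ_of_ne_zero (Nat.pos_iff_ne_zero.1 hi)
      have hin := i.2
      have hjn : j < n := by omega
      have hj1 : (⟨j, hjn⟩ : Fin n).val + 1 < n := by
        show j + 1 < n
        omega
      have h3 := hstep ⟨j, hjn⟩ hj1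
      have hy' : ((List.ofFn x).take (j + 1)).prod * y * (((List.ofFn x).take (j + 1)).prod)⁻¹
          ∈ A ∪ B := Or.inr ⟨N, hN, hNp, hN.conj_mem y hy _⟩
      have h4 := h3 ⟨_, hy', rfl⟩
      have e : i = ⟨j + 1, hj1⟩ := Fin.ext hj
      rw [e]
      simpa [mul_assoc] using h4
  · intro i h
    exact (Set.image_mono Set.subset_union_left).trans (hstep i h)

end Cfsg.Agent.S1966
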