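import Cfsg.Statements.S1967
-- import your own Cfsg.Agent.* helpers here
import Cfsg.Agent.Helper12.Conj

set_option autoImplicit false
open Cfsg

namespace Cfsg.Agent.S1967

/-- Let p be a prime, G a finite group with Sylow p-subgroup S and W a conjugacy functor for p on G. Then W controls strong fusion in G if and only if, whenever T ≤ S and g ∈ G satisfy gTg⁻¹ ≤ S, one can write g = n c with n ∈ N_G(W(S)) and c ∈ C_G(T). -/
theorem result {G : Type*} [Group G] [Finite G] {p : ℕ} [Fact p.Prime] (S : Sylow p G) (W : Subgroup G → Subgroup G) (hW : Cfsg.IsConjugacyFunctor p W) : Cfsg.ControlsStrongFusionIn p W ⊤ ↔ ∀ (T : Subgroup G) (g : G), T ≤ (S : Subgroup G) → T.map (MulAut.conj g).toMonoidHom ≤ (S : Subgroup G) → ∃ n ∈ Subgroup.normalizer ((W (S : Subgroup G) : Subgroup G) : Set G), ∃ c ∈ Subgroup.centralizer (T : Set G), g = n * c := by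
  classical
  constructor
  · rintro ⟨T₀, -, hT₀p, hidx, hfus⟩
    rw [Subgroup.relIndex_top_right] at hidx
    obtain ⟨k, hk⟩ := MulAction.exists_smul_eq G (hT₀p.toSylow hidx) S
    have hS : (S : Subgroup G) = T₀.map (MulAut.conj k).toMonoidHom := by
      rw [← hk, Cfsg.Agent.Helper12.sylow_smul_coe_eq_map, IsPGroup.toSylow_coe]
    intro T g hTS hgT
    have hA : (fun t => k⁻¹ * t * k) '' (T : Set G) ⊆ T₀ := by
      rintro _ ⟨t, ht, rfl⟩
      have h1 : t ∈ T₀.map (MulAut.conj k).toMonoidHom := by rw [← hS]; exact hTS ht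
      exact (Cfsg.Agent.Helper12.mem_map_conj_iff T₀ k t).1 h1
    have hhA : (fun a => (k⁻¹ * g * k) * a * (k⁻¹ * g * k)⁻¹) '' ((fun t => k⁻¹ * t * k) '' (T : Set G))
        ⊆ T₀ := by
      rintro _ ⟨_, ⟨t, ht, rfl⟩, rfl⟩
      have h1 : g * t * g⁻¹ ∈ T₀.map (MulAut.conj k).toMonoidHom := by
        rw [← hS]; exact hgT (Cfsg.Agent.Helper12.conj_mem_map_conj T g ht)
      have h2 := (Cfsg.Agent.Helper12.mem_map_conj_iff T₀ k _).1 h1
      have e : (k⁻¹ * g * k) * (k⁻¹ * t * k) * (k⁻¹ * g * k)⁻¹ = k⁻¹ * (g * t * g⁻¹) * k := by group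
      show (k⁻¹ * g * k) * (k⁻¹ * t * k) * (k⁻¹ * g * k)⁻¹ ∈ T₀
      rw [e]; exact h2
    obtain ⟨x, hx, hxa⟩ := hfus _ (k⁻¹ * g * k) (Subgroup.mem_top _) hA hhA
    have hxN : x ∈ Subgroup.normalizer ((W T₀ : Subgroup G) : Set G) := (Subgroup.mem_inf.1 hx).2
    have hn : k * x * k⁻¹ ∈ Subgroup.normalizer ((W (S : Subgroup G) : Subgroup G) : Set G) := by
      rw [hS, (hW T₀ hT₀p).2.2 k]
      exact Cfsg.Agent.Helper12.conj_mem_normalizer_map_conj (W T₀) k hxN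
    refine ⟨k * x * k⁻¹, hn, (k * x * k⁻¹)⁻¹ * g, ?_, by group⟩
    rw [Subgroup.mem_centralizer_iff]
    intro t ht
    have h3 := hxa (k⁻¹ * t * k) ⟨t, ht, rfl⟩
    have h4 : (k * x * k⁻¹) * t * (k * x * k⁻¹)⁻¹ = g * t * g⁻¹ := by
      calc (k * x * k⁻¹) * t * (k * x * k⁻¹)⁻¹ = k * (x * (k⁻¹ * t * k) * x⁻¹) * k⁻¹ := by group
        _ = k * ((k⁻¹ * g * k) * (k⁻¹ * t * k) * (k⁻¹ * g * k)⁻¹) * k⁻¹ := by rw [h3]
        _ = g * t * g⁻¹ := by group
    calc t * ((k * x * k⁻¹)⁻¹ * g) = (k * x * k⁻¹)⁻¹ * ((k * x * k⁻¹) * t * (k * x * k⁻¹)⁻¹) * g := by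
          group
      _ = (k * x * k⁻¹)⁻¹ * (g * t * g⁻¹) * g := by rw [h4]
      _ = (k * x * k⁻¹)⁻¹ * g * t := by group
  · intro h
    refine ⟨(S : Subgroup G), le_top, S.isPGroup', ?_, ?_⟩
    · rw [Subgroup.relIndex_top_right]
      exact S.not_dvd_index
    · intro A g _ hAS hgA
      have h1 : Subgroup.closure A ≤ (S : Subgroup G) := (Subgroup.closure_le _).2 hAS
      have h2 : (Subgroup.closure A).map (MulAut.conj g).toMonoidHom ≤ (S : Subgroup G) := by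
        rw [MonoidHom.map_closure, Subgroup.closure_le]
        rintro _ ⟨a, ha, rfl⟩
        exact hgA ⟨a, ha, rfl⟩
      obtain ⟨n, hn, c, hc, rfl⟩ := h (Subgroup.closure A) g h1 h2
      refine ⟨n, Subgroup.mem_inf.2 ⟨Subgroup.mem_top _, hn⟩, ?_⟩
      intro a ha
      have h3 : a * c = c * a := (Subgroup.mem_centralizer_iff.1 hc) a (Subgroup.subset_closure ha)
      calc n * a * n⁻¹ = n * (a * c) * c⁻¹ * n⁻¹ := by group
        _ = n * (c * a) * c⁻¹ * n⁻¹ := by rw [h3]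
        _ = n * c * a * (n * c)⁻¹ := by group

end Cfsg.Agent.S1967
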