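import Cfsg.Statements.S1968
-- import your own Cfsg.Agent.* helpers here
import Cfsg.Agent.Helper12.StrongFusion

set_option autoImplicit false
open Cfsg

namespace Cfsg.Agent.S1968

open Cfsg.Agent.Helper12 in
private theorem tN_eq_top_of_eq {G : Type*} [Group G] [Finite G] {p : ℕ} [Fact p.Prime]
    {W : Subgroup G → Subgroup G} (hW : Cfsg.IsConjugacyFunctor p W) {S : Subgroup G}
    (hS : IsPGroup p S) (T : Subgroup G) (i : ℕ) (heq : tN W S T i = tN W S T (i + 1)) :
    tN W S T i = S := by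
  by_contra hne
  have hlt := card_lt_card_inf_normalizer hS (tN_le W S T i) hne
  have hle : S ⊓ Subgroup.normalizer ((tN W S T i : Subgroup G) : Set G) ≤ tN W S T (i + 1) := by
    rw [tN_def W S T (i + 1), functorTower_succ]
    exact inf_le_inf_left _ (cf_normalizer_le hW (tN_isPGroup hS W T i))
  have h2 := Subgroup.card_le_of_le hle
  rw [← heq] at h2
  omega

open Cfsg.Agent.Helper12 in
private theorem main {G : Type*} [Group G] [Finite G] {p : ℕ} [Fact p.Prime] (S : Sylow p G)
    (W : Subgroup G → Subgroup G) (hW : Cfsg.IsConjugacyFunctor p W)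
    (hWZ : ∀ P : Subgroup G, IsPGroup p ↥P → P ⊓ Subgroup.centralizer (P : Set G) ≤ W P)
    (A : Subgroup G)
    (hAZ : A ≤ (S : Subgroup G) ⊓ Subgroup.centralizer ((S : Subgroup G) : Set G))
    (hAN : Subgroup.normalizer ((W (S : Subgroup G) : Subgroup G) : Set G) ≤
      Subgroup.normalizer ((A : Subgroup G) : Set G))
    (g₀ : G) (hg₀S : cjs g₀ A ≤ (S : Subgroup G)) (hg₀A : cjs g₀ A ≠ A) :
    ∃ T : Subgroup G, Cfsg.IsWellPlaced p W (S : Subgroup G) T ∧ A ≤ T ∧
      (∃ x ∈ Subgroup.normalizer (T : Set G), cjs x A ≠ A) ∧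
      Subgroup.normalizer ((W (tN W (S : Subgroup G) T 0) : Subgroup G) : Set G) ≤
        Subgroup.normalizer ((A : Subgroup G) : Set G) := by
  classical
  have hSp : IsPGroup p (S : Subgroup G) := S.isPGroup'
  have hAS : A ≤ (S : Subgroup G) := le_trans hAZ inf_le_left
  have hAC : A ≤ Subgroup.centralizer ((S : Subgroup G) : Set G) := le_trans hAZ inf_le_right
  have hcand : ∃ T : Subgroup G, Cfsg.IsWellPlaced p W (S : Subgroup G) T ∧ A ≤ T ∧
      ∃ x ∈ Subgroup.normalizer (T : Set G), cjs x A ≠ A := by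
    by_contra hcon
    push Not at hcon
    have hchain := fchain_wellPlaced hW S (A : Set G) g₀ hAS (by rw [← coe_cjs]; exact hg₀S)
    have hR := FChain.rel_of_chain (fun B g => B = (A : Set G) → cj g B = (A : Set G))
      ?_ ?_ ?_ hchain
    · apply hg₀A
      apply SetLike.coe_injective
      rw [coe_cjs]
      exact hR rfl
    · intro B hB
      rw [cj_one]; exact hB
    · intro B t x hst hBt hB
      have hAt : A ≤ t := by
        rw [hB] at hBt; exact hBt
      have h1 := hcon t hst.1 hAt x hst.2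
      rw [hB, ← coe_cjs, h1]
    · intro B g h hR1 hR2 hB
      rw [cj_mul]
      exact hR2 (hR1 hB)
  have hclimb : ∀ n : ℕ, ∀ T : Subgroup G, Cfsg.IsWellPlaced p W (S : Subgroup G) T → A ≤ T →
      (∃ x ∈ Subgroup.normalizer (T : Set G), cjs x A ≠ A) →
      Nat.card (S : Subgroup G) ≤ Nat.card (tN W (S : Subgroup G) T 0) + n →
      ∃ T' : Subgroup G, Cfsg.IsWellPlaced p W (S : Subgroup G) T' ∧ A ≤ T' ∧
        (∃ x ∈ Subgroup.normalizer (T' : Set G), cjs x A ≠ A) ∧
        Subgroup.normalizer ((W (tN W (S : Subgroup G) T' 0) : Subgroup G) : Set G) ≤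
          Subgroup.normalizer ((A : Subgroup G) : Set G) := by
    intro n
    induction n with
    | zero =>
      intro T hT hAT hx hcard
      have h1 : tN W (S : Subgroup G) T 0 = (S : Subgroup G) :=
        Subgroup.eq_of_le_of_card_ge (tN_le W _ T 0) (by omega)
      exact ⟨T, hT, hAT, hx, by rw [h1]; exact hAN⟩
    | succ n ih =>
      intro T hT hAT hx hcard
      by_cases hN : Subgroup.normalizer ((W (tN W (S : Subgroup G) T 0) : Subgroup G) : Set G) ≤
          Subgroup.normalizer ((A : Subgroup G) : Set G)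
      · exact ⟨T, hT, hAT, hx, hN⟩
      · obtain ⟨y, hy, hyA⟩ := SetLike.not_le_iff_exists.1 hN
        have hT' := isWellPlaced_tower hW hSp hT 0
        have hAT' : A ≤ Cfsg.functorTower W (S : Subgroup G) T (0 + 1) := by
          rw [functorTower_succ]
          refine le_trans (le_inf (le_trans hAT (le_tN_zero W hT.1)) ?_)
            (hWZ _ (tN_isPGroup hSp W T 0))
          exact le_trans hAC (Subgroup.centralizer_le (tN_le W (S : Subgroup G) T 0))
        have hx' : ∃ x ∈ Subgroup.normalizer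
            ((Cfsg.functorTower W (S : Subgroup G) T (0 + 1) : Subgroup G) : Set G),
            cjs x A ≠ A :=
          ⟨y, hy, fun h => hyA (mem_normalizer_of_cjs_eq h)⟩
        have hcard' : Nat.card (S : Subgroup G) ≤
            Nat.card (tN W (S : Subgroup G) (Cfsg.functorTower W (S : Subgroup G) T (0 + 1)) 0)
              + n := by
          rw [tN_shift, Nat.zero_add]
          have hle := Subgroup.card_le_of_le (tN_le_succ hW hSp T 0)
          by_contra hlt
          push Not at hlt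
          have heq : tN W (S : Subgroup G) T 0 = tN W (S : Subgroup G) T (0 + 1) :=
            Subgroup.eq_of_le_of_card_ge (tN_le_succ hW hSp T 0) (by omega)
          have htop := tN_eq_top_of_eq hW hSp T 0 heq
          apply hyA
          apply hAN
          rw [← htop]; exact hy
        exact ih _ hT' hAT' hx' hcard'
  obtain ⟨T₀, hT₀, hAT₀, hx₀⟩ := hcand
  exact hclimb (Nat.card (S : Subgroup G)) T₀ hT₀ hAT₀ hx₀ (Nat.le_add_left _ _)

/-- Let p be a prime, G a finite group with Sylow p-subgroup S and W a conjugacy functor for p on G with Z(P) ≤ W(P) for every p-subgroup P. Let A be a subgroup of Z(S) normalized by N_G(W(S)) that is not weakly closed in S with respect to G. Then there is a subgroup T of S, well placed in S with respect to W, such that: A ≤ T; N_G(W(N_S(T))) normalizes A; N_S(T) is a Sylow p-subgroup of N_G(T); A ≤ Z(N_S(T)); and A is not weakly closed in N_S(T) with respect to N_G(T), that is, some N_G(T)-conjugate of A other than A lies in N_S(T). -/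
theorem result {G : Type*} [Group G] [Finite G] {p : ℕ} [Fact p.Prime] (S : Sylow p G) (W : Subgroup G → Subgroup G) (hW : Cfsg.IsConjugacyFunctor p W) (hWZ : ∀ P : Subgroup G, IsPGroup p ↥P → P ⊓ Subgroup.centralizer (P : Set G) ≤ W P) (A : Subgroup G) (hAZ : A ≤ (S : Subgroup G) ⊓ Subgroup.centralizer ((S : Subgroup G) : Set G)) (hAN : Subgroup.normalizer ((W (S : Subgroup G) : Subgroup G) : Set G) ≤ Subgroup.normalizer ((A : Subgroup G) : Set G)) (hnwc : ¬ Cfsg.IsWeaklyClosed A (S : Subgroup G)) : ∃ T : Subgroup G, Cfsg.IsWellPlaced p W (S : Subgroup G) T ∧ A ≤ T ∧ Subgroup.normalizer ((W ((S : Subgroup G) ⊓ Subgroup.normalizer ((T : Subgroup G) : Set G)) : Subgroup G) : Set G) ≤ Subgroup.normalizer ((A : Subgroup G) : Set G) ∧ ¬ p ∣ ((S : Subgroup G) ⊓ Subgroup.normalizer ((T : Subgroup G) : Set G)).relIndex (Subgroup.normalizer ((T : Subgroup G) : Set G)) ∧ A ≤ Subgroup.centralizer (((S : Subgroup G) ⊓ Subgroup.normalizer ((T : Subgroup G) : Set G) : Subgroup G) : Set G) ∧ ∃ g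 ∈ Subgroup.normalizer ((T : Subgroup G) : Set G), A.map (MulAut.conj g).toMonoidHom ≤ (S : Subgroup G) ⊓ Subgroup.normalizer ((T : Subgroup G) : Set G) ∧ A.map (MulAut.conj g).toMonoidHom ≠ A := by
  classical
  have hAS : A ≤ (S : Subgroup G) := le_trans hAZ inf_le_left
  have hAC : A ≤ Subgroup.centralizer ((S : Subgroup G) : Set G) := le_trans hAZ inf_le_right
  have h1 : ∃ g₀ : G, A.map (MulAut.conj g₀).toMonoidHom ≤ (S : Subgroup G) ∧
      A.map (MulAut.conj g₀).toMonoidHom ≠ A := by
    by_contra hcon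
    push Not at hcon
    exact hnwc ⟨hAS, hcon⟩
  obtain ⟨g₀, hg₀S, hg₀A⟩ := h1
  rw [Cfsg.Agent.Helper12.map_conj_eq_cjs] at hg₀S hg₀A
  obtain ⟨T, hT, hAT, ⟨x, hx, hxA⟩, hN⟩ := main S W hW hWZ A hAZ hAN g₀⁻¹ hg₀S hg₀A
  refine ⟨T, hT, hAT, hN, hT.2 0, ?_, x⁻¹, inv_mem hx, ?_, ?_⟩
  · exact le_trans hAC (Subgroup.centralizer_le inf_le_left)
  · rw [Cfsg.Agent.Helper12.map_conj_eq_cjs, inv_inv]
    have h2 : Cfsg.Agent.Helper12.cjs x A ≤ Cfsg.Agent.Helper12.cjs x T :=
      Cfsg.Agent.Helper12.cjs_mono hAT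
    rw [Cfsg.Agent.Helper12.cjs_eq_of_mem_normalizer hx] at h2
    exact le_trans h2 (Cfsg.Agent.Helper12.le_tN_zero W hT.1)
  · rw [Cfsg.Agent.Helper12.map_conj_eq_cjs, inv_inv]
    exact hxA

end Cfsg.Agent.S1968
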