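import Cfsg.Statements.S1970
-- import your own Cfsg.Agent.* helpers here
import Cfsg.Agent.Helper12.SecTransfer

set_option autoImplicit false
universe u
open Cfsg

namespace Cfsg.Agent.S1970

/-- Let p be a prime, G a finite group and W an isomorphism-invariant p-group functor (W assigns to every group Q a subgroup W(Q), nontrivial whenever Q is a nontrivial finite p-group, and every isomorphism from a finite p-group Q onto a group R carries W(Q) onto W(R)). Suppose that for every section G* = K/R of G with C_{G*}(O_p(G*)) ≤ O_p(G*) and every Sylow p-subgroup S* of G*, one has O_p(G*) ∩ (G*)' = O_p(G*) ∩ (N_{G*}(W(S*)))'. Then W controls transfer in every section G* of G: S* ∩ (G*)' = S* ∩ (N_{G*}(W(S*)))' for a Sylow p-subgroup S* of G*. -/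
theorem result {G : Type u} [Group G] [Finite G] {p : ℕ} [Fact p.Prime] (W : ∀ (Q : Type u) [Group Q], Subgroup Q) (hW : Cfsg.IsCharPFunctor.{u} p W) (hloc : ∀ (K R : Subgroup G) [hR : (R.subgroupOf K).Normal], Subgroup.centralizer ((Cfsg.pCore p (↥K ⧸ R.subgroupOf K) : Subgroup (↥K ⧸ R.subgroupOf K)) : Set (↥K ⧸ R.subgroupOf K)) ≤ Cfsg.pCore p (↥K ⧸ R.subgroupOf K) → ∀ T : Sylow p (↥K ⧸ R.subgroupOf K), Cfsg.pCore p (↥K ⧸ R.subgroupOf K) ⊓ commutator (↥K ⧸ R.subgroupOf K) = Cfsg.pCore p (↥K ⧸ R.subgroupOf K) ⊓ ⁅Subgroup.normalizer ((Cfsg.inducedFunctor (G := (↥K ⧸ R.subgroupOf K)) W ((T : Subgroup (↥K ⧸ R.subgroupOf K))) : Subgroup (↥K ⧸ R.subgroupOf K)) : Set (↥K ⧸ R.subgroupOf K)), Subgroup.normalizer ((Cfsg.inducedFunctor (G := (↥K ⧸ R.subgroupOf K)) W ((T : Subgroup (↥K ⧸ R.subgroupOf K))) : Subgroup (↥K ⧸ R.subgroupOf K)) : Set (↥K ⧸ R.subgroupOf K))⁆) : ∀ (K R : Subgroup G) [hR : (R.subgroupOf K).Normal], Cfsg.ControlsTransferIn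 p (Cfsg.inducedFunctor (G := (↥K ⧸ R.subgroupOf K)) W) ⊤ := by
  open Cfsg.Agent.Helper12 in
  (
  have h𝓦 : ∀ W' ∈ ({W} : Set (∀ (Q : Type u) [Group Q], Subgroup Q)),
      Cfsg.IsCharPFunctor.{u} p W' := by
    rintro _ rfl; exact hW
  have h1 : ∀ (K R : Subgroup G) [(R.subgroupOf K).Normal],
      (∀ (Z' : Type u) [Group Z'] [Finite Z'], IsSectionOf Z' G →
        Nat.card Z' < Nat.card (↥K ⧸ R.subgroupOf K) →
        tCtl p ({W} : Set (∀ (Q : Type u) [Group Q], Subgroup Q)) Z') →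
      Subgroup.centralizer ((Cfsg.pCore p (↥K ⧸ R.subgroupOf K) :
        Subgroup (↥K ⧸ R.subgroupOf K)) : Set (↥K ⧸ R.subgroupOf K)) ≤
        Cfsg.pCore p (↥K ⧸ R.subgroupOf K) →
      tCtl p ({W} : Set (∀ (Q : Type u) [Group Q], Subgroup Q)) (↥K ⧸ R.subgroupOf K) := by
    intro K R _ hsm hcen
    have hsec : IsSectionOf (↥K ⧸ R.subgroupOf K) G :=
      ⟨K, QuotientGroup.mk' _, QuotientGroup.mk'_surjective _⟩
    apply tCtl_single_of_pCore hW ?_ ?_ hcen (hloc K R hcen)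
    · intro X hX
      refine hsm ↥X (isSectionOf_subgroup hsec X) ?_
      have h1 : Nat.card ↥X ≠ Nat.card (↥K ⧸ R.subgroupOf K) :=
        fun h => hX (Subgroup.eq_top_of_card_eq X h)
      have h2 : Nat.card ↥X ≤ Nat.card (↥K ⧸ R.subgroupOf K) := Subgroup.card_le_card_group X
      omega
    · intro hQ
      exact hsm _ (isSectionOf_quotient hsec _) (card_quotient_lt _ hQ)
  have h2 := tCtl_sections_of_hloc h𝓦 h1
  intro K R hR
  exact ct_of_tCtl_single (h2 (↥K ⧸ R.subgroupOf K)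
    ⟨K, QuotientGroup.mk' _, QuotientGroup.mk'_surjective _⟩)
  )

end Cfsg.Agent.S1970
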