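import Cfsg.Statements.S1971
-- import your own Cfsg.Agent.* helpers here
import Cfsg.Agent.Helper12.SecIndexP
import Cfsg.Agent.Lead.Frobenius

set_option autoImplicit false
universe u
open Cfsg

namespace Cfsg.Agent.S1971

/-- Let p be a prime, G a finite group with nontrivial Sylow p-subgroup S, and W an isomorphism-invariant p-group functor (W assigns to every group Q a subgroup W(Q), nontrivial whenever Q is a nontrivial finite p-group, and every isomorphism from a finite p-group Q onto a group R carries W(Q) onto W(R)) that controls transfer in every section of G. If N_G(S)/C_G(S) is a p-group (every element of N_G(S) of order prime to p centralizes S), then G has a normal subgroup of index p. -/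
theorem result {G : Type u} [Group G] [Finite G] {p : ℕ} [Fact p.Prime] (W : ∀ (Q : Type u) [Group Q], Subgroup Q) (hW : Cfsg.IsCharPFunctor.{u} p W) (hctl : ∀ (K R : Subgroup G) [hR : (R.subgroupOf K).Normal], Cfsg.ControlsTransferIn p (Cfsg.inducedFunctor (G := (↥K ⧸ R.subgroupOf K)) W) ⊤) (S : Sylow p G) (hS : (S : Subgroup G) ≠ ⊥) (hN : ∀ g ∈ Subgroup.normalizer (((S : Subgroup G) : Subgroup G) : Set G), (orderOf g).Coprime p → g ∈ Subgroup.centralizer ((S : Subgroup G) : Set G)) : ∃ N : Subgroup G, N.Normal ∧ N.index = p := by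
  open Cfsg.Agent.Helper12 in (
  have hall : ∀ (Z : Type u) [Group Z] [Finite Z], IsSectionOf Z G →
      tCtl p ({W} : Set (∀ (Q : Type u) [Group Q], Subgroup Q)) Z := by
    rintro Z _ _ ⟨K, f, hf⟩
    have e1 : (f.ker.map K.subtype).subgroupOf K = f.ker :=
      Subgroup.comap_map_eq_self_of_injective K.subtype_injective _
    have hn : ((f.ker.map K.subtype).subgroupOf K).Normal := by rw [e1]; infer_instance
    have e : (↥K ⧸ (f.ker.map K.subtype).subgroupOf K) ≃* Z :=
      (QuotientGroup.quotientMulEquivOfEq e1).trans (QuotientGroup.quotientKerEquivOfSurjective f hf)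
    have h𝓦 : ∀ W' ∈ ({W} : Set (∀ (Q : Type u) [Group Q], Subgroup Q)),
        Cfsg.IsCharPFunctor.{u} p W' := by
      rintro _ rfl; exact hW
    exact tCtl_equiv h𝓦 e (tCtl_single_of_ct hW (hctl K (f.ker.map K.subtype)))
  have h1 := not_le_commutator_of_tCtl hW hall G (isSectionOf_self G) S hS
    (normalizer_eq_mul_centralizer S hN)
  exact Cfsg.Agent.Lead.exists_normal_index_p S (by rw [commutator_def]; exact h1)
  )

end Cfsg.Agent.S1971
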