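import Cfsg.Statements.S1977
-- import your own Cfsg.Agent.* helpers here
import Cfsg.Agent.Helper24.AdjoinCentral

set_option autoImplicit false
open Cfsg

namespace Cfsg.Agent.S1977

open Cfsg.Agent.Helper24
open scoped commutatorElement

/-- Let P be a finite p-group. A member B that is maximal under inclusion in any one of the families used to build the K-sequence of P — the class-two family, the lower-star family relative to an odd-indexed term, or the upper-star family relative to an even-indexed term — contains its centralizer: C_P(B) ≤ B. -/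
theorem result {P : Type*} [Group P] [Finite P] {p : ℕ} [Fact p.Prime] (hP : IsPGroup p P) (B : Subgroup P) (𝒦 : Set (Subgroup P)) (h𝒦 : 𝒦 = Cfsg.classTwoSubgroups P ∨ (∃ n, 𝒦 = Cfsg.kLowerStarFamily (Cfsg.kSeqOdd P n)) ∨ ∃ n, 𝒦 = Cfsg.kUpperStarFamily (Cfsg.kSeqEven P n)) (hB : B ∈ 𝒦) (hmax : ∀ C ∈ 𝒦, B ≤ C → C = B) : Subgroup.centralizer (B : Set P) ≤ B := by
  classical
  by_contra hnot
  haveI : Group.IsNilpotent P := hP.isNilpotent
  obtain ⟨m, hm⟩ := Group.IsNilpotent.nilpotent P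
  have hex : ∃ i, ¬ (Subgroup.centralizer (B : Set P) ⊓ Subgroup.upperCentralSeries P i ≤ B) :=
    ⟨m, by rw [hm, inf_top_eq]; exact hnot⟩
  obtain ⟨i, hi, himin⟩ : ∃ i, ¬ (Subgroup.centralizer (B : Set P) ⊓ Subgroup.upperCentralSeries P i ≤ B) ∧
      ∀ j < i, Subgroup.centralizer (B : Set P) ⊓ Subgroup.upperCentralSeries P j ≤ B :=
    ⟨Nat.find hex, Nat.find_spec hex, fun j hj => not_not.mp (Nat.find_min hex hj)⟩
  have hi0 : i ≠ 0 := by
    rintro rfl
    apply hi
    rw [Subgroup.upperCentralSeries_zero, inf_bot_eq]; exact bot_le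
  obtain ⟨j, rfl⟩ := Nat.exists_eq_succ_of_ne_zero hi0
  obtain ⟨x, hxT, hxB⟩ := SetLike.not_le_iff_exists.mp hi
  have hT : ∀ t ∈ Subgroup.centralizer (B : Set P) ⊓ Subgroup.upperCentralSeries P (j + 1), ∀ g ∈ Subgroup.normalizer (B : Set P),
      t * g * t⁻¹ * g⁻¹ ∈ B := by
    intro t ht g hg
    obtain ⟨htC, htZ⟩ := Subgroup.mem_inf.mp ht
    apply himin j (Nat.lt_succ_self j)
    have h0 := (Subgroup.mem_upperCentralSeries_succ_iff.mp htZ) g
    rw [commutatorElement_def] at h0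
    refine Subgroup.mem_inf.mpr ⟨?_, h0⟩
    have h1 := conj_mem_centralizer_of_mem_normalizer B hg (Subgroup.inv_mem _ htC)
    have h2 := Subgroup.mul_mem _ htC h1
    have e : t * (g * t⁻¹ * g⁻¹) = t * g * t⁻¹ * g⁻¹ := by group
    rwa [e] at h2
  obtain ⟨B', hBB', hxB', hcl, hZ, hNN, hcomm⟩ :=
    adjoinCentral_props B (Subgroup.centralizer (B : Set P) ⊓ Subgroup.upperCentralSeries P (j + 1)) x hxT inf_le_left hT
  have hgoal : B' ∈ 𝒦 → False := fun h => hxB (by rw [← hmax B' h hBB']; exact hxB')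
  apply hgoal
  rcases h𝒦 with h | ⟨n, h⟩ | ⟨n, h⟩
  · rw [h] at hB ⊢
    exact hcl hB
  · rw [h] at hB ⊢
    obtain ⟨hB2, hQN, hA⟩ := hB
    refine And.intro (hcl hB2) (And.intro (hQN.trans hNN) ?_)
    intro A hA2 hAQ hB'A h1 h2
    have hBA : ⁅B, A⁆ ≤ B ⊓ Subgroup.centralizer (B : Set P) := by
      apply hA A hA2 hAQ (hBB'.trans hB'A)
      · exact le_bot_iff.mp ((Subgroup.commutator_mono hBB' le_rfl).trans h1.le)
      · exact le_bot_iff.mp ((Subgroup.commutator_mono
          (Subgroup.commutator_mono hZ le_rfl) le_rfl).trans h2.le)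
    rw [Subgroup.commutator_le]
    intro y hy a ha
    exact hcomm a (hQN (hAQ ha))
      (fun b hb => hBA (Subgroup.commutator_mem_commutator hb ha)) y hy
  · rw [h] at hB ⊢
    obtain ⟨hB2, hBQ⟩ := hB
    refine And.intro (hcl hB2) ?_
    have hconj : ∀ q ∈ Cfsg.kSeqEven P n, ∀ b ∈ B, q * b * q⁻¹ ∈ B := by
      intro q hq b hb
      have h3 : ⁅b⁻¹, q⁆ ∈ B :=
        (Subgroup.mem_inf.mp (hBQ (Subgroup.commutator_mem_commutator (B.inv_mem hb) hq))).1
      have e : q * b * q⁻¹ = b * ⁅b⁻¹, q⁆ := by rw [commutatorElement_def]; group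
      rw [e]; exact B.mul_mem hb h3
    have hQN : ∀ q ∈ Cfsg.kSeqEven P n, q ∈ Subgroup.normalizer (B : Set P) := by
      intro q hq
      rw [Subgroup.mem_normalizer_iff]
      intro h
      constructor
      · exact hconj q hq h
      · intro hh
        have h5 := hconj q⁻¹ (Subgroup.inv_mem _ hq) _ hh
        have e : q⁻¹ * (q * h * q⁻¹) * q⁻¹⁻¹ = h := by group
        rwa [e] at h5
    rw [Subgroup.commutator_le]
    intro y hy q hq
    exact hcomm q (hQN q hq)
      (fun b hb => hBQ (Subgroup.commutator_mem_commutator hb hq)) y hy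

end Cfsg.Agent.S1977
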