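import Cfsg.Statements.S1978
-- import your own Cfsg.Agent.* helpers here
import Cfsg.Agent.Helper12.KNpc

set_option autoImplicit false
open Cfsg

namespace Cfsg.Agent.S1978

/-- Let P be a finite p-group. Each of the two K-infinity subgroups of P contains its own centralizer in P, which in turn contains Z(P); in particular both are nontrivial when P is. -/
theorem result {P : Type*} [Group P] [Finite P] {p : ℕ} [Fact p.Prime] (hP : IsPGroup p P) : Subgroup.centralizer (Cfsg.kInfLower P : Set P) ≤ Cfsg.kInfLower P ∧ Subgroup.center P ≤ Subgroup.centralizer (Cfsg.kInfLower P : Set P) ∧ Subgroup.centralizer (Cfsg.kInfUpper P : Set P) ≤ Cfsg.kInfUpper P ∧ Subgroup.center P ≤ Subgroup.centralizer (Cfsg.kInfUpper P : Set P) := by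
  open Cfsg.Agent.Helper12 in
  (
  have hcen : ∀ K : Subgroup P, Subgroup.center P ≤ Subgroup.centralizer (K : Set P) := by
    intro K z hz
    rw [Subgroup.mem_centralizer_iff]
    intro k _
    exact (Subgroup.mem_center_iff.1 hz k)
  refine ⟨centralizer_kInfLower_le P hP, hcen _, ?_, hcen _⟩
  obtain ⟨A, hAn, -, hA2, hTA, hCA⟩ := exists_critical (⊤ : Subgroup P) Subgroup.normal_top
    (hP.to_subgroup ⊤)
  have hAK : A ≤ Cfsg.kInfUpper P := by
    apply le_iInf
    intro n
    rcases n with _ | n
    · exact le_top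
    · refine le_sSup ⟨(classTwo_iff A).2 hA2, ?_⟩
      rw [Subgroup.commutator_comm]
      exact (Subgroup.commutator_mono le_top le_rfl).trans hTA
  have hCA' : Subgroup.centralizer (A : Set P) ≤ A := by
    intro c hc
    exact hCA (Subgroup.mem_inf.2 ⟨Subgroup.mem_top c, hc⟩)
  exact (Subgroup.centralizer_le (SetLike.coe_subset_coe.2 hAK)).trans (hCA'.trans hAK)
  )

end Cfsg.Agent.S1978
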