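import Cfsg.Statements.S1981
-- import your own Cfsg.Agent.* helpers here
import Cfsg.Agent.Helper12.KSeq

set_option autoImplicit false
open Cfsg

namespace Cfsg.Agent.S1981

/-- Let P be a finite p-group generated by its abelian normal subgroups. Then both K-infinity subgroups of P equal P. -/
theorem result {P : Type*} [Group P] [Finite P] {p : ℕ} [Fact p.Prime] (hP : IsPGroup p P) (hgen : ⨆ A ∈ {A : Subgroup P | A.Normal ∧ IsMulCommutative ↥A}, A = ⊤) : Cfsg.kInfLower P = ⊤ ∧ Cfsg.kInfUpper P = ⊤ := by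
  have hle : ∀ Q : Subgroup P, (⊤ : Subgroup P) ≤ sSup (Cfsg.kLowerStarFamily Q) := by
    intro Q
    rw [← hgen]
    apply iSup₂_le
    intro A hA
    haveI := hA.1
    exact le_sSup (Cfsg.Agent.Helper12.normal_abelian_lower A hA.2 Q)
  have hle' : ∀ Q : Subgroup P, (⊤ : Subgroup P) ≤ sSup (Cfsg.kUpperStarFamily Q) := by
    intro Q
    rw [← hgen]
    apply iSup₂_le
    intro A hA
    haveI := hA.1
    exact le_sSup (Cfsg.Agent.Helper12.normal_abelian_upper A hA.2 Q)
  constructor
  · apply top_le_iff.1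
    exact le_trans (hle _) (le_iSup (Cfsg.kSeqEven P) 0)
  · apply top_le_iff.1
    apply le_iInf
    intro n
    cases n with
    | zero => exact le_of_eq (Cfsg.Agent.Helper12.kSeqOdd_zero P).symm
    | succ n => rw [Cfsg.Agent.Helper12.kSeqOdd_succ]; exact hle' _

end Cfsg.Agent.S1981
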