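import Cfsg.Statements.S1996
-- import your own Cfsg.Agent.* helpers here
import Cfsg.Agent.Helper12.SecInd

set_option autoImplicit false
universe u
open Cfsg

namespace Cfsg.Agent.S1996

/-- Let p be a prime, G a finite group and W₁, W₂ two isomorphism-invariant p-group functors (W assigns to every group Q a subgroup W(Q), nontrivial whenever Q is a nontrivial finite p-group, and every isomorphism from a finite p-group Q onto a group R carries W(Q) onto W(R)). Suppose that G* = N_{G*}(W₁(S*)) N_{G*}(W₂(S*)) whenever G* = K/R is a section of G with C_{G*}(O_p(G*)) ≤ O_p(G*) and S* is a Sylow p-subgroup of G*. Then the pair {W₁, W₂} controls strong fusion in G. -/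
theorem result {G : Type u} [Group G] [Finite G] {p : ℕ} [Fact p.Prime] (W₁ W₂ : ∀ (Q : Type u) [Group Q], Subgroup Q) (hW₁ : Cfsg.IsCharPFunctor.{u} p W₁) (hW₂ : Cfsg.IsCharPFunctor.{u} p W₂) (hfac : ∀ (K R : Subgroup G) [hR : (R.subgroupOf K).Normal], Subgroup.centralizer ((Cfsg.pCore p (↥K ⧸ R.subgroupOf K) : Subgroup (↥K ⧸ R.subgroupOf K)) : Set (↥K ⧸ R.subgroupOf K)) ≤ Cfsg.pCore p (↥K ⧸ R.subgroupOf K) → ∀ T : Sylow p (↥K ⧸ R.subgroupOf K), ∀ x : (↥K ⧸ R.subgroupOf K), ∃ a ∈ Subgroup.normalizer ((Cfsg.inducedFunctor (G := (↥K ⧸ R.subgroupOf K)) W₁ (T : Subgroup (↥K ⧸ R.subgroupOf K)) : Subgroup (↥K ⧸ R.subgroupOf K)) : Set (↥K ⧸ R.subgroupOf K)), ∃ b ∈ Subgroup.normalizer ((Cfsg.inducedFunctor (G := (↥K ⧸ R.subgroupOf K)) W₂ (T : Subgroup (↥K ⧸ R.subgroupOf K)) : Subgroup (↥K ⧸ R.subgroupOf K)) : Set (↥K ⧸ R.subgroupOf K)), x = a * b) : Cfsg.FamilyControlsStrongFusionIn p {Cfsg.inducedFunctor (G := G) W₁,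 Cfsg.inducedFunctor (G := G) W₂} ⊤ := by
  open Cfsg.Agent.Helper12 in
  (
  have h𝓦 : ∀ W' ∈ ({W₁, W₂} : Set (∀ (Q : Type u) [Group Q], Subgroup Q)),
      Cfsg.IsCharPFunctor.{u} p W' := by
    rintro _ (rfl | rfl)
    · exact hW₁
    · exact hW₂
  have h1 : ∀ (K R : Subgroup G) [(R.subgroupOf K).Normal],
      Subgroup.centralizer ((Cfsg.pCore p (↥K ⧸ R.subgroupOf K) :
        Subgroup (↥K ⧸ R.subgroupOf K)) : Set (↥K ⧸ R.subgroupOf K)) ≤
        Cfsg.pCore p (↥K ⧸ R.subgroupOf K) →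
        sfCtl p ({W₁, W₂} : Set (∀ (Q : Type u) [Group Q], Subgroup Q))
          (↥K ⧸ R.subgroupOf K) := by
    intro K R _ hcen T A g hA hgA
    obtain ⟨a, ha, b, hb, hgab⟩ := hfac K R hcen T g
    have hc1 := isConjugacyFunctor_induced (G := ↥K ⧸ R.subgroupOf K) hW₁
    have hc2 := isConjugacyFunctor_induced (G := ↥K ⧸ R.subgroupOf K) hW₂
    have hTN1 := Subgroup.le_normalizer.trans (cf_normalizer_le hc1 T.2)
    have hTN2 := Subgroup.le_normalizer.trans (cf_normalizer_le hc2 T.2)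
    have hE : Subgroup.closure A ≤ (T : Subgroup (↥K ⧸ R.subgroupOf K)) :=
      (Subgroup.closure_le _).2 hA
    have hP1 : cjs a (Subgroup.closure A) ≤ Subgroup.normalizer
        ((Cfsg.inducedFunctor (G := (↥K ⧸ R.subgroupOf K)) W₁
          (T : Subgroup (↥K ⧸ R.subgroupOf K)) : Subgroup (↥K ⧸ R.subgroupOf K)) :
            Set (↥K ⧸ R.subgroupOf K)) := by
      intro x hx
      rw [mem_cjs_iff] at hx
      have e : x = a⁻¹ * (a * x * a⁻¹) * a := by group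
      rw [e]
      exact mul_mem (mul_mem (inv_mem ha) (hTN1 (hE hx))) ha
    have hP2 : cjs a (Subgroup.closure A) ≤ Subgroup.normalizer
        ((Cfsg.inducedFunctor (G := (↥K ⧸ R.subgroupOf K)) W₂
          (T : Subgroup (↥K ⧸ R.subgroupOf K)) : Subgroup (↥K ⧸ R.subgroupOf K)) :
            Set (↥K ⧸ R.subgroupOf K)) := by
      intro x hx
      rw [mem_cjs_iff] at hx
      have h1 : g⁻¹ * (a * x * a⁻¹) * g ∈ (T : Subgroup (↥K ⧸ R.subgroupOf K)) :=
        cj_closure_subset hgA ⟨_, hx, rfl⟩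
      have e : x = b * (g⁻¹ * (a * x * a⁻¹) * g) * b⁻¹ := by rw [hgab]; group
      rw [e]
      exact mul_mem (mul_mem hb (hTN2 h1)) (inv_mem hb)
    obtain ⟨n, hn, hnP⟩ := exists_conj_le_of_relIndex T.2
      (sylow_not_dvd_relIndex T (le_inf hTN1 hTN2)) (isPGroup_cjs (T.2.to_le hE) a)
      (le_inf hP1 hP2)
    have hstep1 : cj (a * n⁻¹) A ⊆ (T : Subgroup (↥K ⧸ R.subgroupOf K)) := by
      rintro _ ⟨x, hx, rfl⟩
      show (a * n⁻¹)⁻¹ * x * (a * n⁻¹) ∈ (T : Subgroup (↥K ⧸ R.subgroupOf K))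
      have h1 : a⁻¹ * x * a ∈ cjs a (Subgroup.closure A) := by
        rw [mem_cjs_iff]
        have e : a * (a⁻¹ * x * a) * a⁻¹ = x := by group
        rw [e]; exact Subgroup.subset_closure hx
      have h2 := hnP _ h1
      have e : (a * n⁻¹)⁻¹ * x * (a * n⁻¹) = n * (a⁻¹ * x * a) * n⁻¹ := by group
      rw [e]; exact h2
    have e : a * n⁻¹ * (n * b) = g := by rw [hgab]; group
    have hR1 : famRel (indFam ({W₁, W₂} : Set (∀ (Q : Type u) [Group Q], Subgroup Q))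
        (↥K ⧸ R.subgroupOf K)) (T : Subgroup (↥K ⧸ R.subgroupOf K)) A (a * n⁻¹) :=
      famRel_step hA hstep1 ⟨W₁, Or.inl rfl, rfl⟩
        (mul_mem ha (inv_mem (Subgroup.mem_inf.1 hn).1))
    have hR2 : famRel (indFam ({W₁, W₂} : Set (∀ (Q : Type u) [Group Q], Subgroup Q))
        (↥K ⧸ R.subgroupOf K)) (T : Subgroup (↥K ⧸ R.subgroupOf K)) (cj (a * n⁻¹) A) (n * b) := by
      refine famRel_step hstep1 ?_ ⟨W₂, Or.inr rfl, rfl⟩
        (mul_mem (Subgroup.mem_inf.1 hn).2 hb)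
      rw [← cj_mul, e]; exact hgA
    have h3 := famRel_comp hR1 hR2
    rw [e] at h3; exact h3
  have h2 := fcsf_of_sfCtl (sfCtl_sections_of_hloc h𝓦 h1 G (isSectionOf_self G))
  have e : indFam ({W₁, W₂} : Set (∀ (Q : Type u) [Group Q], Subgroup Q)) G =
      {Cfsg.inducedFunctor (G := G) W₁, Cfsg.inducedFunctor (G := G) W₂} :=
    Set.image_pair _ _ _
  rw [e] at h2
  exact h2
  )

end Cfsg.Agent.S1996
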