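import Cfsg.Statements.S1998
-- import your own Cfsg.Agent.* helpers here
import Cfsg.Agent.Helper12.MinFail

set_option autoImplicit false
universe u
open Cfsg

namespace Cfsg.Agent.S1998

/-- Let p be a prime, G a finite group with Sylow p-subgroup S, and 𝓦 a nonempty set of isomorphism-invariant p-group functors (W assigns to every group Q a subgroup W(Q), nontrivial whenever Q is a nontrivial finite p-group, and every isomorphism from a finite p-group Q onto a group R carries W(Q) onto W(R)). Suppose the induced conjugacy functors control transfer in every section of G other than G itself, but not in G. Let T be the subgroup generated by the S ∩ (N_G(W(S)))', W ∈ 𝓦, and M = N_G(T ∩ O_p(G)). Then: C_G(O_p(G)) ≤ O_p(G); M is a proper subgroup of G containing every proper subgroup of G that contains S (the unique maximal subgroup over S); [O_p(G), M] ≤ O_p(G) ∩ M' ≤ O_p(G) ∩ T; and every element u of S outside O_p(G) satisfies [X, u, …, u] ≰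 Y with p − 1 entries u, for some chief factor X/Y of G with X ≤ O_p(G). -/
theorem result {G : Type u} [Group G] [Finite G] {p : ℕ} [Fact p.Prime] (S : Sylow p G) (𝓦 : Set (∀ (Q : Type u) [Group Q], Subgroup Q)) (h𝓦 : ∀ W ∈ 𝓦, Cfsg.IsCharPFunctor.{u} p W) (hne : 𝓦.Nonempty) (hsec : ∀ (K R : Subgroup G) [hR : (R.subgroupOf K).Normal], (K = ⊤ → R ≠ ⊥) → Cfsg.FamilyControlsTransferIn p ((fun W => Cfsg.inducedFunctor (G := (↥K ⧸ R.subgroupOf K)) W) '' 𝓦) ⊤) (hG : ¬ Cfsg.FamilyControlsTransferIn p ((fun W => Cfsg.inducedFunctor (G := G) W) '' 𝓦) ⊤) (T M : Subgroup G) (hT : T = (⨆ W ∈ 𝓦, (S : Subgroup G) ⊓ ⁅Subgroup.normalizer ((Cfsg.inducedFunctor (G := G) W (S : Subgroup G) : Subgroup G) : Set G), Subgroup.normalizer ((Cfsg.inducedFunctor (G := G) W (S : Subgroup G) : Subgroup G) : Set G)⁆)) (hM : M = Subgroup.normalizer ((T ⊓ Cfsg.pCore p G : Subgroup G) : Set G)) : Subgroup.centralizer ((Cfsg.pCore p G : Subgroup G) : Set G) ≤ Cfsg.pCore p G ∧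 (M ≠ ⊤ ∧ ∀ H : Subgroup G, (S : Subgroup G) ≤ H → H ≠ ⊤ → H ≤ M) ∧ (⁅Cfsg.pCore p G, M⁆ ≤ Cfsg.pCore p G ⊓ ⁅M, M⁆ ∧ Cfsg.pCore p G ⊓ ⁅M, M⁆ ≤ Cfsg.pCore p G ⊓ T) ∧ ∀ u : G, u ∈ (S : Subgroup G) → u ∉ Cfsg.pCore p G → ∃ U V : Subgroup G, Cfsg.IsChiefFactor U V ∧ U ≤ Cfsg.pCore p G ∧ ¬ Cfsg.iterCommutator U (Subgroup.zpowers u) (p - 1) ≤ V := by
  open Cfsg.Agent.Helper12 in (
  have hZ : ∀ (K : Subgroup G) (Z : Type u) [Group Z] (f : ↥K →* Z), Function.Surjective f →
      (K = ⊤ → f.ker ≠ ⊥) → tCtl p 𝓦 Z := by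
    intro K Z _ f hf hker
    have e1 : (f.ker.map K.subtype).subgroupOf K = f.ker :=
      Subgroup.comap_map_eq_self_of_injective K.subtype_injective _
    have hn : ((f.ker.map K.subtype).subgroupOf K).Normal := by rw [e1]; infer_instance
    have e : (↥K ⧸ (f.ker.map K.subtype).subgroupOf K) ≃* Z :=
      (QuotientGroup.quotientMulEquivOfEq e1).trans (QuotientGroup.quotientKerEquivOfSurjective f hf)
    have h1 : Cfsg.FamilyControlsTransferIn p
        (indFam 𝓦 (↥K ⧸ (f.ker.map K.subtype).subgroupOf K)) ⊤ :=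
      hsec K (f.ker.map K.subtype) (fun hK =>
        (Subgroup.map_eq_bot_iff_of_injective _ K.subtype_injective).not.mpr (hker hK))
    exact tCtl_equiv h𝓦 e (tCtl_of_fct h𝓦 h1)
  have hsub : ∀ X : Subgroup G, X ≠ ⊤ → tCtl p 𝓦 ↥X := fun X hX =>
    hZ X ↥X (MonoidHom.id ↥X) Function.surjective_id (fun h => absurd h hX)
  have hq : ∀ (N : Subgroup G) [N.Normal], N ≠ ⊥ → tCtl p 𝓦 (G ⧸ N) := by
    intro N _ hN
    refine hZ ⊤ (G ⧸ N) ((QuotientGroup.mk' N).comp
      (Subgroup.topEquiv : ↥(⊤ : Subgroup G) ≃* G).toMonoidHom)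
      ((QuotientGroup.mk'_surjective N).comp
        (Subgroup.topEquiv : ↥(⊤ : Subgroup G) ≃* G).surjective) (fun _ => ?_)
    obtain ⟨n, hn⟩ := (Subgroup.ne_bot_iff_exists_ne_one).mp hN
    intro hbot
    have h1 : (⟨(n : G), Subgroup.mem_top _⟩ : ↥(⊤ : Subgroup G)) ∈
        ((QuotientGroup.mk' N).comp
          (Subgroup.topEquiv : ↥(⊤ : Subgroup G) ≃* G).toMonoidHom).ker := by
      rw [MonoidHom.mem_ker]
      exact (QuotientGroup.eq_one_iff _).mpr n.2
    rw [hbot, Subgroup.mem_bot] at h1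
    apply hn
    apply Subtype.ext
    have := congrArg Subtype.val h1
    exact this
  have hTJ : T = tJ (indFam 𝓦 G) (S : Subgroup G) := by
    rw [hT]; unfold tJ indFam; rw [iSup_image]
  have hfailS : ¬ ((S : Subgroup G) ⊓ ⁅(⊤ : Subgroup G), (⊤ : Subgroup G)⁆ ≤
      tJ (indFam 𝓦 G) (S : Subgroup G)) := by
    intro h
    apply hG
    show Cfsg.FamilyControlsTransferIn p (indFam 𝓦 G) ⊤
    refine ⟨(S : Subgroup G), le_top, S.isPGroup', ?_, le_antisymm ?_ ?_⟩
    · rw [Subgroup.relIndex_top_right]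
      exact S.not_dvd_index
    · refine h.trans ?_
      exact iSup₂_mono fun W hW => inf_le_inf_left _ (le_of_eq (by rw [top_inf_eq]))
    · exact iSup₂_le fun W hW => inf_le_inf_left _ (Subgroup.commutator_mono le_top le_top)
  have key := min_fail_structure h𝓦 hne S hsub (fun h => hq _ h) (fun h => hq _ h) hfailS
  subst hM
  rw [hTJ]
  exact key
  )

end Cfsg.Agent.S1998
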