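import Cfsg.Statements.S2005
import Mathlib
import Cfsg.Agent.Helper1.FunNpc

set_option autoImplicit false
universe u
open Cfsg

namespace Cfsg.Agent.S2005

open Cfsg.Agent.Helper1 in
theorem endgame {G₀ : Type u} [Group G₀] [Finite G₀] {p : ℕ} [Fact p.Prime]
    (W : ∀ (Q : Type u) [Group Q], Subgroup Q) (hW : Cfsg.IsCharPFunctor.{u} p W)
    (hloc : ∀ (K R : Subgroup G₀) [hR : (R.subgroupOf K).Normal], Subgroup.centralizer ((Cfsg.pCore p (↥K ⧸ R.subgroupOf K) : Subgroup (↥K ⧸ R.subgroupOf K)) : Set (↥K ⧸ R.subgroupOf K)) ≤ Cfsg.pCore p (↥K ⧸ R.subgroupOf K) → Cfsg.HasNormalPComplement p ((↥K ⧸ R.subgroupOf K) ⧸ Cfsg.pCore p (↥K ⧸ R.subgroupOf K)) → ∀ T : Sylow p (↥K ⧸ R.subgroupOf K), IsCoatom (T : Subgroup (↥K ⧸ R.subgroupOf K)) → (Cfsg.inducedFunctor (G := (↥K ⧸ R.subgroupOf K)) W ((T : Subgroup (↥K ⧸ R.subgroupOf K)))).Normal)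
    (G : Type u) [Group G] [Finite G] (hsec : Cfsg.Agent.Helper12.IsSectionOf G G₀)
    (hG : ¬ HasNormalPComplement p G)
    (P : Sylow p G) (hP : FunLoc p W G (P : Subgroup G))
    (H : Subgroup G) [hHn : H.Normal] (hH : IsPGroup p H)
    (hD2 : ∀ X : Subgroup G, X.Normal → IsPGroup p X → X ≤ H)
    (hCH : Subgroup.centralizer (H : Set G) ≤ H)
    (Mb : Subgroup (G ⧸ H)) [hMbn : Mb.Normal] (hMb : (Nat.card Mb).Coprime p)
    (j₀ : ℕ) (hj₀ : ∀ y : G ⧸ H, y ^ (p ^ j₀) ∈ Mb)
    (h5a : ∀ K₀ : Subgroup G, H ≤ K₀ → K₀ ≤ Mb.comap (QuotientGroup.mk' H) →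
      (P : Subgroup G) ≤ Subgroup.normalizer (K₀ : Set G) →
      K₀ ≠ Mb.comap (QuotientGroup.mk' H) → K₀ ≤ H) : False := by
  have hp : p.Prime := Fact.out
  have hP' : HasNormalPComplement p
      (Subgroup.normalizer ((Cfsg.inducedFunctor W (P : Subgroup G) : Subgroup G) : Set G)) := hP
  have hHeq : H = Cfsg.pCore p G :=
    le_antisymm (Cfsg.Agent.Helper9.le_pCore hHn hH)
      (hD2 _ inferInstance (Cfsg.Agent.Helper9.pCore_isPGroup p))
  have hHP : H ≤ (P : Subgroup G) := normal_pgroup_le_sylow H hH P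
  obtain ⟨K, hK⟩ : ∃ K : Subgroup G, K = Mb.comap (QuotientGroup.mk' H) := ⟨_, rfl⟩
  rw [← hK] at h5a
  haveI hKn : K.Normal := by rw [hK]; infer_instance
  have hHK : H ≤ K := by rw [hK]; exact le_comap_mk' H Mb
  have hKj : ∀ g : G, g ^ (p ^ j₀) ∈ K := by
    intro g
    rw [hK, Subgroup.mem_comap, map_pow]; exact hj₀ _
  have hKP : K ⊔ (P : Subgroup G) = ⊤ := sup_sylow_eq_top K P j₀ hKj
  -- `P` is a maximal subgroup
  have hcoatom : IsCoatom (P : Subgroup G) := by
    refine ⟨fun htop => ?_, fun L hPL => ?_⟩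
    · have h1 : Subgroup.normalizer ((P : Subgroup G) : Set G) = ⊤ := by
        rw [eq_top_iff]
        calc (⊤ : Subgroup G) = (P : Subgroup G) := htop.symm
          _ ≤ _ := Subgroup.le_normalizer
      exact hG ((funLoc_npcLoc W hW).top G _ P.isPGroup' h1 hP)
    · obtain ⟨K₀, hK₀⟩ : ∃ K₀ : Subgroup G, K₀ = L ⊓ K := ⟨_, rfl⟩
      have hPL' : (P : Subgroup G) ≤ L := hPL.le
      by_cases hc : K₀ = K
      · rw [eq_top_iff, ← hKP]
        exact sup_le (by rw [← hc, hK₀]; exact inf_le_left) hPL'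
      · exfalso
        have hnorm : (P : Subgroup G) ≤ Subgroup.normalizer (K₀ : Set G) := by
          rw [hK₀]
          exact le_normalizer_of_conj_mem _ _ (fun a ha x hx =>
            Subgroup.mem_inf.mpr
              ⟨L.mul_mem (L.mul_mem (hPL' ha) (Subgroup.mem_inf.mp hx).1) (L.inv_mem (hPL' ha)),
                hKn.conj_mem x (Subgroup.mem_inf.mp hx).2 a⟩)
        have h1 : K₀ ≤ H := h5a K₀ (by rw [hK₀]; exact le_inf (hHP.trans hPL') hHK)
          (by rw [hK₀]; exact inf_le_right) hnorm hc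
        have hLP : L ≤ (P : Subgroup G) := by
          intro l hl
          obtain ⟨c, hc', m, hm, hlcm⟩ := exists_mul_of_sup_eq_top (C := (P : Subgroup G))
            (N := K) (by rw [sup_comm]; exact hKP) l
          have hmL : m ∈ L := by
            have h2 : m = c⁻¹ * l := by rw [hlcm]; group
            rw [h2]; exact L.mul_mem (L.inv_mem (hPL' hc')) hl
          have hmH : m ∈ H := h1 (by rw [hK₀]; exact Subgroup.mem_inf.mpr ⟨hmL, hm⟩)
          rw [hlcm]; exact Subgroup.mul_mem _ hc' (hHP hmH)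
        exact lt_irrefl _ (lt_of_lt_of_le hPL hLP)
  -- `G / O_p(G)` has a normal `p`-complement
  have hnpcH : HasNormalPComplement p (G ⧸ H) := by
    apply Lead.npc_of_normal_coprime Mb
    · exact (Nat.Prime.coprime_iff_not_dvd hp).mp hMb.symm
    · intro x
      obtain ⟨y, rfl⟩ := QuotientGroup.mk_surjective x
      exact ⟨j₀, by rw [← QuotientGroup.mk_pow]; exact (QuotientGroup.eq_one_iff _).mpr (hj₀ y)⟩
  have hnpcG : HasNormalPComplement p (G ⧸ Cfsg.pCore p G) :=
    npc_of_surjective (QuotientGroup.quotientMulEquivOfEq hHeq).toMonoidHom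
      (MulEquiv.surjective _) hnpcH
  have hcenG : Subgroup.centralizer ((Cfsg.pCore p G : Subgroup G) : Set G) ≤ Cfsg.pCore p G := by
    rw [← hHeq]; exact hCH
  -- transport to the concrete section
  obtain ⟨K', f, hf⟩ := hsec
  have e1 : (f.ker.map K'.subtype).subgroupOf K' = f.ker :=
    Subgroup.comap_map_eq_self_of_injective K'.subtype_injective _
  have hn : ((f.ker.map K'.subtype).subgroupOf K').Normal := by rw [e1]; infer_instance
  have e : (↥K' ⧸ (f.ker.map K'.subtype).subgroupOf K') ≃* G :=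
    (QuotientGroup.quotientMulEquivOfEq e1).trans (QuotientGroup.quotientKerEquivOfSurjective f hf)
  have hmap : (Cfsg.pCore p (↥K' ⧸ (f.ker.map K'.subtype).subgroupOf K')).map e.toMonoidHom
      = Cfsg.pCore p G := by
    apply le_antisymm (Cfsg.Agent.Helper12.pCore_map_le p e)
    intro z hz
    exact ⟨e.symm z, (Cfsg.Agent.Helper12.mem_pCore_equiv p e (e.symm z)).mpr
      (by rw [e.apply_symm_apply]; exact hz), e.apply_symm_apply z⟩
  have hnpcQ : HasNormalPComplement p ((↥K' ⧸ (f.ker.map K'.subtype).subgroupOf K') ⧸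
      Cfsg.pCore p (↥K' ⧸ (f.ker.map K'.subtype).subgroupOf K')) :=
    npc_of_injective (QuotientGroup.congr _ _ e hmap).toMonoidHom (MulEquiv.injective _) hnpcG
  obtain ⟨T', hT'⟩ : ∃ T' : Sylow p (↥K' ⧸ (f.ker.map K'.subtype).subgroupOf K'),
      (T' : Subgroup (↥K' ⧸ (f.ker.map K'.subtype).subgroupOf K'))
        = (P : Subgroup G).map e.symm.toMonoidHom :=
    ⟨Sylow.mapSurjective (f := e.symm.toMonoidHom) e.symm.surjective P,
      Sylow.coe_mapSurjective _ P⟩
  have hT'c : IsCoatom (T' : Subgroup (↥K' ⧸ (f.ker.map K'.subtype).subgroupOf K')) := by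
    rw [hT']
    have h1 := (OrderIso.isCoatom_iff e.symm.mapSubgroup (P : Subgroup G)).mpr hcoatom
    rwa [MulEquiv.coe_mapSubgroup] at h1
  have key := hloc K' (f.ker.map K'.subtype)
    (Cfsg.Agent.Helper12.constrained_equiv p e hcenG) hnpcQ T' hT'c
  have hWP : (Cfsg.inducedFunctor W (P : Subgroup G)).Normal := by
    have h1 := Cfsg.Agent.Helper12.inducedFunctor_map hW e.toMonoidHom
      (T' : Subgroup (↥K' ⧸ (f.ker.map K'.subtype).subgroupOf K')) T'.isPGroup'
      (fun x _ hx => e.injective (hx.trans (map_one e).symm))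
    have h2 : (T' : Subgroup (↥K' ⧸ (f.ker.map K'.subtype).subgroupOf K')).map e.toMonoidHom
        = (P : Subgroup G) := by
      rw [hT', Subgroup.map_map]
      have h3 : e.toMonoidHom.comp e.symm.toMonoidHom = MonoidHom.id G := by
        ext x; simp
      rw [h3, Subgroup.map_id]
    rw [h2] at h1
    rw [h1]
    exact key.map e.toMonoidHom e.surjective
  exact hG (npc_of_eq_top _ (Subgroup.normalizer_eq_top_iff.mpr hWP) hP')

/-- Thompson's normal p-complement criterion in functor form. Let p be a prime, G a finite group with Sylow p-subgroup S, and W an isomorphism-invariant p-group functor (W assigns to every group Q a subgroup W(Q), nontrivial whenever Q is a nontrivial finite p-group, and every isomorphism from a finite p-group Q onto a group R carries W(Q) onto W(R)). Suppose N_G(W(S)) has a normal p-complement, and that W(S*) is normal in G* whenever G* = K/R is a section of G with C_{G*}(O_p(G*)) ≤ O_p(G*) such that G*/O_p(G*) has a normal p-complement,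 and S* is a Sylow p-subgroup of G* that is a maximal subgroup of G*. Then G has a normal p-complement. -/
theorem result {G : Type u} [Group G] [Finite G] {p : ℕ} [Fact p.Prime] (W : ∀ (Q : Type u) [Group Q], Subgroup Q) (hW : Cfsg.IsCharPFunctor.{u} p W) (S : Sylow p G) (hN : Cfsg.HasNormalPComplement p ↥(Subgroup.normalizer ((Cfsg.inducedFunctor (G := G) W (S : Subgroup G) : Subgroup G) : Set G))) (hloc : ∀ (K R : Subgroup G) [hR : (R.subgroupOf K).Normal], Subgroup.centralizer ((Cfsg.pCore p (↥K ⧸ R.subgroupOf K) : Subgroup (↥K ⧸ R.subgroupOf K)) : Set (↥K ⧸ R.subgroupOf K)) ≤ Cfsg.pCore p (↥K ⧸ R.subgroupOf K) → Cfsg.HasNormalPComplement p ((↥K ⧸ R.subgroupOf K) ⧸ Cfsg.pCore p (↥K ⧸ R.subgroupOf K)) → ∀ T : Sylow p (↥K ⧸ R.subgroupOf K), IsCoatom (T : Subgroup (↥K ⧸ R.subgroupOf K)) → (Cfsg.inducedFunctor (G := (↥K ⧸ R.subgroupOf K)) W ((T : Subgroup (↥K ⧸ R.subgroupOf K)))).Normal) : Cfsg.HasNormalPComplement p G := by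
  exact Cfsg.Agent.Helper1.gen_npc p (Cfsg.Agent.Helper1.funLoc_npcLoc W hW)
    (Good := fun Z inst => @Cfsg.Agent.Helper12.IsSectionOf Z inst G _)
    (fun Z _ _ X h => Cfsg.Agent.Helper12.isSectionOf_subgroup h X)
    (fun Z _ _ N _ h => Cfsg.Agent.Helper12.isSectionOf_quotient h N)
    (fun G' _ _ hsec hG' P hP H _ hH hD2 hCH Mb _ hMb j₀ hj₀ h5a _ =>
      endgame W hW hloc G' hsec hG' P hP H hH hD2 hCH Mb hMb j₀ hj₀ h5a)
    (Nat.card G) G rfl (Cfsg.Agent.Helper12.isSectionOf_self G) S hN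

end Cfsg.Agent.S2005
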