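import Cfsg.Statements.S2007
-- import your own Cfsg.Agent.* helpers here
import Cfsg.Agent.Helper12.PRes

set_option autoImplicit false
open Cfsg

namespace Cfsg.Agent.S2007

/-- Let p be a prime, G a finite group with Sylow p-subgroup S, and T a normal subgroup of S containing C_S(T). If N_G(T)/C_G(T) is a p-group (every element of N_G(T) of order prime to p centralizes T), then N_G(T) has a normal p-complement. -/
theorem result {G : Type*} [Group G] [Finite G] {p : ℕ} [Fact p.Prime] (S : Sylow p G) (T : Subgroup G) (hTS : T ≤ (S : Subgroup G)) (hTn : (S : Subgroup G) ≤ Subgroup.normalizer ((T : Subgroup G) : Set G)) (hC : (S : Subgroup G) ⊓ Subgroup.centralizer ((T : Subgroup G) : Set G) ≤ T) (hN : ∀ g ∈ Subgroup.normalizer ((T : Subgroup G) : Set G), (orderOf g).Coprime p → g ∈ Subgroup.centralizer ((T : Subgroup G) : Set G)) : Cfsg.HasNormalPComplement p ↥(Subgroup.normalizer ((T : Subgroup G) : Set G)) := by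
  open Cfsg.Agent.Helper12 in
  (
  classical
  have hCN : Subgroup.centralizer ((T : Subgroup G) : Set G) ≤
      Subgroup.normalizer ((T : Subgroup G) : Set G) := Subgroup.centralizer_le_normalizer _
  -- C is normalized by N
  have hCnorm : ∀ n ∈ Subgroup.normalizer ((T : Subgroup G) : Set G),
      ∀ c ∈ Subgroup.centralizer ((T : Subgroup G) : Set G),
      n * c * n⁻¹ ∈ Subgroup.centralizer ((T : Subgroup G) : Set G) := by
    intro n hn c hc
    rw [Subgroup.mem_centralizer_iff]
    intro t ht
    have h1 : n⁻¹ * t * n ∈ T := by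
      have := (Subgroup.mem_normalizer_iff.mp hn) (n⁻¹ * t * n)
      rw [this]
      have e : n * (n⁻¹ * t * n) * n⁻¹ = t := by group
      rw [e]; exact ht
    have h2 := (Subgroup.mem_centralizer_iff.mp hc) (n⁻¹ * t * n) h1
    calc t * (n * c * n⁻¹) = n * ((n⁻¹ * t * n) * c) * n⁻¹ := by group
      _ = n * (c * (n⁻¹ * t * n)) * n⁻¹ := by rw [h2]
      _ = n * c * n⁻¹ * t := by group
  -- every p-subgroup of C is central in C
  have hcent : ∀ R : Subgroup G, R ≤ Subgroup.centralizer ((T : Subgroup G) : Set G) →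
      IsPGroup p R → ∀ r ∈ R, ∀ c ∈ Subgroup.centralizer ((T : Subgroup G) : Set G),
      c * r = r * c := by
    intro R hRC hRp r hr c hc
    obtain ⟨n, hn, hnR⟩ := exists_conj_le_of_relIndex
      (H := Subgroup.normalizer ((T : Subgroup G) : Set G)) (P := (S : Subgroup G))
      S.isPGroup' (sylow_not_dvd_relIndex S hTn) hRp (hRC.trans hCN)
    have h1 : n * r * n⁻¹ ∈ T := hC ⟨hnR r hr, hCnorm n hn r (hRC hr)⟩
    have h2 := (Subgroup.mem_centralizer_iff.mp (hCnorm n hn c hc)) (n * r * n⁻¹) h1
    have h3 : n * (r * c) * n⁻¹ = n * (c * r) * n⁻¹ := by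
      calc n * (r * c) * n⁻¹ = n * r * n⁻¹ * (n * c * n⁻¹) := by group
        _ = n * c * n⁻¹ * (n * r * n⁻¹) := h2
        _ = n * (c * r) * n⁻¹ := by group
    exact (mul_left_cancel (mul_right_cancel h3)).symm
  -- Burnside in C
  obtain ⟨R⟩ : Nonempty (Sylow p ↥(Subgroup.centralizer ((T : Subgroup G) : Set G))) :=
    inferInstance
  have hRcent : Subgroup.normalizer ((R : Subgroup ↥(Subgroup.centralizer ((T : Subgroup G) : Set G))) :
      Set ↥(Subgroup.centralizer ((T : Subgroup G) : Set G))) ≤
      Subgroup.centralizer ((R : Subgroup ↥(Subgroup.centralizer ((T : Subgroup G) : Set G))) :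
        Set ↥(Subgroup.centralizer ((T : Subgroup G) : Set G))) := by
    intro c _
    rw [Subgroup.mem_centralizer_iff]
    intro r hr
    apply Subtype.ext
    have := hcent ((R : Subgroup ↥(Subgroup.centralizer ((T : Subgroup G) : Set G))).map
      (Subgroup.centralizer ((T : Subgroup G) : Set G)).subtype)
      (Subgroup.map_subtype_le _) (R.isPGroup'.map _) r.1 (Subgroup.mem_map_of_mem _ hr) c.1 c.2
    exact this.symm
  have hK₀ := MonoidHom.ker_transferSylow_isComplement' R hRcent
  have hK₀card : ¬ p ∣ Nat.card (MonoidHom.transferSylow R hRcent).ker :=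
    MonoidHom.not_dvd_card_ker_transferSylow R hRcent
  have hp'K₀ : ∀ x : ↥(Subgroup.centralizer ((T : Subgroup G) : Set G)), (orderOf x).Coprime p →
      x ∈ (MonoidHom.transferSylow R hRcent).ker := by
    intro x hx
    have hidx : (MonoidHom.transferSylow R hRcent).ker.index =
        Nat.card (R : Subgroup ↥(Subgroup.centralizer ((T : Subgroup G) : Set G))) :=
      hK₀.symm.index_eq_card
    obtain ⟨j, hj⟩ := IsPGroup.iff_card.mp R.isPGroup'
    have h1 : ((x : ↥(Subgroup.centralizer ((T : Subgroup G) : Set G)) ⧸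
        (MonoidHom.transferSylow R hRcent).ker)) ^ (p ^ j) = 1 := by
      rw [← hj, ← hidx, Subgroup.index_eq_card]
      exact pow_card_eq_one'
    have h2 : ((x : ↥(Subgroup.centralizer ((T : Subgroup G) : Set G)) ⧸
        (MonoidHom.transferSylow R hRcent).ker)) ^ orderOf x = 1 := by
      rw [← QuotientGroup.mk_pow, pow_orderOf_eq_one]
      rfl
    have h3 : orderOf (x : ↥(Subgroup.centralizer ((T : Subgroup G) : Set G)) ⧸
        (MonoidHom.transferSylow R hRcent).ker) ∣ 1 := by
      have := Nat.dvd_gcd (orderOf_dvd_of_pow_eq_one h2) (orderOf_dvd_of_pow_eq_one h1)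
      rwa [Nat.Coprime.gcd_eq_one (Nat.Coprime.pow_right j hx)] at this
    have h4 : (x : ↥(Subgroup.centralizer ((T : Subgroup G) : Set G)) ⧸
        (MonoidHom.transferSylow R hRcent).ker) = 1 := orderOf_eq_one_iff.mp (Nat.dvd_one.mp h3)
    exact (QuotientGroup.eq_one_iff x).mp h4
  -- elements of K₀ have order prime to p
  have hK₀ord : ∀ x ∈ (MonoidHom.transferSylow R hRcent).ker, (orderOf x).Coprime p := by
    intro x hx
    have h1 : orderOf (⟨x, hx⟩ : (MonoidHom.transferSylow R hRcent).ker) ∣
        Nat.card (MonoidHom.transferSylow R hRcent).ker := orderOf_dvd_natCard _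
    rw [Subgroup.orderOf_mk] at h1
    exact Nat.Coprime.coprime_dvd_left h1
      (Nat.Coprime.symm ((Nat.Prime.coprime_iff_not_dvd Fact.out).mpr hK₀card))
  -- the complement in N
  set KN : Subgroup ↥(Subgroup.normalizer ((T : Subgroup G) : Set G)) :=
    (((MonoidHom.transferSylow R hRcent).ker).map
      (Subgroup.centralizer ((T : Subgroup G) : Set G)).subtype).subgroupOf
      (Subgroup.normalizer ((T : Subgroup G) : Set G)) with hKN
  have hmemKN : ∀ x : ↥(Subgroup.normalizer ((T : Subgroup G) : Set G)),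
      x ∈ KN ↔ (orderOf x).Coprime p := by
    intro x
    rw [hKN, Subgroup.mem_subgroupOf, Subgroup.mem_map]
    constructor
    · rintro ⟨k, hk, hkx⟩
      have := hK₀ord k hk
      rw [← Subgroup.orderOf_coe, ← hkx]
      rw [← Subgroup.orderOf_coe] at this
      exact this
    · intro hx
      have hxo : (orderOf (x : G)).Coprime p := by rw [Subgroup.orderOf_coe]; exact hx
      have hxC : (x : G) ∈ Subgroup.centralizer ((T : Subgroup G) : Set G) := hN x.1 x.2 hxo
      refine ⟨⟨x.1, hxC⟩, hp'K₀ _ ?_, rfl⟩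
      rw [← Subgroup.orderOf_coe]
      exact hxo
  have hKNn : KN.Normal := by
    constructor
    intro k hk n
    rw [hmemKN] at hk ⊢
    rw [orderOf_conj_eq']
    exact hk
  obtain ⟨P⟩ : Nonempty (Sylow p ↥(Subgroup.normalizer ((T : Subgroup G) : Set G))) :=
    inferInstance
  have hdisj : Disjoint KN (P : Subgroup ↥(Subgroup.normalizer ((T : Subgroup G) : Set G))) := by
    rw [Subgroup.disjoint_def]
    intro x hxK hxP
    rw [hmemKN] at hxK
    obtain ⟨j, hj⟩ := P.isPGroup' ⟨x, hxP⟩
    have hj' : x ^ p ^ j = 1 := by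
      have := congrArg Subtype.val hj
      simpa using this
    have h1 : orderOf x ∣ p ^ j := orderOf_dvd_of_pow_eq_one hj'
    have h2 : orderOf x ∣ 1 := by
      have := Nat.dvd_gcd (dvd_refl (orderOf x)) h1
      rwa [Nat.Coprime.gcd_eq_one (Nat.Coprime.pow_right j hxK)] at this
    exact orderOf_eq_one_iff.mp (Nat.dvd_one.mp h2)
  have hsup : KN ⊔ (P : Subgroup ↥(Subgroup.normalizer ((T : Subgroup G) : Set G))) = ⊤ := by
    have h1 := sup_pRes_eq_top
      (P : Subgroup ↥(Subgroup.normalizer ((T : Subgroup G) : Set G))) P.not_dvd_index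
    have h2 : Cfsg.pResidual p ↥(Subgroup.normalizer ((T : Subgroup G) : Set G)) ≤ KN := by
      unfold Cfsg.pResidual
      rw [Subgroup.closure_le]
      intro x hx
      exact (hmemKN x).mpr hx
    apply le_antisymm le_top
    calc (⊤ : Subgroup ↥(Subgroup.normalizer ((T : Subgroup G) : Set G)))
        = (P : Subgroup ↥(Subgroup.normalizer ((T : Subgroup G) : Set G))) ⊔
          Cfsg.pResidual p ↥(Subgroup.normalizer ((T : Subgroup G) : Set G)) := h1.symm
      _ ≤ (P : Subgroup ↥(Subgroup.normalizer ((T : Subgroup G) : Set G))) ⊔ KN :=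
          sup_le_sup_left h2 _
      _ = KN ⊔ (P : Subgroup ↥(Subgroup.normalizer ((T : Subgroup G) : Set G))) := sup_comm _ _
  refine ⟨P, KN, hKNn, ?_⟩
  apply Subgroup.isComplement'_of_disjoint_and_mul_eq_univ hdisj
  rw [← Subgroup.normal_mul, hsup, Subgroup.coe_top]
  )

end Cfsg.Agent.S2007
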