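import Cfsg.Statements.S2009
-- import your own Cfsg.Agent.* helpers here

set_option autoImplicit false
open Cfsg

namespace Cfsg.Agent.S2009

theorem inverts_of_fpf {H : Type*} [Group H] [Finite H] (N : Subgroup H) [N.Normal] (e : H)
    (he : e * e = 1) (hfix : ∀ n ∈ N, n * e = e * n → n = 1) :
    ∀ x ∈ N, e * x * e⁻¹ = x⁻¹ := by
  have hnorm : ∀ n ∈ N, e * n * e⁻¹ ∈ N := fun n hn => ‹N.Normal›.conj_mem n hn e
  let f : N → N := fun n => ⟨(n : H)⁻¹ * (e * n * e⁻¹), N.mul_mem (N.inv_mem n.2) (hnorm n n.2)⟩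
  have hf : Function.Injective f := by
    intro m n hmn
    have h1 : (m : H)⁻¹ * (e * m * e⁻¹) = (n : H)⁻¹ * (e * n * e⁻¹) := congrArg Subtype.val hmn
    have h2 : (n : H) * (m : H)⁻¹ * e = e * ((n : H) * (m : H)⁻¹) := by
      calc (n : H) * (m : H)⁻¹ * e = n * ((m : H)⁻¹ * (e * m * e⁻¹)) * (e * (m : H)⁻¹) := by group
        _ = n * ((n : H)⁻¹ * (e * n * e⁻¹)) * (e * (m : H)⁻¹) := by rw [h1]
        _ = e * ((n : H) * (m : H)⁻¹) := by group
    have h3 := hfix _ (N.mul_mem n.2 (N.inv_mem m.2)) h2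
    have h4 : (n : H) = m := by
      rw [mul_inv_eq_one] at h3; exact h3
    exact Subtype.ext h4.symm
  have hs : Function.Surjective f := Finite.surjective_of_injective hf
  intro x hx
  obtain ⟨n, hn⟩ := hs ⟨x, hx⟩
  have hx' : x = (n : H)⁻¹ * (e * n * e⁻¹) := (congrArg Subtype.val hn).symm
  have he' : e⁻¹ = e := inv_eq_of_mul_eq_one_left he
  have he2 : ∀ a : H, e * (e * a) = a := fun a => by rw [← mul_assoc, he, one_mul]
  rw [hx', he', eq_inv_iff_mul_eq_one]
  simp [mul_assoc, he, he2]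

theorem exists_second {H : Type*} [Group H] [Finite H] (E : Subgroup H) (hE : IsKleinFour ↥E) (z : H)
    (hzE : z ∈ E) : ∃ b ∈ E, b ≠ 1 ∧ b ≠ z := by
  by_contra hcon
  push Not at hcon
  have hsub : ∀ x : E, x = 1 ∨ x = ⟨z, hzE⟩ := by
    intro x
    by_cases hx : (x : H) = 1
    · left; exact Subtype.ext hx
    · right; exact Subtype.ext (hcon x x.2 hx)
  have hcard : Nat.card E ≤ 2 := by
    have : Fintype E := Fintype.ofFinite E
    rw [Nat.card_eq_fintype_card]
    classical
    calc Fintype.card E = (Finset.univ : Finset E).card := rfl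
      _ ≤ ({1, ⟨z, hzE⟩} : Finset E).card := by
          apply Finset.card_le_card
          intro x _
          rcases hsub x with h | h <;> simp [h]
      _ ≤ 2 := Finset.card_le_two
  rw [hE.card_four] at hcard
  omega

/-- Let H be a finite group and z an involution such that every proper normal subgroup of H meets the centralizer of z trivially, and suppose z lies in a Klein four-subgroup E of H all three of whose involutions are conjugate to z in H. Then H is simple. -/
theorem result {H : Type*} [Group H] [Finite H] (z : H) (hz : orderOf z = 2) (hN : ∀ N : Subgroup H, N.Normal → N ≠ ⊤ → N ⊓ Subgroup.centralizer ({z} : Set H) = ⊥) (E : Subgroup H) (hE : IsKleinFour ↥E) (hzE : z ∈ E) (hc : ∀ e ∈ E, e ≠ 1 → IsConj z e) : IsSimpleGroup H := by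
  have hz1 : z ≠ 1 := by
    intro h; rw [h, orderOf_one] at hz; norm_num at hz
  have hzz : z * z = 1 := by
    have := pow_orderOf_eq_one z; rw [hz, pow_two] at this; exact this
  have hEsq : ∀ e ∈ E, e * e = 1 := by
    intro e he
    have h1 : (⟨e, he⟩ : E) ^ Monoid.exponent E = 1 := Monoid.pow_exponent_eq_one _
    rw [hE.exponent_two, pow_two] at h1
    exact congrArg Subtype.val h1
  obtain ⟨b, hbE, hb1, hbz⟩ := exists_second E hE z hzE
  have hzb1 : z * b ≠ 1 := by
    intro h
    apply hbz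
    have : b = z⁻¹ := eq_inv_of_mul_eq_one_right h
    rw [this]; exact inv_eq_of_mul_eq_one_left hzz
  have hzbE : z * b ∈ E := E.mul_mem hzE hbE
  refine { exists_pair_ne := ⟨z, 1, hz1⟩, eq_bot_or_eq_top_of_normal := ?_ }
  intro N hNn
  by_cases hNt : N = ⊤
  · right; exact hNt
  left
  have hNz := hN N hNn hNt
  have hfixe : ∀ e ∈ E, e ≠ 1 → ∀ n ∈ N, n * e = e * n → n = 1 := by
    intro e heE he1 n hn hcomm
    obtain ⟨g, hg⟩ := (hc e heE he1)
    -- hg : SemiconjBy g z e : g * z = e * g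
    have hg' : (g : H) * z = e * g := hg
    have hmem : (g : H)⁻¹ * n * g ∈ N ⊓ Subgroup.centralizer ({z} : Set H) := by
      refine Subgroup.mem_inf.2 ⟨?_, ?_⟩
      · have := hNn.conj_mem n hn (g : H)⁻¹
        simpa using this
      · rw [Subgroup.mem_centralizer_iff]
        intro y hy
        rw [Set.mem_singleton_iff] at hy
        subst hy
        have e1 : y = (g : H)⁻¹ * e * g := by
          rw [mul_assoc, ← hg', inv_mul_cancel_left]
        rw [e1]
        calc (g : H)⁻¹ * e * g * ((g : H)⁻¹ * n * g) = (g : H)⁻¹ * (e * n) * g := by group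
          _ = (g : H)⁻¹ * (n * e) * g := by rw [hcomm]
          _ = (g : H)⁻¹ * n * g * ((g : H)⁻¹ * e * g) := by group
    rw [hNz, Subgroup.mem_bot] at hmem
    have : n = (g : H) * ((g : H)⁻¹ * n * g) * (g : H)⁻¹ := by group
    rw [this, hmem]; group
  have := hNn
  have hinvz := inverts_of_fpf N z hzz (hfixe z hzE hz1)
  have hinvb := inverts_of_fpf N b (hEsq b hbE) (hfixe b hbE hb1)
  rw [eq_bot_iff]
  intro x hx
  rw [Subgroup.mem_bot]
  apply hfixe (z * b) hzbE hzb1 x hx
  have h1 := hinvb x hx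
  have h2 := hinvz x⁻¹ (N.inv_mem hx)
  rw [inv_inv] at h2
  have h3 : z * b * x * (z * b)⁻¹ = x := by
    calc z * b * x * (z * b)⁻¹ = z * (b * x * b⁻¹) * z⁻¹ := by group
      _ = x := by rw [h1, h2]
  calc x * (z * b) = (z * b * x * (z * b)⁻¹) * (z * b) := by rw [h3]
    _ = z * b * x := by group

end Cfsg.Agent.S2009
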