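import Cfsg.Statements.S2157
-- import your own Cfsg.Agent.* helpers here

set_option autoImplicit false
open Cfsg

namespace Cfsg.Agent.S2157

/-- walk `k` steps along the `r`-chain starting at `s`, staying inside the roots -/
def walk (D : Cfsg.Lie.ChevalleyDatum) (r : ℕ) : ℕ → ℕ → Option ℕ
  | 0, s => some s
  | k + 1, s =>
    match D.chainRoot r s 1 with
    | none => none
    | some v => if s < D.nroots then walk D r k v else none

/-- the table check -/
def chainOK (D : Cfsg.Lie.ChevalleyDatum) : Bool :=
  (List.range D.nroots).all fun r =>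
    (D.chain.getD r #[]).toList.all fun e =>
      (e.2.toList.zipIdx).all fun q => walk D r (q.2 + 1) e.1 == some q.1.1

theorem walk_char {F : Type*} [Field F] (D : Cfsg.Lie.ChevalleyDatum) (χ : ℕ → Fˣ) (hχ : D.IsRootCharacter χ)
    (r : ℕ) (hr : r < D.nroots) :
    ∀ (k s u : ℕ), walk D r k s = some u → χ u = χ r ^ k * χ s := by
  intro k
  induction k with
  | zero =>
    intro s u h
    simp only [walk, Option.some.injEq] at h
    subst h
    simp
  | succ k ih =>
    intro s u h
    rw [walk] at h
    cases hc : D.chainRoot r s 1 with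
    | none => simp [hc] at h
    | some v =>
      simp only [hc] at h
      split_ifs at h with hs
      rw [ih v u h, hχ.2 r s v hr hs hc, pow_succ, mul_assoc]

theorem mem_chainCoeff (D : Cfsg.Lie.ChevalleyDatum) (hD : chainOK D = true) (r s u : ℕ) (hr : r < D.nroots)
    (km : ℕ × ℤ) (h : km ∈ D.chainCoeff r s u) : walk D r km.1 s = some u := by
  unfold Cfsg.Lie.ChevalleyDatum.chainCoeff at h
  rw [List.mem_flatMap] at h
  obtain ⟨e, he, h⟩ := h
  rw [List.mem_filter] at he
  obtain ⟨he1, he2⟩ := he
  rw [List.mem_map] at h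
  obtain ⟨q, hq, rfl⟩ := h
  rw [List.mem_filter] at hq
  obtain ⟨hq1, hq2⟩ := hq
  unfold chainOK at hD
  rw [List.all_eq_true] at hD
  have h1 := hD r (List.mem_range.mpr hr)
  rw [List.all_eq_true] at h1
  have h2 := h1 e he1
  rw [List.all_eq_true] at h2
  have h3 := h2 q hq1
  rw [beq_iff_eq] at h3
  have e1 : e.1 = s := of_decide_eq_true he2
  have e2 : q.1.1 = u := of_decide_eq_true hq2
  rw [← e1, ← e2]
  exact h3

theorem conj_x {F : Type*} [Field F] (D : Cfsg.Lie.ChevalleyDatum) (hD : chainOK D = true) (χ : ℕ → Fˣ)
    (hχ : D.IsRootCharacter χ) (r : ℕ) (hr : r < D.nroots) (t : F) :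
    D.charDiag F χ * D.x F r t * D.charDiag F (fun s => (χ s)⁻¹) = D.x F r ((χ r : F) * t) := by
  unfold Cfsg.Lie.ChevalleyDatum.x Cfsg.Lie.ChevalleyDatum.charDiag
  rw [dif_pos hr, dif_pos hr]
  ext row col
  rw [Matrix.mul_diagonal, Matrix.diagonal_mul]
  rcases col with i | s
  · rcases row with i' | u
    · simp [Cfsg.Lie.ChevalleyDatum.xMat]
    · simp only [Cfsg.Lie.ChevalleyDatum.xMat, Matrix.of_apply, Sum.elim_inl, Sum.elim_inr]
      split_ifs with h
      · subst h
        simp
        ring
      · simp
  · by_cases hs : s = ⟨r, hr⟩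
    · rcases row with i' | u
      · simp only [Cfsg.Lie.ChevalleyDatum.xMat, Matrix.of_apply, Sum.elim_inl, Sum.elim_inr]
        rw [if_pos hs, if_pos hs]
        simp
      · simp only [Cfsg.Lie.ChevalleyDatum.xMat, Matrix.of_apply, Sum.elim_inr]
        rw [if_pos hs, if_pos hs]
        split_ifs with h
        · rw [h, hs]
          simp
        · simp
    · by_cases hn : s.val = D.negIdx.getD r 0
      · have hχs : χ s.val = (χ r)⁻¹ := by
          rw [hn]
          exact hχ.1 r hr
        rcases row with i' | u
        · simp only [Cfsg.Lie.ChevalleyDatum.xMat, Matrix.of_apply, Sum.elim_inl, Sum.elim_inr]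
          rw [if_neg hs, if_neg hs, if_pos hn, if_pos hn, hχs, inv_inv]
          ring
        · simp only [Cfsg.Lie.ChevalleyDatum.xMat, Matrix.of_apply, Sum.elim_inr]
          rw [if_neg hs, if_neg hs, if_pos hn, if_pos hn]
          split_ifs with h1 h2
          · rw [h1]
            simp
          · rw [h2, hχs, inv_inv]
            simp only []
            ring
          · simp
      · rcases row with i' | u
        · simp only [Cfsg.Lie.ChevalleyDatum.xMat, Matrix.of_apply, Sum.elim_inl, Sum.elim_inr]
          rw [if_neg hs, if_neg hs, if_neg hn, if_neg hn]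
          simp
        · simp only [Cfsg.Lie.ChevalleyDatum.xMat, Matrix.of_apply, Sum.elim_inr]
          rw [if_neg hs, if_neg hs, if_neg hn, if_neg hn]
          have key : ∀ l : List (ℕ × ℤ), (∀ km ∈ l, χ u.val = χ r ^ km.1 * χ s.val) →
              (χ u.val : F) * (l.map (fun km => ((km.2 : ℤ) : F) * t ^ km.1)).sum * ((χ s.val)⁻¹ : Fˣ)
                = (l.map (fun km => ((km.2 : ℤ) : F) * ((χ r : F) * t) ^ km.1)).sum := by
            intro l
            induction l with
            | nil => intro _; simp
            | cons a l ih =>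
              intro h
              simp only [List.map_cons, List.sum_cons]
              rw [mul_add, add_mul, ih (fun km hkm => h km (List.mem_cons_of_mem _ hkm))]
              congr 1
              have h1 := h a List.mem_cons_self
              rw [h1, mul_pow]
              simp only [Units.val_mul, Units.val_pow_eq_pow_val, Units.val_inv_eq_inv_val]
              have hne : (χ s.val : F) ≠ 0 := (χ s.val).ne_zero
              field_simp
          rw [mul_add, add_mul, key _ (fun km hkm => walk_char D χ hχ r hr km.1 s.val u.val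
            (mem_chainCoeff D hD r s.val u.val hr km hkm))]
          congr 1
          split_ifs with h
          · rw [h]
            simp
          · simp

set_option maxRecDepth 100000 in
theorem ok_G2 : chainOK Cfsg.Lie.chevG2 = true := by decide +kernel

set_option maxRecDepth 100000 in
theorem ok_B2 : chainOK Cfsg.Lie.chevB2 = true := by decide +kernel

set_option maxRecDepth 100000 in
theorem ok_D4 : chainOK Cfsg.Lie.chevD4 = true := by decide +kernel

set_option maxRecDepth 100000 in
theorem ok_F4 : chainOK Cfsg.Lie.chevF4 = true := by decide +kernel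

set_option maxRecDepth 100000 in
theorem ok_E6 : chainOK Cfsg.Lie.chevE6 = true := by decide +kernel

set_option maxRecDepth 100000 in
theorem ok_E7 : chainOK Cfsg.Lie.chevE7 = true := by decide +kernel

set_option maxRecDepth 100000 in
theorem ok_E8 : chainOK Cfsg.Lie.chevE8 = true := by decide +kernel

/-- In a Chevalley group of type G₂, B₂, D₄, F₄, E₆, E₇ or E₈, for every character `χ` of the root lattice with values in `Fˣ` the diagonal matrix `ĥ(χ)` (identity on the coroot coordinates, `χ(s)` on the coordinate of `e_s`) conjugates each root element `x_r(t)` to `x_r(χ(r) t)`: `ĥ(χ) x_r(t) ĥ(χ)⁻¹ = x_r(χ(r) t)` as matrices, with `ĥ(χ)⁻¹` written as `ĥ(χ⁻¹)`. -/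
theorem result {F : Type*} [Field F] (D : Cfsg.Lie.ChevalleyDatum) (hD : D ∈ [Cfsg.Lie.chevG2, Cfsg.Lie.chevB2, Cfsg.Lie.chevD4, Cfsg.Lie.chevF4, Cfsg.Lie.chevE6, Cfsg.Lie.chevE7, Cfsg.Lie.chevE8]) (χ : ℕ → Fˣ) (hχ : D.IsRootCharacter χ) (r : ℕ) (hr : r < D.nroots) (t : F) :
    D.charDiag F χ * D.x F r t * D.charDiag F (fun s => (χ s)⁻¹) = D.x F r ((χ r : F) * t) := by
  have hok : chainOK D = true := by
    simp only [List.mem_cons, List.not_mem_nil, or_false] at hD
    rcases hD with rfl | rfl | rfl | rfl | rfl | rfl | rfl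
    · exact ok_G2
    · exact ok_B2
    · exact ok_D4
    · exact ok_F4
    · exact ok_E6
    · exact ok_E7
    · exact ok_E8
  exact conj_x D hok χ hχ r hr t

end Cfsg.Agent.S2157
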