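import Cfsg.Statements.S2298
-- import your own Cfsg.Agent.* helpers here
import Cfsg.Agent.Helper13.GL2Count

set_option autoImplicit false
open Cfsg

namespace Cfsg.Agent.S2298

/-- Over a finite field F with q elements, every irreducible complex character of GL₂ has degree 1, q − 1, q or q + 1; and when q ≥ 3 (so that these four numbers are distinct) there are exactly q − 1 irreducible characters of degree 1, exactly q − 1 of degree q, exactly (q − 1)(q − 2)/2 of degree q + 1 and exactly q(q − 1)/2 of degree q − 1. -/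
theorem result {F : Type*} [Field F] [Fintype F] :
    (∀ χ : Matrix.GeneralLinearGroup (Fin 2) F → ℂ, Cfsg.IsIrrCharacter (Matrix.GeneralLinearGroup (Fin 2) F) χ →
      χ 1 = 1 ∨ χ 1 = (Fintype.card F : ℂ) - 1 ∨ χ 1 = (Fintype.card F : ℂ) ∨ χ 1 = (Fintype.card F : ℂ) + 1) ∧
    (3 ≤ Fintype.card F →
      Nat.card {χ : Cfsg.IrrCharacter (Matrix.GeneralLinearGroup (Fin 2) F) // (χ : Matrix.GeneralLinearGroup (Fin 2) F → ℂ) 1 = 1} = Fintype.card F - 1 ∧
      Nat.card {χ : Cfsg.IrrCharacter (Matrix.GeneralLinearGroup (Fin 2) F) // (χ : Matrix.GeneralLinearGroup (Fin 2) F → ℂ) 1 = (Fintype.card F : ℂ)} = Fintype.card F - 1 ∧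
      Nat.card {χ : Cfsg.IrrCharacter (Matrix.GeneralLinearGroup (Fin 2) F) // (χ : Matrix.GeneralLinearGroup (Fin 2) F → ℂ) 1 = (Fintype.card F : ℂ) + 1} = (Fintype.card F - 1) * (Fintype.card F - 2) / 2 ∧
      Nat.card {χ : Cfsg.IrrCharacter (Matrix.GeneralLinearGroup (Fin 2) F) // (χ : Matrix.GeneralLinearGroup (Fin 2) F → ℂ) 1 = (Fintype.card F : ℂ) - 1} = Fintype.card F * (Fintype.card F - 1) / 2) := by
  classical
  constructor
  · intro χ hχ
    rcases Helper13.irr_cases hχ with ⟨α, rfl⟩ | ⟨α, rfl⟩ | ⟨α, β, hαβ, rfl⟩ | ⟨hc, h1, hu1⟩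
    · exact Or.inl (Helper13.detFun_one α)
    · exact Or.inr (Or.inr (Or.inl (Helper13.stFun_one α)))
    · exact Or.inr (Or.inr (Or.inr (Helper13.psFun_one α β)))
    · exact Or.inr (Or.inl h1)
  · intro hq
    have hq0 : (Fintype.card F : ℂ) ≠ 0 := by
      have : Fintype.card F ≠ 0 := by omega
      exact_mod_cast this
    have hq1 : (Fintype.card F : ℂ) ≠ 1 := by
      have : Fintype.card F ≠ 1 := by omega
      exact_mod_cast this
    have hq2 : (Fintype.card F : ℂ) ≠ 2 := by
      have : Fintype.card F ≠ 2 := by omega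
      exact_mod_cast this
    refine ⟨?_, ?_, ?_, ?_⟩
    · rw [Helper13.card_irr_degree, if_pos rfl, if_neg hq1,
        if_neg (fun h => hq0 (by linear_combination h)),
        if_neg (fun h => hq2 (by linear_combination h))]
      simp
    · rw [Helper13.card_irr_degree, if_neg (fun h => hq1 h.symm), if_pos rfl,
        if_neg (fun h => one_ne_zero (by linear_combination h : (1 : ℂ) = 0)),
        if_neg (fun h => one_ne_zero (by linear_combination -h : (1 : ℂ) = 0))]
      simp
    · rw [Helper13.card_irr_degree, if_neg (fun h => hq0 (by linear_combination -h)),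
        if_neg (fun h => one_ne_zero (by linear_combination -h : (1 : ℂ) = 0)), if_pos rfl,
        if_neg (fun h => two_ne_zero (by linear_combination -h : (2 : ℂ) = 0)),
        Nat.choose_two_right, Nat.sub_sub]
      simp
    · rw [Helper13.card_irr_degree, if_neg (fun h => hq2 (by linear_combination -h)),
        if_neg (fun h => one_ne_zero (by linear_combination h : (1 : ℂ) = 0)),
        if_neg (fun h => two_ne_zero (by linear_combination h : (2 : ℂ) = 0)), if_pos rfl]
      simp

end Cfsg.Agent.S2298
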