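import Cfsg.Statements.S2302
-- import your own Cfsg.Agent.* helpers here

set_option autoImplicit false
open Cfsg

namespace Cfsg.Agent.S2302

section

variable {F : Type*} [Field F] [Fintype F] [CharP F 2]

theorem sqrt_exists (x : F) : ∃ y : F, y ^ 2 = x := by
  have : PerfectRing F 2 := inferInstance
  exact surjective_frobenius F 2 x

theorem inv_facts (g : Matrix.SpecialLinearGroup (Fin 2) F) (hg : orderOf g = 2) :
    (g : Matrix (Fin 2) (Fin 2) F) 1 1 = (g : Matrix (Fin 2) (Fin 2) F) 0 0 ∧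
    (g : Matrix (Fin 2) (Fin 2) F) 0 0 ^ 2 + (g : Matrix (Fin 2) (Fin 2) F) 0 1 * (g : Matrix (Fin 2) (Fin 2) F) 1 0 = 1 ∧
    ¬ ((g : Matrix (Fin 2) (Fin 2) F) 0 1 = 0 ∧ (g : Matrix (Fin 2) (Fin 2) F) 1 0 = 0) := by
  have h2 : (2 : F) = 0 := CharTwo.two_eq_zero
  have hsq : g ^ 2 = 1 := by
    have := pow_orderOf_eq_one g
    rwa [hg] at this
  have hne : g ≠ 1 := by
    intro h; rw [h, orderOf_one] at hg; exact absurd hg (by norm_num)
  have hM : (g : Matrix (Fin 2) (Fin 2) F) * (g : Matrix (Fin 2) (Fin 2) F) = 1 := by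
    have := congrArg (fun x : Matrix.SpecialLinearGroup (Fin 2) F => (x : Matrix (Fin 2) (Fin 2) F)) hsq
    simpa [pow_two] using this
  have hdet : (g : Matrix (Fin 2) (Fin 2) F).det = 1 := g.2
  rw [Matrix.det_fin_two] at hdet
  have e00 := congrFun (congrFun hM 0) 0
  have e11 := congrFun (congrFun hM 1) 1
  simp only [Matrix.mul_apply, Fin.sum_univ_two, Matrix.one_apply_eq] at e00 e11
  have hM' : (g : Matrix (Fin 2) (Fin 2) F) = !![(g : Matrix (Fin 2) (Fin 2) F) 0 0, (g : Matrix (Fin 2) (Fin 2) F) 0 1; (g : Matrix (Fin 2) (Fin 2) F) 1 0, (g : Matrix (Fin 2) (Fin 2) F) 1 1] :=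
    Matrix.eta_fin_two _
  generalize (g : Matrix (Fin 2) (Fin 2) F) 0 0 = a at *
  generalize (g : Matrix (Fin 2) (Fin 2) F) 0 1 = b at *
  generalize (g : Matrix (Fin 2) (Fin 2) F) 1 0 = c at *
  generalize (g : Matrix (Fin 2) (Fin 2) F) 1 1 = d at *
  have hsum : a + d = 0 := by
    have h : (a + d) ^ 2 = 0 := by
      linear_combination e00 + e11 + (a * d - b * c + 1) * h2
    exact pow_eq_zero_iff (two_ne_zero) |>.mp h
  have had : d = a := by linear_combination hsum - a * h2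
  refine ⟨had, by linear_combination e00, ?_⟩
  rintro ⟨hb, hc⟩
  subst hb hc had
  have ha : d = 1 := by
    have h : (d + 1) ^ 2 = 0 := by linear_combination e00 + (d + 1) * h2
    have := pow_eq_zero_iff (two_ne_zero) |>.mp h
    linear_combination this - h2
  subst ha
  apply hne
  apply Subtype.ext
  rw [hM', Matrix.SpecialLinearGroup.coe_one, Matrix.one_fin_two]


theorem conj_aux (a b c d : F) (had : d = a) (hsq : a ^ 2 + b * c = 1)
    (hbc : ¬ (b = 0 ∧ c = 0)) :
    ∃ (p q r s : F), p * s - q * r = 1 ∧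
      !![p, q; r, s] * !![1, 1; 0, 1] = !![a, b; c, d] * !![p, q; r, s] := by
  have h2 : (2 : F) = 0 := CharTwo.two_eq_zero
  subst had
  by_cases hc : c = 0
  · subst hc
    have hb : b ≠ 0 := fun hb => hbc ⟨hb, rfl⟩
    obtain ⟨l, hl⟩ := sqrt_exists (b⁻¹)
    have hlb : l ^ 2 * b = 1 := by rw [hl]; exact inv_mul_cancel₀ hb
    have ha : d = 1 := by
      have h : (d + 1) ^ 2 = 0 := by linear_combination hsq + (d + 1) * h2
      have := pow_eq_zero_iff (two_ne_zero) |>.mp h
      linear_combination this - h2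
    subst ha
    refine ⟨l * b, 0, 0, l, by linear_combination hlb, ?_⟩
    rw [Matrix.mul_fin_two, Matrix.mul_fin_two]
    have e1 : l * b * 1 + 0 * 0 = 1 * (l * b) + b * 0 := by ring
    have e2 : l * b * 1 + 0 * 1 = 1 * 0 + b * l := by ring
    have e3 : (0 : F) * 1 + l * 0 = 0 * (l * b) + 1 * 0 := by ring
    have e4 : (0 : F) * 1 + l * 1 = 0 * 0 + 1 * l := by ring
    rw [e1, e2, e3, e4]
  · obtain ⟨l, hl⟩ := sqrt_exists (c⁻¹)
    have hlc : l ^ 2 * c = 1 := by rw [hl]; exact inv_mul_cancel₀ hc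
    refine ⟨l * (d + 1), l, l * c, 0, by linear_combination (-1 : F) * hlc - h2, ?_⟩
    rw [Matrix.mul_fin_two, Matrix.mul_fin_two]
    have e1 : l * (d + 1) * 1 + l * 0 = d * (l * (d + 1)) + b * (l * c) := by
      linear_combination (-l) * hsq
    have e2 : l * (d + 1) * 1 + l * 1 = d * l + b * 0 := by
      linear_combination l * h2
    have e3 : l * c * 1 + 0 * 0 = c * (l * (d + 1)) + d * (l * c) := by
      linear_combination (- l * c * d) * h2
    have e4 : l * c * 1 + 0 * 1 = c * l + d * 0 := by ring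
    rw [e1, e2, e3, e4]

def Uel (F : Type*) [Field F] : Matrix.SpecialLinearGroup (Fin 2) F :=
  ⟨!![1, 1; 0, 1], by simp [Matrix.det_fin_two]⟩

theorem Uel_coe (F : Type*) [Field F] : (Uel F : Matrix (Fin 2) (Fin 2) F) = !![1, 1; 0, 1] := rfl

theorem conj_U (g : Matrix.SpecialLinearGroup (Fin 2) F) (hg : orderOf g = 2) : IsConj (Uel F) g := by
  obtain ⟨had, hsq, hbc⟩ := inv_facts g hg
  obtain ⟨p, q, r, s, hdet, hmat⟩ := conj_aux _ _ _ _ had hsq hbc
  rw [isConj_iff]
  let P : Matrix.SpecialLinearGroup (Fin 2) F := ⟨!![p, q; r, s], by rw [Matrix.det_fin_two_of]; exact hdet⟩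
  have hP : (P : Matrix (Fin 2) (Fin 2) F) = !![p, q; r, s] := rfl
  refine ⟨P, ?_⟩
  rw [mul_inv_eq_iff_eq_mul]
  apply Subtype.ext
  rw [Matrix.SpecialLinearGroup.coe_mul, Matrix.SpecialLinearGroup.coe_mul, Uel_coe, hP]
  rw [← Matrix.eta_fin_two (g : Matrix (Fin 2) (Fin 2) F)] at hmat
  exact hmat

theorem order_two_of (g : Matrix.SpecialLinearGroup (Fin 2) F)
    (had : (g : Matrix (Fin 2) (Fin 2) F) 1 1 = (g : Matrix (Fin 2) (Fin 2) F) 0 0)
    (hsq : (g : Matrix (Fin 2) (Fin 2) F) 0 0 ^ 2 + (g : Matrix (Fin 2) (Fin 2) F) 0 1 * (g : Matrix (Fin 2) (Fin 2) F) 1 0 = 1)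
    (hbc : ¬ ((g : Matrix (Fin 2) (Fin 2) F) 0 1 = 0 ∧ (g : Matrix (Fin 2) (Fin 2) F) 1 0 = 0)) :
    orderOf g = 2 := by
  have h2 : (2 : F) = 0 := CharTwo.two_eq_zero
  have : Fact (Nat.Prime 2) := ⟨Nat.prime_two⟩
  apply orderOf_eq_prime
  · apply Subtype.ext
    rw [Matrix.SpecialLinearGroup.coe_pow, Matrix.SpecialLinearGroup.coe_one, pow_two]
    rw [Matrix.eta_fin_two (g : Matrix (Fin 2) (Fin 2) F), Matrix.mul_fin_two, Matrix.one_fin_two, had]
    generalize (g : Matrix (Fin 2) (Fin 2) F) 0 0 = a at *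
    generalize (g : Matrix (Fin 2) (Fin 2) F) 0 1 = b at *
    generalize (g : Matrix (Fin 2) (Fin 2) F) 1 0 = c at *
    have e1 : a * a + b * c = 1 := by linear_combination hsq
    have e2 : a * b + b * a = 0 := by linear_combination (a * b) * h2
    have e3 : c * a + a * c = 0 := by linear_combination (a * c) * h2
    have e4 : c * b + a * a = 1 := by linear_combination hsq
    rw [e1, e2, e3, e4]
  · intro h1
    apply hbc
    rw [h1]
    simp

theorem card_inv : Nat.card {x : Matrix.SpecialLinearGroup (Fin 2) F // orderOf x = 2} = Fintype.card F ^ 2 - 1 := by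
  classical
  have h2 : (2 : F) = 0 := CharTwo.two_eq_zero
  let f : {x : Matrix.SpecialLinearGroup (Fin 2) F // orderOf x = 2} → {bc : F × F // ¬ (bc = (0, 0))} :=
    fun x => ⟨((x.1 : Matrix (Fin 2) (Fin 2) F) 0 1, (x.1 : Matrix (Fin 2) (Fin 2) F) 1 0), by
      intro h
      exact (inv_facts x.1 x.2).2.2 ⟨congrArg Prod.fst h, congrArg Prod.snd h⟩⟩
  have hf : Function.Bijective f := by
    constructor
    · rintro ⟨x, hx⟩ ⟨y, hy⟩ hxy
      have hb : (x : Matrix (Fin 2) (Fin 2) F) 0 1 = (y : Matrix (Fin 2) (Fin 2) F) 0 1 :=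
        congrArg (fun z : {bc : F × F // ¬ (bc = (0, 0))} => z.1.1) hxy
      have hc : (x : Matrix (Fin 2) (Fin 2) F) 1 0 = (y : Matrix (Fin 2) (Fin 2) F) 1 0 :=
        congrArg (fun z : {bc : F × F // ¬ (bc = (0, 0))} => z.1.2) hxy
      obtain ⟨hx1, hx2, -⟩ := inv_facts x hx
      obtain ⟨hy1, hy2, -⟩ := inv_facts y hy
      have ha : (x : Matrix (Fin 2) (Fin 2) F) 0 0 = (y : Matrix (Fin 2) (Fin 2) F) 0 0 := by
        have h : ((x : Matrix (Fin 2) (Fin 2) F) 0 0 - (y : Matrix (Fin 2) (Fin 2) F) 0 0) ^ 2 = 0 := by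
          rw [hb, hc] at hx2
          linear_combination hx2 - hy2 + ((y : Matrix (Fin 2) (Fin 2) F) 0 0 ^ 2 - (x : Matrix (Fin 2) (Fin 2) F) 0 0 * (y : Matrix (Fin 2) (Fin 2) F) 0 0) * h2
        have := pow_eq_zero_iff (two_ne_zero) |>.mp h
        linear_combination this
      apply Subtype.ext
      apply Subtype.ext
      rw [Matrix.eta_fin_two (x : Matrix (Fin 2) (Fin 2) F), Matrix.eta_fin_two (y : Matrix (Fin 2) (Fin 2) F),
        hx1, hy1, ha, hb, hc]
    · rintro ⟨⟨b, c⟩, hbc⟩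
      obtain ⟨a, ha⟩ := sqrt_exists (1 - b * c)
      let g : Matrix.SpecialLinearGroup (Fin 2) F := ⟨!![a, b; c, a], by
        rw [Matrix.det_fin_two_of]; linear_combination ha - (b * c) * h2⟩
      have hg : orderOf g = 2 := by
        apply order_two_of
        · rfl
        · change a ^ 2 + b * c = 1
          linear_combination ha
        · rintro ⟨hb, hc⟩
          apply hbc
          change b = 0 at hb
          change c = 0 at hc
          rw [hb, hc]
      exact ⟨⟨g, hg⟩, rfl⟩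
  rw [Nat.card_eq_of_bijective f hf, Nat.card_eq_fintype_card, Fintype.card_subtype_compl,
    Fintype.card_subtype_eq, Fintype.card_prod, pow_two]

theorem result' (g h : Matrix.SpecialLinearGroup (Fin 2) F) (hg : orderOf g = 2) (hh : orderOf h = 2) :
    IsConj g h ∧ Nat.card (ConjClasses.mk g).carrier = Fintype.card F ^ 2 - 1 := by
  refine ⟨(conj_U g hg).symm.trans (conj_U h hh), ?_⟩
  have hset : (ConjClasses.mk g).carrier = {x : Matrix.SpecialLinearGroup (Fin 2) F | orderOf x = 2} := by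
    ext x
    rw [ConjClasses.mem_carrier_iff_mk_eq, ConjClasses.mk_eq_mk_iff_isConj]
    constructor
    · rintro ⟨c, hc⟩
      change orderOf x = 2
      rw [hc.orderOf_eq, hg]
    · intro hx
      exact (conj_U x hx).symm.trans (conj_U g hg)
  rw [hset]
  exact card_inv

end

/-- Over a finite field with q elements of characteristic 2, the involutions of SL₂ (the non-identity unipotent elements) form a single conjugacy class, of size q² − 1. -/
theorem result {F : Type*} [Field F] [Fintype F] [CharP F 2] (g h : Matrix.SpecialLinearGroup (Fin 2) F) (hg : orderOf g = 2) (hh : orderOf h = 2) :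
    IsConj g h ∧ Nat.card (ConjClasses.mk g).carrier = Fintype.card F ^ 2 - 1 := by
  exact result' g h hg hh

end Cfsg.Agent.S2302
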