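import Cfsg.Statements.S2303
-- import your own Cfsg.Agent.* helpers here

set_option autoImplicit false
open Cfsg

namespace Cfsg.Agent.S2303

section
variable {F : Type*} [Field F] [Fintype F]

theorem part1 (g : Matrix.GeneralLinearGroup (Fin 2) F)
    (h01 : (g : Matrix (Fin 2) (Fin 2) F) 0 1 = 0) (h10 : (g : Matrix (Fin 2) (Fin 2) F) 1 0 = 0)
    (hne : (g : Matrix (Fin 2) (Fin 2) F) 0 0 ≠ (g : Matrix (Fin 2) (Fin 2) F) 1 1) :
    Nat.card (Subgroup.centralizer ({g} : Set (Matrix.GeneralLinearGroup (Fin 2) F))) = (Fintype.card F - 1) ^ 2 := by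
  classical
  have hg : (g : Matrix (Fin 2) (Fin 2) F) = !![(g : Matrix (Fin 2) (Fin 2) F) 0 0, 0; 0, (g : Matrix (Fin 2) (Fin 2) F) 1 1] := by
    conv_lhs => rw [Matrix.eta_fin_two (g : Matrix (Fin 2) (Fin 2) F), h01, h10]
  generalize (g : Matrix (Fin 2) (Fin 2) F) 0 0 = a at *
  generalize (g : Matrix (Fin 2) (Fin 2) F) 1 1 = d at *
  have key : ∀ xw : Fˣ × Fˣ, Matrix.GeneralLinearGroup.mkOfDetNeZero !![(xw.1 : F), 0; 0, (xw.2 : F)]
      (by simp [Matrix.det_fin_two]) ∈ Subgroup.centralizer ({g} : Set (Matrix.GeneralLinearGroup (Fin 2) F)) := by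
    intro xw
    rw [Subgroup.mem_centralizer_singleton_iff]
    apply Units.ext
    rw [Units.val_mul, Units.val_mul, hg]
    change !![(xw.1 : F), 0; 0, (xw.2 : F)] * !![a, 0; 0, d] = !![a, 0; 0, d] * !![(xw.1 : F), 0; 0, (xw.2 : F)]
    rw [Matrix.mul_fin_two, Matrix.mul_fin_two]
    simp [mul_comm]
  let f : Fˣ × Fˣ → Subgroup.centralizer ({g} : Set (Matrix.GeneralLinearGroup (Fin 2) F)) := fun xw =>
    ⟨_, key xw⟩
  have hfval : ∀ xw, (((f xw : Subgroup.centralizer ({g} : Set (Matrix.GeneralLinearGroup (Fin 2) F))) : Matrix.GeneralLinearGroup (Fin 2) F) : Matrix (Fin 2) (Fin 2) F) = !![(xw.1 : F), 0; 0, (xw.2 : F)] := fun xw => rfl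
  have hf : Function.Bijective f := by
    constructor
    · intro xw xw' h
      have h' := congrArg (fun z : Subgroup.centralizer ({g} : Set (Matrix.GeneralLinearGroup (Fin 2) F)) => ((z : Matrix.GeneralLinearGroup (Fin 2) F) : Matrix (Fin 2) (Fin 2) F)) h
      simp only [hfval] at h'
      have e0 := congrFun (congrFun h' 0) 0
      have e1 := congrFun (congrFun h' 1) 1
      simp at e0 e1
      exact Prod.ext (Units.ext e0) (Units.ext e1)
    · rintro ⟨h, hh⟩
      rw [Subgroup.mem_centralizer_singleton_iff] at hh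
      have hh' : (h : Matrix (Fin 2) (Fin 2) F) * (g : Matrix (Fin 2) (Fin 2) F) = (g : Matrix (Fin 2) (Fin 2) F) * (h : Matrix (Fin 2) (Fin 2) F) := by
        have := congrArg (fun z : Matrix.GeneralLinearGroup (Fin 2) F => (z : Matrix (Fin 2) (Fin 2) F)) hh
        simpa using this
      rw [hg, Matrix.eta_fin_two (h : Matrix (Fin 2) (Fin 2) F), Matrix.mul_fin_two, Matrix.mul_fin_two] at hh'
      have e01 := congrFun (congrFun hh' 0) 1
      have e10 := congrFun (congrFun hh' 1) 0
      simp at e01 e10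
      have hy : (h : Matrix (Fin 2) (Fin 2) F) 0 1 = 0 := by
        have : (a - d) * (h : Matrix (Fin 2) (Fin 2) F) 0 1 = 0 := by linear_combination (-1 : F) * e01
        rcases mul_eq_zero.mp this with e | e
        · exact absurd (sub_eq_zero.mp e) hne
        · exact e
      have hz : (h : Matrix (Fin 2) (Fin 2) F) 1 0 = 0 := by
        have : (a - d) * (h : Matrix (Fin 2) (Fin 2) F) 1 0 = 0 := by linear_combination e10
        rcases mul_eq_zero.mp this with e | e
        · exact absurd (sub_eq_zero.mp e) hne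
        · exact e
      have hdet : (h : Matrix (Fin 2) (Fin 2) F).det ≠ 0 := by
        have := (Matrix.isUnit_iff_isUnit_det _).mp h.isUnit
        exact this.ne_zero
      rw [Matrix.det_fin_two, hy, hz] at hdet
      simp at hdet
      refine ⟨(Units.mk0 _ hdet.1, Units.mk0 _ hdet.2), ?_⟩
      apply Subtype.ext
      apply Units.ext
      rw [hfval]
      conv_rhs => rw [Matrix.eta_fin_two (h : Matrix (Fin 2) (Fin 2) F), hy, hz]
      rfl
  rw [← Nat.card_eq_of_bijective f hf, Nat.card_prod, Nat.card_units, Nat.card_eq_fintype_card, pow_two]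


theorem part2 (g : Matrix.GeneralLinearGroup (Fin 2) F)
    (hev : ∀ (c : F) (v : Fin 2 → F), v ≠ 0 → (g : Matrix (Fin 2) (Fin 2) F).mulVec v ≠ c • v) :
    Nat.card (Subgroup.centralizer ({g} : Set (Matrix.GeneralLinearGroup (Fin 2) F))) = Fintype.card F ^ 2 - 1 := by
  classical
  have hc : (g : Matrix (Fin 2) (Fin 2) F) 1 0 ≠ 0 := by
    intro hc
    apply hev ((g : Matrix (Fin 2) (Fin 2) F) 0 0) ![1, 0] (by simp)
    ext i
    fin_cases i <;> simp [Matrix.mulVec, dotProduct, Fin.sum_univ_two, hc]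
  have hdetM : ∀ xy : {xy : F × F // ¬ (xy = (0, 0))},
      (xy.1.1 • (1 : Matrix (Fin 2) (Fin 2) F) + xy.1.2 • (g : Matrix (Fin 2) (Fin 2) F)).det ≠ 0 := by
    rintro ⟨⟨x, y⟩, hxy⟩ hdet
    obtain ⟨v, hv, hMv⟩ := Matrix.exists_mulVec_eq_zero_iff.mpr hdet
    simp only [Matrix.add_mulVec, Matrix.smul_mulVec, Matrix.one_mulVec] at hMv
    by_cases hy : y = 0
    · subst hy
      simp only [zero_smul, add_zero] at hMv
      have hx : x = 0 := by
        rcases smul_eq_zero.mp hMv with h | h
        · exact h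
        · exact absurd h hv
      exact hxy (by rw [hx])
    · apply hev (-x / y) v hv
      have h1 : y • (g : Matrix (Fin 2) (Fin 2) F).mulVec v = -(x • v) := by
        rw [eq_neg_iff_add_eq_zero, add_comm]; exact hMv
      have h2 : (g : Matrix (Fin 2) (Fin 2) F).mulVec v = y⁻¹ • (y • (g : Matrix (Fin 2) (Fin 2) F).mulVec v) := by
        rw [smul_smul, inv_mul_cancel₀ hy, one_smul]
      rw [h2, h1, smul_neg, smul_smul, ← neg_smul]
      congr 1
      field_simp
  have key : ∀ xy : {xy : F × F // ¬ (xy = (0, 0))},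
      Matrix.GeneralLinearGroup.mkOfDetNeZero _ (hdetM xy) ∈ Subgroup.centralizer ({g} : Set (Matrix.GeneralLinearGroup (Fin 2) F)) := by
    intro xy
    rw [Subgroup.mem_centralizer_singleton_iff]
    apply Units.ext
    rw [Units.val_mul, Units.val_mul]
    change (xy.1.1 • (1 : Matrix (Fin 2) (Fin 2) F) + xy.1.2 • (g : Matrix (Fin 2) (Fin 2) F)) * (g : Matrix (Fin 2) (Fin 2) F)
      = (g : Matrix (Fin 2) (Fin 2) F) * (xy.1.1 • (1 : Matrix (Fin 2) (Fin 2) F) + xy.1.2 • (g : Matrix (Fin 2) (Fin 2) F))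
    simp [add_mul, mul_add]
  let f : {xy : F × F // ¬ (xy = (0, 0))} → Subgroup.centralizer ({g} : Set (Matrix.GeneralLinearGroup (Fin 2) F)) :=
    fun xy => ⟨_, key xy⟩
  have hfval : ∀ xy, (((f xy : Subgroup.centralizer ({g} : Set (Matrix.GeneralLinearGroup (Fin 2) F))) : Matrix.GeneralLinearGroup (Fin 2) F) : Matrix (Fin 2) (Fin 2) F)
      = xy.1.1 • (1 : Matrix (Fin 2) (Fin 2) F) + xy.1.2 • (g : Matrix (Fin 2) (Fin 2) F) := fun xy => rfl
  have hf : Function.Bijective f := by
    constructor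
    · rintro ⟨⟨x, y⟩, hxy⟩ ⟨⟨x', y'⟩, hxy'⟩ h
      have h' := congrArg (fun z : Subgroup.centralizer ({g} : Set (Matrix.GeneralLinearGroup (Fin 2) F)) => ((z : Matrix.GeneralLinearGroup (Fin 2) F) : Matrix (Fin 2) (Fin 2) F)) h
      simp only [hfval] at h'
      have e10 := congrFun (congrFun h' 1) 0
      have e00 := congrFun (congrFun h' 0) 0
      simp at e10 e00
      have hy : y = y' := by
        rcases e10 with e | e
        · exact e
        · exact absurd e hc
      subst hy
      have hx : x = x' := by simpa using e00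
      subst hx
      rfl
    · rintro ⟨h, hh⟩
      rw [Subgroup.mem_centralizer_singleton_iff] at hh
      have hh' : (h : Matrix (Fin 2) (Fin 2) F) * (g : Matrix (Fin 2) (Fin 2) F) = (g : Matrix (Fin 2) (Fin 2) F) * (h : Matrix (Fin 2) (Fin 2) F) := by
        have := congrArg (fun z : Matrix.GeneralLinearGroup (Fin 2) F => (z : Matrix (Fin 2) (Fin 2) F)) hh
        simpa using this
      have e00 := congrFun (congrFun hh' 0) 0
      have e10 := congrFun (congrFun hh' 1) 0
      simp only [Matrix.mul_apply, Fin.sum_univ_two] at e00 e10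
      have hdet : (h : Matrix (Fin 2) (Fin 2) F).det ≠ 0 := by
        have := (Matrix.isUnit_iff_isUnit_det _).mp h.isUnit
        exact this.ne_zero
      have hmat : (h : Matrix (Fin 2) (Fin 2) F) =
          ((h : Matrix (Fin 2) (Fin 2) F) 0 0 - (h : Matrix (Fin 2) (Fin 2) F) 1 0 / (g : Matrix (Fin 2) (Fin 2) F) 1 0 * (g : Matrix (Fin 2) (Fin 2) F) 0 0) • (1 : Matrix (Fin 2) (Fin 2) F)
            + ((h : Matrix (Fin 2) (Fin 2) F) 1 0 / (g : Matrix (Fin 2) (Fin 2) F) 1 0) • (g : Matrix (Fin 2) (Fin 2) F) := by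
        ext i j
        fin_cases i <;> fin_cases j
        · simp
        · simp
          field_simp
          linear_combination e00
        · simp
          field_simp
        · simp
          field_simp
          linear_combination e10
      have hne : ¬ (((h : Matrix (Fin 2) (Fin 2) F) 0 0 - (h : Matrix (Fin 2) (Fin 2) F) 1 0 / (g : Matrix (Fin 2) (Fin 2) F) 1 0 * (g : Matrix (Fin 2) (Fin 2) F) 0 0,
          (h : Matrix (Fin 2) (Fin 2) F) 1 0 / (g : Matrix (Fin 2) (Fin 2) F) 1 0) = ((0 : F), (0 : F))) := by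
        intro h0
        have h1 := congrArg Prod.fst h0
        have h2 := congrArg Prod.snd h0
        simp only at h1 h2
        rw [h1, h2] at hmat
        apply hdet
        rw [hmat]
        simp
      refine ⟨⟨_, hne⟩, ?_⟩
      apply Subtype.ext
      apply Units.ext
      rw [hfval]
      exact hmat.symm
  rw [← Nat.card_eq_of_bijective f hf, Nat.card_eq_fintype_card, Fintype.card_subtype_compl,
    Fintype.card_subtype_eq, Fintype.card_prod, pow_two]

end

/-- Over a finite field with q elements: a diagonal element of GL₂ with two distinct diagonal entries has centralizer of order (q − 1)² (so q(q + 1) conjugates), and an element of GL₂ with no eigenvector in F² has centralizer of order q² − 1 (so q(q − 1) conjugates). -/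
theorem result {F : Type*} [Field F] [Fintype F] (g : Matrix.GeneralLinearGroup (Fin 2) F) :
    ((g : Matrix (Fin 2) (Fin 2) F) 0 1 = 0 → (g : Matrix (Fin 2) (Fin 2) F) 1 0 = 0 → (g : Matrix (Fin 2) (Fin 2) F) 0 0 ≠ (g : Matrix (Fin 2) (Fin 2) F) 1 1 →
      Nat.card (Subgroup.centralizer ({g} : Set (Matrix.GeneralLinearGroup (Fin 2) F))) = (Fintype.card F - 1) ^ 2) ∧
    ((∀ (c : F) (v : Fin 2 → F), v ≠ 0 → (g : Matrix (Fin 2) (Fin 2) F).mulVec v ≠ c • v) →
      Nat.card (Subgroup.centralizer ({g} : Set (Matrix.GeneralLinearGroup (Fin 2) F))) = Fintype.card F ^ 2 - 1) := by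
  exact ⟨part1 g, part2 g⟩

end Cfsg.Agent.S2303
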