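import Cfsg.Statements.S2305
-- import your own Cfsg.Agent.* helpers here
import Cfsg.Agent.Helper13.GL2Borel
import Cfsg.Agent.Helper10.CharConj
import Cfsg.Agent.Helper2.CharNat
import Cfsg.Agent.Helper2.CharComplete

set_option autoImplicit false
open Cfsg

namespace Cfsg.Agent.S2305

theorem irr_of_ne {F : Type*} [Field F] [Fintype F] [DecidableEq F] (α β : MulChar F ℂ) (hαβ : α ≠ β) :
    Cfsg.IsIrrCharacter (Matrix.GeneralLinearGroup (Fin 2) F)
      (Cfsg.indFun (Cfsg.upperTriangularGL 2 F) (Helper13.borelFun α β)) := by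
  apply Helper10.isIrr_of_char_norm_one
    (Helper2.isCharacter_indFun _ (Helper13.isCharacter_borelFun α β))
  have h := Helper13.classInner_indFun_borel α β α β
  rw [if_pos ⟨rfl, rfl⟩, if_neg (fun h => hαβ h.1), add_zero] at h
  exact h

theorem swap_eq {F : Type*} [Field F] [Fintype F] [DecidableEq F] (α β : MulChar F ℂ) :
    Cfsg.indFun (Cfsg.upperTriangularGL 2 F) (Helper13.borelFun α β) =
      Cfsg.indFun (Cfsg.upperTriangularGL 2 F) (Helper13.borelFun β α) := by
  by_cases hαβ : α = β
  · rw [hαβ]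
  · have h := Helper13.classInner_indFun_borel α β β α
    rw [if_neg (fun h => hαβ h.1), if_pos ⟨rfl, rfl⟩, zero_add] at h
    rw [Helper2.classInner_irr (irr_of_ne α β hαβ) (irr_of_ne β α (Ne.symm hαβ))] at h
    by_contra hne
    rw [if_neg hne] at h
    exact zero_ne_one h

/-- Over a finite field F, for multiplicative characters α, β, α′, β′ of F, the characters of GL₂ induced from the linear characters b ↦ α(b₁₁) β(b₂₂) and b ↦ α′(b₁₁) β′(b₂₂) of the upper triangular subgroup coincide exactly when {α, β} = {α′, β′} as unordered pairs. -/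
theorem result {F : Type*} [Field F] [Fintype F] [DecidableEq F] (α β α' β' : MulChar F ℂ) :
    Cfsg.indFun (Cfsg.upperTriangularGL 2 F) (fun b => α (((b : Matrix.GeneralLinearGroup (Fin 2) F) : Matrix (Fin 2) (Fin 2) F) 0 0) * β (((b : Matrix.GeneralLinearGroup (Fin 2) F) : Matrix (Fin 2) (Fin 2) F) 1 1)) = Cfsg.indFun (Cfsg.upperTriangularGL 2 F) (fun b => α' (((b : Matrix.GeneralLinearGroup (Fin 2) F) : Matrix (Fin 2) (Fin 2) F) 0 0) * β' (((b : Matrix.GeneralLinearGroup (Fin 2) F) : Matrix (Fin 2) (Fin 2) F) 1 1)) ↔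
      (α = α' ∧ β = β') ∨ (α = β' ∧ β = α') := by
  constructor
  · intro heq
    by_contra hcon
    rw [not_or] at hcon
    have h1 := Helper13.classInner_indFun_borel α β α' β'
    rw [if_neg hcon.1, if_neg hcon.2, add_zero] at h1
    have h2 := Helper13.classInner_indFun_borel α β α β
    rw [if_pos ⟨rfl, rfl⟩] at h2
    have heq' : Cfsg.indFun (Cfsg.upperTriangularGL 2 F) (Helper13.borelFun α β) =
        Cfsg.indFun (Cfsg.upperTriangularGL 2 F) (Helper13.borelFun α' β') := heq
    rw [← heq', h2] at h1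
    split_ifs at h1
    · norm_num at h1
    · norm_num at h1
  · rintro (⟨rfl, rfl⟩ | ⟨rfl, rfl⟩)
    · rfl
    · exact swap_eq α β

end Cfsg.Agent.S2305
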