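import Cfsg.Statements.S2306
-- import your own Cfsg.Agent.* helpers here
import Cfsg.Agent.Helper13.SL2Borel
import Cfsg.Agent.Helper10.CharConj
import Cfsg.Agent.Helper2.CharNat
import Cfsg.Agent.Helper2.CharComplete

set_option autoImplicit false
open Cfsg

namespace Cfsg.Agent.S2306

theorem sq_eq_one_iff {F : Type*} [Field F] (α : MulChar F ℂ) : α = α⁻¹ ↔ α ^ 2 = 1 := by
  rw [eq_inv_iff_mul_eq_one, sq]

/-- Over a finite field F, for a multiplicative character α of F, the function induced to SL₂ from the linear character b ↦ α(b₁₁) of the upper triangular subgroup is an irreducible character if and only if α² ≠ 1. -/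
theorem result {F : Type*} [Field F] [Fintype F] [DecidableEq F] (α : MulChar F ℂ) :
    Cfsg.IsIrrCharacter (Matrix.SpecialLinearGroup (Fin 2) F) (Cfsg.indFun ((Cfsg.upperTriangularGL 2 F).comap Matrix.SpecialLinearGroup.toGL) (fun b => α (((b : Matrix.SpecialLinearGroup (Fin 2) F) : Matrix (Fin 2) (Fin 2) F) 0 0))) ↔ α ^ 2 ≠ 1 := by
  have h := Helper13.classInner_indFun_sBorel α α
  rw [if_pos rfl] at h
  constructor
  · intro hirr h2
    have hirr' : Cfsg.IsIrrCharacter (Matrix.SpecialLinearGroup (Fin 2) F)
      (Cfsg.indFun (Helper13.sBorel F) (Helper13.sBorelFun α)) := hirr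
    rw [Helper2.classInner_irr hirr' hirr', if_pos rfl, if_pos ((sq_eq_one_iff α).mpr h2)] at h
    norm_num at h
  · intro h2
    apply Helper10.isIrr_of_char_norm_one
      (Helper2.isCharacter_indFun _ (Helper13.isCharacter_sBorelFun α))
    rw [if_neg (fun h' => h2 ((sq_eq_one_iff α).mp h')), add_zero] at h
    exact h

end Cfsg.Agent.S2306
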