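import Cfsg.Statements.S2307
-- import your own Cfsg.Agent.* helpers here
import Cfsg.Agent.Helper13.SL2Res
import Cfsg.Agent.Helper6.ConjChar
import Cfsg.Agent.Helper10.CharConj
import Cfsg.Agent.Helper10.VirtualChar
import Cfsg.Agent.Helper2.CharNat
import Cfsg.Agent.Helper2.CharComplete

set_option autoImplicit false
open Cfsg

namespace Cfsg.Agent.S2307

section General

variable {G : Type*} [Group G] [Fintype G]

/-- A character of norm two is the sum of two distinct irreducible characters. -/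
theorem char_norm_two {Θ : G → ℂ} (hΘ : IsCharacter G Θ) (h2 : classInner Θ Θ = 2) :
    ∃ χ₁ χ₂ : G → ℂ, IsIrrCharacter G χ₁ ∧ IsIrrCharacter G χ₂ ∧ χ₁ ≠ χ₂ ∧ Θ = χ₁ + χ₂ := by
  obtain ⟨χ₁, χ₂, e₁, e₂, h1, h2', hne, he₁, he₂, hsum⟩ :=
    Helper10.gen_norm_two (Helper10.isGeneralizedCharacter_of_char hΘ) h2
  have hi1 : classInner Θ χ₁ = (e₁ : ℂ) := by
    rw [hsum, Helper2.classInner_add_left, Helper2.classInner_smul_left,
      Helper2.classInner_smul_left, Helper2.classInner_irr h1 h1, if_pos rfl,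
      Helper2.classInner_irr h2' h1, if_neg (Ne.symm hne)]
    ring
  have hi2 : classInner Θ χ₂ = (e₂ : ℂ) := by
    rw [hsum, Helper2.classInner_add_left, Helper2.classInner_smul_left,
      Helper2.classInner_smul_left, Helper2.classInner_irr h2' h2', if_pos rfl,
      Helper2.classInner_irr h1 h2', if_neg hne]
    ring
  obtain ⟨n₁, hn₁⟩ := Helper10.classInner_char_irr hΘ h1
  obtain ⟨n₂, hn₂⟩ := Helper10.classInner_char_irr hΘ h2'
  have he₁' : e₁ = 1 := by
    rcases he₁ with h | h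
    · exact h
    · exfalso
      rw [hi1, h] at hn₁
      have : ((-1 : ℝ) : ℂ) = ((n₁ : ℝ) : ℂ) := by rw [hn₁]; simp
      have h3 : (-1 : ℝ) = (n₁ : ℝ) := by exact_mod_cast this
      have h4 : (0 : ℝ) ≤ (n₁ : ℝ) := Nat.cast_nonneg _
      linarith
  have he₂' : e₂ = 1 := by
    rcases he₂ with h | h
    · exact h
    · exfalso
      rw [hi2, h] at hn₂
      have : ((-1 : ℝ) : ℂ) = ((n₂ : ℝ) : ℂ) := by rw [hn₂]; simp
      have h3 : (-1 : ℝ) = (n₂ : ℝ) := by exact_mod_cast this
      have h4 : (0 : ℝ) ≤ (n₂ : ℝ) := Nat.cast_nonneg _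
      linarith
  refine ⟨χ₁, χ₂, h1, h2', hne, ?_⟩
  rw [hsum, he₁', he₂']
  simp

/-- Uniqueness of the decomposition of a sum of two distinct irreducible characters. -/
theorem eq_or_eq_of_add_eq {χ₁ χ₂ ψ ψ' : G → ℂ} (h1 : IsIrrCharacter G χ₁)
    (h2 : IsIrrCharacter G χ₂) (hψ : IsIrrCharacter G ψ) (hψ' : IsIrrCharacter G ψ')
    (hne : ψ ≠ ψ') (hsum : ψ + ψ' = χ₁ + χ₂) : ψ = χ₁ ∨ ψ = χ₂ := by
  have h := congrArg (fun f => classInner ψ f) hsum
  simp only [Helper2.classInner_add_right] at h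
  rw [Helper2.classInner_irr hψ hψ, if_pos rfl, Helper2.classInner_irr hψ hψ', if_neg hne,
    Helper2.classInner_irr hψ h1, Helper2.classInner_irr hψ h2] at h
  by_contra hcon
  rw [not_or] at hcon
  rw [if_neg hcon.1, if_neg hcon.2] at h
  norm_num at h

end General

section Main

variable {F : Type*} [Field F]

/-- Conjugation by an element of `GL₂` as an automorphism of `SL₂`. -/
noncomputable def cx (x : Matrix.GeneralLinearGroup (Fin 2) F) :
    Matrix.SpecialLinearGroup (Fin 2) F ≃* Matrix.SpecialLinearGroup (Fin 2) F :=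
  ((Helper13.kerDetEquiv F).trans
    (MulAut.conjNormal x : Helper13.kerDet F ≃* Helper13.kerDet F)).trans
      (Helper13.kerDetEquiv F).symm

theorem cx_apply (x : Matrix.GeneralLinearGroup (Fin 2) F)
    (s : Matrix.SpecialLinearGroup (Fin 2) F) :
    cx x s = (Helper13.kerDetEquiv F).symm
      ((MulAut.conjNormal x : Helper13.kerDet F ≃* Helper13.kerDet F) (Helper13.kerDetEquiv F s)) :=
  rfl

theorem toGL_cx (x : Matrix.GeneralLinearGroup (Fin 2) F)
    (s : Matrix.SpecialLinearGroup (Fin 2) F) :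
    Matrix.SpecialLinearGroup.toGL (cx x s) = x * Matrix.SpecialLinearGroup.toGL s * x⁻¹ := by
  rw [cx_apply, Helper13.toGL_kerDetEquiv_symm, MulAut.conjNormal_apply, Helper13.kerDetEquiv_coe]

end Main

section Fin

variable {F : Type*} [Field F] [Fintype F] [DecidableEq F]

theorem key (α : MulChar F ℂ) (hα1 : α ≠ 1)
    {χ₁ χ₂ : Matrix.SpecialLinearGroup (Fin 2) F → ℂ}
    (h1 : IsIrrCharacter (Matrix.SpecialLinearGroup (Fin 2) F) χ₁)
    (h2 : IsIrrCharacter (Matrix.SpecialLinearGroup (Fin 2) F) χ₂) (hne : χ₁ ≠ χ₂)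
    (hsum : indFun (Helper13.sBorel F) (Helper13.sBorelFun α) = χ₁ + χ₂) :
    ∃ x : Matrix.GeneralLinearGroup (Fin 2) F, χ₁ ∘ cx x = χ₂ := by
  classical
  have hΧirr : IsIrrCharacter (Matrix.GeneralLinearGroup (Fin 2) F)
      (indFun (upperTriangularGL 2 F) (Helper13.borelFun α 1)) := by
    apply Helper10.isIrr_of_char_norm_one
      (Helper2.isCharacter_indFun _ (Helper13.isCharacter_borelFun α 1))
    have h := Helper13.classInner_indFun_borel α 1 α 1
    rw [if_pos ⟨rfl, rfl⟩, if_neg (fun h => hα1 h.1), add_zero] at h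
    exact h
  have hΧcf := Helper2.isClassFunction_indFun (upperTriangularGL 2 F) (Helper13.borelFun α 1)
  have hres := Helper13.res_indFun_borel α
  have hΘinv : ∀ x : Matrix.GeneralLinearGroup (Fin 2) F,
      (χ₁ + χ₂) ∘ cx x = χ₁ + χ₂ := by
    intro x
    funext s
    rw [← hsum, Function.comp_apply, ← hres, ← hres, toGL_cx]
    exact hΧcf _ x
  by_contra hno
  rw [not_exists] at hno
  have hinv : ∀ x : Matrix.GeneralLinearGroup (Fin 2) F, χ₁ ∘ cx x = χ₁ := by
    intro x
    have hψ := Helper6.isIrrCharacter_comp_mulEquiv (cx x) h1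
    have hψ' := Helper6.isIrrCharacter_comp_mulEquiv (cx x) h2
    have hne' : χ₁ ∘ cx x ≠ χ₂ ∘ cx x := by
      intro h
      apply hne
      funext s
      have := congrFun h ((cx x).symm s)
      simpa using this
    have hs : χ₁ ∘ cx x + χ₂ ∘ cx x = χ₁ + χ₂ := hΘinv x
    rcases eq_or_eq_of_add_eq h1 h2 hψ hψ' hne' hs with h | h
    · exact h
    · exact absurd h (hno x)
  haveI : Fintype (Helper13.kerDet F) := Fintype.ofFinite _
  have hϑ : IsIrrCharacter (Helper13.kerDet F) (χ₁ ∘ (Helper13.kerDetEquiv F).symm) :=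
    Helper6.isIrrCharacter_comp_mulEquiv _ h1
  have hinvϑ : ∀ (g : Matrix.GeneralLinearGroup (Fin 2) F) (n : Helper13.kerDet F),
      (χ₁ ∘ (Helper13.kerDetEquiv F).symm) ⟨g * n * g⁻¹,
        (inferInstance : (Helper13.kerDet F).Normal).conj_mem (n : Matrix.GeneralLinearGroup (Fin 2) F) n.2 g⟩ =
      (χ₁ ∘ (Helper13.kerDetEquiv F).symm) n := by
    intro g n
    have h := congrFun (hinv g) ((Helper13.kerDetEquiv F).symm n)
    rw [Function.comp_apply, cx_apply, MulEquiv.apply_symm_apply] at h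
    exact h
  have hresΧ : (fun n : Helper13.kerDet F =>
      indFun (upperTriangularGL 2 F) (Helper13.borelFun α 1) n) =
      (χ₁ + χ₂) ∘ (Helper13.kerDetEquiv F).symm := by
    funext n
    rw [Function.comp_apply, ← hsum, ← hres, Helper13.toGL_kerDetEquiv_symm]
  have hin1 : classInner (χ₁ + χ₂) χ₁ = 1 := by
    rw [Helper2.classInner_add_left, Helper2.classInner_irr h1 h1, if_pos rfl,
      Helper2.classInner_irr h2 h1, if_neg (Ne.symm hne), add_zero]
  have hin2 : classInner (χ₁ + χ₂) χ₂ = 1 := by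
    rw [Helper2.classInner_add_left, Helper2.classInner_irr h2 h2, if_pos rfl,
      Helper2.classInner_irr h1 h2, if_neg hne, zero_add]
  have hcon : classInner (fun n : Helper13.kerDet F =>
      indFun (upperTriangularGL 2 F) (Helper13.borelFun α 1) n)
      (χ₁ ∘ (Helper13.kerDetEquiv F).symm) ≠ 0 := by
    rw [hresΧ, Helper6.classInner_comp_mulEquiv, hin1]
    exact one_ne_zero
  have hcl := Helper6.res_eq_smul_of_invariant (Helper13.kerDet F) hϑ hinvϑ hΧirr hcon
  have h3 := congrArg (fun f => classInner f (χ₂ ∘ (Helper13.kerDetEquiv F).symm)) hcl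
  simp only [Helper2.classInner_smul_left] at h3
  rw [hresΧ, Helper6.classInner_comp_mulEquiv, Helper6.classInner_comp_mulEquiv,
    Helper6.classInner_comp_mulEquiv, hin1, hin2,
    Helper2.classInner_irr h1 h2, if_neg hne, mul_zero] at h3
  exact one_ne_zero h3

end Fin

/-- Over a finite field F with q elements, q odd, let α be the multiplicative character of F of order 2. The character of SL₂ induced from the linear character b ↦ α(b₁₁) of the upper triangular subgroup is the sum of two distinct irreducible characters, each of degree (q + 1)/2, which are conjugate under GL₂: some fixed element of GL₂ conjugates the one into the other. -/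
theorem result {F : Type*} [Field F] [Fintype F] [DecidableEq F] (hodd : Odd (Fintype.card F)) (α : MulChar F ℂ)
    (hα : α ^ 2 = 1) (hα1 : α ≠ 1) :
    ∃ χ₁ χ₂ : Matrix.SpecialLinearGroup (Fin 2) F → ℂ, Cfsg.IsIrrCharacter (Matrix.SpecialLinearGroup (Fin 2) F) χ₁ ∧ Cfsg.IsIrrCharacter (Matrix.SpecialLinearGroup (Fin 2) F) χ₂ ∧ χ₁ ≠ χ₂ ∧
      Cfsg.indFun ((Cfsg.upperTriangularGL 2 F).comap Matrix.SpecialLinearGroup.toGL) (fun b => α (((b : Matrix.SpecialLinearGroup (Fin 2) F) : Matrix (Fin 2) (Fin 2) F) 0 0)) = χ₁ + χ₂ ∧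
      χ₁ 1 = (((Fintype.card F + 1) / 2 : ℕ) : ℂ) ∧ χ₂ 1 = (((Fintype.card F + 1) / 2 : ℕ) : ℂ) ∧
      ∃ x : Matrix.GeneralLinearGroup (Fin 2) F, ∀ g h : Matrix.SpecialLinearGroup (Fin 2) F,
        Matrix.SpecialLinearGroup.toGL h = x * Matrix.SpecialLinearGroup.toGL g * x⁻¹ → χ₂ h = χ₁ g := by
  have hαinv : α = α⁻¹ := by rw [eq_inv_iff_mul_eq_one, ← sq]; exact hα
  have hchar : IsCharacter (Matrix.SpecialLinearGroup (Fin 2) F)
      (indFun (Helper13.sBorel F) (Helper13.sBorelFun α)) :=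
    Helper2.isCharacter_indFun _ (Helper13.isCharacter_sBorelFun α)
  have hnorm := Helper13.classInner_indFun_sBorel α α
  rw [if_pos rfl, if_pos hαinv] at hnorm
  have hnorm2 : classInner (indFun (Helper13.sBorel F) (Helper13.sBorelFun α))
      (indFun (Helper13.sBorel F) (Helper13.sBorelFun α)) = 2 := by
    rw [hnorm]; norm_num
  obtain ⟨χ₁, χ₂, h1, h2, hne, hsum⟩ := char_norm_two hchar hnorm2
  obtain ⟨x₀, hx₀⟩ := key α hα1 h1 h2 hne hsum
  have hdeg2 : χ₂ 1 = χ₁ 1 := by
    rw [← hx₀, Function.comp_apply, map_one]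
  have hone : indFun (Helper13.sBorel F) (Helper13.sBorelFun α) 1 = (Fintype.card F : ℂ) + 1 := by
    have hB0 : (Nat.card (Helper13.sBorel F) : ℂ) ≠ 0 := by exact_mod_cast Nat.card_pos.ne'
    rw [Helper6.indFun_one, Helper13.sBorelFun_one, Helper13.card_SL2_cast, mul_one]
    field_simp
  have hdeg1 : χ₁ 1 = (((Fintype.card F + 1) / 2 : ℕ) : ℂ) := by
    obtain ⟨k, hk⟩ := hodd
    have hk2 : (Fintype.card F + 1) / 2 = k + 1 := by omega
    rw [hk2]
    have h := congrFun hsum 1
    rw [hone, Pi.add_apply, hdeg2, hk] at h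
    push_cast at h ⊢
    linear_combination (-1 / 2 : ℂ) * h
  refine ⟨χ₁, χ₂, h1, h2, hne, hsum, hdeg1, hdeg2.trans hdeg1, x₀⁻¹, ?_⟩
  intro g h hgh
  have hg : g = cx x₀ h := by
    apply Matrix.SpecialLinearGroup.toGL_injective
    rw [toGL_cx, hgh]
    group
  rw [hg, ← hx₀]
  rfl

end Cfsg.Agent.S2307
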