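import Cfsg.Statements.S2309
-- import your own Cfsg.Agent.* helpers here
import Cfsg.Agent.Helper13.GL2Zeros

set_option autoImplicit false
open Cfsg

namespace Cfsg.Agent.S2309

/-- Over a finite field F with q elements: every irreducible complex character of GL₂ of degree q − 1 vanishes at every diagonal matrix with two distinct entries, and every irreducible complex character of degree q + 1 vanishes at every element with no eigenvector in F². -/
theorem result {F : Type*} [Field F] [Fintype F] (χ : Matrix.GeneralLinearGroup (Fin 2) F → ℂ) (hχ : Cfsg.IsIrrCharacter (Matrix.GeneralLinearGroup (Fin 2) F) χ) (g : Matrix.GeneralLinearGroup (Fin 2) F) :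
    (χ 1 = (Fintype.card F : ℂ) - 1 → (g : Matrix (Fin 2) (Fin 2) F) 0 1 = 0 → (g : Matrix (Fin 2) (Fin 2) F) 1 0 = 0 → (g : Matrix (Fin 2) (Fin 2) F) 0 0 ≠ (g : Matrix (Fin 2) (Fin 2) F) 1 1 → χ g = 0) ∧
    (χ 1 = (Fintype.card F : ℂ) + 1 → (∀ (c : F) (v : Fin 2 → F), v ≠ 0 → (g : Matrix (Fin 2) (Fin 2) F).mulVec v ≠ c • v) → χ g = 0) := by
  classical
  have hq0 : (Fintype.card F : ℂ) ≠ 0 := by
    exact_mod_cast Fintype.card_pos.ne'
  constructor
  · intro h1 h01 h10 hne
    have hdet : (g : Matrix (Fin 2) (Fin 2) F).det ≠ 0 :=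
      ((Matrix.isUnit_iff_isUnit_det _).mp (Units.isUnit _)).ne_zero
    rw [Matrix.det_fin_two, h01, zero_mul, sub_zero] at hdet
    have ha : (g : Matrix (Fin 2) (Fin 2) F) 0 0 ≠ 0 := left_ne_zero_of_mul hdet
    have hd : (g : Matrix (Fin 2) (Fin 2) F) 1 1 ≠ 0 := right_ne_zero_of_mul hdet
    have hg : g = Helper13.borelMat (Units.mk0 _ ha) (Units.mk0 _ hd) 0 := by
      apply Matrix.GeneralLinearGroup.ext
      intro i j
      rw [Helper13.borelMat_coe]
      fin_cases i <;> fin_cases j
      · rfl
      · exact h01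
      · exact h10
      · rfl
    rcases Helper13.irr_cases hχ with ⟨α, rfl⟩ | ⟨α, rfl⟩ | ⟨α, β, hαβ, rfl⟩ | ⟨hc, _, _⟩
    · exfalso
      rw [Helper13.detFun_one] at h1
      have h2 : (Fintype.card F : ℂ) = 2 := by linear_combination -h1
      have h3 : Fintype.card F = 2 := by exact_mod_cast h2
      have h4 : Fintype.card Fˣ = 1 := by rw [Fintype.card_units, h3]
      have h5 : (Units.mk0 _ ha : Fˣ) = Units.mk0 _ hd :=
        (Fintype.card_le_one_iff.mp h4.le) _ _
      apply hne
      have := congrArg Units.val h5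
      simpa using this
    · exfalso
      rw [Helper13.stFun_one] at h1
      exact one_ne_zero (by linear_combination h1 : (1 : ℂ) = 0)
    · exfalso
      rw [Helper13.psFun_one] at h1
      exact two_ne_zero (by linear_combination h1 : (2 : ℂ) = 0)
    · rw [hg]
      exact Helper13.cusp_vanish_split hχ hc _ _ hne
  · intro h1 hnoeig
    rcases Helper13.irr_cases hχ with ⟨α, rfl⟩ | ⟨α, rfl⟩ | ⟨α, β, hαβ, rfl⟩ | ⟨hc, h1', _⟩
    · exfalso
      rw [Helper13.detFun_one] at h1
      exact hq0 (by linear_combination -h1)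
    · exfalso
      rw [Helper13.stFun_one] at h1
      exact one_ne_zero (by linear_combination -h1 : (1 : ℂ) = 0)
    · exact Helper13.indFun_borel_no_eigen _ g hnoeig
    · exfalso
      rw [h1'] at h1
      exact two_ne_zero (by linear_combination -h1 : (2 : ℂ) = 0)

end Cfsg.Agent.S2309
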