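import Cfsg.Statements.S2320
-- import your own Cfsg.Agent.* helpers here
import Cfsg.Agent.Helper13.GL2Values

set_option autoImplicit false
open Cfsg

namespace Cfsg.Agent.S2320

/-- Over a finite field F with q elements, every irreducible complex character of GL₂ of degree q takes a value of absolute value 1 at every diagonal matrix with two different diagonal entries and at every element with no eigenvector in F². -/
theorem result {F : Type*} [Field F] [Fintype F] (χ : Matrix.GeneralLinearGroup (Fin 2) F → ℂ) (hχ : Cfsg.IsIrrCharacter (Matrix.GeneralLinearGroup (Fin 2) F) χ) (hdeg : χ 1 = (Fintype.card F : ℂ)) (g : Matrix.GeneralLinearGroup (Fin 2) F) :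
    ((g : Matrix (Fin 2) (Fin 2) F) 0 1 = 0 → (g : Matrix (Fin 2) (Fin 2) F) 1 0 = 0 → (g : Matrix (Fin 2) (Fin 2) F) 0 0 ≠ (g : Matrix (Fin 2) (Fin 2) F) 1 1 → ‖χ g‖ = 1) ∧
    ((∀ (c : F) (v : Fin 2 → F), v ≠ 0 → (g : Matrix (Fin 2) (Fin 2) F).mulVec v ≠ c • v) → ‖χ g‖ = 1) := by
  classical
  have hq1 : (Fintype.card F : ℂ) ≠ 1 := Helper13.card_cast_ne_one
  obtain ⟨α, rfl⟩ : ∃ α : MulChar F ℂ, χ = Helper13.stFun α := by
    rcases Helper13.irr_cases hχ with ⟨α, rfl⟩ | ⟨α, rfl⟩ | ⟨α, β, hαβ, rfl⟩ | ⟨hc, h1, _⟩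
    · exfalso
      rw [Helper13.detFun_one] at hdeg
      exact hq1 hdeg.symm
    · exact ⟨α, rfl⟩
    · exfalso
      rw [Helper13.psFun_one] at hdeg
      exact one_ne_zero (by linear_combination hdeg : (1 : ℂ) = 0)
    · exfalso
      rw [h1] at hdeg
      exact one_ne_zero (by linear_combination -hdeg : (1 : ℂ) = 0)
  have hnorm : ∀ x : Matrix.GeneralLinearGroup (Fin 2) F, ‖Helper13.detFun α x‖ = 1 :=
    fun x => Helper10.norm_hom_units (Helper13.detHom α) x
  constructor
  · intro h01 h10 hne
    obtain ⟨a, d, ha, hd, hg⟩ := Helper13.exists_eq_borelMat g h10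
    rw [h01] at hg
    have had : (a : F) ≠ (d : F) := by rw [ha, hd]; exact hne
    have h1 : Helper13.stFun α g = Helper13.detFun α g := by
      unfold Helper13.stFun
      rw [Pi.sub_apply, hg, Helper13.psFun_split α α a d had, Helper13.detFun_borelMat]
      ring
    rw [h1]
    exact hnorm g
  · intro hnoeig
    have h1 : Helper13.stFun α g = -Helper13.detFun α g := by
      unfold Helper13.stFun
      rw [Pi.sub_apply]
      have h2 : Helper13.psFun α α g = 0 := Helper13.indFun_borel_no_eigen _ g hnoeig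
      rw [h2]
      ring
    rw [h1, norm_neg]
    exact hnorm g

end Cfsg.Agent.S2320
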