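import Cfsg.Statements.S2321
-- import your own Cfsg.Agent.* helpers here
import Cfsg.Agent.Helper13.SL2Deg

set_option autoImplicit false
open Cfsg

namespace Cfsg.Agent.S2321

/-- Over a finite field F with q elements, an irreducible complex character of SL₂ of degree q (the Steinberg character) takes the value 1 at every diagonal matrix whose diagonal entry a has a² ≠ 1, the value −1 at every element with no eigenvector in F², and the value 0 at every upper triangular matrix with equal diagonal entries and non-zero upper right entry. -/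
theorem result {F : Type*} [Field F] [Fintype F] (χ : Matrix.SpecialLinearGroup (Fin 2) F → ℂ) (hχ : Cfsg.IsIrrCharacter (Matrix.SpecialLinearGroup (Fin 2) F) χ) (hdeg : χ 1 = (Fintype.card F : ℂ)) (g : Matrix.SpecialLinearGroup (Fin 2) F) :
    ((g : Matrix (Fin 2) (Fin 2) F) 0 1 = 0 → (g : Matrix (Fin 2) (Fin 2) F) 1 0 = 0 → (g : Matrix (Fin 2) (Fin 2) F) 0 0 ^ 2 ≠ 1 → χ g = 1) ∧
    ((∀ (c : F) (v : Fin 2 → F), v ≠ 0 → (g : Matrix (Fin 2) (Fin 2) F).mulVec v ≠ c • v) → χ g = -1) ∧
    ((g : Matrix (Fin 2) (Fin 2) F) 1 0 = 0 → (g : Matrix (Fin 2) (Fin 2) F) 0 0 = (g : Matrix (Fin 2) (Fin 2) F) 1 1 → (g : Matrix (Fin 2) (Fin 2) F) 0 1 ≠ 0 → χ g = 0) := by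
  classical
  have hst := Helper13.irr_deg_q hχ hdeg
  subst hst
  have hcoe : ((Matrix.SpecialLinearGroup.toGL g : Matrix.GeneralLinearGroup (Fin 2) F) :
      Matrix (Fin 2) (Fin 2) F) = (g : Matrix (Fin 2) (Fin 2) F) := rfl
  have hdet : (g : Matrix (Fin 2) (Fin 2) F) 0 0 * (g : Matrix (Fin 2) (Fin 2) F) 1 1 -
      (g : Matrix (Fin 2) (Fin 2) F) 0 1 * (g : Matrix (Fin 2) (Fin 2) F) 1 0 = 1 := by
    have := g.2
    rw [Matrix.det_fin_two] at this
    exact this
  refine ⟨fun h01 h10 hsq => ?_, fun hne => ?_, fun h10 heq h01 => ?_⟩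
  · obtain ⟨a, d, ha, hd, hg⟩ := Helper13.exists_eq_borelMat (Matrix.SpecialLinearGroup.toGL g)
      (by rw [hcoe]; exact h10)
    rw [hcoe] at ha hd hg
    rw [h01] at hg
    have had : (a : F) ≠ (d : F) := by
      intro had
      apply hsq
      rw [h01, zero_mul, sub_zero, ← hd, ← had, ha] at hdet
      rw [sq]
      exact hdet
    rw [Helper13.stS_apply, hg, Helper13.psFun_split 1 1 a d had, MulChar.one_apply_coe,
      MulChar.one_apply_coe]
    norm_num
  · rw [Helper13.stS_apply]
    unfold Helper13.psFun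
    rw [Helper13.indFun_borel_no_eigen _ _ (by rw [hcoe]; exact hne)]
    norm_num
  · obtain ⟨a, d, ha, hd, hg⟩ := Helper13.exists_eq_borelMat (Matrix.SpecialLinearGroup.toGL g)
      (by rw [hcoe]; exact h10)
    rw [hcoe] at ha hd hg
    have had : a = d := Units.ext (by rw [ha, hd, heq])
    subst had
    rw [Helper13.stS_apply, hg, Helper13.psFun_unip 1 1 a _ h01, MulChar.one_apply_coe]
    norm_num

end Cfsg.Agent.S2321
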