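import Cfsg.Statements.S2323
-- import your own Cfsg.Agent.* helpers here
import Cfsg.Agent.Helper13.SL2Deg

set_option autoImplicit false
open Cfsg

namespace Cfsg.Agent.S2323

/-- Over a finite field F with q ≥ 4 elements, let u be the upper unitriangular matrix of SL₂ with off-diagonal entry 1. An irreducible complex character of SL₂ takes at u the value 1 if its degree is q + 1 and the value −1 if its degree is q − 1. -/
theorem result {F : Type*} [Field F] [Fintype F] (hq : 4 ≤ Fintype.card F) (χ : Matrix.SpecialLinearGroup (Fin 2) F → ℂ) (hχ : Cfsg.IsIrrCharacter (Matrix.SpecialLinearGroup (Fin 2) F) χ)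
    (u : Matrix.SpecialLinearGroup (Fin 2) F) (hu : (u : Matrix (Fin 2) (Fin 2) F) = !![1, 1; 0, 1]) :
    (χ 1 = (Fintype.card F : ℂ) + 1 → χ u = 1) ∧ (χ 1 = (Fintype.card F : ℂ) - 1 → χ u = -1) := by
  classical
  have hgl : Matrix.SpecialLinearGroup.toGL u = Helper13.uMat (1 : F) := by
    apply Matrix.GeneralLinearGroup.ext
    intro i j
    rw [Helper13.uMat_coe, ← hu]
    rfl
  constructor
  · intro hdeg
    obtain ⟨γ, _, rfl⟩ := Helper13.irr_deg_q_add_one hχ hdeg
    have h := congrFun (Helper13.resS_psFun γ 1) u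
    rw [inv_one, mul_one, Helper13.resS_apply, hgl, Helper13.psFun_uMat] at h
    exact h.symm
  · intro hdeg
    obtain ⟨ψ, hψ, hc, rfl⟩ := Helper13.irr_deg_q_sub_one hq hχ hdeg
    rw [Helper13.resS_apply, hgl]
    exact (Helper13.cusp_main.1 ψ hψ hc).2

end Cfsg.Agent.S2323
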