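import Cfsg.Statements.S2329
import Cfsg.Agent.Helper14.Mat2

set_option autoImplicit false
open Cfsg

namespace Cfsg.Agent.S2329

open Cfsg.Agent.Helper14.Mat2 in
theorem key {F : Type*} [Field F] (p : ℕ) [Fact p.Prime] [CharP F p] (g : Matrix.GeneralLinearGroup (Fin 2) F)
    (hg : orderOf g = p) : IsConj g (compGL 2 1) := by
  have hp : p.Prime := Fact.out
  have hMp : (g : Matrix (Fin 2) (Fin 2) F) ^ p = 1 := by
    have h1 : g ^ p = 1 := by rw [← hg]; exact pow_orderOf_eq_one g
    have h2 := congrArg (fun u : Matrix.GeneralLinearGroup (Fin 2) F => (u : Matrix (Fin 2) (Fin 2) F)) h1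
    simpa using h2
  have hNp : ((g : Matrix (Fin 2) (Fin 2) F) - 1) ^ p = 0 := by
    rw [sub_pow_char_of_commute p (Commute.one_right _), hMp, one_pow, sub_self]
  have hnil : IsNilpotent ((g : Matrix (Fin 2) (Fin 2) F) - 1) := ⟨p, hNp⟩
  have htr : ((g : Matrix (Fin 2) (Fin 2) F) - 1).trace = 0 :=
    (Matrix.isNilpotent_trace_of_isNilpotent hnil).eq_zero
  have hdet : ((g : Matrix (Fin 2) (Fin 2) F) - 1).det = 0 := by
    have h1 : ((g : Matrix (Fin 2) (Fin 2) F) - 1).det ^ p = 0 := by
      rw [← Matrix.det_pow, hNp, Matrix.det_zero]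
    exact pow_eq_zero_iff hp.ne_zero |>.mp h1
  rw [Matrix.trace_fin_two] at htr
  rw [Matrix.det_fin_two] at hdet
  simp only [Matrix.sub_apply, Matrix.one_apply_eq, Matrix.one_apply_ne, ne_eq, one_ne_zero,
    not_false_eq_true, zero_ne_one, sub_zero] at htr hdet
  have htrace : (g : Matrix (Fin 2) (Fin 2) F).trace = 2 := by
    rw [Matrix.trace_fin_two]
    linear_combination htr
  have hdetg : (g : Matrix (Fin 2) (Fin 2) F).det = 1 := by
    rw [Matrix.det_fin_two]
    linear_combination hdet + htr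
  have hns : (g : Matrix (Fin 2) (Fin 2) F) 1 0 ≠ 0 ∨ (g : Matrix (Fin 2) (Fin 2) F) 0 1 ≠ 0 ∨
      (g : Matrix (Fin 2) (Fin 2) F) 0 0 ≠ (g : Matrix (Fin 2) (Fin 2) F) 1 1 := by
    by_contra hcon
    push Not at hcon
    obtain ⟨h10, h01, h00⟩ := hcon
    rw [h10, h01, ← h00] at hdet
    have ha : (g : Matrix (Fin 2) (Fin 2) F) 0 0 = 1 := by
      have : ((g : Matrix (Fin 2) (Fin 2) F) 0 0 - 1) ^ 2 = 0 := by linear_combination hdet
      exact sub_eq_zero.mp (pow_eq_zero_iff (two_ne_zero) |>.mp this)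
    have hg1 : g = 1 := by
      apply Matrix.GeneralLinearGroup.ext
      intro i j
      fin_cases i <;> fin_cases j <;> simp [h10, h01, ← h00, ha]
    rw [hg1, orderOf_one] at hg
    exact hp.one_lt.ne hg
  have hc := isConj_compGL g hns
  have hdu : Matrix.GeneralLinearGroup.det g = 1 := Units.ext hdetg
  rwa [htrace, hdu] at hc


/-- Over a finite field of characteristic p, any two elements of order p of GL₂ are conjugate: there is a single conjugacy class of non-identity unipotent elements. -/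
theorem result {F : Type*} [Field F] [Fintype F] (p : ℕ) [Fact p.Prime] [CharP F p] (g h : Matrix.GeneralLinearGroup (Fin 2) F)
    (hg : orderOf g = p) (hh : orderOf h = p) : IsConj g h := by
  exact (key p g hg).trans (key p h hh).symm

end Cfsg.Agent.S2329
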