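import Cfsg.Statements.S2330
import Cfsg.Agent.Helper14.Mat2

set_option autoImplicit false
open Cfsg

namespace Cfsg.Agent.S2330

open Cfsg.Agent.Helper14.Mat2 in
theorem main {F : Type*} [Field F] [Fintype F] [DecidableEq F] :
    Nat.card (ConjClasses (Matrix.GeneralLinearGroup (Fin 2) F)) = Fintype.card F ^ 2 - 1 := by
  let φ : Fˣ ⊕ (F × Fˣ) → ConjClasses (Matrix.GeneralLinearGroup (Fin 2) F) := fun x =>
    match x with
    | Sum.inl a => ConjClasses.mk (Matrix.GeneralLinearGroup.scalar (Fin 2) a)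
    | Sum.inr td => ConjClasses.mk (compGL td.1 td.2)
  have hcentral : ∀ (a : Fˣ) (h : Matrix.GeneralLinearGroup (Fin 2) F),
      IsConj (Matrix.GeneralLinearGroup.scalar (Fin 2) a) h → h = Matrix.GeneralLinearGroup.scalar (Fin 2) a := by
    intro a h hc
    rw [isConj_iff] at hc
    obtain ⟨c, rfl⟩ := hc
    rw [← Matrix.GeneralLinearGroup.scalar_commute, mul_inv_cancel_right]
  have hinj : Function.Injective φ := by
    rintro (a | ⟨τ, δ⟩) (b | ⟨τ', δ'⟩) hab
    · have h1 := hcentral a _ (ConjClasses.mk_eq_mk_iff_isConj.mp hab)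
      have h2 := congrArg (fun M : Matrix.GeneralLinearGroup (Fin 2) F => (M : Matrix (Fin 2) (Fin 2) F) 0 0) h1
      simp only [Matrix.GeneralLinearGroup.coe_scalar, Matrix.scalar_apply, Matrix.diagonal_apply_eq] at h2
      exact congrArg Sum.inl (Units.ext h2.symm)
    · exfalso
      have h1 := hcentral a _ (ConjClasses.mk_eq_mk_iff_isConj.mp hab)
      have h2 := congrArg (fun M : Matrix.GeneralLinearGroup (Fin 2) F => (M : Matrix (Fin 2) (Fin 2) F) 1 0) h1
      simp [coe_compGL, comp_apply_one_zero] at h2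
    · exfalso
      have h1 := hcentral b _ (ConjClasses.mk_eq_mk_iff_isConj.mp hab.symm)
      have h2 := congrArg (fun M : Matrix.GeneralLinearGroup (Fin 2) F => (M : Matrix (Fin 2) (Fin 2) F) 1 0) h1
      simp [coe_compGL, comp_apply_one_zero] at h2
    · have hc : IsConj (compGL τ δ) (compGL τ' δ') := ConjClasses.mk_eq_mk_iff_isConj.mp hab
      have h1 := trace_eq_of_isConj hc
      have h2 := det_eq_of_isConj hc
      rw [coe_compGL, coe_compGL, trace_comp, trace_comp] at h1
      have h3 : (δ : F) = (δ' : F) := by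
        have := congrArg (fun u : Fˣ => (u : F)) h2
        simpa [Matrix.GeneralLinearGroup.det, coe_compGL, det_comp] using this
      rw [h1, Units.ext h3]
  have hsurj : Function.Surjective φ := by
    intro c
    obtain ⟨g, rfl⟩ := ConjClasses.mk_surjective c
    by_cases hns : (g : Matrix (Fin 2) (Fin 2) F) 1 0 ≠ 0 ∨ (g : Matrix (Fin 2) (Fin 2) F) 0 1 ≠ 0 ∨
        (g : Matrix (Fin 2) (Fin 2) F) 0 0 ≠ (g : Matrix (Fin 2) (Fin 2) F) 1 1
    · refine ⟨Sum.inr ((g : Matrix (Fin 2) (Fin 2) F).trace, Matrix.GeneralLinearGroup.det g), ?_⟩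
      exact (ConjClasses.mk_eq_mk_iff_isConj.mpr (isConj_compGL g hns)).symm
    · push Not at hns
      obtain ⟨h10, h01, h00⟩ := hns
      have hdet := Matrix.GeneralLinearGroup.det_ne_zero g
      rw [Matrix.det_fin_two, h10, h01, mul_zero, sub_zero, ← h00] at hdet
      have ha : (g : Matrix (Fin 2) (Fin 2) F) 0 0 ≠ 0 := fun h => hdet (by rw [h, mul_zero])
      refine ⟨Sum.inl (Units.mk0 _ ha), ?_⟩
      change ConjClasses.mk (Matrix.GeneralLinearGroup.scalar (Fin 2) (Units.mk0 _ ha)) = ConjClasses.mk g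
      congr 1
      apply Matrix.GeneralLinearGroup.ext
      intro i j
      fin_cases i <;> fin_cases j <;> simp [Matrix.GeneralLinearGroup.coe_scalar, h10, h01, h00]
  rw [← Nat.card_congr (Equiv.ofBijective φ ⟨hinj, hsurj⟩), Nat.card_eq_fintype_card, Fintype.card_sum,
    Fintype.card_prod, Fintype.card_units]
  have hq : 1 ≤ Fintype.card F := Fintype.card_pos
  obtain ⟨m, hm⟩ : ∃ m, Fintype.card F = m + 1 := ⟨Fintype.card F - 1, by omega⟩
  rw [hm]
  simp only [Nat.add_sub_cancel]
  have : (m + 1) ^ 2 = m + (m + 1) * m + 1 := by ring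
  omega


/-- Over a finite field with q elements, the general linear group GL₂ has exactly q² − 1 conjugacy classes. -/
theorem result {F : Type*} [Field F] [Fintype F] :
    Nat.card (ConjClasses (Matrix.GeneralLinearGroup (Fin 2) F)) = Fintype.card F ^ 2 - 1 := by
  classical
  exact main

end Cfsg.Agent.S2330
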