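import Mathlib
import Cfsg.Statements.S2364
import Cfsg.Agent.Helper2.LinGroups
-- import your own Cfsg.Agent.* helpers here

set_option autoImplicit false
open Cfsg

namespace Cfsg.Agent.S2364

open Matrix

variable {F : Type*} [Field F] [Fintype F]

theorem dvd_of_invariant {V : Type*} [AddCommGroup V] [Module F V] [FiniteDimensional F V]
    (r : ℕ) [Fact r.Prime] (S : Module.End F V) (hS : S ^ r = 1) (U : Submodule F V)
    (hU : ∀ v ∈ U, S v ∈ U) (hfix : ∀ v ∈ U, S v = v → v = 0) :
    r ∣ Fintype.card F ^ (Module.finrank F U) - 1 := by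
  classical
  have : Finite V := Module.finite_of_finite F
  have : Fintype U := Fintype.ofFinite U
  let f : Function.End U := fun v => ⟨S v, hU v v.2⟩
  have hfpow : ∀ k : ℕ, ∀ v : U, (((f ^ k) v : U) : V) = (S ^ k) v := by
    intro k
    induction k with
    | zero => intro v; rfl
    | succ k ih =>
      intro v
      rw [pow_succ', pow_succ']
      show S (((f ^ k) v : U) : V) = S ((S ^ k) v)
      rw [ih v]
  have hf : f ^ r ^ 1 = 1 := by
    rw [pow_one]
    funext v
    apply Subtype.ext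
    rw [hfpow, hS]
    rfl
  have h1 := Equiv.Perm.card_fixedPoints_modEq (p := r) (n := 1) hf
  have h2 : Fintype.card (Function.fixedPoints f) = 1 := by
    rw [Fintype.card_eq_one_iff]
    refine ⟨⟨0, ?_⟩, ?_⟩
    · show f 0 = 0
      apply Subtype.ext
      show S ((0 : U) : V) = ((0 : U) : V)
      simp
    · rintro ⟨v, hv⟩
      apply Subtype.ext
      apply Subtype.ext
      have h3 : S (v : V) = (v : V) := congrArg Subtype.val hv
      exact hfix v v.2 h3
  have h3 : Fintype.card U = Fintype.card F ^ Module.finrank F U := Module.card_eq_pow_finrank (K := F)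
  rw [h2, h3] at h1
  exact (Nat.modEq_iff_dvd' (Nat.one_le_pow _ _ Fintype.card_pos)).mp h1.symm

theorem exists_dim_lin {V : Type*} [AddCommGroup V] [Module F V] [FiniteDimensional F V]
    (p : ℕ) [Fact p.Prime] [CharP F p] (r : ℕ) [Fact r.Prime] (hrp : r ≠ p)
    (S N : Module.End F V) (hS : S ^ r = 1) (hS1 : S ≠ 1) (hN : N ^ p = 0) (hN0 : N ≠ 0)
    (hc : Commute S N) (hV : 3 ≤ Module.finrank F V) :
    ∃ i : ℕ, 1 ≤ i ∧ i + 2 ≤ Module.finrank F V ∧ r ∣ Fintype.card F ^ i - 1 := by
  classical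
  have hr0 : ((r : ℕ) : F) ≠ 0 := by
    intro h
    rw [CharP.cast_eq_zero_iff F p] at h
    exact hrp ((Nat.prime_dvd_prime_iff_eq (Fact.out) (Fact.out)).mp h).symm
  have hSN : ∀ v, N (S v) = S (N v) := fun v => by
    have h := congrArg (fun f : Module.End F V => f v) hc.eq
    simp only [Module.End.mul_apply] at h
    exact h.symm
  have hinv : ∀ v ∈ LinearMap.ker N ⊓ LinearMap.range (S - 1),
      S v ∈ LinearMap.ker N ⊓ LinearMap.range (S - 1) := by
    rintro v ⟨hv1, w, rfl⟩
    refine ⟨?_, S w, ?_⟩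
    · have hv1' : N ((S - 1) w) = 0 := hv1
      show N (S ((S - 1) w)) = 0
      rw [hSN, hv1', map_zero]
    · simp [LinearMap.sub_apply]
  have hfix : ∀ v ∈ LinearMap.ker N ⊓ LinearMap.range (S - 1), S v = v → v = 0 := by
    rintro v ⟨-, w, rfl⟩ hv
    have hSw : S w = w + (S - 1) w := by simp
    have hpow : ∀ j : ℕ, (S ^ j) w = w + j • ((S - 1) w) := by
      intro j
      induction j with
      | zero => simp
      | succ j ih =>
        rw [pow_succ', Module.End.mul_apply, ih, map_add, map_nsmul, hv, hSw, add_smul, one_smul]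
        abel
    have h1 := hpow r
    rw [hS, Module.End.one_apply] at h1
    have h2 : r • ((S - 1) w) = 0 := by
      have := h1.symm
      simpa using this
    rw [← Nat.cast_smul_eq_nsmul F] at h2
    exact (smul_eq_zero.mp h2).resolve_left hr0
  -- a nonzero vector
  have hne : LinearMap.ker N ⊓ LinearMap.range (S - 1) ≠ ⊥ := by
    have hw : ∃ w, (S - 1) w ≠ 0 := by
      by_contra hcon
      push Not at hcon
      apply hS1
      ext w
      have := hcon w
      simp only [LinearMap.sub_apply, Module.End.one_apply] at this ⊢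
      exact sub_eq_zero.mp this
    obtain ⟨w, hw⟩ := hw
    have hex : ∃ j : ℕ, (N ^ j) ((S - 1) w) = 0 := ⟨p, by rw [hN]; simp⟩
    have hj0 : Nat.find hex ≠ 0 := by
      intro h0
      have := Nat.find_spec hex
      rw [h0, pow_zero] at this
      exact hw this
    obtain ⟨j', hj'⟩ := Nat.exists_eq_succ_of_ne_zero hj0
    have hmin : (N ^ j') ((S - 1) w) ≠ 0 := Nat.find_min hex (by omega)
    have hspec : (N ^ (j' + 1)) ((S - 1) w) = 0 := by
      have := Nat.find_spec hex
      rw [hj'] at this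
      exact this
    have hcomm : Commute (N ^ j') (S - 1) :=
      ((hc.symm.pow_left j').sub_right (Commute.one_right _))
    have hmem : (N ^ j') ((S - 1) w) ∈ LinearMap.ker N ⊓ LinearMap.range (S - 1) := by
      refine ⟨?_, (N ^ j') w, ?_⟩
      · show N ((N ^ j') ((S - 1) w)) = 0
        rw [pow_succ', Module.End.mul_apply] at hspec
        exact hspec
      · have h := congrArg (fun f : Module.End F V => f w) hcomm.eq
        simp only [Module.End.mul_apply] at h
        exact h.symm
    intro hbot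
    rw [hbot, Submodule.mem_bot] at hmem
    exact hmin hmem
  have hker : LinearMap.ker N ≠ ⊤ := by
    intro h
    exact hN0 (LinearMap.ker_eq_top.mp h)
  have hd1 : 1 ≤ Module.finrank F ↥(LinearMap.ker N ⊓ LinearMap.range (S - 1)) := by
    rw [Nat.succ_le_iff, Module.finrank_pos_iff, Submodule.nontrivial_iff_ne_bot]
    exact hne
  have hd2 : Module.finrank F ↥(LinearMap.ker N) < Module.finrank F V :=
    Submodule.finrank_lt hker
  have hd3 : Module.finrank F ↥(LinearMap.ker N ⊓ LinearMap.range (S - 1))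
      ≤ Module.finrank F ↥(LinearMap.ker N) := Submodule.finrank_mono inf_le_left
  by_cases hcase : Module.finrank F ↥(LinearMap.ker N ⊓ LinearMap.range (S - 1)) + 2
      ≤ Module.finrank F V
  · exact ⟨_, hd1, hcase, dvd_of_invariant r S hS _ hinv hfix⟩
  · have heq : LinearMap.ker N ⊓ LinearMap.range (S - 1) = LinearMap.ker N :=
      Submodule.eq_of_le_of_finrank_le inf_le_left (by omega)
    have hrk : Module.finrank F ↥(LinearMap.range N) = 1 := by
      have := LinearMap.finrank_range_add_finrank_ker N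
      omega
    have hLinv : ∀ v ∈ LinearMap.range N, S v ∈ LinearMap.range N := by
      rintro v ⟨w, rfl⟩
      exact ⟨S w, hSN w⟩
    have hLker : LinearMap.range N ≤ LinearMap.ker N := by
      obtain ⟨l, hl0, hl⟩ := finrank_eq_one_iff'.mp hrk
      have hNl : N (l : V) ∈ LinearMap.range N := ⟨(l : V), rfl⟩
      obtain ⟨c, hcl⟩ := hl ⟨N (l : V), hNl⟩
      have hcl' : N (l : V) = c • (l : V) := by
        have := congrArg Subtype.val hcl
        simpa using this.symm
      have hpowl : ∀ j : ℕ, (N ^ j) (l : V) = c ^ j • (l : V) := by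
        intro j
        induction j with
        | zero => simp
        | succ j ih =>
          rw [pow_succ', Module.End.mul_apply, ih, map_smul, hcl', smul_smul, pow_succ]
      have h1 := hpowl p
      rw [hN] at h1
      have hl0' : (l : V) ≠ 0 := fun h => hl0 (Subtype.ext h)
      have hc0 : c = 0 := by
        have h2 : c ^ p • (l : V) = 0 := by rw [← h1]; simp
        rcases smul_eq_zero.mp h2 with h3 | h3
        · exact pow_eq_zero_iff (Nat.Prime.ne_zero Fact.out) |>.mp h3
        · exact absurd h3 hl0'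
      rw [hc0, zero_smul] at hcl'
      intro v hv
      obtain ⟨c', hc'⟩ := hl ⟨v, hv⟩
      have hv' : v = c' • (l : V) := by
        have := congrArg Subtype.val hc'
        simpa using this.symm
      show N v = 0
      rw [hv', map_smul, hcl', smul_zero]
    refine ⟨1, le_refl 1, by omega, ?_⟩
    have := dvd_of_invariant r S hS (LinearMap.range N) hLinv
      (fun v hv => hfix v (by rw [heq]; exact hLker hv))
    rw [hrk] at this
    exact this

theorem exists_dim_mat (p : ℕ) [Fact p.Prime] [CharP F p] (n : ℕ) (hn : 3 ≤ n) (r : ℕ)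
    [Fact r.Prime] (hrp : r ≠ p)
    (s u : Matrix (Fin n) (Fin n) F) (hs : s ^ r = 1) (hs1 : s ≠ 1) (hu : u ^ p = 1) (hu1 : u ≠ 1)
    (hc : s * u = u * s) : ∃ i : ℕ, 1 ≤ i ∧ i + 2 ≤ n ∧ r ∣ Fintype.card F ^ i - 1 := by
  classical
  have : NeZero n := ⟨by omega⟩
  have hcomm : Commute u (1 : Matrix (Fin n) (Fin n) F) := Commute.one_right u
  have hNp : (u - 1) ^ p = 0 := by
    rw [sub_pow_char_of_commute p hcomm, hu, one_pow, sub_self]
  have h := exists_dim_lin (F := F) (V := Fin n → F) p r hrp (Matrix.toLinAlgEquiv' s)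
    (Matrix.toLinAlgEquiv' (u - 1))
    (by rw [← map_pow, hs, map_one])
    (by
      intro h
      apply hs1
      apply (Matrix.toLinAlgEquiv' (R := F) (n := Fin n)).injective
      rw [h, map_one])
    (by rw [← map_pow, hNp, map_zero])
    (by
      intro h
      apply hu1
      have : u - 1 = 0 := by
        apply (Matrix.toLinAlgEquiv' (R := F) (n := Fin n)).injective
        rw [h, map_zero]
      exact sub_eq_zero.mp this)
    (by
      show Matrix.toLinAlgEquiv' s * Matrix.toLinAlgEquiv' (u - 1)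
        = Matrix.toLinAlgEquiv' (u - 1) * Matrix.toLinAlgEquiv' s
      rw [← map_mul, ← map_mul, mul_sub, sub_mul, hc, mul_one, one_mul])
    (by rw [Module.finrank_fin_fun]; exact hn)
  rw [Module.finrank_fin_fun] at h
  exact h

theorem card_dvd_of_exists {m : ℕ} (hm : 2 ≤ m) (r : ℕ) (hr : r.Prime)
    (h : (r ∣ Fintype.card F - 1) ∨
      ∃ j, j < m ∧ r ∣ Fintype.card F ^ m - Fintype.card F ^ j) :
    r ∣ Nat.card (Matrix.SpecialLinearGroup (Fin m) F) := by
  classical
  have hne : Nonempty (Fin m) := ⟨⟨0, by omega⟩⟩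
  have H : Nat.card (Matrix.SpecialLinearGroup (Fin m) F) * (Fintype.card F - 1)
      = ∏ i : Fin m, (Fintype.card F ^ m - Fintype.card F ^ (i : ℕ)) := by
    rw [← Matrix.card_GL_field, Cfsg.Agent.Helper2.card_GL_eq_card_SL_mul,
      Nat.card_eq_fintype_card (α := Fˣ), Fintype.card_units]
  have hq : 2 ≤ Fintype.card F := Fintype.one_lt_card
  by_cases h1 : r ∣ Fintype.card F - 1
  · refine dvd_trans h1 ?_
    obtain ⟨m', rfl⟩ : ∃ m', m = m' + 2 := ⟨m - 2, by omega⟩
    rw [Fin.prod_univ_castSucc, Fin.prod_univ_castSucc] at H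
    simp only [Fin.val_castSucc, Fin.val_last] at H
    have e1 : Fintype.card F ^ (m' + 2) - Fintype.card F ^ (m' + 1)
        = Fintype.card F ^ (m' + 1) * (Fintype.card F - 1) := by
      rw [Nat.mul_sub, mul_one, ← pow_succ]
    have e2 : Fintype.card F ^ (m' + 2) - Fintype.card F ^ m'
        = Fintype.card F ^ m' * (Fintype.card F + 1) * (Fintype.card F - 1) := by
      have : (Fintype.card F + 1) * (Fintype.card F - 1) = Fintype.card F ^ 2 - 1 := by
        obtain ⟨k, hk⟩ := Nat.exists_eq_add_of_le hq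
        rw [hk]
        have : 2 + k - 1 = k + 1 := by omega
        rw [this]
        have h3 : (2 + k) ^ 2 = (2 + k + 1) * (k + 1) + 1 := by ring
        rw [h3]
        simp
      rw [mul_assoc, this, Nat.mul_sub, mul_one, ← pow_add]
    rw [e1, e2] at H
    have H2 : Nat.card (Matrix.SpecialLinearGroup (Fin (m' + 2)) F) * (Fintype.card F - 1)
        = ((∏ i : Fin m', (Fintype.card F ^ (m' + 2) - Fintype.card F ^ (i : ℕ)))
          * (Fintype.card F ^ m' * (Fintype.card F + 1)) * Fintype.card F ^ (m' + 1)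
          * (Fintype.card F - 1)) * (Fintype.card F - 1) := by
      rw [H]; ring
    have H3 := Nat.eq_of_mul_eq_mul_right (by omega) H2
    rw [H3]
    exact Dvd.intro_left _ rfl
  · rcases h with h | ⟨j, hj, hdvd⟩
    · exact absurd h h1
    · have h2 : r ∣ ∏ i : Fin m, (Fintype.card F ^ m - Fintype.card F ^ (i : ℕ)) :=
        dvd_trans hdvd (Finset.dvd_prod_of_mem
          (fun i : Fin m => (Fintype.card F ^ m - Fintype.card F ^ (i : ℕ)))
          (Finset.mem_univ (⟨j, hj⟩ : Fin m)))
      rw [← H] at h2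
      exact ((Nat.Prime.dvd_mul hr).mp h2).resolve_right h1

theorem central_comm_trick {G : Type*} [Group G] (U C z : G) (p : ℕ)
    (hz : ∀ g : G, g * z = z * g) (hCU : C * U = U * C * z) (hUp : U ^ p = 1) : z ^ p = 1 := by
  have h3 : C * U * C⁻¹ = U * z := by
    have h : z * C⁻¹ = C⁻¹ * z := (hz C⁻¹).symm
    rw [hCU, mul_assoc, h]
    group
  have h4 : (C * U * C⁻¹) ^ p = 1 := by rw [conj_pow, hUp, mul_one, mul_inv_cancel]
  rw [h3, (show Commute U z from (hz U)).mul_pow, hUp, one_mul] at h4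
  exact h4

theorem exists_mats (p : ℕ) [Fact p.Prime] [CharP F p] (n : ℕ) (hn : 4 ≤ n)
    (a c : Matrix.ProjectiveSpecialLinearGroup (Fin n) F) (ha : orderOf a = p)
    (r : ℕ) [Fact r.Prime] (hc : orderOf c = r) (hac : Commute a c)
    (h1 : ¬ r ∣ Fintype.card F - 1) (hpq : p ∣ Fintype.card F) :
    ∃ s u : Matrix (Fin n) (Fin n) F, s ^ r = 1 ∧ s ≠ 1 ∧ u ^ p = 1 ∧ u ≠ 1 ∧ s * u = u * s := by
  classical
  have hr : r.Prime := Fact.out
  have hp : p.Prime := Fact.out
  have hq : 2 ≤ Fintype.card F := Fintype.one_lt_card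
  obtain ⟨A, rfl⟩ := QuotientGroup.mk_surjective a
  obtain ⟨C, rfl⟩ := QuotientGroup.mk_surjective c
  have hn0 : NeZero n := ⟨by omega⟩
  have hAp : A ^ p ∈ Subgroup.center (Matrix.SpecialLinearGroup (Fin n) F) := by
    rw [← QuotientGroup.eq_one_iff, QuotientGroup.mk_pow, ← ha]
    exact pow_orderOf_eq_one _
  obtain ⟨ζ, hζ1, hζ2⟩ := Matrix.SpecialLinearGroup.mem_center_iff.mp hAp
  rw [Fintype.card_fin] at hζ1
  have hζ0 : ζ ≠ 0 := by
    rintro rfl
    rw [zero_pow (by omega)] at hζ1
    exact zero_ne_one hζ1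
  have hUp : (A ^ (Fintype.card F - 1)) ^ p = 1 := by
    rw [← pow_mul, mul_comm, pow_mul]
    apply Subtype.ext
    rw [Matrix.SpecialLinearGroup.coe_pow, ← hζ2, ← map_pow,
      FiniteField.pow_card_sub_one_eq_one ζ hζ0, map_one]
    rfl
  have hpq1 : ¬ p ∣ Fintype.card F - 1 := by
    intro h
    have h2 : p ∣ Fintype.card F - (Fintype.card F - 1) := Nat.dvd_sub hpq h
    have h3 : Fintype.card F - (Fintype.card F - 1) = 1 := by omega
    rw [h3] at h2
    exact hp.one_lt.ne' (Nat.dvd_one.mp h2)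
  have hU1 : A ^ (Fintype.card F - 1) ≠ 1 := by
    intro h
    have h2 : (QuotientGroup.mk A : Matrix.ProjectiveSpecialLinearGroup (Fin n) F)
        ^ (Fintype.card F - 1) = 1 := by
      rw [← QuotientGroup.mk_pow, h]
      rfl
    have h3 := orderOf_dvd_of_pow_eq_one h2
    rw [ha] at h3
    exact hpq1 h3
  have hcomm : (QuotientGroup.mk (A ^ (Fintype.card F - 1) * C) :
      Matrix.ProjectiveSpecialLinearGroup (Fin n) F)
      = QuotientGroup.mk (C * A ^ (Fintype.card F - 1)) := by
    rw [QuotientGroup.mk_mul, QuotientGroup.mk_mul, QuotientGroup.mk_pow]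
    exact (hac.pow_left _).eq
  generalize A ^ (Fintype.card F - 1) = U at hUp hU1 hcomm
  rw [QuotientGroup.eq] at hcomm
  obtain ⟨ξ, hξ1, hξ2⟩ := Matrix.SpecialLinearGroup.mem_center_iff.mp hcomm
  have hzc := Subgroup.mem_center_iff.mp hcomm
  have hzp := central_comm_trick U C _ p hzc (by group) hUp
  have hξp : ξ ^ p = 1 := by
    have h := congrArg (fun M : Matrix.SpecialLinearGroup (Fin n) F =>
      (M : Matrix (Fin n) (Fin n) F) 0 0) hzp
    simp only [Matrix.SpecialLinearGroup.coe_pow, Matrix.SpecialLinearGroup.coe_one] at h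
    rw [← hξ2, ← map_pow] at h
    simpa using h
  have hξ : ξ = 1 := by
    apply frobenius_inj F p
    rw [frobenius_def, frobenius_def, hξp, one_pow]
  have hz1 : (U * C)⁻¹ * (C * U) = 1 := by
    apply Subtype.ext
    rw [← hξ2, hξ, map_one]
    rfl
  have hCU : U * C = C * U := inv_mul_eq_one.mp hz1
  have hCr : C ^ r ∈ Subgroup.center (Matrix.SpecialLinearGroup (Fin n) F) := by
    rw [← QuotientGroup.eq_one_iff, QuotientGroup.mk_pow, ← hc]
    exact pow_orderOf_eq_one _
  obtain ⟨lam, hlam1, hlam2⟩ := Matrix.SpecialLinearGroup.mem_center_iff.mp hCr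
  rw [Fintype.card_fin] at hlam1
  have hlam0 : lam ≠ 0 := by
    rintro rfl
    rw [zero_pow (by omega)] at hlam1
    exact zero_ne_one hlam1
  have hcop : Nat.Coprime (Nat.card Fˣ) r := by
    rw [Nat.card_eq_fintype_card, Fintype.card_units]
    exact ((Nat.Prime.coprime_iff_not_dvd hr).mpr h1).symm
  obtain ⟨μ, hμ⟩ : ∃ μ : Fˣ, μ ^ r = Units.mk0 lam hlam0 :=
    ⟨(powCoprime hcop).symm (Units.mk0 lam hlam0), (powCoprime hcop).apply_symm_apply _⟩
  have hμ' : (μ : F) ^ r = lam := by
    have := congrArg Units.val hμ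
    simpa using this
  have hCr' : (C : Matrix (Fin n) (Fin n) F) ^ r = lam • (1 : Matrix (Fin n) (Fin n) F) := by
    rw [← Matrix.SpecialLinearGroup.coe_pow, ← hlam2, Matrix.scalar_apply,
      Matrix.smul_one_eq_diagonal]
  refine ⟨((μ : F))⁻¹ • (C : Matrix (Fin n) (Fin n) F), (U : Matrix (Fin n) (Fin n) F),
    ?_, ?_, ?_, ?_, ?_⟩
  · rw [smul_pow, hCr', smul_smul, inv_pow, hμ', inv_mul_cancel₀ hlam0, one_smul]
  · intro h
    have hCval : (C : Matrix (Fin n) (Fin n) F) = (μ : F) • (1 : Matrix (Fin n) (Fin n) F) := by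
      rw [← h, smul_smul, mul_inv_cancel₀ μ.ne_zero, one_smul]
    have hCc : C ∈ Subgroup.center (Matrix.SpecialLinearGroup (Fin n) F) := by
      rw [Subgroup.mem_center_iff]
      intro g
      apply Subtype.ext
      rw [Matrix.SpecialLinearGroup.coe_mul, Matrix.SpecialLinearGroup.coe_mul, hCval,
        Matrix.mul_smul, Matrix.smul_mul, mul_one, one_mul]
    have h5 : (QuotientGroup.mk C : Matrix.ProjectiveSpecialLinearGroup (Fin n) F) = 1 :=
      (QuotientGroup.eq_one_iff C).mpr hCc
    rw [h5, orderOf_one] at hc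
    exact hr.one_lt.ne' hc.symm
  · rw [← Matrix.SpecialLinearGroup.coe_pow, hUp]
    rfl
  · intro h
    exact hU1 (Subtype.ext h)
  · rw [Matrix.smul_mul, Matrix.mul_smul, ← Matrix.SpecialLinearGroup.coe_mul,
      ← Matrix.SpecialLinearGroup.coe_mul, hCU]

theorem main (p : ℕ) [Fact p.Prime] [CharP F p] (n : ℕ) (hn : 4 ≤ n)
    (a b : Matrix.ProjectiveSpecialLinearGroup (Fin n) F) (ha : orderOf a = p) (hab : Commute a b)
    (r : ℕ) [Fact r.Prime] (hrdvd : r ∣ orderOf b) (hb0 : orderOf b ≠ 0) :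
    r ∣ Nat.card (Matrix.SpecialLinearGroup (Fin (n - 2)) F) := by
  classical
  have hr : r.Prime := Fact.out
  have hp : p.Prime := Fact.out
  have hq : 2 ≤ Fintype.card F := Fintype.one_lt_card
  apply card_dvd_of_exists (by omega) r hr
  by_cases h1 : r ∣ Fintype.card F - 1
  · exact Or.inl h1
  right
  have hpq : p ∣ Fintype.card F := by
    obtain ⟨k, -, hk⟩ := FiniteField.card F p
    rw [hk]
    exact dvd_pow_self p k.ne_zero
  by_cases hrp : r = p
  · refine ⟨1, by omega, ?_⟩
    subst hrp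
    exact Nat.dvd_sub (dvd_pow hpq (by omega)) (by simpa using hpq)
  · have hco : orderOf (b ^ (orderOf b / r)) = r := orderOf_pow_orderOf_div hb0 hrdvd
    obtain ⟨s, u, hs, hs1, hu, hu1, hsu⟩ := exists_mats p n hn a (b ^ (orderOf b / r)) ha r hco
      (hab.pow_right _) h1 hpq
    obtain ⟨i, hi1, hi2, hi3⟩ := exists_dim_mat p n (by omega) r hrp s u hs hs1 hu hu1 hsu
    refine ⟨n - 2 - i, by omega, ?_⟩
    have e : Fintype.card F ^ (n - 2) - Fintype.card F ^ (n - 2 - i)
        = Fintype.card F ^ (n - 2 - i) * (Fintype.card F ^ i - 1) := by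
      rw [Nat.mul_sub, mul_one, ← pow_add]
      congr 2
      omega
    rw [e]
    exact dvd_mul_of_dvd_right hi3 _

/-- Let F be a finite field of characteristic p, n ≥ 4, and let a, b be commuting elements of PSL(n, F) with a of order p. Then every prime divisor of the order of b divides the order of SL(n − 2, F). -/
theorem result {F : Type*} [Field F] [Fintype F] (p : ℕ) [Fact p.Prime] [CharP F p] (n : ℕ) (hn : 4 ≤ n)
    (a b : Matrix.ProjectiveSpecialLinearGroup (Fin n) F) (ha : orderOf a = p) (hab : Commute a b) :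
    (orderOf b).primeFactors ⊆ (Nat.card (Matrix.SpecialLinearGroup (Fin (n - 2)) F)).primeFactors := by
  classical
  intro r hr
  rw [Nat.mem_primeFactors] at hr ⊢
  obtain ⟨hrprime, hrdvd, hne⟩ := hr
  have : Fact r.Prime := ⟨hrprime⟩
  exact ⟨hrprime, main p n hn a b ha hab r hrdvd hne, Nat.card_pos.ne'⟩

end Cfsg.Agent.S2364
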