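import Cfsg.Statements.S2367
import Mathlib
-- import your own Cfsg.Agent.* helpers here

set_option autoImplicit false
open Cfsg

namespace Cfsg.Agent.S2367

def primesL : List ℕ := [2,3,5,7,11,13,17,19,23,29,31,37,41,43,47,59,67,71]

def chk (N a : ℕ) : Bool :=
  decide ((primesL.prod ^ 46) % N = 0) && decide (N % 2 ^ a = 0) &&
    primesL.all (fun q => decide (q = 2) || decide (N % q ^ 3 ≠ 0) || decide (N % q ^ 4 = 0)
      || decide (q ^ 3 < 2 ^ a))

theorem mem_primesL_of_dvd {N : ℕ} (h : (primesL.prod ^ 46) % N = 0) {p : ℕ} (hp : p.Prime)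
    (hpN : p ∣ N) : p ∈ primesL := by
  have h1 : p ∣ primesL.prod ^ 46 := dvd_trans hpN (Nat.dvd_of_mod_eq_zero h)
  have h2 : p ∣ primesL.prod := hp.dvd_of_dvd_pow h1
  obtain ⟨q, hq, hpq⟩ := (Prime.dvd_prod_iff hp.prime).1 h2
  have hqp : q.Prime := by
    simp only [primesL, List.mem_cons, List.not_mem_nil, or_false] at hq
    rcases hq with rfl | rfl | rfl | rfl | rfl | rfl | rfl | rfl | rfl | rfl | rfl | rfl | rfl
      | rfl | rfl | rfl | rfl | rfl <;> norm_num
  rw [(Nat.prime_dvd_prime_iff_eq hp hqp).1 hpq]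
  exact hq

theorem spor_aux (N a : ℕ) (hN : N ≠ 0) (hc : chk N a = true) (p : ℕ) (hp : p.Prime)
    (hodd : p ≠ 2) (h3 : N.factorization p = 3) : p ^ 3 < 2 ^ N.factorization 2 := by
  simp only [chk, Bool.and_eq_true, decide_eq_true_eq, List.all_eq_true, Bool.or_eq_true] at hc
  obtain ⟨⟨hc1, hc2⟩, hc3⟩ := hc
  have hpN : p ∣ N := by
    apply Nat.dvd_of_factorization_pos
    omega
  have hmem := mem_primesL_of_dvd hc1 hp hpN
  have h2a : a ≤ N.factorization 2 :=
    (Nat.Prime.pow_dvd_iff_le_factorization Nat.prime_two hN).1 (Nat.dvd_of_mod_eq_zero hc2)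
  have h3' : p ^ 3 ∣ N := (Nat.Prime.pow_dvd_iff_le_factorization hp hN).2 (by omega)
  have h4' : ¬ p ^ 4 ∣ N := fun h => by
    have := (Nat.Prime.pow_dvd_iff_le_factorization hp hN).1 h
    omega
  have := hc3 p hmem
  rcases this with ((h | h) | h) | h
  · exact absurd h hodd
  · exact absurd (Nat.mod_eq_zero_of_dvd h3') h
  · exact absurd (Nat.dvd_of_mod_eq_zero h) h4'
  · exact lt_of_lt_of_le h (Nat.pow_le_pow_right (by norm_num) h2a)

theorem cube_lt_four_pow : ∀ k : ℕ, 4 ≤ k → (k + 1) ^ 3 < 4 ^ k := by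
  intro k hk
  induction k, hk using Nat.le_induction with
  | base => norm_num
  | succ k hk ih =>
    have : (k + 1 + 1) ^ 3 ≤ 4 * (k + 1) ^ 3 := by nlinarith [sq_nonneg k, hk]
    calc (k + 1 + 1) ^ 3 ≤ 4 * (k + 1) ^ 3 := this
      _ < 4 * 4 ^ k := by omega
      _ = 4 ^ (k + 1) := by ring

theorem alt_aux (n : ℕ) (hn : 5 ≤ n) (M : ℕ) (hM : 2 * M = n.factorial)
    (p : ℕ) (hp : p.Prime) (hodd : p ≠ 2) (h3 : M.factorization p = 3) :
    p ^ 3 < 2 ^ M.factorization 2 := by
  have hM0 : M ≠ 0 := by
    rintro rfl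
    exact absurd hM.symm (Nat.factorial_ne_zero n)
  have hfp : n.factorial.factorization p = 3 := by
    rw [← hM, Nat.factorization_mul (by norm_num) hM0, Finsupp.add_apply, h3,
      Nat.factorization_eq_zero_of_not_dvd (n := 2) (p := p)]
    intro h
    exact hodd ((Nat.prime_dvd_prime_iff_eq hp Nat.prime_two).1 h)
  have hf2 : n.factorial.factorization 2 = 1 + M.factorization 2 := by
    rw [← hM, Nat.factorization_mul (by norm_num) hM0, Finsupp.add_apply,
      Nat.Prime.factorization_self Nat.prime_two]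
  have hp2 := hp.two_le
  -- n / p ≤ 3
  have hnp : p ≤ n := by
    by_contra hlt
    rw [Nat.factorization_factorial_eq_zero_of_lt (by omega)] at hfp
    omega
  have hdiv : n / p ≤ 3 := by
    have hL := Nat.factorization_factorial hp (n := n) (b := Nat.log p n + 1) (Nat.lt_succ_self _)
    rw [hfp] at hL
    have h1 : 1 ∈ Finset.Ico 1 (Nat.log p n + 1) := by
      rw [Finset.mem_Ico]
      refine ⟨le_rfl, ?_⟩
      have : 1 ≤ Nat.log p n := by
        apply Nat.le_log_of_pow_le hp.one_lt
        simpa using hnp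
      omega
    have := Finset.single_le_sum (f := fun i => n / p ^ i) (fun i _ => Nat.zero_le _) h1
    simp only [pow_one] at this
    omega
  have hn4 : n < 4 * p := by
    have := Nat.lt_succ_iff.2 hdiv
    rw [Nat.div_lt_iff_lt_mul hp.pos] at this
    omega
  -- p ≠ 3
  have hp3 : p ≠ 3 := by
    rintro rfl
    have hL := Nat.factorization_factorial hp (n := n) (b := 3)
      (Nat.log_lt_of_lt_pow (by omega) (by omega))
    rw [hfp] at hL
    have : ∑ i ∈ Finset.Ico 1 3, n / 3 ^ i = n / 3 + n / 9 := by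
      simp [Finset.sum_Ico_eq_sum_range, Finset.sum_range_succ]
    rw [this] at hL
    omega
  have hp5 : 5 ≤ p := by
    rcases Nat.lt_or_ge p 5 with h | h
    · interval_cases p
      · exact absurd rfl hodd
      · exact absurd rfl hp3
      · exact absurd hp (by norm_num)
    · exact h
  have hdiv3 : n / p = 3 := by
    have hL := Nat.factorization_factorial hp (n := n) (b := 2)
      (Nat.log_lt_of_lt_pow (by omega) (by nlinarith))
    rw [hfp] at hL
    simpa using hL.symm
  have h3p : 3 * p ≤ n := by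
    have := Nat.div_mul_le_self n p
    rw [hdiv3] at this
    exact this
  -- 2-part
  have h2L := Nat.factorization_factorial Nat.prime_two (n := n) (b := Nat.log 2 n + 1)
    (Nat.lt_succ_self _)
  have hlog : 3 ≤ Nat.log 2 n := by
    apply Nat.le_log_of_pow_le (by norm_num)
    omega
  have hsub : Finset.Ico 1 3 ⊆ Finset.Ico 1 (Nat.log 2 n + 1) := by
    apply Finset.Ico_subset_Ico le_rfl
    omega
  have hge := Finset.sum_le_sum_of_subset (f := fun i => n / 2 ^ i) hsub
  have hs : ∑ i ∈ Finset.Ico 1 3, n / 2 ^ i = n / 2 + n / 4 := by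
    simp [Finset.sum_Ico_eq_sum_range, Finset.sum_range_succ]
  rw [hs, ← h2L, hf2] at hge
  have hv : 2 * (p - 1) ≤ M.factorization 2 := by omega
  have hk := cube_lt_four_pow (p - 1) (by omega)
  have hpp : p - 1 + 1 = p := by omega
  rw [hpp] at hk
  calc p ^ 3 < 4 ^ (p - 1) := hk
    _ = 2 ^ (2 * (p - 1)) := by rw [pow_mul]; norm_num
    _ ≤ 2 ^ M.factorization 2 := Nat.pow_le_pow_right (by norm_num) hv

/-- Let G be an alternating group of degree at least 5 or a simple group with the order of one of the 26 sporadic groups, and let p be an odd prime such that p³ is the exact power of p dividing the order of G. Then p³ is less than the 2-part of the order of G. -/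
theorem result {G : Type*} [Group G] [Finite G] (hG : Cfsg.IsAlternating G ∨ Cfsg.IsSporadic G)
    (p : ℕ) (hp : p.Prime) (hodd : p ≠ 2) (h3 : (Nat.card G).factorization p = 3) :
    p ^ 3 < 2 ^ (Nat.card G).factorization 2 := by
  rcases hG with ⟨n, hn, ⟨e⟩⟩ | hS
  · haveI : Nontrivial (Fin n) := Fin.nontrivial_iff_two_le.2 (by omega)
    have hcard : 2 * Nat.card G = n.factorial := by
      rw [Nat.card_congr e.toEquiv, two_mul_nat_card_alternatingGroup, Nat.card_perm]
      simp
    exact alt_aux n hn _ hcard p hp hodd h3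
  · unfold Cfsg.IsSporadic at hS
    rcases hS with h | h | h | h | h | h | h | h | h | h | h | h | h | h | h | h | h | h | h | h
      | h | h | h | h | h | h
    · obtain ⟨-, hc⟩ := h
      rw [hc] at h3 ⊢
      exact spor_aux 7920 4 (by norm_num) (by decide +kernel) p hp hodd h3
    · obtain ⟨-, hc⟩ := h
      rw [hc] at h3 ⊢
      exact spor_aux 95040 6 (by norm_num) (by decide +kernel) p hp hodd h3
    · obtain ⟨-, hc⟩ := h
      rw [hc] at h3 ⊢
      exact spor_aux 443520 7 (by norm_num) (by decide +kernel) p hp hodd h3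
    · obtain ⟨-, hc⟩ := h
      rw [hc] at h3 ⊢
      exact spor_aux 10200960 7 (by norm_num) (by decide +kernel) p hp hodd h3
    · obtain ⟨-, hc⟩ := h
      rw [hc] at h3 ⊢
      exact spor_aux 244823040 10 (by norm_num) (by decide +kernel) p hp hodd h3
    · obtain ⟨-, hc⟩ := h
      rw [hc] at h3 ⊢
      exact spor_aux 175560 3 (by norm_num) (by decide +kernel) p hp hodd h3
    · obtain ⟨-, hc⟩ := h
      rw [hc] at h3 ⊢
      exact spor_aux 604800 7 (by norm_num) (by decide +kernel) p hp hodd h3
    · obtain ⟨-, hc⟩ := h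
      rw [hc] at h3 ⊢
      exact spor_aux 50232960 7 (by norm_num) (by decide +kernel) p hp hodd h3
    · obtain ⟨-, hc⟩ := h
      rw [hc] at h3 ⊢
      exact spor_aux 86775571046077562880 21 (by norm_num) (by decide +kernel) p hp hodd h3
    · obtain ⟨-, hc⟩ := h
      rw [hc] at h3 ⊢
      exact spor_aux 4157776806543360000 21 (by norm_num) (by decide +kernel) p hp hodd h3
    · obtain ⟨-, hc⟩ := h
      rw [hc] at h3 ⊢
      exact spor_aux 42305421312000 18 (by norm_num) (by decide +kernel) p hp hodd h3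
    · obtain ⟨-, hc⟩ := h
      rw [hc] at h3 ⊢
      exact spor_aux 495766656000 10 (by norm_num) (by decide +kernel) p hp hodd h3
    · obtain ⟨-, hc⟩ := h
      rw [hc] at h3 ⊢
      exact spor_aux 64561751654400 17 (by norm_num) (by decide +kernel) p hp hodd h3
    · obtain ⟨-, hc⟩ := h
      rw [hc] at h3 ⊢
      exact spor_aux 4089470473293004800 18 (by norm_num) (by decide +kernel) p hp hodd h3
    · obtain ⟨-, hc⟩ := h
      rw [hc] at h3 ⊢
      exact spor_aux 1255205709190661721292800 21 (by norm_num) (by decide +kernel) p hp hodd h3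
    · obtain ⟨-, hc⟩ := h
      rw [hc] at h3 ⊢
      exact spor_aux 44352000 9 (by norm_num) (by decide +kernel) p hp hodd h3
    · obtain ⟨-, hc⟩ := h
      rw [hc] at h3 ⊢
      exact spor_aux 898128000 7 (by norm_num) (by decide +kernel) p hp hodd h3
    · obtain ⟨-, hc⟩ := h
      rw [hc] at h3 ⊢
      exact spor_aux 4030387200 10 (by norm_num) (by decide +kernel) p hp hodd h3
    · obtain ⟨-, hc⟩ := h
      rw [hc] at h3 ⊢
      exact spor_aux 145926144000 14 (by norm_num) (by decide +kernel) p hp hodd h3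
    · obtain ⟨-, hc⟩ := h
      rw [hc] at h3 ⊢
      exact spor_aux 448345497600 13 (by norm_num) (by decide +kernel) p hp hodd h3
    · obtain ⟨-, hc⟩ := h
      rw [hc] at h3 ⊢
      exact spor_aux 460815505920 9 (by norm_num) (by decide +kernel) p hp hodd h3
    · obtain ⟨-, hc⟩ := h
      rw [hc] at h3 ⊢
      exact spor_aux 273030912000000 14 (by norm_num) (by decide +kernel) p hp hodd h3
    · obtain ⟨-, hc⟩ := h
      rw [hc] at h3 ⊢
      exact spor_aux 51765179004000000 8 (by norm_num) (by decide +kernel) p hp hodd h3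
    · obtain ⟨-, hc⟩ := h
      rw [hc] at h3 ⊢
      exact spor_aux 90745943887872000 15 (by norm_num) (by decide +kernel) p hp hodd h3
    · obtain ⟨-, hc⟩ := h
      rw [hc] at h3 ⊢
      exact spor_aux 4154781481226426191177580544000000 41 (by norm_num) (by decide +kernel) p hp hodd h3
    · obtain ⟨-, hc⟩ := h
      rw [hc] at h3 ⊢
      exact spor_aux 808017424794512875886459904961710757005754368000000000 46 (by norm_num) (by decide +kernel) p hp hodd h3

end Cfsg.Agent.S2367
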