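import Cfsg.Statements.S2368
import Mathlib
-- import your own Cfsg.Agent.* helpers here

set_option autoImplicit false
open Cfsg

namespace Cfsg.Agent.S2368

theorem nilp_pow {F : Type*} [Field F] {m : ℕ} (M : Matrix (Fin m) (Fin m) F)
    (h : IsNilpotent M) : M ^ m = 0 := by
  have h1 := Matrix.isNilpotent_charpoly_sub_pow_of_isNilpotent h
  have h2 : M.charpoly = Polynomial.X ^ m := by
    have := h1.eq_zero
    rw [sub_eq_zero] at this
    simpa using this
  have h3 := Matrix.aeval_self_charpoly M
  rw [h2] at h3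
  simpa using h3

def jb (F : Type*) [Field F] (m : ℕ) : Matrix (Fin m) (Fin m) F :=
  Matrix.of (fun i j => if j.val = i.val + 1 then 1 else 0)

theorem jb_pow (F : Type*) [Field F] (m k : ℕ) :
    (jb F m) ^ k = Matrix.of (fun i j : Fin m => if j.val = i.val + k then (1 : F) else 0) := by
  induction k with
  | zero =>
    ext i j
    simp [Matrix.one_apply, Fin.ext_iff, eq_comm]
  | succ k ih =>
    rw [pow_succ, ih]
    ext i j
    simp only [Matrix.mul_apply, Matrix.of_apply, jb]
    by_cases h : j.val = i.val + (k + 1)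
    · rw [if_pos h]
      rw [Finset.sum_eq_single (⟨i.val + k, by omega⟩ : Fin m)]
      · have : j.val = i.val + k + 1 := by omega
        simp [this]
      · intro l _ hl
        have : ¬ l.val = i.val + k := fun h' => hl (Fin.ext h')
        simp [this]
      · simp
    · rw [if_neg h]
      apply Finset.sum_eq_zero
      intro l _
      by_cases h1 : l.val = i.val + k
      · have : ¬ j.val = l.val + 1 := by omega
        simp [this]
      · simp [h1]

/-- Let F be a finite field of characteristic p and m ≥ 1. Every element of GL(m, F) of p-power order has order less than p·m, and GL(m, F) has an element of p-power order at least m; so the largest order of a p-element of GL(m, F) is the least power of p that is at least m. -/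
theorem result {F : Type*} [Field F] [Fintype F] (p : ℕ) [Fact p.Prime] [CharP F p] (m : ℕ) (hm : 1 ≤ m) :
    (∀ g : Matrix.GeneralLinearGroup (Fin m) F, (∃ j : ℕ, orderOf g = p ^ j) → orderOf g < p * m) ∧
      ∃ g : Matrix.GeneralLinearGroup (Fin m) F, (∃ j : ℕ, orderOf g = p ^ j) ∧ m ≤ orderOf g := by

  haveI : Nonempty (Fin m) := ⟨⟨0, hm⟩⟩
  have hp := (Fact.out : p.Prime)
  obtain ⟨i, hi1, hi2⟩ : ∃ i, m ≤ p ^ i ∧ p ^ i < p * m := by
    have hex : ∃ i, m ≤ p ^ i := ⟨m, (Nat.lt_pow_self hp.one_lt).le⟩
    refine ⟨Nat.find hex, Nat.find_spec hex, ?_⟩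
    rcases Nat.eq_zero_or_pos (Nat.find hex) with h0 | hpos
    · rw [h0, pow_zero]
      nlinarith [hp.two_le]
    · have hmin := Nat.find_min hex (m := Nat.find hex - 1) (by omega)
      push Not at hmin
      have hsplit : Nat.find hex = (Nat.find hex - 1) + 1 := by omega
      rw [hsplit, pow_succ']
      exact Nat.mul_lt_mul_of_pos_left hmin hp.pos
  have key : ∀ A : Matrix (Fin m) (Fin m) F, IsNilpotent (A - 1) → A ^ (p ^ i) = 1 := by
    intro A hA
    have h1 := nilp_pow (A - 1) hA
    have h2 : (A - 1) ^ (p ^ i) = 0 := by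
      rw [← Nat.sub_add_cancel hi1, pow_add, h1, mul_zero]
    rw [sub_pow_char_pow_of_commute p i (Commute.one_right A), one_pow, sub_eq_zero] at h2
    exact h2
  refine ⟨?_, ?_⟩
  · rintro g ⟨j, hj⟩
    have hA : IsNilpotent ((g : Matrix (Fin m) (Fin m) F) - 1) := by
      refine ⟨p ^ j, ?_⟩
      rw [sub_pow_char_pow_of_commute p j (Commute.one_right _), one_pow, sub_eq_zero, ← hj,
        ← Units.val_pow_eq_pow_val, pow_orderOf_eq_one, Units.val_one]
    have h1 := key _ hA
    have h2 : g ^ (p ^ i) = 1 :=
      Units.ext (by rw [Units.val_pow_eq_pow_val, h1, Units.val_one])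
    have h3 := orderOf_le_of_pow_eq_one (pow_pos hp.pos i) h2
    omega
  · have hN : IsNilpotent (jb F m) := by
      refine ⟨m, ?_⟩
      rw [jb_pow]
      ext a b
      have : ¬ b.val = a.val + m := by omega
      simp [this]
    have hu : IsUnit (1 + jb F m) := hN.isUnit_one_add
    have h1 : (1 + jb F m) ^ (p ^ i) = 1 := key _ (by simpa using hN)
    have h2 : hu.unit ^ (p ^ i) = 1 :=
      Units.ext (by rw [Units.val_pow_eq_pow_val, IsUnit.unit_spec, h1, Units.val_one])
    obtain ⟨j, -, hj⟩ := (Nat.dvd_prime_pow hp).1 (orderOf_dvd_of_pow_eq_one h2)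
    refine ⟨hu.unit, ⟨j, hj⟩, ?_⟩
    by_contra hlt
    push Not at hlt
    rw [hj] at hlt
    have h3 : hu.unit ^ (p ^ j) = 1 := by rw [← hj]; exact pow_orderOf_eq_one _
    have h4 : (1 + jb F m) ^ (p ^ j) = 1 := by
      have := congrArg Units.val h3
      rwa [Units.val_pow_eq_pow_val, IsUnit.unit_spec, Units.val_one] at this
    rw [add_pow_char_pow_of_commute p j (Commute.one_left _), one_pow, add_eq_left, jb_pow]
      at h4
    have h5 := congrFun (congrFun h4 ⟨0, hm⟩) ⟨p ^ j, hlt⟩
    simp at h5

end Cfsg.Agent.S2368
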