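import Cfsg.Statements.S2388
import Cfsg.Agent.Helper15.SemiConj1
import Cfsg.Agent.Helper15.RegUnipClass
import Cfsg.Agent.Helper15.SemiDet

set_option autoImplicit false
open Cfsg

namespace Cfsg.Agent.S2388

/-- In `SL_n(q)`, `q` a power of the prime `p`, two elements of order prime to `p` with the same characteristic polynomial are conjugate in `SL_n(q)` (not merely in `GL_n`). -/
theorem result {F : Type*} [Field F] [Fintype F] (p : ℕ) [Fact p.Prime] [CharP F p] (n : ℕ)
    (g h : Matrix.SpecialLinearGroup (Fin n) F) (hg : (orderOf g).Coprime p) (hh : (orderOf h).Coprime p)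
    (hc : (g : Matrix (Fin n) (Fin n) F).charpoly = (h : Matrix (Fin n) (Fin n) F).charpoly) : IsConj g h := by
  classical
  rw [Cfsg.Agent.Helper15.sl_isConj_iff]
  have hp : p.Prime := Fact.out
  have hm : ((orderOf g * orderOf h : ℕ) : F) ≠ 0 := by
    intro h0
    rw [CharP.cast_eq_zero_iff F p] at h0
    rcases (Nat.Prime.dvd_mul hp).1 h0 with h1 | h1
    · have h2 := Nat.dvd_gcd h1 (dvd_refl p)
      rw [Nat.Coprime] at hg
      rw [hg] at h2
      exact hp.not_dvd_one h2
    · have h2 := Nat.dvd_gcd h1 (dvd_refl p)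
      rw [Nat.Coprime] at hh
      rw [hh] at h2
      exact hp.not_dvd_one h2
  have hA : (g : Matrix (Fin n) (Fin n) F) ^ (orderOf g * orderOf h) = 1 := by
    rw [← Matrix.SpecialLinearGroup.coe_pow, pow_mul, pow_orderOf_eq_one, one_pow,
      Matrix.SpecialLinearGroup.coe_one]
  have hB : (h : Matrix (Fin n) (Fin n) F) ^ (orderOf g * orderOf h) = 1 := by
    rw [← Matrix.SpecialLinearGroup.coe_pow, mul_comm, pow_mul, pow_orderOf_eq_one, one_pow,
      Matrix.SpecialLinearGroup.coe_one]
  obtain ⟨P, P', hPP', hP'P, hPA⟩ := Cfsg.Agent.Helper15.gl_conj_of_charpoly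
    (orderOf g * orderOf h) hm _ _ hA hB hc
  have hx : (orderOf (Matrix.SpecialLinearGroup.toGL g)).Coprime p := by
    rw [orderOf_injective Matrix.SpecialLinearGroup.toGL
      Matrix.SpecialLinearGroup.toGL_injective g]
    exact hg
  obtain ⟨k, hk, hkc⟩ := Cfsg.Agent.Helper15.sl_conj_of_semisimple
    (Matrix.SpecialLinearGroup.toGL g) (⟨P, P', hPP', hP'P⟩ : GL (Fin n) F) hx
  refine ⟨k, Units.ext hk, ?_⟩
  rw [hkc]
  apply mul_inv_eq_iff_eq_mul.2
  apply Units.ext
  exact hPA

end Cfsg.Agent.S2388
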