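import Mathlib
import Cfsg.Statements.S2391
-- import your own Cfsg.Agent.* helpers here

set_option autoImplicit false
open Cfsg

namespace Cfsg.Agent.S2391

open Matrix

variable {F : Type*} [Field F] {n : ℕ}

/-- the next term of the fixed-point series -/
def next (U : Subgroup (Matrix.SpecialLinearGroup (Fin n) F)) (W : Submodule F (Fin n → F)) :
    Submodule F (Fin n → F) :=
  ⨅ u : U, W.comap (Matrix.mulVecLin ((u : Matrix.SpecialLinearGroup (Fin n) F) :
    Matrix (Fin n) (Fin n) F) - 1)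

theorem mem_next (U : Subgroup (Matrix.SpecialLinearGroup (Fin n) F)) (W : Submodule F (Fin n → F))
    (v : Fin n → F) :
    v ∈ next U W ↔ ∀ u ∈ U, (u : Matrix (Fin n) (Fin n) F).mulVec v - v ∈ W := by
  simp only [next, Submodule.mem_iInf, Submodule.mem_comap, LinearMap.sub_apply,
    Matrix.mulVecLin_apply, Module.End.one_apply, Subtype.forall]

theorem inv_next (U : Subgroup (Matrix.SpecialLinearGroup (Fin n) F)) (W : Submodule F (Fin n → F))
    (u : Matrix.SpecialLinearGroup (Fin n) F) (hu : u ∈ U) (v : Fin n → F) (hv : v ∈ next U W) :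
    (u : Matrix (Fin n) (Fin n) F).mulVec v ∈ next U W := by
  rw [mem_next] at hv ⊢
  intro u' hu'
  have h1 := hv (u' * u) (U.mul_mem hu' hu)
  have h2 := hv u hu
  have h3 := W.sub_mem h1 h2
  rw [Matrix.SpecialLinearGroup.coe_mul, ← Matrix.mulVec_mulVec] at h3
  have e : (u' : Matrix (Fin n) (Fin n) F) *ᵥ ((u : Matrix (Fin n) (Fin n) F) *ᵥ v) - v
      - ((u : Matrix (Fin n) (Fin n) F) *ᵥ v - v)
      = (u' : Matrix (Fin n) (Fin n) F) *ᵥ ((u : Matrix (Fin n) (Fin n) F) *ᵥ v)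
        - (u : Matrix (Fin n) (Fin n) F) *ᵥ v := by abel
  rw [e] at h3
  exact h3

theorem le_next (U : Subgroup (Matrix.SpecialLinearGroup (Fin n) F)) (W : Submodule F (Fin n → F))
    (hW : ∀ u ∈ U, ∀ v ∈ W, (u : Matrix (Fin n) (Fin n) F).mulVec v ∈ W) : W ≤ next U W := by
  intro v hv
  rw [mem_next]
  intro u hu
  exact W.sub_mem (hW u hu v hv) hv

theorem norm_next (U : Subgroup (Matrix.SpecialLinearGroup (Fin n) F)) (W : Submodule F (Fin n → F))
    (hW : ∀ g ∈ Subgroup.normalizer (U : Set (Matrix.SpecialLinearGroup (Fin n) F)),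
      ∀ v ∈ W, (g : Matrix (Fin n) (Fin n) F).mulVec v ∈ W)
    (g : Matrix.SpecialLinearGroup (Fin n) F)
    (hg : g ∈ Subgroup.normalizer (U : Set (Matrix.SpecialLinearGroup (Fin n) F)))
    (v : Fin n → F) (hv : v ∈ next U W) :
    (g : Matrix (Fin n) (Fin n) F).mulVec v ∈ next U W := by
  rw [mem_next] at hv ⊢
  intro u hu
  have hu' : g⁻¹ * u * g ∈ U := (Subgroup.mem_set_normalizer_iff''.mp hg u).mp hu
  have h1 := hW g hg _ (hv _ hu')
  have e : (g : Matrix (Fin n) (Fin n) F) *ᵥ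
      (((g⁻¹ * u * g : Matrix.SpecialLinearGroup (Fin n) F) : Matrix (Fin n) (Fin n) F) *ᵥ v - v)
      = (u : Matrix (Fin n) (Fin n) F) *ᵥ ((g : Matrix (Fin n) (Fin n) F) *ᵥ v)
        - (g : Matrix (Fin n) (Fin n) F) *ᵥ v := by
    have hsl : g * (g⁻¹ * u * g) = u * g := by group
    rw [Matrix.mulVec_sub, Matrix.mulVec_mulVec, ← Matrix.SpecialLinearGroup.coe_mul, hsl,
      Matrix.SpecialLinearGroup.coe_mul, ← Matrix.mulVec_mulVec]
  rw [e] at h1
  exact h1

theorem strict_next [Fintype F] (p : ℕ) [Fact p.Prime] [CharP F p]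
    (U : Subgroup (Matrix.SpecialLinearGroup (Fin n) F)) (hU : IsPGroup p ↥U)
    (W : Submodule F (Fin n → F))
    (hW : ∀ u ∈ U, ∀ v ∈ W, (u : Matrix (Fin n) (Fin n) F).mulVec v ∈ W) (hne : W ≠ ⊤) :
    ∃ v ∈ next U W, v ∉ W := by
  classical
  have hinv : ∀ u : U, W ≤ W.comap (Matrix.mulVecLin
      ((u : Matrix.SpecialLinearGroup (Fin n) F) : Matrix (Fin n) (Fin n) F)) := by
    intro u v hv
    exact hW u u.2 v hv
  let act : MulAction U ((Fin n → F) ⧸ W) :=
    { smul := fun u x => W.mapQ W (Matrix.mulVecLin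
        ((u : Matrix.SpecialLinearGroup (Fin n) F) : Matrix (Fin n) (Fin n) F)) (hinv u) x
      one_smul := by
        intro x
        obtain ⟨v, rfl⟩ := Submodule.Quotient.mk_surjective W x
        show W.mapQ W _ _ (Submodule.Quotient.mk v) = Submodule.Quotient.mk v
        rw [Submodule.mapQ_apply]
        simp
      mul_smul := by
        intro u u' x
        obtain ⟨v, rfl⟩ := Submodule.Quotient.mk_surjective W x
        show W.mapQ W _ _ (Submodule.Quotient.mk v)
          = W.mapQ W _ _ (W.mapQ W _ _ (Submodule.Quotient.mk v))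
        rw [Submodule.mapQ_apply, Submodule.mapQ_apply, Submodule.mapQ_apply]
        simp [Matrix.mulVec_mulVec] }
  have hsmul : ∀ (u : U) (v : Fin n → F), u • (Submodule.Quotient.mk v : (Fin n → F) ⧸ W)
      = Submodule.Quotient.mk ((u : Matrix (Fin n) (Fin n) F) *ᵥ v) := by
    intro u v
    show W.mapQ W _ _ (Submodule.Quotient.mk v) = _
    rw [Submodule.mapQ_apply]
    rfl
  have hnt : Nontrivial ((Fin n → F) ⧸ W) := Submodule.Quotient.nontrivial_iff.mpr hne
  have hcard : p ∣ Nat.card ((Fin n → F) ⧸ W) := by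
    rw [Module.natCard_eq_pow_finrank (K := F)]
    have hpos : 0 < Module.finrank F ((Fin n → F) ⧸ W) := Module.finrank_pos
    obtain ⟨k, -, hk⟩ := FiniteField.card F p
    rw [Nat.card_eq_fintype_card, hk]
    exact dvd_pow (dvd_pow_self p k.ne_zero) hpos.ne'
  have h0 : (0 : (Fin n → F) ⧸ W) ∈ MulAction.fixedPoints U ((Fin n → F) ⧸ W) := by
    intro u
    have := hsmul u 0
    simpa using this
  obtain ⟨b, hb, hb0⟩ := hU.exists_fixed_point_of_prime_dvd_card_of_fixed_point ((Fin n → F) ⧸ W) hcard h0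
  obtain ⟨v, rfl⟩ := Submodule.Quotient.mk_surjective W b
  refine ⟨v, ?_, ?_⟩
  · rw [mem_next]
    intro u hu
    have h1 := hb ⟨u, hu⟩
    rw [hsmul, Submodule.Quotient.eq] at h1
    exact h1
  · intro hv
    apply hb0
    exact ((Submodule.Quotient.mk_eq_zero W).mpr hv).symm

/-- the fixed-point series -/
def Wseq (U : Subgroup (Matrix.SpecialLinearGroup (Fin n) F)) : ℕ → Submodule F (Fin n → F)
  | 0 => ⊥
  | (j + 1) => next U (Wseq U j)

theorem Wseq_zero (U : Subgroup (Matrix.SpecialLinearGroup (Fin n) F)) : Wseq U 0 = ⊥ := rfl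

theorem Wseq_succ (U : Subgroup (Matrix.SpecialLinearGroup (Fin n) F)) (j : ℕ) :
    Wseq U (j + 1) = next U (Wseq U j) := rfl

theorem Wseq_inv (U : Subgroup (Matrix.SpecialLinearGroup (Fin n) F)) (j : ℕ) :
    ∀ u ∈ U, ∀ v ∈ Wseq U j, (u : Matrix (Fin n) (Fin n) F).mulVec v ∈ Wseq U j := by
  cases j with
  | zero =>
    intro u _ v hv
    rw [Wseq_zero, Submodule.mem_bot] at hv ⊢
    rw [hv, Matrix.mulVec_zero]
  | succ j =>
    intro u hu v hv
    rw [Wseq_succ] at hv ⊢
    exact inv_next U _ u hu v hv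

theorem Wseq_norm (U : Subgroup (Matrix.SpecialLinearGroup (Fin n) F)) (j : ℕ) :
    ∀ g ∈ Subgroup.normalizer (U : Set (Matrix.SpecialLinearGroup (Fin n) F)),
      ∀ v ∈ Wseq U j, (g : Matrix (Fin n) (Fin n) F).mulVec v ∈ Wseq U j := by
  induction j with
  | zero =>
    intro g _ v hv
    rw [Wseq_zero, Submodule.mem_bot] at hv ⊢
    rw [hv, Matrix.mulVec_zero]
  | succ j ih =>
    intro g hg v hv
    rw [Wseq_succ] at hv ⊢
    exact norm_next U _ ih g hg v hv

theorem Wseq_le (U : Subgroup (Matrix.SpecialLinearGroup (Fin n) F)) (j : ℕ) :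
    Wseq U j ≤ Wseq U (j + 1) := le_next U _ (Wseq_inv U j)

theorem Wseq_mono (U : Subgroup (Matrix.SpecialLinearGroup (Fin n) F)) : Monotone (Wseq U) :=
  monotone_nat_of_le_succ (Wseq_le U)

theorem Wseq_lt [Fintype F] (p : ℕ) [Fact p.Prime] [CharP F p]
    (U : Subgroup (Matrix.SpecialLinearGroup (Fin n) F)) (hU : IsPGroup p ↥U) (j : ℕ)
    (hj : Wseq U j ≠ ⊤) : Wseq U j < Wseq U (j + 1) := by
  obtain ⟨v, hv1, hv2⟩ := strict_next p U hU (Wseq U j) (Wseq_inv U j) hj
  exact lt_of_le_of_ne (Wseq_le U j) (fun h => hv2 (by rw [h]; exact hv1))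

theorem exists_top [Fintype F] (p : ℕ) [Fact p.Prime] [CharP F p]
    (U : Subgroup (Matrix.SpecialLinearGroup (Fin n) F)) (hU : IsPGroup p ↥U) :
    ∃ j, Wseq U j = ⊤ := by
  by_contra hcon
  push Not at hcon
  have hfr : ∀ j : ℕ, j ≤ Module.finrank F ↥(Wseq U j) := by
    intro j
    induction j with
    | zero => exact Nat.zero_le _
    | succ j ih =>
      have := Submodule.finrank_lt_finrank_of_lt (Wseq_lt p U hU j (hcon j))
      omega
  have h1 := hfr (n + 1)
  have h2 : Module.finrank F ↥(Wseq U (n + 1)) ≤ Module.finrank F (Fin n → F) :=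
    Submodule.finrank_le _
  rw [Module.finrank_fin_fun] at h2
  omega

/-- For a nontrivial p-subgroup U of SL_n(q) (q = p^f) there is a flag of F^n, with a proper nonzero member, stabilised by N(U) and on whose successive quotients U acts trivially. -/
theorem result {F : Type*} [Field F] [Fintype F] (p : ℕ) [Fact p.Prime] [CharP F p] (n : ℕ)
    (U : Subgroup (Matrix.SpecialLinearGroup (Fin n) F)) (hU : IsPGroup p ↥U) (hne : U ≠ ⊥) :
    ∃ (k : ℕ) (V : Fin (k + 2) → Submodule F (Fin n → F)), 1 ≤ k ∧ StrictMono V ∧ V 0 = ⊥ ∧ V (Fin.last (k + 1)) = ⊤ ∧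
      (∀ g ∈ Subgroup.normalizer (U : Set (Matrix.SpecialLinearGroup (Fin n) F)), ∀ i, (V i).map (Matrix.mulVecLin (g : Matrix (Fin n) (Fin n) F)) = V i) ∧
      (∀ u ∈ U, ∀ i : Fin (k + 1), ∀ v ∈ V i.succ, (u : Matrix (Fin n) (Fin n) F).mulVec v - v ∈ V (Fin.castSucc i)) := by
  classical
  have hex := exists_top p U hU
  -- Wseq 1 ≠ ⊤
  have h1 : Wseq U 1 ≠ ⊤ := by
    intro htop
    apply hne
    rw [Subgroup.eq_bot_iff_forall]
    intro u hu
    apply Subtype.ext
    have hfix : ∀ v : Fin n → F, (u : Matrix (Fin n) (Fin n) F) *ᵥ v = v := by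
      intro v
      have hv : v ∈ Wseq U 1 := by rw [htop]; exact Submodule.mem_top
      rw [Wseq_succ, mem_next] at hv
      have := hv u hu
      rw [Wseq_zero, Submodule.mem_bot] at this
      exact sub_eq_zero.mp this
    apply Matrix.toLin'.injective
    refine LinearMap.ext fun v => ?_
    rw [Matrix.toLin'_apply, Matrix.toLin'_apply, hfix]
    exact (Matrix.one_mulVec v).symm
  have hj2 : 2 ≤ Nat.find hex := by
    by_contra hlt
    push Not at hlt
    have h3 := Nat.find_spec hex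
    have h4 : Wseq U (Nat.find hex) ≤ Wseq U 1 := Wseq_mono U (by omega)
    rw [h3] at h4
    exact h1 (top_le_iff.mp h4)
  obtain ⟨k, hk⟩ : ∃ k, Nat.find hex = k + 2 := ⟨Nat.find hex - 2, by omega⟩
  refine ⟨k + 1, fun i => Wseq U i, by omega, ?_, rfl, ?_, ?_, ?_⟩
  · rw [Fin.strictMono_iff_lt_succ]
    intro i
    have hi : (i : ℕ) < Nat.find hex := by rw [hk]; exact i.2
    exact Wseq_lt p U hU i (Nat.find_min hex hi)
  · have := Nat.find_spec hex
    rw [hk] at this
    exact this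
  · intro g hg i
    apply le_antisymm
    · rintro _ ⟨v, hv, rfl⟩
      exact Wseq_norm U i g hg v hv
    · intro v hv
      refine ⟨(g⁻¹ : Matrix.SpecialLinearGroup (Fin n) F).1 *ᵥ v,
        Wseq_norm U i g⁻¹ (inv_mem hg) v hv, ?_⟩
      rw [Matrix.mulVecLin_apply, Matrix.mulVec_mulVec, ← Matrix.SpecialLinearGroup.coe_mul,
        mul_inv_cancel, Matrix.SpecialLinearGroup.coe_one, Matrix.one_mulVec]
  · intro u hu i v hv
    have hv' : v ∈ Wseq U ((i : ℕ) + 1) := hv
    rw [Wseq_succ, mem_next] at hv'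
    exact hv' u hu

end Cfsg.Agent.S2391
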