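import Cfsg.Statements.S2403
-- import your own Cfsg.Agent.* helpers here
import Cfsg.Agent.Helper13.SLCycGen

set_option autoImplicit false
open Cfsg

namespace Cfsg.Agent.S2403

/-- Explicit two-element generation of `PSL_{n+1}(K)` over the fields with two or three elements: with `x = 1 + E₁₂` and `w` the monomial matrix with entries `1` in positions `(i, i+1)` and `(−1)^n` in position `(n+1, 1)`, the elements `x` and `w` generate `SL_{n+1}(K)` modulo its centre. -/
theorem result {K : Type*} [Field K] [Fintype K] (hK : Fintype.card K ≤ 3) (n : ℕ) (hn : 1 ≤ n)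
    (x w : Matrix.SpecialLinearGroup (Fin (n + 1)) K)
    (hx : (x : Matrix (Fin (n + 1)) (Fin (n + 1)) K) = Matrix.transvection (0 : Fin (n + 1)) (1 : Fin (n + 1)) 1)
    (hw : (w : Matrix (Fin (n + 1)) (Fin (n + 1)) K) =
      Matrix.of (fun i j => if j.val = i.val + 1 then 1 else if i.val = n ∧ j.val = 0 then (-1) ^ n else 0)) :
    Subgroup.closure ({x, w} : Set (Matrix.SpecialLinearGroup (Fin (n + 1)) K)) ⊔
      Subgroup.center (Matrix.SpecialLinearGroup (Fin (n + 1)) K) = ⊤ := by
  classical
  have hW : ∀ a b, (w : Matrix (Fin (n + 1)) (Fin (n + 1)) K) a b =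
      if b = a + 1 then Helper13.cycSign K n a else 0 := by
    intro a b
    rw [hw]
    exact Helper13.cycMat_apply K n a b
  have hxH : x ∈ Subgroup.closure ({x, w} : Set (Matrix.SpecialLinearGroup (Fin (n + 1)) K)) :=
    Subgroup.subset_closure (by simp)
  have hwH : w ∈ Subgroup.closure ({x, w} : Set (Matrix.SpecialLinearGroup (Fin (n + 1)) K)) :=
    Subgroup.subset_closure (by simp)
  have h01 : ∀ (h : (0 : Fin (n + 1)) ≠ 1) (c : K),
      Matrix.SpecialLinearGroup.transvection h c ∈
        Subgroup.closure ({x, w} : Set (Matrix.SpecialLinearGroup (Fin (n + 1)) K)) := by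
    intro h c
    obtain ⟨m, rfl⟩ := Helper13.exists_natCast_of_card_le_three hK c
    rw [Helper13.transvection_natCast]
    apply Subgroup.pow_mem
    have e : Matrix.SpecialLinearGroup.transvection h (1 : K) = x := Subtype.ext hx.symm
    rw [e]
    exact hxH
  rw [Helper13.eq_top_of_cyc_transvection n hn _ w hwH hW h01]
  exact top_sup_eq _

end Cfsg.Agent.S2403
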