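import Mathlib
import Cfsg.Statements.S2427
import Cfsg.Agent.Helper18.SL2Norm
import Cfsg.Agent.Helper1.QuatSL

set_option autoImplicit false
open Cfsg

namespace Cfsg.Agent.S2427

open Cfsg.Agent.Helper18.SL2Norm

local notation "S23" => Matrix.SpecialLinearGroup (Fin 2) (ZMod 3)

theorem fact3 : Fact (Nat.Prime 3) := ⟨by norm_num⟩

attribute [local instance] fact3

theorem q_mul : ∀ x y : S23, x ^ 4 = 1 → y ^ 4 = 1 → (x * y) ^ 4 = 1 := by decide +kernel

theorem comm_q : ∀ g h : S23, (g * h * g⁻¹ * h⁻¹) ^ 4 = 1 := by decide +kernel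

theorem q_card : (Finset.univ.filter (fun y : S23 => y ^ 4 = 1)).card = 8 := by decide +kernel

theorem comm_ne : ∃ g h : S23, g * h * g⁻¹ * h⁻¹ ≠ 1 ∧ g * h * g⁻¹ * h⁻¹ ≠ -1 := by
  decide +kernel

theorem cen_pm : ∀ z : S23, (∀ y : S23, y * z = z * y) → z = 1 ∨ z = -1 := by decide +kernel

/-- the subgroup of elements of order dividing 4 -/
def Q : Subgroup S23 where
  carrier := {y | y ^ 4 = 1}
  mul_mem' := fun hx hy => q_mul _ _ hx hy
  one_mem' := one_pow 4
  inv_mem' := by
    intro x hx
    show x⁻¹ ^ 4 = 1
    have hx' : x ^ 4 = 1 := hx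
    rw [inv_pow, hx', inv_one]

theorem mem_Q (y : S23) : y ∈ Q ↔ y ^ 4 = 1 := Iff.rfl

theorem card_Q : Nat.card Q = 8 := by
  have h : Nat.card {y : S23 // y ^ 4 = 1} = 8 := by
    rw [Nat.card_eq_fintype_card, Fintype.card_subtype]
    exact q_card
  exact h

theorem le_Q_of_card (N : Subgroup S23) (h : Nat.card N = 8) : N = Q := by
  apply Subgroup.eq_of_le_of_card_ge
  · intro y hy
    rw [mem_Q]
    apply sn_d2
    have h1 : (⟨y, hy⟩ : N) ^ 8 = 1 := by
      have := pow_card_eq_one' (G := N) (x := ⟨y, hy⟩)
      rw [h] at this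
      exact this
    exact congrArg Subtype.val h1
  · rw [h, card_Q]

/-- The group SL₂ over the field with 3 elements has order 24 and centre of order 2; its commutator subgroup has order 8, is isomorphic to the quaternion group of order 8 and is complemented by every Sylow 3-subgroup (so the group is a semidirect product of a quaternion group of order 8 by a cyclic group of order 3); and its only normal subgroups besides the trivial subgroup and the whole group are the centre and the commutator subgroup. -/
theorem result :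
    Nat.card (Matrix.SpecialLinearGroup (Fin 2) (ZMod 3)) = 24 ∧
    Nat.card (Subgroup.center (Matrix.SpecialLinearGroup (Fin 2) (ZMod 3))) = 2 ∧
    Nat.card (commutator (Matrix.SpecialLinearGroup (Fin 2) (ZMod 3))) = 8 ∧
    Nonempty (commutator (Matrix.SpecialLinearGroup (Fin 2) (ZMod 3)) ≃* QuaternionGroup 2) ∧
    (∀ P : Sylow 3 (Matrix.SpecialLinearGroup (Fin 2) (ZMod 3)),
      Subgroup.IsComplement' (commutator (Matrix.SpecialLinearGroup (Fin 2) (ZMod 3)))
        (P : Subgroup (Matrix.SpecialLinearGroup (Fin 2) (ZMod 3)))) ∧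
    ∀ N : Subgroup (Matrix.SpecialLinearGroup (Fin 2) (ZMod 3)), N.Normal →
      N = ⊥ ∨ N = ⊤ ∨ N = Subgroup.center (Matrix.SpecialLinearGroup (Fin 2) (ZMod 3)) ∨
        N = commutator (Matrix.SpecialLinearGroup (Fin 2) (ZMod 3)) := by
  classical
  have hcard : Nat.card S23 = 24 := sn_card23
  have hodd : Odd (Fintype.card (ZMod 3)) := by
    rw [ZMod.card]; decide
  have hcen : Nat.card (Subgroup.center S23) = 2 :=
    Cfsg.Agent.Helper13.card_center_SL2_of_odd hodd
  have hcQ : commutator S23 ≤ Q := by
    rw [commutator_def, Subgroup.commutator_le]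
    intro g _ h _
    rw [mem_Q, commutatorElement_def]
    exact comm_q g h
  have hc8 : Nat.card (commutator S23) = 8 := by
    rcases sn_normal_three (commutator S23) with h | h | h
    · exfalso
      obtain ⟨g, k, h1, h2⟩ := comm_ne
      have hmem : g * k * g⁻¹ * k⁻¹ ∈ commutator S23 := by
        rw [← commutatorElement_def, commutator_def]
        exact Subgroup.commutator_mem_commutator (Subgroup.mem_top g) (Subgroup.mem_top k)
      have h3 := Subgroup.mem_center_iff.mp (h hmem)
      rcases cen_pm _ h3 with h4 | h4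
      · exact h1 h4
      · exact h2 h4
    · exfalso
      have h5 := Subgroup.card_le_of_le hcQ
      rw [h, card_Q] at h5
      omega
    · exact h
  have hcomQ : commutator S23 = Q := le_Q_of_card _ hc8
  refine ⟨hcard, hcen, hc8, ?_, ?_, ?_⟩
  · -- quaternion
    have hp : IsPGroup 2 ↥(commutator S23) := IsPGroup.of_card (n := 3) (by rw [hc8]; norm_num)
    obtain ⟨P, hP⟩ := hp.exists_le_sylow
    obtain ⟨m, hm⟩ := IsPGroup.iff_card.mp P.2
    have hdvd : 2 ^ m ∣ 24 := by
      rw [← hm, ← hcard]
      exact Subgroup.card_subgroup_dvd_card _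
    have hm3 : m ≤ 3 := by
      by_contra hcon
      push Not at hcon
      have : 2 ^ 4 ∣ 24 := (pow_dvd_pow 2 hcon).trans hdvd
      norm_num at this
    have hPle : Nat.card (P : Subgroup S23) ≤ 8 := by
      rw [hm]
      calc 2 ^ m ≤ 2 ^ 3 := Nat.pow_le_pow_right (by norm_num) hm3
        _ = 8 := by norm_num
    have hPeq : commutator S23 = (P : Subgroup S23) :=
      Subgroup.eq_of_le_of_card_ge hP (by rw [hc8]; exact hPle)
    obtain ⟨k, hk1, ⟨φ⟩⟩ := Cfsg.Agent.Helper1.sl2_sylow_two_quat hodd P
    have hk : k = 1 := by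
      have h1 : Nat.card (P : Subgroup S23) = Nat.card (QuaternionGroup (2 ^ k)) :=
        Nat.card_congr φ.toEquiv
      have : NeZero (2 ^ k) := ⟨by positivity⟩
      rw [← hPeq, hc8, Nat.card_eq_fintype_card, QuaternionGroup.card] at h1
      have h2 : 2 ^ k = 2 ^ 1 := by omega
      exact Nat.pow_right_injective (le_refl 2) h2
    subst hk
    exact ⟨(MulEquiv.subgroupCongr hPeq).trans φ⟩
  · -- complements
    intro P
    obtain ⟨m, hm⟩ := IsPGroup.iff_card.mp P.2
    have hdvd : 3 ^ m ∣ 24 := by
      rw [← hm, ← hcard]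
      exact Subgroup.card_subgroup_dvd_card _
    have hm1 : m ≤ 1 := by
      by_contra hcon
      push Not at hcon
      have : 3 ^ 2 ∣ 24 := (pow_dvd_pow 3 hcon).trans hdvd
      norm_num at this
    have hm0 : m ≠ 0 := by
      intro h0
      rw [h0, pow_zero] at hm
      have hidx := P.not_dvd_index
      have h1 := Subgroup.card_mul_index (P : Subgroup S23)
      rw [hm, hcard, one_mul] at h1
      rw [h1] at hidx
      norm_num at hidx
    have hP3 : Nat.card (P : Subgroup S23) = 3 := by
      have : m = 1 := by omega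
      rw [hm, this, pow_one]
    apply Subgroup.isComplement'_of_coprime
    · rw [hc8, hP3, hcard]
    · rw [hc8, hP3]; decide
  · intro N hN
    rcases sn_normal_three N with h | h | h
    · have hd := Subgroup.card_dvd_of_le h
      rw [hcen] at hd
      rcases (Nat.dvd_prime Nat.prime_two).mp hd with h1 | h2
      · left
        exact Subgroup.eq_bot_of_card_eq N h1
      · right; right; left
        exact Subgroup.eq_of_le_of_card_ge h (by rw [hcen, h2])
    · right; left
      rw [← Subgroup.card_eq_iff_eq_top, h, hcard]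
    · right; right; right
      rw [hcomQ]
      exact le_Q_of_card N h

end Cfsg.Agent.S2427
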