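import Mathlib
import Cfsg.Statements.S2428
import Cfsg.Agent.Helper14.TorusC

set_option autoImplicit false
open Cfsg

namespace Cfsg.Agent.S2428

open Cfsg.Agent.Helper14.Mat2 Cfsg.Agent.Helper14.SL2Odd Cfsg.Agent.Helper14.PSL2
  Cfsg.Agent.Helper14.SL2Conj Cfsg.Agent.Helper14.Torus Cfsg.Agent.Helper14.TorusB
  Cfsg.Agent.Helper14.TorusC

/-- Let F be a finite field with q elements, q odd, and let d be a diagonal element of SL₂ over F whose diagonal entry a has a² ≠ 1 (such d exist exactly when q > 3). Then the centraliser of d is precisely the diagonal subgroup T; the normaliser of T has order 2(q − 1) and exactly (q + 5)/2 conjugacy classes; and every element of that normaliser outside T has square equal to −1. -/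
theorem result {F : Type*} [Field F] [Fintype F] (hodd : Odd (Fintype.card F))
    (d : Matrix.SpecialLinearGroup (Fin 2) F) (hd01 : (d : Matrix (Fin 2) (Fin 2) F) 0 1 = 0) (hd10 : (d : Matrix (Fin 2) (Fin 2) F) 1 0 = 0) (hda : (d : Matrix (Fin 2) (Fin 2) F) 0 0 ^ 2 ≠ 1) :
    (∀ g : Matrix.SpecialLinearGroup (Fin 2) F, g ∈ Subgroup.centralizer ({d} : Set (Matrix.SpecialLinearGroup (Fin 2) F)) ↔ ((g : Matrix (Fin 2) (Fin 2) F) 0 1 = 0 ∧ (g : Matrix (Fin 2) (Fin 2) F) 1 0 = 0)) ∧
    Nat.card (Subgroup.normalizer ((Subgroup.centralizer ({d} : Set (Matrix.SpecialLinearGroup (Fin 2) F))) : Set (Matrix.SpecialLinearGroup (Fin 2) F))) = 2 * (Fintype.card F - 1) ∧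
    Nat.card (ConjClasses (Subgroup.normalizer ((Subgroup.centralizer ({d} : Set (Matrix.SpecialLinearGroup (Fin 2) F))) : Set (Matrix.SpecialLinearGroup (Fin 2) F)))) = (Fintype.card F + 5) / 2 ∧
    ∀ g : Matrix.SpecialLinearGroup (Fin 2) F, g ∈ Subgroup.normalizer ((Subgroup.centralizer ({d} : Set (Matrix.SpecialLinearGroup (Fin 2) F))) : Set (Matrix.SpecialLinearGroup (Fin 2) F)) →
      g ∉ Subgroup.centralizer ({d} : Set (Matrix.SpecialLinearGroup (Fin 2) F)) → ((g * g) : Matrix (Fin 2) (Fin 2) F) = -1 := by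
  classical
  have h2 := two_ne_zero_of_odd hodd
  have hdet := d.det_coe
  rw [Matrix.det_fin_two, hd01, hd10] at hdet
  have hdet' : (d : Matrix (Fin 2) (Fin 2) F) 0 0 * (d : Matrix (Fin 2) (Fin 2) F) 1 1 = 1 := by
    linear_combination hdet
  have ha0 : (d : Matrix (Fin 2) (Fin 2) F) 0 0 ≠ 0 := by
    intro h
    rw [h, zero_mul] at hdet'
    exact zero_ne_one hdet'
  have h11 : (d : Matrix (Fin 2) (Fin 2) F) 1 1 = ((d : Matrix (Fin 2) (Fin 2) F) 0 0)⁻¹ :=
    eq_inv_of_mul_eq_one_right hdet'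
  have hne : (d : Matrix (Fin 2) (Fin 2) F) 0 0 ≠ (d : Matrix (Fin 2) (Fin 2) F) 1 1 := by
    intro h
    apply hda
    rw [pow_two]
    nth_rewrite 2 [h]
    exact hdet'
  have hNS : NS (d : Matrix (Fin 2) (Fin 2) F) := Or.inr (Or.inr hne)
  have hdT : d ∈ (diag : Fˣ →* Matrix.SpecialLinearGroup (Fin 2) F).range := by
    refine ⟨Units.mk0 _ ha0, ?_⟩
    apply Subtype.ext
    rw [coe_diag]
    ext i j
    fin_cases i <;> fin_cases j <;> simp [hd01, hd10, h11]
  obtain ⟨hcyc, hcardT, hselfT⟩ := torus_split (F := F)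
  have hcd := hselfT d hdT hNS
  obtain ⟨g0, hg0⟩ := hcyc.exists_generator
  have hTz : (diag : Fˣ →* Matrix.SpecialLinearGroup (Fin 2) F).range
      = Subgroup.zpowers (g0 : Matrix.SpecialLinearGroup (Fin 2) F) := by
    ext x
    constructor
    · intro hx
      obtain ⟨k, hk⟩ := Subgroup.mem_zpowers_iff.mp (hg0 ⟨x, hx⟩)
      rw [Subgroup.mem_zpowers_iff]
      refine ⟨k, ?_⟩
      have := congrArg Subtype.val hk
      simpa using this
    · intro hx
      obtain ⟨k, rfl⟩ := Subgroup.mem_zpowers_iff.mp hx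
      exact Subgroup.zpow_mem _ g0.2 k
  have hdz : d ∈ Subgroup.zpowers (g0 : Matrix.SpecialLinearGroup (Fin 2) F) := hTz ▸ hdT
  have hdd : d * d ≠ 1 := by
    intro h
    apply hda
    have h3 := congrArg (fun M : Matrix.SpecialLinearGroup (Fin 2) F =>
      (M : Matrix (Fin 2) (Fin 2) F) 0 0) h
    simp only [Matrix.SpecialLinearGroup.coe_mul, Matrix.mul_apply, Fin.sum_univ_two, hd01,
      Matrix.SpecialLinearGroup.coe_one, Matrix.one_apply_eq, zero_mul, add_zero] at h3
    rw [pow_two]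
    exact h3
  have hg00 : (g0 : Matrix.SpecialLinearGroup (Fin 2) F) * g0 ≠ 1 := by
    intro h
    apply hdd
    obtain ⟨k, rfl⟩ := Subgroup.mem_zpowers_iff.mp hdz
    rw [← zpow_add, ← two_mul, zpow_mul, zpow_two, h, one_zpow]
  have hτ : ((g0 : Matrix.SpecialLinearGroup (Fin 2) F) : Matrix (Fin 2) (Fin 2) F).trace ^ 2 ≠ 4 := by
    intro h
    apply hg00
    obtain ⟨v, hv⟩ := g0.2
    rw [← hv, trace_diag] at h
    have hv0 : (v : F) ≠ 0 := v.ne_zero
    have h5 : ((v : F) ^ 2 - 1) ^ 2 = 0 := by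
      field_simp at h
      linear_combination h
    have h6 : (v : F) ^ 2 = 1 := by
      have := pow_eq_zero_iff (two_ne_zero) |>.mp h5
      linear_combination this
    have h7 : v * v = 1 := by
      apply Units.ext
      rw [Units.val_mul, Units.val_one, ← pow_two]
      exact h6
    rw [← hv, ← map_mul, h7, map_one]
  have hself : ∀ x ∈ Subgroup.zpowers (g0 : Matrix.SpecialLinearGroup (Fin 2) F),
      NS (x : Matrix (Fin 2) (Fin 2) F) →
      Subgroup.centralizer ({x} : Set (Matrix.SpecialLinearGroup (Fin 2) F))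
        = Subgroup.zpowers (g0 : Matrix.SpecialLinearGroup (Fin 2) F) := by
    intro x hx hns
    rw [← hTz] at hx ⊢
    exact hselfT x hx hns
  have horder : orderOf (g0 : Matrix.SpecialLinearGroup (Fin 2) F) = Fintype.card F - 1 := by
    rw [← Nat.card_zpowers, ← hTz, hcardT]
  have hq1 : 1 < Fintype.card F := Fintype.one_lt_card
  obtain ⟨m, hm⟩ : ∃ m, Fintype.card F - 1 = 2 * m := by
    obtain ⟨k, hk⟩ := hodd
    exact ⟨k, by omega⟩
  have hm2 : 2 ≤ m := by
    by_contra hlt
    have hm1 : m = 1 := by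
      obtain ⟨k, hk⟩ := hodd
      omega
    apply hg00
    rw [← pow_two]
    have := pow_orderOf_eq_one (g0 : Matrix.SpecialLinearGroup (Fin 2) F)
    rw [horder, hm, hm1] at this
    exact this
  obtain ⟨hcardN, hN2, hcls⟩ := normalizer_structure hodd _ hτ hself m (horder.trans hm) hm2
  have hcz : Subgroup.centralizer ({d} : Set (Matrix.SpecialLinearGroup (Fin 2) F))
      = Subgroup.zpowers (g0 : Matrix.SpecialLinearGroup (Fin 2) F) := hcd.trans hTz
  rw [hcz]
  refine ⟨?_, ?_, ?_, ?_⟩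
  · intro g
    rw [← hcz, Subgroup.mem_centralizer_iff]
    constructor
    · intro hg
      have h1 := hg d rfl
      have e01 := congrArg (fun M : Matrix.SpecialLinearGroup (Fin 2) F =>
        (M : Matrix (Fin 2) (Fin 2) F) 0 1) h1
      have e10 := congrArg (fun M : Matrix.SpecialLinearGroup (Fin 2) F =>
        (M : Matrix (Fin 2) (Fin 2) F) 1 0) h1
      simp only [Matrix.SpecialLinearGroup.coe_mul, Matrix.mul_apply, Fin.sum_univ_two, hd01,
        hd10, zero_mul, mul_zero, add_zero, zero_add] at e01 e10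
      have hsub : (d : Matrix (Fin 2) (Fin 2) F) 0 0 - (d : Matrix (Fin 2) (Fin 2) F) 1 1 ≠ 0 :=
        sub_ne_zero.mpr hne
      constructor
      · have : (g : Matrix (Fin 2) (Fin 2) F) 0 1 *
            ((d : Matrix (Fin 2) (Fin 2) F) 0 0 - (d : Matrix (Fin 2) (Fin 2) F) 1 1) = 0 := by
          linear_combination e01
        rcases mul_eq_zero.mp this with h | h
        · exact h
        · exact absurd h hsub
      · have : (g : Matrix (Fin 2) (Fin 2) F) 1 0 *
            ((d : Matrix (Fin 2) (Fin 2) F) 0 0 - (d : Matrix (Fin 2) (Fin 2) F) 1 1) = 0 := by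
          linear_combination -e10
        rcases mul_eq_zero.mp this with h | h
        · exact h
        · exact absurd h hsub
    · rintro ⟨h01, h10⟩ y hy
      rw [Set.mem_singleton_iff] at hy
      subst hy
      apply Subtype.ext
      rw [Matrix.SpecialLinearGroup.coe_mul, Matrix.SpecialLinearGroup.coe_mul]
      ext i j
      fin_cases i <;> fin_cases j <;>
        simp [Matrix.mul_apply, Fin.sum_univ_two, hd01, hd10, h01, h10, mul_comm]
  · rw [hcardN]
    omega
  · rw [hcls]
    omega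
  · intro g hg hgT
    rw [← Matrix.SpecialLinearGroup.coe_mul, hN2 g hg hgT, coe_negOne']

end Cfsg.Agent.S2428
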