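import Mathlib
import Cfsg.Statements.S2429
import Cfsg.Agent.Helper14.TorusC

set_option autoImplicit false
open Cfsg

namespace Cfsg.Agent.S2429

open Cfsg.Agent.Helper14.Mat2 Cfsg.Agent.Helper14.SL2Odd Cfsg.Agent.Helper14.PSL2
  Cfsg.Agent.Helper14.SL2Conj Cfsg.Agent.Helper14.Torus Cfsg.Agent.Helper14.TorusB
  Cfsg.Agent.Helper14.TorusC

/-- Let F be a finite field with q elements, q odd. Then SL₂ over F contains a cyclic subgroup T′ of order q + 1 (a non-split torus) with the following properties: T′ is its own centraliser, and indeed the centraliser of each element of T′ other than 1 and −1 is exactly T′; every element of SL₂ having no eigenvector in F² is conjugate to an element of T′; the normaliser of T′ has order 2(q + 1) and exactly (q + 7)/2 conjugacy classes; and every element of that normaliser outside T′ has square −1. -/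
theorem result {F : Type*} [Field F] [Fintype F] (hodd : Odd (Fintype.card F)) :
    ∃ T' : Subgroup (Matrix.SpecialLinearGroup (Fin 2) F), IsCyclic T' ∧ Nat.card T' = Fintype.card F + 1 ∧
      Subgroup.centralizer ((T' : Set (Matrix.SpecialLinearGroup (Fin 2) F))) = T' ∧
      (∀ g : Matrix.SpecialLinearGroup (Fin 2) F, g ∈ T' → (g : Matrix (Fin 2) (Fin 2) F) ≠ 1 → (g : Matrix (Fin 2) (Fin 2) F) ≠ -1 → Subgroup.centralizer ({g} : Set (Matrix.SpecialLinearGroup (Fin 2) F)) = T') ∧
      (∀ g : Matrix.SpecialLinearGroup (Fin 2) F, (∀ (c : F) (v : Fin 2 → F), v ≠ 0 → (g : Matrix (Fin 2) (Fin 2) F).mulVec v ≠ c • v) → ∃ h : Matrix.SpecialLinearGroup (Fin 2) F, h * g * h⁻¹ ∈ T') ∧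
      Nat.card (Subgroup.normalizer (T' : Set (Matrix.SpecialLinearGroup (Fin 2) F))) = 2 * (Fintype.card F + 1) ∧
      Nat.card (ConjClasses (Subgroup.normalizer (T' : Set (Matrix.SpecialLinearGroup (Fin 2) F)))) = (Fintype.card F + 7) / 2 ∧
      ∀ g : Matrix.SpecialLinearGroup (Fin 2) F, g ∈ Subgroup.normalizer (T' : Set (Matrix.SpecialLinearGroup (Fin 2) F)) → g ∉ T' → ((g * g) : Matrix (Fin 2) (Fin 2) F) = -1 := by
  classical
  obtain ⟨p, hp⟩ := CharP.exists F
  have hpp : Fact p.Prime := ⟨CharP.char_is_prime F p⟩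
  have h2 := two_ne_zero_of_odd hodd
  obtain ⟨A, hA⟩ := exists_orderOf_of_dvd_card_add_one (F := F) p (Fintype.card F + 1) dvd_rfl
  have hself := zpowers_self_cent A hA
  have hnsq := not_isSquare_of_order hodd A hA
  have hτ : (A : Matrix (Fin 2) (Fin 2) F).trace ^ 2 ≠ 4 := by
    intro h
    apply hnsq
    rw [h, sub_self]
    exact ⟨0, by simp⟩
  have hNSA := nonscalar_of_trace A hτ
  have hcA := hself A (Subgroup.mem_zpowers A) hNSA
  have hq1 : 1 < Fintype.card F := Fintype.one_lt_card
  obtain ⟨m, hm⟩ : ∃ m, Fintype.card F + 1 = 2 * m := by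
    obtain ⟨k, hk⟩ := hodd
    exact ⟨k + 1, by omega⟩
  have hm2 : 2 ≤ m := by
    obtain ⟨k, hk⟩ := hodd
    omega
  obtain ⟨hcardN, hN2, hcls⟩ := normalizer_structure hodd A hτ hself m (hA.trans hm) hm2
  refine ⟨Subgroup.zpowers A, inferInstance, by rw [Nat.card_zpowers, hA], ?_, ?_, ?_, ?_, ?_, ?_⟩
  · apply le_antisymm
    · intro g hg
      rw [← hcA]
      rw [Subgroup.mem_centralizer_iff] at hg ⊢
      intro y hy
      rw [Set.mem_singleton_iff] at hy
      subst hy
      exact hg y (Subgroup.mem_zpowers y)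
    · intro g hg
      rw [Subgroup.mem_centralizer_iff]
      intro y hy
      obtain ⟨i, rfl⟩ := Subgroup.mem_zpowers_iff.mp hg
      obtain ⟨j, rfl⟩ := Subgroup.mem_zpowers_iff.mp hy
      exact zpow_mul_comm A j i
  · intro g hg hg1 hgn
    apply hself g hg
    by_contra hns
    rcases scalar_of_not_NS g hns with h | h
    · exact hg1 (by rw [h]; rfl)
    · exact hgn (by rw [h]; exact coe_negOne')
  · intro g hg
    have hgsq := not_isSquare_of_no_eigen h2 g hg
    obtain ⟨X, hXA, hXt⟩ := exists_trace_elt hodd A hnsq _ hgsq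
    have hgτ : (g : Matrix (Fin 2) (Fin 2) F).trace ^ 2 ≠ 4 := by
      intro h
      apply hgsq
      rw [h, sub_self]
      exact ⟨0, by simp⟩
    have hconj := isConj_of_trace_eq hodd g X hXt.symm hgτ
    obtain ⟨c, hc⟩ := isConj_iff.mp hconj
    refine ⟨c, ?_⟩
    rw [hc, ← hcA, Subgroup.mem_centralizer_iff]
    intro y hy
    rw [Set.mem_singleton_iff] at hy
    subst hy
    exact hXA.symm
  · rw [hcardN]
    omega
  · rw [hcls]
    omega
  · intro g hg hgT
    rw [← Matrix.SpecialLinearGroup.coe_mul, hN2 g hg hgT, coe_negOne']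

end Cfsg.Agent.S2429
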