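import Cfsg.Statements.S2433
import Mathlib
import Cfsg.Agent.Helper13.SL2Borel
-- import your own Cfsg.Agent.* helpers here

set_option autoImplicit false
open Cfsg

namespace Cfsg.Agent.S2433

open Cfsg.Agent.Helper13 Cfsg.Agent.Helper2

section aux

variable {F : Type*} [Field F]

local notation "SL2" => Matrix.SpecialLinearGroup (Fin 2) F

theorem conj10 (x g : SL2) :
    ((x⁻¹ * g * x : SL2) : Matrix (Fin 2) (Fin 2) F) 1 0 =
      (g : Matrix (Fin 2) (Fin 2) F) 1 0 * (x : Matrix (Fin 2) (Fin 2) F) 0 0 ^ 2 +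
        ((g : Matrix (Fin 2) (Fin 2) F) 1 1 - (g : Matrix (Fin 2) (Fin 2) F) 0 0) *
          (x : Matrix (Fin 2) (Fin 2) F) 0 0 * (x : Matrix (Fin 2) (Fin 2) F) 1 0 -
        (g : Matrix (Fin 2) (Fin 2) F) 0 1 * (x : Matrix (Fin 2) (Fin 2) F) 1 0 ^ 2 := by
  simp only [Matrix.SpecialLinearGroup.coe_mul, Matrix.SpecialLinearGroup.coe_inv,
    Matrix.adjugate_fin_two, Matrix.mul_apply, Fin.sum_univ_two, Matrix.of_apply,
    Matrix.cons_val_zero, Matrix.cons_val_one, Matrix.cons_val', Matrix.cons_val_fin_one]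
  ring

theorem conj00 (x g : SL2) :
    ((x⁻¹ * g * x : SL2) : Matrix (Fin 2) (Fin 2) F) 0 0 =
      (x : Matrix (Fin 2) (Fin 2) F) 1 1 * ((g : Matrix (Fin 2) (Fin 2) F) 0 0 *
          (x : Matrix (Fin 2) (Fin 2) F) 0 0 + (g : Matrix (Fin 2) (Fin 2) F) 0 1 *
          (x : Matrix (Fin 2) (Fin 2) F) 1 0) -
        (x : Matrix (Fin 2) (Fin 2) F) 0 1 * ((g : Matrix (Fin 2) (Fin 2) F) 1 0 *
          (x : Matrix (Fin 2) (Fin 2) F) 0 0 + (g : Matrix (Fin 2) (Fin 2) F) 1 1 *
          (x : Matrix (Fin 2) (Fin 2) F) 1 0) := by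
  simp only [Matrix.SpecialLinearGroup.coe_mul, Matrix.SpecialLinearGroup.coe_inv,
    Matrix.adjugate_fin_two, Matrix.mul_apply, Fin.sum_univ_two, Matrix.of_apply,
    Matrix.cons_val_zero, Matrix.cons_val_one, Matrix.cons_val', Matrix.cons_val_fin_one]
  ring

/-- a parametrisation of `SL₂` by coset representatives of the Borel subgroup. -/
noncomputable def psi : Option F × (Fˣ × F) → SL2
  | (none, (u, c)) => ⟨!![(u : F), c; 0, ((u⁻¹ : Fˣ) : F)], by simp [Matrix.det_fin_two]⟩
  | (some t, (u, c)) => ⟨!![t * (u : F), t * c - ((u⁻¹ : Fˣ) : F); (u : F), c], by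
      simp only [Matrix.det_fin_two_of]
      have : ((u⁻¹ : Fˣ) : F) * (u : F) = 1 := by simp
      linear_combination this⟩

theorem psi_none (u : Fˣ) (c : F) : ((psi (none, (u, c)) : SL2) : Matrix (Fin 2) (Fin 2) F) =
    !![(u : F), c; 0, ((u⁻¹ : Fˣ) : F)] := rfl

theorem psi_some (t : F) (u : Fˣ) (c : F) :
    ((psi (some t, (u, c)) : SL2) : Matrix (Fin 2) (Fin 2) F) =
      !![t * (u : F), t * c - ((u⁻¹ : Fˣ) : F); (u : F), c] := rfl

theorem psi_bijective : Function.Bijective (psi (F := F)) := by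
  constructor
  · rintro ⟨o, u, c⟩ ⟨o', u', c'⟩ h
    have e00 := congrArg (fun M : SL2 => (M : Matrix (Fin 2) (Fin 2) F) 0 0) h
    have e01 := congrArg (fun M : SL2 => (M : Matrix (Fin 2) (Fin 2) F) 0 1) h
    have e10 := congrArg (fun M : SL2 => (M : Matrix (Fin 2) (Fin 2) F) 1 0) h
    have e11 := congrArg (fun M : SL2 => (M : Matrix (Fin 2) (Fin 2) F) 1 1) h
    cases o with
    | none =>
      cases o' with
      | none =>
        simp only [psi_none, Matrix.of_apply, Matrix.cons_val_zero, Matrix.cons_val_one,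
          Matrix.cons_val', Matrix.cons_val_fin_one] at e00 e01
        have hu : u = u' := Units.ext e00
        rw [hu, e01]
      | some t' =>
        simp only [psi_none, psi_some, Matrix.of_apply, Matrix.cons_val_zero, Matrix.cons_val_one,
          Matrix.cons_val', Matrix.cons_val_fin_one] at e10
        exact absurd e10.symm u'.ne_zero
    | some t =>
      cases o' with
      | none =>
        simp only [psi_none, psi_some, Matrix.of_apply, Matrix.cons_val_zero, Matrix.cons_val_one,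
          Matrix.cons_val', Matrix.cons_val_fin_one] at e10
        exact absurd e10 u.ne_zero
      | some t' =>
        simp only [psi_some, Matrix.of_apply, Matrix.cons_val_zero, Matrix.cons_val_one,
          Matrix.cons_val', Matrix.cons_val_fin_one] at e00 e10 e11
        have hu : u = u' := Units.ext e10
        rw [hu] at e00
        have ht : t = t' := mul_right_cancel₀ u'.ne_zero e00
        rw [hu, ht, e11]
  · intro x
    have hdet := x.det_coe
    rw [Matrix.det_fin_two] at hdet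
    by_cases h : (x : Matrix (Fin 2) (Fin 2) F) 1 0 = 0
    · have hdet' : (x : Matrix (Fin 2) (Fin 2) F) 0 0 * (x : Matrix (Fin 2) (Fin 2) F) 1 1 = 1 := by
        rw [h, mul_zero, sub_zero] at hdet
        exact hdet
      refine ⟨(none, (Units.mkOfMulEqOne _ _ hdet', (x : Matrix (Fin 2) (Fin 2) F) 0 1)), ?_⟩
      apply Subtype.ext
      rw [psi_none]
      ext i j
      fin_cases i <;> fin_cases j
      · rfl
      · rfl
      · exact h.symm
      · rfl
    · refine ⟨(some ((x : Matrix (Fin 2) (Fin 2) F) 0 0 / (x : Matrix (Fin 2) (Fin 2) F) 1 0),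
        (Units.mk0 _ h, (x : Matrix (Fin 2) (Fin 2) F) 1 1)), ?_⟩
      apply Subtype.ext
      rw [psi_some]
      ext i j
      fin_cases i <;> fin_cases j
      · show (x : Matrix (Fin 2) (Fin 2) F) 0 0 / (x : Matrix (Fin 2) (Fin 2) F) 1 0 *
          (x : Matrix (Fin 2) (Fin 2) F) 1 0 = (x : Matrix (Fin 2) (Fin 2) F) 0 0
        rw [div_mul_cancel₀ _ h]
      · show (x : Matrix (Fin 2) (Fin 2) F) 0 0 / (x : Matrix (Fin 2) (Fin 2) F) 1 0 *
          (x : Matrix (Fin 2) (Fin 2) F) 1 1 - ((x : Matrix (Fin 2) (Fin 2) F) 1 0)⁻¹ =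
          (x : Matrix (Fin 2) (Fin 2) F) 0 1
        field_simp
        linear_combination hdet
      · rfl
      · rfl

variable [Fintype F] [DecidableEq F]

/-- the value of a principal series function of `SL₂`. -/
theorem ind_formula (α : MulChar F ℂ) (g : SL2) :
    Cfsg.indFun ((Cfsg.upperTriangularGL 2 F).comap Matrix.SpecialLinearGroup.toGL)
        (fun b => α (((b : SL2) : Matrix (Fin 2) (Fin 2) F) 0 0)) g =
      (if (g : Matrix (Fin 2) (Fin 2) F) 1 0 = 0 then α ((g : Matrix (Fin 2) (Fin 2) F) 0 0) else 0) +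
        ∑ t : F, (if (g : Matrix (Fin 2) (Fin 2) F) 1 0 * t ^ 2 +
            ((g : Matrix (Fin 2) (Fin 2) F) 1 1 - (g : Matrix (Fin 2) (Fin 2) F) 0 0) * t -
            (g : Matrix (Fin 2) (Fin 2) F) 0 1 = 0
          then α ((g : Matrix (Fin 2) (Fin 2) F) 1 0 * t + (g : Matrix (Fin 2) (Fin 2) F) 1 1)
          else 0) := by
  have hnone : ∀ p : Fˣ × F, Cfsg.extendByZero (sBorel F)
      (fun b => α (((b : SL2) : Matrix (Fin 2) (Fin 2) F) 0 0))
        ((psi (none, p))⁻¹ * g * psi (none, p)) =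
      (if (g : Matrix (Fin 2) (Fin 2) F) 1 0 = 0 then α ((g : Matrix (Fin 2) (Fin 2) F) 0 0)
        else 0) := by
    rintro ⟨u, c⟩
    have h10 := conj10 (psi (none, (u, c))) g
    have h00 := conj00 (psi (none, (u, c))) g
    simp only [psi_none, Matrix.of_apply, Matrix.cons_val_zero, Matrix.cons_val_one,
      Matrix.cons_val', Matrix.cons_val_fin_one] at h10 h00
    have huu : ((u⁻¹ : Fˣ) : F) * (u : F) = 1 := by simp
    by_cases hg : (g : Matrix (Fin 2) (Fin 2) F) 1 0 = 0
    · rw [if_pos hg]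
      have hmem : (psi (none, (u, c)))⁻¹ * g * psi (none, (u, c)) ∈ sBorel F := by
        rw [mem_sBorel, h10, hg]
        ring
      rw [extendByZero_apply_mem _ _ hmem]
      show α (((psi (none, (u, c)))⁻¹ * g * psi (none, (u, c)) : SL2).1 0 0) = _
      congr 1
      rw [h00, hg]
      linear_combination (g : Matrix (Fin 2) (Fin 2) F) 0 0 * huu
    · rw [if_neg hg]
      apply extendByZero_apply_not_mem
      rw [mem_sBorel, h10]
      intro h0
      have : (g : Matrix (Fin 2) (Fin 2) F) 1 0 * (u : F) ^ 2 = 0 := by linear_combination h0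
      rcases mul_eq_zero.1 this with h5 | h5
      · exact hg h5
      · exact u.ne_zero (pow_eq_zero_iff (two_ne_zero) |>.1 h5)
  have hsome : ∀ (t : F) (p : Fˣ × F), Cfsg.extendByZero (sBorel F)
      (fun b => α (((b : SL2) : Matrix (Fin 2) (Fin 2) F) 0 0))
        ((psi (some t, p))⁻¹ * g * psi (some t, p)) =
      (if (g : Matrix (Fin 2) (Fin 2) F) 1 0 * t ^ 2 +
            ((g : Matrix (Fin 2) (Fin 2) F) 1 1 - (g : Matrix (Fin 2) (Fin 2) F) 0 0) * t -
            (g : Matrix (Fin 2) (Fin 2) F) 0 1 = 0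
          then α ((g : Matrix (Fin 2) (Fin 2) F) 1 0 * t + (g : Matrix (Fin 2) (Fin 2) F) 1 1)
          else 0) := by
    rintro t ⟨u, c⟩
    have h10 := conj10 (psi (some t, (u, c))) g
    have h00 := conj00 (psi (some t, (u, c))) g
    simp only [psi_some, Matrix.of_apply, Matrix.cons_val_zero, Matrix.cons_val_one,
      Matrix.cons_val', Matrix.cons_val_fin_one] at h10 h00
    have huu : ((u⁻¹ : Fˣ) : F) * (u : F) = 1 := by simp
    by_cases hg : (g : Matrix (Fin 2) (Fin 2) F) 1 0 * t ^ 2 +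
            ((g : Matrix (Fin 2) (Fin 2) F) 1 1 - (g : Matrix (Fin 2) (Fin 2) F) 0 0) * t -
            (g : Matrix (Fin 2) (Fin 2) F) 0 1 = 0
    · rw [if_pos hg]
      have hmem : (psi (some t, (u, c)))⁻¹ * g * psi (some t, (u, c)) ∈ sBorel F := by
        rw [mem_sBorel, h10]
        linear_combination (u : F) ^ 2 * hg
      rw [extendByZero_apply_mem _ _ hmem]
      show α (((psi (some t, (u, c)))⁻¹ * g * psi (some t, (u, c)) : SL2).1 0 0) = _
      congr 1
      rw [h00]
      linear_combination (-(c * (u : F))) * hg +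
        ((g : Matrix (Fin 2) (Fin 2) F) 1 0 * t + (g : Matrix (Fin 2) (Fin 2) F) 1 1) * huu
    · rw [if_neg hg]
      apply extendByZero_apply_not_mem
      rw [mem_sBorel, h10]
      intro h0
      have : (u : F) ^ 2 * ((g : Matrix (Fin 2) (Fin 2) F) 1 0 * t ^ 2 +
            ((g : Matrix (Fin 2) (Fin 2) F) 1 1 - (g : Matrix (Fin 2) (Fin 2) F) 0 0) * t -
            (g : Matrix (Fin 2) (Fin 2) F) 0 1) = 0 := by linear_combination h0
      rcases mul_eq_zero.1 this with h5 | h5
      · exact u.ne_zero (pow_eq_zero_iff (two_ne_zero) |>.1 h5)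
      · exact hg h5
  have hcard : (Nat.card (sBorel F) : ℂ) = (Fintype.card (Fˣ × F) : ℂ) := by
    rw [Nat.card_congr (sBorelEquiv (F := F)).symm, Nat.card_eq_fintype_card]
  have hne : (Fintype.card (Fˣ × F) : ℂ) ≠ 0 := by
    exact_mod_cast Fintype.card_pos.ne'
  rw [indFun_apply]
  rw [← psi_bijective.sum_comp (fun x => Cfsg.extendByZero
    ((Cfsg.upperTriangularGL 2 F).comap Matrix.SpecialLinearGroup.toGL)
      (fun b => α (((b : SL2) : Matrix (Fin 2) (Fin 2) F) 0 0)) (x⁻¹ * g * x))]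
  rw [Fintype.sum_prod_type, Fintype.sum_option]
  simp only [hnone, hsome, Finset.sum_const, Finset.card_univ, nsmul_eq_mul]
  rw [hcard, ← Finset.mul_sum, ← mul_add, ← mul_assoc, inv_mul_cancel₀ hne, one_mul]

end aux

/-- Let F be a finite field with q elements, q odd, α a multiplicative character of F, and R(α) the function on SL₂ induced from the linear character b ↦ α(b₁₁) of the upper triangular subgroup. Then R(α) takes the value α(a) + α(a⁻¹) at a diagonal element with entries a, a⁻¹, a² ≠ 1; the value 0 at every element with no eigenvector in F²; the value α(ε) at an upper triangular element with both diagonal entries ε and non-zero upper right entry; and the value (q + 1)α(ε) at the scalar element ε (ε = ±1). -/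
theorem result {F : Type*} [Field F] [Fintype F] [DecidableEq F] (hodd : Odd (Fintype.card F)) (α : MulChar F ℂ) (g : Matrix.SpecialLinearGroup (Fin 2) F) :
    ((g : Matrix (Fin 2) (Fin 2) F) 0 1 = 0 → (g : Matrix (Fin 2) (Fin 2) F) 1 0 = 0 → (g : Matrix (Fin 2) (Fin 2) F) 0 0 ^ 2 ≠ 1 →
      (Cfsg.indFun ((Cfsg.upperTriangularGL 2 F).comap Matrix.SpecialLinearGroup.toGL) (fun b => α (((b : Matrix.SpecialLinearGroup (Fin 2) F) : Matrix (Fin 2) (Fin 2) F) 0 0))) g = α ((g : Matrix (Fin 2) (Fin 2) F) 0 0) + α ((g : Matrix (Fin 2) (Fin 2) F) 1 1)) ∧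
    ((∀ (c : F) (v : Fin 2 → F), v ≠ 0 → (g : Matrix (Fin 2) (Fin 2) F).mulVec v ≠ c • v) → (Cfsg.indFun ((Cfsg.upperTriangularGL 2 F).comap Matrix.SpecialLinearGroup.toGL) (fun b => α (((b : Matrix.SpecialLinearGroup (Fin 2) F) : Matrix (Fin 2) (Fin 2) F) 0 0))) g = 0) ∧
    ((g : Matrix (Fin 2) (Fin 2) F) 1 0 = 0 → (g : Matrix (Fin 2) (Fin 2) F) 0 0 = (g : Matrix (Fin 2) (Fin 2) F) 1 1 → (g : Matrix (Fin 2) (Fin 2) F) 0 1 ≠ 0 →
      (Cfsg.indFun ((Cfsg.upperTriangularGL 2 F).comap Matrix.SpecialLinearGroup.toGL) (fun b => α (((b : Matrix.SpecialLinearGroup (Fin 2) F) : Matrix (Fin 2) (Fin 2) F) 0 0))) g = α ((g : Matrix (Fin 2) (Fin 2) F) 0 0)) ∧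
    ((g : Matrix (Fin 2) (Fin 2) F) 0 1 = 0 → (g : Matrix (Fin 2) (Fin 2) F) 1 0 = 0 → (g : Matrix (Fin 2) (Fin 2) F) 0 0 = (g : Matrix (Fin 2) (Fin 2) F) 1 1 →
      (Cfsg.indFun ((Cfsg.upperTriangularGL 2 F).comap Matrix.SpecialLinearGroup.toGL) (fun b => α (((b : Matrix.SpecialLinearGroup (Fin 2) F) : Matrix (Fin 2) (Fin 2) F) 0 0))) g = ((Fintype.card F : ℂ) + 1) * α ((g : Matrix (Fin 2) (Fin 2) F) 0 0)) := by
  have hf := ind_formula α g
  have hdet := g.det_coe
  rw [Matrix.det_fin_two] at hdet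
  refine ⟨?_, ?_, ?_, ?_⟩
  · intro h01 h10 hsq
    rw [hf, if_pos h10, h10, h01]
    rw [h01, h10, mul_zero, sub_zero] at hdet
    have hne : (g : Matrix (Fin 2) (Fin 2) F) 1 1 - (g : Matrix (Fin 2) (Fin 2) F) 0 0 ≠ 0 := by
      intro h
      apply hsq
      have : (g : Matrix (Fin 2) (Fin 2) F) 1 1 = (g : Matrix (Fin 2) (Fin 2) F) 0 0 := by
        linear_combination h
      rw [this] at hdet
      rw [sq]
      exact hdet
    congr 1
    rw [Finset.sum_eq_single (0 : F)]
    · simp
    · intro t _ ht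
      rw [if_neg]
      intro h
      have h5 : ((g : Matrix (Fin 2) (Fin 2) F) 1 1 - (g : Matrix (Fin 2) (Fin 2) F) 0 0) * t = 0 := by
        linear_combination h
      rcases mul_eq_zero.1 h5 with h6 | h6
      · exact hne h6
      · exact ht h6
    · intro h
      exact absurd (Finset.mem_univ _) h
  · intro hno
    rw [hf]
    have h10 : (g : Matrix (Fin 2) (Fin 2) F) 1 0 ≠ 0 := by
      intro h
      apply hno ((g : Matrix (Fin 2) (Fin 2) F) 0 0) ![1, 0] (by simp)
      ext i
      fin_cases i <;> simp [Matrix.mulVec, dotProduct, Fin.sum_univ_two, h]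
    rw [if_neg h10, zero_add]
    apply Finset.sum_eq_zero
    intro t _
    rw [if_neg]
    intro h
    apply hno ((g : Matrix (Fin 2) (Fin 2) F) 1 0 * t + (g : Matrix (Fin 2) (Fin 2) F) 1 1) ![t, 1]
      (by
        intro h0
        have := congrFun h0 1
        simp at this)
    ext i
    fin_cases i
    · simp [Matrix.mulVec, dotProduct, Fin.sum_univ_two]
      linear_combination -h
    · simp [Matrix.mulVec, dotProduct, Fin.sum_univ_two]
  · intro h10 heq h01
    rw [hf, if_pos h10, h10, heq]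
    have hz : ∀ t : F, (0 * t ^ 2 + ((g : Matrix (Fin 2) (Fin 2) F) 1 1 -
        (g : Matrix (Fin 2) (Fin 2) F) 1 1) * t - (g : Matrix (Fin 2) (Fin 2) F) 0 1 = 0) ↔ False := by
      intro t
      constructor
      · intro h
        apply h01
        linear_combination -h
      · exact False.elim
    simp only [hz, if_false, Finset.sum_const_zero, add_zero]
  · intro h01 h10 heq
    rw [hf, if_pos h10, h10, h01, heq]
    have hsum : ∀ t : F, (if 0 * t ^ 2 + ((g : Matrix (Fin 2) (Fin 2) F) 1 1 -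
        (g : Matrix (Fin 2) (Fin 2) F) 1 1) * t - 0 = 0 then
          α (0 * t + (g : Matrix (Fin 2) (Fin 2) F) 1 1) else 0) =
        α ((g : Matrix (Fin 2) (Fin 2) F) 1 1) := by
      intro t
      rw [if_pos (by ring), zero_mul, zero_add]
    rw [Finset.sum_congr rfl (fun t _ => hsum t), Finset.sum_const, Finset.card_univ, nsmul_eq_mul]
    ring

end Cfsg.Agent.S2433
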