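import Cfsg.Statements.S2437
import Mathlib
import Cfsg.Agent.Helper13.SL2Borel
import Cfsg.Agent.Helper14.SL2Conj
-- import your own Cfsg.Agent.* helpers here

set_option autoImplicit false
open Cfsg

namespace Cfsg.Agent.S2437

open Cfsg.Agent.Helper13

section aux

variable {F : Type*} [Field F]

theorem commute_iff (a b : Fˣ × F) :
    Commute (sBorelEquiv a : sBorel F) (sBorelEquiv b) ↔
      b.2 * ((a.1 : F) - ((a.1⁻¹ : Fˣ) : F)) = a.2 * ((b.1 : F) - ((b.1⁻¹ : Fˣ) : F)) := by
  obtain ⟨u, c⟩ := a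
  obtain ⟨v, d⟩ := b
  have hmul : ∀ (u v : Fˣ) (c d : F),
      (((sBorelEquiv (u, c) : sBorel F) * sBorelEquiv (v, d) : sBorel F) :
        Matrix.SpecialLinearGroup (Fin 2) F).1 =
      !![(u : F) * v, u * d + c * ((v⁻¹ : Fˣ) : F); 0, ((u⁻¹ : Fˣ) : F) * ((v⁻¹ : Fˣ) : F)] := by
    intro u v c d
    show (!![(u : F), c; 0, ((u⁻¹ : Fˣ) : F)] : Matrix (Fin 2) (Fin 2) F) *
      !![(v : F), d; 0, ((v⁻¹ : Fˣ) : F)] = _
    ext i j
    fin_cases i <;> fin_cases j <;> simp [Matrix.mul_apply, Fin.sum_univ_two]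
  constructor
  · intro h
    have h1 := congrArg (fun x : sBorel F => (x : Matrix.SpecialLinearGroup (Fin 2) F).1 0 1) h.eq
    simp only [hmul, Matrix.of_apply, Matrix.cons_val_zero, Matrix.cons_val_one,
      Matrix.cons_val', Matrix.cons_val_fin_one] at h1
    show d * ((u : F) - ((u⁻¹ : Fˣ) : F)) = c * ((v : F) - ((v⁻¹ : Fˣ) : F))
    linear_combination h1
  · intro h
    have h' : d * ((u : F) - ((u⁻¹ : Fˣ) : F)) = c * ((v : F) - ((v⁻¹ : Fˣ) : F)) := h
    show (sBorelEquiv (u, c) : sBorel F) * sBorelEquiv (v, d) =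
      sBorelEquiv (v, d) * sBorelEquiv (u, c)
    apply Subtype.ext
    apply Subtype.ext
    rw [hmul, hmul]
    ext i j
    fin_cases i <;> fin_cases j
    · show (u : F) * v = v * u
      ring
    · show (u : F) * d + c * ((v⁻¹ : Fˣ) : F) = v * c + d * ((u⁻¹ : Fˣ) : F)
      linear_combination h'
    · rfl
    · show ((u⁻¹ : Fˣ) : F) * ((v⁻¹ : Fˣ) : F) = ((v⁻¹ : Fˣ) : F) * ((u⁻¹ : Fˣ) : F)
      ring

variable [Fintype F] [DecidableEq F]

theorem sub_inv_eq_zero_iff (u : Fˣ) : (u : F) - ((u⁻¹ : Fˣ) : F) = 0 ↔ u = 1 ∨ u = -1 := by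
  have hu : (u : F) * ((u⁻¹ : Fˣ) : F) = 1 := by simp
  constructor
  · intro h
    have h1 : ((u : F) - 1) * ((u : F) + 1) = 0 := by linear_combination (u : F) * h + hu
    rcases mul_eq_zero.1 h1 with h2 | h2
    · left
      apply Units.ext
      rw [Units.val_one]
      linear_combination h2
    · right
      apply Units.ext
      rw [Units.val_neg, Units.val_one]
      linear_combination h2
  · rintro (rfl | rfl)
    · simp
    · simp

/-- the number of commuting pairs of the Borel subgroup. -/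
theorem count (h2 : (2 : F) ≠ 0) :
    (Finset.univ.filter (fun p : (Fˣ × F) × (Fˣ × F) =>
      p.2.2 * ((p.1.1 : F) - ((p.1.1⁻¹ : Fˣ) : F)) =
        p.1.2 * ((p.2.1 : F) - ((p.2.1⁻¹ : Fˣ) : F)))).card =
      (Fintype.card F + 3) * (Fintype.card Fˣ * Fintype.card F) := by
  classical
  rw [Finset.card_filter, Fintype.sum_prod_type, Fintype.sum_prod_type]
  simp only [Fintype.sum_prod_type]
  -- the inner count for `u² ≠ 1`
  have hA : ∀ (u : Fˣ), ¬ (u = 1 ∨ u = -1) → ∀ c : F,
      (∑ v : Fˣ, ∑ d : F, if d * ((u : F) - ((u⁻¹ : Fˣ) : F)) =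
        c * ((v : F) - ((v⁻¹ : Fˣ) : F)) then 1 else 0) = Fintype.card Fˣ := by
    intro u hu c
    have hw : (u : F) - ((u⁻¹ : Fˣ) : F) ≠ 0 := fun h => hu ((sub_inv_eq_zero_iff u).1 h)
    have h1 : ∀ v : Fˣ, (∑ d : F, if d * ((u : F) - ((u⁻¹ : Fˣ) : F)) =
        c * ((v : F) - ((v⁻¹ : Fˣ) : F)) then 1 else 0) = 1 := by
      intro v
      rw [Finset.sum_eq_single (c * ((v : F) - ((v⁻¹ : Fˣ) : F)) / ((u : F) - ((u⁻¹ : Fˣ) : F)))]
      · rw [if_pos (div_mul_cancel₀ _ hw)]
      · intro d _ hd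
        rw [if_neg]
        intro h
        apply hd
        rw [eq_div_iff hw]
        exact h
      · intro h
        exact absurd (Finset.mem_univ _) h
    rw [Finset.sum_congr rfl (fun v _ => h1 v), Finset.sum_const, Finset.card_univ, smul_eq_mul,
      mul_one]
  -- the count for `u² = 1`
  have hB : ∀ (u : Fˣ), (u = 1 ∨ u = -1) →
      (∑ c : F, ∑ v : Fˣ, ∑ d : F, if d * ((u : F) - ((u⁻¹ : Fˣ) : F)) =
        c * ((v : F) - ((v⁻¹ : Fˣ) : F)) then 1 else 0) =
      3 * (Fintype.card Fˣ * Fintype.card F) := by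
    intro u hu
    have hw : (u : F) - ((u⁻¹ : Fˣ) : F) = 0 := (sub_inv_eq_zero_iff u).2 hu
    have h0 : (∑ v : Fˣ, ∑ d : F, if d * ((u : F) - ((u⁻¹ : Fˣ) : F)) =
        (0 : F) * ((v : F) - ((v⁻¹ : Fˣ) : F)) then 1 else 0) =
        Fintype.card Fˣ * Fintype.card F := by
      have : ∀ (v : Fˣ) (d : F), (if d * ((u : F) - ((u⁻¹ : Fˣ) : F)) =
          (0 : F) * ((v : F) - ((v⁻¹ : Fˣ) : F)) then 1 else 0) = 1 := by
        intro v d
        rw [if_pos (by rw [hw, mul_zero, zero_mul])]
      simp only [this, Finset.sum_const, Finset.card_univ, smul_eq_mul, mul_one]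
    have h1 : ∀ c : F, c ≠ 0 → (∑ v : Fˣ, ∑ d : F, if d * ((u : F) - ((u⁻¹ : Fˣ) : F)) =
        c * ((v : F) - ((v⁻¹ : Fˣ) : F)) then 1 else 0) = 2 * Fintype.card F := by
      intro c hc
      have hcond : ∀ (v : Fˣ) (d : F), (d * ((u : F) - ((u⁻¹ : Fˣ) : F)) =
          c * ((v : F) - ((v⁻¹ : Fˣ) : F))) ↔ (v = 1 ∨ v = -1) := by
        intro v d
        rw [hw, mul_zero, ← sub_inv_eq_zero_iff]
        constructor
        · intro h
          exact (mul_eq_zero.1 h.symm).resolve_left hc
        · intro h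
          rw [h, mul_zero]
      simp only [hcond]
      rw [Finset.sum_comm]
      have h3 : ∀ d : F, (∑ v : Fˣ, if (v = 1 ∨ v = -1) then 1 else 0) = 2 := by
        intro d
        rw [← Finset.card_filter]
        have : Finset.univ.filter (fun v : Fˣ => v = 1 ∨ v = -1) = {1, -1} := by
          ext v
          simp
        rw [this, Finset.card_pair]
        intro h
        apply h2
        have h5 := congrArg (fun x : Fˣ => (x : F)) h
        simp only [Units.val_one, Units.val_neg] at h5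
        linear_combination h5
      rw [Finset.sum_congr rfl (fun d _ => h3 d), Finset.sum_const, Finset.card_univ, smul_eq_mul,
        mul_comm]
    rw [← Finset.add_sum_erase Finset.univ _ (Finset.mem_univ (0 : F)), h0,
      Finset.sum_congr rfl (fun c hc => h1 c (Finset.ne_of_mem_erase hc)), Finset.sum_const,
      Finset.card_erase_of_mem (Finset.mem_univ _), Finset.card_univ, smul_eq_mul,
      ← Fintype.card_units]
    ring
  rw [← Finset.sum_filter_add_sum_filter_not Finset.univ (fun u : Fˣ => u = 1 ∨ u = -1),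
    Finset.sum_congr rfl (fun u hu => hB u (Finset.mem_filter.1 hu).2),
    Finset.sum_congr rfl (fun u hu => Finset.sum_congr rfl
      (fun c _ => hA u (Finset.mem_filter.1 hu).2 c)), Finset.sum_const, Finset.sum_const,
    Finset.sum_const, Finset.card_univ, smul_eq_mul, smul_eq_mul, smul_eq_mul]
  have hpair : (Finset.univ.filter (fun u : Fˣ => u = 1 ∨ u = -1)).card = 2 := by
    have : Finset.univ.filter (fun v : Fˣ => v = 1 ∨ v = -1) = {1, -1} := by
      ext v
      simp
    rw [this, Finset.card_pair]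
    intro h
    apply h2
    have h5 := congrArg (fun x : Fˣ => (x : F)) h
    simp only [Units.val_one, Units.val_neg] at h5
    linear_combination h5
  have hsplit := Finset.card_filter_add_card_filter_not (s := (Finset.univ : Finset Fˣ))
    (fun u : Fˣ => u = 1 ∨ u = -1)
  rw [hpair, Finset.card_univ] at hsplit
  rw [hpair]
  have hq : Fintype.card F = Fintype.card Fˣ + 1 := by
    rw [Fintype.card_units]
    have := Fintype.card_pos (α := F)
    omega
  generalize (Finset.univ.filter (fun u : Fˣ => ¬ (u = 1 ∨ u = -1))).card = s at hsplit ⊢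
  rw [hq, ← hsplit]
  ring

end aux

/-- Over a finite field F with q elements, q odd, the upper triangular subgroup of SL₂ (a Borel subgroup, of order q(q − 1)) has exactly q + 3 conjugacy classes. -/
theorem result {F : Type*} [Field F] [Fintype F] (hodd : Odd (Fintype.card F)) :
    Nat.card (ConjClasses ((Cfsg.upperTriangularGL 2 F).comap Matrix.SpecialLinearGroup.toGL)) = Fintype.card F + 3 := by
  classical
  have h2 : (2 : F) ≠ 0 := Cfsg.Agent.Helper14.SL2Conj.two_ne_zero_of_odd hodd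
  have h1 := card_comm_eq_card_conjClasses_mul_card (sBorel F)
  have hB : Nat.card (sBorel F) = Fintype.card Fˣ * Fintype.card F := by
    rw [Nat.card_congr (sBorelEquiv (F := F)).symm, Nat.card_eq_fintype_card, Fintype.card_prod]
  have hC : Nat.card {p : sBorel F × sBorel F // Commute p.1 p.2} =
      (Finset.univ.filter (fun p : (Fˣ × F) × (Fˣ × F) =>
        p.2.2 * ((p.1.1 : F) - ((p.1.1⁻¹ : Fˣ) : F)) =
          p.1.2 * ((p.2.1 : F) - ((p.2.1⁻¹ : Fˣ) : F)))).card := by
    rw [← Fintype.card_subtype, ← Nat.card_eq_fintype_card]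
    apply Nat.card_congr
    refine (Equiv.subtypeEquiv ((sBorelEquiv (F := F)).prodCongr (sBorelEquiv (F := F))) ?_).symm
    rintro ⟨a, b⟩
    exact (commute_iff a b).symm
  rw [hC, count h2, hB] at h1
  have hpos : 0 < Fintype.card Fˣ * Fintype.card F :=
    Nat.mul_pos Fintype.card_pos Fintype.card_pos
  exact (Nat.eq_of_mul_eq_mul_right hpos h1).symm

end Cfsg.Agent.S2437
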