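import Cfsg.Statements.S2531
import Mathlib
-- import your own Cfsg.Agent.* helpers here

set_option autoImplicit false
open Cfsg

namespace Cfsg.Agent.S2531

section prelim

variable {F : Type*} [Field F]

/-- points of a projective space lying in a subspace -/
def pts {V : Type*} [AddCommGroup V] [Module F V] (U : Submodule F V) :
    Set (Projectivization F V) := {x | x.rep ∈ U}

theorem mk_mem_pts {V : Type*} [AddCommGroup V] [Module F V] (U : Submodule F V) (v : V)
    (hv : v ≠ 0) : Projectivization.mk F v hv ∈ pts U ↔ v ∈ U := by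
  obtain ⟨a, ha⟩ := Projectivization.exists_smul_eq_mk_rep F v hv
  show (Projectivization.mk F v hv).rep ∈ U ↔ v ∈ U
  rw [← ha, Submodule.smul_mem_iff']

theorem card_pts {V : Type*} [AddCommGroup V] [Module F V] (U : Submodule F V) :
    Nat.card U - 1 = Nat.card (pts U) * (Nat.card F - 1) := by
  rw [Projectivization.card F U]
  congr 1
  have hinj : Function.Injective U.subtype := U.injective_subtype
  have hmap := Projectivization.map_injective U.subtype hinj
  have hrange : Set.range (Projectivization.map U.subtype hinj) = pts U := by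
    ext x
    constructor
    · rintro ⟨y, rfl⟩
      induction y using Projectivization.ind with
      | h u hu =>
        rw [Projectivization.map_mk, mk_mem_pts]
        exact u.2
    · intro hx
      induction x using Projectivization.ind with
      | h v hv =>
        rw [mk_mem_pts] at hx
        refine ⟨Projectivization.mk F ⟨v, hx⟩ (fun h => hv (congrArg Subtype.val h)), ?_⟩
        rw [Projectivization.map_mk]
        rfl
  rw [Nat.card_congr (Equiv.ofInjective _ hmap), hrange]

theorem card_pts_mod {V : Type*} [AddCommGroup V] [Module F V] [Finite F] [Finite V]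
    (U : Submodule F V) (hU : U ≠ ⊥) :
    ((Nat.card (pts U) : ℕ) : ZMod (Nat.card F)) = 1 := by
  have h1 := card_pts U
  have hq : 1 < Nat.card F := Finite.one_lt_card
  have hdvd : Nat.card F ∣ Nat.card U := by
    have hfr : 0 < Module.finrank F U := by
      rw [Module.finrank_pos_iff_exists_ne_zero]
      obtain ⟨u, hu, hu0⟩ := (Submodule.ne_bot_iff U).1 hU
      exact ⟨⟨u, hu⟩, fun h => hu0 (congrArg Subtype.val h)⟩
    rw [Module.natCard_eq_pow_finrank (K := F) (V := U)]
    exact dvd_pow_self _ hfr.ne'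
  have hpos : 0 < Nat.card U := Nat.card_pos
  have h2 : Nat.card U = Nat.card (pts U) * (Nat.card F - 1) + 1 := by omega
  have h3 := congrArg (fun m : ℕ => (m : ZMod (Nat.card F))) h2
  simp only [Nat.cast_add, Nat.cast_mul, Nat.cast_one] at h3
  rw [(ZMod.natCast_eq_zero_iff _ _).2 hdvd, Nat.cast_sub hq.le, ZMod.natCast_self,
    Nat.cast_one] at h3
  linear_combination h3

theorem natCard_pts_eq {V : Type*} [AddCommGroup V] [Module F V] (U : Submodule F V)
    [Fintype (Projectivization F V)] [DecidablePred (fun x => x ∈ pts U)] :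
    Nat.card (pts U) = (Finset.univ.filter (fun x => x ∈ pts U)).card := by
  rw [← Fintype.card_subtype, Nat.card_eq_fintype_card]

/-- the coordinate hyperplane -/
def Hyp (n : ℕ) (i : Fin n) : Submodule F (Fin n → F) :=
  LinearMap.ker (LinearMap.proj (R := F) (φ := fun _ : Fin n => F) i)

theorem mem_Hyp (n : ℕ) (i : Fin n) (v : Fin n → F) : v ∈ Hyp n i ↔ v i = 0 := by
  unfold Hyp
  rw [LinearMap.mem_ker, LinearMap.proj_apply]

theorem inf_comap_ne_bot [Finite F] (n : ℕ) (hn : 3 ≤ n) (i : Fin n) (σ : F ≃+* F)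
    (f : (Fin n → F) →ₛₗ[(σ : F →+* F)] (Fin n → F)) :
    Hyp n i ⊓ Submodule.comap f (Hyp n i) ≠ ⊥ := by
  classical
  haveI : Fintype F := Fintype.ofFinite F
  have hq : 1 < Fintype.card F := Fintype.one_lt_card
  have hcard : Fintype.card (F × F) < Fintype.card (Fin n → F) := by
    rw [Fintype.card_prod, Fintype.card_fun, Fintype.card_fin, ← pow_two]
    exact Nat.pow_lt_pow_right hq (by omega)
  obtain ⟨v, w, hvw, hψ⟩ := Fintype.exists_ne_map_eq_of_card_lt
    (fun v : Fin n → F => (v i, f v i)) hcard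
  rw [Submodule.ne_bot_iff]
  have h1 : v i = w i := congrArg Prod.fst hψ
  have h2 : f v i = f w i := congrArg Prod.snd hψ
  refine ⟨v - w, ?_, sub_ne_zero.2 hvw⟩
  rw [Submodule.mem_inf, Submodule.mem_comap, mem_Hyp, mem_Hyp, map_sub, Pi.sub_apply,
    Pi.sub_apply, h1, h2, sub_self, sub_self]
  exact ⟨rfl, rfl⟩

end prelim

/-- Let `F` be a finite field and `n ≥ 3`. No set of permutations of the points of the projective space of `Fⁿ`, each induced by an invertible semilinear transformation of `Fⁿ` (so a subset of the full projective semilinear group), is sharply 2-transitive on the points: it is impossible that for all pairs of distinct points `(a, b)` and `(c, d)` exactly one member of the set sends `a` to `c` and `b` to `d`. -/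
theorem result {F : Type*} [Field F] [Finite F]
    (n : ℕ) (hn : 3 ≤ n) (S : Set (Equiv.Perm (Projectivization F (Fin n → F))))
    (hS : ∀ s ∈ S, ∃ (σ : F ≃+* F) (f : (Fin n → F) →ₛₗ[(σ : F →+* F)] (Fin n → F)) (hf : Function.Injective f),
      ∀ x, s x = Projectivization.map f hf x) :
    ¬ (∀ a b c d : Projectivization F (Fin n → F), a ≠ b → c ≠ d →
        ∃! s, s ∈ S ∧ s a = c ∧ s b = d) := by
  classical
  intro hsharp
  haveI : Fintype F := Fintype.ofFinite F
  haveI : Fintype (Projectivization F (Fin n → F)) := Fintype.ofFinite _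
  have hq : 1 < Nat.card F := Finite.one_lt_card
  haveI : Fact (1 < Nat.card F) := ⟨hq⟩
  have hn0 : 0 < n := by omega
  have hn1 : 1 < n := by omega
  -- the point `a` and the hyperplane `H` missing it
  have hv0 : (Pi.single (⟨0, hn0⟩ : Fin n) (1 : F) : Fin n → F) ≠ 0 := by
    intro h
    have h1 := congrFun h ⟨0, hn0⟩
    simp at h1
  have hv1 : (Pi.single (⟨1, hn1⟩ : Fin n) (1 : F) : Fin n → F) ≠ 0 := by
    intro h
    have h1 := congrFun h ⟨1, hn1⟩
    simp at h1
  obtain ⟨a, ha⟩ : ∃ a : Projectivization F (Fin n → F),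
      a = Projectivization.mk F (Pi.single (⟨0, hn0⟩ : Fin n) (1 : F)) hv0 := ⟨_, rfl⟩
  obtain ⟨b, hb⟩ : ∃ b : Projectivization F (Fin n → F),
      b = Projectivization.mk F (Pi.single (⟨1, hn1⟩ : Fin n) (1 : F)) hv1 := ⟨_, rfl⟩
  have haH : a ∉ pts (Hyp (F := F) n ⟨0, hn0⟩) := by
    rw [ha, mk_mem_pts, mem_Hyp]
    simp
  have hbH : b ∈ pts (Hyp (F := F) n ⟨0, hn0⟩) := by
    rw [hb, mk_mem_pts, mem_Hyp]
    simp [Pi.single_apply]
  have hHne : Hyp (F := F) n ⟨0, hn0⟩ ≠ ⊥ := by
    rw [Submodule.ne_bot_iff]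
    refine ⟨Pi.single (⟨1, hn1⟩ : Fin n) (1 : F), ?_, hv1⟩
    rw [mem_Hyp]
    simp [Pi.single_apply]
  have htop : (⊤ : Submodule F (Fin n → F)) ≠ ⊥ := by
    rw [Submodule.ne_bot_iff]
    exact ⟨_, Submodule.mem_top, hv1⟩
  obtain ⟨B, hB⟩ : ∃ B : Finset (Projectivization F (Fin n → F)),
    B = Finset.univ.filter (fun x => x ∈ pts (Hyp (F := F) n ⟨0, hn0⟩)) := ⟨_, rfl⟩
  obtain ⟨T, hT⟩ : ∃ T : Finset (Equiv.Perm (Projectivization F (Fin n → F))),
    T = Finset.univ.filter (fun s => s ∈ S ∧ s a = a) := ⟨_, rfl⟩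
  have hmemB : ∀ x, x ∈ B ↔ x ∈ pts (Hyp (F := F) n ⟨0, hn0⟩) := by
    intro x
    rw [hB, Finset.mem_filter]
    simp
  have hmemT : ∀ s, s ∈ T ↔ s ∈ S ∧ s a = a := by
    intro s
    rw [hT, Finset.mem_filter]
    simp
  have haB : a ∉ B := fun h => haH ((hmemB a).1 h)
  have hbB : b ∈ B := (hmemB b).2 hbH
  have hne_of_mem : ∀ x, x ∈ B → a ≠ x := by
    rintro x hx rfl
    exact haB hx
  -- cardinalities modulo `q`
  have hBcard : ((B.card : ℕ) : ZMod (Nat.card F)) = 1 := by
    rw [hB, ← natCard_pts_eq]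
    exact card_pts_mod _ hHne
  have hNcard : (((Finset.univ : Finset (Projectivization F (Fin n → F))).card : ℕ) :
      ZMod (Nat.card F)) = 1 := by
    have h1 := card_pts_mod (⊤ : Submodule F (Fin n → F)) htop
    rw [natCard_pts_eq] at h1
    have h2 : Finset.univ.filter (fun x => x ∈ pts (⊤ : Submodule F (Fin n → F))) =
        Finset.univ := by
      rw [Finset.filter_eq_self]
      intro x _
      show x.rep ∈ (⊤ : Submodule F (Fin n → F))
      exact Submodule.mem_top
    rw [h2] at h1
    exact h1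
  -- step 1
  have hstep1 : ∀ t ∈ T, (((B.filter (fun x => t x ∈ B)).card : ℕ) : ZMod (Nat.card F)) = 1 := by
    intro t ht
    obtain ⟨σ, f, hf, hfx⟩ := hS t ((hmemT t).1 ht).1
    have h1 : B.filter (fun x => t x ∈ B) = Finset.univ.filter (fun x => x ∈
        pts (Hyp (F := F) n ⟨0, hn0⟩ ⊓ Submodule.comap f (Hyp (F := F) n ⟨0, hn0⟩))) := by
      ext x
      rw [Finset.mem_filter, Finset.mem_filter, hmemB, hmemB, hfx]
      induction x using Projectivization.ind with
      | h v hv =>
        rw [Projectivization.map_mk, mk_mem_pts, mk_mem_pts, mk_mem_pts, Submodule.mem_inf,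
          Submodule.mem_comap]
        simp
    rw [h1, ← natCard_pts_eq]
    exact card_pts_mod _ (inf_comap_ne_bot n hn _ σ f)
  -- step 2
  have hstep2 : ∑ t ∈ T, (B.filter (fun x => t x ∈ B)).card = B.card * B.card := by
    rw [← Finset.card_sigma, ← Finset.card_product]
    refine Finset.card_bij (fun p _ => (p.2, p.1 p.2)) ?_ ?_ ?_
    · rintro ⟨t, x⟩ hp
      rw [Finset.mem_sigma, Finset.mem_filter] at hp
      rw [Finset.mem_product]
      exact ⟨hp.2.1, hp.2.2⟩
    · rintro ⟨t, x⟩ hp ⟨t', x'⟩ hp' heq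
      rw [Finset.mem_sigma, Finset.mem_filter] at hp hp'
      rw [Prod.mk.injEq] at heq
      obtain ⟨hxx, htx⟩ := heq
      dsimp only at hxx htx hp hp'
      subst hxx
      have hu := (hsharp a x a (t x) (hne_of_mem x hp.2.1) (hne_of_mem _ hp.2.2)).unique
        ⟨((hmemT t).1 hp.1).1, ((hmemT t).1 hp.1).2, rfl⟩
        ⟨((hmemT t').1 hp'.1).1, ((hmemT t').1 hp'.1).2, htx.symm⟩
      rw [hu]
    · rintro ⟨x, y⟩ hxy
      rw [Finset.mem_product] at hxy
      obtain ⟨s, ⟨hsS, hsa, hsx⟩, -⟩ := hsharp a x a y (hne_of_mem x hxy.1) (hne_of_mem y hxy.2)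
      refine ⟨⟨s, x⟩, ?_, ?_⟩
      · rw [Finset.mem_sigma, Finset.mem_filter]
        refine ⟨(hmemT s).2 ⟨hsS, hsa⟩, hxy.1, ?_⟩
        show s x ∈ B
        rw [hsx]
        exact hxy.2
      · show (x, s x) = (x, y)
        rw [hsx]
  -- step 3
  have hstep3 : T.card = (Finset.univ.erase a).card := by
    refine Finset.card_bij (fun t _ => t b) ?_ ?_ ?_
    · intro t ht
      rw [Finset.mem_erase]
      refine ⟨?_, Finset.mem_univ _⟩
      intro h
      have h1 : t b = t a := by rw [h, ((hmemT t).1 ht).2]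
      exact hne_of_mem b hbB (t.injective h1).symm
    · intro t ht t' ht' heq
      have hta : a ≠ t b := by
        intro h
        have h1 : t b = t a := by rw [← h, ((hmemT t).1 ht).2]
        exact hne_of_mem b hbB (t.injective h1).symm
      exact (hsharp a b a (t b) (hne_of_mem b hbB) hta).unique
        ⟨((hmemT t).1 ht).1, ((hmemT t).1 ht).2, rfl⟩
        ⟨((hmemT t').1 ht').1, ((hmemT t').1 ht').2, heq.symm⟩
    · intro c hc
      rw [Finset.mem_erase] at hc
      obtain ⟨s, ⟨hsS, hsa, hsb⟩, -⟩ := hsharp a b a c (hne_of_mem b hbB) (Ne.symm hc.1)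
      exact ⟨s, (hmemT s).2 ⟨hsS, hsa⟩, hsb⟩
  -- conclusion
  have h1 := congrArg (fun m : ℕ => (m : ZMod (Nat.card F))) hstep2
  simp only [Nat.cast_sum, Nat.cast_mul] at h1
  rw [Finset.sum_congr rfl hstep1, hBcard, Finset.sum_const, nsmul_eq_mul, mul_one, mul_one,
    hstep3] at h1
  have h2 := Finset.card_erase_add_one (Finset.mem_univ a)
  have h3 := congrArg (fun m : ℕ => (m : ZMod (Nat.card F))) h2
  simp only [Nat.cast_add, Nat.cast_one] at h3
  rw [h1, hNcard] at h3
  exact one_ne_zero (α := ZMod (Nat.card F)) (by linear_combination h3)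

end Cfsg.Agent.S2531
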