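import Cfsg.Statements.S2532
import Mathlib
-- import your own Cfsg.Agent.* helpers here

set_option autoImplicit false
open Cfsg

namespace Cfsg.Agent.S2532

theorem exists_points {G α : Type*} [Group G] [Finite G] [MulAction G α] [Fintype α] (r : ℕ)
    (h : 2 ^ Nat.card G * (Nat.card G * r) ≤ Fintype.card α) :
    ∃ (x : Fin r → α) (S : Subgroup G), (∀ i, MulAction.stabilizer G (x i) = S) ∧
      ∀ i j, x i ∈ MulAction.orbit G (x j) → i = j := by
  classical
  haveI : Fintype G := Fintype.ofFinite G
  haveI : Fintype (Subgroup G) := Fintype.ofFinite _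
  have hn : 0 < Nat.card G := Nat.card_pos
  have hsub : Fintype.card (Subgroup G) ≤ 2 ^ Nat.card G := by
    have h1 : Fintype.card (Subgroup G) ≤ Fintype.card (Set G) :=
      Fintype.card_le_of_injective (fun S : Subgroup G => (S : Set G)) SetLike.coe_injective
    rw [Fintype.card_set] at h1
    rw [Nat.card_eq_fintype_card]
    exact h1
  obtain ⟨S, hS⟩ := Fintype.exists_le_card_fiber_of_mul_le_card
    (fun a : α => MulAction.stabilizer G a)
    (n := Nat.card G * r) (le_trans (Nat.mul_le_mul_right _ hsub) h)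
  set T : Finset α := Finset.univ.filter (fun a => MulAction.stabilizer G a = S) with hT
  let f : α → MulAction.orbitRel.Quotient G α := Quotient.mk (MulAction.orbitRel G α)
  have hcard : T.card ≤ Nat.card G * (T.image f).card := by
    apply Finset.card_le_mul_card_image
    intro a ha
    obtain ⟨y, -, rfl⟩ := Finset.mem_image.1 ha
    have hsubset : T.filter (fun x => f x = f y) ⊆ Finset.univ.image (fun g : G => g • y) := by
      intro x hx
      rw [Finset.mem_filter] at hx
      have h1 : MulAction.orbitRel G α x y := Quotient.exact hx.2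
      rw [MulAction.orbitRel_apply, MulAction.mem_orbit_iff] at h1
      obtain ⟨g, hg⟩ := h1
      exact Finset.mem_image.2 ⟨g, Finset.mem_univ _, hg⟩
    calc (T.filter (fun x => f x = f y)).card
        ≤ (Finset.univ.image (fun g : G => g • y)).card := Finset.card_le_card hsubset
      _ ≤ (Finset.univ : Finset G).card := Finset.card_image_le
      _ = Nat.card G := by rw [Finset.card_univ, Nat.card_eq_fintype_card]
  have hr : r ≤ (T.image f).card := Nat.le_of_mul_le_mul_left (le_trans hS hcard) hn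
  obtain ⟨e⟩ : Nonempty (Fin r ↪ {q // q ∈ T.image f}) :=
    Function.Embedding.nonempty_of_card_le (by rw [Fintype.card_fin, Fintype.card_coe]; exact hr)
  have hex : ∀ i, ∃ x ∈ T, f x = (e i : MulAction.orbitRel.Quotient G α) :=
    fun i => Finset.mem_image.1 (e i).2
  choose x hxT hxf using hex
  refine ⟨x, S, fun i => (Finset.mem_filter.1 (hxT i)).2, ?_⟩
  intro i j hij
  have h1 : f (x i) = f (x j) :=
    Quotient.sound (s := MulAction.orbitRel G α) ((MulAction.orbitRel_apply).2 hij)
  rw [hxf, hxf] at h1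
  exact e.injective (Subtype.ext h1)

theorem exists_hom {G α : Type*} [Group G] [Finite G] [MulAction G α] [Fintype α] [DecidableEq α]
    (r : ℕ) (x : Fin r → α) (S : Subgroup G) (hS : ∀ i, MulAction.stabilizer G (x i) = S)
    (hx : ∀ i j, x i ∈ MulAction.orbit G (x j) → i = j) :
    ∃ ψ : Equiv.Perm (Fin r) →* Equiv.Perm α, Function.Injective ψ ∧
      (∀ σ, Equiv.Perm.sign σ = 1 → Equiv.Perm.sign (ψ σ) = 1) ∧
      ∀ σ (g : G) (a : α), ψ σ (g • a) = g • ψ σ a := by
  classical
  haveI : Fintype (G ⧸ S) := Fintype.ofFinite _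
  let φ : (G ⧸ S) × Fin r → α := fun p => Quotient.liftOn' p.1 (fun g => g • x p.2) (by
    intro a b hab
    rw [QuotientGroup.leftRel_apply, ← hS p.2, MulAction.mem_stabilizer_iff] at hab
    show a • x p.2 = b • x p.2
    calc a • x p.2 = a • ((a⁻¹ * b) • x p.2) := by rw [hab]
      _ = b • x p.2 := by rw [smul_smul, mul_inv_cancel_left])
  have hφmk : ∀ (g : G) (i : Fin r), φ (QuotientGroup.mk g, i) = g • x i := fun g i => rfl
  have hφ : Function.Injective φ := by
    rintro ⟨q, i⟩ ⟨q', j⟩ h
    induction q using QuotientGroup.induction_on with | _ g => ?_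
    induction q' using QuotientGroup.induction_on with | _ g' => ?_
    rw [hφmk, hφmk] at h
    have hij : i = j := by
      apply hx
      rw [MulAction.mem_orbit_iff]
      refine ⟨g⁻¹ * g', ?_⟩
      rw [mul_smul, ← h, inv_smul_smul]
    subst hij
    have h1 : g⁻¹ * g' ∈ S := by
      rw [← hS i, MulAction.mem_stabilizer_iff, mul_smul, ← h, inv_smul_smul]
    rw [Prod.mk.injEq]
    exact ⟨QuotientGroup.eq.2 h1, rfl⟩
  let pc : Equiv.Perm (Fin r) →* Equiv.Perm ((G ⧸ S) × Fin r) :=
    { toFun := fun σ => Equiv.prodCongrRight (fun _ => σ)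
      map_one' := by ext ⟨q, i⟩ <;> rfl
      map_mul' := fun σ τ => by ext ⟨q, i⟩ <;> rfl }
  have hpc : Function.Injective pc := by
    intro σ τ hστ
    ext i
    have h1 := congrArg (fun e : Equiv.Perm ((G ⧸ S) × Fin r) =>
      (e ((QuotientGroup.mk 1 : G ⧸ S), i)).2) hστ
    exact congrArg Fin.val h1
  refine ⟨(Equiv.Perm.extendDomainHom (Equiv.ofInjective φ hφ)).comp pc,
    (Equiv.Perm.extendDomainHom_injective _).comp hpc, ?_, ?_⟩
  · intro σ hσ
    show Equiv.Perm.sign ((pc σ).extendDomain (Equiv.ofInjective φ hφ)) = 1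
    rw [Equiv.Perm.sign_extendDomain]
    show Equiv.Perm.sign (Equiv.prodCongrRight (fun _ => σ)) = 1
    rw [Equiv.Perm.sign_prodCongrRight]
    simp [hσ]
  · intro σ g a
    show (pc σ).extendDomain (Equiv.ofInjective φ hφ) (g • a) =
      g • (pc σ).extendDomain (Equiv.ofInjective φ hφ) a
    by_cases ha : a ∈ Set.range φ
    · obtain ⟨⟨q, i⟩, rfl⟩ := ha
      induction q using QuotientGroup.induction_on with | _ g0 => ?_
      have e1 : g • φ (QuotientGroup.mk g0, i) = φ (QuotientGroup.mk (g * g0), i) := by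
        rw [hφmk, hφmk, mul_smul]
      have e2 : ∀ p : (G ⧸ S) × Fin r, (pc σ).extendDomain (Equiv.ofInjective φ hφ) (φ p) =
          φ (pc σ p) := by
        intro p
        exact Equiv.Perm.extendDomain_apply_image (pc σ) (Equiv.ofInjective φ hφ) p
      rw [e1, e2, e2]
      show φ (QuotientGroup.mk (g * g0), σ i) = g • φ (QuotientGroup.mk g0, σ i)
      rw [hφmk, hφmk, mul_smul]
    · have hga : g • a ∉ Set.range φ := by
        rintro ⟨⟨q, i⟩, hq⟩
        induction q using QuotientGroup.induction_on with | _ g0 => ?_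
        apply ha
        refine ⟨(QuotientGroup.mk (g⁻¹ * g0), i), ?_⟩
        rw [hφmk] at hq ⊢
        rw [mul_smul, hq, inv_smul_smul]
      rw [Equiv.Perm.extendDomain_apply_not_subtype _ _ hga,
        Equiv.Perm.extendDomain_apply_not_subtype _ _ ha]

/-- There is a function `f` of two natural-number arguments such that, whenever `m ≥ f(n, r)`, every subgroup of order `n` of the alternating group of degree `m` centralizes some subgroup of that alternating group isomorphic to the alternating group of degree `r`. -/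
theorem result :
    ∃ f : ℕ → ℕ → ℕ, ∀ (m r : ℕ) (H : Subgroup ↥(alternatingGroup (Fin m))), f (Nat.card H) r ≤ m →
      ∃ K : Subgroup ↥(alternatingGroup (Fin m)), Nonempty (↥K ≃* ↥(alternatingGroup (Fin r))) ∧
        K ≤ Subgroup.centralizer (H : Set ↥(alternatingGroup (Fin m))) := by
  classical
  refine ⟨fun n r => 2 ^ n * (n * r), ?_⟩
  intro m r H hm
  have hm' : 2 ^ Nat.card H * (Nat.card H * r) ≤ Fintype.card (Fin m) := by
    rw [Fintype.card_fin]
    exact hm
  obtain ⟨x, S, hS, hx⟩ := exists_points (G := H) (α := Fin m) r hm'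
  obtain ⟨ψ, hinj, hsign, hcomm⟩ := exists_hom (G := H) (α := Fin m) r x S hS hx
  let ψ' : ↥(alternatingGroup (Fin r)) →* ↥(alternatingGroup (Fin m)) :=
    MonoidHom.codRestrict (ψ.comp (alternatingGroup (Fin r)).subtype) (alternatingGroup (Fin m))
      (fun σ => Equiv.Perm.mem_alternatingGroup.2
        (hsign _ (Equiv.Perm.mem_alternatingGroup.1 σ.2)))
  have hinj' : Function.Injective ψ' := by
    intro σ τ hστ
    have h1 : ψ (σ : Equiv.Perm (Fin r)) = ψ (τ : Equiv.Perm (Fin r)) :=
      congrArg Subtype.val hστ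
    exact Subtype.ext (hinj h1)
  refine ⟨ψ'.range, ⟨(MonoidHom.ofInjective hinj').symm⟩, ?_⟩
  rintro k ⟨σ, rfl⟩
  rw [Subgroup.mem_centralizer_iff]
  intro h hh
  apply Subtype.ext
  ext a
  have h1 := hcomm (σ : Equiv.Perm (Fin r)) ⟨h, hh⟩ a
  have h2 : ((h * ψ' σ : ↥(alternatingGroup (Fin m))) : Equiv.Perm (Fin m)) a =
      (h : Equiv.Perm (Fin m)) (ψ (σ : Equiv.Perm (Fin r)) a) := rfl
  have h3 : ((ψ' σ * h : ↥(alternatingGroup (Fin m))) : Equiv.Perm (Fin m)) a =
      ψ (σ : Equiv.Perm (Fin r)) ((h : Equiv.Perm (Fin m)) a) := rfl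
  rw [h2, h3]
  exact congrArg Fin.val h1.symm

end Cfsg.Agent.S2532
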