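import Cfsg.Statements.S2533
import Mathlib
-- import your own Cfsg.Agent.* helpers here

set_option autoImplicit false
open Cfsg

namespace Cfsg.Agent.S2533

open Matrix

section general

variable {n : Type*} [Fintype n] [DecidableEq n] {R : Type*} [Field R]

theorem scalar_mul_eq (r : R) (M : Matrix n n R) : Matrix.scalar n r * M = r • M := by
  ext i j
  simp [Matrix.scalar_apply, Matrix.diagonal_mul]

/-- projectively commuting with an element of non-zero trace means commuting. -/
theorem commute_of_trace (g h : Matrix.SpecialLinearGroup n R)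
    (hc : (QuotientGroup.mk g : Matrix.ProjectiveSpecialLinearGroup n R) * QuotientGroup.mk h =
      QuotientGroup.mk h * QuotientGroup.mk g)
    (ht : (h : Matrix n n R).trace ≠ 0) : g * h = h * g := by
  have h1 : (QuotientGroup.mk (h * g) : Matrix.ProjectiveSpecialLinearGroup n R) =
      QuotientGroup.mk (g * h) := hc.symm
  rw [QuotientGroup.eq] at h1
  obtain ⟨z, hz⟩ : ∃ z, z = (h * g)⁻¹ * (g * h) := ⟨_, rfl⟩
  rw [← hz] at h1
  have e1 : g * h = h * g * z := by
    rw [hz, mul_inv_cancel_left]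
  have hzc : ∀ x, x * z = z * x := fun x => Subgroup.mem_center_iff.1 h1 x
  have e2 : h = z * (g⁻¹ * h * g) := by
    calc h = g⁻¹ * (g * h) := by rw [inv_mul_cancel_left]
      _ = g⁻¹ * (z * (h * g)) := by rw [e1, hzc]
      _ = (g⁻¹ * z) * (h * g) := by rw [mul_assoc]
      _ = (z * g⁻¹) * (h * g) := by rw [hzc]
      _ = z * (g⁻¹ * h * g) := by simp only [mul_assoc]
  rw [Matrix.SpecialLinearGroup.mem_center_iff] at h1
  obtain ⟨r, -, hs⟩ := h1
  have e3 : (h : Matrix n n R).trace = r * (h : Matrix n n R).trace := by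
    have e4 : (h : Matrix n n R) = Matrix.scalar n r *
        (((g⁻¹ : Matrix.SpecialLinearGroup n R) : Matrix n n R) * (h : Matrix n n R) *
          (g : Matrix n n R)) := by
      rw [hs, ← Matrix.SpecialLinearGroup.coe_mul, ← Matrix.SpecialLinearGroup.coe_mul,
        ← Matrix.SpecialLinearGroup.coe_mul, ← e2]
    have e5 : (((g⁻¹ : Matrix.SpecialLinearGroup n R) : Matrix n n R) * (h : Matrix n n R) *
        (g : Matrix n n R)).trace = (h : Matrix n n R).trace := by
      rw [Matrix.trace_mul_comm, ← Matrix.SpecialLinearGroup.coe_mul,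
        ← Matrix.SpecialLinearGroup.coe_mul, mul_inv_cancel_left]
    nth_rewrite 1 [e4]
    rw [scalar_mul_eq, Matrix.trace_smul, e5, smul_eq_mul]
  have hr : r = 1 := by
    have : (r - 1) * (h : Matrix n n R).trace = 0 := by linear_combination -e3
    rcases mul_eq_zero.1 this with h5 | h5
    · linear_combination h5
    · exact absurd h5 ht
  have hz1 : z = 1 := by
    apply Subtype.ext
    rw [← hs, hr, map_one, Matrix.SpecialLinearGroup.coe_one]
  rw [e1, hz1, mul_one]

theorem sum_mul_ite {m : ℕ} (f : Fin m → R) (P : Fin m → Prop) [DecidablePred P] (s₀ : Fin m)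
    (hP : ∀ s, P s ↔ s = s₀) : ∑ s, f s * (if P s then 1 else 0) = f s₀ := by
  rw [Finset.sum_eq_single s₀]
  · rw [if_pos ((hP s₀).2 rfl), mul_one]
  · intro s _ hs
    rw [if_neg (fun h => hs ((hP s).1 h)), mul_zero]
  · intro h
    exact absurd (Finset.mem_univ _) h

theorem sum_ite_mul {m : ℕ} (f : Fin m → R) (P : Fin m → Prop) [DecidablePred P] (s₀ : Fin m)
    (hP : ∀ s, P s ↔ s = s₀) : ∑ s, (if P s then 1 else 0) * f s = f s₀ := by
  rw [Finset.sum_eq_single s₀]
  · rw [if_pos ((hP s₀).2 rfl), one_mul]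
  · intro s _ hs
    rw [if_neg (fun h => hs ((hP s).1 h)), zero_mul]
  · intro h
    exact absurd (Finset.mem_univ _) h

theorem sum_ite_mul_zero {m : ℕ} (f : Fin m → R) (P : Fin m → Prop) [DecidablePred P]
    (hP : ∀ s, ¬ P s) : ∑ s, (if P s then 1 else 0) * f s = 0 := by
  apply Finset.sum_eq_zero
  intro s _
  rw [if_neg (hP s), zero_mul]

end general

section mats

variable (p : ℕ) [Fact p.Prime] (k : ℕ)

/-- non-zero entries only in rows `≤ k` and columns `> k`. -/
def IsUR (N : Matrix (Fin (2 * k + 1)) (Fin (2 * k + 1)) (ZMod p)) : Prop :=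
  ∀ r c : Fin (2 * k + 1), ¬((r : ℕ) ≤ k ∧ k < (c : ℕ)) → N r c = 0

variable {p k}

theorem IsUR.add {N N' : Matrix (Fin (2 * k + 1)) (Fin (2 * k + 1)) (ZMod p)}
    (h : IsUR p k N) (h' : IsUR p k N') : IsUR p k (N + N') := fun r c hrc => by
  rw [Matrix.add_apply, h r c hrc, h' r c hrc, add_zero]

theorem IsUR.smul {N : Matrix (Fin (2 * k + 1)) (Fin (2 * k + 1)) (ZMod p)} (a : ZMod p)
    (h : IsUR p k N) : IsUR p k (a • N) := fun r c hrc => by
  rw [Matrix.smul_apply, h r c hrc, smul_zero]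

theorem IsUR.mul_eq_zero {N N' : Matrix (Fin (2 * k + 1)) (Fin (2 * k + 1)) (ZMod p)}
    (h : IsUR p k N) (h' : IsUR p k N') : N * N' = 0 := by
  ext r c
  rw [Matrix.mul_apply, Matrix.zero_apply]
  apply Finset.sum_eq_zero
  intro s _
  by_cases hs : (s : ℕ) ≤ k
  · rw [h r s (by omega), zero_mul]
  · rw [h' s c (by omega), mul_zero]

theorem IsUR.diag {N : Matrix (Fin (2 * k + 1)) (Fin (2 * k + 1)) (ZMod p)}
    (h : IsUR p k N) (i : Fin (2 * k + 1)) : N i i = 0 := h i i (by omega)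

theorem IsUR.det {N : Matrix (Fin (2 * k + 1)) (Fin (2 * k + 1)) (ZMod p)}
    (h : IsUR p k N) : (1 + N).det = 1 := by
  rw [Matrix.det_of_isUpperTriangular]
  · apply Finset.prod_eq_one
    intro i _
    rw [Matrix.add_apply, Matrix.one_apply_eq, h.diag, add_zero]
  · intro i j hij
    have hij' : (j : ℕ) < (i : ℕ) := hij
    have hne : i ≠ j := by
      intro h
      rw [h] at hij'
      omega
    show (1 + N) i j = 0
    rw [Matrix.add_apply, Matrix.one_apply_ne hne, zero_add]
    apply h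
    omega

variable (p k)

def mA : Matrix (Fin (2 * k + 1)) (Fin (2 * k + 1)) (ZMod p) :=
  Matrix.of fun r c => if (r : ℕ) + (k + 1) = (c : ℕ) then 1 else 0

def mB : Matrix (Fin (2 * k + 1)) (Fin (2 * k + 1)) (ZMod p) :=
  Matrix.of fun r c => if (r : ℕ) + k = (c : ℕ) ∧ 0 < (r : ℕ) then 1 else 0

def mC : Matrix (Fin (2 * k + 1)) (Fin (2 * k + 1)) (ZMod p) :=
  Matrix.of fun r c => if (r : ℕ) = k ∧ (c : ℕ) = k + 1 then 1 else 0

theorem isUR_mA : IsUR p k (mA p k) := fun r c hrc => by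
  rw [mA, Matrix.of_apply, if_neg]
  have := c.2
  omega

theorem isUR_mB : IsUR p k (mB p k) := fun r c hrc => by
  rw [mB, Matrix.of_apply, if_neg]
  have := c.2
  omega

theorem isUR_mC : IsUR p k (mC p k) := fun r c hrc => by
  rw [mC, Matrix.of_apply, if_neg]
  omega

def mN (v : Fin 3 → ZMod p) : Matrix (Fin (2 * k + 1)) (Fin (2 * k + 1)) (ZMod p) :=
  v 0 • mA p k + v 1 • mB p k + v 2 • mC p k

theorem isUR_mN (v : Fin 3 → ZMod p) : IsUR p k (mN p k v) :=
  (((isUR_mA p k).smul _).add ((isUR_mB p k).smul _)).add ((isUR_mC p k).smul _)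

theorem mN_add (v w : Fin 3 → ZMod p) : mN p k (v + w) = mN p k v + mN p k w := by
  simp only [mN, Pi.add_apply, add_smul]
  abel

theorem mN_smul (a : ZMod p) (v : Fin 3 → ZMod p) : mN p k (a • v) = a • mN p k v := by
  simp only [mN, Pi.smul_apply, smul_eq_mul, mul_smul, smul_add]

theorem one_add_mul (v w : Fin 3 → ZMod p) :
    (1 + mN p k v) * (1 + mN p k w) = 1 + mN p k (v + w) := by
  rw [add_mul, mul_add, mul_add, one_mul, mul_one, one_mul,
    (isUR_mN p k v).mul_eq_zero (isUR_mN p k w), add_zero, mN_add]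
  abel

def dg (c : ZMod p) : Fin (2 * k + 1) → ZMod p := fun i => if (i : ℕ) ≤ k then 1 else c

theorem diag_mul_UR {N : Matrix (Fin (2 * k + 1)) (Fin (2 * k + 1)) (ZMod p)} (h : IsUR p k N)
    (c : ZMod p) : Matrix.diagonal (dg p k c) * N = N := by
  ext r s
  rw [Matrix.diagonal_mul]
  by_cases hr : (r : ℕ) ≤ k
  · rw [dg, if_pos hr, one_mul]
  · rw [h r s (by omega), mul_zero]

theorem UR_mul_diag {N : Matrix (Fin (2 * k + 1)) (Fin (2 * k + 1)) (ZMod p)} (h : IsUR p k N)
    (c : ZMod p) : N * Matrix.diagonal (dg p k c) = c • N := by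
  ext r s
  rw [Matrix.mul_diagonal, Matrix.smul_apply, smul_eq_mul]
  by_cases hs : k < (s : ℕ)
  · rw [dg, if_neg (by omega), mul_comm]
  · rw [h r s (by omega), zero_mul, mul_zero]

theorem prod_dg (c : ZMod p) : ∏ i : Fin (2 * k + 1), dg p k c i = c ^ k := by
  have h1 : (∏ i : Fin (2 * k + 1), dg p k c i) =
      ∏ i : Fin (2 * k + 1), (fun x : ℕ => if x ≤ k then (1 : ZMod p) else c) (i : ℕ) := rfl
  rw [h1, Fin.prod_univ_eq_prod_range (fun x : ℕ => if x ≤ k then (1 : ZMod p) else c) (2 * k + 1),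
    show 2 * k + 1 = (k + 1) + k by ring, Finset.prod_range_add,
    Finset.prod_eq_one (fun x hx => if_pos (by have := Finset.mem_range.1 hx; omega)), one_mul,
    Finset.prod_congr rfl (fun x _ => if_neg (by omega)), Finset.prod_const, Finset.card_range]

theorem sum_dg (c : ZMod p) : ∑ i : Fin (2 * k + 1), dg p k c i = ((k : ZMod p) + 1) + k * c := by
  have h1 : (∑ i : Fin (2 * k + 1), dg p k c i) =
      ∑ i : Fin (2 * k + 1), (fun x : ℕ => if x ≤ k then (1 : ZMod p) else c) (i : ℕ) := rfl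
  rw [h1, Fin.sum_univ_eq_sum_range (fun x : ℕ => if x ≤ k then (1 : ZMod p) else c) (2 * k + 1),
    show 2 * k + 1 = (k + 1) + k by ring, Finset.sum_range_add,
    Finset.sum_congr rfl (fun x hx => if_pos (by have := Finset.mem_range.1 hx; omega)),
    Finset.sum_congr (s₂ := Finset.range k) rfl (fun x _ => if_neg (by omega)), Finset.sum_const,
    Finset.sum_const, Finset.card_range, Finset.card_range]
  simp

end mats

section grp

variable (p : ℕ) [Fact p.Prime]

theorem units_cast_sq (u : ℤˣ) : (((u : ℤ) : ZMod p)) * (((u : ℤ) : ZMod p)) = 1 := by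
  rw [← Int.cast_mul, ← Units.val_mul, Int.units_mul_self, Units.val_one, Int.cast_one]

/-- the action of `ℤˣ` by powers. -/
def act : ℤˣ →* MulAut (Multiplicative (Fin 3 → ZMod p)) where
  toFun u :=
    { toFun := fun v => v ^ (u : ℤ)
      invFun := fun v => v ^ (u : ℤ)
      left_inv := fun v => by
        show (v ^ (u : ℤ)) ^ (u : ℤ) = v
        rw [← _root_.zpow_mul, ← Units.val_mul, Int.units_mul_self, Units.val_one, zpow_one]
      right_inv := fun v => by
        show (v ^ (u : ℤ)) ^ (u : ℤ) = v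
        rw [← _root_.zpow_mul, ← Units.val_mul, Int.units_mul_self, Units.val_one, zpow_one]
      map_mul' := fun a b => mul_zpow a b (u : ℤ) }
  map_one' := by
    refine MulEquiv.ext fun v => ?_
    show v ^ ((1 : ℤˣ) : ℤ) = v
    rw [Units.val_one, zpow_one]
  map_mul' := fun u w => by
    refine MulEquiv.ext fun v => ?_
    show v ^ ((u * w : ℤˣ) : ℤ) = (v ^ (w : ℤ)) ^ (u : ℤ)
    rw [← _root_.zpow_mul, Units.val_mul, mul_comm]

variable (k : ℕ)

def xel (v : Fin 3 → ZMod p) : Matrix.SpecialLinearGroup (Fin (2 * k + 1)) (ZMod p) :=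
  ⟨1 + mN p k v, (isUR_mN p k v).det⟩

def f1 : Multiplicative (Fin 3 → ZMod p) →*
    Matrix.SpecialLinearGroup (Fin (2 * k + 1)) (ZMod p) :=
  MonoidHom.mk' (fun v => xel p k (Multiplicative.toAdd v)) (fun a b => by
    apply Subtype.ext
    rw [Matrix.SpecialLinearGroup.coe_mul]
    exact (one_add_mul p k _ _).symm)

theorem dg_mul (c c' : ZMod p) (i : Fin (2 * k + 1)) :
    dg p k (c * c') i = dg p k c i * dg p k c' i := by
  simp only [dg]
  split_ifs <;> simp

def f2 (hk : Even k) : ℤˣ →* Matrix.SpecialLinearGroup (Fin (2 * k + 1)) (ZMod p) where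
  toFun u := ⟨Matrix.diagonal (dg p k ((u : ℤ) : ZMod p)), by
    rw [Matrix.det_diagonal, prod_dg]
    obtain ⟨m, hm⟩ := hk
    rw [hm, ← two_mul, pow_mul, sq, units_cast_sq, one_pow]⟩
  map_one' := by
    apply Subtype.ext
    show Matrix.diagonal (dg p k (((1 : ℤˣ) : ℤ) : ZMod p)) = 1
    rw [Units.val_one, Int.cast_one, ← Matrix.diagonal_one]
    congr 1
    funext i
    simp [dg]
  map_mul' := fun u w => by
    apply Subtype.ext
    show Matrix.diagonal (dg p k (((u * w : ℤˣ) : ℤ) : ZMod p)) =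
      Matrix.diagonal (dg p k ((u : ℤ) : ZMod p)) * Matrix.diagonal (dg p k ((w : ℤ) : ZMod p))
    rw [Matrix.diagonal_mul_diagonal, Units.val_mul, Int.cast_mul]
    congr 1
    funext i
    exact dg_mul p k _ _ i

theorem compat (hk : Even k) (u : ℤˣ) :
    (f1 p k).comp (act p u).toMonoidHom =
      (MulAut.conj (f2 p k hk u)).toMonoidHom.comp (f1 p k) := by
  refine MonoidHom.ext fun v => ?_
  show f1 p k (v ^ (u : ℤ)) = f2 p k hk u * f1 p k v * (f2 p k hk u)⁻¹
  rw [eq_mul_inv_iff_mul_eq]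
  apply Subtype.ext
  rw [Matrix.SpecialLinearGroup.coe_mul, Matrix.SpecialLinearGroup.coe_mul]
  show (1 + mN p k (Multiplicative.toAdd (v ^ (u : ℤ)))) *
      Matrix.diagonal (dg p k ((u : ℤ) : ZMod p)) =
    Matrix.diagonal (dg p k ((u : ℤ) : ZMod p)) * (1 + mN p k (Multiplicative.toAdd v))
  have e1 : Multiplicative.toAdd (v ^ (u : ℤ)) =
      ((u : ℤ) : ZMod p) • Multiplicative.toAdd v := by
    rw [toAdd_zpow, Int.cast_smul_eq_zsmul]
  rw [e1, mN_smul, add_mul, mul_add, one_mul, mul_one,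
    UR_mul_diag p k ((isUR_mN p k _).smul _), diag_mul_UR p k (isUR_mN p k _), smul_smul,
    units_cast_sq, one_smul]

def rho (hk : Even k) : Multiplicative (Fin 3 → ZMod p) ⋊[act p] ℤˣ →*
    Matrix.SpecialLinearGroup (Fin (2 * k + 1)) (ZMod p) :=
  SemidirectProduct.lift (f1 p k) (f2 p k hk) (compat p k hk)

theorem rho_apply (hk : Even k) (h : Multiplicative (Fin 3 → ZMod p) ⋊[act p] ℤˣ) :
    (rho p k hk h : Matrix (Fin (2 * k + 1)) (Fin (2 * k + 1)) (ZMod p)) =
      (1 + mN p k (Multiplicative.toAdd h.left)) *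
        Matrix.diagonal (dg p k ((h.right : ℤ) : ZMod p)) := by
  conv_lhs => rw [← SemidirectProduct.inl_left_mul_inr_right h]
  rw [rho, map_mul, SemidirectProduct.lift_inl, SemidirectProduct.lift_inr,
    Matrix.SpecialLinearGroup.coe_mul]
  rfl

theorem mN_entry0 (hk2 : 2 ≤ k) (v : Fin 3 → ZMod p) :
    mN p k v ⟨0, by omega⟩ ⟨k + 1, by omega⟩ = v 0 := by
  simp only [mN, mA, mB, mC, Matrix.add_apply, Matrix.smul_apply, Matrix.of_apply, smul_eq_mul]
  rw [if_pos (by omega), if_neg (by omega), if_neg (by omega)]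
  ring

theorem mN_entry1 (hk2 : 2 ≤ k) (v : Fin 3 → ZMod p) :
    mN p k v ⟨1, by omega⟩ ⟨k + 1, by omega⟩ = v 1 := by
  simp only [mN, mA, mB, mC, Matrix.add_apply, Matrix.smul_apply, Matrix.of_apply, smul_eq_mul]
  rw [if_neg (by omega), if_pos (by omega), if_neg (by omega)]
  ring

theorem mN_entry2 (hk2 : 2 ≤ k) (v : Fin 3 → ZMod p) :
    mN p k v ⟨k, by omega⟩ ⟨k + 1, by omega⟩ = v 2 := by
  simp only [mN, mA, mB, mC, Matrix.add_apply, Matrix.smul_apply, Matrix.of_apply, smul_eq_mul]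
  have h1 : k ≠ 0 := by omega
  have h2 : k ≠ 1 := by omega
  simp [h1, h2]

end grp

section main

variable (p : ℕ) [Fact p.Prime] (k : ℕ)

theorem rho_inj (hp2 : (2 : ZMod p) ≠ 0) (hk2 : 2 ≤ k) (hk : Even k)
    (h : Multiplicative (Fin 3 → ZMod p) ⋊[act p] ℤˣ) (c : ZMod p)
    (hs : Matrix.scalar (Fin (2 * k + 1)) c =
      (rho p k hk h : Matrix (Fin (2 * k + 1)) (Fin (2 * k + 1)) (ZMod p))) : h = 1 := by
  rw [rho_apply] at hs
  have hUR := isUR_mN p k (Multiplicative.toAdd h.left)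
  have ent : ∀ r s : Fin (2 * k + 1), (Matrix.scalar (Fin (2 * k + 1)) c) r s =
      ((1 : Matrix (Fin (2 * k + 1)) (Fin (2 * k + 1)) (ZMod p)) r s +
        mN p k (Multiplicative.toAdd h.left) r s) * dg p k ((h.right : ℤ) : ZMod p) s := by
    intro r s
    rw [hs, Matrix.mul_diagonal, Matrix.add_apply]
  have e0 := ent ⟨0, by omega⟩ ⟨0, by omega⟩
  rw [Matrix.scalar_apply, Matrix.diagonal_apply_eq, Matrix.one_apply_eq, hUR.diag, add_zero,
    one_mul, dg, if_pos (by simp)] at e0
  have e1 := ent ⟨2 * k, by omega⟩ ⟨2 * k, by omega⟩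
  rw [Matrix.scalar_apply, Matrix.diagonal_apply_eq, Matrix.one_apply_eq, hUR.diag, add_zero,
    one_mul, dg, if_neg (by simp; omega), e0] at e1
  have hu : h.right = 1 := by
    rcases Int.units_eq_one_or h.right with h1 | h1
    · exact h1
    · exfalso
      rw [h1] at e1
      simp only [Units.val_neg, Units.val_one, Int.cast_neg, Int.cast_one] at e1
      apply hp2
      linear_combination e1
  have hdg : ∀ s : Fin (2 * k + 1), dg p k ((h.right : ℤ) : ZMod p) s = 1 := by
    intro s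
    rw [← e1, dg]
    split_ifs <;> rfl
  have off : ∀ r s : Fin (2 * k + 1), r ≠ s → mN p k (Multiplicative.toAdd h.left) r s = 0 := by
    intro r s hrs
    have e := ent r s
    rw [Matrix.scalar_apply, Matrix.diagonal_apply_ne _ hrs, Matrix.one_apply_ne hrs, zero_add,
      hdg, mul_one] at e
    exact e.symm
  have v0 := off ⟨0, by omega⟩ ⟨k + 1, by omega⟩ (by simp [Fin.ext_iff])
  have v1 := off ⟨1, by omega⟩ ⟨k + 1, by omega⟩ (by simp [Fin.ext_iff]; omega)
  have v2 := off ⟨k, by omega⟩ ⟨k + 1, by omega⟩ (by simp [Fin.ext_iff])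
  rw [mN_entry0 p k hk2] at v0
  rw [mN_entry1 p k hk2] at v1
  rw [mN_entry2 p k hk2] at v2
  have hl : h.left = 1 := by
    have : Multiplicative.toAdd h.left = 0 := by
      funext i
      fin_cases i
      · exact v0
      · exact v1
      · exact v2
    exact this
  exact SemidirectProduct.ext hl hu

theorem trace_f1 (hkp : (k : ZMod p) = 0) (v : Multiplicative (Fin 3 → ZMod p)) :
    (f1 p k v : Matrix (Fin (2 * k + 1)) (Fin (2 * k + 1)) (ZMod p)).trace = 1 := by
  show (1 + mN p k (Multiplicative.toAdd v)).trace = 1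
  have h0 : (mN p k (Multiplicative.toAdd v)).trace = 0 := by
    rw [Matrix.trace]
    apply Finset.sum_eq_zero
    intro i _
    exact (isUR_mN p k _).diag i
  rw [Matrix.trace_add, Matrix.trace_one, Fintype.card_fin, h0, add_zero]
  push_cast
  rw [hkp]
  ring

theorem trace_f2 (hk : Even k) (hkp : (k : ZMod p) = 0) (u : ℤˣ) :
    (f2 p k hk u : Matrix (Fin (2 * k + 1)) (Fin (2 * k + 1)) (ZMod p)).trace = 1 := by
  show (Matrix.diagonal (dg p k ((u : ℤ) : ZMod p))).trace = 1
  rw [Matrix.trace_diagonal, sum_dg, hkp]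
  ring

theorem toeplitz (hp2 : (2 : ZMod p) ≠ 0)
    (g : Matrix (Fin (2 * k + 1)) (Fin (2 * k + 1)) (ZMod p))
    (hA : g * mA p k = mA p k * g) (hB : g * mB p k = mB p k * g)
    (ht : g * Matrix.diagonal (dg p k (-1)) = Matrix.diagonal (dg p k (-1)) * g) :
    ∃ μ : ZMod p, Matrix.scalar (Fin (2 * k + 1)) μ = g := by
  obtain ⟨G, hGdef⟩ : ∃ G : ℕ → ℕ → ZMod p, G = fun a b =>
      if h : a < 2 * k + 1 ∧ b < 2 * k + 1 then g ⟨a, h.1⟩ ⟨b, h.2⟩ else 0 := ⟨_, rfl⟩
  have hG : ∀ (a b : ℕ) (ha : a < 2 * k + 1) (hb : b < 2 * k + 1), g ⟨a, ha⟩ ⟨b, hb⟩ = G a b := by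
    intro a b ha hb
    rw [hGdef]
    simp only
    rw [dif_pos ⟨ha, hb⟩]
  have T1 : ∀ a b, a < k → b < k → G a b = G (a + k + 1) (b + k + 1) := by
    intro a b ha hb
    have e := congrFun (congrFun hA ⟨a, by omega⟩) ⟨b + k + 1, by omega⟩
    rw [Matrix.mul_apply, Matrix.mul_apply] at e
    simp only [mA, Matrix.of_apply] at e
    rw [sum_mul_ite _ _ ⟨b, by omega⟩ (fun s => by rw [Fin.ext_iff]; simp only; omega),
      sum_ite_mul _ _ ⟨a + k + 1, by omega⟩ (fun s => by rw [Fin.ext_iff]; simp only; omega),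
      hG, hG] at e
    exact e
  have T2 : ∀ b, b < k → G k b = 0 := by
    intro b hb
    have e := congrFun (congrFun hA ⟨k, by omega⟩) ⟨b + k + 1, by omega⟩
    rw [Matrix.mul_apply, Matrix.mul_apply] at e
    simp only [mA, Matrix.of_apply] at e
    rw [sum_mul_ite _ _ ⟨b, by omega⟩ (fun s => by rw [Fin.ext_iff]; simp only; omega),
      sum_ite_mul_zero _ _ (fun s => by have := s.2; omega), hG] at e
    exact e
  have T3 : ∀ a b, 1 ≤ a → a ≤ k → b < k → G a (b + 1) = G (a + k) (b + k + 1) := by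
    intro a b ha1 ha hb
    have e := congrFun (congrFun hB ⟨a, by omega⟩) ⟨b + k + 1, by omega⟩
    rw [Matrix.mul_apply, Matrix.mul_apply] at e
    simp only [mB, Matrix.of_apply] at e
    rw [sum_mul_ite _ _ ⟨b + 1, by omega⟩ (fun s => by rw [Fin.ext_iff]; simp only; omega),
      sum_ite_mul _ _ ⟨a + k, by omega⟩ (fun s => by rw [Fin.ext_iff]; simp only; omega),
      hG, hG] at e
    exact e
  have T4 : ∀ b, b < k → G 0 (b + 1) = 0 := by
    intro b hb
    have e := congrFun (congrFun hB ⟨0, by omega⟩) ⟨b + k + 1, by omega⟩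
    rw [Matrix.mul_apply, Matrix.mul_apply] at e
    simp only [mB, Matrix.of_apply] at e
    rw [sum_mul_ite _ _ ⟨b + 1, by omega⟩ (fun s => by rw [Fin.ext_iff]; simp only; omega),
      sum_ite_mul_zero _ _ (fun s => by simp), hG] at e
    exact e
  have T5 : ∀ r c : Fin (2 * k + 1),
      (((r : ℕ) ≤ k ∧ k < (c : ℕ)) ∨ ((c : ℕ) ≤ k ∧ k < (r : ℕ))) → g r c = 0 := by
    intro r c hrc
    have e := congrFun (congrFun ht r) c
    rw [Matrix.mul_diagonal, Matrix.diagonal_mul] at e
    simp only [dg] at e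
    rcases hrc with ⟨h1, h2⟩ | ⟨h1, h2⟩
    · rw [if_neg (by omega), if_pos h1] at e
      have h3 : (2 : ZMod p) * g r c = 0 := by linear_combination -e
      exact (mul_eq_zero.1 h3).resolve_left hp2
    · rw [if_pos h1, if_neg (by omega)] at e
      have h3 : (2 : ZMod p) * g r c = 0 := by linear_combination e
      exact (mul_eq_zero.1 h3).resolve_left hp2
  have T6 : ∀ a b, a < k → b < k → G (a + 1) (b + 1) = G a b := by
    intro a b ha hb
    rw [T3 (a + 1) b (by omega) (by omega) hb, T1 a b ha hb,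
      show a + 1 + k = a + k + 1 by omega]
  have T7 : ∀ a d, a + d + 1 ≤ k → G a (a + d + 1) = 0 := by
    intro a
    induction a with
    | zero =>
      intro d hd
      rw [show 0 + d + 1 = d + 1 by omega]
      exact T4 d (by omega)
    | succ a ih =>
      intro d hd
      rw [show a + 1 + d + 1 = (a + d + 1) + 1 by omega, T6 _ _ (by omega) (by omega)]
      exact ih d (by omega)
  have T8 : ∀ m a d, a + d + 1 + m = k → G (a + d + 1) a = 0 := by
    intro m
    induction m with
    | zero =>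
      intro a d hd
      rw [show a + d + 1 = k by omega]
      exact T2 a (by omega)
    | succ m ih =>
      intro a d hd
      rw [← T6 _ _ (by omega) (by omega), show a + d + 1 + 1 = (a + 1) + d + 1 by omega]
      exact ih (a + 1) d (by omega)
  have T9 : ∀ a, a ≤ k → G a a = G 0 0 := by
    intro a
    induction a with
    | zero => intro _; rfl
    | succ a ih =>
      intro ha
      rw [T6 _ _ (by omega) (by omega)]
      exact ih (by omega)
  have block : ∀ a b, a ≤ k → b ≤ k → G a b = if a = b then G 0 0 else 0 := by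
    intro a b ha hb
    rcases lt_trichotomy a b with h | h | h
    · rw [if_neg (by omega)]
      obtain ⟨d, rfl⟩ : ∃ d, b = a + d + 1 := ⟨b - a - 1, by omega⟩
      exact T7 a d (by omega)
    · rw [if_pos h, ← h]
      exact T9 a ha
    · rw [if_neg (by omega)]
      obtain ⟨d, rfl⟩ : ∃ d, a = b + d + 1 := ⟨a - b - 1, by omega⟩
      exact T8 (k - (b + d + 1)) b d (by omega)
  refine ⟨G 0 0, ?_⟩
  ext r c
  rw [Matrix.scalar_apply, Matrix.diagonal_apply]
  obtain ⟨a, ha⟩ := r
  obtain ⟨b, hb⟩ := c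
  rw [hG]
  simp only [Fin.mk.injEq]
  by_cases hak : a ≤ k
  · by_cases hbk : b ≤ k
    · exact (block a b hak hbk).symm
    · have h5 := T5 ⟨a, ha⟩ ⟨b, hb⟩ (Or.inl ⟨hak, by simp only; omega⟩)
      rw [hG] at h5
      rw [h5, if_neg (by omega)]
  · by_cases hbk : b ≤ k
    · have h5 := T5 ⟨a, ha⟩ ⟨b, hb⟩ (Or.inr ⟨hbk, by simp only; omega⟩)
      rw [hG] at h5
      rw [h5, if_neg (by omega)]
    · obtain ⟨a', rfl⟩ : ∃ a', a = a' + k + 1 := ⟨a - k - 1, by omega⟩
      obtain ⟨b', rfl⟩ : ∃ b', b = b' + k + 1 := ⟨b - k - 1, by omega⟩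
      rw [← T1 a' b' (by omega) (by omega), block a' b' (by omega) (by omega)]
      by_cases hab : a' = b'
      · rw [if_pos hab, if_pos (by omega)]
      · rw [if_neg hab, if_neg (by omega)]

theorem rho_cent (hp2 : (2 : ZMod p) ≠ 0) (hk : Even k) (hkp : (k : ZMod p) = 0)
    (g : Matrix.SpecialLinearGroup (Fin (2 * k + 1)) (ZMod p))
    (hg : ∀ h, (QuotientGroup.mk g :
        Matrix.ProjectiveSpecialLinearGroup (Fin (2 * k + 1)) (ZMod p)) *
          QuotientGroup.mk (rho p k hk h) = QuotientGroup.mk (rho p k hk h) * QuotientGroup.mk g) :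
    ∃ μ : ZMod p, Matrix.scalar (Fin (2 * k + 1)) μ =
      (g : Matrix (Fin (2 * k + 1)) (Fin (2 * k + 1)) (ZMod p)) := by
  have hrl : ∀ v, rho p k hk (SemidirectProduct.inl v) = f1 p k v :=
    fun v => SemidirectProduct.lift_inl _ _ _ v
  have hrr : ∀ u, rho p k hk (SemidirectProduct.inr u) = f2 p k hk u :=
    fun u => SemidirectProduct.lift_inr _ _ _ u
  have cA := commute_of_trace g (f1 p k (Multiplicative.ofAdd ![1, 0, 0]))
    (by rw [← hrl]; exact hg _) (by rw [trace_f1 p k hkp]; exact one_ne_zero)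
  have cB := commute_of_trace g (f1 p k (Multiplicative.ofAdd ![0, 1, 0]))
    (by rw [← hrl]; exact hg _) (by rw [trace_f1 p k hkp]; exact one_ne_zero)
  have cT := commute_of_trace g (f2 p k hk (-1))
    (by rw [← hrr]; exact hg _) (by rw [trace_f2 p k hk hkp]; exact one_ne_zero)
  apply toeplitz p k hp2
  · have e := congrArg (fun x : Matrix.SpecialLinearGroup (Fin (2 * k + 1)) (ZMod p) =>
      (x : Matrix (Fin (2 * k + 1)) (Fin (2 * k + 1)) (ZMod p))) cA
    simp only [Matrix.SpecialLinearGroup.coe_mul] at e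
    have e2 : (f1 p k (Multiplicative.ofAdd ![1, 0, 0]) :
        Matrix (Fin (2 * k + 1)) (Fin (2 * k + 1)) (ZMod p)) = 1 + mA p k := by
      show 1 + mN p k ![1, 0, 0] = 1 + mA p k
      congr 1
      simp [mN]
    rw [e2, mul_add, add_mul, mul_one, one_mul] at e
    exact add_left_cancel e
  · have e := congrArg (fun x : Matrix.SpecialLinearGroup (Fin (2 * k + 1)) (ZMod p) =>
      (x : Matrix (Fin (2 * k + 1)) (Fin (2 * k + 1)) (ZMod p))) cB
    simp only [Matrix.SpecialLinearGroup.coe_mul] at e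
    have e2 : (f1 p k (Multiplicative.ofAdd ![0, 1, 0]) :
        Matrix (Fin (2 * k + 1)) (Fin (2 * k + 1)) (ZMod p)) = 1 + mB p k := by
      show 1 + mN p k ![0, 1, 0] = 1 + mB p k
      congr 1
      simp [mN]
    rw [e2, mul_add, add_mul, mul_one, one_mul] at e
    exact add_left_cancel e
  · have e := congrArg (fun x : Matrix.SpecialLinearGroup (Fin (2 * k + 1)) (ZMod p) =>
      (x : Matrix (Fin (2 * k + 1)) (Fin (2 * k + 1)) (ZMod p))) cT
    simp only [Matrix.SpecialLinearGroup.coe_mul] at e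
    have e2 : (f2 p k hk (-1) : Matrix (Fin (2 * k + 1)) (Fin (2 * k + 1)) (ZMod p)) =
        Matrix.diagonal (dg p k (-1)) := by
      show Matrix.diagonal (dg p k (((-1 : ℤˣ) : ℤ) : ZMod p)) = _
      simp
    rw [e2] at e
    exact e

end main

/-- For every odd prime `p` there is a finite group `H` of order `2p³` which, for infinitely many `n`, embeds in the projective special linear group `PSL(n, p)` as a subgroup with trivial centralizer. -/
theorem result
    (p : ℕ) [Fact p.Prime] (hp : p ≠ 2) :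
    ∃ (H : Type) (_ : Group H) (_ : Finite H), Nat.card H = 2 * p ^ 3 ∧
      ∀ N : ℕ, ∃ n, N ≤ n ∧ ∃ φ : H →* Matrix.ProjectiveSpecialLinearGroup (Fin n) (ZMod p),
        Function.Injective φ ∧ Subgroup.centralizer (φ.range : Set (Matrix.ProjectiveSpecialLinearGroup (Fin n) (ZMod p))) = ⊥ := by
  classical
  have hpp : p.Prime := Fact.out
  have hp2 : (2 : ZMod p) ≠ 0 := by
    intro h
    have h2 : ((2 : ℕ) : ZMod p) = 0 := by exact_mod_cast h
    rw [ZMod.natCast_eq_zero_iff] at h2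
    exact hp ((Nat.prime_dvd_prime_iff_eq hpp Nat.prime_two).1 h2)
  refine ⟨Multiplicative (Fin 3 → ZMod p) ⋊[act p] ℤˣ, inferInstance,
    Finite.of_equiv _ SemidirectProduct.equivProd.symm, ?_, ?_⟩
  · rw [SemidirectProduct.card, Nat.card_eq_fintype_card, Nat.card_eq_fintype_card,
      Fintype.card_units_int]
    simp [ZMod.card]
    ring
  · intro N
    obtain ⟨k, hkdef⟩ : ∃ k, k = 2 * p * (N + 1) := ⟨_, rfl⟩
    have hk2 : 2 ≤ k := by
      rw [hkdef]
      have := hpp.two_le
      nlinarith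
    have hkN : N ≤ k := by
      rw [hkdef]
      have := hpp.two_le
      nlinarith
    have hk : Even k := ⟨p * (N + 1), by rw [hkdef]; ring⟩
    have hkp : (k : ZMod p) = 0 := by
      rw [hkdef]
      push_cast
      rw [ZMod.natCast_self]
      ring
    refine ⟨2 * k + 1, by omega, (QuotientGroup.mk' _).comp (rho p k hk), ?_, ?_⟩
    · rw [injective_iff_map_eq_one]
      intro h hh
      have hh' : (QuotientGroup.mk (rho p k hk h) :
          Matrix.ProjectiveSpecialLinearGroup (Fin (2 * k + 1)) (ZMod p)) = 1 := hh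
      rw [QuotientGroup.eq_one_iff, Matrix.SpecialLinearGroup.mem_center_iff] at hh'
      obtain ⟨c, -, hs⟩ := hh'
      exact rho_inj p k hp2 hk2 hk h c hs
    · rw [eq_bot_iff]
      intro x hx
      rw [Subgroup.mem_bot]
      obtain ⟨g, rfl⟩ := QuotientGroup.mk_surjective x
      rw [Subgroup.mem_centralizer_iff] at hx
      obtain ⟨μ, hμ⟩ := rho_cent p k hp2 hk hkp g (fun h => by
        have h5 := hx (QuotientGroup.mk (rho p k hk h)) ⟨h, rfl⟩
        exact h5.symm)
      rw [QuotientGroup.eq_one_iff, Matrix.SpecialLinearGroup.mem_center_iff]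
      refine ⟨μ, ?_, hμ⟩
      have hdet := g.det_coe
      rw [← hμ, Matrix.scalar_apply, Matrix.det_diagonal, Finset.prod_const, Finset.card_univ] at hdet
      exact hdet

end Cfsg.Agent.S2533
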