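import Cfsg.Statements.S2541

set_option autoImplicit false
open Cfsg

namespace Cfsg.Agent.S2541

theorem perm_six_pow (σ : Equiv.Perm (Fin 6)) : σ ^ 60 = 1 := by
  apply orderOf_dvd_iff_pow_eq_one.1
  rw [← Equiv.Perm.lcm_cycleType, Multiset.lcm_dvd]
  intro b hb
  have h2 := Equiv.Perm.two_le_of_mem_cycleType hb
  have h6 : b ≤ 6 := by
    have h1 := Multiset.le_sum_of_mem hb
    have h3 := Equiv.Perm.sum_cycleType_le σ
    simp only [Fintype.card_fin] at h3
    exact h1.trans h3
  interval_cases b <;> decide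

theorem result {F : Type*} [Field F] [Fintype F] (hF : Fintype.card F = 9) : ¬ Nonempty (Equiv.Perm (Fin 6) ≃* Matrix.ProjGenLinGroup (Fin 2) F) := by
  classical
  rintro ⟨e⟩
  obtain ⟨ζ, hζ⟩ := IsCyclic.exists_generator (α := Fˣ)
  have hord : orderOf ζ = 8 := by
    rw [orderOf_eq_card_of_forall_mem_zpowers hζ, Nat.card_eq_fintype_card, Fintype.card_units, hF]
  let g : GL (Fin 2) F :=
    ⟨Matrix.diagonal ![(ζ : F), 1], Matrix.diagonal ![((ζ⁻¹ : Fˣ) : F), 1],
      by
        rw [Matrix.diagonal_mul_diagonal, ← Matrix.diagonal_one]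
        congr 1
        ext i
        fin_cases i <;> simp,
      by
        rw [Matrix.diagonal_mul_diagonal, ← Matrix.diagonal_one]
        congr 1
        ext i
        fin_cases i <;> simp⟩
  have hx : (Matrix.ProjGenLinGroup.mk g) ^ 60 = 1 := by
    have h1 := perm_six_pow (e.symm (Matrix.ProjGenLinGroup.mk g))
    have h2 := congrArg e h1
    rw [map_pow, map_one, MulEquiv.apply_symm_apply] at h2
    exact h2
  rw [← map_pow, Matrix.ProjGenLinGroup.mk_eq_one,
    Matrix.GeneralLinearGroup.center_eq_range_scalar] at hx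
  obtain ⟨u, hu⟩ := hx
  have hmat : ((g ^ 60 : GL (Fin 2) F) : Matrix (Fin 2) (Fin 2) F) =
      Matrix.diagonal ![(ζ : F) ^ 60, 1] := by
    rw [Units.val_pow_eq_pow_val]
    show (Matrix.diagonal ![(ζ : F), 1]) ^ 60 = _
    rw [Matrix.diagonal_pow]
    congr 1
    ext i
    fin_cases i <;> simp
  have hu' := congrArg (fun z : GL (Fin 2) F => (z : Matrix (Fin 2) (Fin 2) F)) hu
  simp only [Matrix.GeneralLinearGroup.coe_scalar] at hu'
  rw [hmat] at hu'
  have h00 := congrFun (congrFun hu' 0) 0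
  have h11 := congrFun (congrFun hu' 1) 1
  simp at h00 h11
  rw [h11] at h00
  have h60 : ζ ^ 60 = 1 := by
    apply Units.ext
    rw [Units.val_pow_eq_pow_val, ← h00, Units.val_one]
  have := orderOf_dvd_of_pow_eq_one h60
  rw [hord] at this
  revert this
  decide

end Cfsg.Agent.S2541
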