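import Cfsg.Agent.Helper2.PSL11
import Cfsg.Statements.S2542
-- import your own Cfsg.Agent.* helpers here

set_option autoImplicit false
open Cfsg

namespace Cfsg.Agent.S2542

open Cfsg.Agent.Helper2

theorem l_one_H : ((1, 0, 0, 1) : Q11) ∈ psl11H := by decide +kernel

theorem l_one_Q : ((1, 0, 0, 1) : Q11) ∈ psl11Q := by decide +kernel

theorem l_mul_of {L : List Q11}
    (h : L.all (fun x => L.all (fun y => L.contains (q11mul x y))) = true) :
    ∀ x ∈ L, ∀ y ∈ L, q11mul x y ∈ L := by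
  intro x hx y hy
  rw [List.all_eq_true] at h
  have h2 := h x hx
  rw [List.all_eq_true] at h2
  exact List.contains_iff_mem.mp (h2 y hy)

theorem l_inv_of {L : List Q11}
    (h : L.all (fun x => L.any (fun y => q11mul x y == (1, 0, 0, 1))) = true) :
    ∀ x ∈ L, ∃ y ∈ L, q11mul x y = (1, 0, 0, 1) := by
  intro x hx
  rw [List.all_eq_true] at h
  have h2 := h x hx
  rw [List.any_eq_true] at h2
  obtain ⟨y, hy, hxy⟩ := h2
  exact ⟨y, hy, beq_iff_eq.mp hxy⟩

abbrev G11 := Matrix.SpecialLinearGroup (Fin 2) (ZMod 11)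

def sl11H : Subgroup G11 :=
  q11sub psl11H l_one_H (l_mul_of psl11H_mul) (l_inv_of psl11H_inv)

def sl11Q : Subgroup G11 :=
  q11sub psl11Q l_one_Q (l_mul_of psl11Q_mul) (l_inv_of psl11Q_inv)

theorem card_sl11H : Nat.card sl11H = 120 := by
  rw [sl11H, card_q11sub _ _ _ _ (List.all_eq_true.mp psl11H_ok) psl11H_nodup, psl11H_length]

theorem card_sl11Q : Nat.card sl11Q = 24 := by
  rw [sl11Q, card_q11sub _ _ _ _ (List.all_eq_true.mp psl11Q_ok) psl11Q_nodup, psl11Q_length]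

theorem sl11Q_le : sl11Q ≤ sl11H := by
  rintro g ⟨x, hx, hxg⟩
  exact ⟨x, List.contains_iff_mem.mp (List.all_eq_true.mp psl11Q_sub x hx), hxg⟩

theorem card_G11 : Nat.card G11 = 1320 := by
  have h := Cfsg.Agent.Helper2.card_SL2 (ZMod 11)
  rw [ZMod.card] at h
  have h2 : Nat.card G11 * 10 = 1320 * 10 := by
    rw [show (10 : ℕ) = 11 - 1 from rfl]
    exact h
  exact Nat.eq_of_mul_eq_mul_right (by norm_num) h2

theorem index_sl11H : sl11H.index = 11 := by
  have h := Subgroup.index_mul_card sl11H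
  rw [card_sl11H, card_G11] at h
  omega

theorem sq_one_11 : ∀ r : ZMod 11, r ^ 2 = 1 → r = 1 ∨ r = 10 := by decide

theorem q11mat_neg_one : q11mat (10, 0, 0, 10) = Matrix.scalar (Fin 2) (10 : ZMod 11) := by
  ext i j
  fin_cases i <;> fin_cases j <;> simp [q11mat, Matrix.scalar_apply]

theorem center_le_sl11Q : Subgroup.center G11 ≤ sl11Q := by
  intro z hz
  rw [Matrix.SpecialLinearGroup.mem_center_iff] at hz
  obtain ⟨r, hr, hrz⟩ := hz
  rw [Fintype.card_fin] at hr
  rcases sq_one_11 r hr with rfl | rfl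
  · refine ⟨(1, 0, 0, 1), by decide +kernel, ?_⟩
    rw [q11mat_one, ← hrz]; simp
  · refine ⟨(10, 0, 0, 10), by decide +kernel, ?_⟩
    rw [q11mat_neg_one, ← hrz]

theorem mem_center_of_code (x : G11) (c : Q11) (hc : q11mat c = x.1)
    (h : c = (1, 0, 0, 1) ∨ c = (10, 0, 0, 10)) : x ∈ Subgroup.center G11 := by
  rw [Matrix.SpecialLinearGroup.mem_center_iff]
  rcases h with rfl | rfl
  · refine ⟨1, one_pow _, ?_⟩
    rw [← hc, q11mat_one]; simp
  · refine ⟨10, by rw [Fintype.card_fin]; decide, ?_⟩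
    rw [← hc, q11mat_neg_one]

theorem conj_code {L : List Q11} {h1 : (1, 0, 0, 1) ∈ L}
    {hmul : ∀ x ∈ L, ∀ y ∈ L, q11mul x y ∈ L}
    {hinv : ∀ x ∈ L, ∃ y ∈ L, q11mul x y = (1, 0, 0, 1)}
    (g x : G11) (cg cx : Q11) (hg : q11mat cg = g.1) (hx : q11mat cx = x.1)
    (h : g⁻¹ * x * g ∈ q11sub L h1 hmul hinv) : ∃ y ∈ L, q11mul cx cg = q11mul cg y := by
  obtain ⟨y, hy, hyv⟩ := h
  refine ⟨y, hy, q11mat_inj (q11mul_red _ _) (q11mul_red _ _) ?_⟩
  rw [q11mat_mul, q11mat_mul, hg, hx, hyv]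
  have hgx : g * (g⁻¹ * x * g) = x * g := by group
  change (x * g).1 = (g * (g⁻¹ * x * g)).1
  rw [hgx]

def g11 (c : Q11) (h : q11ok c = true) : G11 := ⟨q11mat c, q11ok_det h⟩

theorem sl11_core : ∀ x ∈ sl11Q, (∀ h ∈ sl11H, h⁻¹ * x * h ∈ sl11Q) → x ∈ Subgroup.center G11 := by
  intro x hx hconj
  obtain ⟨cx, hcx, hcxv⟩ := hx
  have hg1m : psl11g1 ∈ psl11H := List.contains_iff_mem.mp psl11g1_mem
  have hg2m : psl11g2 ∈ psl11H := List.contains_iff_mem.mp psl11g2_mem
  have hok1 := List.all_eq_true.mp psl11H_ok _ hg1m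
  have hok2 := List.all_eq_true.mp psl11H_ok _ hg2m
  have h1 := conj_code (g11 psl11g1 hok1) x psl11g1 cx rfl hcxv
    (hconj _ ⟨psl11g1, hg1m, rfl⟩)
  have h2 := conj_code (g11 psl11g2 hok2) x psl11g2 cx rfl hcxv
    (hconj _ ⟨psl11g2, hg2m, rfl⟩)
  have h3 := List.all_eq_true.mp psl11_core cx hcx
  have h4 : psl11Q.any (fun y => q11mul cx psl11g1 == q11mul psl11g1 y) = true := by
    rw [List.any_eq_true]
    obtain ⟨y, hy, he⟩ := h1
    exact ⟨y, hy, beq_iff_eq.mpr he⟩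
  have h5 : psl11Q.any (fun y => q11mul cx psl11g2 == q11mul psl11g2 y) = true := by
    rw [List.any_eq_true]
    obtain ⟨y, hy, he⟩ := h2
    exact ⟨y, hy, beq_iff_eq.mpr he⟩
  rw [h4, h5] at h3
  simp only [Bool.and_self, Bool.not_true, Bool.false_or, Bool.or_eq_true, beq_iff_eq] at h3
  exact mem_center_of_code x cx hcxv h3

theorem g0_not_mem : g11 psl11g0 psl11g0_ok ∉ sl11H := by
  rintro ⟨x, hx, hxv⟩
  have hokx := List.all_eq_true.mp psl11H_ok _ hx
  have : x = psl11g0 := q11mat_inj (q11ok_red hokx) (q11ok_red psl11g0_ok) hxv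
  rw [this] at hx
  have h2 := List.contains_iff_mem.mpr hx
  rw [psl11g0_not_mem] at h2
  exact Bool.false_ne_true h2

theorem card_le_of_codes' {α β : Type*} (L : List Q11) (S : Set α) (ι : Q11 → β) (j : α → β)
    (hj : Function.Injective j)
    (h : ∀ s ∈ S, ∃ x ∈ L, ι x = j s) : Nat.card S ≤ L.length := by
  classical
  have hch : ∀ s : S, ∃ i : Fin L.length, ι (L.get i) = j s.1 := by
    intro s
    obtain ⟨x, hx, hxs⟩ := h s.1 s.2
    obtain ⟨i, hi⟩ := List.mem_iff_get.mp hx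
    exact ⟨i, by rw [hi, hxs]⟩
  choose f hf using hch
  have hinj : Function.Injective f := by
    intro s t hst
    apply Subtype.ext
    apply hj
    rw [← hf s, ← hf t, hst]
  have := Nat.card_le_card_of_injective f hinj
  rwa [Nat.card_fin] at this

theorem sl11_stab : Nat.card {h : G11 // h ∈ sl11H ∧ ∃ y ∈ sl11H,
    h * g11 psl11g0 psl11g0_ok = g11 psl11g0 psl11g0_ok * y} ≤ 12 := by
  have h := card_le_of_codes' (psl11H.filter (fun x => psl11H.any
    (fun y => q11mul x psl11g0 == q11mul psl11g0 y)))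
    {h : G11 | h ∈ sl11H ∧ ∃ y ∈ sl11H,
      h * g11 psl11g0 psl11g0_ok = g11 psl11g0 psl11g0_ok * y} q11mat Subtype.val
    Subtype.val_injective ?_
  · rw [psl11_stab] at h
    exact h
  · rintro s ⟨⟨cs, hcs, hcsv⟩, y, ⟨cy, hcy, hcyv⟩, he⟩
    refine ⟨cs, ?_, hcsv⟩
    rw [List.mem_filter]
    refine ⟨hcs, ?_⟩
    rw [List.any_eq_true]
    refine ⟨cy, hcy, beq_iff_eq.mpr ?_⟩
    apply q11mat_inj (q11mul_red _ _) (q11mul_red _ _)
    rw [q11mat_mul, q11mat_mul, hcsv, hcyv]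
    exact congrArg Subtype.val he

theorem sl11_dcov : DCov sl11H (g11 psl11g0 psl11g0_ok) := by
  apply dcov_of_card sl11H _ g0_not_mem 12 sl11_stab
  rw [index_sl11H, card_sl11H]

theorem card_center_G11 : Nat.card (Subgroup.center G11) = 2 := by
  have h := Cfsg.Agent.Helper2.card_center_SL (ZMod 11) 2 (by norm_num)
  rw [ZMod.card] at h
  exact h

theorem sl11_alt : Nonempty (sl11H.map (QuotientGroup.mk' (Subgroup.center G11)) ≃*
    alternatingGroup (Fin 5)) := by
  apply iso_alt_of_coset_action (Subgroup.center G11) sl11Q sl11H center_le_sl11Q sl11Q_le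
    sl11_core
  · rw [card_sl11H, card_sl11Q]
  · rw [card_sl11H, card_center_G11]

/-- Let F be a field with 11 elements. PSL_2(F) has a subgroup H of index 11 isomorphic to the alternating group A_5, and the action of PSL_2(F) on the cosets of H is 2-transitive (of degree 11). -/
theorem result {F : Type*} [Field F] [Fintype F] (hF : Fintype.card F = 11) : ∃ H : Subgroup (Matrix.ProjectiveSpecialLinearGroup (Fin 2) F), H.index = 11 ∧ Nonempty (H ≃* alternatingGroup (Fin 5)) ∧ MulAction.IsMultiplyPretransitive (Matrix.ProjectiveSpecialLinearGroup (Fin 2) F) ((Matrix.ProjectiveSpecialLinearGroup (Fin 2) F) ⧸ H) 2 := by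
  classical
  let e : ZMod 11 ≃+* F := ZMod.ringEquivOfPrime F (by norm_num) hF
  let Φ : Matrix.ProjectiveSpecialLinearGroup (Fin 2) (ZMod 11) ≃*
    Matrix.ProjectiveSpecialLinearGroup (Fin 2) F := pslCongr e
  let H₀ : Subgroup (Matrix.ProjectiveSpecialLinearGroup (Fin 2) (ZMod 11)) :=
    sl11H.map (QuotientGroup.mk' (Subgroup.center G11))
  have hidx : H₀.index = 11 := by
    rw [Subgroup.index_map_eq _ (QuotientGroup.mk'_surjective _)
      (by rw [QuotientGroup.ker_mk']; exact center_le_sl11Q.trans sl11Q_le)]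
    exact index_sl11H
  obtain ⟨eA⟩ := sl11_alt
  have hd := dcov_map Φ.toMonoidHom Φ.surjective _ _
    (dcov_map (QuotientGroup.mk' (Subgroup.center G11)) (QuotientGroup.mk'_surjective _) _ _
      sl11_dcov)
  refine ⟨H₀.map (Φ : _ →* _), ?_, ⟨(MulEquiv.subgroupMap Φ H₀).symm.trans eA⟩,
    two_trans_of_dcov _ _ hd⟩
  rw [Subgroup.index_map_equiv]
  exact hidx

end Cfsg.Agent.S2542
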