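import Cfsg.Agent.S0256
import Cfsg.Agent.Helper15.PSL34Ord
import Cfsg.Agent.Helper2.LinGroups2
import Cfsg.Statements.S2550
-- import your own Cfsg.Agent.* helpers here

set_option autoImplicit false
open Cfsg

namespace Cfsg.Agent.S2550

theorem perm15 : orderOf (c[(0 : Fin 8), 1, 2] * c[(3 : Fin 8), 4, 5, 6, 7] : Equiv.Perm (Fin 8)) = 15 := by
  rw [orderOf_eq_iff (by norm_num)]
  decide +kernel

theorem perm15_sign : Equiv.Perm.sign (c[(0 : Fin 8), 1, 2] * c[(3 : Fin 8), 4, 5, 6, 7] : Equiv.Perm (Fin 8)) = 1 := by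
  decide +kernel

/-- Let F be a field with 2 elements and K a field with 4 elements. PSL_4(F) and PSL_3(K) have the same order (20160) but are not isomorphic. -/
theorem result {F K : Type*} [Field F] [Fintype F] [Field K] [Fintype K] (hF : Fintype.card F = 2) (hK : Fintype.card K = 4) : Nat.card (Matrix.ProjectiveSpecialLinearGroup (Fin 4) F) = Nat.card (Matrix.ProjectiveSpecialLinearGroup (Fin 3) K) ∧ ¬ Nonempty (Matrix.ProjectiveSpecialLinearGroup (Fin 4) F ≃* Matrix.ProjectiveSpecialLinearGroup (Fin 3) K) := by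
  constructor
  · have h1 := Cfsg.Agent.Helper2.card_PSL_mul F 4 (by norm_num)
    have h2 := Cfsg.Agent.Helper2.card_SL_mul F 4 (by norm_num)
    have h3 := Cfsg.Agent.Helper2.card_PSL_mul K 3 (by norm_num)
    have h4 := Cfsg.Agent.Helper2.card_SL_mul K 3 (by norm_num)
    rw [hF] at h1 h2
    rw [hK] at h3 h4
    have e1 : ∏ i : Fin 4, (2 ^ 4 - 2 ^ (i : ℕ)) = 20160 := by decide
    have e2 : ∏ i : Fin 3, (4 ^ 3 - 4 ^ (i : ℕ)) = 181440 := by decide
    rw [e1] at h2
    rw [e2] at h4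
    have g1 : Nat.gcd 4 (2 - 1) = 1 := by decide
    have g2 : Nat.gcd 3 (4 - 1) = 3 := by decide
    rw [g1] at h1
    rw [g2] at h3
    omega
  · rintro ⟨φ⟩
    obtain ⟨ψ⟩ := Cfsg.Agent.S0256.result hF
    have hmem : (c[(0 : Fin 8), 1, 2] * c[(3 : Fin 8), 4, 5, 6, 7] : Equiv.Perm (Fin 8))
        ∈ alternatingGroup (Fin 8) := Equiv.Perm.mem_alternatingGroup.2 perm15_sign
    have ho : orderOf (φ (ψ.symm ⟨_, hmem⟩)) = 15 := by
      rw [MulEquiv.orderOf_eq, MulEquiv.orderOf_eq, Subgroup.orderOf_mk]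
      exact perm15
    exact Cfsg.Agent.Helper15.psl34_no_order_fifteen hK _ ho

end Cfsg.Agent.S2550
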