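import Cfsg.Statements.S2552

set_option autoImplicit false
open Cfsg

namespace Cfsg.Agent.S2552

theorem result {F : Type*} [Field F] [Fintype F] (n : ℕ) (hn : 1 ≤ n) (U₁ U₂ : Submodule F (Fin n → F)) (h : Module.finrank F U₁ = Module.finrank F U₂) : ∃ g : Matrix.SpecialLinearGroup (Fin n) F, U₁.map ((Matrix.SpecialLinearGroup.toLin' g : (Fin n → F) ≃ₗ[F] (Fin n → F)) : (Fin n → F) →ₗ[F] (Fin n → F)) = U₂ := by
  classical
  suffices hG : ∃ G : Matrix (Fin n) (Fin n) F, G.det = 1 ∧ ∀ u ∈ U₁, G.mulVec u ∈ U₂ by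
    obtain ⟨G, hdet, hG⟩ := hG
    refine ⟨⟨G, hdet⟩, ?_⟩
    apply Submodule.eq_of_le_of_finrank_eq
    · rintro _ ⟨u, hu, rfl⟩
      exact hG u hu
    · rw [LinearEquiv.finrank_map_eq]
      exact h
  by_cases hU2 : U₂ = ⊥
  · refine ⟨1, Matrix.det_one, fun u hu => ?_⟩
    have hU1 : U₁ = ⊥ := by
      rw [← Submodule.finrank_eq_zero, h, hU2]
      simp
    rw [hU1, Submodule.mem_bot] at hu
    rw [hu]
    simp
  · obtain ⟨C₁, hC₁⟩ := Submodule.exists_isCompl U₁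
    obtain ⟨C₂, hC₂⟩ := Submodule.exists_isCompl U₂
    have hC : Module.finrank F C₁ = Module.finrank F C₂ := by
      have h1 := Submodule.finrank_add_eq_of_isCompl hC₁
      have h2 := Submodule.finrank_add_eq_of_isCompl hC₂
      omega
    let f₁ : U₁ ≃ₗ[F] U₂ := LinearEquiv.ofFinrankEq _ _ h
    let f₂ : C₁ ≃ₗ[F] C₂ := LinearEquiv.ofFinrankEq _ _ hC
    let e : (Fin n → F) ≃ₗ[F] (Fin n → F) :=
      (Submodule.prodEquivOfIsCompl U₁ C₁ hC₁).symm ≪≫ₗ (f₁.prodCongr f₂) ≪≫ₗ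
        Submodule.prodEquivOfIsCompl U₂ C₂ hC₂
    have key : ∀ x : U₁, e (x : Fin n → F) = (f₁ x : Fin n → F) := by
      intro x
      simp only [e, LinearEquiv.trans_apply]
      rw [Submodule.prodEquivOfIsCompl_symm_apply_left]
      simp
    have he : ∀ u ∈ U₁, e u ∈ U₂ := by
      intro u hu
      have h3 := key ⟨u, hu⟩
      have h4 : e u = (f₁ ⟨u, hu⟩ : Fin n → F) := h3
      rw [h4]
      exact (f₁ ⟨u, hu⟩).2
    obtain ⟨M, hM⟩ : ∃ M : Matrix (Fin n) (Fin n) F,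
        M = LinearMap.toMatrix' (e : (Fin n → F) →ₗ[F] (Fin n → F)) := ⟨_, rfl⟩
    have hMv : ∀ u, M.mulVec u = e u := by
      intro u
      rw [hM, LinearMap.toMatrix'_mulVec]
      rfl
    have hd : M.det ≠ 0 := by
      rw [hM, LinearMap.det_toMatrix']
      exact (LinearEquiv.isUnit_det' e).ne_zero
    obtain ⟨u₀, hu₀, hu₀0⟩ := Submodule.exists_mem_ne_zero_of_ne_bot hU2
    obtain ⟨i, hi⟩ := Function.ne_iff.1 hu₀0
    have hi' : u₀ i ≠ 0 := hi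
    obtain ⟨c, hc⟩ : ∃ c : F, c = M.det⁻¹ := ⟨_, rfl⟩
    obtain ⟨φ, hφ⟩ : ∃ φ : Fin n → F, φ = Pi.single i (u₀ i)⁻¹ := ⟨_, rfl⟩
    obtain ⟨S, hS⟩ : ∃ S : Matrix (Fin n) (Fin n) F,
        S = 1 + Matrix.vecMulVec ((c - 1) • u₀) φ := ⟨_, rfl⟩
    have hSdet : S.det = c := by
      rw [hS, Matrix.vecMulVec_eq (Fin 1), Matrix.det_one_add_replicateCol_mul_replicateRow]
      simp [hφ, hi']
    have hSv : ∀ w ∈ U₂, S.mulVec w ∈ U₂ := by
      intro w hw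
      rw [hS, Matrix.add_mulVec, Matrix.one_mulVec, Matrix.vecMulVec_mulVec, op_smul_eq_smul]
      exact U₂.add_mem hw (U₂.smul_mem _ (U₂.smul_mem _ hu₀))
    refine ⟨S * M, ?_, fun u hu => ?_⟩
    · rw [Matrix.det_mul, hSdet, hc, inv_mul_cancel₀ hd]
    · rw [← Matrix.mulVec_mulVec, hMv]
      exact hSv _ (he u hu)

end Cfsg.Agent.S2552
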