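import Cfsg.Statements.S2564
import Cfsg.Agent.Helper15.F2Quad

set_option autoImplicit false
open Cfsg

namespace Cfsg.Agent.S2564

/-- On the 2m-dimensional space over the field of two elements (m ≥ 1) let f be the alternating form obtained by polarizing the plus-type form Σ xᵢyᵢ, and let q be any quadratic form polarizing to f. For a vector w, the function q + f(·, w) again polarizes to f, and it is equivalent to q under an invertible linear map (that is, has the same type) if and only if q(w) = 0. -/
theorem result (m : ℕ) (hm : 1 ≤ m) (q : (Fin m ⊕ Fin m → ZMod 2) → ZMod 2) (hq : (∀ u v : (Fin m ⊕ Fin m → ZMod 2), q (u + v) = q u + q v + (Cfsg.quadFormPlus m (ZMod 2) (u + v) - Cfsg.quadFormPlus m (ZMod 2) u - Cfsg.quadFormPlus m (ZMod 2) v))) (w : (Fin m ⊕ Fin m → ZMod 2)) :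
    (∀ u v : (Fin m ⊕ Fin m → ZMod 2), (q (u + v) + (Cfsg.quadFormPlus m (ZMod 2) (u + v + w) - Cfsg.quadFormPlus m (ZMod 2) (u + v) - Cfsg.quadFormPlus m (ZMod 2) w)) =
        (q u + (Cfsg.quadFormPlus m (ZMod 2) (u + w) - Cfsg.quadFormPlus m (ZMod 2) u - Cfsg.quadFormPlus m (ZMod 2) w)) + (q v + (Cfsg.quadFormPlus m (ZMod 2) (v + w) - Cfsg.quadFormPlus m (ZMod 2) v - Cfsg.quadFormPlus m (ZMod 2) w)) +
        (Cfsg.quadFormPlus m (ZMod 2) (u + v) - Cfsg.quadFormPlus m (ZMod 2) u - Cfsg.quadFormPlus m (ZMod 2) v)) ∧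
    ((∃ g : (Fin m ⊕ Fin m → ZMod 2) ≃ₗ[ZMod 2] (Fin m ⊕ Fin m → ZMod 2), ∀ v, q v + (Cfsg.quadFormPlus m (ZMod 2) (v + w) - Cfsg.quadFormPlus m (ZMod 2) v - Cfsg.quadFormPlus m (ZMod 2) w) = q (g v)) ↔ q w = 0) := by
  classical
  have hq' : ∀ u v, q (u + v) = q u + q v
      + QuadraticMap.polar (Cfsg.quadFormPlus m (ZMod 2)) u v := hq
  constructor
  · intro u v
    show q (u + v) + QuadraticMap.polar (Cfsg.quadFormPlus m (ZMod 2)) (u + v) w
      = (q u + QuadraticMap.polar (Cfsg.quadFormPlus m (ZMod 2)) u w)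
        + (q v + QuadraticMap.polar (Cfsg.quadFormPlus m (ZMod 2)) v w)
        + QuadraticMap.polar (Cfsg.quadFormPlus m (ZMod 2)) u v
    rw [hq', Helper15.f2_polar_add_left]
    ring
  · constructor
    · rintro ⟨g, hg⟩
      by_contra hw
      have hw1 : q w = 1 := (Helper15.zmod2_cases (q w)).resolve_left hw
      have hS := Helper15.f2_char_sum_sq m q hq'
      have h1 : ∑ v, Helper15.chi2 (q (g v)) = ∑ v, Helper15.chi2 (q v) :=
        Equiv.sum_comp g.toEquiv (fun v => Helper15.chi2 (q v))
      have h2 : ∑ v, Helper15.chi2 (q (g v)) = -∑ v, Helper15.chi2 (q v) := by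
        rw [← Finset.sum_neg_distrib,
          ← Equiv.sum_comp (Equiv.addRight w) (fun v => -Helper15.chi2 (q v))]
        refine Finset.sum_congr rfl fun v _ => ?_
        show Helper15.chi2 (q (g v)) = -Helper15.chi2 (q (v + w))
        have h5 : q (g v) = q v + QuadraticMap.polar (Cfsg.quadFormPlus m (ZMod 2)) v w :=
          (hg v).symm
        rw [h5, hq' v w, hw1, ← Helper15.chi2_add_one]
        congr 1
        have h := CharTwo.add_self_eq_zero (1 : ZMod 2)
        linear_combination -h
      have h3 : ∑ v, Helper15.chi2 (q v) = 0 := by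
        rw [h1] at h2
        omega
      have hpos : (0 : ℤ) < (Fintype.card (Fin m ⊕ Fin m → ZMod 2) : ℤ) := by
        exact_mod_cast Fintype.card_pos
      rw [h3, mul_zero] at hS
      omega
    · intro hw
      have hsmul : ∀ (c : ZMod 2) (v : Fin m ⊕ Fin m → ZMod 2),
          QuadraticMap.polar (Cfsg.quadFormPlus m (ZMod 2)) (c • v) w
            = c * QuadraticMap.polar (Cfsg.quadFormPlus m (ZMod 2)) v w := by
        intro c v
        rw [Helper15.polar_quadFormPlus, Helper15.polar_quadFormPlus, smul_dotProduct,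
          smul_eq_mul]
      have hinv : Function.Involutive (fun v : Fin m ⊕ Fin m → ZMod 2 =>
          v + QuadraticMap.polar (Cfsg.quadFormPlus m (ZMod 2)) v w • w) := by
        intro v
        show v + QuadraticMap.polar (Cfsg.quadFormPlus m (ZMod 2)) v w • w
          + QuadraticMap.polar (Cfsg.quadFormPlus m (ZMod 2))
            (v + QuadraticMap.polar (Cfsg.quadFormPlus m (ZMod 2)) v w • w) w • w = v
        rw [Helper15.f2_polar_add_left, hsmul, Helper15.f2_polar_self, mul_zero, add_zero,
          add_assoc, ← add_smul, CharTwo.add_self_eq_zero, zero_smul, add_zero]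
      let T : (Fin m ⊕ Fin m → ZMod 2) →ₗ[ZMod 2] (Fin m ⊕ Fin m → ZMod 2) :=
        { toFun := fun v => v + QuadraticMap.polar (Cfsg.quadFormPlus m (ZMod 2)) v w • w
          map_add' := by
            intro u v
            rw [Helper15.f2_polar_add_left, add_smul]
            abel
          map_smul' := by
            intro c v
            rw [hsmul, RingHom.id_apply, smul_add, smul_smul] }
      refine ⟨LinearEquiv.ofInvolutive T hinv, fun v => ?_⟩
      show q v + QuadraticMap.polar (Cfsg.quadFormPlus m (ZMod 2)) v w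
        = q (v + QuadraticMap.polar (Cfsg.quadFormPlus m (ZMod 2)) v w • w)
      rcases Helper15.zmod2_cases (QuadraticMap.polar (Cfsg.quadFormPlus m (ZMod 2)) v w)
        with h | h
      · rw [h]
        simp
      · rw [h, one_smul, hq', hw, h]
        ring

end Cfsg.Agent.S2564
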