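import Cfsg.Statements.S2617

set_option autoImplicit false
open Cfsg

namespace Cfsg.Agent.S2617

theorem result {F : Type*} [Field F] [Finite F] {m : ℕ} (hm : 1 ≤ m) (ζ : F) (hζ : ∀ t : F, t ^ 2 + t + ζ ≠ 0) (g : (Fin m ⊕ Fin m → F) ≃ₗ[F] ((Fin (m - 1) ⊕ Fin (m - 1)) ⊕ Fin 2 → F)) : ¬ (∀ v : Fin m ⊕ Fin m → F, Cfsg.quadFormMinus (m - 1) F 1 ζ (g v) = Cfsg.quadFormPlus m F v) := by
  classical
  intro H
  have aniso : ∀ z₁ z₂ : F, z₁ ^ 2 + 1 * z₁ * z₂ + ζ * z₂ ^ 2 = 0 → z₁ = 0 ∧ z₂ = 0 := by
    intro z₁ z₂ hz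
    by_cases h2 : z₂ = 0
    · subst h2
      simp at hz
      exact ⟨hz, rfl⟩
    · exfalso
      apply hζ (z₁ / z₂)
      field_simp
      linear_combination hz
  let ι : (Fin m → F) →ₗ[F] (Fin m ⊕ Fin m → F) :=
    { toFun := fun x => Sum.elim x 0
      map_add' := by
        intro x y
        ext (i | i) <;> simp
      map_smul' := by
        intro c x
        ext (i | i) <;> simp }
  let hf : (Fin m → F) →ₗ[F] ((Fin (m - 1) ⊕ Fin (m - 1)) ⊕ Fin 2 → F) :=
    g.toLinearMap ∘ₗ ι
  have hQ : ∀ x, Cfsg.quadFormMinus (m - 1) F 1 ζ (hf x) = 0 := by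
    intro x
    have h1 := H (ι x)
    have h2 : Cfsg.quadFormPlus m F (ι x) = 0 := by
      simp [Cfsg.quadFormPlus, ι]
    rw [h2] at h1
    exact h1
  have hinj : ∀ x, hf x = 0 → x = 0 := by
    intro x hx
    have h1 : ι x = 0 := by
      apply g.injective
      rw [map_zero]
      exact hx
    funext i
    have h2 := congrFun h1 (Sum.inl i)
    simpa [ι] using h2
  let π : (Fin m → F) →ₗ[F] (Fin (m - 1) → F) :=
    LinearMap.pi (fun i => LinearMap.proj (Sum.inl (Sum.inl i)) ∘ₗ hf)
  let ρ : (Fin m → F) →ₗ[F] (Fin (m - 1) → F) :=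
    LinearMap.pi (fun i => LinearMap.proj (Sum.inl (Sum.inr i)) ∘ₗ hf)
  have hπ : ∀ x i, π x i = hf x (Sum.inl (Sum.inl i)) := fun x i => rfl
  have hρ : ∀ x i, ρ x i = hf x (Sum.inl (Sum.inr i)) := fun x i => rfl
  have key1 : ∀ k, π k = 0 → hf k (Sum.inr 0) = 0 ∧ hf k (Sum.inr 1) = 0 := by
    intro k hk
    have h1 := hQ k
    unfold Cfsg.quadFormMinus at h1
    have h2 : ∀ i : Fin (m - 1), hf k (Sum.inl (Sum.inl i)) = 0 := by
      intro i
      rw [← hπ, hk]
      rfl
    simp only [h2, zero_mul, Finset.sum_const_zero, zero_add] at h1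
    exact aniso _ _ h1
  have key2 : ∀ k v, π k = 0 → π v ⬝ᵥ ρ k = 0 := by
    intro k v hk
    obtain ⟨hz0, hz1⟩ := key1 k hk
    have h2 : ∀ i : Fin (m - 1), hf k (Sum.inl (Sum.inl i)) = 0 := by
      intro i
      rw [← hπ, hk]
      rfl
    have e1 := hQ (v + k)
    have e2 := hQ v
    rw [map_add] at e1
    unfold Cfsg.quadFormMinus at e1 e2
    simp only [Pi.add_apply, h2, hz0, hz1, add_zero, mul_add, Finset.sum_add_distrib] at e1
    simp only [dotProduct, hπ, hρ]
    linear_combination e1 - e2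
  obtain ⟨P, hP⟩ : ∃ P : Matrix (Fin (m - 1)) (Fin m) F, P = LinearMap.toMatrix' π := ⟨_, rfl⟩
  have hPv : ∀ v, P.mulVec v = π v := by
    intro v
    rw [hP, LinearMap.toMatrix'_mulVec]
  have hker : ∀ k, π k = 0 → P.transpose.mulVec (ρ k) = 0 := by
    intro k hk
    apply dotProduct_eq_zero
    intro v
    rw [dotProduct_comm, Matrix.dotProduct_mulVec, Matrix.vecMul_transpose, hPv v]
    exact key2 k v hk
  have r1 : Module.finrank F (LinearMap.range π) + Module.finrank F (LinearMap.ker π) = m := by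
    have := LinearMap.finrank_range_add_finrank_ker π
    simpa using this
  have r2 : Module.finrank F (LinearMap.range P.transpose.mulVecLin)
      + Module.finrank F (LinearMap.ker P.transpose.mulVecLin) = m - 1 := by
    have := LinearMap.finrank_range_add_finrank_ker P.transpose.mulVecLin
    simpa using this
  have r3 : Module.finrank F (LinearMap.range P.transpose.mulVecLin)
      = Module.finrank F (LinearMap.range π) := by
    have h1 : P.transpose.rank = P.rank := Matrix.rank_transpose P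
    have h2 : P.mulVecLin = π := by
      apply LinearMap.ext
      intro v
      rw [Matrix.mulVecLin_apply, hPv]
    unfold Matrix.rank at h1
    rw [h2] at h1
    exact h1
  have r4 : Module.finrank F (LinearMap.ker π)
      ≤ Module.finrank F (LinearMap.ker P.transpose.mulVecLin) := by
    let φ : LinearMap.ker π →ₗ[F] LinearMap.ker P.transpose.mulVecLin :=
      (ρ.domRestrict (LinearMap.ker π)).codRestrict (LinearMap.ker P.transpose.mulVecLin)
        (fun k => by
          rw [LinearMap.mem_ker, Matrix.mulVecLin_apply]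
          exact hker k.1 (LinearMap.mem_ker.1 k.2))
    apply LinearMap.finrank_le_finrank_of_injective (f := φ)
    rw [← LinearMap.ker_eq_bot, LinearMap.ker_eq_bot']
    intro k hk
    have hk0 : π k.1 = 0 := LinearMap.mem_ker.1 k.2
    have h1 : ρ k.1 = 0 := by
      have := congrArg Subtype.val hk
      simpa [φ] using this
    obtain ⟨hz0, hz1⟩ := key1 k.1 hk0
    apply Subtype.ext
    apply hinj
    funext s
    rcases s with (i | i) | j
    · rw [← hπ, hk0]
      rfl
    · rw [← hρ, h1]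
      rfl
    · fin_cases j
      · exact hz0
      · exact hz1
  omega

end Cfsg.Agent.S2617
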