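import Cfsg.Statements.S2561
import Cfsg.Agent.Helper15.F2Count
import Cfsg.Agent.S2564
import Cfsg.Agent.S2617

set_option autoImplicit false
open Cfsg

namespace Cfsg.Agent.S2561

/-- Fix the non-singular alternating form on the 2m-dimensional space over the field of two elements obtained by polarizing the plus-type form Σ xᵢyᵢ (m ≥ 1). The functions q on the space with q(u + v) = q(u) + q(v) + f(u, v) (the quadratic forms polarizing to f) number 2^(2m); each is equivalent under an invertible linear map either to the plus-type form or to the minus-type form Σ xᵢyᵢ + (z₁² + z₁z₂ + z₂²); and those of plus type number 2^(2m−1) + 2^(m−1), those of minus type 2^(2m−1) − 2^(m−1). -/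
theorem result (m : ℕ) (hm : 1 ≤ m) :
    Nat.card {q : (Fin m ⊕ Fin m → ZMod 2) → ZMod 2 // (∀ u v : (Fin m ⊕ Fin m → ZMod 2), q (u + v) = q u + q v + (Cfsg.quadFormPlus m (ZMod 2) (u + v) - Cfsg.quadFormPlus m (ZMod 2) u - Cfsg.quadFormPlus m (ZMod 2) v))} = 2 ^ (2 * m) ∧
    (∀ q : (Fin m ⊕ Fin m → ZMod 2) → ZMod 2, (∀ u v : (Fin m ⊕ Fin m → ZMod 2), q (u + v) = q u + q v + (Cfsg.quadFormPlus m (ZMod 2) (u + v) - Cfsg.quadFormPlus m (ZMod 2) u - Cfsg.quadFormPlus m (ZMod 2) v)) →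
      (∃ g : (Fin m ⊕ Fin m → ZMod 2) ≃ₗ[ZMod 2] (Fin m ⊕ Fin m → ZMod 2), ∀ v, q v = Cfsg.quadFormPlus m (ZMod 2) (g v)) ∨
      (∃ g : (Fin m ⊕ Fin m → ZMod 2) ≃ₗ[ZMod 2] ((Fin (m - 1) ⊕ Fin (m - 1)) ⊕ Fin 2 → ZMod 2), ∀ v, q v = Cfsg.quadFormMinus (m - 1) (ZMod 2) 1 1 (g v))) ∧
    Nat.card {q : (Fin m ⊕ Fin m → ZMod 2) → ZMod 2 // (∀ u v : (Fin m ⊕ Fin m → ZMod 2), q (u + v) = q u + q v + (Cfsg.quadFormPlus m (ZMod 2) (u + v) - Cfsg.quadFormPlus m (ZMod 2) u - Cfsg.quadFormPlus m (ZMod 2) v)) ∧ ∃ g : (Fin m ⊕ Fin m → ZMod 2) ≃ₗ[ZMod 2] (Fin m ⊕ Fin m → ZMod 2), ∀ v, q v = Cfsg.quadFormPlus m (ZMod 2) (g v)} = 2 ^ (2 * m - 1) + 2 ^ (m - 1) ∧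
    Nat.card {q : (Fin m ⊕ Fin m → ZMod 2) → ZMod 2 // (∀ u v : (Fin m ⊕ Fin m → ZMod 2), q (u + v) = q u + q v + (Cfsg.quadFormPlus m (ZMod 2) (u + v) - Cfsg.quadFormPlus m (ZMod 2) u - Cfsg.quadFormPlus m (ZMod 2) v)) ∧ ∃ g : (Fin m ⊕ Fin m → ZMod 2) ≃ₗ[ZMod 2] ((Fin (m - 1) ⊕ Fin (m - 1)) ⊕ Fin 2 → ZMod 2), ∀ v, q v = Cfsg.quadFormMinus (m - 1) (ZMod 2) 1 1 (g v)} = 2 ^ (2 * m - 1) - 2 ^ (m - 1) := by
  classical
  obtain ⟨k, rfl⟩ : ∃ k, m = k + 1 := ⟨m - 1, by omega⟩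
  have hΘhq : ∀ w : Fin (k + 1) ⊕ Fin (k + 1) → ZMod 2,
      ∀ u v : (Fin (k + 1) ⊕ Fin (k + 1) → ZMod 2),
      (fun v => Cfsg.quadFormPlus (k + 1) (ZMod 2) v
        + QuadraticMap.polar (Cfsg.quadFormPlus (k + 1) (ZMod 2)) v w) (u + v)
      = (fun v => Cfsg.quadFormPlus (k + 1) (ZMod 2) v
        + QuadraticMap.polar (Cfsg.quadFormPlus (k + 1) (ZMod 2)) v w) u
      + (fun v => Cfsg.quadFormPlus (k + 1) (ZMod 2) v
        + QuadraticMap.polar (Cfsg.quadFormPlus (k + 1) (ZMod 2)) v w) v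
      + (Cfsg.quadFormPlus (k + 1) (ZMod 2) (u + v) - Cfsg.quadFormPlus (k + 1) (ZMod 2) u
        - Cfsg.quadFormPlus (k + 1) (ZMod 2) v) :=
    fun w u v => Helper15.f2_theta_hq (k + 1) w u v
  have hΘinj : ∀ w w' : Fin (k + 1) ⊕ Fin (k + 1) → ZMod 2,
      (fun v => Cfsg.quadFormPlus (k + 1) (ZMod 2) v
        + QuadraticMap.polar (Cfsg.quadFormPlus (k + 1) (ZMod 2)) v w)
      = (fun v => Cfsg.quadFormPlus (k + 1) (ZMod 2) v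
        + QuadraticMap.polar (Cfsg.quadFormPlus (k + 1) (ZMod 2)) v w') → w = w' := by
    intro w w' h
    apply Helper15.f2_theta_injective (k + 1) w w'
    intro v
    have h5 := congrFun h v
    exact add_left_cancel h5
  have hΘsurj : ∀ q : (Fin (k + 1) ⊕ Fin (k + 1) → ZMod 2) → ZMod 2,
      (∀ u v : (Fin (k + 1) ⊕ Fin (k + 1) → ZMod 2), q (u + v) = q u + q v
        + (Cfsg.quadFormPlus (k + 1) (ZMod 2) (u + v) - Cfsg.quadFormPlus (k + 1) (ZMod 2) u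
          - Cfsg.quadFormPlus (k + 1) (ZMod 2) v)) →
      ∃ w, q = (fun v => Cfsg.quadFormPlus (k + 1) (ZMod 2) v
        + QuadraticMap.polar (Cfsg.quadFormPlus (k + 1) (ZMod 2)) v w) := by
    intro q hq
    obtain ⟨w, hw⟩ := Helper15.f2_theta_surjective (k + 1) q hq
    exact ⟨w, funext hw⟩
  have hplus : ∀ w : Fin (k + 1) ⊕ Fin (k + 1) → ZMod 2,
      (∃ g : (Fin (k + 1) ⊕ Fin (k + 1) → ZMod 2) ≃ₗ[ZMod 2]
          (Fin (k + 1) ⊕ Fin (k + 1) → ZMod 2),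
        ∀ v, (fun v => Cfsg.quadFormPlus (k + 1) (ZMod 2) v
          + QuadraticMap.polar (Cfsg.quadFormPlus (k + 1) (ZMod 2)) v w) v
          = Cfsg.quadFormPlus (k + 1) (ZMod 2) (g v))
      ↔ Cfsg.quadFormPlus (k + 1) (ZMod 2) w = 0 := fun w =>
    (Cfsg.Agent.S2564.result (k + 1) hm (Cfsg.quadFormPlus (k + 1) (ZMod 2))
      (fun u v => by ring) w).2
  have hexcl : ∀ q : (Fin (k + 1) ⊕ Fin (k + 1) → ZMod 2) → ZMod 2,
      (∃ g : (Fin (k + 1) ⊕ Fin (k + 1) → ZMod 2) ≃ₗ[ZMod 2]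
          (Fin (k + 1) ⊕ Fin (k + 1) → ZMod 2),
        ∀ v, q v = Cfsg.quadFormPlus (k + 1) (ZMod 2) (g v)) →
      (∃ g : (Fin (k + 1) ⊕ Fin (k + 1) → ZMod 2) ≃ₗ[ZMod 2]
          ((Fin (k + 1 - 1) ⊕ Fin (k + 1 - 1)) ⊕ Fin 2 → ZMod 2),
        ∀ v, q v = Cfsg.quadFormMinus (k + 1 - 1) (ZMod 2) 1 1 (g v)) → False := by
    rintro q ⟨g₁, h₁⟩ ⟨g₂, h₂⟩
    apply Cfsg.Agent.S2617.result hm (1 : ZMod 2) (by decide) (g₁.symm.trans g₂)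
    intro v
    show Cfsg.quadFormMinus (k + 1 - 1) (ZMod 2) 1 1 (g₂ (g₁.symm v))
      = Cfsg.quadFormPlus (k + 1) (ZMod 2) v
    rw [← h₂, h₁, LinearEquiv.apply_symm_apply]
  have part1 : Nat.card {q : (Fin (k + 1) ⊕ Fin (k + 1) → ZMod 2) → ZMod 2 //
      (∀ u v : (Fin (k + 1) ⊕ Fin (k + 1) → ZMod 2), q (u + v) = q u + q v
        + (Cfsg.quadFormPlus (k + 1) (ZMod 2) (u + v) - Cfsg.quadFormPlus (k + 1) (ZMod 2) u
          - Cfsg.quadFormPlus (k + 1) (ZMod 2) v))} = 2 ^ (2 * (k + 1)) := by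
    have hcardV : Nat.card (Fin (k + 1) ⊕ Fin (k + 1) → ZMod 2) = 2 ^ (2 * (k + 1)) := by
      rw [Nat.card_eq_fintype_card]
      simp
      ring
    rw [← hcardV]
    symm
    apply Nat.card_congr
    exact Equiv.ofBijective (fun w => ⟨_, hΘhq w⟩)
      ⟨fun w w' h => hΘinj w w' (congrArg Subtype.val h), fun ⟨q, hq⟩ => by
        obtain ⟨w, hw⟩ := hΘsurj q hq
        exact ⟨w, Subtype.ext hw.symm⟩⟩
  have part2 : ∀ q : (Fin (k + 1) ⊕ Fin (k + 1) → ZMod 2) → ZMod 2,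
      (∀ u v : (Fin (k + 1) ⊕ Fin (k + 1) → ZMod 2), q (u + v) = q u + q v
        + (Cfsg.quadFormPlus (k + 1) (ZMod 2) (u + v) - Cfsg.quadFormPlus (k + 1) (ZMod 2) u
          - Cfsg.quadFormPlus (k + 1) (ZMod 2) v)) →
      (∃ g : (Fin (k + 1) ⊕ Fin (k + 1) → ZMod 2) ≃ₗ[ZMod 2]
          (Fin (k + 1) ⊕ Fin (k + 1) → ZMod 2),
        ∀ v, q v = Cfsg.quadFormPlus (k + 1) (ZMod 2) (g v)) ∨
      (∃ g : (Fin (k + 1) ⊕ Fin (k + 1) → ZMod 2) ≃ₗ[ZMod 2]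
          ((Fin (k + 1 - 1) ⊕ Fin (k + 1 - 1)) ⊕ Fin 2 → ZMod 2),
        ∀ v, q v = Cfsg.quadFormMinus (k + 1 - 1) (ZMod 2) 1 1 (g v)) :=
    fun q hq => Helper15.f2_plus_or_minus k q hq
  have part3 : Nat.card {q : (Fin (k + 1) ⊕ Fin (k + 1) → ZMod 2) → ZMod 2 //
      (∀ u v : (Fin (k + 1) ⊕ Fin (k + 1) → ZMod 2), q (u + v) = q u + q v
        + (Cfsg.quadFormPlus (k + 1) (ZMod 2) (u + v) - Cfsg.quadFormPlus (k + 1) (ZMod 2) u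
          - Cfsg.quadFormPlus (k + 1) (ZMod 2) v)) ∧
      ∃ g : (Fin (k + 1) ⊕ Fin (k + 1) → ZMod 2) ≃ₗ[ZMod 2]
          (Fin (k + 1) ⊕ Fin (k + 1) → ZMod 2),
        ∀ v, q v = Cfsg.quadFormPlus (k + 1) (ZMod 2) (g v)}
      = 2 ^ (2 * (k + 1) - 1) + 2 ^ (k + 1 - 1) := by
    have hZ := Helper15.f2_plus_zero_natCard (k + 1)
    have hcongr : Nat.card {w : Fin (k + 1) ⊕ Fin (k + 1) → ZMod 2 //
          Cfsg.quadFormPlus (k + 1) (ZMod 2) w = 0}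
        = Nat.card {q : (Fin (k + 1) ⊕ Fin (k + 1) → ZMod 2) → ZMod 2 //
      (∀ u v : (Fin (k + 1) ⊕ Fin (k + 1) → ZMod 2), q (u + v) = q u + q v
        + (Cfsg.quadFormPlus (k + 1) (ZMod 2) (u + v) - Cfsg.quadFormPlus (k + 1) (ZMod 2) u
          - Cfsg.quadFormPlus (k + 1) (ZMod 2) v)) ∧
      ∃ g : (Fin (k + 1) ⊕ Fin (k + 1) → ZMod 2) ≃ₗ[ZMod 2]
          (Fin (k + 1) ⊕ Fin (k + 1) → ZMod 2),
        ∀ v, q v = Cfsg.quadFormPlus (k + 1) (ZMod 2) (g v)} := by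
      apply Nat.card_congr
      exact Equiv.ofBijective (fun w => ⟨_, hΘhq w.1, (hplus w.1).2 w.2⟩)
        ⟨fun w w' h => Subtype.ext (hΘinj w.1 w'.1 (congrArg Subtype.val h)),
          fun ⟨q, hq, hp⟩ => by
            obtain ⟨w, hw⟩ := hΘsurj q hq
            subst hw
            exact ⟨⟨w, (hplus w).1 hp⟩, rfl⟩⟩
    rw [← hcongr]
    have e1 : 2 ^ (2 * (k + 1)) = 2 * 2 ^ (2 * (k + 1) - 1) := by
      rw [← pow_succ']
      congr 1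
    have e2 : 2 ^ (k + 1) = 2 * 2 ^ (k + 1 - 1) := by
      rw [← pow_succ']
      congr 1
    omega
  refine ⟨part1, part2, part3, ?_⟩
  have hU : {q : (Fin (k + 1) ⊕ Fin (k + 1) → ZMod 2) → ZMod 2 |
      (∀ u v : (Fin (k + 1) ⊕ Fin (k + 1) → ZMod 2), q (u + v) = q u + q v
        + (Cfsg.quadFormPlus (k + 1) (ZMod 2) (u + v) - Cfsg.quadFormPlus (k + 1) (ZMod 2) u
          - Cfsg.quadFormPlus (k + 1) (ZMod 2) v)) ∧
      ∃ g : (Fin (k + 1) ⊕ Fin (k + 1) → ZMod 2) ≃ₗ[ZMod 2]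
          (Fin (k + 1) ⊕ Fin (k + 1) → ZMod 2),
        ∀ v, q v = Cfsg.quadFormPlus (k + 1) (ZMod 2) (g v)} ∪
      {q : (Fin (k + 1) ⊕ Fin (k + 1) → ZMod 2) → ZMod 2 |
      (∀ u v : (Fin (k + 1) ⊕ Fin (k + 1) → ZMod 2), q (u + v) = q u + q v
        + (Cfsg.quadFormPlus (k + 1) (ZMod 2) (u + v) - Cfsg.quadFormPlus (k + 1) (ZMod 2) u
          - Cfsg.quadFormPlus (k + 1) (ZMod 2) v)) ∧
      ∃ g : (Fin (k + 1) ⊕ Fin (k + 1) → ZMod 2) ≃ₗ[ZMod 2]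
          ((Fin (k + 1 - 1) ⊕ Fin (k + 1 - 1)) ⊕ Fin 2 → ZMod 2),
        ∀ v, q v = Cfsg.quadFormMinus (k + 1 - 1) (ZMod 2) 1 1 (g v)}
      = {q : (Fin (k + 1) ⊕ Fin (k + 1) → ZMod 2) → ZMod 2 |
      (∀ u v : (Fin (k + 1) ⊕ Fin (k + 1) → ZMod 2), q (u + v) = q u + q v
        + (Cfsg.quadFormPlus (k + 1) (ZMod 2) (u + v) - Cfsg.quadFormPlus (k + 1) (ZMod 2) u
          - Cfsg.quadFormPlus (k + 1) (ZMod 2) v))} := by
    ext q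
    constructor
    · rintro (h | h)
      · exact h.1
      · exact h.1
    · intro h
      rcases part2 q h with hp | hp
      · exact Or.inl ⟨h, hp⟩
      · exact Or.inr ⟨h, hp⟩
  have hD : Disjoint {q : (Fin (k + 1) ⊕ Fin (k + 1) → ZMod 2) → ZMod 2 |
      (∀ u v : (Fin (k + 1) ⊕ Fin (k + 1) → ZMod 2), q (u + v) = q u + q v
        + (Cfsg.quadFormPlus (k + 1) (ZMod 2) (u + v) - Cfsg.quadFormPlus (k + 1) (ZMod 2) u
          - Cfsg.quadFormPlus (k + 1) (ZMod 2) v)) ∧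
      ∃ g : (Fin (k + 1) ⊕ Fin (k + 1) → ZMod 2) ≃ₗ[ZMod 2]
          (Fin (k + 1) ⊕ Fin (k + 1) → ZMod 2),
        ∀ v, q v = Cfsg.quadFormPlus (k + 1) (ZMod 2) (g v)}
      {q : (Fin (k + 1) ⊕ Fin (k + 1) → ZMod 2) → ZMod 2 |
      (∀ u v : (Fin (k + 1) ⊕ Fin (k + 1) → ZMod 2), q (u + v) = q u + q v
        + (Cfsg.quadFormPlus (k + 1) (ZMod 2) (u + v) - Cfsg.quadFormPlus (k + 1) (ZMod 2) u
          - Cfsg.quadFormPlus (k + 1) (ZMod 2) v)) ∧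
      ∃ g : (Fin (k + 1) ⊕ Fin (k + 1) → ZMod 2) ≃ₗ[ZMod 2]
          ((Fin (k + 1 - 1) ⊕ Fin (k + 1 - 1)) ⊕ Fin 2 → ZMod 2),
        ∀ v, q v = Cfsg.quadFormMinus (k + 1 - 1) (ZMod 2) 1 1 (g v)} :=
    Set.disjoint_left.2 (fun q h1 h2 => hexcl q h1.2 h2.2)
  have hsum := Set.ncard_union_eq hD (Set.toFinite _) (Set.toFinite _)
  rw [hU, ← Nat.card_coe_set_eq, ← Nat.card_coe_set_eq, ← Nat.card_coe_set_eq]
    at hsum
  have p1 := part1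
  have p3 := part3
  have e1 : 2 ^ (2 * (k + 1)) = 2 * 2 ^ (2 * (k + 1) - 1) := by
    rw [← pow_succ']
    congr 1
  change Nat.card ↥{q : (Fin (k + 1) ⊕ Fin (k + 1) → ZMod 2) → ZMod 2 | _} = _ at p1 p3
  change Nat.card ↥{q : (Fin (k + 1) ⊕ Fin (k + 1) → ZMod 2) → ZMod 2 | _} = _
  rw [p1, p3] at hsum
  omega

end Cfsg.Agent.S2561
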