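import Cfsg.Statements.S2565
import Cfsg.Agent.S2563
import Cfsg.Agent.S0287

set_option autoImplicit false
open Cfsg

namespace Cfsg.Agent.S2565

/-- The commutator subgroup of the full orthogonal group of the plus-type form Σ xᵢyᵢ in dimension 6 over the field of two elements (the group Ω⁺₆(2), of index 2) is isomorphic to the alternating group of degree 8. -/
theorem result :
    (Cfsg.Omega (ZMod 2) (Cfsg.quadFormPlus 3 (ZMod 2))).index = 2 ∧
    Nonempty (↥(Cfsg.Omega (ZMod 2) (Cfsg.quadFormPlus 3 (ZMod 2))) ≃* alternatingGroup (Fin 8)) := by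
  classical
  have hemb := (Cfsg.Agent.S2563.result 1 le_rfl).1 (by decide : Odd 1)
  obtain ⟨φ, hφ⟩ : ∃ φ : Equiv.Perm (Fin 8) →*
      ↥(Cfsg.isometryGroup (ZMod 2) (Cfsg.quadFormPlus 3 (ZMod 2))), Function.Injective φ := hemb
  have hcardO : Nat.card ↥(Cfsg.isometryGroup (ZMod 2) (Cfsg.quadFormPlus 3 (ZMod 2))) = 40320 := by
    rw [Cfsg.Agent.S0287.result (F := ZMod 2) (q := 2) (ZMod.card 2) 3 (by omega)]
    decide
  have hcardS : Nat.card (Equiv.Perm (Fin 8)) = 40320 := by
    rw [Nat.card_eq_fintype_card, Fintype.card_perm, Fintype.card_fin]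
    decide
  have hbij : Function.Bijective φ :=
    hφ.bijective_of_nat_card_le (by rw [hcardO, hcardS])
  have hΩ : Cfsg.Omega (ZMod 2) (Cfsg.quadFormPlus 3 (ZMod 2))
      = (alternatingGroup (Fin 8)).map φ := by
    have h1 : Cfsg.Omega (ZMod 2) (Cfsg.quadFormPlus 3 (ZMod 2))
        = commutator ↥(Cfsg.isometryGroup (ZMod 2) (Cfsg.quadFormPlus 3 (ZMod 2))) := rfl
    have h5 : 5 ≤ Nat.card (Fin 8) := by
      rw [Nat.card_eq_fintype_card, Fintype.card_fin]
      omega
    rw [h1, ← alternatingGroup.commutator_perm_eq h5, commutator_def, commutator_def,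
      Subgroup.map_commutator, Subgroup.map_top_of_surjective φ hbij.2]
  have hcardA : Nat.card (alternatingGroup (Fin 8)) = 20160 := by
    have h1 := two_mul_nat_card_alternatingGroup (α := Fin 8)
    rw [hcardS] at h1
    omega
  have hcardΩ : Nat.card (Cfsg.Omega (ZMod 2) (Cfsg.quadFormPlus 3 (ZMod 2))) = 20160 := by
    rw [hΩ, Subgroup.card_map_of_injective hφ, hcardA]
  constructor
  · have h1 := Subgroup.card_mul_index (Cfsg.Omega (ZMod 2) (Cfsg.quadFormPlus 3 (ZMod 2)))
    rw [hcardΩ, hcardO] at h1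
    omega
  · exact ⟨(MulEquiv.subgroupCongr hΩ).trans
      ((MulEquiv.ofBijective φ hbij).subgroupMap (alternatingGroup (Fin 8))).symm⟩

end Cfsg.Agent.S2565
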