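import Cfsg.Statements.S2567

set_option autoImplicit false
open Cfsg

namespace Cfsg.Agent.S2567

theorem unique_lift {G : Type*} [Group G] (N r : ℕ) (hr : r.Prime) (hN : ¬ r ∣ N)
    (hZ : ∀ z ∈ Subgroup.center G, z ^ N = 1)
    (x : G ⧸ Subgroup.center G) (hx : orderOf x = r) :
    ∃! g : G, (QuotientGroup.mk g : G ⧸ Subgroup.center G) = x ∧ orderOf g = r := by
  have hcop : Nat.Coprime r N := (Nat.Prime.coprime_iff_not_dvd hr).2 hN
  have hbez : (r : ℤ) * Nat.gcdA r N + (N : ℤ) * Nat.gcdB r N = 1 := by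
    have := Nat.gcd_eq_gcd_ab r N
    rw [hcop] at this
    exact_mod_cast this.symm
  have key : ∀ z ∈ Subgroup.center G, z ^ r = 1 → z = 1 := by
    intro z hz hzr
    have h1 : z ^ ((r : ℤ) * Nat.gcdA r N + (N : ℤ) * Nat.gcdB r N) = 1 := by
      rw [zpow_add, zpow_mul, zpow_mul, zpow_natCast, zpow_natCast, hzr, hZ z hz]
      simp
    rw [hbez, zpow_one] at h1
    exact h1
  have hfact : Fact r.Prime := ⟨hr⟩
  obtain ⟨g0, rfl⟩ := QuotientGroup.mk_surjective x
  have hc : g0 ^ r ∈ Subgroup.center G := by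
    rw [← QuotientGroup.eq_one_iff, QuotientGroup.mk_pow, ← hx]
    exact pow_orderOf_eq_one _
  set c := g0 ^ r with hc_def
  have hcN : c ^ N = 1 := hZ c hc
  have hca : (c ^ (Nat.gcdA r N)) ^ r = c := by
    have h1 : c ^ ((r : ℤ) * Nat.gcdA r N + (N : ℤ) * Nat.gcdB r N) = c := by
      rw [hbez, zpow_one]
    rw [zpow_add, zpow_mul, zpow_mul, zpow_natCast, zpow_natCast, hcN] at h1
    simp only [one_zpow, mul_one] at h1
    rw [← zpow_natCast, ← zpow_mul, mul_comm, zpow_mul, zpow_natCast]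
    exact h1
  have hzmem : (c ^ (Nat.gcdA r N))⁻¹ ∈ Subgroup.center G :=
    Subgroup.inv_mem _ (Subgroup.zpow_mem _ hc _)
  set z := (c ^ (Nat.gcdA r N))⁻¹ with hz_def
  have hcomm : Commute g0 z := (Subgroup.mem_center_iff.1 hzmem g0)
  have hgr : (g0 * z) ^ r = 1 := by
    rw [hcomm.mul_pow, hz_def, inv_pow, hca]
    exact mul_inv_cancel c
  have hmk : (QuotientGroup.mk (g0 * z) : G ⧸ Subgroup.center G) = QuotientGroup.mk g0 := by
    rw [QuotientGroup.mk_mul, (QuotientGroup.eq_one_iff z).2 hzmem, mul_one]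
  have hne : g0 * z ≠ 1 := by
    intro h1
    rw [h1] at hmk
    have : orderOf (QuotientGroup.mk g0 : G ⧸ Subgroup.center G) = 1 := by
      rw [← hmk]; simp
    rw [hx] at this
    exact hr.one_lt.ne' this
  refine ⟨g0 * z, ⟨hmk, orderOf_eq_prime hgr hne⟩, ?_⟩
  rintro g' ⟨hg', hg'r⟩
  have hw : (g0 * z)⁻¹ * g' ∈ Subgroup.center G := by
    rw [← QuotientGroup.eq, hmk, hg']
  have hcomm2 : Commute (g0 * z) ((g0 * z)⁻¹ * g') := (Subgroup.mem_center_iff.1 hw (g0 * z))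
  have hwr : ((g0 * z)⁻¹ * g') ^ r = 1 := by
    have h2 : g' = (g0 * z) * ((g0 * z)⁻¹ * g') := by group
    have h3 : g' ^ r = 1 := by rw [← hg'r]; exact pow_orderOf_eq_one _
    rw [h2, hcomm2.mul_pow, hgr, one_mul] at h3
    exact h3
  have := key _ hw hwr
  rw [inv_mul_eq_one] at this
  exact this.symm

theorem result {F : Type*} [Field F] [Fintype F] {q n r : ℕ} (hF : Fintype.card F = q) (hr : r.Prime) (hdiv : ¬ r ∣ q - 1) (x : GL (Fin n) F ⧸ Subgroup.center (GL (Fin n) F)) (hx : orderOf x = r) : ∃! g : GL (Fin n) F, (QuotientGroup.mk g : GL (Fin n) F ⧸ Subgroup.center (GL (Fin n) F)) = x ∧ orderOf g = r := by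
  classical
  apply unique_lift (q - 1) r hr hdiv _ x hx
  intro z hz
  rw [Matrix.GeneralLinearGroup.center_eq_range_scalar] at hz
  obtain ⟨u, rfl⟩ := hz
  rw [← map_pow]
  have : u ^ (q - 1) = 1 := by
    rw [← hF, ← Fintype.card_units]
    exact pow_card_eq_one
  rw [this, map_one]

end Cfsg.Agent.S2567
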