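import Cfsg.Statements.S2571
import Cfsg.Agent.Helper15.RegUnip

set_option autoImplicit false
open Cfsg

namespace Cfsg.Agent.S2571

theorem cyclic_indep {F : Type*} [Field F] {n : ℕ} (N : Matrix (Fin n) (Fin n) F)
    (hN : N ^ n = 0) (v : Fin n → F) (hv : (N ^ (n - 1)).mulVec v ≠ 0) (a : Fin n → F)
    (h : (∑ i : Fin n, a i • N ^ (i : ℕ)).mulVec v = 0) : a = 0 := by
  classical
  have key : ∀ d : ℕ, ∀ i : Fin n, (i : ℕ) = d → a i = 0 := by
    intro d
    induction d using Nat.strong_induction_on with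
    | _ d ih =>
      intro i hi
      have h1 : (N ^ (n - 1 - d)).mulVec ((∑ k : Fin n, a k • N ^ (k : ℕ)).mulVec v) = 0 := by
        rw [h, Matrix.mulVec_zero]
      rw [Matrix.mulVec_mulVec, Matrix.mul_sum] at h1
      have h2 : ∀ k : Fin n, N ^ (n - 1 - d) * (a k • N ^ (k : ℕ))
          = if k = i then a i • N ^ (n - 1) else 0 := by
        intro k
        split_ifs with hk
        · subst hk
          rw [Matrix.mul_smul, ← pow_add]
          congr 2
          have := k.2
          omega
        · rcases lt_or_gt_of_ne (fun h' => hk (Fin.ext h')) with hlt | hgt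
          · rw [ih (k : ℕ) (by omega) k rfl, zero_smul, mul_zero]
          · rw [Matrix.mul_smul, ← pow_add]
            have h3 : N ^ (n - 1 - d + (k : ℕ)) = 0 := by
              apply pow_eq_zero_of_le _ hN
              have := i.2
              omega
            rw [h3, smul_zero]
      simp only [h2, Finset.sum_ite_eq', Finset.mem_univ, if_true] at h1
      rw [Matrix.smul_mulVec] at h1
      rcases smul_eq_zero.1 h1 with h4 | h4
      · exact h4
      · exact absurd h4 hv
  funext i
  exact key i i rfl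

theorem result {F : Type*} [Field F] [Fintype F] {q n : ℕ} (hF : Fintype.card F = q) (hn : 1 ≤ n) (u : GL (Fin n) F) (hnil : ((u : Matrix (Fin n) (Fin n) F) - 1) ^ n = 0) (hreg : ((u : Matrix (Fin n) (Fin n) F) - 1).rank = n - 1) : Nat.card ↥(Subgroup.centralizer ({u} : Set (GL (Fin n) F))) = (q - 1) * q ^ (n - 1) := by
  classical
  obtain ⟨n', rfl⟩ : ∃ n', n = n' + 1 := ⟨n - 1, by omega⟩
  obtain ⟨N, hNdef⟩ : ∃ N : Matrix (Fin (n' + 1)) (Fin (n' + 1)) F,
      N = (u : Matrix (Fin (n' + 1)) (Fin (n' + 1)) F) - 1 := ⟨_, rfl⟩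
  rw [← hNdef] at hnil hreg
  have hu : (u : Matrix (Fin (n' + 1)) (Fin (n' + 1)) F) = N + 1 := by
    rw [hNdef, sub_add_cancel]
  obtain ⟨v, hv⟩ : ∃ v : Fin (n' + 1) → F, (N ^ n').mulVec v ≠ 0 := by
    by_contra hcon
    push Not at hcon
    have h1 : Matrix.mulVecLin (N ^ n') = 0 := by
      apply LinearMap.ext
      intro v
      rw [Matrix.mulVecLin_apply, hcon v]
      rfl
    have h2 := Helper15.finrank_ker_pow_le (Matrix.mulVecLin N) n'
    have h3 := Helper15.finrank_ker_mulVecLin_le_one N hreg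
    rw [← Helper15.mulVecLin_pow', h1, LinearMap.ker_zero, finrank_top,
      Module.finrank_fin_fun] at h2
    have h4 : n' * Module.finrank F (LinearMap.ker (Matrix.mulVecLin N)) ≤ n' * 1 :=
      Nat.mul_le_mul_left _ h3
    omega
  obtain ⟨φ, hφdef⟩ : ∃ φ : (Fin (n' + 1) → F) → Matrix (Fin (n' + 1)) (Fin (n' + 1)) F,
      φ = fun a => ∑ i : Fin (n' + 1), a i • N ^ (i : ℕ) := ⟨_, rfl⟩
  have hφadd : ∀ a b, φ (a + b) = φ a + φ b := by
    intro a b
    simp only [hφdef, Pi.add_apply, add_smul, Finset.sum_add_distrib]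
  have hφsub : ∀ a b, φ (a - b) = φ a - φ b := by
    intro a b
    simp only [hφdef, Pi.sub_apply, sub_smul, Finset.sum_sub_distrib]
  have hφsmul : ∀ (c : F) a, φ (c • a) = c • φ a := by
    intro c a
    simp only [hφdef, Pi.smul_apply, smul_eq_mul, mul_smul, Finset.smul_sum]
  have hφcomm : ∀ a (D : Matrix (Fin (n' + 1)) (Fin (n' + 1)) F), Commute D N →
      Commute D (φ a) := by
    intro a D hD
    rw [hφdef]
    apply Commute.sum_right
    intro i _
    exact (hD.pow_right _).smul_right _
  have hψinj : ∀ a b, (φ a).mulVec v = (φ b).mulVec v → a = b := by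
    intro a b hab
    have h1 : (φ (a - b)).mulVec v = 0 := by
      rw [hφsub, Matrix.sub_mulVec, hab, sub_self]
    rw [hφdef] at h1
    have h2 := cyclic_indep N hnil v (by simpa using hv) (a - b) h1
    exact sub_eq_zero.1 h2
  let ψ : (Fin (n' + 1) → F) →ₗ[F] (Fin (n' + 1) → F) :=
    { toFun := fun a => (φ a).mulVec v
      map_add' := by
        intro a b
        rw [hφadd, Matrix.add_mulVec]
      map_smul' := by
        intro c a
        simp only [RingHom.id_apply]
        rw [hφsmul, Matrix.smul_mulVec] }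
  have hψsurj : Function.Surjective ψ := by
    apply LinearMap.injective_iff_surjective.1
    intro a b hab
    exact hψinj a b hab
  have hsplit : ∀ a : Fin (n' + 1) → F,
      φ a = a 0 • (1 : Matrix (Fin (n' + 1)) (Fin (n' + 1)) F)
        + N * ∑ i : Fin n', a i.succ • N ^ (i : ℕ) := by
    intro a
    rw [hφdef]
    simp only
    rw [Fin.sum_univ_succ, Matrix.mul_sum, Fin.val_zero, pow_zero]
    congr 1
    refine Finset.sum_congr rfl fun i _ => ?_
    rw [Matrix.mul_smul, Fin.val_succ, pow_succ']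
  have hRcomm : ∀ a : Fin (n' + 1) → F, Commute N (∑ i : Fin n', a i.succ • N ^ (i : ℕ)) := by
    intro a
    apply Commute.sum_right
    intro i _
    exact ((Commute.refl N).pow_right _).smul_right _
  have hNR : ∀ a : Fin (n' + 1) → F, (N * ∑ i : Fin n', a i.succ • N ^ (i : ℕ)) ^ (n' + 1) = 0 := by
    intro a
    rw [(hRcomm a).mul_pow, hnil, zero_mul]
  have hnilp : ∀ a : Fin (n' + 1) → F, a 0 = 0 → (φ a) ^ (n' + 1) = 0 := by
    intro a ha
    rw [hsplit, ha, zero_smul, zero_add]
    exact hNR a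
  have hunit : ∀ a : Fin (n' + 1) → F, a 0 ≠ 0 → IsUnit (φ a) := by
    intro a ha
    rw [hsplit]
    apply IsNilpotent.isUnit_add_left_of_commute
    · exact ⟨n' + 1, hNR a⟩
    · have h1 : IsUnit (algebraMap F (Matrix (Fin (n' + 1)) (Fin (n' + 1)) F) (a 0)) :=
        (IsUnit.mk0 _ ha).map _
      rwa [Algebra.algebraMap_eq_smul_one] at h1
    · exact Commute.smul_right (Commute.one_right _) _
  have hcent : ∀ g : GL (Fin (n' + 1)) F,
      g ∈ Subgroup.centralizer ({u} : Set (GL (Fin (n' + 1)) F)) ↔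
        Commute (g : Matrix (Fin (n' + 1)) (Fin (n' + 1)) F) N := by
    intro g
    rw [Subgroup.mem_centralizer_iff]
    constructor
    · intro h
      have h1 := h u (Set.mem_singleton u)
      have h2 : (u : Matrix (Fin (n' + 1)) (Fin (n' + 1)) F) * (g : Matrix _ _ F)
          = (g : Matrix _ _ F) * (u : Matrix _ _ F) := by
        have := congrArg (fun x : GL (Fin (n' + 1)) F =>
          (x : Matrix (Fin (n' + 1)) (Fin (n' + 1)) F)) h1
        simpa using this
      rw [hu, add_mul, mul_add, one_mul, mul_one] at h2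
      exact (add_right_cancel h2).symm
    · intro h x hx
      rw [Set.mem_singleton_iff] at hx
      rw [hx]
      apply Units.ext
      rw [Units.val_mul, Units.val_mul, hu, add_mul, mul_add, one_mul, mul_one, h.eq]
  have key : ∀ g : GL (Fin (n' + 1)) F,
      Commute (g : Matrix (Fin (n' + 1)) (Fin (n' + 1)) F) N →
        ∃ a : Fin (n' + 1) → F, a 0 ≠ 0 ∧ φ a = (g : Matrix _ _ F) := by
    intro g hg
    obtain ⟨a, ha⟩ := hψsurj ((g : Matrix _ _ F).mulVec v)
    have ha' : (φ a).mulVec v = (g : Matrix _ _ F).mulVec v := ha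
    have hD : Commute ((g : Matrix (Fin (n' + 1)) (Fin (n' + 1)) F) - φ a) N :=
      hg.sub_left (hφcomm a N (Commute.refl N)).symm
    have hD0 : (g : Matrix (Fin (n' + 1)) (Fin (n' + 1)) F) - φ a = 0 := by
      apply Matrix.toLin'.injective
      apply LinearMap.ext
      intro x
      obtain ⟨b, hb⟩ := hψsurj x
      have hb' : (φ b).mulVec v = x := hb
      rw [Matrix.toLin'_apply, map_zero, LinearMap.zero_apply, ← hb', Matrix.mulVec_mulVec,
        (hφcomm b _ hD).eq, ← Matrix.mulVec_mulVec, Matrix.sub_mulVec, ha', sub_self,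
        Matrix.mulVec_zero]
    have hga : φ a = (g : Matrix _ _ F) := (sub_eq_zero.1 hD0).symm
    refine ⟨a, ?_, hga⟩
    intro ha0
    have h1 := hnilp a ha0
    rw [hga] at h1
    have h2 : ((g ^ (n' + 1) : GL (Fin (n' + 1)) F) : Matrix (Fin (n' + 1)) (Fin (n' + 1)) F)
        = 0 := by
      rw [Units.val_pow_eq_pow_val]
      exact h1
    exact (g ^ (n' + 1)).ne_zero h2
  have hmem : ∀ a : {a : Fin (n' + 1) → F // a 0 ≠ 0},
      (hunit a.1 a.2).unit ∈ Subgroup.centralizer ({u} : Set (GL (Fin (n' + 1)) F)) := by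
    intro a
    rw [hcent, IsUnit.unit_spec]
    exact (hφcomm a.1 N (Commute.refl N)).symm
  let f : {a : Fin (n' + 1) → F // a 0 ≠ 0} →
      Subgroup.centralizer ({u} : Set (GL (Fin (n' + 1)) F)) :=
    fun a => ⟨(hunit a.1 a.2).unit, hmem a⟩
  have hf : Function.Bijective f := by
    constructor
    · intro a b hab
      have h1 : ((hunit a.1 a.2).unit : Matrix (Fin (n' + 1)) (Fin (n' + 1)) F)
          = ((hunit b.1 b.2).unit : Matrix (Fin (n' + 1)) (Fin (n' + 1)) F) := by
        have := congrArg (fun x : Subgroup.centralizer ({u} : Set (GL (Fin (n' + 1)) F)) =>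
          ((x : GL (Fin (n' + 1)) F) : Matrix (Fin (n' + 1)) (Fin (n' + 1)) F)) hab
        exact this
      rw [IsUnit.unit_spec, IsUnit.unit_spec] at h1
      apply Subtype.ext
      apply hψinj
      rw [h1]
    · rintro ⟨g, hg⟩
      obtain ⟨a, ha0, hga⟩ := key g ((hcent g).1 hg)
      refine ⟨⟨a, ha0⟩, ?_⟩
      apply Subtype.ext
      apply Units.ext
      show ((hunit a ha0).unit : Matrix (Fin (n' + 1)) (Fin (n' + 1)) F) = g
      rw [IsUnit.unit_spec, hga]
  rw [← Nat.card_eq_of_bijective f hf]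
  have e : {a : Fin (n' + 1) → F // a 0 ≠ 0} ≃ Fˣ × (Fin n' → F) :=
    { toFun := fun a => (Units.mk0 (a.1 0) a.2, Fin.tail a.1)
      invFun := fun p => ⟨Fin.cons (p.1 : F) p.2, by simp⟩
      left_inv := by
        intro a
        apply Subtype.ext
        simp
      right_inv := by
        intro p
        ext <;> simp }
  rw [Nat.card_congr e, Nat.card_prod, Nat.card_eq_fintype_card, Nat.card_eq_fintype_card,
    Fintype.card_units, Fintype.card_fun, hF]
  simp

end Cfsg.Agent.S2571
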