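import Cfsg.Statements.S2573
import Cfsg.Agent.Helper15.RegUnip

set_option autoImplicit false
open Cfsg

namespace Cfsg.Agent.S2573

theorem result {F : Type*} [Field F] [Finite F] {n : ℕ} (u : Matrix (Fin n) (Fin n) F) (hnil : (u - 1) ^ n = 0) (hreg : (u - 1).rank = n - 1) (W : Submodule F (Fin n → F)) (hW : ∀ v ∈ W, u.mulVec v ∈ W) : W = LinearMap.ker (Matrix.mulVecLin ((u - 1) ^ Module.finrank F W)) := by
  rw [Helper15.mulVecLin_pow']
  refine Helper15.invariant_eq_ker_pow (Matrix.mulVecLin (u - 1)) n ?_ ?_ W ?_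
  · rw [← Helper15.mulVecLin_pow', hnil]
    simp
  · exact Helper15.finrank_ker_mulVecLin_le_one _ hreg
  · intro v hv
    have : Matrix.mulVecLin (u - 1) v = u.mulVec v - v := by
      simp [Matrix.sub_mulVec]
    rw [this]
    exact W.sub_mem (hW v hv) hv

end Cfsg.Agent.S2573
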