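import Cfsg.Statements.S2574
import Cfsg.Agent.Helper15.RegUnip

set_option autoImplicit false
open Cfsg

namespace Cfsg.Agent.S2574

open Matrix in
theorem result {F : Type*} [Field F] [Finite F] {m : ℕ} (u : Matrix.symplecticGroup (Fin m) F) (hnil : ((u : Matrix (Fin m ⊕ Fin m) (Fin m ⊕ Fin m) F) - 1) ^ (2 * m) = 0) (hreg : ((u : Matrix (Fin m ⊕ Fin m) (Fin m ⊕ Fin m) F) - 1).rank = 2 * m - 1) (W : Submodule F (Fin m ⊕ Fin m → F)) (hW : ∀ v ∈ W, (u : Matrix (Fin m ⊕ Fin m) (Fin m ⊕ Fin m) F).mulVec v ∈ W) (hdim : 2 * Module.finrank F W ≤ 2 * m) : ∀ v ∈ W, ∀ w ∈ W, Cfsg.sympForm m F v w = 0 := by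
  classical
  obtain ⟨U, hUmem⟩ := u
  simp only at hnil hreg hW
  have hJ : Uᵀ * Matrix.J (Fin m) F * U = Matrix.J (Fin m) F := SymplecticGroup.mem_iff'.1 hUmem
  let B : LinearMap.BilinForm F (Fin m ⊕ Fin m → F) := Matrix.toBilin' (Matrix.J (Fin m) F)
  have hB : ∀ x y, B x y = Cfsg.sympForm m F x y := fun x y => by
    simp [B, Matrix.toBilin'_apply', Cfsg.sympForm]
  have hpres : ∀ x y, B (U *ᵥ x) (U *ᵥ y) = B x y := by
    intro x y
    rw [hB, hB]
    unfold Cfsg.sympForm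
    calc (U *ᵥ x) ⬝ᵥ (Matrix.J (Fin m) F *ᵥ (U *ᵥ y))
        = (x ᵥ* Uᵀ) ⬝ᵥ (Matrix.J (Fin m) F *ᵥ (U *ᵥ y)) := by rw [Matrix.vecMul_transpose]
      _ = x ⬝ᵥ (Uᵀ *ᵥ (Matrix.J (Fin m) F *ᵥ (U *ᵥ y))) := by rw [← Matrix.dotProduct_mulVec]
      _ = x ⬝ᵥ ((Uᵀ * Matrix.J (Fin m) F * U) *ᵥ y) := by
          simp [Matrix.mulVec_mulVec, Matrix.mul_assoc]
      _ = x ⬝ᵥ (Matrix.J (Fin m) F *ᵥ y) := by rw [hJ]
  -- U is invertible
  have hdet : IsUnit U.det := SymplecticGroup.symplectic_det hUmem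
  have hinj : ∀ x, U *ᵥ x = 0 → x = 0 := by
    intro x hx
    have h1 : U⁻¹ *ᵥ (U *ᵥ x) = x := by
      rw [Matrix.mulVec_mulVec, Matrix.nonsing_inv_mul _ hdet, Matrix.one_mulVec]
    rw [← h1, hx, Matrix.mulVec_zero]
  have hW' : ∀ v ∈ W, Matrix.mulVecLin U v ∈ W := fun v hv => by
    simpa using hW v hv
  have hsurj : ∀ w ∈ W, ∃ w' ∈ W, U *ᵥ w' = w := by
    intro w hw
    have hi : Function.Injective ((Matrix.mulVecLin U).restrict hW') := by
      rw [← LinearMap.ker_eq_bot, LinearMap.ker_eq_bot']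
      intro x hx
      have := congrArg Subtype.val hx
      simp only [LinearMap.restrict_apply, Matrix.mulVecLin_apply, ZeroMemClass.coe_zero] at this
      exact Subtype.ext (hinj _ this)
    obtain ⟨⟨w', hw'⟩, hww⟩ := LinearMap.surjective_of_injective hi ⟨w, hw⟩
    refine ⟨w', hw', ?_⟩
    have := congrArg Subtype.val hww
    simpa using this
  -- the nilpotent map
  have hfW : ∀ (W' : Submodule F (Fin m ⊕ Fin m → F)), (∀ v ∈ W', U *ᵥ v ∈ W') →
      ∀ v ∈ W', Matrix.mulVecLin (U - 1) v ∈ W' := by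
    intro W' hW'' v hv
    have : Matrix.mulVecLin (U - 1) v = U *ᵥ v - v := by
      simp [Matrix.sub_mulVec]
    rw [this]
    exact W'.sub_mem (hW'' v hv) hv
  have hnil' : (Matrix.mulVecLin (U - 1)) ^ (2 * m) = 0 := by
    rw [← Helper15.mulVecLin_pow'', hnil]
    simp
  have hker : Module.finrank F (LinearMap.ker (Matrix.mulVecLin (U - 1))) ≤ 1 := by
    apply Helper15.finrank_ker_mulVecLin_le_one'
    rw [hreg]
    simp [two_mul]
  have hWeq : W = LinearMap.ker ((Matrix.mulVecLin (U - 1)) ^ Module.finrank F W) := by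
    refine Helper15.invariant_eq_ker_pow (Matrix.mulVecLin (U - 1)) (2 * m) ?_ ?_ W ?_
    · exact hnil'
    · exact hker
    · exact hfW W hW
  have hOinv : ∀ v ∈ B.orthogonal W, U *ᵥ v ∈ B.orthogonal W := by
    intro v hv
    rw [LinearMap.BilinForm.mem_orthogonal_iff] at hv ⊢
    intro w hw
    obtain ⟨w', hw', rfl⟩ := hsurj w hw
    show B (U *ᵥ w') (U *ᵥ v) = 0
    rw [hpres]
    exact hv w' hw'
  have hOeq : B.orthogonal W =
      LinearMap.ker ((Matrix.mulVecLin (U - 1)) ^ Module.finrank F (B.orthogonal W)) := by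
    refine Helper15.invariant_eq_ker_pow (Matrix.mulVecLin (U - 1)) (2 * m) ?_ ?_ (B.orthogonal W) ?_
    · exact hnil'
    · exact hker
    · exact hfW _ hOinv
  have hfin := LinearMap.BilinForm.finrank_add_finrank_orthogonal' (B := B) W
  have hV : Module.finrank F (Fin m ⊕ Fin m → F) = 2 * m := by
    simp [two_mul]
  have hle : Module.finrank F W ≤ Module.finrank F (B.orthogonal W) := by omega
  have hsub : W ≤ B.orthogonal W := by
    have h1 := Helper15.ker_pow_mono' (Matrix.mulVecLin (U - 1)) hle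
    rw [← hWeq, ← hOeq] at h1
    exact h1
  intro v hv w hw
  rw [← hB]
  have := hsub hw
  rw [LinearMap.BilinForm.mem_orthogonal_iff] at this
  exact this v hv

end Cfsg.Agent.S2574
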