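import Cfsg.Statements.S2575
import Cfsg.Agent.Helper15.FinField

set_option autoImplicit false
open Cfsg

namespace Cfsg.Agent.S2575

theorem prod_lt {F : Type*} [Field F] (n i : ℕ) (hi : i ≤ n) :
    ∏ j ∈ Finset.range n, (if j < i then (-1 : F) else 1) = (-1) ^ i := by
  rw [Finset.prod_ite]
  have h : Finset.filter (fun j => j < i) (Finset.range n) = Finset.range i := by
    ext j
    simp only [Finset.mem_filter, Finset.mem_range]
    omega
  rw [h, Finset.prod_const, Finset.prod_const_one, mul_one, Finset.card_range]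

theorem result {F : Type*} [Field F] [Fintype F] {q : ℕ} (hF : Fintype.card F = q) (hq : Odd q) {n : ℕ} (hn : 1 ≤ n) (i : ℕ) (hi : i ≤ n) : (∃ c : F, c ≠ 0 ∧ (c • Matrix.diagonal (fun j : Fin n => if (j : ℕ) < i then (-1 : F) else 1)).det = 1) ↔ (Even i ∨ padicValNat 2 n < padicValNat 2 (q - 1)) := by
  classical
  have hq2 : ringChar F ≠ 2 := Helper15.ringChar_ne_two_of_odd_card (hF ▸ hq)
  have hN : q - 1 ≠ 0 := by
    have := Fintype.one_lt_card (α := F)
    omega
  have hdet : ∀ c : F, (c • Matrix.diagonal (fun j : Fin n => if (j : ℕ) < i then (-1 : F) else 1)).det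
      = c ^ n * (-1) ^ i := by
    intro c
    rw [Matrix.det_smul, Matrix.det_diagonal, Fintype.card_fin,
      Fin.prod_univ_eq_prod_range (fun j => if j < i then (-1 : F) else 1) n, prod_lt n i hi]
  simp only [hdet]
  obtain ⟨a, N', hN'odd, hNeq, hva⟩ := Helper15.v2_decomp (q - 1) hN
  obtain ⟨b, n', hn'odd, hneq, hvb⟩ := Helper15.v2_decomp n (by omega)
  rw [hva, hvb]
  constructor
  · rintro ⟨c, hc0, hc⟩
    by_contra hcon
    rw [not_or, Nat.not_even_iff_odd, not_lt] at hcon
    obtain ⟨hi_odd, hab⟩ := hcon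
    rw [hi_odd.neg_one_pow] at hc
    have hcn : c ^ n = -1 := by linear_combination (-1 : F) * hc
    have hcN : c ^ (q - 1) = 1 := by
      rw [← hF]; exact FiniteField.pow_card_sub_one_eq_one c hc0
    obtain ⟨d, rfl⟩ := Nat.exists_eq_add_of_le hab
    have hnN : n * N' = (q - 1) * (2 ^ d * n') := by
      rw [hneq, hNeq]; ring
    have h1 : c ^ (n * N') = 1 := by
      rw [hnN, pow_mul, hcN, one_pow]
    have h2 : c ^ (n * N') = -1 := by rw [pow_mul, hcn, hN'odd.neg_one_pow]
    exact Ring.neg_one_ne_one_of_char_ne_two hq2 (h2.symm.trans h1)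
  · intro h
    by_cases hi_even : Even i
    · exact ⟨1, one_ne_zero, by simp [hi_even.neg_one_pow]⟩
    · rw [Nat.not_even_iff_odd] at hi_even
      have hab : b < a := by
        rcases h with h | h
        · exact absurd h (Nat.not_even_iff_odd.2 hi_even)
        · exact h
      have hdvd : 2 ^ (b + 1) ∣ Fintype.card F - 1 := by
        rw [hF, hNeq]
        exact dvd_mul_of_dvd_left (pow_dvd_pow 2 (by omega)) N'
      obtain ⟨η, hη0, hη⟩ := Helper15.exists_pow_two_pow_eq_neg_one (F := F) b hdvd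
      refine ⟨η, hη0, ?_⟩
      have hηn : η ^ n = -1 := by
        rw [hneq, pow_mul, hη, hn'odd.neg_one_pow]
      rw [hηn, hi_even.neg_one_pow]
      ring

end Cfsg.Agent.S2575
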