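import Cfsg.Statements.S2576
import Cfsg.Agent.Helper15.FinField

set_option autoImplicit false
open Cfsg

namespace Cfsg.Agent.S2576

theorem result {F : Type*} [Field F] [Fintype F] {q : ℕ} (hF : Fintype.card F = q) (hq : Odd q) {m : ℕ} (hm : 1 ≤ m) (μ : F) (hμ : orderOf μ = 2 ^ padicValNat 2 (q - 1)) : (∃ c : F, c ≠ 0 ∧ (c • Matrix.blockDiagonal (fun _ : Fin m => !![(0 : F), 1; μ, 0])).det = 1) ↔ (q % 4 = 3 ∨ padicValNat 2 (q - 1) < padicValNat 2 (2 * m)) := by
  classical
  have hq2 : ringChar F ≠ 2 := Helper15.ringChar_ne_two_of_odd_card (hF ▸ hq)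
  have hq1 : 2 ≤ q := by
    have := Fintype.one_lt_card (α := F)
    omega
  have hN : q - 1 ≠ 0 := by omega
  have hdet : ∀ c : F, (c • Matrix.blockDiagonal (fun _ : Fin m => !![(0 : F), 1; μ, 0])).det
      = c ^ (2 * m) * (-μ) ^ m := by
    intro c
    rw [Matrix.det_smul, Matrix.det_blockDiagonal]
    simp [Matrix.det_fin_two_of, Fintype.card_prod]
  simp only [hdet]
  obtain ⟨a, N', hN'odd, hNeq, hva⟩ := Helper15.v2_decomp (q - 1) hN
  obtain ⟨b, m', hm'odd, hmeq, hvb⟩ := Helper15.v2_decomp m (by omega)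
  have hv2m : padicValNat 2 (2 * m) = b + 1 := by
    rw [padicValNat.mul (by norm_num) (by omega), padicValNat_self, hvb, add_comm]
  rw [hva] at hμ
  rw [hva, hv2m]
  have ha1 : 1 ≤ a := by
    by_contra h
    have ha0 : a = 0 := by omega
    subst ha0
    obtain ⟨k, hk⟩ := hN'odd
    obtain ⟨t, ht⟩ := hq
    simp at hNeq
    omega
  constructor
  · rintro ⟨c, hc0, hc⟩
    by_contra hcon
    rw [not_or, not_lt] at hcon
    obtain ⟨hq4, hba⟩ := hcon
    obtain ⟨d, rfl⟩ := Nat.exists_eq_add_of_le hba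
    have hbd : 1 ≤ b + d := by
      by_contra h
      have hb0 : b = 0 := by omega
      have hd0 : d = 0 := by omega
      subst hb0 hd0
      obtain ⟨k, hk⟩ := hN'odd
      simp at hNeq
      omega
    have hμ' : orderOf μ = 2 ^ ((b + d) + 1) := by
      rw [hμ]; congr 1; ring
    have hμ2 := Helper15.pow_two_pow_eq_neg_one μ (b + d) hμ'
    have hcN : c ^ (q - 1) = 1 := by
      rw [← hF]; exact FiniteField.pow_card_sub_one_eq_one c hc0
    have hA : 2 * m * (2 ^ d * N') = (q - 1) * m' := by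
      rw [hmeq, hNeq]; ring
    have hB : m * (2 ^ d * N') = 2 ^ (b + d) * (m' * N') := by
      rw [hmeq]; ring
    have h1 : (c ^ (2 * m) * (-μ) ^ m) ^ (2 ^ d * N') = 1 := by rw [hc, one_pow]
    rw [mul_pow, ← pow_mul, ← pow_mul, hA, hB, pow_mul c, hcN, one_pow, one_mul, pow_mul,
      neg_pow, hμ2] at h1
    have heven : Even (2 ^ (b + d)) := by
      rw [Nat.even_pow]
      exact ⟨even_two, by omega⟩
    rw [heven.neg_one_pow, one_mul, (hm'odd.mul hN'odd).neg_one_pow] at h1
    exact Ring.neg_one_ne_one_of_char_ne_two hq2 h1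
  · intro h
    refine ⟨1, one_ne_zero, ?_⟩
    rw [one_pow, one_mul]
    rcases h with h | h
    · have ha : a = 1 := by
        by_contra hne
        obtain ⟨d, rfl⟩ := Nat.exists_eq_add_of_le (show 2 ≤ a by omega)
        have : q - 1 = 4 * (2 ^ d * N') := by rw [hNeq]; ring
        omega
      subst ha
      have := Helper15.pow_two_pow_eq_neg_one μ 0 (by simpa using hμ)
      simp only [pow_zero, pow_one] at this
      rw [this, neg_neg, one_pow]
    · obtain ⟨d, rfl⟩ := Nat.exists_eq_add_of_le (show a ≤ b by omega)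
      have hmm : m = 2 ^ a * (2 ^ d * m') := by rw [hmeq]; ring
      have h1 : μ ^ m = 1 := by
        apply orderOf_dvd_iff_pow_eq_one.1
        rw [hμ, hmm]
        exact dvd_mul_right _ _
      have heven : Even m := by
        rw [hmm]
        apply Even.mul_right
        rw [Nat.even_pow]
        exact ⟨even_two, by omega⟩
      rw [neg_pow, heven.neg_one_pow, h1, one_mul]

end Cfsg.Agent.S2576
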