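import Cfsg.Statements.S2599

set_option autoImplicit false
open Cfsg

namespace Cfsg.Agent.S2599

/-- An irreducible invariant subspace of a semisimple isometry is non-degenerate or totally singular: let Q be a quadratic form on F^n (F finite of characteristic p) with non-degenerate polar form f, x an isometry of Q of order prime to p, and U a non-zero x-invariant subspace containing no x-invariant subspace other than 0 and U. Then U meets its f-orthogonal trivially, or Q vanishes on U, or p = 2, U is a line spanned by a non-singular vector and x fixes U pointwise. -/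
theorem result {F : Type*} [Field F] [Fintype F] {p : ℕ} [Fact p.Prime] [CharP F p] {n : ℕ} (Q : QuadraticForm F (Fin n → F)) (hQ : (QuadraticMap.polarBilin Q).Nondegenerate) (x : ↥(Cfsg.isometryGroup F ⇑Q)) (hx : (orderOf x).Coprime p) (U : Submodule F (Fin n → F)) (hU0 : U ≠ ⊥) (hUx : ∀ u ∈ U, ((x : Matrix.GeneralLinearGroup (Fin n) F) : Matrix (Fin n) (Fin n) F).mulVec u ∈ U) (hirr : ∀ W : Submodule F (Fin n → F), W ≤ U → (∀ w ∈ W, ((x : Matrix.GeneralLinearGroup (Fin n) F) : Matrix (Fin n) (Fin n) F).mulVec w ∈ W) → W = ⊥ ∨ W = U) : U ⊓ LinearMap.BilinForm.orthogonal (QuadraticMap.polarBilin Q) U = ⊥ ∨ (∀ u ∈ U, Q u = 0) ∨ (p = 2 ∧ Module.finrank F U = 1 ∧ (∃ u ∈ U, Q u ≠ 0) ∧ ∀ u ∈ U, ((x : Matrix.GeneralLinearGroup (Fin n) F) : Matrix (Fin n) (Fin n) F).mulVec u = u) := by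
  classical
  obtain ⟨X, hX⟩ : ∃ X : Matrix (Fin n) (Fin n) F,
      X = ((x : Matrix.GeneralLinearGroup (Fin n) F) : Matrix (Fin n) (Fin n) F) := ⟨_, rfl⟩
  rw [← hX] at hUx hirr ⊢
  have hXQ : ∀ v, Q (X.mulVec v) = Q v := by
    intro v
    have h := x.2 v v
    rw [hX]
    exact h
  have hXpol : ∀ u v, QuadraticMap.polar ⇑Q (X.mulVec u) (X.mulVec v)
      = QuadraticMap.polar ⇑Q u v := by
    intro u v
    unfold QuadraticMap.polar
    rw [← Matrix.mulVec_add, hXQ, hXQ, hXQ]
  have hXinj : Function.Injective X.mulVec := by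
    rw [Matrix.mulVec_injective_iff_isUnit]
    rw [hX]
    exact (x : Matrix.GeneralLinearGroup (Fin n) F).isUnit
  -- X maps U onto U
  have hXsurj : ∀ u ∈ U, ∃ u' ∈ U, X.mulVec u' = u := by
    let T : U →ₗ[F] U := (Matrix.toLin' X).restrict (fun u hu => by
      rw [Matrix.toLin'_apply]
      exact hUx u hu)
    have hTinj : Function.Injective T := by
      intro a b hab
      apply Subtype.ext
      apply hXinj
      have h5 := congrArg Subtype.val hab
      simpa [T, LinearMap.restrict_apply] using h5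
    have hTsurj : Function.Surjective T := LinearMap.surjective_of_injective hTinj
    intro u hu
    obtain ⟨u', hu'⟩ := hTsurj ⟨u, hu⟩
    refine ⟨u'.1, u'.2, ?_⟩
    have h5 := congrArg Subtype.val hu'
    simpa [T, LinearMap.restrict_apply] using h5
  -- the radical
  have hRinv : ∀ w ∈ U ⊓ LinearMap.BilinForm.orthogonal (QuadraticMap.polarBilin Q) U,
      X.mulVec w ∈ U ⊓ LinearMap.BilinForm.orthogonal (QuadraticMap.polarBilin Q) U := by
    intro w hw
    obtain ⟨hw1, hw2⟩ := Submodule.mem_inf.1 hw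
    refine Submodule.mem_inf.2 ⟨hUx w hw1, ?_⟩
    rw [LinearMap.BilinForm.mem_orthogonal_iff] at hw2 ⊢
    intro u hu
    obtain ⟨u', hu', rfl⟩ := hXsurj u hu
    show QuadraticMap.polar ⇑Q (X.mulVec u') (X.mulVec w) = 0
    rw [hXpol]
    exact hw2 u' hu'
  rcases hirr _ inf_le_left hRinv with hR | hR
  · exact Or.inl hR
  right
  have hiso : ∀ u ∈ U, ∀ v ∈ U, QuadraticMap.polar ⇑Q u v = 0 := by
    intro u hu v hv
    have hv' : v ∈ U ⊓ LinearMap.BilinForm.orthogonal (QuadraticMap.polarBilin Q) U := by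
      rw [hR]
      exact hv
    have h5 := (Submodule.mem_inf.1 hv').2
    rw [LinearMap.BilinForm.mem_orthogonal_iff] at h5
    exact h5 u hu
  let W : Submodule F (Fin n → F) :=
    { carrier := {u | u ∈ U ∧ Q u = 0}
      add_mem' := by
        rintro a b ⟨ha, ha0⟩ ⟨hb, hb0⟩
        refine ⟨U.add_mem ha hb, ?_⟩
        rw [QuadraticMap.map_add ⇑Q, ha0, hb0, hiso a ha b hb]
        simp
      zero_mem' := ⟨U.zero_mem, QuadraticMap.map_zero Q⟩
      smul_mem' := by
        rintro c a ⟨ha, ha0⟩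
        refine ⟨U.smul_mem c ha, ?_⟩
        rw [QuadraticMap.map_smul, ha0]
        simp }
  have hWmem : ∀ u, u ∈ W ↔ (u ∈ U ∧ Q u = 0) := fun u => Iff.rfl
  have hWU : W ≤ U := fun u hu => ((hWmem u).1 hu).1
  have hWinv : ∀ w ∈ W, X.mulVec w ∈ W := by
    intro w hw
    obtain ⟨h1, h2⟩ := (hWmem w).1 hw
    exact (hWmem _).2 ⟨hUx w h1, by rw [hXQ]; exact h2⟩
  rcases hirr W hWU hWinv with hW | hW
  swap
  · left
    intro u hu
    have h5 : u ∈ W := by
      rw [hW]
      exact hu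
    exact ((hWmem u).1 h5).2
  right
  have hani : ∀ u ∈ U, Q u = 0 → u = 0 := by
    intro u hu hu0
    have h5 : u ∈ W := (hWmem u).2 ⟨hu, hu0⟩
    rw [hW] at h5
    exact (Submodule.mem_bot F).1 h5
  obtain ⟨u₀, hu₀U, hu₀⟩ := Submodule.exists_mem_ne_zero_of_ne_bot hU0
  have hQu₀ : Q u₀ ≠ 0 := fun h => hu₀ (hani u₀ hu₀U h)
  have h2 : (2 : F) = 0 := by
    have h5 := hiso u₀ hu₀U u₀ hu₀U
    rw [QuadraticMap.polar_self] at h5
    have h6 : (2 : F) * Q u₀ = 0 := by simpa [two_mul] using h5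
    exact (mul_eq_zero.1 h6).resolve_right hQu₀
  have hp2 : p = 2 := by
    have h5 : ((2 : ℕ) : F) = 0 := by exact_mod_cast h2
    rw [CharP.cast_eq_zero_iff F p 2] at h5
    exact (Nat.prime_dvd_prime_iff_eq (Fact.out : p.Prime) Nat.prime_two).1 h5
  subst hp2
  have hspan : ∀ v ∈ U, ∃ c : F, v = c • u₀ := by
    intro v hv
    obtain ⟨c, hc⟩ := FiniteField.isSquare_of_char_two (ringChar.eq F 2) (Q v / Q u₀)
    have h5 : Q (v + c • u₀) = 0 := by
      rw [QuadraticMap.map_add ⇑Q, QuadraticMap.map_smul, QuadraticMap.polar_smul_right,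
        hiso v hv u₀ hu₀U]
      have h6 : c * c * Q u₀ = Q v := by
        rw [← hc]
        field_simp
      simp only [smul_eq_mul, mul_zero, add_zero]
      linear_combination h6 + Q v * h2
    have h7 := hani _ (U.add_mem hv (U.smul_mem c hu₀U)) h5
    refine ⟨c, ?_⟩
    have h8 : v = -(c • u₀) := eq_neg_of_add_eq_zero_left h7
    rw [h8, ← neg_smul, CharTwo.neg_eq]
  have hUeq : U = F ∙ u₀ := by
    apply le_antisymm
    · intro v hv
      obtain ⟨c, rfl⟩ := hspan v hv
      exact Submodule.smul_mem _ _ (Submodule.mem_span_singleton_self u₀)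
    · rw [Submodule.span_singleton_le_iff_mem]
      exact hu₀U
  refine ⟨rfl, ?_, ⟨u₀, hu₀U, hQu₀⟩, ?_⟩
  · rw [hUeq, finrank_span_singleton hu₀]
  · obtain ⟨l, hl⟩ := hspan _ (hUx u₀ hu₀U)
    have h5 : Q (X.mulVec u₀) = Q u₀ := hXQ u₀
    rw [hl, QuadraticMap.map_smul, smul_eq_mul] at h5
    have h6 : (l - 1) * (l - 1) = 0 := by
      have h7 : (l * l - 1) * Q u₀ = 0 := by linear_combination h5
      have h8 : l * l - 1 = 0 := (mul_eq_zero.1 h7).resolve_right hQu₀
      linear_combination h8 + (1 - l) * h2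
    have hl1 : l = 1 := by
      have h7 := mul_self_eq_zero.1 h6
      linear_combination h7
    rw [hl1, one_smul] at hl
    intro u hu
    obtain ⟨c, rfl⟩ := hspan u hu
    rw [Matrix.mulVec_smul, hl]

end Cfsg.Agent.S2599
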