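import Cfsg.Statements.S2612
-- import your own Cfsg.Agent.* helpers here
import Cfsg.Agent.Helper5.PlusDickson
import Cfsg.Agent.S0287

set_option autoImplicit false
open Cfsg

namespace Cfsg.Agent.S2612

/-- For the hyperbolic quadratic form Σ x_i y_i on F^(2m) (F finite, m ≥ 1, excluding m = 2 over the field of two elements), Ω⁺_2m(F) (the commutator subgroup of the orthogonal group) contains an element interchanging the two complementary maximal totally singular subspaces {y = 0} and {x = 0} if and only if m is even (dimension divisible by 4). -/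
theorem result {F : Type*} [Field F] [Fintype F] {m : ℕ} (hm : 1 ≤ m) (h : Fintype.card F ≠ 2 ∨ m ≠ 2) : (∃ g : ↥(Cfsg.isometryGroup F (Cfsg.quadFormPlus m F)), g ∈ Cfsg.Omega F (Cfsg.quadFormPlus m F) ∧ (∀ v : Fin m ⊕ Fin m → F, (∀ i, v (Sum.inr i) = 0) → ∀ i, (((g : Matrix.GeneralLinearGroup (Fin m ⊕ Fin m) F) : Matrix (Fin m ⊕ Fin m) (Fin m ⊕ Fin m) F).mulVec v) (Sum.inl i) = 0) ∧ (∀ v : Fin m ⊕ Fin m → F, (∀ i, v (Sum.inl i) = 0) → ∀ i, (((g : Matrix.GeneralLinearGroup (Fin m ⊕ Fin m) F) : Matrix (Fin m ⊕ Fin m) (Fin m ⊕ Fin m) F).mulVec v) (Sum.inr i) = 0)) ↔ Even m := by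
  obtain ⟨𝒬, h𝒬, hnd⟩ := Cfsg.Agent.S0287.plus_model F m
  have hQeq : Cfsg.quadFormPlus m F = ⇑𝒬 := funext (fun v => (h𝒬 v).symm)
  rw [hQeq]
  constructor
  · rintro ⟨g, hgΩ, hg1, hg2⟩
    have hD1 := Cfsg.Agent.Helper5.plusD_comm 𝒬 h𝒬 hnd g hgΩ
    rw [Cfsg.Agent.Helper5.plusD_apply] at hD1
    have hne : (-1 : ℤˣ) ≠ 1 := by decide
    have hev := (neg_one_pow_eq_one_iff_even hne).1 hD1
    have hbot : Cfsg.Agent.Helper5.plusE F m ⊓ (Cfsg.Agent.Helper5.plusE F m).map (Matrix.mulVecLin ((g : Matrix.GeneralLinearGroup (Fin m ⊕ Fin m) F) : Matrix (Fin m ⊕ Fin m) (Fin m ⊕ Fin m) F)) = ⊥ := by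
      rw [Submodule.eq_bot_iff]
      rintro x ⟨hx1, ⟨y, hy, hyx⟩⟩
      have hx1' := (Cfsg.Agent.Helper5.mem_plusE x).1 hx1
      have hy' := (Cfsg.Agent.Helper5.mem_plusE y).1 hy
      have h3 := hg1 y hy'
      rw [Matrix.mulVecLin_apply] at hyx
      funext k
      rcases k with k | k
      · rw [← hyx]
        exact h3 k
      · exact hx1' k
    rw [hbot, finrank_bot] at hev
    simpa using hev
  · intro hm2
    refine ⟨Cfsg.Agent.Helper5.plusSwap 𝒬 h𝒬, Cfsg.Agent.Helper5.plusSwap_mem_comm hm2 𝒬 h𝒬, ?_, ?_⟩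
    · intro v hv i
      rw [Cfsg.Agent.Helper5.plusSwap_coe, Matrix.fromBlocks_mulVec]
      simp [hv]
    · intro v hv i
      rw [Cfsg.Agent.Helper5.plusSwap_coe, Matrix.fromBlocks_mulVec]
      simp [hv]

end Cfsg.Agent.S2612
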