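import Cfsg.Statements.S2613
-- import your own Cfsg.Agent.* helpers here
import Cfsg.Agent.Helper5.SpinorList
import Cfsg.Agent.S0287

set_option autoImplicit false
open Cfsg

namespace Cfsg.Agent.S2613

/-- For the hyperbolic form Σ x_j y_j on F^(2m), F finite with q elements, q odd, and 1 ≤ i ≤ m: the involution negating the first i hyperbolic pairs (x_j, y_j ↦ −x_j, −y_j for j < i) and fixing the rest lies in Ω⁺_2m(q) (commutator subgroup of the orthogonal group) if and only if q^i ≡ 1 (mod 4); its (−1)-eigenspace is a hyperbolic 2i-space. -/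
theorem result {F : Type*} [Field F] [Fintype F] {q : ℕ} (hF : Fintype.card F = q) (hq : Odd q) {m : ℕ} (i : ℕ) (hi : 1 ≤ i) (him : i ≤ m) : (∃ g : ↥(Cfsg.isometryGroup F (Cfsg.quadFormPlus m F)), g ∈ Cfsg.Omega F (Cfsg.quadFormPlus m F) ∧ ((g : Matrix.GeneralLinearGroup (Fin m ⊕ Fin m) F) : Matrix (Fin m ⊕ Fin m) (Fin m ⊕ Fin m) F) = Matrix.diagonal (fun k : Fin m ⊕ Fin m => if (Sum.elim (fun j : Fin m => (j : ℕ)) (fun j : Fin m => (j : ℕ)) k) < i then (-1 : F) else 1)) ↔ q ^ i % 4 = 1 := by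
  have hF2 : (2 : F) ≠ 0 := Cfsg.Agent.Helper5.two_ne_zero_of_odd (by rw [hF]; exact hq)
  obtain ⟨𝒬, h𝒬, hnd⟩ := Cfsg.Agent.S0287.plus_model F m
  have hQeq : Cfsg.quadFormPlus m F = ⇑𝒬 := funext (fun v => (h𝒬 v).symm)
  rw [hQeq, ← Cfsg.Agent.Helper5.neg_one_pow_sq_iff hF hq i]
  have hm : 0 < m := by omega
  refine Cfsg.Agent.Helper5.hyp_neg_iff hF2 𝒬 hnd
    (Sum.elim (fun j : Fin m => (j : ℕ)) (fun j : Fin m => (j : ℕ)))
    (fun j => if h : j < m then Sum.inl ⟨j, h⟩ else Sum.inl ⟨0, hm⟩)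
    (fun j => if h : j < m then Sum.inr ⟨j, h⟩ else Sum.inl ⟨0, hm⟩) i hi ?_ ?_ ?_ ?_ ?_ ?_ ?_ ?_
  · intro j hj
    have hjm : j < m := by omega
    simp [hjm]
  · intro j hj
    have hjm : j < m := by omega
    simp [hjm]
  · intro j hj k hk
    have hjm : j < m := by omega
    rcases k with k | k
    · left
      simp only [Sum.elim_inl] at hk
      simp [hjm, ← hk]
    · right
      simp only [Sum.elim_inr] at hk
      simp [hjm, ← hk]
  · intro j hj
    have hjm : j < m := by omega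
    simp [hjm]
  · intro j hj
    have hjm : j < m := by omega
    rw [dif_pos hjm, h𝒬]
    simp [Cfsg.quadFormPlus]
  · intro j hj
    have hjm : j < m := by omega
    rw [dif_pos hjm, h𝒬]
    simp [Cfsg.quadFormPlus]
  · intro j hj x
    have hjm : j < m := by omega
    rw [dif_pos hjm, dif_pos hjm]
    simp only [QuadraticMap.polar, h𝒬, Cfsg.quadFormPlus]
    simp [Pi.single_apply, add_mul, mul_add, Finset.sum_add_distrib]
  · intro j hj x
    have hjm : j < m := by omega
    rw [dif_pos hjm, dif_pos hjm]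
    simp only [QuadraticMap.polar, h𝒬, Cfsg.quadFormPlus]
    simp [Pi.single_apply, add_mul, mul_add, Finset.sum_add_distrib]

end Cfsg.Agent.S2613
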