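import Cfsg.Statements.S2614
-- import your own Cfsg.Agent.* helpers here
import Cfsg.Agent.Helper5.SpinorList
import Cfsg.Agent.S0286

set_option autoImplicit false
open Cfsg

namespace Cfsg.Agent.S2614

/-- For the form x_0² + Σ x_j y_j on F^(2m+1), F finite with q elements, q odd, and 1 ≤ i ≤ m: the involution of determinant one negating the first i hyperbolic pairs (and fixing x_0 and the other pairs) lies in Ω_(2m+1)(q) (commutator subgroup of the orthogonal group) if and only if q^i ≡ 1 (mod 4); its (−1)-eigenspace is a hyperbolic 2i-space. -/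
theorem result {F : Type*} [Field F] [Fintype F] {q : ℕ} (hF : Fintype.card F = q) (hq : Odd q) {m : ℕ} (i : ℕ) (hi : 1 ≤ i) (him : i ≤ m) : (∃ g : ↥(Cfsg.isometryGroup F (Cfsg.quadFormOdd m F)), g ∈ Cfsg.Omega F (Cfsg.quadFormOdd m F) ∧ ((g : Matrix.GeneralLinearGroup (Unit ⊕ (Fin m ⊕ Fin m)) F) : Matrix (Unit ⊕ (Fin m ⊕ Fin m)) (Unit ⊕ (Fin m ⊕ Fin m)) F) = Matrix.diagonal (fun k : Unit ⊕ (Fin m ⊕ Fin m) => if (Sum.elim (fun _ : Unit => i) (Sum.elim (fun j : Fin m => (j : ℕ)) (fun j : Fin m => (j : ℕ))) k) < i then (-1 : F) else 1)) ↔ q ^ i % 4 = 1 := by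
  have hF2 : (2 : F) ≠ 0 := Cfsg.Agent.Helper5.two_ne_zero_of_odd (by rw [hF]; exact hq)
  obtain ⟨𝒬, h𝒬, hnd⟩ := Cfsg.Agent.S0286.odd_model F hF2 m
  have hQeq : Cfsg.quadFormOdd m F = ⇑𝒬 := funext (fun v => (h𝒬 v).symm)
  rw [hQeq, ← Cfsg.Agent.Helper5.neg_one_pow_sq_iff hF hq i]
  refine Cfsg.Agent.Helper5.hyp_neg_iff hF2 𝒬 hnd
    (Sum.elim (fun _ : Unit => i) (Sum.elim (fun j : Fin m => (j : ℕ)) (fun j : Fin m => (j : ℕ))))
    (fun j => if h : j < m then Sum.inr (Sum.inl ⟨j, h⟩) else Sum.inl ())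
    (fun j => if h : j < m then Sum.inr (Sum.inr ⟨j, h⟩) else Sum.inl ()) i hi ?_ ?_ ?_ ?_ ?_ ?_ ?_ ?_
  · intro j hj
    have hjm : j < m := by omega
    simp [hjm]
  · intro j hj
    have hjm : j < m := by omega
    simp [hjm]
  · intro j hj k hk
    have hjm : j < m := by omega
    rcases k with k | k | k
    · simp only [Sum.elim_inl] at hk
      omega
    · left
      simp only [Sum.elim_inr, Sum.elim_inl] at hk
      simp [← hk]
    · right
      simp only [Sum.elim_inr] at hk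
      simp [← hk]
  · intro j hj
    have hjm : j < m := by omega
    simp [hjm]
  · intro j hj
    have hjm : j < m := by omega
    rw [dif_pos hjm, h𝒬]
    simp [Cfsg.quadFormOdd]
  · intro j hj
    have hjm : j < m := by omega
    rw [dif_pos hjm, h𝒬]
    simp [Cfsg.quadFormOdd]
  · intro j hj x
    have hjm : j < m := by omega
    rw [dif_pos hjm, dif_pos hjm]
    simp only [QuadraticMap.polar, h𝒬, Cfsg.quadFormOdd]
    simp [Pi.single_apply, add_mul, mul_add, Finset.sum_add_distrib]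
  · intro j hj x
    have hjm : j < m := by omega
    rw [dif_pos hjm, dif_pos hjm]
    simp only [QuadraticMap.polar, h𝒬, Cfsg.quadFormOdd]
    simp [Pi.single_apply, add_mul, mul_add, Finset.sum_add_distrib]

end Cfsg.Agent.S2614
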