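import Cfsg.Statements.S2615
-- import your own Cfsg.Agent.* helpers here
import Cfsg.Agent.Helper5.SpinorList
import Cfsg.Agent.S0288

set_option autoImplicit false
open Cfsg

namespace Cfsg.Agent.S2615

/-- For an elliptic form Σ_(j<m−1) x_j y_j + (z₁² + a z₁z₂ + b z₂²) (anisotropic binary part) on F^(2m), F finite with q elements, q odd, and 1 ≤ i ≤ m − 1: the involution negating the first i hyperbolic pairs and fixing the rest lies in Ω⁻_2m(q) (commutator subgroup of the orthogonal group) if and only if q^i ≡ 1 (mod 4). -/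
theorem result {F : Type*} [Field F] [Fintype F] {q : ℕ} (hF : Fintype.card F = q) (hq : Odd q) {m : ℕ} (a b : F) (hab : ∀ z₁ z₂ : F, z₁ ^ 2 + a * z₁ * z₂ + b * z₂ ^ 2 = 0 → z₁ = 0 ∧ z₂ = 0) (i : ℕ) (hi : 1 ≤ i) (him : i + 1 ≤ m) : (∃ g : ↥(Cfsg.isometryGroup F (Cfsg.quadFormMinus (m - 1) F a b)), g ∈ Cfsg.Omega F (Cfsg.quadFormMinus (m - 1) F a b) ∧ ((g : Matrix.GeneralLinearGroup ((Fin (m - 1) ⊕ Fin (m - 1)) ⊕ Fin 2) F) : Matrix ((Fin (m - 1) ⊕ Fin (m - 1)) ⊕ Fin 2) ((Fin (m - 1) ⊕ Fin (m - 1)) ⊕ Fin 2) F) = Matrix.diagonal (fun k : (Fin (m - 1) ⊕ Fin (m - 1)) ⊕ Fin 2 => if (Sum.elim (Sum.elim (fun j : Fin (m - 1) => (j : ℕ)) (fun j : Fin (m - 1) => (j : ℕ))) (fun _ : Fin 2 => i) k) < i then (-1 : F) else 1)) ↔ q ^ i % 4 = 1 := by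
  have hF2 : (2 : F) ≠ 0 := Cfsg.Agent.Helper5.two_ne_zero_of_odd (by rw [hF]; exact hq)
  obtain ⟨𝒬, h𝒬, hnd⟩ := Cfsg.Agent.S0288.minus_model F a b hab (m - 1)
  have hQeq : Cfsg.quadFormMinus (m - 1) F a b = ⇑𝒬 := funext (fun v => (h𝒬 v).symm)
  rw [hQeq, ← Cfsg.Agent.Helper5.neg_one_pow_sq_iff hF hq i]
  refine Cfsg.Agent.Helper5.hyp_neg_iff hF2 𝒬 hnd
    (Sum.elim (Sum.elim (fun j : Fin (m - 1) => (j : ℕ)) (fun j : Fin (m - 1) => (j : ℕ)))
      (fun _ : Fin 2 => i))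
    (fun j => if h : j < m - 1 then Sum.inl (Sum.inl ⟨j, h⟩) else Sum.inr 0)
    (fun j => if h : j < m - 1 then Sum.inl (Sum.inr ⟨j, h⟩) else Sum.inr 0) i hi
    ?_ ?_ ?_ ?_ ?_ ?_ ?_ ?_
  · intro j hj
    have hjm : j < m - 1 := by omega
    simp [hjm]
  · intro j hj
    have hjm : j < m - 1 := by omega
    simp [hjm]
  · intro j hj k hk
    have hjm : j < m - 1 := by omega
    rcases k with (k | k) | k
    · left
      simp only [Sum.elim_inl] at hk
      simp [← hk]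
    · right
      simp only [Sum.elim_inr, Sum.elim_inl] at hk
      simp [← hk]
    · simp only [Sum.elim_inr] at hk
      omega
  · intro j hj
    have hjm : j < m - 1 := by omega
    simp [hjm]
  · intro j hj
    have hjm : j < m - 1 := by omega
    rw [dif_pos hjm, h𝒬]
    simp [Cfsg.quadFormMinus]
  · intro j hj
    have hjm : j < m - 1 := by omega
    rw [dif_pos hjm, h𝒬]
    simp [Cfsg.quadFormMinus]
  · intro j hj x
    have hjm : j < m - 1 := by omega
    rw [dif_pos hjm, dif_pos hjm]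
    simp only [QuadraticMap.polar, h𝒬, Cfsg.quadFormMinus]
    simp [Pi.single_apply, add_mul, mul_add, Finset.sum_add_distrib]
  · intro j hj x
    have hjm : j < m - 1 := by omega
    rw [dif_pos hjm, dif_pos hjm]
    simp only [QuadraticMap.polar, h𝒬, Cfsg.quadFormMinus]
    simp [Pi.single_apply, add_mul, mul_add, Finset.sum_add_distrib]

end Cfsg.Agent.S2615
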