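import Cfsg.Statements.S2616
import Cfsg.Agent.Helper15.Gram
import Cfsg.Agent.Helper15.HypPair

set_option autoImplicit false
open Cfsg

namespace Cfsg.Agent.S2616

/-- Standard bases of a non-degenerate quadratic space of even dimension 2m over a finite field: either there is a hyperbolic basis e_i, f_i (Q(e_i) = Q(f_i) = 0, B(e_i, f_j) = δ_ij, the e's pairwise orthogonal and the f's pairwise orthogonal, B the polar form), or there is an elliptic basis: hyperbolic pairs e_i, f_i for i < m − 1 together with x, y orthogonal to them with Q(x) = 1, B(x, y) = 1, Q(y) = ζ where t² + t + ζ has no root in the field. -/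
theorem result {F V : Type*} [Field F] [Finite F] [AddCommGroup V] [Module F V] [FiniteDimensional F V] {m : ℕ} (hm : 1 ≤ m) (hV : Module.finrank F V = 2 * m) (Q : QuadraticForm F V) (hQ : (QuadraticMap.polarBilin Q).Nondegenerate) : (∃ b : Module.Basis (Fin m ⊕ Fin m) F V, (∀ i, Q (b (Sum.inl i)) = 0 ∧ Q (b (Sum.inr i)) = 0) ∧ (∀ i j, QuadraticMap.polar ⇑Q (b (Sum.inl i)) (b (Sum.inr j)) = if i = j then 1 else 0) ∧ (∀ i j, QuadraticMap.polar ⇑Q (b (Sum.inl i)) (b (Sum.inl j)) = 0 ∧ QuadraticMap.polar ⇑Q (b (Sum.inr i)) (b (Sum.inr j)) = 0)) ∨ (∃ (b : Module.Basis ((Fin (m - 1) ⊕ Fin (m - 1)) ⊕ Fin 2) F V) (ζ : F), (∀ t : F, t ^ 2 + t + ζ ≠ 0) ∧ (∀ i, Q (b (Sum.inl (Sum.inl i))) = 0 ∧ Q (b (Sum.inl (Sum.inr i))) = 0) ∧ (∀ i j, QuadraticMap.polar ⇑Q (b (Sum.inl (Sum.inl i))) (b (Sum.inl (Sum.inr j))) = if i = j then 1 else 0) ∧ (∀ i j, QuadraticMap.polar ⇑Q (b (Sum.inl (Sum.inl i))) (b (Sum.inl (Sum.inl j))) = 0 ∧ QuadraticMap.polar ⇑Q (b (Sum.inl (Sum.inr i))) (b (Sum.inl (Sum.inr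 j))) = 0) ∧ (∀ i (k : Fin 2), QuadraticMap.polar ⇑Q (b (Sum.inl (Sum.inl i))) (b (Sum.inr k)) = 0 ∧ QuadraticMap.polar ⇑Q (b (Sum.inl (Sum.inr i))) (b (Sum.inr k)) = 0) ∧ Q (b (Sum.inr 0)) = 1 ∧ QuadraticMap.polar ⇑Q (b (Sum.inr 0)) (b (Sum.inr 1)) = 1 ∧ Q (b (Sum.inr 1)) = ζ) := by
  classical
  obtain ⟨k, rfl⟩ : ∃ k, m = k + 1 := ⟨m - 1, by omega⟩
  rcases Helper15.exists_hyp_family k Q hQ (by rw [hV]; ring) with
    ⟨e, f, h1, h2, h3⟩ | ⟨e, f, x, y, ζ, hζ, h1, h2, h3, h4, hx, hxy, hy⟩
  · left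
    obtain ⟨β, hβ⟩ := Helper15.basis_of_gram (QuadraticMap.polarBilin Q) (Sum.elim e f)
      (Matrix.fromBlocks 0 1 1 0) (by
        rintro (i | i) (j | j)
        · exact (h3 i j).1
        · show QuadraticMap.polar ⇑Q (e i) (f j) = _
          rw [h2, Matrix.fromBlocks_apply₁₂, Matrix.one_apply]
        · show QuadraticMap.polar ⇑Q (f i) (e j) = _
          rw [QuadraticMap.polar_comm, h2, Matrix.fromBlocks_apply₂₁, Matrix.one_apply]
          simp only [eq_comm]
        · exact (h3 i j).2)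
      (by
        rw [Helper15.det_swapBlocks]
        exact pow_ne_zero _ (neg_ne_zero.2 one_ne_zero))
      (by simp [hV]; ring)
    refine ⟨β, ?_, ?_, ?_⟩
    · intro i
      rw [hβ]
      exact h1 i
    · intro i j
      rw [hβ]
      exact h2 i j
    · intro i j
      rw [hβ]
      exact h3 i j
  · right
    have hdisc : (2 : F) * (2 * ζ) - 1 * 1 ≠ 0 := by
      intro h0
      by_cases h2' : (2 : F) = 0
      · rw [h2'] at h0
        simp at h0
      · apply hζ (-1 / 2)
        field_simp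
        linear_combination h0
    obtain ⟨β, hβ⟩ := Helper15.basis_of_gram (QuadraticMap.polarBilin Q)
      (Sum.elim (Sum.elim e f) ![x, y] : (Fin k ⊕ Fin k) ⊕ Fin 2 → V)
      (Matrix.fromBlocks (Matrix.fromBlocks 0 1 1 0) 0 0 !![2, 1; 1, 2 * ζ]) (by
        rintro ((i | i) | i) ((j | j) | j)
        · exact (h3 i j).1
        · show QuadraticMap.polar ⇑Q (e i) (f j) = _
          rw [h2]
          simp [Matrix.one_apply]
        · show QuadraticMap.polar ⇑Q (e i) (![x, y] j) = _
          fin_cases j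
          · exact (h4 i).1
          · exact (h4 i).2.1
        · show QuadraticMap.polar ⇑Q (f i) (e j) = _
          rw [QuadraticMap.polar_comm, h2]
          simp [Matrix.one_apply, eq_comm]
        · exact (h3 i j).2
        · show QuadraticMap.polar ⇑Q (f i) (![x, y] j) = _
          fin_cases j
          · exact (h4 i).2.2.1
          · exact (h4 i).2.2.2
        · show QuadraticMap.polar ⇑Q (![x, y] i) (e j) = _
          rw [QuadraticMap.polar_comm]
          fin_cases i
          · exact (h4 j).1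
          · exact (h4 j).2.1
        · show QuadraticMap.polar ⇑Q (![x, y] i) (f j) = _
          rw [QuadraticMap.polar_comm]
          fin_cases i
          · exact (h4 j).2.2.1
          · exact (h4 j).2.2.2
        · show QuadraticMap.polar ⇑Q (![x, y] i) (![x, y] j) = _
          fin_cases i <;> fin_cases j
          · show QuadraticMap.polar ⇑Q x x = 2
            rw [QuadraticMap.polar_self, hx]
            simp
          · exact hxy
          · show QuadraticMap.polar ⇑Q y x = 1
            rw [QuadraticMap.polar_comm]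
            exact hxy
          · show QuadraticMap.polar ⇑Q y y = 2 * ζ
            rw [QuadraticMap.polar_self, hy]
            simp [two_mul])
      (by
        rw [Matrix.det_fromBlocks_zero₁₂, Helper15.det_swapBlocks, Matrix.det_fin_two_of]
        exact mul_ne_zero (pow_ne_zero _ (neg_ne_zero.2 one_ne_zero)) hdisc)
      (by simp [hV]; ring)
    refine ⟨β, ζ, hζ, ?_, ?_, ?_, ?_, ?_, ?_, ?_⟩
    · intro i
      rw [hβ]
      exact h1 i
    · intro i j
      rw [hβ]
      exact h2 i j
    · intro i j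
      rw [hβ]
      exact h3 i j
    · intro i j
      rw [hβ]
      fin_cases j
      · exact ⟨(h4 i).1, (h4 i).2.2.1⟩
      · exact ⟨(h4 i).2.1, (h4 i).2.2.2⟩
    · rw [hβ]
      exact hx
    · rw [hβ]
      exact hxy
    · rw [hβ]
      exact hy

end Cfsg.Agent.S2616
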