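import Cfsg.Statements.S2618
import Cfsg.Agent.Helper15.Gram
import Cfsg.Agent.Helper15.QuadClass2

set_option autoImplicit false
open Cfsg

namespace Cfsg.Agent.S2618

/-- Standard (parabolic) basis of a non-degenerate quadratic space of odd dimension 2m + 1 over a finite field (the non-degeneracy of the polar form forces the characteristic to be odd): there is a basis e_i, f_i (i < m), x with Q(e_i) = Q(f_i) = 0, B(e_i, f_j) = δ_ij (B the polar form), the e's pairwise orthogonal and the f's pairwise orthogonal, x orthogonal to all of them and Q(x) ≠ 0. -/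
theorem result {F V : Type*} [Field F] [Finite F] [AddCommGroup V] [Module F V] [FiniteDimensional F V] {m : ℕ} (hV : Module.finrank F V = 2 * m + 1) (Q : QuadraticForm F V) (hQ : (QuadraticMap.polarBilin Q).Nondegenerate) : ∃ b : Module.Basis (Unit ⊕ (Fin m ⊕ Fin m)) F V, Q (b (Sum.inl ())) ≠ 0 ∧ (∀ i, QuadraticMap.polar ⇑Q (b (Sum.inl ())) (b (Sum.inr (Sum.inl i))) = 0 ∧ QuadraticMap.polar ⇑Q (b (Sum.inl ())) (b (Sum.inr (Sum.inr i))) = 0) ∧ (∀ i, Q (b (Sum.inr (Sum.inl i))) = 0 ∧ Q (b (Sum.inr (Sum.inr i))) = 0) ∧ (∀ i j, QuadraticMap.polar ⇑Q (b (Sum.inr (Sum.inl i))) (b (Sum.inr (Sum.inr j))) = if i = j then 1 else 0) ∧ (∀ i j, QuadraticMap.polar ⇑Q (b (Sum.inr (Sum.inl i))) (b (Sum.inr (Sum.inl j))) = 0 ∧ QuadraticMap.polar ⇑Q (b (Sum.inr (Sum.inr i))) (b (Sum.inr (Sum.inr j))) = 0) := by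
  classical
  cases nonempty_fintype F
  have hodd : Odd (Module.finrank F V) := by
    rw [hV]
    exact ⟨m, rfl⟩
  have h2 : (2 : F) ≠ 0 := Helper15.two_ne_zero_of_odd_nondeg hodd Q hQ
  have hS₁ : LinearMap.BilinForm.IsSymm (QuadraticMap.polarBilin Q) :=
    ⟨fun x y => QuadraticMap.polar_comm _ x y⟩
  obtain ⟨D, hD⟩ : ∃ D : F, D = (LinearMap.BilinForm.toMatrix (Module.finBasis F V)
      (QuadraticMap.polarBilin Q)).det := ⟨_, rfl⟩
  have hD0 : D ≠ 0 := by
    rw [hD]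
    exact (LinearMap.BilinForm.nondegenerate_iff_det_ne_zero (Module.finBasis F V)).1 hQ
  obtain ⟨δ, hδ⟩ : ∃ δ : F, δ = D * (-1) ^ m := ⟨_, rfl⟩
  have hδ0 : δ ≠ 0 := by
    rw [hδ]
    exact mul_ne_zero hD0 (pow_ne_zero _ (neg_ne_zero.2 one_ne_zero))
  obtain ⟨G₀, hG₀⟩ : ∃ G₀ : Matrix (Unit ⊕ (Fin m ⊕ Fin m)) (Unit ⊕ (Fin m ⊕ Fin m)) F,
      G₀ = Matrix.fromBlocks (Matrix.diagonal fun _ => δ) 0 0 (Matrix.fromBlocks 0 1 1 0) :=
    ⟨_, rfl⟩
  have hdetG : G₀.det = D := by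
    rw [hG₀, Matrix.det_fromBlocks_zero₁₂, Helper15.det_swapBlocks, Matrix.det_diagonal, hδ]
    simp only [Finset.univ_unique, Finset.prod_singleton]
    have h3 : ((-1 : F) ^ m) * (-1) ^ m = 1 := by
      rw [← mul_pow]
      simp
    linear_combination D * h3
  have hsymG : G₀.IsSymm := by
    rw [hG₀]
    apply Matrix.IsSymm.fromBlocks
    · exact Matrix.isSymm_diagonal _
    · simp
    · apply Matrix.IsSymm.fromBlocks
      · exact Matrix.isSymm_zero
      · simp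
      · exact Matrix.isSymm_zero
  have hS₂ : (Matrix.toBilin' G₀).IsSymm := Matrix.isSymm_toBilin'_iff_isSymm.2 hsymG
  have hN₂ : (Matrix.toBilin' G₀).Nondegenerate :=
    LinearMap.BilinForm.nondegenerate_toBilin'_of_det_ne_zero' G₀ (by rw [hdetG]; exact hD0)
  have hcard : Fintype.card (Fin (Module.finrank F V))
      = Fintype.card (Unit ⊕ (Fin m ⊕ Fin m)) := by
    simp [hV]
    omega
  obtain ⟨g, hg⟩ := Helper15.bilin_isometric h2 hcard (Module.finBasis F V)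
    (Pi.basisFun F (Unit ⊕ (Fin m ⊕ Fin m))) (QuadraticMap.polarBilin Q) (Matrix.toBilin' G₀)
    hS₁ hS₂ hQ hN₂ (by
      rw [LinearMap.BilinForm.toMatrix_basisFun, LinearMap.BilinForm.toMatrix'_toBilin', hdetG,
        ← hD]
      exact ⟨D, rfl⟩)
  obtain ⟨b, hb⟩ : ∃ b : Module.Basis (Unit ⊕ (Fin m ⊕ Fin m)) F V,
      b = (Pi.basisFun F (Unit ⊕ (Fin m ⊕ Fin m))).map g.symm := ⟨_, rfl⟩
  have hpol : ∀ i j, QuadraticMap.polar ⇑Q (b i) (b j) = G₀ i j := by
    intro i j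
    have h3 := hg (b i) (b j)
    have h4 : ∀ i, g (b i) = Pi.single i 1 := by
      intro i
      rw [hb]
      simp
    rw [h4, h4, Matrix.toBilin'_single] at h3
    exact h3.symm
  have hQv : ∀ i, 2 * Q (b i) = G₀ i i := by
    intro i
    rw [← hpol, QuadraticMap.polar_self]
    simp [two_mul]
  refine ⟨b, ?_, ?_, ?_, ?_, ?_⟩
  · intro h
    have h3 := hQv (Sum.inl ())
    rw [h, hG₀] at h3
    simp at h3
    exact hδ0 h3.symm
  · intro i
    rw [hpol, hpol, hG₀]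
    simp
  · intro i
    have h3 := hQv (Sum.inr (Sum.inl i))
    have h4 := hQv (Sum.inr (Sum.inr i))
    rw [hG₀] at h3 h4
    simp only [Matrix.fromBlocks_apply₂₂, Matrix.fromBlocks_apply₁₁, Matrix.zero_apply,
      mul_eq_zero] at h3 h4
    exact ⟨h3.resolve_left h2, h4.resolve_left h2⟩
  · intro i j
    rw [hpol, hG₀]
    simp [Matrix.one_apply]
  · intro i j
    rw [hpol, hpol, hG₀]
    simp

end Cfsg.Agent.S2618
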