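import Cfsg.Statements.S2619

set_option autoImplicit false
open Cfsg

namespace Cfsg.Agent.S2619

theorem result {F V ι : Type*} [Field F] [Finite F] [CharP F 2] [AddCommGroup V] [Module F V] [Fintype ι] (b : Module.Basis ι F V) (B : LinearMap.BilinForm F V) (hB : B.IsAlt) (c : ι → F) : ∃! Q : QuadraticForm F V, QuadraticMap.polarBilin Q = B ∧ ∀ i, Q (b i) = c i := by
  let _ : LinearOrder ι := IsWellOrder.linearOrder WellOrderingRel
  let A : LinearMap.BilinMap F V F :=
    b.constr (S := F) fun i => b.constr (S := F) fun j =>
      if i = j then c i else if i < j then B (b i) (b j) else 0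
  have hA : ∀ i j, A (b i) (b j) = if i = j then c i else if i < j then B (b i) (b j) else 0 := by
    intro i j
    show (b.constr (S := F) fun i => b.constr (S := F) fun j =>
      if i = j then c i else if i < j then B (b i) (b j) else 0) (b i) (b j) = _
    rw [Module.Basis.constr_basis, Module.Basis.constr_basis]
  refine ⟨A.toQuadraticMap, ⟨?_, ?_⟩, ?_⟩
  · rw [LinearMap.BilinMap.polarBilin_toQuadraticMap]
    refine b.ext fun i => b.ext fun j => ?_
    simp only [LinearMap.add_apply, LinearMap.flip_apply, hA]
    obtain h | rfl | h := lt_trichotomy i j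
    · simp [h.ne, h, h.ne', h.not_gt]
    · simp only [if_true]
      rw [hB (b i)]
      exact CharTwo.add_self_eq_zero (c i)
    · simp only [h.ne, h, h.ne', h.not_gt, if_false, if_true, zero_add]
      rw [← hB.neg_eq, CharTwo.neg_eq]
  · intro i
    rw [LinearMap.BilinMap.toQuadraticMap_apply, hA]
    simp
  · rintro Q' ⟨h1, h2⟩
    have hT : QuadraticMap.toBilin Q' b = A := by
      refine b.ext fun i => b.ext fun j => ?_
      rw [QuadraticMap.toBilin_apply, hA, h2]
      have : QuadraticMap.polar Q' (b i) (b j) = B (b i) (b j) := by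
        rw [← h1]; rfl
      rw [this]
    calc Q' = (QuadraticMap.toBilin Q' b).toQuadraticMap :=
          (QuadraticMap.toQuadraticMap_toBilin Q' b).symm
      _ = A.toQuadraticMap := by rw [hT]

end Cfsg.Agent.S2619
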