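import Cfsg.Statements.S2621
import Cfsg.Agent.Helper15.Gram
import Cfsg.Agent.Helper15.FinField

set_option autoImplicit false
open Cfsg

namespace Cfsg.Agent.S2621

theorem result {F : Type*} [Field F] [Fintype F] {q : ℕ} (hF : Fintype.card F = q) (hq : Odd q) {m : ℕ} (hm : 1 ≤ m) (a c : F) (hac : ∀ z₁ z₂ : F, z₁ ^ 2 + a * z₁ * z₂ + c * z₂ ^ 2 = 0 → z₁ = 0 ∧ z₂ = 0) {ι : Type*} [Fintype ι] [DecidableEq ι] (b : Module.Basis ι F ((Fin (m - 1) ⊕ Fin (m - 1)) ⊕ Fin 2 → F)) : IsSquare (Matrix.of (fun i j : ι => QuadraticMap.polar (Cfsg.quadFormMinus (m - 1) F a c) (b i) (b j))).det ↔ ¬ Even (m * (q - 1) / 2) := by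
  classical
  have h2 : ringChar F ≠ 2 := Helper15.ringChar_ne_two_of_odd_card (by rw [hF]; exact hq)
  have h2' : (2 : F) ≠ 0 := Ring.two_ne_zero h2
  have h4 : (4 : F) ≠ 0 := by
    have : (4 : F) = 2 * 2 := by norm_num
    rw [this]
    exact mul_ne_zero h2' h2'
  rw [Helper15.isSquare_gram_det_iff (Cfsg.quadFormMinus (m - 1) F a c) _
      (Helper15.polar_quadFormMinus (m - 1) a c) b,
    Matrix.det_fromBlocks_zero₁₂, Helper15.det_swapBlocks, Matrix.det_fin_two_of,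
    ← Helper15.isSquare_neg_one_pow_iff hF hq]
  have hD : ¬ IsSquare (a * a - 4 * c) := by
    rintro ⟨s, hs⟩
    have e : ((s - a) / 2) ^ 2 + a * ((s - a) / 2) * 1 + c * 1 ^ 2
        = (s * s - (a * a - 4 * c)) / 4 := by
      field_simp
      ring
    rw [hs, sub_self, zero_div] at e
    exact one_ne_zero (hac _ _ e).2
  have hD0 : a * a - 4 * c ≠ 0 := fun h => hD (by rw [h]; exact IsSquare.zero)
  have e1 : (-1 : F) ^ (m - 1) * (2 * (2 * c) - a * a) = (-1) ^ m * (a * a - 4 * c) := by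
    obtain ⟨k, rfl⟩ : ∃ k, m = k + 1 := ⟨m - 1, by omega⟩
    simp only [Nat.add_sub_cancel, pow_succ]
    ring
  rw [e1]
  have hm0 : ((-1 : F)) ^ m ≠ 0 := pow_ne_zero _ (neg_ne_zero.2 one_ne_zero)
  rw [← quadraticChar_one_iff_isSquare (mul_ne_zero hm0 hD0),
    ← quadraticChar_neg_one_iff_not_isSquare (a := (-1 : F) ^ m), map_mul,
    quadraticChar_neg_one_iff_not_isSquare.2 hD]
  rcases quadraticChar_dichotomy hm0 with h | h <;> rw [h] <;> decide

end Cfsg.Agent.S2621
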