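import Cfsg.Statements.S2622

set_option autoImplicit false
open Cfsg

namespace Cfsg.Agent.S2622

theorem orthonormal_family {F : Type*} [Field F] [Finite F] [CharP F 2] :
    ∀ (n : ℕ) {V : Type*} [AddCommGroup V] [Module F V] [FiniteDimensional F V],
      Module.finrank F V = n → ∀ B : LinearMap.BilinForm F V, B.IsSymm → B.Nondegenerate →
        (∃ v : V, B v v ≠ 0) →
          ∃ b : Fin n → V, ∀ i j, B (b i) (b j) = if i = j then 1 else 0 := by
  intro n
  induction n with
  | zero =>
    intro V _ _ _ hV B hS hB hna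
    exact ⟨fun i => i.elim0, fun i => i.elim0⟩
  | succ k ih =>
    intro V _ _ _ hV B hS hB hna
    have h2 : (2 : F) = 0 := CharTwo.two_eq_zero
    have hsymm : ∀ x y, B x y = B y x := fun x y => hS.eq x y
    have hortho : ∀ v u : V, u ∈ B.orthogonal (F ∙ v) ↔ B v u = 0 := by
      intro v u
      rw [LinearMap.BilinForm.mem_orthogonal_iff]
      constructor
      · intro h
        exact h v (Submodule.mem_span_singleton_self v)
      · intro h n hn
        obtain ⟨c, rfl⟩ := Submodule.mem_span_singleton.1 hn
        rw [map_smul, LinearMap.smul_apply, h, smul_zero]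
    have hfin : ∀ v : V, B v v = 1 → Module.finrank F (B.orthogonal (F ∙ v)) = k := by
      intro v hv1
      have hv0 : v ≠ 0 := by
        rintro rfl
        simp at hv1
      have hcompl := LinearMap.BilinForm.isCompl_span_singleton_orthogonal (B := B) (x := v)
        (by rw [hv1]; exact one_ne_zero)
      have h1 := Submodule.finrank_add_eq_of_isCompl hcompl
      rw [finrank_span_singleton hv0, hV] at h1
      omega
    have stepA : ∃ v : V, B v v = 1 ∧ (k = 0 ∨ ∃ u ∈ B.orthogonal (F ∙ v), B u u ≠ 0) := by
      obtain ⟨v₀, hv₀⟩ := hna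
      obtain ⟨s, hs⟩ := FiniteField.isSquare_of_char_two (ringChar.eq F 2) (B v₀ v₀)
      have hs0 : s ≠ 0 := by
        rintro rfl
        rw [mul_zero] at hs
        exact hv₀ hs
      have hv1 : B (s⁻¹ • v₀) (s⁻¹ • v₀) = 1 := by
        simp only [map_smul, LinearMap.smul_apply, smul_eq_mul, hs]
        field_simp
      obtain ⟨v, hv⟩ : ∃ v : V, v = s⁻¹ • v₀ := ⟨_, rfl⟩
      rw [← hv] at hv1
      by_cases hk : k = 0
      · exact ⟨v, hv1, Or.inl hk⟩
      by_cases halt : ∃ u ∈ B.orthogonal (F ∙ v), B u u ≠ 0
      · exact ⟨v, hv1, Or.inr halt⟩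
      push Not at halt
      have hWne : B.orthogonal (F ∙ v) ≠ ⊥ := by
        intro h
        have h3 := hfin v hv1
        rw [h, finrank_bot] at h3
        exact hk h3.symm
      obtain ⟨w, hwW, hw0⟩ := Submodule.exists_mem_ne_zero_of_ne_bot hWne
      have hvw : B v w = 0 := (hortho v w).1 hwW
      obtain ⟨x, hx⟩ : ∃ x, B w x ≠ 0 := by
        by_contra hcon
        push Not at hcon
        exact hw0 (hB.1 w hcon)
      obtain ⟨w', hw'⟩ : ∃ w' : V, w' = (B w x)⁻¹ • (x - B v x • v) := ⟨_, rfl⟩
      have hvw' : B v w' = 0 := by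
        rw [hw']
        simp only [map_smul, map_sub, hv1, smul_eq_mul, mul_one, sub_self, mul_zero]
      have hww' : B w w' = 1 := by
        rw [hw']
        simp only [map_smul, map_sub, hsymm w v, hvw, smul_eq_mul, mul_zero, sub_zero]
        exact inv_mul_cancel₀ hx
      have hw'W : w' ∈ B.orthogonal (F ∙ v) := (hortho v w').2 hvw'
      have hww : B w w = 0 := halt w hwW
      have hw'w' : B w' w' = 0 := halt w' hw'W
      refine ⟨v + w, ?_, Or.inr ⟨v + w', ?_, ?_⟩⟩
      · simp only [map_add, LinearMap.add_apply, hv1, hvw, hsymm w v, hww, add_zero]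
      · rw [hortho]
        simp only [map_add, LinearMap.add_apply, hv1, hvw', hsymm w v, hvw, hww', add_zero]
        rw [zero_add, one_add_one_eq_two, h2]
      · simp only [map_add, LinearMap.add_apply, hv1, hvw', hsymm w' v, hw'w', add_zero]
        exact one_ne_zero
    obtain ⟨v, hv1, hcase⟩ := stepA
    rcases hcase with hk | ⟨u, huW, hu⟩
    · subst hk
      refine ⟨fun _ => v, fun i j => ?_⟩
      have hij : i = j := Fin.ext (by have := i.2; have := j.2; omega)
      rw [if_pos hij, hv1]
    · have hvv : B v v ≠ 0 := by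
        rw [hv1]
        exact one_ne_zero
      have hnd := LinearMap.BilinForm.restrict_nondegenerate_orthogonal_spanSingleton B hB
        hS.isRefl hvv
      have hS' : (B.restrict (B.orthogonal (F ∙ v))).IsSymm := ⟨fun x y => hsymm x y⟩
      obtain ⟨c, hc⟩ := ih (hfin v hv1) (B.restrict (B.orthogonal (F ∙ v))) hS' hnd
        ⟨⟨u, huW⟩, hu⟩
      refine ⟨Fin.cons v (fun i => (c i : V)), ?_⟩
      have hvc : ∀ i, B v (c i) = 0 := fun i => (hortho v (c i)).1 (c i).2
      intro i j
      induction i using Fin.cases with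
      | zero =>
        induction j using Fin.cases with
        | zero => simp [hv1]
        | succ j' =>
          rw [Fin.cons_zero, Fin.cons_succ, hvc, if_neg (Fin.succ_ne_zero j').symm]
      | succ i' =>
        induction j using Fin.cases with
        | zero =>
          rw [Fin.cons_zero, Fin.cons_succ, hsymm, hvc, if_neg (Fin.succ_ne_zero i')]
        | succ j' =>
          rw [Fin.cons_succ, Fin.cons_succ]
          have h3 : B (c i' : V) (c j' : V) = if i' = j' then 1 else 0 := hc i' j'
          rw [h3]
          simp [Fin.succ_inj]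

theorem result {F V : Type*} [Field F] [Finite F] [CharP F 2] [AddCommGroup V] [Module F V] [FiniteDimensional F V] {n : ℕ} (hV : Module.finrank F V = n) (B : LinearMap.BilinForm F V) (hS : B.IsSymm) (hB : B.Nondegenerate) (hna : ∃ v : V, B v v ≠ 0) : ∃ b : Module.Basis (Fin n) F V, ∀ i j, B (b i) (b j) = if i = j then 1 else 0 := by
  classical
  obtain ⟨b, hb⟩ := orthonormal_family n hV B hS hB hna
  have hli : LinearIndependent F b := by
    rw [Fintype.linearIndependent_iff]
    intro g hg j
    have h1 := congrArg (fun x => B x (b j)) hg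
    simp only [map_sum, LinearMap.sum_apply, map_smul, LinearMap.smul_apply, hb, smul_eq_mul,
      mul_ite, mul_one, mul_zero, Finset.sum_ite_eq', Finset.mem_univ, if_true, map_zero,
      LinearMap.zero_apply] at h1
    exact h1
  have hcard : Fintype.card (Fin n) = Module.finrank F V := by
    rw [Fintype.card_fin, hV]
  refine ⟨basisOfLinearIndependentOfCardEqFinrank' b hli hcard, ?_⟩
  rw [coe_basisOfLinearIndependentOfCardEqFinrank']
  exact hb

end Cfsg.Agent.S2622
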