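import Cfsg.Statements.S2623
import Cfsg.Agent.Helper15.QuadClass

set_option autoImplicit false
open Cfsg

namespace Cfsg.Agent.S2623

theorem result {F : Type*} [Field F] [Fintype F] (h2 : (2 : F) ≠ 0) {n : ℕ} (Q₁ Q₂ : QuadraticForm F (Fin n → F)) (h₁ : (QuadraticMap.polarBilin Q₁).Nondegenerate) (h₂ : (QuadraticMap.polarBilin Q₂).Nondegenerate) : (∃ g : (Fin n → F) ≃ₗ[F] (Fin n → F), ∀ v, Q₂ (g v) = Q₁ v) ↔ IsSquare ((Matrix.of (fun i j : Fin n => QuadraticMap.polar ⇑Q₁ (Pi.single i 1) (Pi.single j 1))).det * (Matrix.of (fun i j : Fin n => QuadraticMap.polar ⇑Q₂ (Pi.single i 1) (Pi.single j 1))).det) := by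
  classical
  constructor
  · rintro ⟨g, hg⟩
    have hpol : ∀ u v, QuadraticMap.polar ⇑Q₁ u v = QuadraticMap.polar ⇑Q₂ (g u) (g v) := by
      intro u v
      unfold QuadraticMap.polar
      rw [← hg, ← hg, ← hg, map_add]
    obtain ⟨c, hc, e⟩ := Helper15.gram_det_eq (⇑Q₂) _ (Helper15.polar_eq_dot Q₂)
      ((Pi.basisFun F (Fin n)).map g)
    have h3 : Matrix.of (fun i j : Fin n => QuadraticMap.polar ⇑Q₂
        (((Pi.basisFun F (Fin n)).map g) i) (((Pi.basisFun F (Fin n)).map g) j))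
        = Matrix.of (fun i j : Fin n =>
          QuadraticMap.polar ⇑Q₁ (Pi.single i 1) (Pi.single j 1)) := by
      ext i j
      rw [Matrix.of_apply, Matrix.of_apply, hpol]
      simp
    rw [h3] at e
    rw [e]
    exact ⟨c * (Matrix.of (fun i j : Fin n =>
      QuadraticMap.polar ⇑Q₂ (Pi.single i 1) (Pi.single j 1))).det, by ring⟩
  · intro hsq
    exact Helper15.isometric_of_isSquare h2 Q₁ Q₂ h₁ h₂ hsq

end Cfsg.Agent.S2623
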