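import Cfsg.Statements.S2624
import Cfsg.Agent.Helper15.QuadClass

set_option autoImplicit false
open Cfsg

namespace Cfsg.Agent.S2624

theorem result {F : Type*} [Field F] [Fintype F] {n : ℕ} (hn : 2 ≤ n) (he : Even n) (Q : QuadraticForm F (Fin n → F)) (hQ : (QuadraticMap.polarBilin Q).Nondegenerate) (c : F) (hc : c ≠ 0) : ∃ g : (Fin n → F) ≃ₗ[F] (Fin n → F), ∀ v, Q (g v) = c * Q v := by
  classical
  by_cases h2 : (2 : F) = 0
  · have hchar : CharP F 2 := CharTwo.of_one_ne_zero_of_two_eq_zero one_ne_zero h2
    obtain ⟨s, hs⟩ := FiniteField.isSquare_of_char_two (ringChar.eq F 2) c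
    have hs0 : s ≠ 0 := by
      rintro rfl
      rw [mul_zero] at hs
      exact hc hs
    refine ⟨LinearEquiv.smulOfNeZero F (Fin n → F) s hs0, fun v => ?_⟩
    show Q (s • v) = c * Q v
    rw [QuadraticMap.map_smul, hs, smul_eq_mul]
  · have hnd : (QuadraticMap.polarBilin (c • Q)).Nondegenerate := by
      have hpol : ∀ x y, QuadraticMap.polarBilin (c • Q) x y
          = c * QuadraticMap.polarBilin Q x y := by
        intro x y
        show QuadraticMap.polar (c • ⇑Q) x y = c * QuadraticMap.polar ⇑Q x y
        rw [QuadraticMap.polar_smul, smul_eq_mul]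
      constructor
      · intro x hx
        apply hQ.1 x
        intro y
        have h3 := hx y
        rw [hpol] at h3
        rcases mul_eq_zero.1 h3 with h | h
        · exact absurd h hc
        · exact h
      · intro y hy
        apply hQ.2 y
        intro x
        have h3 := hy x
        rw [hpol] at h3
        rcases mul_eq_zero.1 h3 with h | h
        · exact absurd h hc
        · exact h
    have hsq : IsSquare ((Matrix.of (fun i j : Fin n =>
          QuadraticMap.polar ⇑(c • Q) (Pi.single i 1) (Pi.single j 1))).det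
        * (Matrix.of (fun i j : Fin n =>
          QuadraticMap.polar ⇑Q (Pi.single i 1) (Pi.single j 1))).det) := by
      have h3 : Matrix.of (fun i j : Fin n =>
          QuadraticMap.polar ⇑(c • Q) (Pi.single i 1) (Pi.single j 1))
          = c • Matrix.of (fun i j : Fin n =>
            QuadraticMap.polar ⇑Q (Pi.single i 1) (Pi.single j 1)) := by
        ext i j
        rw [Matrix.smul_apply, Matrix.of_apply, Matrix.of_apply]
        show QuadraticMap.polar (c • ⇑Q) _ _ = _
        rw [QuadraticMap.polar_smul]
      rw [h3, Matrix.det_smul, Fintype.card_fin]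
      obtain ⟨m, hm⟩ := he
      have hcn : c ^ n = c ^ m * c ^ m := by
        rw [hm, pow_add]
      refine ⟨c ^ m * (Matrix.of (fun i j : Fin n =>
        QuadraticMap.polar ⇑Q (Pi.single i 1) (Pi.single j 1))).det, ?_⟩
      rw [hcn]
      ring
    obtain ⟨g, hg⟩ := Helper15.isometric_of_isSquare h2 (c • Q) Q hnd hQ hsq
    exact ⟨g, fun v => by rw [hg]; rfl⟩

end Cfsg.Agent.S2624
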