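import Cfsg.Statements.S2625

set_option autoImplicit false
open Cfsg

namespace Cfsg.Agent.S2625

theorem result {F : Type*} [Field F] [Fintype F] {n : ℕ} (hn : Odd n) (Q : QuadraticForm F (Fin n → F)) (hQ : (QuadraticMap.polarBilin Q).Nondegenerate) (g : (Fin n → F) ≃ₗ[F] (Fin n → F)) (c : F) (hg : ∀ v, Q (g v) = c * Q v) : IsSquare c := by
  classical
  have hcomp : LinearMap.BilinForm.comp (QuadraticMap.polarBilin Q) (g : (Fin n → F) →ₗ[F] (Fin n → F))
      (g : (Fin n → F) →ₗ[F] (Fin n → F)) = c • QuadraticMap.polarBilin Q := by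
    refine LinearMap.ext fun u => LinearMap.ext fun v => ?_
    simp only [LinearMap.BilinForm.comp_apply, LinearEquiv.coe_coe, QuadraticMap.polarBilin_apply_apply,
      LinearMap.smul_apply, smul_eq_mul, QuadraticMap.polar, ← map_add, hg]
    ring
  have hM : (LinearMap.BilinForm.toMatrix (Pi.basisFun F (Fin n)) (QuadraticMap.polarBilin Q)).det ≠ 0 :=
    (LinearMap.BilinForm.nondegenerate_iff_det_ne_zero (Pi.basisFun F (Fin n))).1 hQ
  have h1 := LinearMap.BilinForm.toMatrix_comp (Pi.basisFun F (Fin n)) (Pi.basisFun F (Fin n))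
    (QuadraticMap.polarBilin Q) (g : (Fin n → F) →ₗ[F] (Fin n → F))
    (g : (Fin n → F) →ₗ[F] (Fin n → F))
  rw [hcomp] at h1
  have h2 := congrArg Matrix.det h1
  rw [map_smul, Matrix.det_smul, Matrix.det_mul, Matrix.det_mul, Matrix.det_transpose,
    Fintype.card_fin] at h2
  have h3 : c ^ n = (LinearMap.toMatrix (Pi.basisFun F (Fin n)) (Pi.basisFun F (Fin n))
      (g : (Fin n → F) →ₗ[F] (Fin n → F))).det ^ 2 := by
    apply mul_right_cancel₀ hM
    rw [h2]; ring
  generalize (LinearMap.toMatrix (Pi.basisFun F (Fin n)) (Pi.basisFun F (Fin n))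
      (g : (Fin n → F) →ₗ[F] (Fin n → F))).det = d at h3
  obtain ⟨k, hk⟩ := hn
  rw [hk] at h3
  by_cases hc : c = 0
  · exact ⟨0, by simp [hc]⟩
  · refine ⟨d / c ^ k, ?_⟩
    have hck : c ^ k ≠ 0 := pow_ne_zero _ hc
    field_simp
    rw [← h3]; ring

end Cfsg.Agent.S2625
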