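import Cfsg.Statements.S2626
import Cfsg.Agent.Helper15.BlockIso

set_option autoImplicit false
open Cfsg

namespace Cfsg.Agent.S2626

theorem result {F : Type*} [Field F] [Fintype F] {k l : ℕ} (Q₁ : QuadraticForm F (Fin k → F)) (Q₂ : QuadraticForm F (Fin l → F)) (h₁ : (QuadraticMap.polarBilin Q₁).Nondegenerate) (h₂ : (QuadraticMap.polarBilin Q₂).Nondegenerate) (g₁ : ↥(Cfsg.isometryGroup F ⇑Q₁)) (g₂ : ↥(Cfsg.isometryGroup F ⇑Q₂)) (hg₁ : g₁ ∈ Cfsg.Omega F ⇑Q₁) (hg₂ : g₂ ∈ Cfsg.Omega F ⇑Q₂) : ∃ g : ↥(Cfsg.isometryGroup F (fun v : Fin k ⊕ Fin l → F => Q₁ (v ∘ Sum.inl) + Q₂ (v ∘ Sum.inr))), g ∈ Cfsg.Omega F (fun v : Fin k ⊕ Fin l → F => Q₁ (v ∘ Sum.inl) + Q₂ (v ∘ Sum.inr)) ∧ ((g : Matrix.GeneralLinearGroup (Fin k ⊕ Fin l) F) : Matrix (Fin k ⊕ Fin l) (Fin k ⊕ Fin l) F) = Matrix.fromBlocks ((g₁ : Matrix.GeneralLinearGroup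 (Fin k) F) : Matrix (Fin k) (Fin k) F) 0 0 ((g₂ : Matrix.GeneralLinearGroup (Fin l) F) : Matrix (Fin l) (Fin l) F) := by
  refine ⟨Helper15.blockIso F ⇑Q₁ ⇑Q₂ (g₁, g₂), ?_, Helper15.blockIso_coe F _ _ _⟩
  have h : (g₁, g₂) = (g₁, 1) * (1, g₂) := by simp
  rw [h, map_mul]
  apply Subgroup.mul_mem
  · exact Helper15.map_mem_commutator ((Helper15.blockIso F ⇑Q₁ ⇑Q₂).comp (MonoidHom.inl _ _)) hg₁
  · exact Helper15.map_mem_commutator ((Helper15.blockIso F ⇑Q₁ ⇑Q₂).comp (MonoidHom.inr _ _)) hg₂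

end Cfsg.Agent.S2626
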