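import Cfsg.Statements.S2629
-- import your own Cfsg.Agent.* helpers here
import Cfsg.Agent.Helper5.PlusDickson
import Cfsg.Agent.S0287

set_option autoImplicit false
open Cfsg

namespace Cfsg.Agent.S2629

/-- For the hyperbolic form Σ x_i y_i on F^(2m) over a finite field of odd order (m ≥ 1), an isometry g preserves the class of the maximal totally singular subspace U₀ = {y = 0} (that is, m − dim(U₀ ∩ gU₀) is even) if and only if det g = 1: the stabiliser of each of the two classes of maximal totally singular subspaces is SO. -/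
theorem result {F : Type*} [Field F] [Fintype F] (h2 : (2 : F) ≠ 0) {m : ℕ} (hm : 1 ≤ m) (g : ↥(Cfsg.isometryGroup F (Cfsg.quadFormPlus m F))) : Even (m - Module.finrank F ↥(LinearMap.ker (LinearMap.funLeft F F (Sum.inr : Fin m → Fin m ⊕ Fin m)) ⊓ (LinearMap.ker (LinearMap.funLeft F F (Sum.inr : Fin m → Fin m ⊕ Fin m))).map (Matrix.mulVecLin ((g : Matrix.GeneralLinearGroup (Fin m ⊕ Fin m) F) : Matrix (Fin m ⊕ Fin m) (Fin m ⊕ Fin m) F)))) ↔ ((g : Matrix.GeneralLinearGroup (Fin m ⊕ Fin m) F) : Matrix (Fin m ⊕ Fin m) (Fin m ⊕ Fin m) F).det = 1 := by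
  obtain ⟨𝒬, h𝒬, hnd⟩ := Cfsg.Agent.S0287.plus_model F m
  have hQeq : Cfsg.quadFormPlus m F = ⇑𝒬 := funext (fun v => (h𝒬 v).symm)
  revert g
  rw [hQeq]
  intro g
  have hne : (-1 : ℤˣ) ≠ 1 := by decide
  have hD := Cfsg.Agent.Helper5.plusD_apply 𝒬 h𝒬 hnd g
  have hev : Even (m - Module.finrank F ↥(LinearMap.ker (LinearMap.funLeft F F (Sum.inr : Fin m → Fin m ⊕ Fin m)) ⊓ (LinearMap.ker (LinearMap.funLeft F F (Sum.inr : Fin m → Fin m ⊕ Fin m))).map (Matrix.mulVecLin ((g : Matrix.GeneralLinearGroup (Fin m ⊕ Fin m) F) : Matrix (Fin m ⊕ Fin m) (Fin m ⊕ Fin m) F)))) ↔ Cfsg.Agent.Helper5.plusD 𝒬 h𝒬 hnd g = 1 := by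
    rw [hD]
    exact (neg_one_pow_eq_one_iff_even hne).symm
  rw [hev]
  constructor
  · intro h
    rcases Cfsg.Agent.Helper5.plusD_det h2 𝒬 h𝒬 hnd g with ⟨h1, _⟩ | ⟨_, h3⟩
    · exact h1
    · rw [h] at h3
      exact absurd h3 (by decide)
  · intro h
    rcases Cfsg.Agent.Helper5.plusD_det h2 𝒬 h𝒬 hnd g with ⟨_, h3⟩ | ⟨h1, _⟩
    · exact h3
    · exfalso
      rw [h] at h1
      apply h2
      linear_combination h1

end Cfsg.Agent.S2629
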