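import Cfsg.Statements.S2630
-- import your own Cfsg.Agent.* helpers here
import Mathlib
import Cfsg.Agent.Helper5.Dickson2
import Cfsg.Agent.S0287

set_option autoImplicit false
open Cfsg

namespace Cfsg.Agent.S2630

/-- For the hyperbolic form Σ x_i y_i on F^(2m) over a finite field of characteristic two (m ≥ 1, excluding m = 2 over the field of two elements), an isometry g preserves the class of the maximal totally singular subspace U₀ = {y = 0} (m − dim(U₀ ∩ gU₀) even) if and only if g lies in Ω (the commutator subgroup of the orthogonal group): the stabiliser of each class is Ω. -/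
theorem result {F : Type*} [Field F] [Fintype F] [CharP F 2] {m : ℕ} (hm : 1 ≤ m) (h : Fintype.card F ≠ 2 ∨ m ≠ 2) (g : ↥(Cfsg.isometryGroup F (Cfsg.quadFormPlus m F))) : Even (m - Module.finrank F ↥(LinearMap.ker (LinearMap.funLeft F F (Sum.inr : Fin m → Fin m ⊕ Fin m)) ⊓ (LinearMap.ker (LinearMap.funLeft F F (Sum.inr : Fin m → Fin m ⊕ Fin m))).map (Matrix.mulVecLin ((g : Matrix.GeneralLinearGroup (Fin m ⊕ Fin m) F) : Matrix (Fin m ⊕ Fin m) (Fin m ⊕ Fin m) F)))) ↔ g ∈ Cfsg.Omega F (Cfsg.quadFormPlus m F) := by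
  have h2 : (2 : F) = 0 := by exact_mod_cast CharP.cast_eq_zero F 2
  have h' : Fintype.card F ≠ 2 ∨ Fintype.card (Fin m ⊕ Fin m) ≠ 4 := by
    rw [Fintype.card_sum, Fintype.card_fin]
    rcases h with h | h
    · exact Or.inl h
    · exact Or.inr (by omega)
  obtain ⟨𝒬, h𝒬, hnd⟩ := Cfsg.Agent.S0287.plus_model F m
  have hQeq : Cfsg.quadFormPlus m F = ⇑𝒬 := funext (fun v => (h𝒬 v).symm)
  revert g
  rw [hQeq]
  intro g
  have hne : (-1 : ℤˣ) ≠ 1 := by decide
  have hD := Cfsg.Agent.Helper5.plusD_apply 𝒬 h𝒬 hnd g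
  have hev : Even (m - Module.finrank F ↥(LinearMap.ker (LinearMap.funLeft F F (Sum.inr : Fin m → Fin m ⊕ Fin m)) ⊓ (LinearMap.ker (LinearMap.funLeft F F (Sum.inr : Fin m → Fin m ⊕ Fin m))).map (Matrix.mulVecLin ((g : Matrix.GeneralLinearGroup (Fin m ⊕ Fin m) F) : Matrix (Fin m ⊕ Fin m) (Fin m ⊕ Fin m) F)))) ↔ Cfsg.Agent.Helper5.plusD 𝒬 h𝒬 hnd g = 1 := by
    rw [hD]
    exact (neg_one_pow_eq_one_iff_even hne).symm
  rw [hev]
  constructor
  · intro hg
    rcases Cfsg.Agent.Helper5.omega2_cases h2 𝒬 hnd h' g with h5 | ⟨s, w, hw, hs, h5⟩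
    · exact h5
    · exfalso
      have h6 := Cfsg.Agent.Helper5.plusD_comm 𝒬 h𝒬 hnd _ h5
      rw [map_mul, hg, Cfsg.Agent.Helper5.plusD_refl 𝒬 h𝒬 hnd s w hw hs] at h6
      exact absurd h6 (by decide)
  · exact Cfsg.Agent.Helper5.plusD_comm 𝒬 h𝒬 hnd g

end Cfsg.Agent.S2630
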