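import Cfsg.Statements.S2631
-- import your own Cfsg.Agent.* helpers here
import Mathlib
import Cfsg.Agent.Helper5.OmegaTrans
import Cfsg.Agent.S0287

set_option autoImplicit false
open Cfsg

namespace Cfsg.Agent.S2631

/-- For the hyperbolic form Σ x_i y_i on F^(2m) over a finite field (m ≥ 1, excluding m = 2 over the field of two elements), Ω (the commutator subgroup of the orthogonal group) acts transitively on each of the two classes of maximal totally singular subspaces: if U and W are m-dimensional totally singular subspaces with m − dim(U ∩ W) even, some element of Ω carries U to W. -/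
theorem result {F : Type*} [Field F] [Fintype F] {m : ℕ} (hm : 1 ≤ m) (h : Fintype.card F ≠ 2 ∨ m ≠ 2) (U W : Submodule F (Fin m ⊕ Fin m → F)) (hU : Module.finrank F U = m) (hW : Module.finrank F W = m) (hU0 : ∀ u ∈ U, Cfsg.quadFormPlus m F u = 0) (hW0 : ∀ w ∈ W, Cfsg.quadFormPlus m F w = 0) (he : Even (m - Module.finrank F ↥(U ⊓ W))) : ∃ g : ↥(Cfsg.isometryGroup F (Cfsg.quadFormPlus m F)), g ∈ Cfsg.Omega F (Cfsg.quadFormPlus m F) ∧ U.map (Matrix.mulVecLin ((g : Matrix.GeneralLinearGroup (Fin m ⊕ Fin m) F) : Matrix (Fin m ⊕ Fin m) (Fin m ⊕ Fin m) F)) = W := by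
  have h' : Fintype.card F ≠ 2 ∨ Fintype.card (Fin m ⊕ Fin m) ≠ 4 := by
    rw [Fintype.card_sum, Fintype.card_fin]
    rcases h with h | h
    · exact Or.inl h
    · exact Or.inr (by omega)
  obtain ⟨𝒬, h𝒬, hnd⟩ := Cfsg.Agent.S0287.plus_model F m
  have hQeq : Cfsg.quadFormPlus m F = ⇑𝒬 := funext (fun v => (h𝒬 v).symm)
  rw [hQeq] at hU0 hW0 ⊢
  have hUm : Cfsg.Agent.Helper5.IsMTS 𝒬 m U := ⟨hU, hU0⟩
  have hWm : Cfsg.Agent.Helper5.IsMTS 𝒬 m W := ⟨hW, hW0⟩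
  obtain ⟨A, hA⟩ := Cfsg.Agent.Helper5.witt_move 𝒬 hnd U W
    (LinearEquiv.ofFinrankEq ↥U ↥W (hU.trans hW.symm))
    (fun u => by rw [hW0 _ (Subtype.property _), hU0 _ u.2])
  have hD : Cfsg.Agent.Helper5.plusD 𝒬 h𝒬 hnd A = 1 := by
    rw [Cfsg.Agent.Helper5.plusD_apply]
    obtain ⟨f, hfdef⟩ : ∃ f : (Fin m ⊕ Fin m → F) →ₗ[F] (Fin m ⊕ Fin m → F),
        f = Matrix.mulVecLin ((A : Matrix.GeneralLinearGroup (Fin m ⊕ Fin m) F) :
          Matrix (Fin m ⊕ Fin m) (Fin m ⊕ Fin m) F) := ⟨_, rfl⟩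
    rw [← hfdef] at hA ⊢
    have hf : Function.Injective f := by
      rw [hfdef]
      exact Cfsg.Agent.Helper5.mulVecLin_inj _
    have hfQ : ∀ v, 𝒬 (f v) = 𝒬 v := by
      intro v
      rw [hfdef]
      exact Cfsg.Agent.Helper5.mulVecLin_isom ⇑𝒬 A v
    have hE := Cfsg.Agent.Helper5.plusE_mts 𝒬 h𝒬
    have t1 := Cfsg.Agent.Helper5.mts_triangle 𝒬 Cfsg.Agent.Helper5.finrank_plusV hnd _ U W
      hE hUm hWm
    have t2 := Cfsg.Agent.Helper5.mts_triangle 𝒬 Cfsg.Agent.Helper5.finrank_plusV hnd _ _ W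
      hE (Cfsg.Agent.Helper5.mts_map 𝒬 f hf hfQ _ hE) hWm
    have t3 := Cfsg.Agent.Helper5.finrank_map_inf f hf (Cfsg.Agent.Helper5.plusE F m) U
    rw [hA] at t3
    have t4 := Submodule.finrank_mono (inf_le_left : U ⊓ W ≤ U)
    rw [hU] at t4
    have t5 := Submodule.finrank_mono (inf_le_left : Cfsg.Agent.Helper5.plusE F m ⊓
      (Cfsg.Agent.Helper5.plusE F m).map f ≤ Cfsg.Agent.Helper5.plusE F m)
    rw [hE.1] at t5
    obtain ⟨c, hc⟩ := he
    have hev : Even (m - Module.finrank F ↥(Cfsg.Agent.Helper5.plusE F m ⊓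
        (Cfsg.Agent.Helper5.plusE F m).map f)) := by
      rw [Nat.even_iff]
      omega
    exact hev.neg_one_pow
  have hWb : W ≠ ⊥ := by
    intro hb
    rw [hb, finrank_bot] at hW
    omega
  by_cases h2 : (2 : F) = 0
  · refine ⟨A, ?_, hA⟩
    rcases Cfsg.Agent.Helper5.omega2_cases h2 𝒬 hnd h' A with h5 | ⟨s, w, hw, hs, h5⟩
    · exact h5
    · exfalso
      have h6 := Cfsg.Agent.Helper5.plusD_comm 𝒬 h𝒬 hnd _ h5
      rw [map_mul, hD, Cfsg.Agent.Helper5.plusD_refl 𝒬 h𝒬 hnd s w hw hs] at h6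
      exact absurd h6 (by decide)
  · have hdet : ((A : Matrix.GeneralLinearGroup (Fin m ⊕ Fin m) F) :
        Matrix (Fin m ⊕ Fin m) (Fin m ⊕ Fin m) F).det = 1 := by
      rcases Cfsg.Agent.Helper5.plusD_det h2 𝒬 h𝒬 hnd A with ⟨hd, -⟩ | ⟨-, hd⟩
      · exact hd
      · rw [hD] at hd
        exact absurd hd (by decide)
    have hi : (Sum.inl ⟨0, hm⟩ : Fin m ⊕ Fin m) ≠ Sum.inr ⟨0, hm⟩ := Sum.inl_ne_inr
    rcases Int.units_eq_one_or (Cfsg.Agent.Helper5.chi 𝒬 1 A) with hx | hx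
    · exact ⟨A, (Cfsg.Agent.Helper5.omega_mem_iff h2 _ _ hi 𝒬 hnd A).2 ⟨hx, hdet⟩, hA⟩
    · obtain ⟨s, hsW, hsc, hsd⟩ := Cfsg.Agent.Helper5.ts_rot_exists h2 𝒬 hnd W hW0 hWb
      refine ⟨s * A, (Cfsg.Agent.Helper5.omega_mem_iff h2 _ _ hi 𝒬 hnd _).2 ⟨?_, ?_⟩,
        Cfsg.Agent.Helper5.map_stab_mul _ U W W s A hA hsW⟩
      · rw [map_mul, hsc, hx]
        decide
      · rw [Cfsg.Agent.Helper5.coe_mul_mat, Matrix.det_mul, hsd, hdet, one_mul]

end Cfsg.Agent.S2631
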