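import Cfsg.Statements.S2632
-- import your own Cfsg.Agent.* helpers here
import Mathlib
import Cfsg.Agent.Helper5.OmegaTrans

set_option autoImplicit false
open Cfsg

namespace Cfsg.Agent.S2632

/-- Ω is transitive on non-degenerate subspaces of each isometry type: for a quadratic form Q on F^n, n ≥ 3, with non-degenerate polar form (F finite; excluding dimension 4 over the field of two elements), if U and W are subspaces on which the polar form is non-degenerate and there is a Q-preserving linear isomorphism U → W, then some element of Ω (the commutator subgroup of the orthogonal group) carries U to W. (In dimension 2 this fails: Ω can be {±1}, which fixes every line.) -/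
theorem result {F : Type*} [Field F] [Fintype F] {n : ℕ} (hn : 3 ≤ n) (h : Fintype.card F ≠ 2 ∨ n ≠ 4) (Q : QuadraticForm F (Fin n → F)) (hQ : (QuadraticMap.polarBilin Q).Nondegenerate) (U W : Submodule F (Fin n → F)) (hU : U ⊓ LinearMap.BilinForm.orthogonal (QuadraticMap.polarBilin Q) U = ⊥) (hW : W ⊓ LinearMap.BilinForm.orthogonal (QuadraticMap.polarBilin Q) W = ⊥) (e : U ≃ₗ[F] W) (he : ∀ u : U, Q (e u : Fin n → F) = Q (u : Fin n → F)) : ∃ g : ↥(Cfsg.isometryGroup F ⇑Q), g ∈ Cfsg.Omega F ⇑Q ∧ U.map (Matrix.mulVecLin ((g : Matrix.GeneralLinearGroup (Fin n) F) : Matrix (Fin n) (Fin n) F)) = W := by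
  by_cases hWb : W = ⊥
  · have hUb : U = ⊥ := by
      have h0 := e.finrank_eq
      rw [hWb, finrank_bot] at h0
      exact Submodule.finrank_eq_zero.1 h0
    exact ⟨1, Subgroup.one_mem _, by rw [hUb, hWb, Submodule.map_bot]⟩
  · obtain ⟨A, hA⟩ := Cfsg.Agent.Helper5.witt_move Q hQ U W e he
    obtain ⟨v, hvW, hv⟩ := Cfsg.Agent.Helper5.nd_nonsing Q W hW hWb
    have hi : (⟨0, by omega⟩ : Fin n) ≠ ⟨1, by omega⟩ := by
      intro h0
      exact absurd (congrArg Fin.val h0) (by norm_num)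
    have hchi : (2 : F) ≠ 0 → ∃ s : ↥(Cfsg.isometryGroup F ⇑Q),
        W.map (Matrix.mulVecLin ((s : Matrix.GeneralLinearGroup (Fin n) F) :
          Matrix (Fin n) (Fin n) F)) = W ∧ Cfsg.Agent.Helper5.chi Q 1 s = -1 ∧
        ((s : Matrix.GeneralLinearGroup (Fin n) F) : Matrix (Fin n) (Fin n) F).det = 1 := by
      intro h2
      have hchar : ringChar F ≠ 2 := by
        intro h0
        apply h2
        have h3 := CharP.cast_eq_zero F (ringChar F)
        rw [h0] at h3
        exact_mod_cast h3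
      obtain ⟨ε, hε⟩ := FiniteField.exists_nonsquare hchar
      have hε0 : ε ≠ 0 := by
        rintro rfl
        exact hε IsSquare.zero
      obtain ⟨v₁, v₂, hv₁, hv₂, hs₁, hs₂⟩ : ∃ v₁ v₂ : Fin n → F, Q v₁ = 1 ∧ Q v₂ = ε ∧
          (v₁ ∈ W ∨ ∀ w ∈ W, QuadraticMap.polar (⇑Q) w v₁ = 0) ∧
          (v₂ ∈ W ∨ ∀ w ∈ W, QuadraticMap.polar (⇑Q) w v₂ = 0) := by
        by_cases hd : 2 ≤ Module.finrank F W
        · obtain ⟨v₁, h1W, h1⟩ := Cfsg.Agent.Helper5.univ_sub h2 Q W hW hd 1
          obtain ⟨v₂, h2W, h2'⟩ := Cfsg.Agent.Helper5.univ_sub h2 Q W hW hd ε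
          exact ⟨v₁, v₂, h1, h2', Or.inl h1W, Or.inl h2W⟩
        · have hX : LinearMap.BilinForm.orthogonal (QuadraticMap.polarBilin Q) W ⊓
              LinearMap.BilinForm.orthogonal (QuadraticMap.polarBilin Q)
                (LinearMap.BilinForm.orthogonal (QuadraticMap.polarBilin Q) W) = ⊥ := by
            rw [LinearMap.BilinForm.orthogonal_orthogonal hQ (Cfsg.Agent.Helper5.kit_refl Q) W,
              inf_comm]
            exact hW
          have hfr := LinearMap.BilinForm.finrank_orthogonal hQ W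
          rw [Module.finrank_fintype_fun_eq_card, Fintype.card_fin] at hfr
          have hd' : 2 ≤ Module.finrank F
              ↥(LinearMap.BilinForm.orthogonal (QuadraticMap.polarBilin Q) W) := by omega
          obtain ⟨v₁, h1W, h1⟩ := Cfsg.Agent.Helper5.univ_sub h2 Q _ hX hd' 1
          obtain ⟨v₂, h2W, h2'⟩ := Cfsg.Agent.Helper5.univ_sub h2 Q _ hX hd' ε
          exact ⟨v₁, v₂, h1, h2',
            Or.inr (fun w hw => (Cfsg.Agent.Helper5.mem_perp_iff Q W v₁).1 h1W w hw),
            Or.inr (fun w hw => (Cfsg.Agent.Helper5.mem_perp_iff Q W v₂).1 h2W w hw)⟩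
      have h1' : Q v₁ ≠ 0 := by
        rw [hv₁]
        exact one_ne_zero
      have h2' : Q v₂ ≠ 0 := by
        rw [hv₂]
        exact hε0
      obtain ⟨hc, hdet⟩ := Cfsg.Agent.Helper5.refl_pair_chi h2 Q v₁ v₂ ε hε hv₁ hv₂ h1' h2'
      exact ⟨_, Cfsg.Agent.Helper5.map_stab_mul _ W W W _ _
        (Cfsg.Agent.Helper5.refl_stab Q W v₂ h2' hs₂)
        (Cfsg.Agent.Helper5.refl_stab Q W v₁ h1' hs₁), hc, hdet⟩
    obtain ⟨s, hs, hsx⟩ := Cfsg.Agent.Helper5.omega_cover Q hQ
      (by rw [Fintype.card_fin]; exact h) ⟨0, by omega⟩ ⟨1, by omega⟩ hi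
      (fun s => W.map (Matrix.mulVecLin ((s : Matrix.GeneralLinearGroup (Fin n) F) :
        Matrix (Fin n) (Fin n) F)) = W)
      (Cfsg.Agent.Helper5.map_stab_one _ W)
      (fun a b ha hb => Cfsg.Agent.Helper5.map_stab_mul _ W W W a b hb ha)
      ⟨Cfsg.Agent.Helper5.reflEl Q v hv, v,
        Cfsg.Agent.Helper5.refl_stab Q W v hv (Or.inl hvW), hv,
        Cfsg.Agent.Helper5.actsRefl_reflEl Q v hv⟩
      hchi A
    exact ⟨s * A, hsx, Cfsg.Agent.Helper5.map_stab_mul _ U W W s A hA hs⟩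

end Cfsg.Agent.S2632
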