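import Cfsg.Statements.S2633
-- import your own Cfsg.Agent.* helpers here
import Mathlib
import Cfsg.Agent.Helper5.OmegaTrans

set_option autoImplicit false
open Cfsg

namespace Cfsg.Agent.S2633

/-- Ω is transitive on totally singular subspaces of each dimension less than half the dimension: for a quadratic form Q on F^n with non-degenerate polar form (F finite; excluding dimension 4 over the field of two elements), if U and W are subspaces of the same dimension k with 2k < n on which Q vanishes, then some element of Ω (the commutator subgroup of the orthogonal group) carries U to W. -/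
theorem result {F : Type*} [Field F] [Fintype F] {n : ℕ} (h : Fintype.card F ≠ 2 ∨ n ≠ 4) (Q : QuadraticForm F (Fin n → F)) (hQ : (QuadraticMap.polarBilin Q).Nondegenerate) (U W : Submodule F (Fin n → F)) {k : ℕ} (hk : 2 * k < n) (hU : Module.finrank F U = k) (hW : Module.finrank F W = k) (hU0 : ∀ u ∈ U, Q u = 0) (hW0 : ∀ w ∈ W, Q w = 0) : ∃ g : ↥(Cfsg.isometryGroup F ⇑Q), g ∈ Cfsg.Omega F ⇑Q ∧ U.map (Matrix.mulVecLin ((g : Matrix.GeneralLinearGroup (Fin n) F) : Matrix (Fin n) (Fin n) F)) = W := by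
  by_cases hk0 : k = 0
  · subst hk0
    have hUb : U = ⊥ := Submodule.finrank_eq_zero.1 hU
    have hWb : W = ⊥ := Submodule.finrank_eq_zero.1 hW
    exact ⟨1, Subgroup.one_mem _, by rw [hUb, hWb, Submodule.map_bot]⟩
  · have hn3 : 3 ≤ n := by omega
    obtain ⟨A, hA⟩ := Cfsg.Agent.Helper5.witt_move Q hQ U W
      (LinearEquiv.ofFinrankEq ↥U ↥W (hU.trans hW.symm))
      (fun u => by rw [hW0 _ (Subtype.property _), hU0 _ u.2])
    have hWb : W ≠ ⊥ := by
      intro hb
      rw [hb, finrank_bot] at hW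
      omega
    obtain ⟨v, hv, hvW⟩ := Cfsg.Agent.Helper5.ts_perp_nonsing Q hQ W
      (by rw [hW, Fintype.card_fin]; exact hk)
    have hi : (⟨0, by omega⟩ : Fin n) ≠ ⟨1, by omega⟩ := by
      intro h0
      exact absurd (congrArg Fin.val h0) (by norm_num)
    obtain ⟨s, hs, hsx⟩ := Cfsg.Agent.Helper5.omega_cover Q hQ
      (by rw [Fintype.card_fin]; exact h) ⟨0, by omega⟩ ⟨1, by omega⟩ hi
      (fun s => W.map (Matrix.mulVecLin ((s : Matrix.GeneralLinearGroup (Fin n) F) :
        Matrix (Fin n) (Fin n) F)) = W)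
      (Cfsg.Agent.Helper5.map_stab_one _ W)
      (fun a b ha hb => Cfsg.Agent.Helper5.map_stab_mul _ W W W a b hb ha)
      ⟨Cfsg.Agent.Helper5.reflEl Q v hv, v,
        Cfsg.Agent.Helper5.refl_stab Q W v hv (Or.inr hvW), hv,
        Cfsg.Agent.Helper5.actsRefl_reflEl Q v hv⟩
      (fun h2 => Cfsg.Agent.Helper5.ts_rot_exists h2 Q hQ W hW0 hWb) A
    exact ⟨s * A, hsx, Cfsg.Agent.Helper5.map_stab_mul _ U W W s A hA hs⟩

end Cfsg.Agent.S2633
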