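import Cfsg.Statements.S2634
-- import your own Cfsg.Agent.* helpers here
import Mathlib
import Cfsg.Agent.Helper5.Dickson2

set_option autoImplicit false
open Cfsg

namespace Cfsg.Agent.S2634

/-- Over a finite field of characteristic two, Ω (the commutator subgroup of the orthogonal group of a quadratic form Q on F^n with non-degenerate polar form; excluding dimension 4 over the field of two elements) acts transitively on the non-singular 1-spaces: for u, v with Q(u) ≠ 0 and Q(v) ≠ 0 some element of Ω carries the line through u to the line through v. -/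
theorem result {F : Type*} [Field F] [Fintype F] [CharP F 2] {n : ℕ} (h : Fintype.card F ≠ 2 ∨ n ≠ 4) (Q : QuadraticForm F (Fin n → F)) (hQ : (QuadraticMap.polarBilin Q).Nondegenerate) (u v : Fin n → F) (hu : Q u ≠ 0) (hv : Q v ≠ 0) : ∃ g : ↥(Cfsg.isometryGroup F ⇑Q), g ∈ Cfsg.Omega F ⇑Q ∧ (F ∙ ((g : Matrix.GeneralLinearGroup (Fin n) F) : Matrix (Fin n) (Fin n) F).mulVec u) = F ∙ v := by
  have h2 : (2 : F) = 0 := by exact_mod_cast CharP.cast_eq_zero F 2
  have h' : Fintype.card F ≠ 2 ∨ Fintype.card (Fin n) ≠ 4 := by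
    rw [Fintype.card_fin]
    exact h
  obtain ⟨t, ht⟩ := FiniteField.isSquare_of_char_two
    (CharP.ringChar_of_prime_eq_zero Nat.prime_two (by exact_mod_cast h2)) (Q u / Q v)
  have ht0 : t ≠ 0 := by
    intro h0
    rw [h0, mul_zero] at ht
    exact (div_ne_zero hu hv) ht
  have hQtv : Q (t • v) = Q u := by
    rw [QuadraticMap.map_smul, smul_eq_mul, ← ht]
    field_simp
  obtain ⟨y, hy⟩ := Cfsg.Agent.Helper5.refl_move2 h2 Q hQ h' u (t • v) hu hQtv
  have hspan : (F ∙ (t • v)) = F ∙ v := Submodule.span_singleton_smul_eq (IsUnit.mk0 t ht0) v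
  by_cases hyΩ : y ∈ commutator ↥(Cfsg.isometryGroup F ⇑Q)
  · refine ⟨y, hyΩ, ?_⟩
    rw [← Cfsg.Agent.Helper5.isoActF_apply ⇑Q, hy, hspan]
  · have htv : Q (t • v) ≠ 0 := by
      rw [hQtv]
      exact hu
    refine ⟨Cfsg.Agent.Helper5.reflEl Q (t • v) htv * y, ?_, ?_⟩
    · change _ ∈ commutator ↥(Cfsg.isometryGroup F ⇑Q)
      rw [Cfsg.Agent.Helper5.omega2_iff h2 Q hQ h', map_mul,
        Cfsg.Agent.Helper5.dick2_refl h2 Q hQ _ (t • v) htv
          (Cfsg.Agent.Helper5.actsRefl_reflEl Q (t • v) htv)]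
      rcases Int.units_eq_one_or (Cfsg.Agent.Helper5.dick2 h2 Q hQ y) with h5 | h5
      · exact absurd ((Cfsg.Agent.Helper5.omega2_iff h2 Q hQ h' y).2 h5) hyΩ
      · rw [h5]
        rfl
    · rw [← Cfsg.Agent.Helper5.isoActF_apply ⇑Q, map_mul, LinearEquiv.mul_apply, hy,
        Cfsg.Agent.Helper5.actsRefl_reflEl Q (t • v) htv (t • v),
        Cfsg.Agent.Helper5.c2_polar_self h2, mul_zero, zero_smul, sub_zero, hspan]

end Cfsg.Agent.S2634
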