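import Cfsg.Statements.S2635
-- import your own Cfsg.Agent.* helpers here
import Mathlib
import Cfsg.Agent.Helper5.Dickson2

set_option autoImplicit false
open Cfsg

namespace Cfsg.Agent.S2635

/-- Over a finite field of characteristic two, for a quadratic form Q on F^n with non-degenerate polar form, n ≥ 2, other than dimension 4 over the field of two elements, Ω (the commutator subgroup of the orthogonal group) is exactly the subgroup generated by the products of two reflections (orthogonal transvections) x ↦ x − Q(v)⁻¹ f(x, v) v, Q(v) ≠ 0: the products of an even number of reflections. -/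
theorem result {F : Type*} [Field F] [Fintype F] [CharP F 2] {n : ℕ} (hn : 2 ≤ n) (h : Fintype.card F ≠ 2 ∨ n ≠ 4) (Q : QuadraticForm F (Fin n → F)) (hQ : (QuadraticMap.polarBilin Q).Nondegenerate) : Cfsg.Omega F ⇑Q = Subgroup.closure {g : ↥(Cfsg.isometryGroup F ⇑Q) | ∃ u v : Fin n → F, Q u ≠ 0 ∧ Q v ≠ 0 ∧ ((g : Matrix.GeneralLinearGroup (Fin n) F) : Matrix (Fin n) (Fin n) F) = Cfsg.reflectionMatrix ⇑Q u * Cfsg.reflectionMatrix ⇑Q v} := by
  have h2 : (2 : F) = 0 := by exact_mod_cast CharP.cast_eq_zero F 2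
  have h' : Fintype.card F ≠ 2 ∨ Fintype.card (Fin n) ≠ 4 := by
    rw [Fintype.card_fin]
    exact h
  apply le_antisymm
  · intro g hg
    have hD := Cfsg.Agent.Helper5.dick2_comm h2 Q hQ g hg
    obtain ⟨e, ⟨l, hl, hle⟩, he⟩ := Cfsg.Agent.Helper5.cd_gen2 Q hQ h2
      (by rw [Module.finrank_fintype_fun_eq_card, Fintype.card_fin]; exact h)
      (Cfsg.Agent.Helper5.IR Q)
      (Cfsg.Agent.Helper5.IR_refl Q) (Cfsg.Agent.Helper5.IR_trans Q)
      (Cfsg.Agent.Helper5.IR_reflEquiv Q) (Cfsg.Agent.Helper5.IR_iso Q)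
      (Matrix.toLin' ((g : Matrix.GeneralLinearGroup (Fin n) F) : Matrix (Fin n) (Fin n) F))
      (fun v => by
        rw [Matrix.toLin'_apply]
        exact (Cfsg.Agent.Helper6.isometry_mem_iff ⇑Q _).1 g.2 v)
    have hgl : l.prod = g := by
      apply Subtype.ext
      apply Units.ext
      apply Matrix.mulVec_injective
      funext x
      rw [hle x, he x, Matrix.toLin'_apply]
    have hDl : ∀ l : List ↥(Cfsg.isometryGroup F ⇑Q),
        (∀ y ∈ l, ∃ v : Fin n → F, Q v ≠ 0 ∧
          ((y : Matrix.GeneralLinearGroup (Fin n) F) : Matrix (Fin n) (Fin n) F)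
            = Cfsg.reflectionMatrix ⇑Q v) →
        Cfsg.Agent.Helper5.dick2 h2 Q hQ l.prod = (-1) ^ l.length := by
      intro l
      induction l with
      | nil =>
        intro _
        simp
      | cons a l ih =>
        intro hl
        obtain ⟨v, hv, hav⟩ := hl a (by simp)
        rw [List.prod_cons, map_mul, Cfsg.Agent.Helper5.dick2_refl h2 Q hQ a v hv
          (Cfsg.Agent.Helper5.actsRefl_of_matrix Q a v hav),
          ih (fun y hy => hl y (by simp [hy])), List.length_cons, pow_succ, mul_comm]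
    have hlen : Even l.length := by
      have h1 := hDl l hl
      rw [hgl, hD] at h1
      by_contra hodd
      rw [Nat.not_even_iff_odd] at hodd
      rw [hodd.neg_one_pow] at h1
      exact absurd h1 (by decide)
    obtain ⟨k, hk⟩ := hlen
    rw [← hgl]
    exact Cfsg.Agent.Helper5.pairs_mem Q k l (by omega) hl
  · rw [Subgroup.closure_le]
    rintro g ⟨u, v, hu, hv, hg⟩
    have e1 : ∀ (w : Fin n → F) (hw : Q w ≠ 0),
        ((Cfsg.Agent.Helper5.reflEl Q w hw : Matrix.GeneralLinearGroup (Fin n) F) :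
          Matrix (Fin n) (Fin n) F) = Cfsg.reflectionMatrix ⇑Q w :=
      fun w hw => Cfsg.Agent.Helper6.reflectionGL_coe Q w hw
    have hge : g = Cfsg.Agent.Helper5.reflEl Q u hu * Cfsg.Agent.Helper5.reflEl Q v hv := by
      apply Subtype.ext
      apply Units.ext
      rw [hg, Subgroup.coe_mul, Units.val_mul, e1, e1]
    rw [hge]
    exact Cfsg.Agent.Helper5.refl_pair_comm2 h2 Q hQ h' u v hu hv _ _
      (Cfsg.Agent.Helper5.actsRefl_reflEl Q u hu) (Cfsg.Agent.Helper5.actsRefl_reflEl Q v hv)

end Cfsg.Agent.S2635
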