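import Cfsg.Statements.S2638

set_option autoImplicit false
open Cfsg

namespace Cfsg.Agent.S2638

theorem fixed_count {F : Type*} [Field F] [Finite F] {n r : ℕ} [Fact r.Prime]
    (A : Matrix (Fin n) (Fin n) F) (hA : A ^ r = 1) (W : Submodule F (Fin n → F))
    (hW : ∀ w ∈ W, A.mulVec w ∈ W) :
    Nat.card W ≡ Nat.card ↥(W ⊓ LinearMap.ker (Matrix.toLin' A - 1)) [MOD r] := by
  classical
  haveI : Fintype F := Fintype.ofFinite F
  haveI : Fintype W := Fintype.ofFinite W
  let f : Function.End W := fun w => ⟨A.mulVec w.1, hW w.1 w.2⟩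
  have hpow : ∀ (k : ℕ) (w : W),
      (((f ^ k : Function.End W) w : W) : Fin n → F) = (A ^ k).mulVec (w : Fin n → F) := by
    intro k
    induction k with
    | zero =>
      intro w
      show ((w : W) : Fin n → F) = (A ^ 0).mulVec (w : Fin n → F)
      rw [pow_zero, Matrix.one_mulVec]
    | succ k ih =>
      intro w
      rw [pow_succ]
      show (((f ^ k : Function.End W) (f w) : W) : Fin n → F) = _
      rw [ih]
      show (A ^ k).mulVec (A.mulVec (w : Fin n → F)) = _
      rw [Matrix.mulVec_mulVec, ← pow_succ]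
  have hf : f ^ r ^ 1 = 1 := by
    rw [pow_one]
    funext w
    apply Subtype.ext
    rw [hpow, hA, Matrix.one_mulVec]
    rfl
  have h1 := Equiv.Perm.card_fixedPoints_modEq (p := r) (n := 1) hf
  rw [← Nat.card_eq_fintype_card, ← Nat.card_eq_fintype_card] at h1
  have e : Function.fixedPoints f ≃ ↥(W ⊓ LinearMap.ker (Matrix.toLin' A - 1)) :=
    { toFun := fun w => ⟨w.1.1, ⟨w.1.2, by
        have h : A.mulVec (w.1 : Fin n → F) = (w.1 : Fin n → F) := congrArg Subtype.val w.2
        rw [SetLike.mem_coe, LinearMap.mem_ker, LinearMap.sub_apply, Matrix.toLin'_apply,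
          Module.End.one_apply, sub_eq_zero]
        exact h⟩⟩
      invFun := fun v => ⟨⟨v.1, v.2.1⟩, by
        have h := v.2.2
        rw [SetLike.mem_coe, LinearMap.mem_ker, LinearMap.sub_apply, Matrix.toLin'_apply,
          Module.End.one_apply, sub_eq_zero] at h
        exact Subtype.ext h⟩
      left_inv := fun w => rfl
      right_inv := fun v => rfl }
  rw [Nat.card_congr e] at h1
  exact h1

theorem irr {F : Type*} [Field F] [Fintype F] {q n r : ℕ} (hF : Fintype.card F = q)
    [Fact r.Prime] (hi : orderOf (q : ZMod r) = n) (A : Matrix (Fin n) (Fin n) F)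
    (hA : A ^ r = 1) (hA1 : A ≠ 1) (W : Submodule F (Fin n → F))
    (hW : ∀ w ∈ W, A.mulVec w ∈ W) : W = ⊥ ∨ W = ⊤ := by
  have key : ∀ W : Submodule F (Fin n → F), (∀ w ∈ W, A.mulVec w ∈ W) →
      (q : ZMod r) ^ Module.finrank F W
        = (q : ZMod r) ^ Module.finrank F ↥(W ⊓ LinearMap.ker (Matrix.toLin' A - 1)) := by
    intro W hW
    have h1 := fixed_count A hA W hW
    rw [Module.natCard_eq_pow_finrank (K := F) (V := ↥W),
      Module.natCard_eq_pow_finrank (K := F)
        (V := ↥(W ⊓ LinearMap.ker (Matrix.toLin' A - 1))),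
      Nat.card_eq_fintype_card, hF] at h1
    have h2 := (ZMod.natCast_eq_natCast_iff _ _ _).2 h1
    push_cast at h2
    exact h2
  have hdvd : ∀ d : ℕ, (q : ZMod r) ^ d = 1 → d ≤ n → d = 0 ∨ d = n := by
    intro d hd hdn
    have h1 := orderOf_dvd_of_pow_eq_one hd
    rw [hi] at h1
    rcases Nat.eq_zero_or_pos d with h0 | hpos
    · exact Or.inl h0
    · exact Or.inr (le_antisymm hdn (Nat.le_of_dvd hpos h1))
  have hqn : (q : ZMod r) ^ n = 1 := by
    rw [← hi]
    exact pow_orderOf_eq_one _
  have hle : ∀ W : Submodule F (Fin n → F), Module.finrank F W ≤ n := by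
    intro W
    have := Submodule.finrank_le W
    simpa using this
  have hV1 : LinearMap.ker (Matrix.toLin' A - 1) = ⊥ := by
    have h1 := key ⊤ (fun w _ => Submodule.mem_top)
    rw [top_inf_eq, finrank_top, Module.finrank_fin_fun, hqn] at h1
    rcases hdvd _ h1.symm (hle _) with h2 | h2
    · exact Submodule.finrank_eq_zero.1 h2
    · exfalso
      apply hA1
      have h3 : LinearMap.ker (Matrix.toLin' A - 1) = ⊤ :=
        Submodule.eq_top_of_finrank_eq (by rw [h2]; simp)
      have h4 : Matrix.toLin' A - 1 = 0 := LinearMap.ker_eq_top.1 h3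
      have h5 : Matrix.toLin' A = Matrix.toLin' (1 : Matrix (Fin n) (Fin n) F) := by
        rw [Matrix.toLin'_one]
        exact sub_eq_zero.1 h4
      exact Matrix.toLin'.injective h5
  have h1 := key W hW
  rw [hV1, inf_bot_eq, finrank_bot, pow_zero] at h1
  rcases hdvd _ h1 (hle _) with h2 | h2
  · exact Or.inl (Submodule.finrank_eq_zero.1 h2)
  · exact Or.inr (Submodule.eq_top_of_finrank_eq (by rw [h2]; simp))

open Polynomial in
theorem result {F : Type*} [Field F] [Fintype F] {p q : ℕ} [Fact p.Prime] [CharP F p] (hF : Fintype.card F = q) {n r : ℕ} (hn : 1 ≤ n) (hr : r.Prime) (hrp : r ≠ p) (hi : orderOf (q : ZMod r) = n) (x : GL (Fin n) F) (hx : orderOf x = r) : IsCyclic ↥(Subgroup.centralizer ({x} : Set (GL (Fin n) F))) ∧ Nat.card ↥(Subgroup.centralizer ({x} : Set (GL (Fin n) F))) = q ^ n - 1 := by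
  classical
  haveI : Fact r.Prime := ⟨hr⟩
  obtain ⟨A, hAdef⟩ : ∃ A : Matrix (Fin n) (Fin n) F,
      A = (x : Matrix (Fin n) (Fin n) F) := ⟨_, rfl⟩
  have hA : A ^ r = 1 := by
    rw [hAdef, ← Units.val_pow_eq_pow_val, ← hx, pow_orderOf_eq_one]
    rfl
  have hA1 : A ≠ 1 := by
    intro h
    have hx1 : x = 1 := Units.ext (by rw [← hAdef, h]; rfl)
    rw [hx1, orderOf_one] at hx
    exact hr.one_lt.ne hx
  have hirr := fun W hW => irr hF hi A hA hA1 W hW
  have P1 : ∀ M : Matrix (Fin n) (Fin n) F, Commute M A → M ≠ 0 → IsUnit M := by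
    intro M hM hM0
    rw [← Matrix.mulVec_injective_iff_isUnit]
    have h1 := hirr (LinearMap.ker (Matrix.toLin' M)) (by
      intro w hw
      rw [LinearMap.mem_ker, Matrix.toLin'_apply] at hw ⊢
      rw [Matrix.mulVec_mulVec, hM.eq, ← Matrix.mulVec_mulVec, hw, Matrix.mulVec_zero])
    rcases h1 with h1 | h1
    · intro a b hab
      have h2 : Function.Injective (Matrix.toLin' M) := LinearMap.ker_eq_bot.1 h1
      apply h2
      rw [Matrix.toLin'_apply, Matrix.toLin'_apply]
      exact hab
    · exfalso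
      apply hM0
      have h2 : Matrix.toLin' M = 0 := LinearMap.ker_eq_top.1 h1
      apply Matrix.toLin'.injective
      rw [h2, map_zero]
  obtain ⟨v₀, hv₀⟩ : ∃ v₀ : Fin n → F, v₀ ≠ 0 := ⟨fun _ => 1, by
    intro h
    have := congrFun h ⟨0, hn⟩
    simp at this⟩
  have hcommP : ∀ P : F[X], Commute (Polynomial.aeval A P) A := by
    intro P
    have h1 : Polynomial.aeval A P * Polynomial.aeval A (Polynomial.X : F[X])
        = Polynomial.aeval A (Polynomial.X : F[X]) * Polynomial.aeval A P := by
      rw [← map_mul, ← map_mul, mul_comm]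
    rwa [Polynomial.aeval_X] at h1
  have P2 : ∀ w : Fin n → F, ∃ P : F[X], (Polynomial.aeval A P).mulVec v₀ = w := by
    let Φ : F[X] →ₗ[F] (Fin n → F) :=
      { toFun := fun P => (Polynomial.aeval A P).mulVec v₀
        map_add' := by
          intro P Q
          rw [map_add, Matrix.add_mulVec]
        map_smul' := by
          intro c P
          rw [map_smul, Matrix.smul_mulVec]
          rfl }
    have h1 := hirr (LinearMap.range Φ) (by
      rintro _ ⟨P, rfl⟩
      refine ⟨Polynomial.X * P, ?_⟩
      show (Polynomial.aeval A (Polynomial.X * P)).mulVec v₀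
        = A.mulVec ((Polynomial.aeval A P).mulVec v₀)
      rw [map_mul, Polynomial.aeval_X, Matrix.mulVec_mulVec])
    rcases h1 with h1 | h1
    · exfalso
      apply hv₀
      have h2 : v₀ ∈ LinearMap.range Φ := ⟨1, by
        show (Polynomial.aeval A (1 : F[X])).mulVec v₀ = v₀
        rw [map_one, Matrix.one_mulVec]⟩
      rw [h1] at h2
      exact (Submodule.mem_bot F).1 h2
    · intro w
      have h2 : w ∈ LinearMap.range Φ := by
        rw [h1]
        exact Submodule.mem_top
      obtain ⟨P, hP⟩ := h2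
      exact ⟨P, hP⟩
  have P3 : ∀ M : Matrix (Fin n) (Fin n) F, Commute M A → M.mulVec v₀ = 0 → M = 0 := by
    intro M hM hMv
    by_contra hM0
    have h1 := P1 M hM hM0
    rw [← Matrix.mulVec_injective_iff_isUnit] at h1
    exact hv₀ (h1 (by rw [hMv, Matrix.mulVec_zero]))
  have P4 : ∀ M : Matrix (Fin n) (Fin n) F, Commute M A →
      ∃ P : F[X], M = Polynomial.aeval A P := by
    intro M hM
    obtain ⟨P, hP⟩ := P2 (M.mulVec v₀)
    refine ⟨P, ?_⟩
    have h1 := P3 (M - Polynomial.aeval A P) (hM.sub_left (hcommP P))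
      (by rw [Matrix.sub_mulVec, hP, sub_self])
    exact sub_eq_zero.1 h1
  have hcent : ∀ g : GL (Fin n) F, g ∈ Subgroup.centralizer ({x} : Set (GL (Fin n) F)) ↔
      Commute (g : Matrix (Fin n) (Fin n) F) A := by
    intro g
    rw [Subgroup.mem_centralizer_iff]
    constructor
    · intro h
      have h1 := h x (Set.mem_singleton x)
      have h2 := congrArg (fun y : GL (Fin n) F => (y : Matrix (Fin n) (Fin n) F)) h1
      simp only [Units.val_mul] at h2
      rw [← hAdef] at h2
      exact h2.symm
    · intro h y hy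
      rw [Set.mem_singleton_iff] at hy
      rw [hy]
      apply Units.ext
      rw [Units.val_mul, Units.val_mul, ← hAdef]
      exact h.eq.symm
  constructor
  · let R := Algebra.adjoin F ({A} : Set (Matrix (Fin n) (Fin n) F))
    letI : CommRing R := Algebra.adjoinCommRingOfComm F (by
      intro a ha b hb
      rw [Set.mem_singleton_iff] at ha hb
      rw [ha, hb])
    have hRcomm : ∀ a : R, Commute (a : Matrix (Fin n) (Fin n) F) A := by
      intro a
      have h1 := mul_comm a ⟨A, Algebra.subset_adjoin (Set.mem_singleton A)⟩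
      exact congrArg Subtype.val h1
    haveI : NoZeroDivisors R := ⟨by
      intro a b hab
      by_cases hb : b = 0
      · exact Or.inr hb
      · left
        have hb' : (b : Matrix (Fin n) (Fin n) F) ≠ 0 := fun h => hb (Subtype.ext h)
        have hu := P1 _ (hRcomm b) hb'
        have h1 : (a : Matrix (Fin n) (Fin n) F) * (b : Matrix (Fin n) (Fin n) F) = 0 :=
          congrArg Subtype.val hab
        exact Subtype.ext (hu.mul_left_eq_zero.1 h1)⟩
    haveI : Nontrivial R := ⟨⟨0, 1, by
      intro h
      have h1 : (0 : Matrix (Fin n) (Fin n) F) = 1 := congrArg Subtype.val h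
      have h2 := congrFun (congrFun h1 ⟨0, hn⟩) ⟨0, hn⟩
      simp at h2⟩⟩
    haveI : IsDomain R := NoZeroDivisors.to_isDomain R
    let φ : Subgroup.centralizer ({x} : Set (GL (Fin n) F)) →* R :=
      { toFun := fun c => ⟨((c : GL (Fin n) F) : Matrix (Fin n) (Fin n) F), by
          obtain ⟨P, hP⟩ := P4 _ ((hcent c).1 c.2)
          rw [hP]
          exact Polynomial.aeval_mem_adjoin_singleton F A⟩
        map_one' := rfl
        map_mul' := fun a b => rfl }
    apply isCyclic_of_injective_ringHom φ
    intro c c' hcc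
    have h1 : ((c : GL (Fin n) F) : Matrix (Fin n) (Fin n) F)
        = ((c' : GL (Fin n) F) : Matrix (Fin n) (Fin n) F) := congrArg Subtype.val hcc
    exact Subtype.ext (Units.ext h1)
  · let f : Subgroup.centralizer ({x} : Set (GL (Fin n) F)) → {w : Fin n → F // w ≠ 0} :=
      fun c => ⟨((c : GL (Fin n) F) : Matrix (Fin n) (Fin n) F).mulVec v₀, by
        intro h
        have h1 : IsUnit ((c : GL (Fin n) F) : Matrix (Fin n) (Fin n) F) :=
          (c : GL (Fin n) F).isUnit
        rw [← Matrix.mulVec_injective_iff_isUnit] at h1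
        exact hv₀ (h1 (by rw [h, Matrix.mulVec_zero]))⟩
    have hf : Function.Bijective f := by
      constructor
      · intro c c' hcc
        have h1 : ((c : GL (Fin n) F) : Matrix (Fin n) (Fin n) F).mulVec v₀
            = ((c' : GL (Fin n) F) : Matrix (Fin n) (Fin n) F).mulVec v₀ :=
          congrArg Subtype.val hcc
        have h2 := P3 (((c : GL (Fin n) F) : Matrix (Fin n) (Fin n) F)
            - ((c' : GL (Fin n) F) : Matrix (Fin n) (Fin n) F))
          (((hcent c).1 c.2).sub_left ((hcent c').1 c'.2))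
          (by rw [Matrix.sub_mulVec, h1, sub_self])
        exact Subtype.ext (Units.ext (sub_eq_zero.1 h2))
      · rintro ⟨w, hw⟩
        obtain ⟨P, hP⟩ := P2 w
        have hM0 : Polynomial.aeval A P ≠ 0 := by
          intro h
          rw [h, Matrix.zero_mulVec] at hP
          exact hw hP.symm
        have hu := P1 _ (hcommP P) hM0
        refine ⟨⟨hu.unit, (hcent _).2 (by rw [IsUnit.unit_spec]; exact hcommP P)⟩, ?_⟩
        apply Subtype.ext
        show (hu.unit : Matrix (Fin n) (Fin n) F).mulVec v₀ = w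
        rw [IsUnit.unit_spec, hP]
    rw [Nat.card_eq_of_bijective f hf, Nat.card_eq_fintype_card,
      Fintype.card_subtype_compl, Fintype.card_subtype_eq, Fintype.card_fun, Fintype.card_fin,
      hF]

end Cfsg.Agent.S2638
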