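import Cfsg.Statements.S2639
import Cfsg.Agent.Helper15.Realize
import Cfsg.Agent.Helper15.SympBasis
import Cfsg.Agent.Helper15.FieldEmb

set_option autoImplicit false
open Cfsg

namespace Cfsg.Agent.S2639

/-- The unitary group embeds in the symplectic group of twice the dimension over the subfield: for a field K with q² elements and a field F with q elements (isomorphic to the subfield of K of order q), there is an injective homomorphism GU_m(q) → Sp_2m(F). -/
theorem result {K F : Type*} [Field K] [Fintype K] [Field F] [Fintype F] {q : ℕ} (hK : Fintype.card K = q ^ 2) (hF : Fintype.card F = q) (m : ℕ) : ∃ φ : ↥(Cfsg.GU m K q) →* ↥(Matrix.symplecticGroup (Fin m) F), Function.Injective φ := by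
  classical
  obtain ⟨ι₀⟩ := Helper15.exists_ringHom_of_card_sq (F := F) (K := K) (by rw [hK, hF])
  let _ : Algebra F K := ι₀.toAlgebra
  have h2 : Module.finrank F K = 2 := Helper15.finrank_eq_two_of_card_sq (by rw [hK, hF])
  have hq2 : 2 ≤ q := by
    rw [← hF]
    exact Fintype.one_lt_card
  obtain ⟨σ, hσ⟩ : ∃ σ : K →ₐ[F] K, ∀ x, σ x = x ^ q :=
    ⟨FiniteField.frobeniusAlgHom F K, fun x => by rw [FiniteField.frobeniusAlgHom_apply, hF]⟩
  have hσsurj : Function.Surjective σ := Finite.injective_iff_surjective.1 σ.toRingHom.injective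
  have hnorm : ∀ x : K, x * σ x = algebraMap F K (Algebra.norm F x) := by
    intro x
    rw [FiniteField.algebraMap_norm_eq_pow, Nat.card_eq_fintype_card, Nat.card_eq_fintype_card,
      hK, hF, hσ]
    have h3 : (q ^ 2 - 1) / (q - 1) = q + 1 := by
      obtain ⟨r, rfl⟩ : ∃ r, q = r + 2 := ⟨q - 2, by omega⟩
      have h4 : (r + 2) ^ 2 - 1 = (r + 2 + 1) * (r + 2 - 1) := by
        have h5 : (r + 2) ^ 2 = (r + 3) * (r + 1) + 1 := by ring
        have h6 : r + 2 - 1 = r + 1 := by omega
        rw [h6, h5]
        rfl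
      rw [h4]
      exact Nat.mul_div_cancel _ (by omega)
    rw [h3, pow_succ, mul_comm]
  obtain ⟨lam, hlam, hker⟩ : ∃ lam : K →ₗ[F] F, lam ≠ 0 ∧ lam 1 = 0 := by
    have hlt : (F ∙ (1 : K)) < ⊤ := by
      rw [lt_top_iff_ne_top]
      intro h3
      have h4 := congrArg (fun W : Submodule F K => Module.finrank F W) h3
      simp only [finrank_top] at h4
      rw [finrank_span_singleton one_ne_zero, h2] at h4
      omega
    obtain ⟨f, hf, hle⟩ := Submodule.exists_le_ker_of_lt_top _ hlt
    exact ⟨f, hf, LinearMap.mem_ker.1 (hle (Submodule.mem_span_singleton_self 1))⟩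
  have hherm : ∀ v w : Fin m → K, Cfsg.hermForm m K q v w = ∑ i, v i * σ (w i) := by
    intro v w
    unfold Cfsg.hermForm
    simp only [hσ]
  let ω : LinearMap.BilinForm F (Fin m → K) :=
    LinearMap.mk₂ F (fun v w => lam (∑ i, v i * σ (w i)))
      (fun v v' w => by
        simp only [Pi.add_apply, add_mul, Finset.sum_add_distrib, map_add])
      (fun c v w => by
        simp only [Pi.smul_apply, smul_mul_assoc, ← Finset.smul_sum, map_smul])
      (fun v w w' => by
        simp only [Pi.add_apply, map_add, mul_add, Finset.sum_add_distrib])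
      (fun c v w => by
        simp only [Pi.smul_apply, map_smul, mul_smul_comm, ← Finset.smul_sum])
  have hω : ∀ v w, ω v w = lam (∑ i, v i * σ (w i)) := fun v w => rfl
  have halt : ∀ v, ω v v = 0 := by
    intro v
    rw [hω]
    simp only [hnorm]
    rw [← map_sum, Algebra.algebraMap_eq_smul_one, map_smul, hker, smul_zero]
  have hnd : ∀ v, (∀ w, ω v w = 0) → v = 0 := by
    intro v hv
    have h1 := Helper15.trace_form_sep lam hlam
      (fun v w : Fin m → K => ∑ i, v i * σ (w i)) (by
        intro v w d hne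
        obtain ⟨c, hc⟩ := hσsurj (d / (∑ i, v i * σ (w i)))
        refine ⟨c • w, ?_⟩
        show ∑ i, v i * σ ((c • w) i) = d
        simp only [Pi.smul_apply, smul_eq_mul, map_mul, hc]
        have h3 : ∀ i, v i * (d / (∑ i, v i * σ (w i)) * σ (w i))
            = d / (∑ i, v i * σ (w i)) * (v i * σ (w i)) := fun i => by ring
        simp only [h3]
        rw [← Finset.mul_sum, div_mul_cancel₀ _ hne]) v hv
    funext i
    have h3 := h1 (Pi.single i 1)
    simp only [Pi.single_apply, apply_ite σ, map_one, map_zero, mul_ite, mul_one, mul_zero,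
      Finset.sum_ite_eq', Finset.mem_univ, if_true] at h3
    exact h3
  have hfin : Module.finrank F (Fin m → K) = 2 * m := by
    rw [Module.finrank_pi_fintype F]
    simp [h2]
    ring
  obtain ⟨e, he⟩ := Helper15.exists_symp_equiv ω halt hnd hfin
  apply Helper15.embed_symplectic
    ((Units.coeHom (Matrix (Fin m) (Fin m) K)).comp (Subgroup.subtype (Cfsg.GU m K q)))
    (fun g g' hgg => Subtype.ext (Units.ext hgg)) e
  intro g v w
  rw [← he, ← he, hω, hω, ← hherm, ← hherm]
  congr 1
  exact g.2 v w

end Cfsg.Agent.S2639
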