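import Cfsg.Statements.S2640
import Cfsg.Agent.Helper15.Realize
import Cfsg.Agent.Helper15.QuadStd
import Cfsg.Agent.Helper15.HermQuad

set_option autoImplicit false
open Cfsg

namespace Cfsg.Agent.S2640

/-- For m even, the unitary group GU_m(q) (over the field with q² elements) embeds in the orthogonal group O⁺_2m(q) of the hyperbolic form Σ x_i y_i over the field with q elements (there is an injective homomorphism). -/
theorem result {K F : Type*} [Field K] [Fintype K] [Field F] [Fintype F] {q : ℕ} (hK : Fintype.card K = q ^ 2) (hF : Fintype.card F = q) (m : ℕ) (hm : Even m) : ∃ φ : ↥(Cfsg.GU m K q) →* ↥(Cfsg.isometryGroup F (Cfsg.quadFormPlus m F)), Function.Injective φ := by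
  classical
  rcases Nat.eq_zero_or_pos m with rfl | hmpos
  · refine ⟨1, ?_⟩
    intro g g' _
    apply Subtype.ext
    apply Units.ext
    exact Subsingleton.elim _ _
  obtain ⟨ι₀⟩ := Helper15.exists_ringHom_of_card_sq (F := F) (K := K) (by rw [hK, hF])
  let _ : Algebra F K := ι₀.toAlgebra
  have hK' : Fintype.card K = Fintype.card F ^ 2 := by rw [hK, hF]
  have h2 : Module.finrank F K = 2 := Helper15.finrank_eq_two_of_card_sq hK'
  obtain ⟨k, rfl⟩ : ∃ k, m = k + 1 := ⟨m - 1, by omega⟩
  obtain ⟨n, hn⟩ := hm
  obtain ⟨Q, hQ, hQnd⟩ := Helper15.exists_hermQuad hK' (k + 1)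
  obtain ⟨σ, hσ⟩ : ∃ σ : K →ₐ[F] K, σ = FiniteField.frobeniusAlgHom F K := ⟨_, rfl⟩
  rw [← hσ] at hQ
  have hσq : ∀ x, σ x = x ^ q := fun x => by rw [hσ, FiniteField.frobeniusAlgHom_apply, hF]
  have hinj : Function.Injective (algebraMap F K) := (algebraMap F K).injective
  have hfin : Module.finrank F (Fin (k + 1) → K) = 2 * k + 2 := by
    rw [Module.finrank_pi_fintype F]
    simp [h2]
    ring
  obtain ⟨c, hc⟩ := FiniteField.norm_surjective F K (-1)
  have hc' : c * σ c = -1 := by
    rw [hσ, Helper15.mul_frob_eq_norm hK', hc]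
    simp
  let j : (Fin n → K) →ₗ[F] (Fin (k + 1) → K) :=
    { toFun := fun x i => Fin.append x (c • x) (Fin.cast hn i)
      map_add' := by
        intro x y
        funext i
        show Fin.append (x + y) (c • (x + y)) (Fin.cast hn i)
          = Fin.append x (c • x) (Fin.cast hn i) + Fin.append y (c • y) (Fin.cast hn i)
        generalize Fin.cast hn i = i'
        induction i' using Fin.addCases with
        | left i => simp
        | right i =>
          rw [Fin.append_right, Fin.append_right, Fin.append_right]
          simp [mul_add]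
      map_smul' := by
        intro r x
        funext i
        show Fin.append (r • x) (c • (r • x)) (Fin.cast hn i)
          = r • Fin.append x (c • x) (Fin.cast hn i)
        generalize Fin.cast hn i = i'
        induction i' using Fin.addCases with
        | left i => simp
        | right i =>
          rw [Fin.append_right, Fin.append_right]
          simp [mul_smul_comm] }
  have hjapp : ∀ x i, j x i = Fin.append x (c • x) (Fin.cast hn i) := fun x i => rfl
  have hj : Function.Injective j := by
    intro x y hxy
    funext i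
    have h3 := congrFun hxy (Fin.cast hn.symm (Fin.castAdd n i))
    rw [hjapp, hjapp] at h3
    simpa using h3
  have hsing : ∀ x, Q (j x) = 0 := by
    intro x
    apply hinj
    rw [hQ, map_zero]
    have h3 : ∑ i : Fin (k + 1), j x i * σ (j x i)
        = ∑ i : Fin (n + n), Fin.append x (c • x) i * σ (Fin.append x (c • x) i) :=
      Equiv.sum_comp (finCongr hn) (fun i => Fin.append x (c • x) i * σ (Fin.append x (c • x) i))
    rw [h3, Fin.sum_univ_add]
    simp only [Fin.append_left, Fin.append_right, Pi.smul_apply, smul_eq_mul, map_mul]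
    rw [← Finset.sum_add_distrib]
    apply Finset.sum_eq_zero
    intro i _
    linear_combination (x i * σ (x i)) * hc'
  have hU : Module.finrank F (Fin n → K) = k + 1 := by
    rw [Module.finrank_pi_fintype F]
    simp [h2]
    omega
  obtain ⟨e, f, h1, h2', h3⟩ := Helper15.hyp_family_of_singular k Q hQnd hfin j hj hU hsing
  obtain ⟨g, hg⟩ := Helper15.plus_of_family Q (by rw [hfin]; ring) e f h1 h2' h3
  apply Helper15.embed_isometry
    ((Units.coeHom (Matrix (Fin (k + 1)) (Fin (k + 1)) K)).comp
      (Subgroup.subtype (Cfsg.GU (k + 1) K q)))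
    (fun g g' hgg => Subtype.ext (Units.ext hgg)) g
  intro h v
  rw [hg, hg]
  apply hinj
  rw [hQ, hQ]
  have h5 := h.2 v v
  unfold Cfsg.hermForm at h5
  simp only [hσq]
  exact h5

end Cfsg.Agent.S2640
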