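import Cfsg.Statements.S2641
import Cfsg.Agent.Helper15.Realize
import Cfsg.Agent.Helper15.HermStd

set_option autoImplicit false
open Cfsg

namespace Cfsg.Agent.S2641

/-- For m odd, the unitary group GU_m(q) (over the field with q² elements) embeds in the orthogonal group O⁻_2m(q) of an elliptic form (Σ_(i<m−1) x_i y_i plus an anisotropic binary form) over the field with q elements (there is an injective homomorphism). -/
theorem result {K F : Type*} [Field K] [Fintype K] [Field F] [Fintype F] {q : ℕ} (hK : Fintype.card K = q ^ 2) (hF : Fintype.card F = q) (m : ℕ) (hm : Odd m) (a b : F) (hab : ∀ z₁ z₂ : F, z₁ ^ 2 + a * z₁ * z₂ + b * z₂ ^ 2 = 0 → z₁ = 0 ∧ z₂ = 0) : ∃ φ : ↥(Cfsg.GU m K q) →* ↥(Cfsg.isometryGroup F (Cfsg.quadFormMinus (m - 1) F a b)), Function.Injective φ := by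
  classical
  obtain ⟨n, hn⟩ := hm
  obtain rfl : m = n + n + 1 := by omega
  show ∃ φ : ↥(Cfsg.GU (n + n + 1) K q) →*
    ↥(Cfsg.isometryGroup F (Cfsg.quadFormMinus (n + n) F a b)), Function.Injective φ
  obtain ⟨ι₀⟩ := Helper15.exists_ringHom_of_card_sq (F := F) (K := K) (by rw [hK, hF])
  let _ : Algebra F K := ι₀.toAlgebra
  have hK' : Fintype.card K = Fintype.card F ^ 2 := by rw [hK, hF]
  have h2 : Module.finrank F K = 2 := Helper15.finrank_eq_two_of_card_sq hK'
  obtain ⟨Q, hQ, hQnd⟩ := Helper15.exists_hermQuad hK' (n + n + 1)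
  obtain ⟨Q₁, hQ₁, hQ₁nd⟩ := Helper15.exists_hermQuad hK' (n + n)
  obtain ⟨Q₂, hQ₂, hQ₂nd⟩ := Helper15.exists_hermQuad hK' 1
  obtain ⟨e₁, f₁, g1, g2, g3⟩ := Helper15.herm_hyp_family hK' n Q₁ hQ₁ hQ₁nd
  obtain ⟨σ, hσ⟩ : ∃ σ : K →ₐ[F] K, σ = FiniteField.frobeniusAlgHom F K := ⟨_, rfl⟩
  rw [← hσ] at hQ hQ₁ hQ₂
  have hσq : ∀ x, σ x = x ^ q := fun x => by rw [hσ, FiniteField.frobeniusAlgHom_apply, hF]
  have hinj : Function.Injective (algebraMap F K) := (algebraMap F K).injective
  have hfin : Module.finrank F (Fin (n + n + 1) → K) = 2 * (n + n) + 2 := by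
    rw [Module.finrank_pi_fintype F]
    simp [h2]
    ring
  have hani : ∀ v, Q₂ v = 0 → v = 0 := by
    intro v hv
    have h5 := hQ₂ v
    rw [hv, map_zero, Fin.sum_univ_one] at h5
    have h6 : v 0 = 0 := by
      rcases mul_eq_zero.1 h5.symm with h | h
      · exact h
      · exact (map_eq_zero σ).1 h
    funext i
    have hi : i = 0 := Subsingleton.elim _ _
    rw [hi, h6]
    rfl
  have hfin₂ : Module.finrank F (Fin 1 → K) = 2 := by
    rw [Module.finrank_pi_fintype F]
    simp [h2]
  obtain ⟨x, y, hx, hxy, hy⟩ := Helper15.aniso_pair Q₂ hQ₂nd hfin₂ hani a b hab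
  let j₁ : (Fin (n + n) → K) →ₗ[F] (Fin (n + n + 1) → K) :=
    { toFun := fun u => Fin.append u (0 : Fin 1 → K)
      map_add' := by
        intro u u'
        funext i
        show Fin.append (u + u') (0 : Fin 1 → K) i
          = Fin.append u (0 : Fin 1 → K) i + Fin.append u' (0 : Fin 1 → K) i
        induction i using Fin.addCases with
        | left i =>
          rw [Fin.append_left, Fin.append_left, Fin.append_left]
          rfl
        | right i =>
          rw [Fin.append_right, Fin.append_right, Fin.append_right]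
          simp
      map_smul' := by
        intro r u
        funext i
        show Fin.append (r • u) (0 : Fin 1 → K) i = r • Fin.append u (0 : Fin 1 → K) i
        induction i using Fin.addCases with
        | left i =>
          rw [Fin.append_left, Fin.append_left]
          rfl
        | right i =>
          rw [Fin.append_right, Fin.append_right]
          simp }
  let j₂ : (Fin 1 → K) →ₗ[F] (Fin (n + n + 1) → K) :=
    { toFun := fun x => Fin.append (0 : Fin (n + n) → K) x
      map_add' := by
        intro u u'
        funext i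
        show Fin.append (0 : Fin (n + n) → K) (u + u') i
          = Fin.append (0 : Fin (n + n) → K) u i + Fin.append (0 : Fin (n + n) → K) u' i
        induction i using Fin.addCases with
        | left i =>
          rw [Fin.append_left, Fin.append_left, Fin.append_left]
          simp
        | right i =>
          rw [Fin.append_right, Fin.append_right, Fin.append_right]
          rfl
      map_smul' := by
        intro r u
        funext i
        show Fin.append (0 : Fin (n + n) → K) (r • u) i
          = r • Fin.append (0 : Fin (n + n) → K) u i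
        induction i using Fin.addCases with
        | left i =>
          rw [Fin.append_left, Fin.append_left]
          simp
        | right i =>
          rw [Fin.append_right, Fin.append_right]
          rfl }
  have hsum : ∀ u x, Q (j₁ u + j₂ x) = Q₁ u + Q₂ x := by
    intro u x
    apply hinj
    have h5 : j₁ u + j₂ x = Fin.append u x := by
      funext i
      show Fin.append u (0 : Fin 1 → K) i + Fin.append (0 : Fin (n + n) → K) x i
        = Fin.append u x i
      induction i using Fin.addCases with
      | left i =>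
        rw [Fin.append_left, Fin.append_left, Fin.append_left]
        simp
      | right i =>
        rw [Fin.append_right, Fin.append_right, Fin.append_right]
        simp
    rw [h5, map_add, hQ, hQ₁, hQ₂, Fin.sum_univ_add]
    simp only [Fin.append_left, Fin.append_right]
  obtain ⟨o1, o2, o3, o4, o5⟩ := Helper15.orth_sum_polar Q Q₁ Q₂ j₁ j₂ hsum
  obtain ⟨g, hg⟩ := Helper15.minus_of_family Q hfin (fun i => j₁ (e₁ i)) (fun i => j₁ (f₁ i))
    (j₂ x) (j₂ y) a b (Helper15.aniso_disc a b hab)
    (fun i => ⟨by rw [o1]; exact (g1 i).1, by rw [o1]; exact (g1 i).2⟩)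
    (fun i j => by rw [o3]; exact g2 i j)
    (fun i j => ⟨by rw [o3]; exact (g3 i j).1, by rw [o3]; exact (g3 i j).2⟩)
    (fun i => ⟨o5 _ _, o5 _ _, o5 _ _, o5 _ _⟩)
    (by rw [o2]; exact hx) (by rw [o4]; exact hxy) (by rw [o2]; exact hy)
  apply Helper15.embed_isometry
    ((Units.coeHom (Matrix (Fin (n + n + 1)) (Fin (n + n + 1)) K)).comp
      (Subgroup.subtype (Cfsg.GU (n + n + 1) K q)))
    (fun g g' hgg => Subtype.ext (Units.ext hgg)) g
  intro h v
  rw [hg, hg]
  apply hinj
  rw [hQ, hQ]
  have h5 := h.2 v v
  unfold Cfsg.hermForm at h5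
  simp only [hσq]
  exact h5

end Cfsg.Agent.S2641
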