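import Cfsg.Statements.S2666
import Cfsg.Agent.Helper15.Shintani

set_option autoImplicit false
open Cfsg

namespace Cfsg.Agent.S2666

theorem result {X : Type*} [Group X] (σ : MulAut X) (e : ℕ) (he : 1 ≤ e)
    (hL : ∀ g : X, ∃ a : X, g = a * (σ a)⁻¹) (hLe : ∀ g : X, ∃ a : X, g = a * ((σ ^ e) a)⁻¹) :
    (∀ g ∈ (MulEquiv.toMonoidHom (σ ^ e)).eqLocus (MonoidHom.id X), ∀ a : X, g = a * (σ a)⁻¹ →
        ((σ ^ e) a)⁻¹ * a ∈ (MulEquiv.toMonoidHom σ).eqLocus (MonoidHom.id X) ∧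
          a⁻¹ * ((List.range e).map (fun i => (σ ^ i) g)).prod * a = ((σ ^ e) a)⁻¹ * a) ∧
    (∀ g ∈ (MulEquiv.toMonoidHom (σ ^ e)).eqLocus (MonoidHom.id X), ∀ g' ∈ (MulEquiv.toMonoidHom (σ ^ e)).eqLocus (MonoidHom.id X), ∀ a b : X,
        g = a * (σ a)⁻¹ → g' = b * (σ b)⁻¹ →
          ((∃ k ∈ (MulEquiv.toMonoidHom (σ ^ e)).eqLocus (MonoidHom.id X), g' = k * g * (σ k)⁻¹) ↔
            (∃ h ∈ (MulEquiv.toMonoidHom σ).eqLocus (MonoidHom.id X), ((σ ^ e) b)⁻¹ * b = h * (((σ ^ e) a)⁻¹ * a) * h⁻¹))) ∧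
    (∀ x ∈ (MulEquiv.toMonoidHom σ).eqLocus (MonoidHom.id X), ∃ g ∈ (MulEquiv.toMonoidHom (σ ^ e)).eqLocus (MonoidHom.id X), ∃ a : X,
        g = a * (σ a)⁻¹ ∧ ((σ ^ e) a)⁻¹ * a = x) := by
  simp only [Helper15.mem_eqLocus_id]
  refine ⟨?_, ?_, ?_⟩
  · intro g hg a ha
    subst ha
    refine ⟨Helper15.shin_x_fixed σ e a hg, ?_⟩
    rw [Helper15.shin_prod_range σ a e]
    simp [mul_assoc]
  · intro g hg g' hg' a b ha hb
    subst ha hb
    have hxa := Helper15.shin_x_fixed σ e a hg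
    have hxb := Helper15.shin_x_fixed σ e b hg'
    constructor
    · rintro ⟨k, hk, hkg⟩
      have hu : σ (b⁻¹ * (k * a)) = b⁻¹ * (k * a) := by
        simp only [map_mul, map_inv]
        have h1 : (σ b)⁻¹ = b⁻¹ * (b * (σ b)⁻¹) := by simp
        rw [h1, hkg]
        simp [mul_assoc]
      refine ⟨b⁻¹ * (k * a), hu, ?_⟩
      have hue := Helper15.shin_fixed_pow σ _ hu e
      simp only [map_mul, map_inv] at hue
      rw [hk] at hue
      have h2 := eq_mul_inv_of_mul_eq hue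
      rw [h2]
      simp [mul_assoc]
    · rintro ⟨h, hh, hx⟩
      have hhe := Helper15.shin_fixed_pow σ _ hh e
      refine ⟨b * h * a⁻¹, ?_, ?_⟩
      · simp only [map_mul, map_inv]
        rw [hhe]
        have h3 : (σ ^ e) b = b * (((σ ^ e) b)⁻¹ * b)⁻¹ := by simp
        rw [h3, hx]
        simp [mul_assoc]
      · simp only [map_mul, map_inv, hh]
        simp [mul_assoc]
  · intro x hx
    obtain ⟨c, hc⟩ := hLe x⁻¹
    have hxc : x = (σ ^ e) c * c⁻¹ := by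
      have : x = (x⁻¹)⁻¹ := by simp
      rw [this, hc]; simp
    refine ⟨c⁻¹ * (σ c⁻¹)⁻¹, ?_, c⁻¹, rfl, ?_⟩
    · rw [Helper15.shin_x_fixed_iff]
      have : ((σ ^ e) c⁻¹)⁻¹ * c⁻¹ = x := by rw [hxc]; simp
      rw [this]; exact hx
    · rw [hxc]; simp

end Cfsg.Agent.S2666
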