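import Cfsg.Statements.S2667
import Cfsg.Agent.Helper15.Shintani

set_option autoImplicit false
open Cfsg

namespace Cfsg.Agent.S2667

theorem result {X : Type*} [Group X] (σ : MulAut X) (e : ℕ) (he : 1 ≤ e)
    (g : X) (hg : g ∈ (MulEquiv.toMonoidHom (σ ^ e)).eqLocus (MonoidHom.id X)) (a : X) (ha : g = a * (σ a)⁻¹) (k : X) :
    (k ∈ (MulEquiv.toMonoidHom (σ ^ e)).eqLocus (MonoidHom.id X) ∧ k * g * (σ k)⁻¹ = g) ↔
      (a⁻¹ * k * a ∈ (MulEquiv.toMonoidHom σ).eqLocus (MonoidHom.id X) ∧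
        (a⁻¹ * k * a) * (((σ ^ e) a)⁻¹ * a) = (((σ ^ e) a)⁻¹ * a) * (a⁻¹ * k * a)) := by
  simp only [Helper15.mem_eqLocus_id] at hg ⊢
  subst ha
  have key1 : k * (a * (σ a)⁻¹) * (σ k)⁻¹ = a * (σ a)⁻¹ ↔ σ (a⁻¹ * k * a) = a⁻¹ * k * a := by
    simp only [map_mul, map_inv]
    constructor
    · intro h
      have : (σ a)⁻¹ * σ k * σ a = (σ a)⁻¹ * (k * (a * (σ a)⁻¹) * (σ k)⁻¹)⁻¹ * k * a := by
        simp [mul_assoc]
      rw [this, h]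
      simp [mul_assoc]
    · intro h
      have : k * (a * (σ a)⁻¹) * (σ k)⁻¹ = a * (a⁻¹ * k * a) * ((σ a)⁻¹ * σ k * σ a)⁻¹ * (σ a)⁻¹ := by
        simp [mul_assoc]
      rw [this, h]
      simp [mul_assoc]
  rw [key1]
  constructor
  · rintro ⟨h1, h2⟩
    refine ⟨h2, ?_⟩
    have h3 := Helper15.shin_fixed_pow σ _ h2 e
    simp only [map_mul, map_inv] at h3
    rw [h1] at h3
    have : a⁻¹ * k * a * (((σ ^ e) a)⁻¹ * a) = ((σ ^ e) a)⁻¹ * (((σ ^ e) a) * (a⁻¹ * k * a)) * (((σ ^ e) a)⁻¹ * a) := by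
      simp [mul_assoc]
    rw [this]
    have h4 : (σ ^ e) a * (a⁻¹ * k * a) = k * (σ ^ e) a := by
      have : (σ ^ e) a * (a⁻¹ * k * a) = (σ ^ e) a * (((σ ^ e) a)⁻¹ * k * (σ ^ e) a) := by rw [h3]
      rw [this]; simp [mul_assoc]
    rw [h4]
    simp [mul_assoc]
  · rintro ⟨h2, h5⟩
    refine ⟨?_, h2⟩
    have h3 := Helper15.shin_fixed_pow σ _ h2 e
    simp only [map_mul, map_inv] at h3
    have h6 : (σ ^ e) k = (σ ^ e) a * (((σ ^ e) a)⁻¹ * (σ ^ e) k * (σ ^ e) a) * ((σ ^ e) a)⁻¹ := by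
      simp [mul_assoc]
    rw [h6, h3]
    have h7 : (σ ^ e) a * (a⁻¹ * k * a) * ((σ ^ e) a)⁻¹ = (σ ^ e) a * ((a⁻¹ * k * a) * (((σ ^ e) a)⁻¹ * a)) * a⁻¹ := by
      simp [mul_assoc]
    rw [h7, h5]
    simp [mul_assoc]

end Cfsg.Agent.S2667
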