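import Cfsg.Statements.S2668
import Cfsg.Agent.Helper15.Shintani

set_option autoImplicit false
open Cfsg

namespace Cfsg.Agent.S2668

theorem result {X : Type*} [Group X] (σ : MulAut X) (e d : ℕ) (he : 1 ≤ e) (hd : 1 ≤ d)
    (g : X) (hg : g ∈ (MulEquiv.toMonoidHom (σ ^ e)).eqLocus (MonoidHom.id X)) (a : X) (ha : g = a * (σ a)⁻¹) :
    ((List.range d).map (fun i => (σ ^ i) g)).prod = a * ((σ ^ d) a)⁻¹ ∧
      ((List.range d).map (fun i => (σ ^ i) g)).prod ∈ (MulEquiv.toMonoidHom ((σ ^ d) ^ e)).eqLocus (MonoidHom.id X) ∧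
      (((σ ^ d) ^ e) a)⁻¹ * a = (((σ ^ e) a)⁻¹ * a) ^ d := by
  simp only [Helper15.mem_eqLocus_id] at hg ⊢
  subst ha
  have hx := Helper15.shin_x_fixed σ e a hg
  have hxe : ∀ n : ℕ, (σ ^ n) (((σ ^ e) a)⁻¹ * a) = ((σ ^ e) a)⁻¹ * a :=
    fun n => Helper15.shin_fixed_pow σ _ hx n
  have hpow : ∀ k : ℕ, ((σ ^ e) ^ k) a = a * ((((σ ^ e) a)⁻¹ * a) ^ k)⁻¹ := by
    intro k
    induction k with
    | zero => simp
    | succ k ih =>
      rw [pow_succ', MulAut.mul_apply, ih, map_mul, map_inv, map_pow, hxe e, pow_succ, mul_inv_rev]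
      simp [mul_assoc]
  have hde : (σ ^ d) ^ e = (σ ^ e) ^ d := by
    rw [← pow_mul, ← pow_mul, mul_comm]
  have h3 : (((σ ^ d) ^ e) a)⁻¹ * a = (((σ ^ e) a)⁻¹ * a) ^ d := by
    rw [hde, hpow d]
    simp
  have h1 := Helper15.shin_prod_range σ a d
  refine ⟨h1, ?_, h3⟩
  rw [h1, map_mul, map_inv]
  have h4 : ((σ ^ d) ^ e) ((σ ^ d) a) = (σ ^ d) (((σ ^ d) ^ e) a) := by
    rw [← MulAut.mul_apply, ← MulAut.mul_apply, ← pow_succ, ← pow_succ']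
  rw [h4]
  have h5 : ((σ ^ d) ^ e) a = a * ((((σ ^ e) a)⁻¹ * a) ^ d)⁻¹ := by
    rw [hde, hpow d]
  rw [h5, map_mul, map_inv, map_pow, hxe d]
  simp [mul_assoc]

end Cfsg.Agent.S2668
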