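import Cfsg.Statements.S2669
import Cfsg.Agent.Helper15.Shintani

set_option autoImplicit false
open Cfsg

namespace Cfsg.Agent.S2669

theorem stable_pow {X : Type*} [Group X] (σ : MulAut X) (Y : Subgroup X)
    (hY : ∀ y : X, y ∈ Y ↔ σ y ∈ Y) (n : ℕ) (y : X) (hy : y ∈ Y) : (σ ^ n) y ∈ Y := by
  induction n with
  | zero => simpa using hy
  | succ n ih => rw [pow_succ', MulAut.mul_apply]; exact (hY _).1 ih

theorem count_aux {X : Type*} [Group X] (G H Y : Subgroup X) (a : X)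
    (A : G → Prop) (B : H → Prop)
    (hA1 : ∀ (k : G) (h : H), (k : X)⁻¹ * a * h ∈ Y → A k)
    (hA2 : ∀ k : G, A k → ∃ h : H, (k : X)⁻¹ * a * h ∈ Y)
    (hB1 : ∀ (k : G) (h : H), (k : X)⁻¹ * a * h ∈ Y → B h)
    (hB2 : ∀ h : H, B h → ∃ k : G, (k : X)⁻¹ * a * h ∈ Y) :
    Nat.card {k : G // A k} * Nat.card ↥(Y ⊓ H) = Nat.card {h : H // B h} * Nat.card ↥(Y ⊓ G) := by
  classical
  have e1 : Nat.card ({k : G // A k} × ↥(Y ⊓ H)) =
      Nat.card {p : G × H // (p.1 : X)⁻¹ * a * p.2 ∈ Y} := by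
    choose h0 hh0 using hA2
    refine Nat.card_congr (Equiv.ofBijective
      (fun q : ({k : G // A k} × ↥(Y ⊓ H)) =>
        (⟨(q.1.1, h0 q.1.1 q.1.2 * ⟨q.2.1, q.2.2.2⟩), by
          have h1 := hh0 q.1.1 q.1.2
          have h2 : (q.2 : X) ∈ Y := q.2.2.1
          have h3 := Y.mul_mem h1 h2
          simpa [mul_assoc] using h3⟩ : {p : G × H // (p.1 : X)⁻¹ * a * p.2 ∈ Y})) ⟨?_, ?_⟩)
    · rintro ⟨⟨k, hk⟩, ⟨z, hz⟩⟩ ⟨⟨k', hk'⟩, ⟨z', hz'⟩⟩ hq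
      have hq1 : k = k' := congrArg (fun p : {p : G × H // (p.1 : X)⁻¹ * a * p.2 ∈ Y} => p.1.1) hq
      subst hq1
      have hq2 : ((h0 k hk : H) : X) * z = ((h0 k hk' : H) : X) * z' :=
        congrArg (fun p : {p : G × H // (p.1 : X)⁻¹ * a * p.2 ∈ Y} => (p.1.2 : X)) hq
      have hq3 : z = z' := mul_left_cancel hq2
      subst hq3
      rfl
    · rintro ⟨⟨k, h⟩, hp⟩
      have hk : A k := hA1 k h hp
      have hz : ((h0 k hk : X))⁻¹ * (h : X) ∈ Y ⊓ H := by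
        refine ⟨?_, H.mul_mem (H.inv_mem (h0 k hk).2) h.2⟩
        have h1 := hh0 k hk
        have h3 := Y.mul_mem (Y.inv_mem h1) hp
        simpa [mul_assoc] using h3
      refine ⟨(⟨k, hk⟩, ⟨_, hz⟩), ?_⟩
      apply Subtype.ext
      apply Prod.ext
      · rfl
      · apply Subtype.ext
        show ((h0 k hk : H) : X) * (((h0 k hk : X))⁻¹ * (h : X)) = h
        simp
  have e2 : Nat.card ({h : H // B h} × ↥(Y ⊓ G)) =
      Nat.card {p : G × H // (p.1 : X)⁻¹ * a * p.2 ∈ Y} := by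
    choose k0 hk0 using hB2
    refine Nat.card_congr (Equiv.ofBijective
      (fun q : ({h : H // B h} × ↥(Y ⊓ G)) =>
        (⟨(k0 q.1.1 q.1.2 * ⟨q.2.1, q.2.2.2⟩, q.1.1), by
          have h1 := hk0 q.1.1 q.1.2
          have h2 : (q.2 : X) ∈ Y := q.2.2.1
          have h3 := Y.mul_mem (Y.inv_mem h2) h1
          simpa [mul_assoc] using h3⟩ : {p : G × H // (p.1 : X)⁻¹ * a * p.2 ∈ Y})) ⟨?_, ?_⟩)
    · rintro ⟨⟨k, hk⟩, ⟨z, hz⟩⟩ ⟨⟨k', hk'⟩, ⟨z', hz'⟩⟩ hq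
      have hq1 : k = k' := congrArg (fun p : {p : G × H // (p.1 : X)⁻¹ * a * p.2 ∈ Y} => p.1.2) hq
      subst hq1
      have hq2 : ((k0 k hk : G) : X) * z = ((k0 k hk' : G) : X) * z' :=
        congrArg (fun p : {p : G × H // (p.1 : X)⁻¹ * a * p.2 ∈ Y} => (p.1.1 : X)) hq
      have hq3 : z = z' := mul_left_cancel hq2
      subst hq3
      rfl
    · rintro ⟨⟨k, h⟩, hp⟩
      have hh : B h := hB1 k h hp
      have hz : ((k0 h hh : X))⁻¹ * (k : X) ∈ Y ⊓ G := by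
        refine ⟨?_, G.mul_mem (G.inv_mem (k0 h hh).2) k.2⟩
        have h1 := hk0 h hh
        have h3 := Y.mul_mem h1 (Y.inv_mem hp)
        simpa [mul_assoc] using h3
      refine ⟨(⟨h, hh⟩, ⟨_, hz⟩), ?_⟩
      apply Subtype.ext
      apply Prod.ext
      · apply Subtype.ext
        show ((k0 h hh : G) : X) * (((k0 h hh : X))⁻¹ * (k : X)) = k
        simp
      · rfl
  rw [← Nat.card_prod, ← Nat.card_prod, e1, e2]

theorem result {X : Type*} [Group X] (σ : MulAut X) (e : ℕ) (he : 1 ≤ e)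
    [Finite ↥((MulEquiv.toMonoidHom (σ ^ e)).eqLocus (MonoidHom.id X))]
    (Y : Subgroup X) (hY : ∀ y : X, y ∈ Y ↔ σ y ∈ Y)
    (hYL : ∀ y ∈ Y, ∃ a ∈ Y, y = a * (σ a)⁻¹) (hYLe : ∀ y ∈ Y, ∃ a ∈ Y, y = a * ((σ ^ e) a)⁻¹)
    (g : X) (hg : g ∈ (MulEquiv.toMonoidHom (σ ^ e)).eqLocus (MonoidHom.id X)) (a : X) (ha : g = a * (σ a)⁻¹) :
    Nat.card {k : ↥((MulEquiv.toMonoidHom (σ ^ e)).eqLocus (MonoidHom.id X)) // (k : X)⁻¹ * g * σ k ∈ Y} *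
        Nat.card ↥(Y ⊓ (MulEquiv.toMonoidHom σ).eqLocus (MonoidHom.id X)) =
      Nat.card {h : ↥((MulEquiv.toMonoidHom σ).eqLocus (MonoidHom.id X)) // (h : X)⁻¹ * (((σ ^ e) a)⁻¹ * a) * h ∈ Y} *
        Nat.card ↥(Y ⊓ (MulEquiv.toMonoidHom (σ ^ e)).eqLocus (MonoidHom.id X)) := by
  subst ha
  apply count_aux _ _ Y a
  · rintro ⟨k, hk⟩ ⟨h, hh⟩ hp
    rw [Helper15.mem_eqLocus_id] at hk hh
    simp only at hp ⊢
    have h1 : σ (k⁻¹ * a * h) ∈ Y := (hY _).1 hp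
    have h2 := Y.mul_mem hp (Y.inv_mem h1)
    simp only [map_mul, map_inv, hh] at h2
    simpa [mul_assoc] using h2
  · rintro ⟨k, hk⟩ hA
    simp only at hA
    obtain ⟨y, hy, hyy⟩ := hYL _ hA
    refine ⟨⟨a⁻¹ * k * y, ?_⟩, ?_⟩
    · rw [Helper15.mem_eqLocus_id]
      simp only [map_mul, map_inv]
      have h1 : σ y = (k⁻¹ * (a * (σ a)⁻¹) * σ k)⁻¹ * y := by rw [hyy]; simp
      rw [h1]
      simp [mul_assoc]
    · simpa [mul_assoc] using hy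
  · rintro ⟨k, hk⟩ ⟨h, hh⟩ hp
    rw [Helper15.mem_eqLocus_id] at hk hh
    simp only at hp ⊢
    have h1 : (σ ^ e) (k⁻¹ * a * h) ∈ Y := stable_pow σ Y hY e _ hp
    have h2 := Y.mul_mem (Y.inv_mem h1) hp
    simp only [map_mul, map_inv, hk, Helper15.shin_fixed_pow σ h hh e] at h2
    simpa [mul_assoc] using h2
  · rintro ⟨h, hh⟩ hB
    simp only at hB
    obtain ⟨w, hw, hww⟩ := hYLe _ (Y.inv_mem hB)
    rw [Helper15.mem_eqLocus_id] at hh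
    refine ⟨⟨a * h * w, ?_⟩, ?_⟩
    · rw [Helper15.mem_eqLocus_id]
      simp only [map_mul, Helper15.shin_fixed_pow σ h hh e]
      have h1 : (σ ^ e) w = (h⁻¹ * (((σ ^ e) a)⁻¹ * a) * h) * w := by
        have : (σ ^ e) w = ((h⁻¹ * (((σ ^ e) a)⁻¹ * a) * h)⁻¹)⁻¹ * w := by rw [hww]; simp
        rw [this, inv_inv]
      rw [h1]
      simp [mul_assoc]
    · have := Y.inv_mem hw
      simpa [mul_assoc] using this

end Cfsg.Agent.S2669
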