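import Cfsg.Statements.S2678
import Cfsg.Agent.Helper15.Realize
import Cfsg.Agent.Helper15.SympBasis
import Cfsg.Agent.Helper15.FieldEmb

set_option autoImplicit false
open Cfsg

namespace Cfsg.Agent.S2678

/-- Field-extension embedding of symplectic groups: for a field K with q² elements and a field F with q elements there is an injective homomorphism Sp_2a(K) → Sp_4a(F). -/
theorem result {K F : Type*} [Field K] [Fintype K] [Field F] [Fintype F] {q : ℕ} (hK : Fintype.card K = q ^ 2) (hF : Fintype.card F = q) (a : ℕ) : ∃ φ : ↥(Matrix.symplecticGroup (Fin a) K) →* ↥(Matrix.symplecticGroup (Fin (2 * a)) F), Function.Injective φ := by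
  classical
  obtain ⟨ι₀⟩ := Helper15.exists_ringHom_of_card_sq (F := F) (K := K) (by rw [hK, hF])
  let _ : Algebra F K := ι₀.toAlgebra
  have h2 : Module.finrank F K = 2 := Helper15.finrank_eq_two_of_card_sq (by rw [hK, hF])
  obtain ⟨lam, hlam⟩ : ∃ lam : K →ₗ[F] F, lam ≠ 0 := by
    by_contra hcon
    have h1 : (1 : K) = 0 := (Module.forall_dual_apply_eq_zero_iff F (1 : K)).1 (fun φ => by
      by_contra h3
      apply hcon
      refine ⟨φ, fun h4 => h3 ?_⟩
      rw [h4]
      rfl)
    exact one_ne_zero h1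
  let ω : LinearMap.BilinForm F (Fin a ⊕ Fin a → K) :=
    LinearMap.mk₂ F (fun v w => lam (v ⬝ᵥ (Matrix.J (Fin a) K).mulVec w))
      (fun v v' w => by rw [add_dotProduct, map_add])
      (fun c v w => by rw [smul_dotProduct, map_smul])
      (fun v w w' => by rw [Matrix.mulVec_add, dotProduct_add, map_add])
      (fun c v w => by rw [Matrix.mulVec_smul, dotProduct_smul, map_smul])
  have hω : ∀ v w, ω v w = lam (v ⬝ᵥ (Matrix.J (Fin a) K).mulVec w) := fun v w => rfl
  have halt : ∀ v, ω v v = 0 := by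
    intro v
    rw [hω]
    have h1 : v ⬝ᵥ (Matrix.J (Fin a) K).mulVec v = 0 := by
      simp only [Matrix.J, dotProduct, Matrix.mulVec, Fintype.sum_sum_type,
        Matrix.fromBlocks_apply₁₁, Matrix.fromBlocks_apply₁₂, Matrix.fromBlocks_apply₂₁,
        Matrix.fromBlocks_apply₂₂, Matrix.zero_apply, Matrix.neg_apply, Matrix.one_apply,
        zero_mul, Finset.sum_const_zero, zero_add, add_zero, neg_mul, ite_mul, one_mul,
        Finset.sum_neg_distrib, Finset.sum_ite_eq, Finset.mem_univ, if_true]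
      simp only [mul_neg, Finset.sum_neg_distrib]
      rw [neg_add_eq_zero]
      exact Finset.sum_congr rfl fun i _ => mul_comm _ _
    rw [h1, map_zero]
  have hnd : ∀ v, (∀ w, ω v w = 0) → v = 0 := by
    intro v hv
    have h1 := Helper15.trace_form_sep lam hlam
      (fun v w : Fin a ⊕ Fin a → K => v ⬝ᵥ (Matrix.J (Fin a) K).mulVec w) (by
        intro v w d hne
        refine ⟨(d / (v ⬝ᵥ (Matrix.J (Fin a) K).mulVec w)) • w, ?_⟩
        show v ⬝ᵥ (Matrix.J (Fin a) K).mulVec ((d / (v ⬝ᵥ (Matrix.J (Fin a) K).mulVec w)) • w)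
          = d
        rw [Matrix.mulVec_smul, dotProduct_smul, smul_eq_mul, div_mul_cancel₀ _ hne]) v hv
    have h3 : Matrix.vecMul v (Matrix.J (Fin a) K) = 0 := by
      apply dotProduct_eq_zero
      intro w
      rw [← Matrix.dotProduct_mulVec]
      exact h1 w
    exact Matrix.eq_zero_of_vecMul_eq_zero (Matrix.isUnit_det_J _ _).ne_zero h3
  have hfin : Module.finrank F (Fin a ⊕ Fin a → K) = 2 * (2 * a) := by
    rw [Module.finrank_pi_fintype F]
    simp [h2]
    ring
  obtain ⟨e, he⟩ := Helper15.exists_symp_equiv ω halt hnd hfin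
  apply Helper15.embed_symplectic (Submonoid.subtype (Matrix.symplecticGroup (Fin a) K))
    Subtype.val_injective e
  intro h v w
  rw [← he, ← he, hω, hω]
  congr 1
  have hA := SymplecticGroup.mem_iff'.1 h.2
  show ((h : Matrix _ _ K).mulVec v) ⬝ᵥ (Matrix.J (Fin a) K).mulVec ((h : Matrix _ _ K).mulVec w)
    = _
  have h1 : v ⬝ᵥ ((h : Matrix _ _ K).transpose * Matrix.J (Fin a) K
        * (h : Matrix _ _ K)).mulVec w
      = ((h : Matrix _ _ K).mulVec v) ⬝ᵥ (Matrix.J (Fin a) K).mulVec
        ((h : Matrix _ _ K).mulVec w) := by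
    rw [← Matrix.mulVec_mulVec, ← Matrix.mulVec_mulVec, Matrix.dotProduct_mulVec,
      Matrix.vecMul_transpose]
  rw [← h1, hA]

end Cfsg.Agent.S2678
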