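import Cfsg.Statements.S2679
import Cfsg.Agent.Helper15.Realize
import Cfsg.Agent.Helper15.QuadExt

set_option autoImplicit false
open Cfsg

namespace Cfsg.Agent.S2679

/-- An elliptic orthogonal group embeds in the hyperbolic orthogonal group of the same dimension over the quadratic extension: for a field F with q elements and a field K with q² elements there is an injective homomorphism from O⁻_2m(F) (isometries of Σ_(j<m−1) x_j y_j + z₁² + a z₁z₂ + c z₂², binary part anisotropic) to O⁺_2m(K) (isometries of Σ_(j<m) x_j y_j over K). -/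
theorem result {F K : Type*} [Field F] [Fintype F] [Field K] [Fintype K] {q : ℕ} (hF : Fintype.card F = q) (hK : Fintype.card K = q ^ 2) {m : ℕ} (hm : 1 ≤ m) (a c : F) (hac : ∀ z₁ z₂ : F, z₁ ^ 2 + a * z₁ * z₂ + c * z₂ ^ 2 = 0 → z₁ = 0 ∧ z₂ = 0) : ∃ φ : ↥(Cfsg.isometryGroup F (Cfsg.quadFormMinus (m - 1) F a c)) →* ↥(Cfsg.isometryGroup K (Cfsg.quadFormPlus m K)), Function.Injective φ := by
  classical
  obtain ⟨k, rfl⟩ : ∃ k, m = k + 1 := ⟨m - 1, by omega⟩
  show ∃ φ : ↥(Cfsg.isometryGroup F (Cfsg.quadFormMinus k F a c)) →*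
    ↥(Cfsg.isometryGroup K (Cfsg.quadFormPlus (k + 1) K)), Function.Injective φ
  obtain ⟨ι₀⟩ := Helper15.exists_ringHom_of_card_sq (F := F) (K := K) (by rw [hK, hF])
  let _ : Algebra F K := ι₀.toAlgebra
  have hK' : Fintype.card K = Fintype.card F ^ 2 := by rw [hK, hF]
  obtain ⟨θ, hθ⟩ := Helper15.exists_root_in_quadratic_ext hK' a c
  obtain ⟨QK, hQK⟩ := Helper15.exists_quadFormMinus K k (algebraMap F K a) (algebraMap F K c)
  have hdiscF := Helper15.aniso_disc a c hac
  have hnd : (QuadraticMap.polarBilin QK).Nondegenerate := by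
    apply Helper15.nondeg_of_polar_matrix QK (Matrix.fromBlocks (Matrix.fromBlocks 0 1 1 0) 0 0
      !![2, algebraMap F K a; algebraMap F K a, 2 * algebraMap F K c])
    · intro u v
      have h5 : (⇑QK : ((Fin k ⊕ Fin k) ⊕ Fin 2 → K) → K)
          = Cfsg.quadFormMinus k K (algebraMap F K a) (algebraMap F K c) := funext hQK
      rw [h5, Helper15.polar_quadFormMinus]
    · rw [Matrix.det_fromBlocks_zero₁₂, Helper15.det_swapBlocks, Matrix.det_fin_two_of]
      refine mul_ne_zero (pow_ne_zero _ (neg_ne_zero.2 one_ne_zero)) ?_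
      intro h0
      apply hdiscF
      apply (algebraMap F K).injective
      rw [map_zero, ← h0]
      simp only [map_sub, map_mul, map_ofNat]
  have hfin : Module.finrank K ((Fin k ⊕ Fin k) ⊕ Fin 2 → K) = 2 * k + 2 := by
    simp
    ring
  let j : ((Fin k → K) × K) →ₗ[K] ((Fin k ⊕ Fin k) ⊕ Fin 2 → K) :=
    { toFun := fun p => Sum.elim (Sum.elim p.1 0) ![θ * p.2, p.2]
      map_add' := by
        intro p p'
        funext i
        rcases i with (i | i) | i
        · simp
        · simp
        · fin_cases i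
          · simp [mul_add]
          · simp
      map_smul' := by
        intro r p
        funext i
        rcases i with (i | i) | i
        · simp
        · simp
        · fin_cases i
          · simp [mul_left_comm]
          · simp }
  have hjapp : ∀ p, j p = Sum.elim (Sum.elim p.1 0) ![θ * p.2, p.2] := fun p => rfl
  have hj : Function.Injective j := by
    intro p p' hpp
    apply Prod.ext
    · funext i
      have h5 := congrFun hpp (Sum.inl (Sum.inl i))
      rw [hjapp, hjapp] at h5
      exact h5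
    · have h5 := congrFun hpp (Sum.inr 1)
      rw [hjapp, hjapp] at h5
      exact h5
  have hsing : ∀ p, QK (j p) = 0 := by
    intro p
    rw [hQK, hjapp]
    unfold Cfsg.quadFormMinus
    simp only [Sum.elim_inl, Sum.elim_inr, Pi.zero_apply, mul_zero, Finset.sum_const_zero,
      zero_add, Matrix.cons_val_zero, Matrix.cons_val_one]
    linear_combination (p.2 ^ 2) * hθ
  have hU : Module.finrank K ((Fin k → K) × K) = k + 1 := by simp
  obtain ⟨e, f, h1, h2, h3⟩ := Helper15.hyp_family_of_singular k QK hnd hfin j hj hU hsing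
  obtain ⟨g, hg⟩ := Helper15.plus_of_family QK (by rw [hfin]; ring) e f h1 h2 h3
  obtain ⟨ρ, hρ⟩ : ∃ ρ : ↥(Cfsg.isometryGroup F (Cfsg.quadFormMinus k F a c)) →*
      Matrix ((Fin k ⊕ Fin k) ⊕ Fin 2) ((Fin k ⊕ Fin k) ⊕ Fin 2) K,
      ∀ h, ρ h = ((h : Matrix.GeneralLinearGroup ((Fin k ⊕ Fin k) ⊕ Fin 2) F) :
        Matrix ((Fin k ⊕ Fin k) ⊕ Fin 2) ((Fin k ⊕ Fin k) ⊕ Fin 2) F).map (algebraMap F K) :=
    ⟨((algebraMap F K).mapMatrix.toMonoidHom).comp ((Units.coeHom _).comp (Subgroup.subtype _)),
      fun h => rfl⟩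
  apply Helper15.embed_isometry ρ ?_ g
  · intro h v
    rw [hg, hg]
    have key := Helper15.quad_eq_of_rational (algebraMap F K)
      (QK.comp (Matrix.toLin' (ρ h))) QK ?_ v
    · exact key
    · intro u
      rw [QuadraticMap.comp_apply, Matrix.toLin'_apply, hQK, hQK]
      have h5 : (ρ h).mulVec (⇑(algebraMap F K) ∘ u) = ⇑(algebraMap F K) ∘
          (((h : Matrix.GeneralLinearGroup ((Fin k ⊕ Fin k) ⊕ Fin 2) F) :
            Matrix ((Fin k ⊕ Fin k) ⊕ Fin 2) ((Fin k ⊕ Fin k) ⊕ Fin 2) F).mulVec u) := by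
        funext i
        rw [hρ]
        exact (RingHom.map_mulVec (algebraMap F K) _ u i).symm
      have h6 : ∀ u : (Fin k ⊕ Fin k) ⊕ Fin 2 → F,
          Cfsg.quadFormMinus k K (algebraMap F K a) (algebraMap F K c) (⇑(algebraMap F K) ∘ u)
            = algebraMap F K (Cfsg.quadFormMinus k F a c u) := by
        intro u
        unfold Cfsg.quadFormMinus
        simp [map_sum]
      rw [h5, h6, h6]
      congr 1
      exact h.2 u u
  · intro h h' hh
    apply Subtype.ext
    apply Units.ext
    rw [hρ, hρ] at hh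
    exact Matrix.map_injective (algebraMap F K).injective hh

end Cfsg.Agent.S2679
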