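import Cfsg.Statements.S2722
-- import your own Cfsg.Agent.* helpers here
import Cfsg.Agent.Helper5.PgoKlein
import Cfsg.Agent.Helper5.PgoDelta
import Cfsg.Agent.Helper5.PlusDiag
import Cfsg.Agent.S0287

set_option autoImplicit false
open Cfsg

namespace Cfsg.Agent.S2722

/-- Let T = PΩ⁺_{2m}(F) with m ≥ 4 and |F| = q odd. Inside Aut(T), the image G̃ of the conformal orthogonal group of the form modulo the image of the special orthogonal group is elementary abelian of order 4. -/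
theorem result {F : Type*} [Field F] [Fintype F] (hodd : Odd (Fintype.card F)) {m : ℕ} (hm : 4 ≤ m) :
    (∃ φ : ↥(Cfsg.pgoAut F (Cfsg.quadFormPlus m F)) →* Multiplicative (ZMod 2 × ZMod 2), Function.Surjective φ ∧ φ.ker = (Cfsg.psoAut F (Cfsg.quadFormPlus m F)).subgroupOf (Cfsg.pgoAut F (Cfsg.quadFormPlus m F))) := by
  have h2 : (2 : F) ≠ 0 := Cfsg.Agent.S0286.two_ne_zero_of_odd F hodd
  obtain ⟨𝒬, h𝒬, hnd⟩ := Cfsg.Agent.S0287.plus_model F m
  have hQeq : Cfsg.quadFormPlus m F = ⇑𝒬 := funext (fun v => (h𝒬 v).symm)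
  rw [hQeq]
  have h' : Fintype.card F ≠ 2 ∨ Fintype.card (Fin m ⊕ Fin m) ≠ 4 :=
    Or.inr (by rw [Fintype.card_sum, Fintype.card_fin]; omega)
  have hH : ∀ i j : Fin m, i ≠ j → Cfsg.Agent.Helper5.HypPairs 𝒬 (Pi.single (Sum.inl i) 1)
      (Pi.single (Sum.inr i) 1) (Pi.single (Sum.inl j) 1) (Pi.single (Sum.inr j) 1) := by
    intro i j hij
    obtain ⟨qa, qb, pa, pb⟩ := Cfsg.Agent.Helper5.plus_pair 𝒬 h𝒬 i
    obtain ⟨qc, qd, pc, pd⟩ := Cfsg.Agent.Helper5.plus_pair 𝒬 h𝒬 j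
    exact Cfsg.Agent.Helper5.hyp_of_single 𝒬 _ _ _ _ (by simp [hij]) (by simp) (by simp)
      (by simp [hij]) qa qb qc qd pa pb pc
  have hperf := Cfsg.Agent.Helper5.omega_perfect_top 𝒬 hnd h' _ _ _ _ _ _
    (hH ⟨0, by omega⟩ ⟨1, by omega⟩ (by simp [Fin.ext_iff]))
    (hH ⟨0, by omega⟩ ⟨2, by omega⟩ (by simp [Fin.ext_iff]))
    (hH ⟨1, by omega⟩ ⟨2, by omega⟩ (by simp [Fin.ext_iff]))
  have hκ : Fintype.card (Fin m ⊕ Fin m) = 2 * m := by
    rw [Fintype.card_sum, Fintype.card_fin]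
    omega
  have hchar : ringChar F ≠ 2 := by
    intro h
    apply h2
    have h3 := CharP.cast_eq_zero F (ringChar F)
    rw [h] at h3
    exact_mod_cast h3
  obtain ⟨ν, hν⟩ := FiniteField.exists_nonsquare hchar
  have hν0 : ν ≠ 0 := by
    rintro rfl
    exact hν IsSquare.zero
  obtain ⟨δ, hδ⟩ := Cfsg.Agent.Helper5.plus_delta (F := F) m ν hν0
  exact Cfsg.Agent.Helper5.pgo_klein h2 𝒬 hnd m hκ
    (Sum.inl ⟨0, by omega⟩ : Fin m ⊕ Fin m) (Sum.inr ⟨0, by omega⟩) (by simp) hperf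
    (fun z hz hpol => Cfsg.Agent.Helper5.gl_centralizer_scalar 𝒬 hnd h'
      (Sum.inl : Fin m → Fin m ⊕ Fin m) Sum.inr hH ⟨0, by omega⟩ ⟨1, by omega⟩
      (by simp [Fin.ext_iff]) (fun k => Or.inl (by
        rcases k with i | i
        · exact ⟨i, Or.inl rfl⟩
        · exact ⟨i, Or.inr rfl⟩)) z hz hpol)
    ⟨δ, ν, hν, fun v => by rw [h𝒬, h𝒬]; exact hδ v⟩

end Cfsg.Agent.S2722
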