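import Cfsg.Statements.S2723
-- import your own Cfsg.Agent.* helpers here
import Cfsg.Agent.Helper5.PsoIndex
import Cfsg.Agent.Helper5.PlusDiag
import Cfsg.Agent.S0287
import Cfsg.Agent.S0790

set_option autoImplicit false
open Cfsg

namespace Cfsg.Agent.S2723

/-- Let T = PΩ⁺_{2m}(F) with m ≥ 4 and |F| = q odd. The image of the special orthogonal group in Aut(T) contains the inner automorphism group T with index 1 (they coincide) when m is odd and q ≡ 3 (mod 4), and with index 2 otherwise (the index is 2 exactly when the discriminant of the form is a square). -/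
theorem result {F : Type*} [Field F] [Fintype F] (hodd : Odd (Fintype.card F)) {m : ℕ} (hm : 4 ≤ m) :
    ((Odd m ∧ Fintype.card F % 4 = 3) → (Cfsg.Inn (Cfsg.POmega F (Cfsg.quadFormPlus m F))).relIndex (Cfsg.psoAut F (Cfsg.quadFormPlus m F)) = 1) ∧ (¬ (Odd m ∧ Fintype.card F % 4 = 3) → (Cfsg.Inn (Cfsg.POmega F (Cfsg.quadFormPlus m F))).relIndex (Cfsg.psoAut F (Cfsg.quadFormPlus m F)) = 2) := by
  have h2 : (2 : F) ≠ 0 := Cfsg.Agent.S0286.two_ne_zero_of_odd F hodd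
  obtain ⟨𝒬, h𝒬, hnd⟩ := Cfsg.Agent.S0287.plus_model F m
  have hQeq : Cfsg.quadFormPlus m F = ⇑𝒬 := funext (fun v => (h𝒬 v).symm)
  have hneg := Cfsg.Agent.S0790.result (F := F) rfl hodd m (by omega)
  rw [hQeq] at hneg ⊢
  have h' : Fintype.card F ≠ 2 ∨ Fintype.card (Fin m ⊕ Fin m) ≠ 4 :=
    Or.inr (by rw [Fintype.card_sum, Fintype.card_fin]; omega)
  have hH : ∀ i j : Fin m, i ≠ j → Cfsg.Agent.Helper5.HypPairs 𝒬 (Pi.single (Sum.inl i) 1)
      (Pi.single (Sum.inr i) 1) (Pi.single (Sum.inl j) 1) (Pi.single (Sum.inr j) 1) := by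
    intro i j hij
    obtain ⟨qa, qb, pa, pb⟩ := Cfsg.Agent.Helper5.plus_pair 𝒬 h𝒬 i
    obtain ⟨qc, qd, pc, pd⟩ := Cfsg.Agent.Helper5.plus_pair 𝒬 h𝒬 j
    exact Cfsg.Agent.Helper5.hyp_of_single 𝒬 _ _ _ _ (by simp [hij]) (by simp) (by simp)
      (by simp [hij]) qa qb qc qd pa pb pc
  have hperf := Cfsg.Agent.Helper5.omega_perfect_top 𝒬 hnd h' _ _ _ _ _ _
    (hH ⟨0, by omega⟩ ⟨1, by omega⟩ (by simp [Fin.ext_iff]))
    (hH ⟨0, by omega⟩ ⟨2, by omega⟩ (by simp [Fin.ext_iff]))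
    (hH ⟨1, by omega⟩ ⟨2, by omega⟩ (by simp [Fin.ext_iff]))
  have hκ : Even (Fintype.card (Fin m ⊕ Fin m)) :=
    ⟨m, by rw [Fintype.card_sum, Fintype.card_fin]⟩
  obtain ⟨hA, hB⟩ := Cfsg.Agent.Helper5.pso_index h2 𝒬 hnd hκ
    (Sum.inl ⟨0, by omega⟩ : Fin m ⊕ Fin m) (Sum.inr ⟨0, by omega⟩) (by simp) hperf
    (fun z hz => Cfsg.Agent.Helper5.centralizer_scalar 𝒬 hnd h'
      (Sum.inl : Fin m → Fin m ⊕ Fin m) Sum.inr hH ⟨0, by omega⟩ ⟨1, by omega⟩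
      (by simp [Fin.ext_iff]) (fun k => Or.inl (by
        rcases k with i | i
        · exact ⟨i, Or.inl rfl⟩
        · exact ⟨i, Or.inr rfl⟩)) z hz)
  obtain ⟨hp3, hp1⟩ := Cfsg.Agent.Helper5.pow_mod4 (Fintype.card F) m (Nat.odd_iff.1 hodd)
  constructor
  · rintro ⟨hmo, hq⟩
    apply hA
    intro hex
    have h5 := hneg.1 hex
    have h6 := hp3 ⟨Nat.odd_iff.1 hmo, hq⟩
    omega
  · intro hn
    apply hB
    apply hneg.2
    apply hp1
    rintro ⟨hmo, hq⟩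
    exact hn ⟨Nat.odd_iff.2 hmo, hq⟩

end Cfsg.Agent.S2723
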