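import Cfsg.Statements.S2724
-- import your own Cfsg.Agent.* helpers here
import Cfsg.Agent.Helper5.PgoDih
import Cfsg.Agent.Helper5.PgoGamma
import Cfsg.Agent.Helper5.PlusDiag
import Cfsg.Agent.S0287
import Cfsg.Agent.S0790

set_option autoImplicit false
open Cfsg

namespace Cfsg.Agent.S2724

set_option maxHeartbeats 1600000 in

/-- Let T = PΩ⁺_{2m}(F) with m ≥ 4 and |F| = q odd. The image G̃ of the conformal orthogonal group in Aut(T), taken modulo the inner automorphism group T, is elementary abelian of order 4 when m is odd and q ≡ 3 (mod 4), and dihedral of order 8 otherwise. -/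
theorem result {F : Type*} [Field F] [Fintype F] (hodd : Odd (Fintype.card F)) {m : ℕ} (hm : 4 ≤ m) :
    ((Odd m ∧ Fintype.card F % 4 = 3) → (∃ φ : ↥(Cfsg.pgoAut F (Cfsg.quadFormPlus m F)) →* Multiplicative (ZMod 2 × ZMod 2), Function.Surjective φ ∧ φ.ker = (Cfsg.Inn (Cfsg.POmega F (Cfsg.quadFormPlus m F))).subgroupOf (Cfsg.pgoAut F (Cfsg.quadFormPlus m F)))) ∧ (¬ (Odd m ∧ Fintype.card F % 4 = 3) → (∃ φ : ↥(Cfsg.pgoAut F (Cfsg.quadFormPlus m F)) →* DihedralGroup 4, Function.Surjective φ ∧ φ.ker = (Cfsg.Inn (Cfsg.POmega F (Cfsg.quadFormPlus m F))).subgroupOf (Cfsg.pgoAut F (Cfsg.quadFormPlus m F)))) := by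
  have h2 : (2 : F) ≠ 0 := Cfsg.Agent.S0286.two_ne_zero_of_odd F hodd
  obtain ⟨𝒬, h𝒬, hnd⟩ := Cfsg.Agent.S0287.plus_model F m
  have hQeq : Cfsg.quadFormPlus m F = ⇑𝒬 := funext (fun v => (h𝒬 v).symm)
  have hneg := Cfsg.Agent.S0790.result (F := F) rfl hodd m (by omega)
  rw [hQeq] at hneg ⊢
  have h' : Fintype.card F ≠ 2 ∨ Fintype.card (Fin m ⊕ Fin m) ≠ 4 :=
    Or.inr (by rw [Fintype.card_sum, Fintype.card_fin]; omega)
  have hH : ∀ i j : Fin m, i ≠ j → Cfsg.Agent.Helper5.HypPairs 𝒬 (Pi.single (Sum.inl i) 1)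
      (Pi.single (Sum.inr i) 1) (Pi.single (Sum.inl j) 1) (Pi.single (Sum.inr j) 1) := by
    intro i j hij
    obtain ⟨qa, qb, pa, pb⟩ := Cfsg.Agent.Helper5.plus_pair 𝒬 h𝒬 i
    obtain ⟨qc, qd, pc, pd⟩ := Cfsg.Agent.Helper5.plus_pair 𝒬 h𝒬 j
    exact Cfsg.Agent.Helper5.hyp_of_single 𝒬 _ _ _ _ (by simp [hij]) (by simp) (by simp)
      (by simp [hij]) qa qb qc qd pa pb pc
  have hperf := Cfsg.Agent.Helper5.omega_perfect_top 𝒬 hnd h' _ _ _ _ _ _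
    (hH ⟨0, by omega⟩ ⟨1, by omega⟩ (by simp [Fin.ext_iff]))
    (hH ⟨0, by omega⟩ ⟨2, by omega⟩ (by simp [Fin.ext_iff]))
    (hH ⟨1, by omega⟩ ⟨2, by omega⟩ (by simp [Fin.ext_iff]))
  have hκ : Fintype.card (Fin m ⊕ Fin m) = 2 * m := by
    rw [Fintype.card_sum, Fintype.card_fin]
    omega
  have hchar : ringChar F ≠ 2 := by
    intro h
    apply h2
    have h3 := CharP.cast_eq_zero F (ringChar F)
    rw [h] at h3
    exact_mod_cast h3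
  obtain ⟨ν, hν⟩ := FiniteField.exists_nonsquare hchar
  have hν0 : ν ≠ 0 := by
    rintro rfl
    exact hν IsSquare.zero
  obtain ⟨γ, hγQ, hγγ⟩ := Cfsg.Agent.Helper5.plus_gamma (F := F) m ν hν0
  have hcov : ∀ k : Fin m ⊕ Fin m, (∃ i : Fin m, k = Sum.inl i ∨ k = Sum.inr i) ∨
      (QuadraticMap.polar (⇑𝒬) (Pi.single k 1) (Pi.single (Sum.inl (⟨0, by omega⟩ : Fin m)) 1) = 0 ∧
        QuadraticMap.polar (⇑𝒬) (Pi.single k 1) (Pi.single (Sum.inr (⟨0, by omega⟩ : Fin m)) 1) = 0 ∧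
        QuadraticMap.polar (⇑𝒬) (Pi.single k 1) (Pi.single (Sum.inl (⟨1, by omega⟩ : Fin m)) 1) = 0 ∧
        QuadraticMap.polar (⇑𝒬) (Pi.single k 1) (Pi.single (Sum.inr (⟨1, by omega⟩ : Fin m)) 1) = 0) := by
    intro k
    rcases k with i | i
    · exact Or.inl ⟨i, Or.inl rfl⟩
    · exact Or.inl ⟨i, Or.inr rfl⟩
  have hcent := fun (z : ↥(Cfsg.isometryGroup F ⇑𝒬)) hz =>
    Cfsg.Agent.Helper5.centralizer_scalar 𝒬 hnd h'
      (Sum.inl : Fin m → Fin m ⊕ Fin m) Sum.inr hH ⟨0, by omega⟩ ⟨1, by omega⟩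
      (by simp [Fin.ext_iff]) hcov z hz
  have hcentG := fun (z : Matrix.GeneralLinearGroup (Fin m ⊕ Fin m) F) hz hpol =>
    Cfsg.Agent.Helper5.gl_centralizer_scalar 𝒬 hnd h'
      (Sum.inl : Fin m → Fin m ⊕ Fin m) Sum.inr hH ⟨0, by omega⟩ ⟨1, by omega⟩
      (by simp [Fin.ext_iff]) hcov z hz hpol
  have hγ' : ∃ (g : Matrix.GeneralLinearGroup (Fin m ⊕ Fin m) F) (c a : F), ¬ IsSquare c ∧
      (∀ v, 𝒬 (Matrix.mulVec (g : Matrix (Fin m ⊕ Fin m) (Fin m ⊕ Fin m) F) v) = c * 𝒬 v) ∧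
      ((g * g : Matrix.GeneralLinearGroup (Fin m ⊕ Fin m) F) :
        Matrix (Fin m ⊕ Fin m) (Fin m ⊕ Fin m) F)
        = a • (1 : Matrix (Fin m ⊕ Fin m) (Fin m ⊕ Fin m) F) := by
    refine ⟨γ, ν, ν, hν, fun v => ?_, hγγ⟩
    rw [h𝒬, h𝒬]
    exact hγQ v
  have hne01 : (Sum.inl ⟨0, by omega⟩ : Fin m ⊕ Fin m) ≠ Sum.inr ⟨0, by omega⟩ := by simp
  obtain ⟨hA, hB⟩ := Cfsg.Agent.Helper5.pgo_inn_cases h2 𝒬 hnd m hκ _ _ hne01 hperf hcent
    hcentG hγ'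
  obtain ⟨hp3, hp1⟩ := Cfsg.Agent.Helper5.pow_mod4 (Fintype.card F) m (Nat.odd_iff.1 hodd)
  constructor
  · rintro ⟨hmo, hq⟩
    apply hA
    intro hex
    have h5 := hneg.1 hex
    have h6 := hp3 ⟨Nat.odd_iff.1 hmo, hq⟩
    omega
  · intro hn
    apply hB
    apply hneg.2
    apply hp1
    rintro ⟨hmo, hq⟩
    exact hn ⟨Nat.odd_iff.2 hmo, hq⟩

end Cfsg.Agent.S2724
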