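import Cfsg.Statements.S2726
-- import your own Cfsg.Agent.* helpers here
import Cfsg.Agent.Helper5.PgoKlein
import Cfsg.Agent.Helper5.PgoDelta
import Cfsg.Agent.Helper5.MinusPair
import Cfsg.Agent.S0288

set_option autoImplicit false
open Cfsg

namespace Cfsg.Agent.S2726

set_option maxHeartbeats 1600000 in

/-- Let T = PΩ⁻_{2m+2}(F) with m ≥ 3 and |F| = q odd (form with anisotropic binary part). Inside Aut(T), the image G̃ of the conformal orthogonal group of the form modulo the image of the special orthogonal group is elementary abelian of order 4. -/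
theorem result {F : Type*} [Field F] [Fintype F] (hodd : Odd (Fintype.card F)) {m : ℕ} (hm : 3 ≤ m) (a b : F) (hab : (∀ z₁ z₂ : F, z₁ ^ 2 + a * z₁ * z₂ + b * z₂ ^ 2 = 0 → z₁ = 0 ∧ z₂ = 0)) :
    (∃ φ : ↥(Cfsg.pgoAut F (Cfsg.quadFormMinus m F a b)) →* Multiplicative (ZMod 2 × ZMod 2), Function.Surjective φ ∧ φ.ker = (Cfsg.psoAut F (Cfsg.quadFormMinus m F a b)).subgroupOf (Cfsg.pgoAut F (Cfsg.quadFormMinus m F a b))) := by
  have h2 : (2 : F) ≠ 0 := Cfsg.Agent.S0286.two_ne_zero_of_odd F hodd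
  obtain ⟨𝒬, h𝒬, hnd⟩ := Cfsg.Agent.S0288.minus_model F a b hab m
  have hQeq : Cfsg.quadFormMinus m F a b = ⇑𝒬 := funext (fun v => (h𝒬 v).symm)
  rw [hQeq]
  have h' : Fintype.card F ≠ 2 ∨ Fintype.card ((Fin m ⊕ Fin m) ⊕ Fin 2) ≠ 4 :=
    Or.inr (by rw [Fintype.card_sum, Fintype.card_sum, Fintype.card_fin, Fintype.card_fin]; omega)
  have hH : ∀ i j : Fin m, i ≠ j → Cfsg.Agent.Helper5.HypPairs 𝒬
      (Pi.single (Sum.inl (Sum.inl i)) 1) (Pi.single (Sum.inl (Sum.inr i)) 1)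
      (Pi.single (Sum.inl (Sum.inl j)) 1) (Pi.single (Sum.inl (Sum.inr j)) 1) := by
    intro i j hij
    obtain ⟨qa, qb, pa, pb⟩ := Cfsg.Agent.Helper5.minus_pair a b 𝒬 h𝒬 i
    obtain ⟨qc, qd, pc, pd⟩ := Cfsg.Agent.Helper5.minus_pair a b 𝒬 h𝒬 j
    exact Cfsg.Agent.Helper5.hyp_of_single 𝒬 _ _ _ _ (by simp [hij]) (by simp) (by simp)
      (by simp [hij]) qa qb qc qd pa pb pc
  have hperf := Cfsg.Agent.Helper5.omega_perfect_top 𝒬 hnd h' _ _ _ _ _ _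
    (hH ⟨0, by omega⟩ ⟨1, by omega⟩ (by simp [Fin.ext_iff]))
    (hH ⟨0, by omega⟩ ⟨2, by omega⟩ (by simp [Fin.ext_iff]))
    (hH ⟨1, by omega⟩ ⟨2, by omega⟩ (by simp [Fin.ext_iff]))
  have hκ : Fintype.card ((Fin m ⊕ Fin m) ⊕ Fin 2) = 2 * (m + 1) := by
    rw [Fintype.card_sum, Fintype.card_sum, Fintype.card_fin, Fintype.card_fin]
    omega
  have hchar : ringChar F ≠ 2 := by
    intro h
    apply h2
    have h3 := CharP.cast_eq_zero F (ringChar F)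
    rw [h] at h3
    exact_mod_cast h3
  obtain ⟨ν, hν⟩ := FiniteField.exists_nonsquare hchar
  have hν0 : ν ≠ 0 := by
    rintro rfl
    exact hν IsSquare.zero
  obtain ⟨δ, hδ⟩ := Cfsg.Agent.Helper5.minus_delta h2 m a b hab ν hν0
  have hδ' : ∃ (g : Matrix.GeneralLinearGroup ((Fin m ⊕ Fin m) ⊕ Fin 2) F) (c : F), ¬ IsSquare c ∧
      ∀ v, 𝒬 (Matrix.mulVec (g : Matrix ((Fin m ⊕ Fin m) ⊕ Fin 2) ((Fin m ⊕ Fin m) ⊕ Fin 2) F) v)
        = c * 𝒬 v := by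
    refine ⟨δ, ν, hν, fun v => ?_⟩
    rw [h𝒬, h𝒬]
    exact hδ v
  have hcov : ∀ k : (Fin m ⊕ Fin m) ⊕ Fin 2,
      (∃ i : Fin m, k = Sum.inl (Sum.inl i) ∨ k = Sum.inl (Sum.inr i)) ∨
      (QuadraticMap.polar (⇑𝒬) (Pi.single k 1) (Pi.single (Sum.inl (Sum.inl (⟨0, by omega⟩ : Fin m))) 1) = 0 ∧
        QuadraticMap.polar (⇑𝒬) (Pi.single k 1) (Pi.single (Sum.inl (Sum.inr (⟨0, by omega⟩ : Fin m))) 1) = 0 ∧
        QuadraticMap.polar (⇑𝒬) (Pi.single k 1) (Pi.single (Sum.inl (Sum.inl (⟨1, by omega⟩ : Fin m))) 1) = 0 ∧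
        QuadraticMap.polar (⇑𝒬) (Pi.single k 1) (Pi.single (Sum.inl (Sum.inr (⟨1, by omega⟩ : Fin m))) 1) = 0) := by
    intro k
    rcases k with (i | i) | j
    · exact Or.inl ⟨i, Or.inl rfl⟩
    · exact Or.inl ⟨i, Or.inr rfl⟩
    · right
      have key : ∀ i : Fin m,
          QuadraticMap.polar (⇑𝒬) (Pi.single (Sum.inr j) 1)
            (Pi.single (Sum.inl (Sum.inl i)) 1) = 0 ∧
          QuadraticMap.polar (⇑𝒬) (Pi.single (Sum.inr j) 1)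
            (Pi.single (Sum.inl (Sum.inr i)) 1) = 0 := by
        intro i
        obtain ⟨qa, qb, pa, pb⟩ := Cfsg.Agent.Helper5.minus_pair a b 𝒬 h𝒬 i
        have hne1 : (Sum.inl (Sum.inr i) : (Fin m ⊕ Fin m) ⊕ Fin 2)
            ≠ Sum.inr j := by simp
        have hne2 : (Sum.inl (Sum.inl i) : (Fin m ⊕ Fin m) ⊕ Fin 2)
            ≠ Sum.inr j := by simp
        constructor
        · rw [QuadraticMap.polar_comm, pa, Pi.single_eq_of_ne hne1]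
        · rw [QuadraticMap.polar_comm, pb, Pi.single_eq_of_ne hne2]
      exact ⟨(key _).1, (key _).2, (key _).1, (key _).2⟩
  have hne01 : (Sum.inr 0 : (Fin m ⊕ Fin m) ⊕ Fin 2) ≠ Sum.inr 1 := by simp
  have hcentG := fun (z : Matrix.GeneralLinearGroup ((Fin m ⊕ Fin m) ⊕ Fin 2) F) hz hpol =>
    Cfsg.Agent.Helper5.gl_centralizer_scalar 𝒬 hnd h'
      (fun i : Fin m => (Sum.inl (Sum.inl i) : (Fin m ⊕ Fin m) ⊕ Fin 2))
      (fun i : Fin m => (Sum.inl (Sum.inr i) : (Fin m ⊕ Fin m) ⊕ Fin 2))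
      hH ⟨0, by omega⟩ ⟨1, by omega⟩ (by simp [Fin.ext_iff]) hcov z hz hpol
  exact Cfsg.Agent.Helper5.pgo_klein h2 𝒬 hnd (m + 1) hκ
    (Sum.inr 0 : (Fin m ⊕ Fin m) ⊕ Fin 2) (Sum.inr 1) hne01 hperf hcentG hδ'

end Cfsg.Agent.S2726
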