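import Cfsg.Statements.S2728
-- import your own Cfsg.Agent.* helpers here
import Cfsg.Agent.Helper5.PgoDih
import Cfsg.Agent.Helper5.PgoGamma
import Cfsg.Agent.Helper5.MinusPair
import Cfsg.Agent.S0288
import Cfsg.Agent.S0791

set_option autoImplicit false
open Cfsg

namespace Cfsg.Agent.S2728

set_option maxHeartbeats 1600000 in

/-- Let T = PΩ⁻_{2m+2}(F) with m ≥ 3 and |F| = q odd (form with anisotropic binary part). The image G̃ of the conformal orthogonal group in Aut(T), taken modulo the inner automorphism group T, is dihedral of order 8 when m is even and q ≡ 3 (mod 4), and elementary abelian of order 4 otherwise. -/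
theorem result {F : Type*} [Field F] [Fintype F] (hodd : Odd (Fintype.card F)) {m : ℕ} (hm : 3 ≤ m) (a b : F) (hab : (∀ z₁ z₂ : F, z₁ ^ 2 + a * z₁ * z₂ + b * z₂ ^ 2 = 0 → z₁ = 0 ∧ z₂ = 0)) :
    ((Even m ∧ Fintype.card F % 4 = 3) → (∃ φ : ↥(Cfsg.pgoAut F (Cfsg.quadFormMinus m F a b)) →* DihedralGroup 4, Function.Surjective φ ∧ φ.ker = (Cfsg.Inn (Cfsg.POmega F (Cfsg.quadFormMinus m F a b))).subgroupOf (Cfsg.pgoAut F (Cfsg.quadFormMinus m F a b)))) ∧ (¬ (Even m ∧ Fintype.card F % 4 = 3) → (∃ φ : ↥(Cfsg.pgoAut F (Cfsg.quadFormMinus m F a b)) →* Multiplicative (ZMod 2 × ZMod 2), Function.Surjective φ ∧ φ.ker = (Cfsg.Inn (Cfsg.POmega F (Cfsg.quadFormMinus m F a b))).subgroupOf (Cfsg.pgoAut F (Cfsg.quadFormMinus m F a b)))) := by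
  have h2 : (2 : F) ≠ 0 := Cfsg.Agent.S0286.two_ne_zero_of_odd F hodd
  obtain ⟨𝒬, h𝒬, hnd⟩ := Cfsg.Agent.S0288.minus_model F a b hab m
  have hQeq : Cfsg.quadFormMinus m F a b = ⇑𝒬 := funext (fun v => (h𝒬 v).symm)
  have hneg : (∃ g : ↥(Cfsg.isometryGroup F (Cfsg.quadFormMinus m F a b)),
      g ∈ Cfsg.Omega F (Cfsg.quadFormMinus m F a b) ∧
      ((g : Matrix.GeneralLinearGroup ((Fin m ⊕ Fin m) ⊕ Fin 2) F) :
        Matrix ((Fin m ⊕ Fin m) ⊕ Fin 2) ((Fin m ⊕ Fin m) ⊕ Fin 2) F) = -1)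
      ↔ Fintype.card F ^ (m + 1) % 4 = 3 :=
    Cfsg.Agent.S0791.result (F := F) rfl hodd (m + 1) (by omega) a b hab
  rw [hQeq] at hneg ⊢
  have h' : Fintype.card F ≠ 2 ∨ Fintype.card ((Fin m ⊕ Fin m) ⊕ Fin 2) ≠ 4 :=
    Or.inr (by rw [Fintype.card_sum, Fintype.card_sum, Fintype.card_fin, Fintype.card_fin]; omega)
  have hH : ∀ i j : Fin m, i ≠ j → Cfsg.Agent.Helper5.HypPairs 𝒬
      (Pi.single (Sum.inl (Sum.inl i)) 1) (Pi.single (Sum.inl (Sum.inr i)) 1)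
      (Pi.single (Sum.inl (Sum.inl j)) 1) (Pi.single (Sum.inl (Sum.inr j)) 1) := by
    intro i j hij
    obtain ⟨qa, qb, pa, pb⟩ := Cfsg.Agent.Helper5.minus_pair a b 𝒬 h𝒬 i
    obtain ⟨qc, qd, pc, pd⟩ := Cfsg.Agent.Helper5.minus_pair a b 𝒬 h𝒬 j
    exact Cfsg.Agent.Helper5.hyp_of_single 𝒬 _ _ _ _ (by simp [hij]) (by simp) (by simp)
      (by simp [hij]) qa qb qc qd pa pb pc
  have hperf := Cfsg.Agent.Helper5.omega_perfect_top 𝒬 hnd h' _ _ _ _ _ _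
    (hH ⟨0, by omega⟩ ⟨1, by omega⟩ (by simp [Fin.ext_iff]))
    (hH ⟨0, by omega⟩ ⟨2, by omega⟩ (by simp [Fin.ext_iff]))
    (hH ⟨1, by omega⟩ ⟨2, by omega⟩ (by simp [Fin.ext_iff]))
  have hκ : Fintype.card ((Fin m ⊕ Fin m) ⊕ Fin 2) = 2 * (m + 1) := by
    rw [Fintype.card_sum, Fintype.card_sum, Fintype.card_fin, Fintype.card_fin]
    omega
  have hchar : ringChar F ≠ 2 := by
    intro h
    apply h2
    have h3 := CharP.cast_eq_zero F (ringChar F)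
    rw [h] at h3
    exact_mod_cast h3
  obtain ⟨ν, hν⟩ := FiniteField.exists_nonsquare hchar
  have hν0 : ν ≠ 0 := by
    rintro rfl
    exact hν IsSquare.zero
  obtain ⟨γ, hγQ, hγγ⟩ := Cfsg.Agent.Helper5.minus_gamma h2 m a b hab ν hν0
  have hγ' : ∃ (g : Matrix.GeneralLinearGroup ((Fin m ⊕ Fin m) ⊕ Fin 2) F) (c a : F),
      ¬ IsSquare c ∧
      (∀ v, 𝒬 (Matrix.mulVec
        (g : Matrix ((Fin m ⊕ Fin m) ⊕ Fin 2) ((Fin m ⊕ Fin m) ⊕ Fin 2) F) v) = c * 𝒬 v) ∧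
      ((g * g : Matrix.GeneralLinearGroup ((Fin m ⊕ Fin m) ⊕ Fin 2) F) :
        Matrix ((Fin m ⊕ Fin m) ⊕ Fin 2) ((Fin m ⊕ Fin m) ⊕ Fin 2) F)
        = a • (1 : Matrix ((Fin m ⊕ Fin m) ⊕ Fin 2) ((Fin m ⊕ Fin m) ⊕ Fin 2) F) := by
    refine ⟨γ, ν, ν, hν, fun v => ?_, hγγ⟩
    rw [h𝒬, h𝒬]
    exact hγQ v
  have hcov : ∀ k : (Fin m ⊕ Fin m) ⊕ Fin 2,
      (∃ i : Fin m, k = Sum.inl (Sum.inl i) ∨ k = Sum.inl (Sum.inr i)) ∨
      (QuadraticMap.polar (⇑𝒬) (Pi.single k 1) (Pi.single (Sum.inl (Sum.inl (⟨0, by omega⟩ : Fin m))) 1) = 0 ∧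
        QuadraticMap.polar (⇑𝒬) (Pi.single k 1) (Pi.single (Sum.inl (Sum.inr (⟨0, by omega⟩ : Fin m))) 1) = 0 ∧
        QuadraticMap.polar (⇑𝒬) (Pi.single k 1) (Pi.single (Sum.inl (Sum.inl (⟨1, by omega⟩ : Fin m))) 1) = 0 ∧
        QuadraticMap.polar (⇑𝒬) (Pi.single k 1) (Pi.single (Sum.inl (Sum.inr (⟨1, by omega⟩ : Fin m))) 1) = 0) := by
    intro k
    rcases k with (i | i) | j
    · exact Or.inl ⟨i, Or.inl rfl⟩
    · exact Or.inl ⟨i, Or.inr rfl⟩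
    · right
      have key : ∀ i : Fin m,
          QuadraticMap.polar (⇑𝒬) (Pi.single (Sum.inr j) 1)
            (Pi.single (Sum.inl (Sum.inl i)) 1) = 0 ∧
          QuadraticMap.polar (⇑𝒬) (Pi.single (Sum.inr j) 1)
            (Pi.single (Sum.inl (Sum.inr i)) 1) = 0 := by
        intro i
        obtain ⟨qa, qb, pa, pb⟩ := Cfsg.Agent.Helper5.minus_pair a b 𝒬 h𝒬 i
        have hne1 : (Sum.inl (Sum.inr i) : (Fin m ⊕ Fin m) ⊕ Fin 2)
            ≠ Sum.inr j := by simp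
        have hne2 : (Sum.inl (Sum.inl i) : (Fin m ⊕ Fin m) ⊕ Fin 2)
            ≠ Sum.inr j := by simp
        constructor
        · rw [QuadraticMap.polar_comm, pa, Pi.single_eq_of_ne hne1]
        · rw [QuadraticMap.polar_comm, pb, Pi.single_eq_of_ne hne2]
      exact ⟨(key _).1, (key _).2, (key _).1, (key _).2⟩
  have hne01 : (Sum.inr 0 : (Fin m ⊕ Fin m) ⊕ Fin 2) ≠ Sum.inr 1 := by simp
  have hcent := fun (z : ↥(Cfsg.isometryGroup F ⇑𝒬)) hz =>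
    Cfsg.Agent.Helper5.centralizer_scalar 𝒬 hnd h'
      (fun i : Fin m => (Sum.inl (Sum.inl i) : (Fin m ⊕ Fin m) ⊕ Fin 2))
      (fun i : Fin m => (Sum.inl (Sum.inr i) : (Fin m ⊕ Fin m) ⊕ Fin 2))
      hH ⟨0, by omega⟩ ⟨1, by omega⟩ (by simp [Fin.ext_iff]) hcov z hz
  have hcentG := fun (z : Matrix.GeneralLinearGroup ((Fin m ⊕ Fin m) ⊕ Fin 2) F) hz hpol =>
    Cfsg.Agent.Helper5.gl_centralizer_scalar 𝒬 hnd h'
      (fun i : Fin m => (Sum.inl (Sum.inl i) : (Fin m ⊕ Fin m) ⊕ Fin 2))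
      (fun i : Fin m => (Sum.inl (Sum.inr i) : (Fin m ⊕ Fin m) ⊕ Fin 2))
      hH ⟨0, by omega⟩ ⟨1, by omega⟩ (by simp [Fin.ext_iff]) hcov z hz hpol
  obtain ⟨hA, hB⟩ := Cfsg.Agent.Helper5.pgo_inn_cases h2 𝒬 hnd (m + 1) hκ
    (Sum.inr 0 : (Fin m ⊕ Fin m) ⊕ Fin 2) (Sum.inr 1) hne01 hperf hcent hcentG hγ'
  obtain ⟨hp3, hp1⟩ := Cfsg.Agent.Helper5.pow_mod4 (Fintype.card F) (m + 1) (Nat.odd_iff.1 hodd)
  constructor
  · rintro ⟨hme, hq⟩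
    apply hB
    apply hneg.2
    apply hp3
    have h5 := Nat.even_iff.1 hme
    exact ⟨by omega, hq⟩
  · intro hn
    apply hA
    intro hex
    have h5 := hneg.1 hex
    have h6 := hp1 (by
      rintro ⟨hmo, hq⟩
      exact hn ⟨Nat.even_iff.2 (by omega), hq⟩)
    omega

end Cfsg.Agent.S2728
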