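import Cfsg.Statements.S2738
import Mathlib

set_option autoImplicit false
open Cfsg

namespace Cfsg.Agent.S2738

/-- The special linear group SL(3, 4) has centre of order 3 and does not split over it: no subgroup is a complement to the centre (so SL(3, 4) is a non-split central extension of PSL(3, 4) by a group of order 3). -/
theorem result (F : Type*) [Field F] [Fintype F] (hF : Fintype.card F = 4) : Nat.card ↥(Subgroup.center (Matrix.SpecialLinearGroup (Fin 3) F)) = 3 ∧ ¬ ∃ K : Subgroup (Matrix.SpecialLinearGroup (Fin 3) F), Subgroup.IsComplement' (Subgroup.center (Matrix.SpecialLinearGroup (Fin 3) F)) K := by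
  have hcard : Nat.card Fˣ = 3 := by
    rw [Nat.card_units, Nat.card_eq_fintype_card, hF]
  have hpow : ∀ u : Fˣ, u ^ 3 = 1 := by
    intro u
    have h1 := pow_card_eq_one' (x := u)
    rwa [hcard] at h1
  constructor
  · have e := Matrix.SpecialLinearGroup.center_equiv_rootsOfUnity' (n := Fin 3) (R := F) 0
    rw [Nat.card_congr e.toEquiv]
    have htop : rootsOfUnity (Fintype.card (Fin 3)) F = ⊤ := by
      ext u
      simp only [Subgroup.mem_top, iff_true, mem_rootsOfUnity, Fintype.card_fin]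
      exact hpow u
    rw [htop, Subgroup.card_top, hcard]
  · rintro ⟨K, hK⟩
    obtain ⟨u, hu⟩ : ∃ u : Fˣ, u ≠ 1 := by
      have : Nontrivial Fˣ := (Finite.one_lt_card_iff_nontrivial).mp (by rw [hcard]; norm_num)
      exact exists_ne 1
    have hu3 : (u : F) ^ 3 = 1 := by
      have h2 := congrArg Units.val (hpow u)
      simpa using h2
    have hω1 : (u : F) ≠ 1 := fun h => hu (Units.ext h)
    have hdA : Matrix.det !![1, 0, 0; 0, (u : F), 0; 0, 0, (u : F) ^ 2] = 1 := by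
      simp [Matrix.det_fin_three]; rw [← hu3]; ring
    have hdB : Matrix.det !![(0 : F), 1, 0; 0, 0, 1; 1, 0, 0] = 1 := by
      simp [Matrix.det_fin_three]
    have hdZ : Matrix.det !![(u : F), 0, 0; 0, (u : F), 0; 0, 0, (u : F)] = 1 := by
      simp [Matrix.det_fin_three]; rw [← hu3]; ring
    have hmat : !![(0 : F), 1, 0; 0, 0, 1; 1, 0, 0] * !![1, 0, 0; 0, (u : F), 0; 0, 0, (u : F) ^ 2]
        = !![(u : F), 0, 0; 0, (u : F), 0; 0, 0, (u : F)] * !![1, 0, 0; 0, (u : F), 0; 0, 0, (u : F) ^ 2]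
          * !![(0 : F), 1, 0; 0, 0, 1; 1, 0, 0] := by
      ext i j
      fin_cases i <;> fin_cases j <;> simp [Matrix.mul_apply, Fin.sum_univ_three] <;>
        first | ring1 | linear_combination hu3 | linear_combination -hu3
    obtain ⟨A, hA⟩ : ∃ A : Matrix.SpecialLinearGroup (Fin 3) F,
        (A : Matrix (Fin 3) (Fin 3) F) = !![1, 0, 0; 0, (u : F), 0; 0, 0, (u : F) ^ 2] := ⟨⟨_, hdA⟩, rfl⟩
    obtain ⟨B, hB⟩ : ∃ B : Matrix.SpecialLinearGroup (Fin 3) F,
        (B : Matrix (Fin 3) (Fin 3) F) = !![(0 : F), 1, 0; 0, 0, 1; 1, 0, 0] := ⟨⟨_, hdB⟩, rfl⟩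
    obtain ⟨Z, hZ⟩ : ∃ Z : Matrix.SpecialLinearGroup (Fin 3) F,
        (Z : Matrix (Fin 3) (Fin 3) F) = !![(u : F), 0, 0; 0, (u : F), 0; 0, 0, (u : F)] := ⟨⟨_, hdZ⟩, rfl⟩
    have hZc : Z ∈ Subgroup.center (Matrix.SpecialLinearGroup (Fin 3) F) := by
      rw [Matrix.SpecialLinearGroup.mem_center_iff]
      refine ⟨(u : F), by simpa using hu3, ?_⟩
      rw [hZ]
      ext i j
      fin_cases i <;> fin_cases j <;> simp [Matrix.scalar_apply, Matrix.diagonal]
    have hrel : B * A = Z * A * B := by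
      apply Subtype.ext
      rw [Matrix.SpecialLinearGroup.coe_mul, Matrix.SpecialLinearGroup.coe_mul,
        Matrix.SpecialLinearGroup.coe_mul, hA, hB, hZ]
      exact hmat
    have hZ1 : Z ≠ 1 := by
      intro h
      have h1 : (Z : Matrix (Fin 3) (Fin 3) F) 0 0 = (1 : Matrix (Fin 3) (Fin 3) F) 0 0 := by
        rw [h]; rfl
      rw [hZ] at h1
      exact hω1 (by simpa using h1)
    have hbij := Subgroup.isComplement'_def.mp hK
    obtain ⟨⟨c₁, k₁⟩, h1⟩ := hbij.2 A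
    obtain ⟨⟨c₂, k₂⟩, h2⟩ := hbij.2 B
    simp only at h1 h2
    have hc₁ := Subgroup.mem_center_iff.mp c₁.2
    have hc₂ := Subgroup.mem_center_iff.mp c₂.2
    have hz := Subgroup.mem_center_iff.mp hZc
    rw [← h1, ← h2] at hrel
    have e1 : (c₂ : Matrix.SpecialLinearGroup (Fin 3) F) * k₂ * (c₁ * k₁) = c₁ * c₂ * (k₂ * k₁) := by
      calc (c₂ : Matrix.SpecialLinearGroup (Fin 3) F) * k₂ * (c₁ * k₁)
          = c₂ * (k₂ * c₁) * k₁ := by group
        _ = c₂ * (c₁ * k₂) * k₁ := by rw [hc₁ k₂]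
        _ = (c₂ * c₁) * (k₂ * k₁) := by group
        _ = c₁ * c₂ * (k₂ * k₁) := by rw [hc₁ c₂]
    have e2 : Z * ((c₁ : Matrix.SpecialLinearGroup (Fin 3) F) * k₁) * (c₂ * k₂)
        = c₁ * c₂ * (Z * (k₁ * k₂)) := by
      calc Z * ((c₁ : Matrix.SpecialLinearGroup (Fin 3) F) * k₁) * (c₂ * k₂)
          = (Z * c₁) * (k₁ * c₂) * k₂ := by group
        _ = (c₁ * Z) * (c₂ * k₁) * k₂ := by rw [hc₂ k₁, hc₁ Z]
        _ = c₁ * (Z * c₂) * (k₁ * k₂) := by group
        _ = c₁ * (c₂ * Z) * (k₁ * k₂) := by rw [hc₂ Z]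
        _ = c₁ * c₂ * (Z * (k₁ * k₂)) := by group
    rw [e1, e2] at hrel
    have e3 : (k₂ : Matrix.SpecialLinearGroup (Fin 3) F) * k₁ = Z * (k₁ * k₂) := mul_left_cancel hrel
    have hZK : Z ∈ K := by
      have e4 : Z = (k₂ : Matrix.SpecialLinearGroup (Fin 3) F) * k₁ * (k₁ * k₂)⁻¹ :=
        eq_mul_inv_of_mul_eq e3.symm
      rw [e4]
      exact K.mul_mem (K.mul_mem k₂.2 k₁.2) (K.inv_mem (K.mul_mem k₁.2 k₂.2))
    exact hZ1 (Subgroup.disjoint_def.mp hK.disjoint hZc hZK)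

end Cfsg.Agent.S2738
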