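import Cfsg.Statements.S2759
-- import your own Cfsg.Agent.* helpers here
import Cfsg.Agent.Helper9.S4Inv

set_option autoImplicit false
open Cfsg

namespace Cfsg.Agent.S2759

open Cfsg.Agent.Helper9

/-- For a finite group G, the symmetric group of degree 4 is involved in G if and only if there is a 2-subgroup T of G such that the symmetric group of degree 3 is involved in N(T)/C(T). -/
theorem result {G : Type*} [Group G] [Finite G] : Cfsg.Involves (Equiv.Perm (Fin 4)) G ↔ ∃ T : Subgroup G, IsPGroup 2 ↥T ∧ Cfsg.Involves (Equiv.Perm (Fin 3)) (↥(Subgroup.normalizer (T : Set G)) ⧸ (Subgroup.centralizer (T : Set G)).subgroupOf (Subgroup.normalizer (T : Set G))) := by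
  constructor
  · intro h
    exact s4i_fwd h
  · rintro ⟨T, hT, h⟩
    exact s4i_of_s3 T hT h

end Cfsg.Agent.S2759
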