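import Cfsg.Statements.S2760
import Cfsg.Agent.Helper17.CharP

set_option autoImplicit false
open Cfsg

namespace Cfsg.Agent.S2760

/-- Let G be a finite group with C_G(O₂(G)) ≤ O₂(G) and H a subgroup of G such that H is normal in G, or the subgroup O²(H) generated by the elements of H of odd order is normal in G. Then C_H(O₂(H)) ≤ O₂(H). -/
theorem result {G : Type*} [Group G] [Finite G] (hchar : Subgroup.centralizer (Cfsg.pCore 2 G : Set G) ≤ Cfsg.pCore 2 G) (H : Subgroup G) (hH : H.Normal ∨ ((Cfsg.pResidual 2 ↥H).map H.subtype).Normal) : Subgroup.centralizer (Cfsg.pCore 2 ↥H : Set ↥H) ≤ Cfsg.pCore 2 ↥H := by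
  haveI : Fact (Nat.Prime 2) := ⟨Nat.prime_two⟩
  have htop : Cfsg.Agent.Helper17.CharPA 2 (⊤ : Subgroup G) :=
    Cfsg.Agent.Helper17.charPA_top_iff.mpr hchar
  have hnormal : ∀ N : Subgroup G, N.Normal → Cfsg.Agent.Helper17.CharPA 2 N := by
    intro N hN
    have hNN : Subgroup.normalizer (N : Set G) = ⊤ := Subgroup.normalizer_eq_top_iff.mpr hN
    exact Cfsg.Agent.Helper17.charPA_of_normal htop le_top (by rw [hNN])
  rw [← Cfsg.Agent.Helper17.charPA_iff]
  rcases hH with hH | hH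
  · exact hnormal H hH
  · have hK := hnormal _ hH
    have hKH : (Cfsg.pResidual 2 ↥H).map H.subtype ≤ H := Subgroup.map_subtype_le _
    have hKN : Subgroup.normalizer (((Cfsg.pResidual 2 ↥H).map H.subtype : Subgroup G) : Set G) = ⊤ :=
      Subgroup.normalizer_eq_top_iff.mpr hH
    have hpc : Cfsg.Agent.Helper17.pc 2 ((Cfsg.pResidual 2 ↥H).map H.subtype) ≤
        Cfsg.Agent.Helper17.pc 2 H :=
      Cfsg.Agent.Helper17.pc_le_pc_of_normal hKH (by rw [hKN]; exact le_top)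
    apply Cfsg.Agent.Helper17.charPA_of_coprime_eq_one
    intro c hc hcop
    obtain ⟨hcH, hcC⟩ := Subgroup.mem_inf.mp hc
    have hcK : c ∈ (Cfsg.pResidual 2 ↥H).map H.subtype := by
      refine ⟨⟨c, hcH⟩, ?_, rfl⟩
      apply Subgroup.subset_closure
      show Nat.Coprime (orderOf (⟨c, hcH⟩ : ↥H)) 2
      rw [Subgroup.orderOf_mk]
      exact hcop
    have hcP : c ∈ Cfsg.Agent.Helper17.pc 2 ((Cfsg.pResidual 2 ↥H).map H.subtype) :=
      hK (Subgroup.mem_inf.mpr ⟨hcK, Subgroup.centralizer_le hpc hcC⟩)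
    obtain ⟨k, hk⟩ := Cfsg.Agent.Helper17.isPGroup_mem_pow
      (Cfsg.Agent.Helper17.pc_isPGroup _) hcP
    exact Cfsg.Agent.Helper17.eq_one_of_coprime_of_pow_eq_one hcop hk

end Cfsg.Agent.S2760
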