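import Cfsg.Statements.S2941
import Cfsg.Agent.Helper17.Comm3
import Cfsg.Agent.Helper17.Basic

set_option autoImplicit false
open Cfsg

namespace Cfsg.Agent.S2941

open Cfsg.Agent.Helper17
open scoped commutatorElement

/-- Let G be a finite group of characteristic 2 type in which every 2-local subgroup is solvable and the centralizer of Ω₁(Z(S)) lies in N_G(S) for every Sylow 2-subgroup S, and let T be a nontrivial 2-subgroup and K a J(T)-component (J the Thompson subgroup generated by the elementary abelian 2-subgroups of largest order). If a subgroup Q is normalized by ⟨K, J(T)⟩ and normalizes J(T), then Q normalizes K. -/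
theorem result {G : Type*} [Group G] [Finite G] (hL : Cfsg.IsCharacteristicTwoType G) (hN : ∀ N : Subgroup G, Cfsg.IsTwoLocal N → Group.IsSolvable ↥N)
    (hZ : ∀ S : Sylow 2 G, Subgroup.centralizer (Cfsg.omegaCenterOf (S : Subgroup G) : Set G) ≤ Subgroup.normalizer ((S : Subgroup G) : Set G)) (T : Subgroup G) (hT : IsPGroup 2 ↥T) (hT1 : T ≠ ⊥) (K : Subgroup G) (hK : Cfsg.IsJComponent T K)
    (Q : Subgroup G) (hQ1 : K ⊔ Cfsg.thompsonSubgroupOf 2 T ≤ Subgroup.normalizer (Q : Set G)) (hQ2 : Q ≤ Subgroup.normalizer (Cfsg.thompsonSubgroupOf 2 T : Set G)) :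
    Q ≤ Subgroup.normalizer (K : Set G) := by
  classical
  haveI : Fact (Nat.Prime 2) := ⟨Nat.prime_two⟩
  obtain ⟨hgen, hcomm, -, -, -, -⟩ := hK
  obtain ⟨J, hJ⟩ : ∃ J : Subgroup G, J = Cfsg.thompsonSubgroupOf 2 T := ⟨_, rfl⟩
  rw [← hJ] at hcomm hQ1 hQ2
  have hJT : J ≤ T := by
    rw [hJ]; unfold Cfsg.thompsonSubgroupOf; exact Subgroup.map_subtype_le _
  have hJp : IsPGroup 2 J := hT.to_le hJT
  have hJK : J ≤ Subgroup.normalizer (K : Set G) := by
    have h := le_normalizer_commutator_self_left J K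
    rwa [Subgroup.commutator_comm, hcomm] at h
  have hJKc : ∀ j ∈ J, ∀ k ∈ K, j * k * j⁻¹ ∈ K := by
    intro j hj k hk
    exact ((Subgroup.mem_normalizer_iff).mp (hJK hj) k).mp hk
  let S : Subgroup G :=
    { carrier := {x | ∃ k ∈ K, ∃ j ∈ J, x = k * j}
      one_mem' := ⟨1, K.one_mem, 1, J.one_mem, by simp⟩
      mul_mem' := by
        rintro _ _ ⟨k1, hk1, j1, hj1, rfl⟩ ⟨k2, hk2, j2, hj2, rfl⟩
        exact ⟨k1 * (j1 * k2 * j1⁻¹), K.mul_mem hk1 (hJKc j1 hj1 k2 hk2), j1 * j2,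
          J.mul_mem hj1 hj2, by group⟩
      inv_mem' := by
        rintro _ ⟨k, hk, j, hj, rfl⟩
        exact ⟨j⁻¹ * k⁻¹ * j⁻¹⁻¹, hJKc j⁻¹ (J.inv_mem hj) k⁻¹ (K.inv_mem hk), j⁻¹,
          J.inv_mem hj, by group⟩ }
  have hprod : ∀ x ∈ K ⊔ J, ∃ k ∈ K, ∃ j ∈ J, x = k * j := by
    intro x hx
    have hle : K ⊔ J ≤ S := by
      apply sup_le
      · intro k hk; exact ⟨k, hk, 1, J.one_mem, by simp⟩
      · intro j hj; exact ⟨1, K.one_mem, j, hj, by simp⟩
    exact hle hx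
  have hpow : ∀ k ∈ K, ∀ j ∈ J, ∀ m : ℕ, ∃ k' ∈ K, (k * j) ^ m = k' * j ^ m := by
    intro k hk j hj m
    induction m with
    | zero => exact ⟨1, K.one_mem, by simp⟩
    | succ m ih =>
      obtain ⟨k', hk', e⟩ := ih
      refine ⟨k' * (j ^ m * k * (j ^ m)⁻¹), K.mul_mem hk' (hJKc _ (J.pow_mem hj m) k hk), ?_⟩
      rw [pow_succ, e, pow_succ]; group
  have hodd : ∀ x ∈ K ⊔ J, Odd (orderOf x) → x ∈ K := by
    intro x hx hxo
    obtain ⟨k, hk, j, hj, rfl⟩ := hprod x hx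
    obtain ⟨n, hn⟩ := hJp ⟨j, hj⟩
    have hj2 : j ^ (2 ^ n) = 1 := by simpa using congrArg Subtype.val hn
    obtain ⟨k', hk', e⟩ := hpow k hk j hj (2 ^ n)
    have h1 : (k * j) ^ (2 ^ n) ∈ K := by rw [e, hj2, mul_one]; exact hk'
    have hcop : (2 ^ n).Coprime (orderOf (k * j)) :=
      Nat.Coprime.pow_left n (Nat.coprime_two_left.mpr hxo)
    obtain ⟨m, hm⟩ := exists_pow_eq_self_of_coprime hcop
    rw [← hm]; exact K.pow_mem h1 m
  have hKQ : ∀ k ∈ K, ∀ q ∈ Q, k * q * k⁻¹ ∈ Q := by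
    intro k hk q hq
    exact ((Subgroup.mem_normalizer_iff).mp (hQ1 (Subgroup.mem_sup_left hk)) q).mp hq
  have hQJ : ∀ q ∈ Q, ∀ j ∈ J, q * j * q⁻¹ ∈ J := by
    intro q hq j hj
    exact ((Subgroup.mem_normalizer_iff).mp (hQ2 hq) j).mp hj
  have hQK : ∀ q ∈ Q, ∀ x ∈ K, q * x * q⁻¹ ∈ K ⊔ J := by
    intro q hq x hx
    have h1 : ⁅K, J⁆ ≤ (K ⊔ J).comap (MulAut.conj q).toMonoidHom := by
      rw [Subgroup.commutator_le]
      intro k hk j hj
      rw [Subgroup.mem_comap]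
      have hj' : q * j * q⁻¹ ∈ J := hQJ q hq j hj
      have hq' : k⁻¹ * q * k * q⁻¹ ∈ Q := by
        have := hKQ k⁻¹ (K.inv_mem hk) q hq
        rw [inv_inv] at this
        exact Q.mul_mem this (Q.inv_mem hq)
      have hj'' : (k⁻¹ * q * k * q⁻¹) * (q * j * q⁻¹) * (k⁻¹ * q * k * q⁻¹)⁻¹ ∈ J :=
        hQJ _ hq' _ hj'
      have e : (MulAut.conj q).toMonoidHom ⁅k, j⁆ =
          ⁅k, (k⁻¹ * q * k * q⁻¹) * (q * j * q⁻¹) * (k⁻¹ * q * k * q⁻¹)⁻¹⁆ *
            ((k⁻¹ * q * k * q⁻¹) * (q * j * q⁻¹) * (k⁻¹ * q * k * q⁻¹)⁻¹ * (q * j * q⁻¹)⁻¹) := by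
        simp only [MulEquiv.coe_toMonoidHom, MulAut.conj_apply, commutatorElement_def]; group
      rw [e]
      refine (K ⊔ J).mul_mem (Subgroup.mem_sup_left ?_)
        (Subgroup.mem_sup_right (J.mul_mem hj'' (J.inv_mem hj')))
      have := Subgroup.commutator_mem_commutator hk hj''
      rwa [hcomm] at this
    have hx' : x ∈ ⁅K, J⁆ := by rw [hcomm]; exact hx
    have := h1 hx'
    rw [Subgroup.mem_comap] at this
    simpa using this
  apply le_normalizer_of_conj_mem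
  intro q hq x hx
  have h2 : Subgroup.closure {g : G | g ∈ K ∧ Odd (orderOf g)} ≤
      K.comap (MulAut.conj q).toMonoidHom := by
    rw [Subgroup.closure_le]
    rintro g ⟨hgK, hgo⟩
    show (MulAut.conj q).toMonoidHom g ∈ K
    have h3 : q * g * q⁻¹ ∈ K ⊔ J := hQK q hq g hgK
    have h4 : Odd (orderOf (q * g * q⁻¹)) := by rw [orderOf_conj_eq]; exact hgo
    simpa using hodd _ h3 h4
  rw [hgen] at h2
  have := h2 hx
  rw [Subgroup.mem_comap] at this
  simpa using this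

end Cfsg.Agent.S2941
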