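import Cfsg.Statements.S2947
import Cfsg.Agent.Helper17.StronglyEmb2
import Cfsg.Agent.Helper17.CharP

set_option autoImplicit false
open Cfsg

namespace Cfsg.Agent.S2947

open Cfsg.Agent.Helper17

/-- Let G be a finite group of characteristic 2 type in which every 2-local subgroup is solvable and the centralizer of Ω₁(Z(S)) lies in N_G(S) for every Sylow 2-subgroup S; suppose O₂(G) = 1, fix a Sylow 2-subgroup S and a 2-local subgroup M containing N_G(J(S)) (J the Thompson subgroup generated by the elementary abelian 2-subgroups of largest order). Then M is strongly embedded in G (a proper subgroup of even order whose intersection with each conjugate by an element outside M has odd order) if and only if no nontrivial 2-subgroup of M lies in a 2-local subgroup of G not contained in M. -/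
theorem result {G : Type*} [Group G] [Finite G] (hL : Cfsg.IsCharacteristicTwoType G) (hN : ∀ N : Subgroup G, Cfsg.IsTwoLocal N → Group.IsSolvable ↥N)
    (hZ : ∀ S : Sylow 2 G, Subgroup.centralizer (Cfsg.omegaCenterOf (S : Subgroup G) : Set G) ≤ Subgroup.normalizer ((S : Subgroup G) : Set G)) (hO : Cfsg.pCore 2 G = ⊥) (S : Sylow 2 G) (M : Subgroup G) (hM : Cfsg.IsTwoLocal M)
    (hMJ : Subgroup.normalizer (Cfsg.thompsonSubgroupOf 2 (S : Subgroup G) : Set G) ≤ M) :
    Cfsg.IsStronglyEmbedded M ↔ Cfsg.straddlingTwoSubgroups M = ∅ := by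
  classical
  haveI : Fact (Nat.Prime 2) := ⟨Nat.prime_two⟩
  obtain ⟨Q, hQp, hQ1, hMQ⟩ := hM
  have hQM : Q ≤ M := by rw [hMQ]; exact Subgroup.le_normalizer
  constructor
  · rintro ⟨hMtop, hMeven, hMse⟩
    have hse : ClassSE 2 M := by
      intro g hg hdvd
      have h1 := hMse g hg
      rw [← Nat.not_even_iff_odd, even_iff_two_dvd] at h1
      exact h1 hdvd
    rw [Set.eq_empty_iff_forall_notMem]
    rintro T ⟨hTp, hT1, hTM, L, ⟨R, hRp, hR1, hLR⟩, hTL, hLM⟩
    apply hLM
    have hTR : T ≤ Subgroup.normalizer (R : Set G) := by rw [← hLR]; exact hTL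
    have hDp : IsPGroup 2 ↥(T ⊔ R : Subgroup G) := IsPGroup.to_sup_of_normal_right' hTp hRp hTR
    have hDM : T ⊔ R ≤ M := by
      by_contra hne
      have hne' : (T ⊔ R) ⊓ M ≠ T ⊔ R := by
        intro h
        apply hne
        rw [← h]; exact inf_le_right
      obtain ⟨x, hxD, hxn, hxN⟩ := exists_normalizer_mem_not_mem ((T ⊔ R) ⊓ M) (T ⊔ R) hDp inf_le_left hne'
      have hIp : IsPGroup 2 ↥((T ⊔ R) ⊓ M : Subgroup G) := hDp.to_le inf_le_left
      have hI1 : (T ⊔ R) ⊓ M ≠ ⊥ := by
        intro h
        apply hT1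
        rw [eq_bot_iff, ← h]
        exact le_inf le_sup_left hTM
      have h2 := classSE_normalizer_le hse _ hIp hI1 inf_le_right hxN
      exact hxn (Subgroup.mem_inf.mpr ⟨hxD, h2⟩)
    rw [hLR]
    exact classSE_normalizer_le hse R hRp hR1 (le_sup_right.trans hDM)
  · intro hemp
    have h2Q : 2 ∣ Nat.card Q := by
      rcases hQp.card_eq_or_dvd with h | h
      · exact absurd (Subgroup.card_eq_one.mp h) hQ1
      · exact h
    refine ⟨?_, ?_, ?_⟩
    · intro htop
      apply hQ1
      rw [eq_bot_iff, ← hO]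
      apply le_pCore' _ hQp
      rw [← Subgroup.normalizer_eq_top_iff, ← hMQ, htop]
    · rw [even_iff_two_dvd]
      exact h2Q.trans (Subgroup.card_dvd_of_le hQM)
    · have hse : ClassSE 2 M := by
        apply classSE_of_normalizer_le
        intro Y hYp hY1 hYM
        by_contra hne
        have hmem : Y ∈ Cfsg.straddlingTwoSubgroups M :=
          ⟨hYp, hY1, hYM, Subgroup.normalizer (Y : Set G), ⟨Y, hYp, hY1, rfl⟩, Subgroup.le_normalizer, hne⟩
        rw [hemp] at hmem
        exact hmem
      intro g hg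
      rw [← Nat.not_even_iff_odd, even_iff_two_dvd]
      exact hse g hg

end Cfsg.Agent.S2947
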