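import Cfsg.Statements.S3103
import Cfsg.Agent.Helper17.A8Main
import Cfsg.Agent.Helper9.PConstr

set_option autoImplicit false
open Cfsg

namespace Cfsg.Agent.S3103

/-- Let X be a finite 2-constrained group with no nontrivial normal subgroup of odd order such that O₂(X) has sectional 2-rank at most 4. Then X/O₂(X) is isomorphic to a subgroup of the alternating group of degree 8. -/
theorem result {X : Type*} [Group X] [Finite X] (hc : Cfsg.IsPConstrained 2 X) (hO : Cfsg.oddCore X = ⊥)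
    (h4 : Cfsg.SectionalPRankLE 2 4 ↥(Cfsg.pCore 2 X)) :
    ∃ f : X ⧸ Cfsg.pCore 2 X →* ↥(alternatingGroup (Fin 8)), Function.Injective f := by
  haveI : Fact (Nat.Prime 2) := ⟨Nat.prime_two⟩
  have hQp : IsPGroup 2 ↥(Cfsg.pCore 2 X) := Cfsg.Agent.Helper9.pCore_isPGroup 2
  have hMp : IsPGroup 2 ↥(Cfsg.pPrimePCore 2 X) := by
    rintro ⟨x, hx⟩
    have hx' : QuotientGroup.mk' (Cfsg.pPrimeCore 2 X) x ∈
        Cfsg.pCore 2 (X ⧸ Cfsg.pPrimeCore 2 X) := hx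
    obtain ⟨k, hk⟩ := (Cfsg.Agent.Helper9.pCore_isPGroup 2 (G := X ⧸ Cfsg.pPrimeCore 2 X))
      ⟨_, hx'⟩
    refine ⟨k, Subtype.ext ?_⟩
    have h1 := congrArg Subtype.val hk
    have h2 : (QuotientGroup.mk' (Cfsg.pPrimeCore 2 X) x) ^ 2 ^ k = 1 := by simpa using h1
    rw [← map_pow] at h2
    have h3 : x ^ 2 ^ k ∈ Cfsg.pPrimeCore 2 X := (QuotientGroup.eq_one_iff _).mp h2
    have hO' : Cfsg.pPrimeCore 2 X = ⊥ := hO
    rw [hO', Subgroup.mem_bot] at h3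
    simpa using h3
  have hMn : (Cfsg.pPrimePCore 2 X).Normal := Cfsg.Agent.Helper9.pPrimePCore_normal' 2
  have hMQ : Cfsg.pPrimePCore 2 X ≤ Cfsg.pCore 2 X := Cfsg.Agent.Helper9.le_pCore hMn hMp
  obtain ⟨P⟩ : Nonempty (Sylow 2 ↥(Cfsg.pPrimePCore 2 X)) := inferInstance
  have hPtop : (P : Subgroup ↥(Cfsg.pPrimePCore 2 X)) = ⊤ :=
    (P.is_maximal' (hMp.to_subgroup ⊤) le_top).symm
  have hcen := hc P
  rw [hPtop, ← MonoidHom.range_eq_map, Subgroup.range_subtype] at hcen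
  have hC : Subgroup.centralizer ((Cfsg.pCore 2 X : Subgroup X) : Set X) ≤ Cfsg.pCore 2 X :=
    (Subgroup.centralizer_le (show ((Cfsg.pPrimePCore 2 X : Subgroup X) : Set X) ⊆
      (Cfsg.pCore 2 X : Subgroup X) from hMQ)).trans (hcen.trans hMQ)
  exact Cfsg.Agent.Helper17.a8_quot (Cfsg.pCore 2 X) hQp
    (fun K hK hKp => Cfsg.Agent.Helper9.le_pCore hK hKp) hC
    (Cfsg.Agent.Helper17.a8_card hQp h4)

end Cfsg.Agent.S3103
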