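import Cfsg.Statements.S3116
import Mathlib
import Cfsg.Agent.Helper18.AutTwo

set_option autoImplicit false
open Cfsg

namespace Cfsg.Agent.S3116

open Subgroup

/-- The automorphism group of a dihedral 2-group of order at least 8, or of a quasi-dihedral (semidihedral) 2-group of order at least 16, is a 2-group. -/
theorem result {X : Type*} [Group X] [Finite X] (h2 : IsPGroup 2 X)
    (h : (∃ n : ℕ, 4 ≤ n ∧ Nonempty (X ≃* DihedralGroup n)) ∨ Cfsg.IsQuasiDihedral X) : IsPGroup 2 (MulAut X) := by
  rcases h with ⟨m, hm, ⟨e⟩⟩ | ⟨n, hn, hcard, x, y, hx, hy, hxy⟩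
  · have : NeZero m := ⟨by omega⟩
    set x := e.symm (DihedralGroup.r 1) with hxdef
    have hox : orderOf x = m := by
      rw [hxdef, MulEquiv.orderOf_eq, DihedralGroup.orderOf_r_one]
    obtain ⟨k, hk⟩ : ∃ k, orderOf x = 2 ^ k := by
      obtain ⟨k, hk⟩ := h2 x
      obtain ⟨j, -, hj⟩ := (Nat.dvd_prime_pow Nat.prime_two).mp (orderOf_dvd_of_pow_eq_one hk)
      exact ⟨j, hj⟩
    have hcard : Nat.card X = 2 * m := by
      rw [Nat.card_congr e.toEquiv, DihedralGroup.nat_card]
    have hidx : (zpowers x).index = 2 := by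
      have h1 := (zpowers x).card_mul_index
      rw [Nat.card_zpowers, hox, hcard] at h1
      have h3 : m * (zpowers x).index = m * 2 := by rw [h1, mul_comm]
      exact Nat.eq_of_mul_eq_mul_left (by omega) h3
    refine Helper18.isPGroup_two_mulAut_of_char_cyclic_index_two x k hk hidx ?_
    intro α
    have hoα : orderOf (e (α x)) = m := by
      rw [MulEquiv.orderOf_eq, MulEquiv.orderOf_eq, hox]
    rcases hg : e (α x) with i | i
    · have h1 : α x = x ^ i.val := by
        apply e.injective
        rw [hg, map_pow, hxdef, MulEquiv.apply_symm_apply, DihedralGroup.r_one_pow,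
          ZMod.natCast_zmod_val]
      rw [h1]
      exact pow_mem (mem_zpowers x) _
    · rw [hg, DihedralGroup.orderOf_sr] at hoα
      omega
  · have hidx : (zpowers x).index = 2 := by
      have h1 := (zpowers x).card_mul_index
      rw [Nat.card_zpowers, hx, hcard, pow_succ] at h1
      exact Nat.eq_of_mul_eq_mul_left (by positivity) h1
    have hyy : y * y = 1 := by
      rw [← pow_two, ← hy, pow_orderOf_eq_one]
    have hyinv : y⁻¹ = y := inv_eq_of_mul_eq_one_left hyy
    have hpos : 2 ^ (n - 1) + 2 ^ (n - 1) = 2 ^ n := by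
      obtain ⟨k, rfl⟩ : ∃ k, n = k + 1 := ⟨n - 1, by omega⟩
      rw [Nat.add_sub_cancel, pow_succ]; ring
    have h8 : 4 ≤ 2 ^ (n - 1) := by
      have h10 : 2 ^ 2 ≤ 2 ^ (n - 1) := Nat.pow_le_pow_right (by norm_num) (by omega)
      simpa using h10
    have hyR : y ∉ zpowers x := by
      intro hyR
      obtain ⟨j, hj⟩ := hyR
      have hcomm : y * x * y⁻¹ = x := by
        rw [← hj]; group
      rw [hcomm] at hxy
      have h1 : x ^ 1 = x ^ (2 ^ (n - 1) - 1) := by rw [pow_one]; exact hxy
      rw [pow_eq_pow_iff_modEq, hx, Nat.modEq_iff_dvd' (by omega)] at h1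
      have h3 := Nat.le_of_dvd (by omega) h1
      omega
    refine Helper18.isPGroup_two_mulAut_of_char_cyclic_index_two x n hx hidx ?_
    intro α
    by_contra hα
    have h1 : y⁻¹ * α x ∈ zpowers x := by
      rw [mul_mem_iff_of_index_two hidx]
      exact ⟨fun h => absurd (by simpa using inv_mem h) hyR, fun h => absurd h hα⟩
    rw [← mem_powers_iff_mem_zpowers, Submonoid.mem_powers_iff] at h1
    obtain ⟨j, hj⟩ := h1
    have hg : α x = y * x ^ j := by rw [hj]; group
    have hconj : y * x ^ j * y = x ^ ((2 ^ (n - 1) - 1) * j) := by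
      have h3 := conj_pow (a := y) (b := x) (i := j)
      rw [hxy, hyinv, ← pow_mul] at h3
      exact h3.symm
    have hsq : α x * α x = x ^ (2 ^ (n - 1) * j) := by
      rw [hg]
      have h3 : y * x ^ j * (y * x ^ j) = (y * x ^ j * y) * x ^ j := by group
      rw [h3, hconj, ← pow_add]
      congr 1
      obtain ⟨c, hc⟩ : ∃ c, 2 ^ (n - 1) = c + 1 := ⟨2 ^ (n - 1) - 1, by omega⟩
      rw [hc, Nat.add_sub_cancel]; ring
    have h4 : (α x) ^ 4 = 1 := by
      have h3 : (α x) ^ 4 = (α x * α x) * (α x * α x) := by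
        rw [show (4 : ℕ) = 2 + 2 from rfl, pow_add, pow_two]
      rw [h3, hsq, ← pow_add, ← add_mul, hpos, ← hx, pow_mul, pow_orderOf_eq_one, one_pow]
    have ho : orderOf (α x) = 2 ^ n := by rw [MulEquiv.orderOf_eq, hx]
    have h5 := orderOf_dvd_of_pow_eq_one h4
    rw [ho] at h5
    have h6 := Nat.le_of_dvd (by norm_num) h5
    omega

end Cfsg.Agent.S3116
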