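import Cfsg.Statements.S3362
import Mathlib
import Cfsg.Agent.Helper18.WittExt

set_option autoImplicit false
open Cfsg

namespace Cfsg.Agent.S3362

open Equiv Cfsg.Agent.Helper18.WittExt

/-- the eight generators -/
def ps : Perm (Fin 12) := Equiv.swap (3 : Fin 12) 5 * Equiv.swap (3 : Fin 12) 4 * Equiv.swap (6 : Fin 12) 8 * Equiv.swap (6 : Fin 12) 7 * Equiv.swap (9 : Fin 12) 11 * Equiv.swap (9 : Fin 12) 10
def pt : Perm (Fin 12) := Equiv.swap (3 : Fin 12) 9 * Equiv.swap (3 : Fin 12) 6 * Equiv.swap (4 : Fin 12) 10 * Equiv.swap (4 : Fin 12) 7 * Equiv.swap (5 : Fin 12) 11 * Equiv.swap (5 : Fin 12) 8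
def pu : Perm (Fin 12) := Equiv.swap (4 : Fin 12) 9 * Equiv.swap (4 : Fin 12) 5 * Equiv.swap (4 : Fin 12) 6 * Equiv.swap (7 : Fin 12) 10 * Equiv.swap (7 : Fin 12) 11 * Equiv.swap (7 : Fin 12) 8
def pv : Perm (Fin 12) := Equiv.swap (4 : Fin 12) 11 * Equiv.swap (4 : Fin 12) 5 * Equiv.swap (4 : Fin 12) 7 * Equiv.swap (6 : Fin 12) 8 * Equiv.swap (6 : Fin 12) 9 * Equiv.swap (6 : Fin 12) 10
def pw : Perm (Fin 12) := Equiv.swap (4 : Fin 12) 8 * Equiv.swap (4 : Fin 12) 5 * Equiv.swap (4 : Fin 12) 10 * Equiv.swap (6 : Fin 12) 7 * Equiv.swap (6 : Fin 12) 9 * Equiv.swap (6 : Fin 12) 11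
def px₁ : Perm (Fin 12) := Equiv.swap (0 : Fin 12) 3 * Equiv.swap (6 : Fin 12) 7 * Equiv.swap (8 : Fin 12) 10 * Equiv.swap (9 : Fin 12) 11
def px₂ : Perm (Fin 12) := Equiv.swap (0 : Fin 12) 1 * Equiv.swap (6 : Fin 12) 9 * Equiv.swap (7 : Fin 12) 10 * Equiv.swap (8 : Fin 12) 11
def px₃ : Perm (Fin 12) := Equiv.swap (1 : Fin 12) 2 * Equiv.swap (6 : Fin 12) 11 * Equiv.swap (7 : Fin 12) 9 * Equiv.swap (8 : Fin 12) 10

/-- the orbit `{4, …, 11}` -/
def O1 : Finset (Fin 12) := {4, 5, 6, 7, 8, 9, 10, 11}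

/-- the chain of groups -/
def gQ : Subgroup (Perm (Fin 12)) := Subgroup.closure {pu, pv, pw}
def g9 : Subgroup (Perm (Fin 12)) := Subgroup.closure {ps, pt, pu, pv, pw}
def g10 : Subgroup (Perm (Fin 12)) := Subgroup.closure {ps, pt, pu, pv, pw, px₁}
def g11 : Subgroup (Perm (Fin 12)) := Subgroup.closure {ps, pt, pu, pv, pw, px₁, px₂}
def g12 : Subgroup (Perm (Fin 12)) := Subgroup.closure {ps, pt, pu, pv, pw, px₁, px₂, px₃}

/-! ### tables -/

theorem tabS : ∀ i j : Fin 3, ∃ i' j' : Fin 3,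
    ps * (ps ^ (i : ℕ) * pt ^ (j : ℕ)) = ps ^ (i' : ℕ) * pt ^ (j' : ℕ) := by decide +kernel

theorem tabT : ∀ i j : Fin 3, ∃ i' j' : Fin 3,
    pt * (ps ^ (i : ℕ) * pt ^ (j : ℕ)) = ps ^ (i' : ℕ) * pt ^ (j' : ℕ) := by decide +kernel

theorem tabU : ∀ i j : Fin 3, ∃ i' j' : Fin 3,
    pu * (ps ^ (i : ℕ) * pt ^ (j : ℕ)) = ps ^ (i' : ℕ) * pt ^ (j' : ℕ) * pu := by decide +kernel

theorem tabV : ∀ i j : Fin 3, ∃ i' j' : Fin 3,
    pv * (ps ^ (i : ℕ) * pt ^ (j : ℕ)) = ps ^ (i' : ℕ) * pt ^ (j' : ℕ) * pv := by decide +kernel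

theorem tabW : ∀ i j : Fin 3, ∃ i' j' : Fin 3,
    pw * (ps ^ (i : ℕ) * pt ^ (j : ℕ)) = ps ^ (i' : ℕ) * pt ^ (j' : ℕ) * pw := by decide +kernel

theorem tabQu : ∀ (i : Fin 4) (j : Fin 2), ∃ (i' : Fin 4) (j' : Fin 2),
    pu * (pu ^ (i : ℕ) * pv ^ (j : ℕ)) = pu ^ (i' : ℕ) * pv ^ (j' : ℕ) := by decide +kernel

theorem tabQv : ∀ (i : Fin 4) (j : Fin 2), ∃ (i' : Fin 4) (j' : Fin 2),
    pv * (pu ^ (i : ℕ) * pv ^ (j : ℕ)) = pu ^ (i' : ℕ) * pv ^ (j' : ℕ) := by decide +kernel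

theorem tabQw : ∀ (i : Fin 4) (j : Fin 2), ∃ (i' : Fin 4) (j' : Fin 2),
    pw * (pu ^ (i : ℕ) * pv ^ (j : ℕ)) = pu ^ (i' : ℕ) * pv ^ (j' : ℕ) := by decide +kernel

theorem factQ1 : ∀ (i : Fin 4) (j : Fin 2), (pu ^ (i : ℕ) * pv ^ (j : ℕ)) 4 = 4 →
    pu ^ (i : ℕ) * pv ^ (j : ℕ) = 1 := by decide +kernel

theorem factQ2 : ∀ (i : Fin 4) (j : Fin 2), (pu ^ (i : ℕ) * pv ^ (j : ℕ)) 4 ∈ O1 := by
  decide +kernel

theorem factQ3 : ∀ y ∈ O1, ∃ (i : Fin 4) (j : Fin 2), (pu ^ (i : ℕ) * pv ^ (j : ℕ)) 4 = y := by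
  decide +kernel

theorem factN1 : ∀ i j : Fin 3, (ps ^ (i : ℕ) * pt ^ (j : ℕ)) 3 = 3 →
    ps ^ (i : ℕ) * pt ^ (j : ℕ) = 1 := by decide +kernel

theorem factN2 : ∀ i j : Fin 3, (ps ^ (i : ℕ) * pt ^ (j : ℕ)) 3 ∈ insert 3 O1 := by
  decide +kernel

theorem factN3 : ∀ y ∈ insert 3 O1, ∃ i j : Fin 3, (ps ^ (i : ℕ) * pt ^ (j : ℕ)) 3 = y := by
  decide +kernel

/-! ### the quaternion group `Q` and `M₉` -/

theorem mem_gQ (a : Perm (Fin 12)) (ha : a ∈ gQ) :
    ∃ (i : Fin 4) (j : Fin 2), a = pu ^ (i : ℕ) * pv ^ (j : ℕ) := by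
  refine closure_induction_pos _
    (fun a => ∃ (i : Fin 4) (j : Fin 2), a = pu ^ (i : ℕ) * pv ^ (j : ℕ)) ⟨0, 0, by simp⟩ ?_ a ha
  rintro g hg y ⟨i, j, rfl⟩
  rcases hg with rfl | rfl | rfl
  · exact tabQu i j
  · exact tabQv i j
  · exact tabQw i j

theorem pow_mem_gQ (i j : ℕ) : pu ^ i * pv ^ j ∈ gQ :=
  gQ.mul_mem (gQ.pow_mem (Subgroup.subset_closure (by simp)) i)
    (gQ.pow_mem (Subgroup.subset_closure (by simp)) j)

theorem pkgQ : Pkg ⊥ gQ 4 O1 where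
  le := bot_le
  stab := by
    intro a ha h
    obtain ⟨i, j, rfl⟩ := mem_gQ a ha
    exact Subgroup.mem_bot.mpr (factQ1 i j h)
  fix := by
    intro η hη
    rw [Subgroup.mem_bot.mp hη]; rfl
  orb := by
    intro a ha
    obtain ⟨i, j, rfl⟩ := mem_gQ a ha
    exact factQ2 i j
  trans := by
    intro y hy
    obtain ⟨i, j, h⟩ := factQ3 y hy
    exact ⟨_, pow_mem_gQ i j, h⟩

theorem gQ_le_g9 : gQ ≤ g9 := by
  apply Subgroup.closure_mono
  intro z hz
  rcases hz with rfl | rfl | rfl <;> simp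

theorem mem_g9 (a : Perm (Fin 12)) (ha : a ∈ g9) :
    ∃ i j : Fin 3, ∃ q ∈ gQ, a = ps ^ (i : ℕ) * pt ^ (j : ℕ) * q := by
  refine closure_induction_pos _
    (fun a => ∃ i j : Fin 3, ∃ q ∈ gQ, a = ps ^ (i : ℕ) * pt ^ (j : ℕ) * q)
    ⟨0, 0, 1, gQ.one_mem, by simp⟩ ?_ a ha
  rintro g hg y ⟨i, j, q, hq, rfl⟩
  rcases hg with rfl | rfl | rfl | rfl | rfl
  · obtain ⟨i', j', h⟩ := tabS i j
    exact ⟨i', j', q, hq, by rw [← mul_assoc, h]⟩
  · obtain ⟨i', j', h⟩ := tabT i j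
    exact ⟨i', j', q, hq, by rw [← mul_assoc, h]⟩
  · obtain ⟨i', j', h⟩ := tabU i j
    exact ⟨i', j', pu * q, gQ.mul_mem (Subgroup.subset_closure (by simp)) hq,
      by rw [← mul_assoc, h, mul_assoc]⟩
  · obtain ⟨i', j', h⟩ := tabV i j
    exact ⟨i', j', pv * q, gQ.mul_mem (Subgroup.subset_closure (by simp)) hq,
      by rw [← mul_assoc, h, mul_assoc]⟩
  · obtain ⟨i', j', h⟩ := tabW i j
    exact ⟨i', j', pw * q, gQ.mul_mem (Subgroup.subset_closure (by simp)) hq,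
      by rw [← mul_assoc, h, mul_assoc]⟩

theorem gQ_fix3 : ∀ a ∈ gQ, a 3 = 3 := by
  apply fix_of_closure
  intro g hg
  rcases hg with rfl | rfl | rfl <;> decide +kernel

theorem pow_mem_g9 (i j : ℕ) : ps ^ i * pt ^ j ∈ g9 :=
  g9.mul_mem (g9.pow_mem (Subgroup.subset_closure (by simp)) i)
    (g9.pow_mem (Subgroup.subset_closure (by simp)) j)

theorem pkg9 : Pkg gQ g9 3 (insert 3 O1) where
  le := gQ_le_g9
  stab := by
    intro a ha h
    obtain ⟨i, j, q, hq, rfl⟩ := mem_g9 a ha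
    rw [Perm.mul_apply, gQ_fix3 q hq] at h
    rw [factN1 i j h, one_mul]
    exact hq
  fix := gQ_fix3
  orb := by
    intro a ha
    obtain ⟨i, j, q, hq, rfl⟩ := mem_g9 a ha
    rw [Perm.mul_apply, gQ_fix3 q hq]
    exact factN2 i j
  trans := by
    intro y hy
    obtain ⟨i, j, h⟩ := factN3 y hy
    exact ⟨_, pow_mem_g9 i j, h⟩

/-! ### the three extensions -/

theorem g10_eq : g10 = g9 ⊔ Subgroup.closure {px₁} := by
  unfold g10 g9
  rw [← Subgroup.closure_union]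
  congr 1
  ext z
  simp only [Set.mem_insert_iff, Set.mem_singleton_iff, Set.mem_union, or_assoc]

theorem g11_eq : g11 = g10 ⊔ Subgroup.closure {px₂} := by
  unfold g11 g10
  rw [← Subgroup.closure_union]
  congr 1
  ext z
  simp only [Set.mem_insert_iff, Set.mem_singleton_iff, Set.mem_union, or_assoc]

theorem g12_eq : g12 = g11 ⊔ Subgroup.closure {px₃} := by
  unfold g12 g11
  rw [← Subgroup.closure_union]
  congr 1
  ext z
  simp only [Set.mem_insert_iff, Set.mem_singleton_iff, Set.mem_union, or_assoc]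

theorem pkg10 : Pkg g9 g10 0 (insert 0 (insert 3 O1)) := by
  have hgm : ps ^ 2 * pt ∈ g9 := by
    have := pow_mem_g9 2 1
    rwa [pow_one] at this
  refine pkg9.extend 0 ?_ (by decide) px₁ (by decide +kernel) (by decide +kernel) ?_
    (ps ^ 2 * pt) hgm (by decide +kernel) (by decide +kernel) ?_
    g10 g10_eq
  · apply fix_of_closure
    intro g hg
    rcases hg with rfl | rfl | rfl | rfl | rfl <;> decide +kernel
  · apply conj_closure _ px₁ (by decide +kernel)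
    intro g hg
    rcases hg with rfl | rfl | rfl
    · rw [show px₁ * pu * px₁ = pv by decide +kernel]
      exact Subgroup.subset_closure (by simp)
    · rw [show px₁ * pv * px₁ = pu by decide +kernel]
      exact Subgroup.subset_closure (by simp)
    · rw [show px₁ * pw * px₁ = pw ^ 3 by decide +kernel]
      exact Subgroup.pow_mem _ (Subgroup.subset_closure (by simp)) 3
  · intro y hy hy3 y' hy' hy'3
    exact pkgQ.two_trans y ((Finset.mem_insert.mp hy).resolve_left hy3) y'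
      ((Finset.mem_insert.mp hy').resolve_left hy'3)

theorem g9_le_g10 : g9 ≤ g10 := pkg10.le

theorem px₁_mem_g10 : px₁ ∈ g10 := Subgroup.subset_closure (by simp)

theorem pkg11 : Pkg g10 g11 1 (insert 1 (insert 0 (insert 3 O1))) := by
  refine pkg10.extend 1 ?_ (by decide) px₂ (by decide +kernel) (by decide +kernel) ?_
    px₁ px₁_mem_g10 (by decide +kernel) (by decide +kernel) ?_
    g11 g11_eq
  · apply fix_of_closure
    intro g hg
    rcases hg with rfl | rfl | rfl | rfl | rfl | rfl <;> decide +kernel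
  · apply conj_closure _ px₂ (by decide +kernel)
    intro g hg
    rcases hg with rfl | rfl | rfl | rfl | rfl
    · rw [show px₂ * ps * px₂ = ps by decide +kernel]
      exact Subgroup.subset_closure (by simp)
    · rw [show px₂ * pt * px₂ = pt ^ 2 by decide +kernel]
      exact Subgroup.pow_mem _ (Subgroup.subset_closure (by simp)) 2
    · rw [show px₂ * pu * px₂ = pu ^ 3 by decide +kernel]
      exact Subgroup.pow_mem _ (Subgroup.subset_closure (by simp)) 3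
    · rw [show px₂ * pv * px₂ = pw by decide +kernel]
      exact Subgroup.subset_closure (by simp)
    · rw [show px₂ * pw * px₂ = pv by decide +kernel]
      exact Subgroup.subset_closure (by simp)
  · intro y hy hy3 y' hy' hy'3
    exact pkg9.two_trans y ((Finset.mem_insert.mp hy).resolve_left hy3) y'
      ((Finset.mem_insert.mp hy').resolve_left hy'3)

theorem px₂_mem_g11 : px₂ ∈ g11 := Subgroup.subset_closure (by simp)

theorem pkg12 : Pkg g11 g12 2 (insert 2 (insert 1 (insert 0 (insert 3 O1)))) := by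
  refine pkg11.extend 2 ?_ (by decide) px₃ (by decide +kernel) (by decide +kernel) ?_
    px₂ px₂_mem_g11 (by decide +kernel) (by decide +kernel) ?_
    g12 g12_eq
  · apply fix_of_closure
    intro g hg
    rcases hg with rfl | rfl | rfl | rfl | rfl | rfl | rfl <;> decide +kernel
  · apply conj_closure _ px₃ (by decide +kernel)
    intro g hg
    have hs : ps ∈ g10 := Subgroup.subset_closure (by simp)
    have ht : pt ∈ g10 := Subgroup.subset_closure (by simp)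
    rcases hg with rfl | rfl | rfl | rfl | rfl | rfl
    · rw [show px₃ * ps * px₃ = ps by decide +kernel]
      exact hs
    · rw [show px₃ * pt * px₃ = ps ^ 2 * pt ^ 2 by decide +kernel]
      exact g10.mul_mem (g10.pow_mem hs 2) (g10.pow_mem ht 2)
    · rw [show px₃ * pu * px₃ = pv ^ 3 by decide +kernel]
      exact Subgroup.pow_mem _ (Subgroup.subset_closure (by simp)) 3
    · rw [show px₃ * pv * px₃ = pu ^ 3 by decide +kernel]
      exact Subgroup.pow_mem _ (Subgroup.subset_closure (by simp)) 3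
    · rw [show px₃ * pw * px₃ = pw ^ 3 by decide +kernel]
      exact Subgroup.pow_mem _ (Subgroup.subset_closure (by simp)) 3
    · rw [show px₃ * px₁ * px₃ = px₁ by decide +kernel]
      exact px₁_mem_g10
  · intro y hy hy3 y' hy' hy'3
    exact pkg10.two_trans y ((Finset.mem_insert.mp hy).resolve_left hy3) y'
      ((Finset.mem_insert.mp hy').resolve_left hy'3)

/-! ### orders -/

theorem card_gQ : Nat.card gQ = 8 := by
  rw [pkgQ.card, Subgroup.card_bot]; rfl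

theorem card_g9 : Nat.card g9 = 72 := by
  rw [pkg9.card, card_gQ]; rfl

theorem card_g10 : Nat.card g10 = 720 := by
  rw [pkg10.card, card_g9]; rfl

theorem card_g11 : Nat.card g11 = 7920 := by
  rw [pkg11.card, card_g10]; rfl

theorem card_g12 : Nat.card g12 = 95040 := by
  rw [pkg12.card, card_g11]; rfl

/-- the standard 5-tuple -/
def std : Fin 5 ↪ Fin 12 := ⟨![2, 1, 0, 3, 4], by decide⟩

theorem fix_std (g : Perm (Fin 12)) (hg : g ∈ g12) (hi : ∀ i, g (std i) = std i) : g = 1 := by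
  have h2 : g 2 = 2 := hi 0
  have h1 : g 1 = 1 := hi 1
  have h0 : g 0 = 0 := hi 2
  have h3 : g 3 = 3 := hi 3
  have h4 : g 4 = 4 := hi 4
  have m11 := pkg12.stab g hg h2
  have m10 := pkg11.stab g m11 h1
  have m9 := pkg10.stab g m10 h0
  have mQ := pkg9.stab g m9 h3
  have m1 := pkgQ.stab g mQ h4
  exact Subgroup.mem_bot.mp m1

theorem stab_std : MulAction.stabilizer g12 std = ⊥ := by
  rw [Subgroup.eq_bot_iff_forall]
  rintro ⟨g, hg⟩ hgs
  rw [MulAction.mem_stabilizer_iff] at hgs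
  have hi : ∀ i, g (std i) = std i := by
    intro i
    exact congrArg (fun f : Fin 5 ↪ Fin 12 => f i) hgs
  exact Subtype.ext (fix_std g hg hi)

theorem card_emb : Nat.card (Fin 5 ↪ Fin 12) = 95040 := by
  rw [Nat.card_eq_fintype_card, Fintype.card_embedding_eq, Fintype.card_fin, Fintype.card_fin]
  rfl

theorem orbit_std : MulAction.orbit g12 std = Set.univ := by
  have hidx := MulAction.index_stabilizer g12 std
  rw [stab_std, Subgroup.index_bot, card_g12] at hidx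
  apply Set.eq_of_subset_of_ncard_le (Set.subset_univ _)
  rw [Set.ncard_univ, card_emb]
  exact le_of_eq hidx

theorem move_std (y : Fin 5 ↪ Fin 12) : ∃ g ∈ g12, ∀ i, g (std i) = y i := by
  have hy : y ∈ MulAction.orbit g12 std := by rw [orbit_std]; trivial
  obtain ⟨⟨g, hg⟩, h⟩ := hy
  exact ⟨g, hg, fun i => congrArg (fun f : Fin 5 ↪ Fin 12 => f i) h⟩

theorem trans5 (x y : Fin 5 ↪ Fin 12) : ∃ g ∈ g12, ∀ i, g (x i) = y i := by
  obtain ⟨a, ha, hax⟩ := move_std x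
  obtain ⟨b, hb, hby⟩ := move_std y
  refine ⟨b * a⁻¹, g12.mul_mem hb (g12.inv_mem ha), ?_⟩
  intro i
  rw [Perm.mul_apply, ← hax i]
  simp [hby i]

theorem sharp5 (y : Fin 5 ↪ Fin 12) (g : Perm (Fin 12)) (hg : g ∈ g12)
    (hi : ∀ i, g (y i) = y i) : g = 1 := by
  obtain ⟨b, hb, hby⟩ := move_std y
  have h1 : b⁻¹ * g * b = 1 := by
    apply fix_std _ (g12.mul_mem (g12.mul_mem (g12.inv_mem hb) hg) hb)
    intro i
    rw [Perm.mul_apply, Perm.mul_apply, hby i, hi i, ← hby i]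
    simp
  calc g = b * (b⁻¹ * g * b) * b⁻¹ := by group
    _ = 1 := by rw [h1]; group

theorem main :
    MulAction.IsMultiplyPretransitive g12 (Fin 12) 5 ∧
    (∀ y : Fin 5 ↪ Fin 12, MulAction.stabilizer g12 y = ⊥) ∧
    Nat.card g12 = 95040 ∧ Nat.card g11 = 7920 ∧
    g11 = g12 ⊓ MulAction.stabilizer (Equiv.Perm (Fin 12)) (2 : Fin 12) := by
  refine ⟨⟨?_⟩, ?_, card_g12, card_g11, ?_⟩
  · intro x y
    obtain ⟨g, hg, h⟩ := trans5 x y
    refine ⟨⟨g, hg⟩, ?_⟩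
    ext i
    exact congrArg Fin.val (h i)
  · intro y
    rw [Subgroup.eq_bot_iff_forall]
    rintro ⟨g, hg⟩ hgs
    rw [MulAction.mem_stabilizer_iff] at hgs
    have hi : ∀ i, g (y i) = y i := by
      intro i
      exact congrArg (fun f : Fin 5 ↪ Fin 12 => f i) hgs
    exact Subtype.ext (sharp5 y g hg hi)
  · ext a
    rw [Subgroup.mem_inf, MulAction.mem_stabilizer_iff]
    constructor
    · intro ha
      exact ⟨pkg12.le ha, pkg12.fix a ha⟩
    · rintro ⟨ha, h2⟩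
      exact pkg12.stab a ha h2

/-- An explicit construction of the Mathieu groups of degrees 11 and 12. On the points 0, …, 11 let s = (3 4 5)(6 7 8)(9 10 11), t = (3 6 9)(4 7 10)(5 8 11), u = (4 6 5 9)(7 8 11 10), v = (4 7 5 11)(6 10 9 8), w = (4 10 5 8)(6 11 9 7), x₁ = (0 3)(6 7)(8 10)(9 11), x₂ = (0 1)(6 9)(7 10)(8 11), x₃ = (1 2)(6 11)(7 9)(8 10) (each written as a product of transpositions). Then the group M₁₂ generated by all eight permutations is sharply 5-transitive on the 12 points and has order 95040, and the group M₁₁ generated by the first seven has order 7920 and is the stabilizer of the point 2 in M₁₂. -/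
theorem result
    (s t u v w x₁ x₂ x₃ : Equiv.Perm (Fin 12))
    (hs : s = Equiv.swap (3 : Fin 12) 5 * Equiv.swap (3 : Fin 12) 4 * Equiv.swap (6 : Fin 12) 8 * Equiv.swap (6 : Fin 12) 7 * Equiv.swap (9 : Fin 12) 11 * Equiv.swap (9 : Fin 12) 10) (ht : t = Equiv.swap (3 : Fin 12) 9 * Equiv.swap (3 : Fin 12) 6 * Equiv.swap (4 : Fin 12) 10 * Equiv.swap (4 : Fin 12) 7 * Equiv.swap (5 : Fin 12) 11 * Equiv.swap (5 : Fin 12) 8)
    (hu : u = Equiv.swap (4 : Fin 12) 9 * Equiv.swap (4 : Fin 12) 5 * Equiv.swap (4 : Fin 12) 6 * Equiv.swap (7 : Fin 12) 10 * Equiv.swap (7 : Fin 12) 11 * Equiv.swap (7 : Fin 12) 8) (hv : v = Equiv.swap (4 : Fin 12) 11 * Equiv.swap (4 : Fin 12) 5 * Equiv.swap (4 : Fin 12) 7 * Equiv.swap (6 : Fin 12) 8 * Equiv.swap (6 : Fin 12) 9 * Equiv.swap (6 : Fin 12) 10) (hw : w = Equiv.swap (4 : Fin 12) 8 * Equiv.swap (4 : Fin 12) 5 * Equiv.swap (4 : Fin 12) 10 * Equiv.swap (6 : Fin 12) 7 * Equiv.swap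 (6 : Fin 12) 9 * Equiv.swap (6 : Fin 12) 11)
    (hx₁ : x₁ = Equiv.swap (0 : Fin 12) 3 * Equiv.swap (6 : Fin 12) 7 * Equiv.swap (8 : Fin 12) 10 * Equiv.swap (9 : Fin 12) 11) (hx₂ : x₂ = Equiv.swap (0 : Fin 12) 1 * Equiv.swap (6 : Fin 12) 9 * Equiv.swap (7 : Fin 12) 10 * Equiv.swap (8 : Fin 12) 11)
    (hx₃ : x₃ = Equiv.swap (1 : Fin 12) 2 * Equiv.swap (6 : Fin 12) 11 * Equiv.swap (7 : Fin 12) 9 * Equiv.swap (8 : Fin 12) 10)
    (M₁₂ M₁₁ : Subgroup (Equiv.Perm (Fin 12))) (hM₁₂ : M₁₂ = Subgroup.closure {s, t, u, v, w, x₁, x₂, x₃})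
    (hM₁₁ : M₁₁ = Subgroup.closure {s, t, u, v, w, x₁, x₂}) :
    MulAction.IsMultiplyPretransitive M₁₂ (Fin 12) 5 ∧ (∀ y : Fin 5 ↪ Fin 12, MulAction.stabilizer M₁₂ y = ⊥) ∧
    Nat.card M₁₂ = 95040 ∧ Nat.card M₁₁ = 7920 ∧
    M₁₁ = M₁₂ ⊓ MulAction.stabilizer (Equiv.Perm (Fin 12)) (2 : Fin 12) := by
  subst hs ht hu hv hw hx₁ hx₂ hx₃ hM₁₂ hM₁₁
  exact main

end Cfsg.Agent.S3362
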