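import Cfsg.Statements.S3370
import Cfsg.Agent.S0016
import Cfsg.Agent.S0519
import Cfsg.Agent.S1337

set_option autoImplicit false
open Cfsg

namespace Cfsg.Agent.S3370

theorem nt_two {p a n : ℕ} (hp : p.Prime) (h : p ^ a + 1 = 2 ^ n) (ha : 2 ≤ a) : False := by
  have hodd : Odd p := by
    rcases hp.eq_two_or_odd' with rfl | ho
    · exfalso
      have hn : n ≠ 0 := by
        rintro rfl
        have : 0 < 2 ^ a := by positivity
        simp at h
      have h1 : 2 ∣ 2 ^ n := dvd_pow_self 2 hn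
      have h2 : 2 ∣ 2 ^ a := dvd_pow_self 2 (by omega)
      rw [← h] at h1
      have := (Nat.dvd_add_right h2).1 h1
      omega
    · exact ho
  have hp3 : 3 ≤ p := by
    have := hp.two_le
    rcases hodd with ⟨m, hm⟩
    omega
  have hpa : p ^ 2 ≤ p ^ a := Nat.pow_le_pow_right hp.pos ha
  have hpp : 3 * p ≤ p ^ 2 := by rw [pow_two]; exact Nat.mul_le_mul_right p hp3
  have hn2 : 2 ≤ n := by
    by_contra hlt
    have : n = 0 ∨ n = 1 := by omega
    rcases this with rfl | rfl <;> simp at h <;> omega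
  have h4 : 4 ∣ 2 ^ n := by
    have : (4 : ℕ) = 2 ^ 2 := by norm_num
    rw [this]
    exact pow_dvd_pow 2 hn2
  have haodd : Odd a := by
    by_contra hev
    rw [Nat.not_odd_iff_even] at hev
    obtain ⟨c, hc⟩ := hev
    have h1 : p ^ a = (p ^ c) ^ 2 := by rw [hc, ← two_mul, mul_comm, pow_mul]
    obtain ⟨r, hr⟩ : Odd (p ^ c) := hodd.pow
    have h2 : (p ^ c) ^ 2 = 4 * (r * r + r) + 1 := by rw [hr]; ring
    rw [← h, h1, h2] at h4
    omega
  have hdvd : p + 1 ∣ 2 ^ n := by
    have := Odd.nat_add_dvd_pow_add_pow p 1 haodd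
    rw [one_pow, h] at this
    exact this
  obtain ⟨k, hkn, hk⟩ := (Nat.dvd_prime_pow Nat.prime_two).1 hdvd
  obtain ⟨m, hm⟩ := hodd
  have e : 2 * m + 2 = 2 ^ k := by omega
  have hp2 : p ^ 2 = 1 + 2 ^ (k + 1) * m := by
    calc p ^ 2 = (2 * m + 1) ^ 2 := by rw [hm]
      _ = 1 + (2 * m + 2) * (2 * m) := by ring
      _ = 1 + 2 ^ k * (2 * m) := by rw [e]
      _ = 1 + 2 ^ (k + 1) * m := by ring
  have h2 : p ^ 2 ≡ 1 [MOD 2 ^ (k + 1)] := by
    rw [hp2]
    simp [Nat.ModEq, Nat.add_mul_mod_self_left]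
  obtain ⟨b, hb⟩ := haodd
  have h3 : p ^ a ≡ p [MOD 2 ^ (k + 1)] := by
    have e2 : p ^ a = (p ^ 2) ^ b * p := by rw [hb, pow_succ, pow_mul]
    rw [e2]
    simpa using (h2.pow b).mul_right p
  by_cases hlt : k < n
  · have h5 : 2 ^ (k + 1) ∣ p ^ a + 1 := by
      rw [h]
      exact pow_dvd_pow 2 (by omega)
    have h6 : p ^ a + 1 ≡ p + 1 [MOD 2 ^ (k + 1)] := h3.add_right 1
    have h7 : 2 ^ (k + 1) ∣ p + 1 := (Nat.modEq_zero_iff_dvd).1 (h6.symm.trans ((Nat.modEq_zero_iff_dvd).2 h5))
    rw [hk] at h7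
    have h8 := Nat.le_of_dvd (by positivity) h7
    have h9 : 2 ^ k < 2 ^ (k + 1) := Nat.pow_lt_pow_right (by norm_num) (by omega)
    omega
  · have hkn' : k = n := by omega
    subst hkn'
    omega

theorem nt_odd {q n a : ℕ} (hq : q.Prime) (hq2 : q ≠ 2) (h : q ^ n = 2 ^ a + 1) (hn : 2 ≤ n) :
    q = 3 ∧ n = 2 := by
  have hodd : Odd q := by
    rcases hq.eq_two_or_odd' with rfl | ho
    · exact absurd rfl hq2
    · exact ho
  have hq3 : 3 ≤ q := by
    have := hq.two_le
    rcases hodd with ⟨m, hm⟩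
    omega
  rcases Nat.even_or_odd n with hev | hod
  · obtain ⟨c, hc⟩ := hev
    have hc1 : 1 ≤ c := by omega
    have hx3 : 3 ≤ q ^ c := by
      calc 3 ≤ q := hq3
        _ = q ^ 1 := (pow_one q).symm
        _ ≤ q ^ c := Nat.pow_le_pow_right hq.pos hc1
    obtain ⟨y, hy⟩ : ∃ y, q ^ c = y + 1 := ⟨q ^ c - 1, by omega⟩
    have h1 : q ^ n = (y + 1) ^ 2 := by rw [hc, ← two_mul, mul_comm, pow_mul, hy]
    have h2 : y * (y + 2) = 2 ^ a := by
      have : (y + 1) ^ 2 = y * (y + 2) + 1 := by ring
      omega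
    obtain ⟨i, -, hi⟩ := (Nat.dvd_prime_pow Nat.prime_two).1 (Dvd.intro _ h2)
    obtain ⟨j, -, hj⟩ := (Nat.dvd_prime_pow Nat.prime_two).1 (Dvd.intro_left _ h2)
    have hij : 2 ^ j = 2 ^ i + 2 := by omega
    have hi1 : i = 1 := by
      by_contra hi1
      have hi2 : 2 ≤ i := by
        by_contra hlt
        have hi0 : i = 0 := by omega
        subst hi0
        simp at hi
        omega
      have hj2 : 2 ≤ j := by
        by_contra hlt
        have : j = 0 ∨ j = 1 := by omega
        have h4 : 4 ≤ 2 ^ i := by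
          calc 4 = 2 ^ 2 := by norm_num
            _ ≤ 2 ^ i := Nat.pow_le_pow_right (by norm_num) hi2
        rcases this with rfl | rfl <;> simp at hij <;> omega
      obtain ⟨u, hu⟩ : 4 ∣ 2 ^ i := by
        have : (4 : ℕ) = 2 ^ 2 := by norm_num
        rw [this]
        exact pow_dvd_pow 2 hi2
      obtain ⟨w, hw⟩ : 4 ∣ 2 ^ j := by
        have : (4 : ℕ) = 2 ^ 2 := by norm_num
        rw [this]
        exact pow_dvd_pow 2 hj2
      omega
    subst hi1
    have hqc : q ^ c = 3 := by omega
    have hq3' : q = 3 := by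
      have : q ∣ 3 := by
        rw [← hqc]
        exact dvd_pow_self q (by omega)
      exact (Nat.prime_dvd_prime_iff_eq hq Nat.prime_three).1 this
    subst hq3'
    have hc' : c = 1 := by
      have : (3 : ℕ) ^ c = 3 ^ 1 := by rw [hqc]; norm_num
      exact Nat.pow_right_injective (show 2 ≤ 3 by norm_num) this
    exact ⟨rfl, by omega⟩
  · exfalso
    obtain ⟨b, hb⟩ := hod
    have hdvd : q - 1 ∣ 2 ^ a := by
      have := Nat.sub_dvd_pow_sub_pow q 1 n
      rw [one_pow, h] at this
      simpa using this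
    obtain ⟨k, hka, hk⟩ := (Nat.dvd_prime_pow Nat.prime_two).1 hdvd
    obtain ⟨m, hm⟩ := hodd
    have e : 2 * m = 2 ^ k := by omega
    have hq2' : q ^ 2 = 1 + 2 ^ (k + 1) * (m + 1) := by
      calc q ^ 2 = (2 * m + 1) ^ 2 := by rw [hm]
        _ = 1 + (2 * m) * (2 * m + 2) := by ring
        _ = 1 + 2 ^ k * (2 * m + 2) := by rw [e]
        _ = 1 + 2 ^ (k + 1) * (m + 1) := by ring
    have h2 : q ^ 2 ≡ 1 [MOD 2 ^ (k + 1)] := by
      rw [hq2']
      simp [Nat.ModEq, Nat.add_mul_mod_self_left]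
    have h3 : q ^ n ≡ q [MOD 2 ^ (k + 1)] := by
      have e2 : q ^ n = (q ^ 2) ^ b * q := by rw [hb, pow_succ, pow_mul]
      rw [e2]
      simpa using (h2.pow b).mul_right q
    have hqn : q ^ 2 ≤ q ^ n := Nat.pow_le_pow_right hq.pos hn
    have hqq : 3 * q ≤ q ^ 2 := by rw [pow_two]; exact Nat.mul_le_mul_right q hq3
    by_cases hlt : k < a
    · have h5 : 2 ^ (k + 1) ∣ 2 ^ a := pow_dvd_pow 2 (by omega)
      have h6 : 2 ^ a + 1 ≡ 1 [MOD 2 ^ (k + 1)] := by
        have := ((Nat.modEq_zero_iff_dvd).2 h5).add_right 1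
        simpa using this
      rw [← h] at h6
      have h7 : 1 ≡ q [MOD 2 ^ (k + 1)] := h6.symm.trans h3
      have h8 : 2 ^ (k + 1) ∣ q - 1 := (Nat.modEq_iff_dvd' (by omega)).1 h7
      rw [hk] at h8
      have h9 := Nat.le_of_dvd (by positivity) h8
      have h10 : 2 ^ k < 2 ^ (k + 1) := Nat.pow_lt_pow_right (by norm_num) (by omega)
      omega
    · have hka' : k = a := by omega
      subst hka'
      omega

/-- the action of `G` on `V` through `ρ` -/
@[reducible] def act {q : ℕ} {V : Type*} [AddCommGroup V] [Module (ZMod q) V] {G : Type*} [Group G]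
    (ρ : G →* (V ≃ₗ[ZMod q] V)) : MulAction G V where
  smul g v := ρ g v
  one_smul v := by
    show ρ 1 v = v
    rw [map_one]; rfl
  mul_smul g h v := by
    show ρ (g * h) v = ρ g (ρ h v)
    rw [map_mul]; rfl

theorem card_eq {q : ℕ} {V : Type*} [AddCommGroup V] [Module (ZMod q) V] [Finite V]
    {G : Type*} [Group G] [Finite G] (ρ : G →* (V ≃ₗ[ZMod q] V))
    (htrans : ∀ v w : V, v ≠ 0 → w ≠ 0 → ∃ g : G, ρ g v = w) (v : V) (hv : v ≠ 0) :
    ∃ S : Subgroup G, (∀ g, g ∈ S ↔ ρ g v = v) ∧ Nat.card G = (Nat.card V - 1) * Nat.card S := by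
  letI := act ρ
  refine ⟨MulAction.stabilizer G v, fun g => Iff.rfl, ?_⟩
  have h1 : MulAction.orbit G v = ({0}ᶜ : Set V) := by
    ext w
    simp only [MulAction.mem_orbit_iff, Set.mem_compl_iff, Set.mem_singleton_iff]
    constructor
    · rintro ⟨g, rfl⟩
      intro h0
      exact hv ((ρ g).map_eq_zero_iff.1 h0)
    · intro hw
      obtain ⟨g, hg⟩ := htrans v w hv hw
      exact ⟨g, hg⟩
  have h2 := MulAction.index_stabilizer G v
  rw [h1, Set.ncard_compl, Set.ncard_singleton] at h2
  rw [← Subgroup.card_mul_index (MulAction.stabilizer G v), h2, mul_comm]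

section Nine
variable {V : Type*} [AddCommGroup V] [Module (ZMod 3) V]

theorem z3_cases : ∀ c : ZMod 3, c = 0 ∨ c = 1 ∨ c = -1 := by decide

theorem z3_add3 : ∀ c : ZMod 3, c + c + c = 0 := by decide

theorem z3_add2 : ∀ c : ZMod 3, c + c = 0 → c = 0 := by decide

/-- independence of two vectors of a space over the field with three elements -/
def Ind (v w : V) : Prop := v ≠ 0 ∧ ∀ c : ZMod 3, w ≠ c • v

theorem ind_key {v w : V} (h : Ind v w) (c d : ZMod 3) (hcd : c • v = d • w) : c = 0 ∧ d = 0 := by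
  have hd : d = 0 := by
    rcases z3_cases d with rfl | rfl | rfl
    · rfl
    · exfalso
      apply h.2 c
      rw [hcd, one_smul]
    · exfalso
      apply h.2 (-c)
      rw [neg_smul, hcd, neg_smul, one_smul, neg_neg]
  subst hd
  rw [zero_smul] at hcd
  rcases smul_eq_zero.1 hcd with h0 | h0
  · exact ⟨h0, rfl⟩
  · exact absurd h0 h.1

theorem ind_ne_zero {v w : V} (h : Ind v w) : w ≠ 0 := by
  intro h0
  apply h.2 0
  rw [h0, zero_smul]

theorem exists_ind [Finite V] (hV : Nat.card V = 9) (v : V) (hv : v ≠ 0) : ∃ w : V, Ind v w := by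
  by_contra hcon
  have hsurj : Function.Surjective (fun c : ZMod 3 => c • v) := by
    intro w
    by_contra hw
    apply hcon
    refine ⟨w, hv, fun c hc => hw ⟨c, hc.symm⟩⟩
  have := Nat.card_le_card_of_surjective _ hsurj
  rw [hV, Nat.card_zmod] at this
  omega

theorem span2 [Finite V] (hV : Nat.card V = 9) {v w : V} (h : Ind v w) (u : V) :
    ∃ a b : ZMod 3, u = a • v + b • w := by
  have hinj : Function.Injective (fun x : ZMod 3 × ZMod 3 => x.1 • v + x.2 • w) := by
    rintro ⟨a, b⟩ ⟨a', b'⟩ hab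
    simp only at hab
    have h1 : (a - a') • v = (b' - b) • w := by
      rw [sub_smul, sub_smul, sub_eq_sub_iff_add_eq_add, hab, add_comm]
    obtain ⟨h2, h3⟩ := ind_key h _ _ h1
    rw [sub_eq_zero] at h2 h3
    rw [h2, h3]
  have hbij := (Nat.bijective_iff_injective_and_card _).2
    ⟨hinj, by rw [Nat.card_prod, Nat.card_zmod, hV]⟩
  obtain ⟨⟨a, b⟩, hab⟩ := hbij.2 u
  exact ⟨a, b, hab.symm⟩

variable {G : Type*} [Group G] [Finite G] (ρ : G →* (V ≃ₗ[ZMod 3] V))

theorem ext2 [Finite V] (hρ : Function.Injective ρ) (hV : Nat.card V = 9) {v w : V} (h : Ind v w)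
    (g k : G) (h1 : ρ g v = ρ k v) (h2 : ρ g w = ρ k w) : g = k := by
  apply hρ
  ext u
  obtain ⟨a, b, rfl⟩ := span2 hV h u
  simp [map_add, map_smul, h1, h2]

theorem stab_one [Finite V] (hρ : Function.Injective ρ) (hV : Nat.card V = 9) (hG : IsPGroup 2 G)
    {v w : V} (h : Ind v w) (k : G) (hk : ρ k v = v) (a : ZMod 3) (hkw : ρ k w = a • v + w) :
    k = 1 := by
  have h3 : k * k * k = 1 := by
    apply ext2 ρ hρ hV h
    · simp [map_mul, hk]
    · simp only [map_mul, map_one, LinearEquiv.mul_apply, LinearEquiv.coe_one, id_eq, hkw, map_add,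
        map_smul, hk]
      rw [← add_assoc, ← add_assoc, ← add_smul, ← add_smul, z3_add3, zero_smul, zero_add]
  have h3' : k ^ 3 = 1 := by rw [pow_succ, pow_two]; exact h3
  obtain ⟨j, hj⟩ := hG k
  have hg : k ^ Nat.gcd (2 ^ j) 3 = 1 := pow_gcd_eq_one.2 ⟨hj, h3'⟩
  have hcop : Nat.gcd (2 ^ j) 3 = 1 := Nat.Coprime.pow_left j (by norm_num)
  rw [hcop, pow_one] at hg
  exact hg

theorem stab_neg [Finite V] (hρ : Function.Injective ρ) (hV : Nat.card V = 9) (hG : IsPGroup 2 G)
    {v w : V} (h : Ind v w) (g : G) (hg : ρ g v = v) (hg1 : g ≠ 1) :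
    ∃ a : ZMod 3, ρ g w = a • v - w := by
  obtain ⟨a, b, hab⟩ := span2 hV h (ρ g w)
  rcases z3_cases b with rfl | rfl | rfl
  · exfalso
    rw [zero_smul, add_zero] at hab
    have h1 : ρ g w = ρ g (a • v) := by rw [map_smul, hg, hab]
    exact h.2 a ((ρ g).injective h1)
  · exfalso
    rw [one_smul] at hab
    exact hg1 (stab_one ρ hρ hV hG h g hg a hab)
  · refine ⟨a, ?_⟩
    rw [hab, neg_smul, one_smul, sub_eq_add_neg]

theorem stab_str [Finite V] (hρ : Function.Injective ρ) (hV : Nat.card V = 9) (hG : IsPGroup 2 G)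
    {v : V} (hv : v ≠ 0) (g : G) (hg : ρ g v = v) (hg1 : g ≠ 1) :
    g * g = 1 ∧ (∀ k : G, ρ k v = v → k ≠ 1 → k = g) ∧ ∃ w : V, Ind v w ∧ ρ g w = -w := by
  obtain ⟨w, h⟩ := exists_ind hV v hv
  have key : ∀ g k : G, ρ g v = v → g ≠ 1 → ρ k v = v → k ≠ 1 → g * k = 1 := by
    intro g k hg hg1 hk hk1
    obtain ⟨a, ha⟩ := stab_neg ρ hρ hV hG h g hg hg1
    obtain ⟨b, hb⟩ := stab_neg ρ hρ hV hG h k hk hk1
    apply stab_one ρ hρ hV hG h (g * k) (by simp [map_mul, hk, hg]) (b - a)
    simp only [map_mul, LinearEquiv.mul_apply, hb, map_sub, map_smul, hg, ha]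
    rw [sub_smul]
    abel
  have hgg := key g g hg hg1 hg hg1
  refine ⟨hgg, ?_, ?_⟩
  · intro k hk hk1
    have h1 := key g k hg hg1 hk hk1
    have h2 : g * k = g * g := by rw [h1, hgg]
    exact mul_left_cancel h2
  · obtain ⟨a, ha⟩ := stab_neg ρ hρ hV hG h g hg hg1
    refine ⟨w + a • v, ⟨hv, ?_⟩, ?_⟩
    · intro c hc
      apply h.2 (c - a)
      rw [sub_smul, ← hc]
      abel
    · rw [map_add, map_smul, hg, ha]
      have h3 : (a + a + a) • v = 0 := by rw [z3_add3, zero_smul]
      rw [add_smul, add_smul] at h3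
      rw [eq_neg_iff_add_eq_zero, ← h3]
      abel

theorem neg_of_invol (g : G) (hgg : g * g = 1) (hfix : ∀ u : V, u ≠ 0 → ρ g u ≠ u) (u : V) :
    ρ g u = -u := by
  have h1 : ρ g (u + ρ g u) = u + ρ g u := by
    rw [map_add, ← LinearEquiv.mul_apply, ← map_mul, hgg, map_one, add_comm]
    rfl
  by_contra hne
  exact hfix (u + ρ g u) (fun h0 => hne (eq_neg_of_add_eq_zero_right h0)) h1

theorem exists_z (hG : IsPGroup 2 G) [Nontrivial G] :
    ∃ z : G, z ≠ 1 ∧ z * z = 1 ∧ ∀ g, g * z = z * g := by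
  haveI := hG.center_nontrivial
  have h2 : 2 ∣ Nat.card (Subgroup.center G) := by
    obtain ⟨k, hk⟩ := (IsPGroup.iff_card).1 (hG.to_subgroup (Subgroup.center G))
    have h1 := Finite.one_lt_card (α := Subgroup.center G)
    rw [hk] at h1 ⊢
    have hk0 : k ≠ 0 := by
      rintro rfl
      simp at h1
    exact dvd_pow_self 2 hk0
  obtain ⟨z, hz⟩ := exists_prime_orderOf_dvd_card' 2 h2
  refine ⟨z.1, ?_, ?_, ?_⟩
  · intro h1
    have : z = 1 := Subtype.ext h1
    rw [this, orderOf_one] at hz
    omega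
  · have := pow_orderOf_eq_one z
    rw [hz, pow_two] at this
    exact congrArg Subtype.val this
  · intro g
    exact Subgroup.mem_center_iff.1 z.2 g

theorem z_neg (hρ : Function.Injective ρ)
    (htrans : ∀ v w : V, v ≠ 0 → w ≠ 0 → ∃ g : G, ρ g v = w) [Nontrivial V]
    (z : G) (hz1 : z ≠ 1) (hzz : z * z = 1) (hzc : ∀ g, g * z = z * g) (u : V) : ρ z u = -u := by
  apply neg_of_invol ρ z hzz
  intro u hu hfix
  apply hz1
  apply hρ
  ext w
  rw [map_one]
  by_cases hw : w = 0
  · rw [hw]; simp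
  · obtain ⟨g, rfl⟩ := htrans u w hu hw
    change ρ z (ρ g u) = ρ g u
    rw [← LinearEquiv.mul_apply, ← map_mul, ← hzc, map_mul, LinearEquiv.mul_apply, hfix]

end Nine

theorem nine_case {V : Type*} [AddCommGroup V] [Module (ZMod 3) V] [Finite V] [Nontrivial V]
    {G : Type*} [Group G] [Finite G] [Nontrivial G] (hG : IsPGroup 2 G)
    (ρ : G →* (V ≃ₗ[ZMod 3] V)) (hρ : Function.Injective ρ)
    (htrans : ∀ v w : V, v ≠ 0 → w ≠ 0 → ∃ g : G, ρ g v = w) (hV : Nat.card V = 9) :
    (IsCyclic G ∧ Nat.card G = 8) ∨ Nonempty (G ≃* QuaternionGroup 2) ∨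
      (Cfsg.IsQuasiDihedral G ∧ Nat.card G = 16) := by
  classical
  obtain ⟨z, hz1, hzz, hzc⟩ := exists_z hG
  have hzneg := z_neg ρ hρ htrans z hz1 hzz hzc
  have hz2 : orderOf z = 2 := orderOf_eq_prime (by rw [pow_two]; exact hzz) hz1
  have hfixex : ∀ g : G, g * g = 1 → g ≠ z → ∃ u : V, u ≠ 0 ∧ ρ g u = u := by
    intro g hgg hgz
    by_contra hcon
    push Not at hcon
    apply hgz
    apply hρ
    ext u
    rw [neg_of_invol ρ g hgg hcon u, hzneg u]
  have hneg_ne : ∀ u : V, u ≠ 0 → -u ≠ u := by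
    intro u hu h
    have h1 : (2 : ZMod 3) • u = 0 := by
      rw [two_smul]
      nth_rewrite 1 [← h]
      simp
    rcases smul_eq_zero.1 h1 with h2 | h2
    · exact absurd h2 (by decide)
    · exact hu h2
  by_cases hrefl : ∃ t : G, t ≠ 1 ∧ ∃ v : V, v ≠ 0 ∧ ρ t v = v
  · obtain ⟨t, ht1, v, hv, htv⟩ := hrefl
    obtain ⟨htt, htuniq, -⟩ := stab_str ρ hρ hV hG hv t htv ht1
    have htz : t ≠ z := by
      intro h
      rw [h, hzneg v] at htv
      exact hneg_ne v hv htv
    have ht2 : orderOf t = 2 := orderOf_eq_prime (by rw [pow_two]; exact htt) ht1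
    have hcard : Nat.card G = 16 := by
      obtain ⟨S, hS, hc⟩ := card_eq ρ htrans v hv
      have hSt : S = Subgroup.zpowers t := by
        apply le_antisymm
        · intro g hg
          by_cases hg1 : g = 1
          · rw [hg1]; exact one_mem _
          · rw [htuniq g ((hS g).1 hg) hg1]
            exact Subgroup.mem_zpowers t
        · rw [Subgroup.zpowers_le]
          exact (hS t).2 htv
      rw [hSt, Nat.card_zpowers, ht2, hV] at hc
      omega
    right; right
    refine ⟨?_, hcard⟩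
    have hn : ∀ A : Subgroup G, A.Normal → IsMulCommutative A → IsCyclic A := by
      intro A hAn hAc
      by_contra hnc
      haveI := hAn
      obtain ⟨B, hBn, hBea, hBcard⟩ := Cfsg.Agent.S1337.ea_sq_of_noncyclic hG A hAc hnc
      obtain ⟨t', ht'B, ht'1, ht'z⟩ : ∃ t' ∈ B, t' ≠ 1 ∧ t' ≠ z := by
        by_contra hall
        push Not at hall
        have hle : B ≤ Subgroup.zpowers z := by
          intro b hb
          by_cases hb1 : b = 1
          · rw [hb1]; exact one_mem _
          · rw [hall b hb hb1]; exact Subgroup.mem_zpowers z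
        have := Subgroup.card_le_of_le hle
        rw [hBcard, Nat.card_zpowers, hz2] at this
        omega
      have ht't' : t' * t' = 1 := by rw [← pow_two]; exact hBea.2 t' ht'B
      obtain ⟨u, hu, ht'u⟩ := hfixex t' ht't' ht'z
      obtain ⟨-, -, w', hind, hw'⟩ := stab_str ρ hρ hV hG hu t' ht'u ht'1
      have hne : u + w' ≠ 0 := by
        intro h0
        apply hind.2 (-1)
        rw [neg_smul, one_smul]
        exact eq_neg_of_add_eq_zero_right h0
      obtain ⟨g, hg⟩ := htrans u (u + w') hu hne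
      have hsB : g * t' * g⁻¹ ∈ B := hBn.conj_mem t' ht'B g
      have hcomm : (g * t' * g⁻¹) * t' = t' * (g * t' * g⁻¹) := by
        have := hBea.1.is_comm.comm ⟨g * t' * g⁻¹, hsB⟩ ⟨t', ht'B⟩
        exact congrArg Subtype.val this
      obtain ⟨s, hs⟩ : ∃ s : G, s = g * t' * g⁻¹ := ⟨_, rfl⟩
      rw [← hs] at hcomm
      have hginv : ρ g⁻¹ (u + w') = u := by
        rw [← hg, ← LinearEquiv.mul_apply, ← map_mul, inv_mul_cancel, map_one]
        rfl
      have hsfix : ρ s (u + w') = u + w' := by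
        rw [hs, map_mul, map_mul, LinearEquiv.mul_apply, LinearEquiv.mul_apply, hginv, ht'u, hg]
      have h1 : ρ t' (ρ s u) = ρ s u := by
        rw [← LinearEquiv.mul_apply, ← map_mul, ← hcomm, map_mul, LinearEquiv.mul_apply, ht'u]
      have h2 : ρ t' (ρ s w') = -ρ s w' := by
        rw [← LinearEquiv.mul_apply, ← map_mul, ← hcomm, map_mul, LinearEquiv.mul_apply, hw',
          map_neg]
      obtain ⟨a, b, hab⟩ := span2 hV hind (ρ s u)
      obtain ⟨c, d, hcd⟩ := span2 hV hind (ρ s w')
      have hb : b = 0 := by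
        rw [hab, map_add, map_smul, map_smul, ht'u, hw'] at h1
        have h3 : (0 : ZMod 3) • u = (b + b) • w' := by
          rw [zero_smul, add_smul]
          have := add_left_cancel h1
          rw [smul_neg] at this
          exact (neg_eq_iff_add_eq_zero.1 this).symm
        exact z3_add2 b (ind_key hind _ _ h3).2
      have hc : c = 0 := by
        rw [hcd, map_add, map_smul, map_smul, ht'u, hw'] at h2
        have h3 : (c + c) • u = (0 : ZMod 3) • w' := by
          rw [zero_smul, add_smul]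
          rw [smul_neg, neg_add] at h2
          have := add_right_cancel h2
          exact (eq_neg_iff_add_eq_zero.1 this)
        exact z3_add2 c (ind_key hind _ _ h3).1
      subst hb; subst hc
      rw [zero_smul, add_zero] at hab
      rw [zero_smul, zero_add] at hcd
      have h3 : (a - 1) • u = (1 - d) • w' := by
        rw [map_add, hab, hcd] at hsfix
        rw [sub_smul, sub_smul, one_smul, one_smul, sub_eq_sub_iff_add_eq_add, hsfix, add_comm]
      obtain ⟨ha, hd⟩ := ind_key hind _ _ h3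
      have ha1 : a = 1 := sub_eq_zero.1 ha
      have hd1 : d = 1 := (sub_eq_zero.1 hd).symm
      rw [ha1, one_smul] at hab
      rw [hd1, one_smul] at hcd
      have hs1 : s = 1 := ext2 ρ hρ hV hind s 1 (by rw [hab, map_one]; rfl)
        (by rw [hcd, map_one]; rfl)
      apply ht'1
      rw [hs] at hs1
      have : t' = g⁻¹ * (g * t' * g⁻¹) * g := by group
      rw [this, hs1]; group
    have hm : ∃ B : Subgroup G, IsMulCommutative B ∧ ¬ IsCyclic B := by
      refine ⟨Subgroup.closure {z, t}, Subgroup.isMulCommutative_closure ?_, ?_⟩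
      · intro x hx y hy
        rcases hx with rfl | rfl <;> rcases hy with rfl | rfl
        · rfl
        · exact (hzc y).symm
        · exact hzc x
        · rfl
      · intro hcyc
        have hzB : z ∈ Subgroup.closure ({z, t} : Set G) := Subgroup.subset_closure (by simp)
        have htB : t ∈ Subgroup.closure ({z, t} : Set G) := Subgroup.subset_closure (by simp)
        haveI := hcyc
        haveI : Fintype (Subgroup.closure ({z, t} : Set G)) := Fintype.ofFinite _
        have h1 := IsCyclic.card_pow_eq_one_le (α := Subgroup.closure ({z, t} : Set G)) (n := 2)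
          (by norm_num)
        have h2 : ({1, ⟨z, hzB⟩, ⟨t, htB⟩} : Finset (Subgroup.closure ({z, t} : Set G))) ⊆
            Finset.univ.filter (fun a => a ^ 2 = 1) := by
          intro x hx
          simp only [Finset.mem_insert, Finset.mem_singleton] at hx
          simp only [Finset.mem_filter, Finset.mem_univ, true_and]
          rcases hx with rfl | rfl | rfl
          · simp
          · apply Subtype.ext; simp [pow_two, hzz]
          · apply Subtype.ext; simp [pow_two, htt]
        have h3 := Finset.card_le_card h2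
        have h4 : ({1, ⟨z, hzB⟩, ⟨t, htB⟩} :
            Finset (Subgroup.closure ({z, t} : Set G))).card = 3 := by
          rw [Finset.card_insert_of_notMem, Finset.card_insert_of_notMem, Finset.card_singleton]
          · simp only [Finset.mem_singleton, Subtype.mk.injEq]
            exact fun h => htz h.symm
          · simp only [Finset.mem_insert, Finset.mem_singleton]
            rintro (h | h)
            · exact hz1 (congrArg Subtype.val h).symm
            · exact ht1 (congrArg Subtype.val h).symm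
        omega
    obtain ⟨-, hres⟩ := Cfsg.Agent.S0519.result 2 hG hn hm
    rcases hres with ⟨n, ⟨e⟩⟩ | ⟨n, hn8, ⟨e⟩⟩ | hqd
    · exfalso
      have hn0 : n ≠ 0 := by
        rintro rfl
        haveI : Finite (QuaternionGroup 0) := Finite.of_equiv G e.toEquiv
        have h1 := orderOf_pos (QuaternionGroup.a 1 : QuaternionGroup 0)
        rw [QuaternionGroup.orderOf_a_one] at h1
        omega
      haveI : NeZero n := ⟨hn0⟩
      have hc := Nat.card_congr e.toEquiv
      rw [hcard, Nat.card_eq_fintype_card, QuaternionGroup.card] at hc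
      have hn4 : n = 4 := by omega
      subst hn4
      have key : ∀ x : QuaternionGroup 4, x * x = 1 → x ≠ 1 → x = QuaternionGroup.a 4 := by
        decide
      have h1 := key (e z) (by rw [← map_mul, hzz, map_one])
        (fun h => hz1 (e.injective (by rw [h, map_one])))
      have h2 := key (e t) (by rw [← map_mul, htt, map_one])
        (fun h => ht1 (e.injective (by rw [h, map_one])))
      exact htz (e.injective (by rw [h1, h2]))
    · exfalso
      have hc := Nat.card_congr e.toEquiv
      rw [hcard, DihedralGroup.nat_card] at hc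
      have hn8' : n = 8 := by omega
      subst hn8'
      have hz8 : ∀ i : ZMod 8, i - 1 ≠ i + 1 := by decide
      have inv_facts : ∀ i : ZMod 8, (e.symm (DihedralGroup.sr i)) * (e.symm (DihedralGroup.sr i)) = 1
          ∧ e.symm (DihedralGroup.sr i) ≠ 1 ∧ e.symm (DihedralGroup.sr i) ≠ z := by
        intro i
        refine ⟨?_, ?_, ?_⟩
        · rw [← map_mul, DihedralGroup.sr_mul_self, map_one]
        · intro h
          have := congrArg e h
          rw [e.apply_symm_apply, map_one, DihedralGroup.one_def] at this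
          cases this
        · intro h
          have h1 := hzc (e.symm (DihedralGroup.r 1))
          rw [← h, ← map_mul, ← map_mul] at h1
          have h2 := e.symm.injective h1
          rw [DihedralGroup.r_mul_sr, DihedralGroup.sr_mul_r] at h2
          have h3 : i - 1 = i + 1 := by simpa using h2
          exact hz8 i h3
      obtain ⟨h00, h01, h0z⟩ := inv_facts 0
      obtain ⟨h10, h11, h1z⟩ := inv_facts 1
      obtain ⟨u₀, hu₀, hx₀⟩ := hfixex _ h00 h0z
      obtain ⟨u₁, hu₁, hx₁⟩ := hfixex _ h10 h1z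
      obtain ⟨g, hg⟩ := htrans u₀ u₁ hu₀ hu₁
      obtain ⟨-, huniq, -⟩ := stab_str ρ hρ hV hG hu₁ _ hx₁ h11
      have hk : g * e.symm (DihedralGroup.sr 0) * g⁻¹ = e.symm (DihedralGroup.sr 1) := by
        apply huniq
        · rw [map_mul, map_mul, LinearEquiv.mul_apply, LinearEquiv.mul_apply]
          have hginv : ρ g⁻¹ u₁ = u₀ := by
            rw [← hg, ← LinearEquiv.mul_apply, ← map_mul, inv_mul_cancel, map_one]; rfl
          rw [hginv, hx₀, hg]
        · intro h
          apply h01
          have : e.symm (DihedralGroup.sr 0) =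
              g⁻¹ * (g * e.symm (DihedralGroup.sr 0) * g⁻¹) * g := by group
          rw [this, h]; group
      have hk' := congrArg e hk
      rw [map_mul, map_mul, e.apply_symm_apply, e.apply_symm_apply, map_inv] at hk'
      have key : ∀ y : DihedralGroup 8, y * DihedralGroup.sr 0 * y⁻¹ ≠ DihedralGroup.sr 1 := by
        decide
      exact key _ hk'
    · exact hqd
  · push Not at hrefl
    have hcard : Nat.card G = 8 := by
      obtain ⟨v, hv⟩ := exists_ne (0 : V)
      obtain ⟨S, hS, hc⟩ := card_eq ρ htrans v hv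
      have hSb : S = ⊥ := by
        rw [Subgroup.eq_bot_iff_forall]
        intro g hg
        by_contra hg1
        exact hrefl g hg1 v hv ((hS g).1 hg)
      rw [hSb, Subgroup.card_bot, hV] at hc
      omega
    have huniq : ∀ H K : Subgroup G, Nat.card H = 2 → Nat.card K = 2 → H = K := by
      have key : ∀ H : Subgroup G, Nat.card H = 2 → H = Subgroup.zpowers z := by
        intro H hH
        have hzH : z ∈ H := by
          have hne : H ≠ ⊥ := by
            intro h
            rw [h, Subgroup.card_bot] at hH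
            omega
          obtain ⟨⟨h, hhH⟩, hh1⟩ := (Subgroup.ne_bot_iff_exists_ne_one).1 hne
          have hh1' : h ≠ 1 := fun h0 => hh1 (Subtype.ext h0)
          have hhh : h * h = 1 := by
            have := pow_card_eq_one' (G := H) (x := ⟨h, hhH⟩)
            rw [hH, pow_two] at this
            exact congrArg Subtype.val this
          have hhz : h = z := by
            by_contra hhz
            obtain ⟨u, hu, hfix⟩ := hfixex h hhh hhz
            exact hrefl h hh1' u hu hfix
          rw [← hhz]; exact hhH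
        exact (Subgroup.eq_of_le_of_card_ge ((Subgroup.zpowers_le).2 hzH)
          (by rw [hH, Nat.card_zpowers, hz2])).symm
      intro H K hH hK
      rw [key H hH, key K hK]
    rcases Cfsg.Agent.S0016.result 2 hG huniq with hcyc | ⟨-, n, ⟨e⟩⟩
    · exact Or.inl ⟨hcyc, hcard⟩
    · right; left
      have hc := Nat.card_congr e.toEquiv
      rw [hcard, Nat.card_eq_fintype_card, QuaternionGroup.card] at hc
      have hn1 : n = 1 := by
        have : 2 ^ n = 2 ^ 1 := by omega
        exact Nat.pow_right_injective (le_refl 2) this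
      subst hn1
      exact ⟨e⟩

theorem dim_one {q : ℕ} [Fact q.Prime] {V : Type*} [AddCommGroup V] [Module (ZMod q) V] [Finite V]
    {G : Type*} [Group G] [Finite G] (ρ : G →* (V ≃ₗ[ZMod q] V)) (hρ : Function.Injective ρ)
    (hV : Nat.card V = q) (v : V) (hv : v ≠ 0) :
    (∀ g : G, ρ g v = v → g = 1) ∧ IsCyclic G := by
  have hinj : Function.Injective (fun c : ZMod q => c • v) := by
    intro c d hcd
    simp only at hcd
    have : (c - d) • v = 0 := by rw [sub_smul, hcd, sub_self]
    rcases smul_eq_zero.1 this with h | h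
    · exact sub_eq_zero.1 h
    · exact absurd h hv
  have hbij := (Nat.bijective_iff_injective_and_card _).2 ⟨hinj, by rw [Nat.card_zmod, hV]⟩
  have hsurj : ∀ u : V, ∃ c : ZMod q, c • v = u := hbij.2
  have hext : ∀ g k : G, ρ g v = ρ k v → g = k := by
    intro g k h
    apply hρ
    ext u
    obtain ⟨c, rfl⟩ := hsurj u
    rw [map_smul, map_smul, h]
  refine ⟨fun g hg => hext g 1 (by rw [hg, map_one]; rfl), ?_⟩
  obtain ⟨χ, hχ⟩ : ∃ χ : G → ZMod q, ∀ g, χ g • v = ρ g v :=
    ⟨fun g => Classical.choose (hsurj (ρ g v)), fun g => Classical.choose_spec (hsurj (ρ g v))⟩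
  let f : G →* ZMod q :=
    { toFun := χ
      map_one' := by
        apply hinj
        simp only
        rw [hχ, map_one, one_smul]; rfl
      map_mul' := by
        intro g k
        apply hinj
        simp only
        rw [hχ, map_mul, LinearEquiv.mul_apply, ← hχ k, map_smul, ← hχ g, smul_smul, mul_comm] }
  have hf : Function.Injective f := by
    intro g k h
    apply hext
    rw [← hχ g, ← hχ k]
    exact congrArg (· • v) h
  exact isCyclic_of_injective_ringHom f hf

/-- Let q be a prime, V a non-trivial finite vector space over the field with q elements, and G a non-trivial finite p-group (p prime) acting faithfully and linearly on V and transitively on the non-zero vectors. Then either q = 2 and G has prime order p = |V| − 1; or p = 2, V has q elements with q = 2^m + 1 and G is cyclic of order 2^m; or p = 2, q = 3, V has 9 elements and G is cyclic of order 8, quaternion of order 8, or semidihedral of order 16. -/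
theorem result (q : ℕ) [Fact q.Prime] {V : Type*} [AddCommGroup V] [Module (ZMod q) V] [Finite V] [Nontrivial V]
    {G : Type*} [Group G] [Finite G] [Nontrivial G] (p : ℕ) [Fact p.Prime] (hG : IsPGroup p G)
    (ρ : G →* (V ≃ₗ[ZMod q] V)) (hρ : Function.Injective ρ)
    (htrans : ∀ v w : V, v ≠ 0 → w ≠ 0 → ∃ g : G, ρ g v = w) :
    (q = 2 ∧ p = Nat.card V - 1 ∧ Nat.card G = p) ∨
    (p = 2 ∧ Nat.card V = q ∧ (∃ m : ℕ, q = 2 ^ m + 1 ∧ Nat.card G = 2 ^ m) ∧ IsCyclic G) ∨
    (p = 2 ∧ q = 3 ∧ Nat.card V = 9 ∧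
      ((IsCyclic G ∧ Nat.card G = 8) ∨ Nonempty (G ≃* QuaternionGroup 2) ∨ (Cfsg.IsQuasiDihedral G ∧ Nat.card G = 16))) := by
  classical
have hq : q.Prime := Fact.out
have hp : p.Prime := Fact.out
obtain ⟨v₀, hv₀⟩ := exists_ne (0 : V)
obtain ⟨S, hS, hcard⟩ := card_eq ρ htrans v₀ hv₀
have hVn : Nat.card V = q ^ Module.finrank (ZMod q) V := by
  rw [Module.natCard_eq_pow_finrank (K := ZMod q) (V := V), Nat.card_zmod]
obtain ⟨n, hn⟩ : ∃ n, n = Module.finrank (ZMod q) V := ⟨_, rfl⟩
rw [← hn] at hVn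
have hn1 : 1 ≤ n := by
  by_contra h0
  have hn0 : n = 0 := by omega
  rw [hn0, pow_zero] at hVn
  have := Finite.one_lt_card (α := V)
  omega
obtain ⟨k, hk⟩ := (IsPGroup.iff_card).1 hG
have hdvd : Nat.card V - 1 ∣ p ^ k := by
  rw [← hk, hcard]
  exact Dvd.intro _ rfl
obtain ⟨a, hak, ha⟩ := (Nat.dvd_prime_pow hp).1 hdvd
have hV2 : 2 ≤ Nat.card V := by
  rw [hVn]
  calc 2 ≤ q := hq.two_le
    _ = q ^ 1 := (pow_one q).symm
    _ ≤ q ^ n := Nat.pow_le_pow_right hq.pos hn1
have ha0 : a ≠ 0 := by
  rintro rfl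
  rw [pow_zero] at ha
  have htriv : ∀ g : G, g = 1 := by
    intro g
    apply hρ
    ext u
    rw [map_one]
    by_cases hu : u = 0
    · rw [hu]; simp
    · obtain ⟨S', hS', hc'⟩ := card_eq ρ htrans u hu
      rw [ha, one_mul] at hc'
      have hS'top : S' = ⊤ := Subgroup.eq_top_of_card_eq S' hc'.symm
      exact (hS' g).1 (hS'top ▸ Subgroup.mem_top g)
  obtain ⟨g, hg⟩ := exists_ne (1 : G)
  exact hg (htriv g)
by_cases hq2 : q = 2
· left
  subst hq2
  have h1 : p ^ a + 1 = 2 ^ n := by omega
  have ha1 : a = 1 := by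
    by_contra hne
    exact nt_two hp h1 (by omega)
  subst ha1
  rw [pow_one] at ha
  refine ⟨rfl, ha.symm, ?_⟩
  have hk1 : k = 1 := by
    by_contra hk1
    have hk2 : 2 ≤ k := by omega
    letI := act ρ
    have hinj : Function.Injective (MulAction.toPermHom G V) := by
      intro g h hgh
      apply hρ
      ext u
      have := congrArg (fun σ : Equiv.Perm V => σ u) hgh
      exact this
    have hd := Subgroup.card_dvd_of_injective (MulAction.toPermHom G V) hinj
    rw [Nat.card_perm, hk] at hd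
    have hVp : Nat.card V = p + 1 := by omega
    rw [hVp] at hd
    have h2 : p ^ 2 ∣ (p + 1).factorial := (pow_dvd_pow p hk2).trans hd
    obtain ⟨r, hr⟩ : ∃ r, p = r + 1 := ⟨p - 1, by have := hp.two_le; omega⟩
    have h3 : (p + 1).factorial = p * ((p + 1) * r.factorial) := by
      rw [Nat.factorial_succ, hr, Nat.factorial_succ]; ring
    rw [h3, pow_two] at h2
    have h4 : p ∣ (p + 1) * r.factorial := Nat.dvd_of_mul_dvd_mul_left hp.pos h2
    rcases (Nat.Prime.dvd_mul hp).1 h4 with h5 | h5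
    · have h6 := (Nat.dvd_add_right (dvd_refl p)).1 h5
      have h7 := Nat.le_of_dvd (by norm_num) h6
      have := hp.two_le
      omega
    · have := (hp.dvd_factorial).1 h5
      omega
  rw [hk, hk1, pow_one]
· have hqodd : Odd q := hq.eq_two_or_odd'.resolve_left hq2
  have hp2 : p = 2 := by
    have h1 : Even (Nat.card V - 1) := by
      rw [hVn]
      obtain ⟨r, hr⟩ : Odd (q ^ n) := hqodd.pow
      exact ⟨r, by omega⟩
    rw [ha] at h1
    have h2 : 2 ∣ p ^ a := even_iff_two_dvd.1 h1
    have h3 := Nat.Prime.dvd_of_dvd_pow Nat.prime_two h2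
    exact ((Nat.prime_dvd_prime_iff_eq Nat.prime_two hp).1 h3).symm
  subst hp2
  have h1 : q ^ n = 2 ^ a + 1 := by omega
  by_cases hn1' : n = 1
  · right; left
    subst hn1'
    rw [pow_one] at hVn h1
    obtain ⟨hstab, hcyc⟩ := dim_one ρ hρ hVn v₀ hv₀
    have hSb : S = ⊥ := by
      rw [Subgroup.eq_bot_iff_forall]
      intro g hg
      exact hstab g ((hS g).1 hg)
    rw [hSb, Subgroup.card_bot, mul_one, ha] at hcard
    exact ⟨rfl, hVn, ⟨a, h1, hcard⟩, hcyc⟩
  · right; right
    obtain ⟨hq3, hn2⟩ := nt_odd hq hq2 h1 (by omega)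
    subst hq3
    subst hn2
    have hV9 : Nat.card V = 9 := by rw [hVn]; norm_num
    exact ⟨rfl, rfl, hV9, nine_case hG ρ hρ htrans hV9⟩

end Cfsg.Agent.S3370
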