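import Mathlib
import Cfsg.Statements.S4293

set_option autoImplicit false
open Cfsg
open Pointwise

namespace Cfsg.Agent.S4293

universe u

open SemidirectProduct

theorem mem_conj_smul' {G : Type*} [Group G] {K : Subgroup G} {g x : G} :
    x ∈ MulAut.conj g • K ↔ g⁻¹ * x * g ∈ K := by
  rw [Subgroup.mem_pointwise_smul_iff_inv_smul_mem]
  simp [MulAut.smul_def]

/-- A fixed-point-free action gives a Frobenius group. -/
theorem frob_of_fpf {N H : Type u} [Group N] [Group H] (φ : H →* MulAut N)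
    (hH : ∃ h : H, h ≠ 1) (hN : ∃ n : N, n ≠ 1)
    (hfpf : ∀ h : H, h ≠ 1 → ∀ n : N, φ h n = n → n = 1) :
    Cfsg.IsFrobeniusComplement (inr : H →* N ⋊[φ] H).range := by
  have hmem : ∀ x : N ⋊[φ] H, x ∈ (inr : H →* N ⋊[φ] H).range ↔ x.left = 1 := by
    intro x
    constructor
    · rintro ⟨h, rfl⟩; rfl
    · intro hx
      refine ⟨x.right, ?_⟩
      ext
      · exact hx.symm
      · rfl
  unfold Cfsg.IsFrobeniusComplement
  refine ⟨?_, ?_, ?_⟩
  · obtain ⟨h, hh⟩ := hH
    intro hbot
    have h1 : (inr h : N ⋊[φ] H) ∈ (⊥ : Subgroup (N ⋊[φ] H)) := by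
      rw [← hbot]; exact ⟨h, rfl⟩
    rw [Subgroup.mem_bot] at h1
    exact hh (inr_injective (by rw [h1, map_one]))
  · obtain ⟨n, hn⟩ := hN
    intro htop
    have h1 : (inl n : N ⋊[φ] H) ∈ (inr : H →* N ⋊[φ] H).range := by
      rw [htop]; exact Subgroup.mem_top _
    rw [hmem] at h1
    exact hn h1
  · intro g hg
    rw [eq_bot_iff]
    intro x hx
    rw [Subgroup.mem_bot]
    obtain ⟨hx1, hx2⟩ := Subgroup.mem_inf.mp hx
    rw [mem_conj_smul'] at hx2
    rw [hmem] at hx1 hg hx2
    have hcomp : (g⁻¹ * x * g).left =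
        φ g.right⁻¹ (g.left⁻¹ * (x.left * φ x.right g.left)) := by
      simp only [SemidirectProduct.mul_left, SemidirectProduct.inv_left,
        SemidirectProduct.inv_right, map_mul, mul_assoc]
    rw [hcomp, hx1, one_mul] at hx2
    have h4 : g.left⁻¹ * φ x.right g.left = 1 :=
      (φ g.right⁻¹).injective (by rw [hx2, map_one])
    have h5 : φ x.right g.left = g.left := by
      rw [inv_mul_eq_one] at h4; exact h4.symm
    by_contra hne
    have hxr : x.right ≠ 1 := by
      intro h1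
      apply hne
      ext
      · exact hx1
      · exact h1
    exact hg (hfpf x.right hxr g.left h5)

theorem frob_map {L' L : Type*} [Group L'] [Group L] (f : L' ≃* L) (C : Subgroup L')
    (hC : Cfsg.IsFrobeniusComplement C) : Cfsg.IsFrobeniusComplement (C.map f.toMonoidHom) := by
  unfold Cfsg.IsFrobeniusComplement at hC ⊢
  obtain ⟨h1, h2, h3⟩ := hC
  refine ⟨?_, ?_, ?_⟩
  · intro hbot
    apply h1
    rw [eq_bot_iff]
    intro x hx
    have h4 : f x ∈ C.map f.toMonoidHom := Subgroup.mem_map_of_mem _ hx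
    rw [hbot, Subgroup.mem_bot] at h4
    rw [Subgroup.mem_bot]
    exact f.injective (by rw [h4, map_one])
  · intro htop
    apply h2
    rw [eq_top_iff]
    intro x _
    have h4 : f x ∈ C.map f.toMonoidHom := by rw [htop]; exact Subgroup.mem_top _
    obtain ⟨y, hy, hxy⟩ := Subgroup.mem_map.mp h4
    have h5 : y = x := f.injective hxy
    rw [← h5]; exact hy
  · intro g hg
    rw [eq_bot_iff]
    intro x hx
    rw [Subgroup.mem_bot]
    obtain ⟨hx1, hx2⟩ := Subgroup.mem_inf.mp hx
    rw [mem_conj_smul'] at hx2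
    obtain ⟨c, hc, rfl⟩ := Subgroup.mem_map.mp hx1
    obtain ⟨c', hc', hcc⟩ := Subgroup.mem_map.mp hx2
    obtain ⟨g', rfl⟩ := f.surjective g
    have hg' : g' ∉ C := fun h => hg (Subgroup.mem_map_of_mem _ h)
    have e1 : c' = g'⁻¹ * c * g' := f.injective (by
      rw [map_mul, map_mul, map_inv]; exact hcc)
    have hmem : c ∈ C ⊓ MulAut.conj g' • C := by
      refine Subgroup.mem_inf.mpr ⟨hc, ?_⟩
      rw [mem_conj_smul', ← e1]; exact hc'
    rw [h3 g' hg', Subgroup.mem_bot] at hmem
    rw [hmem]; exact map_one _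

theorem lower {L' : Type u} [Group L'] [Finite L'] (C : Subgroup L')
    (hC : Cfsg.IsFrobeniusComplement C) :
    ∃ (L : Type) (_ : Group L) (_ : Finite L) (C₀ : Subgroup L),
      Cfsg.IsFrobeniusComplement C₀ ∧ Nonempty (C ≃* C₀) :=
  ⟨Shrink.{0} L', inferInstance, Finite.of_equiv L' (equivShrink.{0, u} L'),
    C.map (Shrink.mulEquiv : Shrink.{0} L' ≃* L').symm.toMonoidHom,
    frob_map (Shrink.mulEquiv : Shrink.{0} L' ≃* L').symm C hC,
    ⟨C.equivMapOfInjective (Shrink.mulEquiv : Shrink.{0} L' ≃* L').symm.toMonoidHom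
      (Shrink.mulEquiv : Shrink.{0} L' ≃* L').symm.injective⟩⟩

/-- A finite module with a `p'`-group action in which all cyclic norms vanish. -/
theorem frob_of_module {V H : Type u} [AddCommGroup V] [Finite V] [Group H] [Finite H]
    (ψ : H →* AddMonoid.End V) (p : ℕ)
    (hpV : ∀ v : V, p • v = 0) (hpH : ∀ h : H, (orderOf h).Coprime p)
    (hsum : ∀ h : H, h ≠ 1 → ∀ v : V, ∑ i ∈ Finset.range (orderOf h), ψ (h ^ i) v = 0)
    (hH : ∃ h : H, h ≠ 1) (hV : ∃ v : V, v ≠ 0) :
    ∃ (L : Type u) (_ : Group L) (_ : Finite L) (C : Subgroup L),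
      Cfsg.IsFrobeniusComplement C ∧ Nonempty (H ≃* C) := by
  have hmul : ∀ (h k : H) (v : V), ψ (h * k) v = ψ h (ψ k v) := fun h k v => by
    rw [map_mul]; rfl
  have hone : ∀ v : V, ψ 1 v = v := fun v => by rw [map_one]; rfl
  have hinv1 : ∀ (h : H) (v : V), ψ h⁻¹ (ψ h v) = v := fun h v => by
    rw [← hmul, inv_mul_cancel, hone]
  have hinv2 : ∀ (h : H) (v : V), ψ h (ψ h⁻¹ v) = v := fun h v => by
    rw [← hmul, mul_inv_cancel, hone]
  let e : H → (V ≃+ V) := fun h =>
    { toFun := ψ h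
      invFun := ψ h⁻¹
      left_inv := hinv1 h
      right_inv := hinv2 h
      map_add' := map_add (ψ h) }
  let φ : H →* MulAut (Multiplicative V) :=
    MonoidHom.mk' (fun h => AddEquiv.toMultiplicative (e h)) (by
      intro h k
      refine MulEquiv.ext fun n => ?_
      show Multiplicative.ofAdd (ψ (h * k) (Multiplicative.toAdd n)) =
        Multiplicative.ofAdd (ψ h (ψ k (Multiplicative.toAdd n)))
      rw [hmul])
  have hfpf : ∀ h : H, h ≠ 1 → ∀ n : Multiplicative V, φ h n = n → n = 1 := by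
    intro h hh n hn
    have hv : ψ h (Multiplicative.toAdd n) = Multiplicative.toAdd n := hn
    have hpow : ∀ i : ℕ, ψ (h ^ i) (Multiplicative.toAdd n) = Multiplicative.toAdd n := by
      intro i
      induction i with
      | zero => rw [pow_zero, hone]
      | succ i ih => rw [pow_succ, hmul, hv, ih]
    have h1 := hsum h hh (Multiplicative.toAdd n)
    rw [Finset.sum_congr rfl (fun i _ => hpow i), Finset.sum_const, Finset.card_range] at h1
    have h2 := hpV (Multiplicative.toAdd n)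
    have hd1 : addOrderOf (Multiplicative.toAdd n) ∣ orderOf h :=
      addOrderOf_dvd_of_nsmul_eq_zero h1
    have hd2 : addOrderOf (Multiplicative.toAdd n) ∣ p := addOrderOf_dvd_of_nsmul_eq_zero h2
    have hd3 : addOrderOf (Multiplicative.toAdd n) = 1 :=
      Nat.eq_one_of_dvd_coprimes (hpH h) hd1 hd2
    have h0 : Multiplicative.toAdd n = 0 := AddMonoid.addOrderOf_eq_one_iff.mp hd3
    exact congrArg Multiplicative.ofAdd h0
  have hN : ∃ n : Multiplicative V, n ≠ 1 := by
    obtain ⟨v, hv⟩ := hV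
    refine ⟨Multiplicative.ofAdd v, fun e1 => hv ?_⟩
    have e2 : Multiplicative.ofAdd v = Multiplicative.ofAdd 0 := e1
    exact Multiplicative.ofAdd.injective e2
  have hfin : Finite (Multiplicative V ⋊[φ] H) :=
    Finite.of_equiv _ SemidirectProduct.equivProd.symm
  exact ⟨Multiplicative V ⋊[φ] H, inferInstance, hfin,
    (inr : H →* Multiplicative V ⋊[φ] H).range, frob_of_fpf φ hH hN hfpf,
    ⟨MonoidHom.ofInjective inr_injective⟩⟩

section lattice

variable {D : Type u} [DivisionRing D] (H : Subgroup Dˣ)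

/-- the additive lattice spanned by `H` -/
def lat : Submodule ℤ D := Submodule.span ℤ (Set.range fun h : H => ((h : Dˣ) : D))

theorem lat_mul (h : H) : lat H ≤ (lat H).comap (LinearMap.mulLeft ℤ ((h : Dˣ) : D)) :=
  Submodule.span_le.mpr (by
    rintro _ ⟨k, rfl⟩
    exact Submodule.subset_span ⟨h * k, rfl⟩)

/-- left multiplication by `h` on the lattice -/
def lmul (h : H) : lat H →ₗ[ℤ] lat H :=
  (LinearMap.mulLeft ℤ ((h : Dˣ) : D)).restrict (fun _ hx => lat_mul H h hx)

theorem lmul_coe (h : H) (x : lat H) :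
    ((lmul H h x : lat H) : D) = ((h : Dˣ) : D) * (x : D) := rfl

variable (p : ℕ)

/-- `p Λ` -/
def plat : Submodule ℤ (lat H) :=
  LinearMap.range ((p : ℤ) • (LinearMap.id : lat H →ₗ[ℤ] lat H))

theorem mem_plat (y : lat H) : y ∈ plat H p ↔ ∃ x : lat H, (p : ℤ) • x = y := by
  unfold plat
  rw [LinearMap.mem_range]
  rfl

theorem lmul_plat (h : H) : plat H p ≤ (plat H p).comap (lmul H h) := by
  intro y hy
  rw [Submodule.mem_comap]
  obtain ⟨x, rfl⟩ := (mem_plat H p y).mp hy
  exact (mem_plat H p _).mpr ⟨lmul H h x, (map_smul (lmul H h) (p : ℤ) x).symm⟩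

/-- the action on the quotient -/
def qmul (h : H) : (lat H ⧸ plat H p) →ₗ[ℤ] (lat H ⧸ plat H p) :=
  (plat H p).mapQ (plat H p) (lmul H h) (lmul_plat H p h)

theorem qmul_mk (h : H) (x : lat H) :
    qmul H p h (Submodule.Quotient.mk x) = Submodule.Quotient.mk (lmul H h x) := rfl

/-- the action on the quotient as a monoid homomorphism -/
def qhom : H →* AddMonoid.End (lat H ⧸ plat H p) where
  toFun h := (qmul H p h).toAddMonoidHom
  map_one' := by
    refine AddMonoidHom.ext fun v => ?_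
    obtain ⟨x, rfl⟩ := Submodule.Quotient.mk_surjective _ v
    show qmul H p 1 (Submodule.Quotient.mk x) = Submodule.Quotient.mk x
    rw [qmul_mk]
    congr 1
    exact Subtype.ext (by rw [lmul_coe]; simp)
  map_mul' h k := by
    refine AddMonoidHom.ext fun v => ?_
    obtain ⟨x, rfl⟩ := Submodule.Quotient.mk_surjective _ v
    show qmul H p (h * k) (Submodule.Quotient.mk x) =
      qmul H p h (qmul H p k (Submodule.Quotient.mk x))
    rw [qmul_mk, qmul_mk, qmul_mk]
    congr 1
    exact Subtype.ext (by rw [lmul_coe, lmul_coe, lmul_coe]; simp [mul_assoc])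

theorem finite_quot [Finite H] (hp : p ≠ 0) : Finite (lat H ⧸ plat H p) := by
  have hfin : Module.Finite ℤ (lat H) := Module.Finite.span_of_finite ℤ (Set.finite_range _)
  apply Module.finite_of_fg_torsion
  intro v
  refine ⟨⟨(p : ℤ), mem_nonZeroDivisors_of_ne_zero (by exact_mod_cast hp)⟩, ?_⟩
  obtain ⟨x, rfl⟩ := Submodule.Quotient.mk_surjective _ v
  show (p : ℤ) • (Submodule.Quotient.mk x : lat H ⧸ plat H p) = 0
  rw [← Submodule.Quotient.mk_smul (plat H p) (p : ℤ) x, Submodule.Quotient.mk_eq_zero]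
  exact (mem_plat H p _).mpr ⟨x, rfl⟩

theorem nsmul_quot (v : lat H ⧸ plat H p) : p • v = 0 := by
  obtain ⟨x, rfl⟩ := Submodule.Quotient.mk_surjective _ v
  show p • (plat H p).mkQ x = 0
  rw [← map_nsmul, Submodule.mkQ_apply, Submodule.Quotient.mk_eq_zero]
  exact (mem_plat H p _).mpr ⟨x, natCast_zsmul x p⟩

theorem qhom_sum (h : H) (hh : h ≠ 1) (v : lat H ⧸ plat H p) :
    ∑ i ∈ Finset.range (orderOf h), qhom H p (h ^ i) v = 0 := by
  obtain ⟨x, rfl⟩ := Submodule.Quotient.mk_surjective _ v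
  have h1 : ∀ i : ℕ, qhom H p (h ^ i) (Submodule.Quotient.mk x) =
      (plat H p).mkQ (lmul H (h ^ i) x) := fun i => rfl
  rw [Finset.sum_congr rfl (fun i _ => h1 i), ← map_sum]
  have h2 : ∑ i ∈ Finset.range (orderOf h), lmul H (h ^ i) x = 0 := by
    apply Subtype.ext
    rw [Submodule.coe_sum, Submodule.coe_zero]
    simp only [lmul_coe]
    rw [← Finset.sum_mul]
    have hgeom : ∑ i ∈ Finset.range (orderOf h), (((h ^ i : H) : Dˣ) : D) = 0 := by
      have e : ∀ i : ℕ, (((h ^ i : H) : Dˣ) : D) = (((h : Dˣ) : D)) ^ i := fun i => by simp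
      simp only [e]
      have hg := geom_sum_mul (((h : Dˣ) : D)) (orderOf h)
      have hpow : (((h : Dˣ) : D)) ^ orderOf h = 1 := by
        rw [← e, pow_orderOf_eq_one]; simp
      rw [hpow, sub_self] at hg
      have hne : (((h : Dˣ) : D)) - 1 ≠ 0 := by
        intro e0
        apply hh
        have e1 : ((h : Dˣ) : D) = 1 := sub_eq_zero.mp e0
        exact Subtype.ext (Units.ext e1)
      exact (mul_eq_zero.mp hg).resolve_right hne
    rw [hgeom, zero_mul]
  rw [h2, map_zero]

theorem exists_ne_zero [Finite H] (hP1 : ∀ r : ℤ, (r : D) = 0 → ¬ (p : ℤ) ∣ r - 1) :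
    ∃ v : lat H ⧸ plat H p, v ≠ 0 := by
  by_contra hcon
  push Not at hcon
  have hin : lat H ≤ (Ideal.span {(p : ℤ)} : Ideal ℤ) • lat H := by
    intro x hx
    have h0 := hcon (Submodule.Quotient.mk ⟨x, hx⟩)
    rw [Submodule.Quotient.mk_eq_zero] at h0
    obtain ⟨y, hy⟩ := (mem_plat H p _).mp h0
    have hxy : x = (p : ℤ) • (y : D) := by
      have h1 := congrArg Subtype.val hy
      simpa using h1.symm
    rw [hxy]
    exact Submodule.smul_mem_smul (Ideal.mem_span_singleton_self _) y.2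
  obtain ⟨r, hr1, hr2⟩ := Submodule.exists_sub_one_mem_and_smul_eq_zero_of_fg_of_le_smul _
    (lat H) (Submodule.fg_span (Set.finite_range _)) hin
  have h1mem : (1 : D) ∈ lat H := Submodule.subset_span ⟨1, rfl⟩
  have hr0 : (r : D) = 0 := by
    have h2 := hr2 1 h1mem
    rwa [zsmul_one] at h2
  exact hP1 r hr0 (Ideal.mem_span_singleton.mp hr1)

theorem exists_good_prime [Finite H] :
    ∃ p : ℕ, p.Prime ∧ (∀ r : ℤ, (r : D) = 0 → ¬ (p : ℤ) ∣ r - 1) ∧
      ∀ h : H, (orderOf h).Coprime p := by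
  obtain ⟨q, hq⟩ := CharP.exists D
  rcases CharP.char_is_prime_or_zero D q with hqp | hq0
  · have hfact : Fact q.Prime := ⟨hqp⟩
    refine ⟨q, hqp, ?_, ?_⟩
    · intro r hr hdvd
      have h1 : (q : ℤ) ∣ r := (CharP.intCast_eq_zero_iff D q r).mp hr
      have h2 : (q : ℤ) ∣ r - (r - 1) := dvd_sub h1 hdvd
      have h3 : (q : ℤ) ∣ 1 := by
        have e : r - (r - 1) = 1 := by ring
        rwa [e] at h2
      have h4 := Int.le_of_dvd (by norm_num) h3
      have h5 := hqp.two_le
      omega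
    · intro h
      rw [Nat.coprime_comm, Nat.Prime.coprime_iff_not_dvd hqp]
      intro hdvd
      obtain ⟨m, hm⟩ := hdvd
      have hpos : 0 < orderOf h := orderOf_pos h
      have hx : (((h : Dˣ) : D) ^ m) ^ q = 1 := by
        rw [← pow_mul, mul_comm, ← hm, ← Units.val_pow_eq_pow_val, ← Subgroup.coe_pow,
          pow_orderOf_eq_one]
        rfl
      have hx2 : (((h : Dˣ) : D) ^ m - 1) ^ q = 0 := by
        rw [sub_pow_char_of_commute q (Commute.one_right _), hx, one_pow, sub_self]
      have hx3 : ((h : Dˣ) : D) ^ m = 1 :=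
        sub_eq_zero.mp ((pow_eq_zero_iff hqp.ne_zero).mp hx2)
      have hx4 : h ^ m = 1 := by
        apply Subtype.ext
        apply Units.ext
        simpa using hx3
      have hdvd2 : orderOf h ∣ m := orderOf_dvd_of_pow_eq_one hx4
      rw [hm] at hdvd2 hpos
      have hm0 : 0 < m := Nat.pos_of_ne_zero (fun e => by
        rw [e, mul_zero] at hpos; exact lt_irrefl _ hpos)
      have h6 := Nat.le_of_dvd hm0 hdvd2
      have h7 : 2 * m ≤ q * m := Nat.mul_le_mul_right m hqp.two_le
      linarith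
  · subst hq0
    have hchar : CharZero D := CharP.charP_to_charZero D
    obtain ⟨p, hp1, hp2⟩ := Nat.exists_infinite_primes (Nat.card H + 1)
    refine ⟨p, hp2, ?_, ?_⟩
    · intro r hr hdvd
      have hr0 : r = 0 := by exact_mod_cast hr
      rw [hr0] at hdvd
      have h3 : (p : ℤ) ∣ 1 := by
        have h := dvd_neg.mpr hdvd
        simpa using h
      have h4 := Int.le_of_dvd (by norm_num) h3
      have h5 := hp2.two_le
      omega
    · intro h
      rw [Nat.coprime_comm, Nat.Prime.coprime_iff_not_dvd hp2]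
      intro hdvd
      have h1 := Nat.le_of_dvd (orderOf_pos h) hdvd
      have h2 := Nat.le_of_dvd Nat.card_pos (orderOf_dvd_natCard h)
      omega

end lattice

/-- A nontrivial finite subgroup of the multiplicative group of a division ring occurs as a Frobenius complement of some finite Frobenius group. -/
theorem result {D : Type*} [DivisionRing D] (H : Subgroup Dˣ) [Finite H] (hH : H ≠ ⊥) :
    ∃ (L : Type) (_ : Group L) (_ : Finite L) (C : Subgroup L), Cfsg.IsFrobeniusComplement C ∧ Nonempty (H ≃* C) := by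
  obtain ⟨p, hp, hP1, hP2⟩ := exists_good_prime H
  have hfin := finite_quot H p hp.ne_zero
  have hHne : ∃ h : H, h ≠ 1 := by
    by_contra hcon
    push Not at hcon
    apply hH
    rw [eq_bot_iff]
    intro x hx
    rw [Subgroup.mem_bot]
    exact congrArg Subtype.val (hcon ⟨x, hx⟩)
  obtain ⟨L', instG, instF, C, hC, ⟨e⟩⟩ := frob_of_module (qhom H p) p (nsmul_quot H p) hP2
    (qhom_sum H p) hHne (exists_ne_zero H p hP1)
  obtain ⟨L, iG, iF, C₀, hC₀, ⟨e₀⟩⟩ := lower C hC
  exact ⟨L, iG, iF, C₀, hC₀, ⟨e.trans e₀⟩⟩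

end Cfsg.Agent.S4293
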