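import Mathlib
import Cfsg.Statements.S3374
import Cfsg.Agent.Helper18.SL25Iso
import Cfsg.Agent.S0692
import Cfsg.Agent.S4293

set_option autoImplicit false
open Cfsg

namespace Cfsg.Agent.S3374

open Cfsg.Agent.Helper18.SL25Iso SemidirectProduct

/-- A fixed-point-free action on a finite module gives a Frobenius group. -/
theorem frob_of_fpf_module {V H : Type} [AddCommGroup V] [Finite V] [Group H] [Finite H]
    (ψ : H →* AddMonoid.End V) (hfp : ∀ h : H, h ≠ 1 → ∀ v : V, ψ h v = v → v = 0)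
    (hH : ∃ h : H, h ≠ 1) (hV : ∃ v : V, v ≠ 0) :
    ∃ (L : Type) (_ : Group L) (_ : Finite L) (C : Subgroup L),
      Cfsg.IsFrobeniusComplement C ∧ Nonempty (H ≃* C) := by
  have hmul : ∀ (h k : H) (v : V), ψ (h * k) v = ψ h (ψ k v) := fun h k v => by
    rw [map_mul]; rfl
  have hone : ∀ v : V, ψ 1 v = v := fun v => by rw [map_one]; rfl
  have hinv1 : ∀ (h : H) (v : V), ψ h⁻¹ (ψ h v) = v := fun h v => by
    rw [← hmul, inv_mul_cancel, hone]
  have hinv2 : ∀ (h : H) (v : V), ψ h (ψ h⁻¹ v) = v := fun h v => by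
    rw [← hmul, mul_inv_cancel, hone]
  let e : H → (V ≃+ V) := fun h =>
    { toFun := ψ h
      invFun := ψ h⁻¹
      left_inv := hinv1 h
      right_inv := hinv2 h
      map_add' := map_add (ψ h) }
  let φ : H →* MulAut (Multiplicative V) :=
    MonoidHom.mk' (fun h => AddEquiv.toMultiplicative (e h)) (by
      intro h k
      refine MulEquiv.ext fun n => ?_
      show Multiplicative.ofAdd (ψ (h * k) (Multiplicative.toAdd n)) =
        Multiplicative.ofAdd (ψ h (ψ k (Multiplicative.toAdd n)))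
      rw [hmul])
  have hfpf : ∀ h : H, h ≠ 1 → ∀ n : Multiplicative V, φ h n = n → n = 1 := by
    intro h hh n hn
    have hv : ψ h (Multiplicative.toAdd n) = Multiplicative.toAdd n := hn
    have h0 : Multiplicative.toAdd n = 0 := hfp h hh _ hv
    exact congrArg Multiplicative.ofAdd h0
  have hN : ∃ n : Multiplicative V, n ≠ 1 := by
    obtain ⟨v, hv⟩ := hV
    refine ⟨Multiplicative.ofAdd v, fun e1 => hv ?_⟩
    have e2 : Multiplicative.ofAdd v = Multiplicative.ofAdd 0 := e1
    exact Multiplicative.ofAdd.injective e2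
  have hfin : Finite (Multiplicative V ⋊[φ] H) :=
    Finite.of_equiv _ SemidirectProduct.equivProd.symm
  exact ⟨Multiplicative V ⋊[φ] H, inferInstance, hfin,
    (inr : H →* Multiplicative V ⋊[φ] H).range, Cfsg.Agent.S4293.frob_of_fpf φ hH hN hfpf,
    ⟨MonoidHom.ofInjective inr_injective⟩⟩

/-- The action of matrices on column vectors. -/
def actHom : Matrix (Fin 2) (Fin 2) (ZMod 11) →* AddMonoid.End (Fin 2 → ZMod 11) where
  toFun M := (Matrix.mulVecLin M).toAddMonoidHom
  map_one' := by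
    refine AddMonoidHom.ext fun v => ?_
    show Matrix.mulVec (1 : Matrix (Fin 2) (Fin 2) (ZMod 11)) v = v
    exact Matrix.one_mulVec v
  map_mul' := by
    intro M N
    refine AddMonoidHom.ext fun v => ?_
    show Matrix.mulVec (M * N) v = Matrix.mulVec M (Matrix.mulVec N v)
    exact (Matrix.mulVec_mulVec v M N).symm

/-- The first generator in `GL(2,11)`. -/
def gA : GL (Fin 2) (ZMod 11) := ⟨!![0, -1; 1, 0], !![0, 1; -1, 0], by decide, by decide⟩
/-- The second generator in `GL(2,11)`. -/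
def gB : GL (Fin 2) (ZMod 11) := ⟨!![2, 4; 1, -3], !![-3, -4; -1, 2], by decide, by decide⟩

theorem r1 : gB ^ 3 = 1 := by decide
theorem r2 : ((gA * gB) ^ 4) ^ 5 = 1 := by decide
theorem r3 : (gA ^ 2) ^ 2 = 1 := by decide
theorem r4 : gA ^ 2 * gB = gB * gA ^ 2 := by decide
theorem r5 : gA ^ 2 * (gA * gB) ^ 4 = (gA * gB) ^ 4 * gA ^ 2 := by decide
theorem r6 : (gB * (gA * gB) ^ 4) ^ 2 = gA ^ 2 := by decide
theorem r7 : gA * (gB * (gA * gB) ^ 4) = 1 := by decide
theorem r8 : gB ≠ 1 := by decide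

/-- SL(2,5) occurs as a Frobenius complement: there is a finite group L with a subgroup H isomorphic to SL(2,5) which is a non-trivial proper subgroup meeting each conjugate gHg⁻¹ with g outside H trivially. -/
theorem result :
    ∃ (L : Type) (_ : Group L) (_ : Finite L) (H : Subgroup L),
      Cfsg.IsFrobeniusComplement H ∧ Nonempty (H ≃* Matrix.SpecialLinearGroup (Fin 2) (ZMod 5)) := by
  obtain ⟨ψ, h1, h2, h3⟩ := exists_hom gB ((gA * gB) ^ 4) (gA ^ 2) r1 r2 r3 r4 r5 r6
  obtain ⟨hcard, hreg⟩ := Cfsg.Agent.S0692.result gA gB rfl rfl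
  have hle : Subgroup.closure ({gA, gB} : Set (GL (Fin 2) (ZMod 11))) ≤ ψ.range := by
    rw [Subgroup.closure_le]
    rintro g (rfl | rfl)
    · have h4 : gA = (ψ (px * py))⁻¹ := by
        rw [map_mul, h1, h2]; exact eq_inv_of_mul_eq_one_left r7
      rw [h4]; exact Subgroup.inv_mem _ ⟨_, rfl⟩
    · exact ⟨px, h1⟩
  have hfinP := finite_P
  have hcr : 120 ≤ Nat.card ψ.range := by
    rw [← hcard]; exact Subgroup.card_le_of_le hle
  have hbij := bijective_of_surjective ψ.rangeRestrict ψ.rangeRestrict_surjective hcr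
  have hinj : Function.Injective ψ := by
    intro a b hab
    exact hbij.1 (Subtype.ext hab)
  have heq : Subgroup.closure ({gA, gB} : Set (GL (Fin 2) (ZMod 11))) = ψ.range := by
    apply Subgroup.eq_of_le_of_card_ge hle
    rw [hcard]
    calc Nat.card ψ.range ≤ Nat.card P :=
          Nat.card_le_card_of_surjective _ ψ.rangeRestrict_surjective
      _ ≤ 120 := card_P_le
  obtain ⟨act, hact⟩ : ∃ act : P →* AddMonoid.End (Fin 2 → ZMod 11), ∀ (p : P)
      (v : Fin 2 → ZMod 11), act p v = Matrix.mulVec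
        ((ψ p : GL (Fin 2) (ZMod 11)) : Matrix (Fin 2) (Fin 2) (ZMod 11)) v :=
    ⟨actHom.comp ((Units.coeHom _).comp ψ), fun p v => rfl⟩
  have hfp : ∀ p : P, p ≠ 1 → ∀ v : Fin 2 → ZMod 11, act p v = v → v = 0 := by
    intro p hp v hv
    by_contra hv0
    rw [hact] at hv
    obtain ⟨h0, -, huniq⟩ := hreg v v hv0 hv0
    have hmem : ψ p ∈ Subgroup.closure ({gA, gB} : Set (GL (Fin 2) (ZMod 11))) := by
      rw [heq]; exact ⟨p, rfl⟩
    have e1 := huniq ⟨ψ p, hmem⟩ hv
    have e2 := huniq 1 (by simp)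
    have e3 : ψ p = 1 := by
      have h5 := e1.trans e2.symm
      exact congrArg Subtype.val h5
    exact hp (hinj (by rw [e3, map_one]))
  have hH : ∃ p : P, p ≠ 1 := by
    refine ⟨px, fun h => r8 ?_⟩
    rw [← h1, h, map_one]
  have hV : ∃ v : Fin 2 → ZMod 11, v ≠ 0 := ⟨fun _ => 1, by decide⟩
  obtain ⟨L, hL1, hL2, C, hC, ⟨eC⟩⟩ := frob_of_fpf_module act hfp hH hV
  obtain ⟨e, -⟩ := exists_iso
  exact ⟨L, hL1, hL2, C, hC, ⟨eC.symm.trans e⟩⟩

end Cfsg.Agent.S3374
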