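import Cfsg.Statements.S3375
import Mathlib

set_option autoImplicit false
open Cfsg

namespace Cfsg.Agent.S3375

/-- Let γ be an automorphism of order 2 of a finite group H. (i) If γ fixes only the identity, then H is abelian and γ inverts every element. (ii) If γ has exactly two fixed points and H has a subgroup of index 2, then H has a γ-invariant abelian subgroup of index 2 on which γ acts by inversion. -/
theorem result {H : Type*} [Group H] [Finite H] (γ : MulAut H) (hγ : orderOf γ = 2) :
    ((∀ h : H, γ h = h → h = 1) → (∀ a b : H, a * b = b * a) ∧ ∀ h : H, γ h = h⁻¹) ∧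
    ((Nat.card {h : H // γ h = h} = 2 ∧ ∃ M : Subgroup H, M.index = 2) →
      ∃ A : Subgroup H, A.index = 2 ∧ IsMulCommutative A ∧ (∀ a ∈ A, γ a ∈ A) ∧ ∀ a ∈ A, γ a = a⁻¹) := by
  classical
  have hγ2 : ∀ h, γ (γ h) = h := by
    intro h
    have h1 : γ ^ 2 = 1 := by rw [← hγ]; exact pow_orderOf_eq_one γ
    have h2 := congrArg (fun φ : MulAut H => φ h) h1
    simpa [pow_two] using h2
  have hcomm_of_inv : ∀ (S : Subgroup H), (∀ a ∈ S, γ a = a⁻¹) →
      ∀ a ∈ S, ∀ b ∈ S, a * b = b * a := by
    intro S hS a ha b hb
    have h1 := hS (a * b) (S.mul_mem ha hb)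
    rw [map_mul, hS a ha, hS b hb, mul_inv_rev] at h1
    have h2 := congrArg (fun t => t⁻¹) h1
    simp only [mul_inv_rev, inv_inv] at h2
    exact h2.symm
  constructor
  · intro hfix
    have hinj : Function.Injective (fun h : H => h⁻¹ * γ h) := by
      intro h k hhk
      simp only at hhk
      have h1 : γ (k * h⁻¹) = k * h⁻¹ := by
        rw [map_mul, map_inv]
        have h2 : γ k = k * (h⁻¹ * γ h) := by rw [hhk]; group
        rw [h2]; group
      have h3 := hfix _ h1
      exact (mul_inv_eq_one.1 h3).symm
    have hsurj := Finite.injective_iff_surjective.1 hinj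
    have hinv : ∀ h : H, γ h = h⁻¹ := by
      intro g
      obtain ⟨h, rfl⟩ := hsurj g
      simp only [map_mul, map_inv, hγ2, mul_inv_rev, inv_inv]
    exact ⟨fun a b => hcomm_of_inv ⊤ (fun a _ => hinv a) a trivial b trivial, hinv⟩
  · rintro ⟨hC, M, hM⟩
    -- a γ-invariant subgroup of index 2
    obtain ⟨A, hA2, hAinv⟩ : ∃ A : Subgroup H, A.index = 2 ∧ ∀ h, h ∈ A ↔ γ h ∈ A := by
      by_cases hcase : ∀ h, h ∈ M → γ h ∈ M
      · refine ⟨M, hM, fun h => ⟨hcase h, fun hh => ?_⟩⟩
        have := hcase _ hh
        rwa [hγ2] at this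
      · push Not at hcase
        obtain ⟨h₀, hh₀, hγh₀⟩ := hcase
        let A : Subgroup H :=
          { carrier := {h | h ∈ M ↔ γ h ∈ M}
            one_mem' := by simp [M.one_mem]
            mul_mem' := by
              intro a b ha hb
              simp only [Set.mem_ofPred_eq] at ha hb ⊢
              rw [map_mul, Subgroup.mul_mem_iff_of_index_two hM,
                Subgroup.mul_mem_iff_of_index_two hM, ha, hb]
            inv_mem' := by
              intro a ha
              simp only [Set.mem_ofPred_eq] at ha ⊢
              rw [map_inv, inv_mem_iff, inv_mem_iff, ha] }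
        have hmemA : ∀ h, h ∈ A ↔ (h ∈ M ↔ γ h ∈ M) := fun h => Iff.rfl
        have hnn : ∀ a b, a ∉ A → b ∉ A → a * b ∈ A := by
          intro a b ha hb
          rw [hmemA] at ha hb ⊢
          rw [map_mul, Subgroup.mul_mem_iff_of_index_two hM,
            Subgroup.mul_mem_iff_of_index_two hM]
          tauto
        have hh₀A : h₀ ∉ A := by
          rw [hmemA]
          tauto
        refine ⟨A, ?_, ?_⟩
        · rw [Subgroup.index_eq_two_iff]
          refine ⟨h₀, fun b => ?_⟩
          by_cases hb : b ∈ A
          · refine Or.inr ⟨hb, fun hbh => hh₀A ?_⟩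
            have := A.mul_mem (A.inv_mem hb) hbh
            simpa using this
          · exact Or.inl ⟨hnn b h₀ hb hh₀A, hb⟩
        · intro h
          rw [hmemA, hmemA, hγ2]
          tauto
    -- the fixed point subgroup
    let C : Subgroup H :=
      { carrier := {h | γ h = h}
        one_mem' := by simp
        mul_mem' := by
          intro a b ha hb
          simp only [Set.mem_ofPred_eq] at ha hb ⊢
          rw [map_mul, ha, hb]
        inv_mem' := by
          intro a ha
          simp only [Set.mem_ofPred_eq] at ha ⊢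
          rw [map_inv, ha] }
    have hmemC : ∀ h, h ∈ C ↔ γ h = h := fun h => Iff.rfl
    have hcardC : Nat.card C = 2 := hC
    -- the map H ⧸ C → A
    have hgA : ∀ h : H, h * (γ h)⁻¹ ∈ A := by
      intro h
      rw [Subgroup.mul_mem_iff_of_index_two hA2, inv_mem_iff]
      exact hAinv h
    let F : H ⧸ C → A := fun q => Quotient.liftOn' q (fun h => (⟨h * (γ h)⁻¹, hgA h⟩ : A)) (by
      intro a b hab
      rw [QuotientGroup.leftRel_apply, hmemC, map_mul, map_inv] at hab
      apply Subtype.ext
      show a * (γ a)⁻¹ = b * (γ b)⁻¹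
      have h1 : γ b = γ a * (a⁻¹ * b) := by rw [← hab]; group
      rw [h1]; group)
    have hFinj : Function.Injective F := by
      intro q₁ q₂
      induction q₁ using Quotient.inductionOn' with
      | h a =>
        induction q₂ using Quotient.inductionOn' with
        | h b =>
          intro hab
          have h1 : a * (γ a)⁻¹ = b * (γ b)⁻¹ := congrArg Subtype.val hab
          apply Quotient.sound'
          rw [QuotientGroup.leftRel_apply, hmemC, map_mul, map_inv]
          have h2 : γ b = (b⁻¹ * (a * (γ a)⁻¹))⁻¹ := by rw [h1]; group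
          rw [h2]; group
    have hcards : Nat.card A ≤ Nat.card (H ⧸ C) := by
      have h1 := Subgroup.card_mul_index C
      have h2 := Subgroup.card_mul_index A
      rw [hcardC] at h1
      rw [hA2] at h2
      rw [← Subgroup.index_eq_card]
      omega
    have hFbij := hFinj.bijective_of_nat_card_le hcards
    have hinvA : ∀ a ∈ A, γ a = a⁻¹ := by
      intro a ha
      obtain ⟨q, hq⟩ := hFbij.2 ⟨a, ha⟩
      induction q using Quotient.inductionOn' with
      | h b =>
        have h1 : b * (γ b)⁻¹ = a := congrArg Subtype.val hq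
        rw [← h1]
        simp only [map_mul, map_inv, hγ2, mul_inv_rev, inv_inv]
    refine ⟨A, hA2, ?_, fun a ha => (hAinv a).1 ha, hinvA⟩
    refine ⟨⟨fun a b => ?_⟩⟩
    apply Subtype.ext
    exact hcomm_of_inv A hinvA a a.2 b b.2

end Cfsg.Agent.S3375
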