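import Cfsg.Statements.S3379
import Mathlib

set_option autoImplicit false
open Cfsg

namespace Cfsg.Agent.S3379

theorem result {G : Type*} [Group G] [Finite G]
    (hZ : ∀ (p : ℕ) [Fact p.Prime] (P : Sylow p G), IsCyclic (P : Subgroup G)) :
    ∃ (x y : G) (n m r : ℕ), Subgroup.closure {x, y} = ⊤ ∧ orderOf x = n ∧ orderOf y = m ∧
      x⁻¹ * y * x = y ^ r ∧ Nat.Coprime (r - 1) m ∧ Nat.Coprime n m ∧ 1 ≤ r ∧ r ^ n % m = 1 % m := by
  classical
  have hZG : IsZGroup G := ⟨fun p hp P => by have := Fact.mk hp; exact hZ p P⟩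
  have hcop := IsZGroup.coprime_commutator_index G
  obtain ⟨H, hH⟩ := Subgroup.exists_right_complement'_of_coprime hcop
  have h1 : Abelianization G ≃* H := hH.symm.QuotientMulEquiv
  have hHc : IsCyclic H := isCyclic_of_surjective _ h1.surjective
  have hNc : IsCyclic (commutator G) := IsZGroup.isCyclic_commutator G
  obtain ⟨x', hx'⟩ := hHc.exists_generator
  obtain ⟨y', hy'⟩ := hNc.exists_generator
  have hgen : ∀ (K : Subgroup G) (k : K), (∀ h : K, h ∈ Subgroup.zpowers k) →
      Subgroup.zpowers (k : G) = K := by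
    intro K k hk
    ext g
    constructor
    · rintro ⟨i, rfl⟩
      exact K.zpow_mem k.2 i
    · intro hg
      obtain ⟨i, hi⟩ := hk ⟨g, hg⟩
      exact ⟨i, by simpa using congrArg Subtype.val hi⟩
  have hxH := hgen H x' hx'
  have hyN := hgen (commutator G) y' hy'
  generalize (x' : G) = x at hxH
  generalize (y' : G) = y at hyN
  have hordx : orderOf x = Nat.card H := by rw [← Nat.card_zpowers, hxH]
  have hordy : orderOf y = Nat.card (commutator G) := by rw [← Nat.card_zpowers, hyN]
  have hmpos : 0 < orderOf y := orderOf_pos y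
  -- the conjugation relation
  have hconj : x⁻¹ * y * x ∈ Subgroup.zpowers y := by
    rw [hyN]
    have hy : y ∈ commutator G := by rw [← hyN]; exact Subgroup.mem_zpowers y
    have := (inferInstance : (commutator G).Normal).conj_mem y hy x⁻¹
    simpa using this
  obtain ⟨k, hk⟩ := hconj
  set m := orderOf y with hm
  let r : ℕ := (k % (m : ℤ)).toNat + m
  have hr : y ^ r = x⁻¹ * y * x := by
    have h0 : 0 ≤ k % (m : ℤ) := Int.emod_nonneg _ (by exact_mod_cast hmpos.ne')
    have : (y ^ r : G) = y ^ ((r : ℕ) : ℤ) := (zpow_natCast y r).symm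
    rw [this]
    have hr' : ((r : ℕ) : ℤ) = k % (m : ℤ) + m := by
      simp only [r]
      push_cast
      rw [Int.toNat_of_nonneg h0]
    rw [hr', zpow_add, zpow_natCast, hm, pow_orderOf_eq_one, mul_one, ← hm, ← hk]
    exact zpow_mod_orderOf y k
  have hr1 : 1 ≤ r := by
    simp only [r]
    omega
  -- iterated conjugation
  have hiter : ∀ j : ℕ, (x ^ j)⁻¹ * y * x ^ j = y ^ (r ^ j) := by
    intro j
    induction j with
    | zero => simp
    | succ j ih =>
      have : (x ^ (j + 1))⁻¹ * y * x ^ (j + 1) = x⁻¹ * ((x ^ j)⁻¹ * y * x ^ j) * x := by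
        rw [pow_succ]; group
      rw [this, ih]
      have h2 : x⁻¹ * y ^ (r ^ j) * x = (x⁻¹ * y * x) ^ (r ^ j) := by
        have := conj_pow (a := x⁻¹) (b := y) (i := r ^ j)
        simpa using this.symm
      rw [h2, ← hr, ← pow_mul, pow_succ, mul_comm]
  have hrn : r ^ orderOf x % m = 1 % m := by
    have h3 := hiter (orderOf x)
    rw [pow_orderOf_eq_one] at h3
    simp only [inv_one, one_mul, mul_one] at h3
    have h4 : y ^ (r ^ orderOf x) = y ^ 1 := by rw [← h3, pow_one]
    exact (pow_eq_pow_iff_modEq.1 h4)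
  -- the subgroup generated by y^(r-1) is normal
  let K : Subgroup G := Subgroup.zpowers (y ^ (r - 1))
  have hKn : K.Normal := by
    constructor
    rintro g ⟨i, rfl⟩ a
    have hy : y ∈ commutator G := by rw [← hyN]; exact Subgroup.mem_zpowers y
    have h5 : a * y * a⁻¹ ∈ Subgroup.zpowers y := by
      rw [hyN]
      exact (inferInstance : (commutator G).Normal).conj_mem y hy a
    obtain ⟨j, hj⟩ := h5
    refine ⟨j * i, ?_⟩
    show (y ^ (r - 1)) ^ (j * i) = a * (y ^ (r - 1)) ^ i * a⁻¹
    have h6 : a * (y ^ (r - 1)) ^ i * a⁻¹ = ((a * y * a⁻¹) ^ (r - 1)) ^ i := by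
      rw [conj_pow, conj_zpow]
    rw [h6, ← hj, ← zpow_natCast, ← zpow_natCast, ← zpow_mul, ← zpow_mul, ← zpow_mul]
    congr 1
    ring
  -- the quotient by K is commutative
  have hclos : Subgroup.closure {x, y} = ⊤ := by
    rw [eq_top_iff, ← hH.sup_eq_top, sup_le_iff]
    constructor
    · rw [← hyN, Subgroup.zpowers_le]
      exact Subgroup.subset_closure (by simp)
    · rw [← hxH, Subgroup.zpowers_le]
      exact Subgroup.subset_closure (by simp)
  have hcomm : IsMulCommutative (G ⧸ K) := by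
    have hxy : (QuotientGroup.mk' K x) * (QuotientGroup.mk' K y) =
        (QuotientGroup.mk' K y) * (QuotientGroup.mk' K x) := by
      rw [← map_mul, ← map_mul]
      apply QuotientGroup.eq.2
      -- (x * y)⁻¹ * (y * x) ∈ K
      have h7 : (x * y)⁻¹ * (y * x) = y⁻¹ * (x⁻¹ * y * x) := by group
      rw [h7, ← hr]
      refine ⟨1, ?_⟩
      show (y ^ (r - 1)) ^ (1 : ℤ) = y⁻¹ * y ^ r
      rw [zpow_one]
      have : r = (r - 1) + 1 := by omega
      conv_rhs => rw [this, pow_succ']
      group
    have hc := Subgroup.isMulCommutative_closure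
      (k := ({QuotientGroup.mk' K x, QuotientGroup.mk' K y} : Set (G ⧸ K))) (by
        intro a ha b hb
        simp only [Set.mem_insert_iff, Set.mem_singleton_iff] at ha hb
        rcases ha with rfl | rfl <;> rcases hb with rfl | rfl
        · rfl
        · exact hxy
        · exact hxy.symm
        · rfl)
    have htop : Subgroup.closure ({QuotientGroup.mk' K x, QuotientGroup.mk' K y} : Set (G ⧸ K))
        = ⊤ := by
      have := congrArg (Subgroup.map (QuotientGroup.mk' K)) hclos
      rw [MonoidHom.map_closure, Subgroup.map_top_of_surjective _ (QuotientGroup.mk'_surjective K)]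
        at this
      rw [← this]
      congr 1
      ext q
      simp [Set.image_insert_eq]
    refine ⟨⟨fun a b => ?_⟩⟩
    have ha : a ∈ Subgroup.closure ({QuotientGroup.mk' K x, QuotientGroup.mk' K y} : Set (G ⧸ K)) := by
      rw [htop]; trivial
    have hb : b ∈ Subgroup.closure ({QuotientGroup.mk' K x, QuotientGroup.mk' K y} : Set (G ⧸ K)) := by
      rw [htop]; trivial
    have := hc.is_comm.comm ⟨a, ha⟩ ⟨b, hb⟩
    exact congrArg Subtype.val this
  have hle : commutator G ≤ K := Subgroup.Normal.quotient_commutative_iff_commutator_le.1 hcomm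
  have hyK : y ∈ K := hle (by rw [← hyN]; exact Subgroup.mem_zpowers y)
  obtain ⟨i, hi⟩ := hyK
  have hcop2 : Nat.Coprime (r - 1) m := by
    have h8 : y ^ (((r - 1 : ℕ) : ℤ) * i) = y ^ (1 : ℤ) := by
      rw [zpow_mul, zpow_natCast, zpow_one]; exact hi
    have h9 := zpow_eq_zpow_iff_modEq.1 h8
    rw [← hm] at h9
    have h10 := (Int.modEq_iff_dvd.1 h9.symm)
    obtain ⟨t, ht⟩ := h10
    rw [← Nat.isCoprime_iff_coprime]
    refine ⟨i, -t, ?_⟩
    linarith
  refine ⟨x, y, orderOf x, m, r, hclos, rfl, rfl, hr.symm, hcop2, ?_, hr1, hrn⟩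
  rw [hordx, hordy, ← hH.symm.index_eq_card]
  exact hcop.symm

end Cfsg.Agent.S3379
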