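import Mathlib
import Cfsg.Statements.S3381

set_option autoImplicit false
open Cfsg

namespace Cfsg.Agent.S3381

section

variable {q : ℕ} [Fact q.Prime] {V : Type*} [AddCommGroup V] [Module (ZMod q) V]
  {G : Type*} [Group G] (ρ : G →* (V ≃ₗ[ZMod q] V))

theorem rho_mul (g h : G) (v : V) : ρ (g * h) v = ρ g (ρ h v) := by
  rw [map_mul]; rfl

theorem rho_one (v : V) : ρ 1 v = v := by
  rw [map_one]; rfl

theorem rho_inv_apply (g : G) (v : V) : ρ g⁻¹ (ρ g v) = v := by
  rw [← rho_mul, inv_mul_cancel, rho_one]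

/-- The stabilizer of a vector. -/
def stab (v : V) : Subgroup G where
  carrier := {g | ρ g v = v}
  mul_mem' := by
    intro a b ha hb
    show ρ (a * b) v = v
    rw [rho_mul, show ρ b v = v from hb, show ρ a v = v from ha]
  one_mem' := rho_one ρ v
  inv_mem' := by
    intro a ha
    show ρ a⁻¹ v = v
    have h := rho_inv_apply ρ a v
    rw [show ρ a v = v from ha] at h
    exact h

variable (hstab : ∀ v : V, v ≠ 0 → Nat.card {g : G // ρ g v = v} = 2)
include hstab

theorem exists_tv (v : V) (hv : v ≠ 0) :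
    ∃ t : G, ρ t v = v ∧ t ≠ 1 ∧ ∀ g : G, ρ g v = v → g = 1 ∨ g = t := by
  have hc : Nat.card (stab ρ v) = 2 := hstab v hv
  obtain ⟨y, hy, huniq⟩ := (Nat.card_eq_two_iff' (1 : stab ρ v)).1 hc
  refine ⟨y.1, y.2, fun h => hy (Subtype.ext h), ?_⟩
  intro g hg
  by_cases h1 : g = 1
  · left; exact h1
  · right
    have h2 : (⟨g, hg⟩ : stab ρ v) = y := huniq _ (fun h => h1 (congrArg Subtype.val h))
    exact congrArg Subtype.val h2

theorem eq_of_fix (v : V) (hv : v ≠ 0) (s s' : G) (hs : s ≠ 1) (hs' : s' ≠ 1)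
    (h : ρ s v = v) (h' : ρ s' v = v) : s = s' := by
  obtain ⟨t, -, -, ht⟩ := exists_tv ρ hstab v hv
  rcases ht s h with h1 | h1
  · exact absurd h1 hs
  · rcases ht s' h' with h2 | h2
    · exact absurd h2 hs'
    · rw [h1, h2]

theorem sq_of_fix (v : V) (hv : v ≠ 0) (s : G) (hs : s ≠ 1) (h : ρ s v = v) : s * s = 1 := by
  by_contra hne
  have h2 : ρ (s * s) v = v := by rw [rho_mul, h, h]
  have h3 := eq_of_fix ρ hstab v hv (s * s) s hne hs h2 h
  exact hs (mul_left_cancel (a := s) (by rw [h3, mul_one]))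

theorem central_no_fix (hρ : Function.Injective ρ) (s : G) (hs1 : s ≠ 1) (hs2 : s * s = 1)
    (hsc : ∀ g : G, g * s = s * g) (v₀ : V) (hv₀ : v₀ ≠ 0) : ρ s v₀ ≠ v₀ := by
  intro hfix
  apply hs1
  apply hρ
  rw [map_one]
  ext w
  show ρ s w = w
  by_contra hw
  have hu : ρ s w - w ≠ 0 := sub_ne_zero.2 hw
  have hsu : ρ s (ρ s w - w) = -(ρ s w - w) := by
    rw [map_sub, ← rho_mul, hs2, rho_one]; abel
  have hw0 : w ≠ 0 := by
    rintro rfl
    exact hw (map_zero _)
  obtain ⟨t, htw, ht1, -⟩ := exists_tv ρ hstab w hw0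
  have htsw : ρ t (ρ s w) = ρ s w := by
    rw [← rho_mul, hsc t, rho_mul, htw]
  have htu : ρ t (ρ s w - w) = ρ s w - w := by rw [map_sub, htsw, htw]
  by_cases hcase : ρ s (ρ s w - w) = ρ s w - w
  · have h3 := eq_of_fix ρ hstab _ hu s t hs1 ht1 hcase htu
    rw [h3] at hw
    exact hw htw
  · obtain ⟨u, hudef⟩ : ∃ u : V, u = ρ s w - w := ⟨_, rfl⟩
    rw [← hudef] at hu hsu hcase
    have hx : v₀ + u ≠ 0 := by
      intro h0
      have hu' : u = -v₀ := by rw [eq_neg_iff_add_eq_zero, add_comm]; exact h0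
      apply hcase
      rw [hu', map_neg, hfix]
    obtain ⟨t', ht'x, ht'1, -⟩ := exists_tv ρ hstab (v₀ + u) hx
    have hsx : ρ s (v₀ + u) = v₀ - u := by rw [map_add, hfix, hsu]; abel
    have ht'sx : ρ t' (v₀ - u) = v₀ - u := by
      rw [← hsx, ← rho_mul, hsc t', rho_mul, ht'x]
    have h2v : ρ t' (v₀ + v₀) = v₀ + v₀ := by
      have e : v₀ + v₀ = (v₀ + u) + (v₀ - u) := by abel
      rw [e, map_add, ht'x, ht'sx]
    have hs2v : ρ s (v₀ + v₀) = v₀ + v₀ := by rw [map_add, hfix]
    by_cases hy : v₀ + v₀ = 0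
    · have h2 : (2 : ZMod q) • v₀ = 0 := by rw [two_smul]; exact hy
      rcases smul_eq_zero.1 h2 with h3 | h3
      · apply hcase
        rw [hsu]
        have h4 : u + u = 0 := by rw [← two_smul (ZMod q) u, h3, zero_smul]
        exact neg_eq_of_add_eq_zero_left h4
      · exact hv₀ h3
    · have h3 := eq_of_fix ρ hstab _ hy s t' hs1 ht'1 hs2v h2v
      apply hcase
      rw [hsu]
      have h4 : ρ s (v₀ + u) = v₀ + u := by rw [h3]; exact ht'x
      rw [hsx] at h4
      have h5 : u + u = 0 := by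
        have : v₀ + u - (v₀ - u) = 0 := by rw [h4]; abel
        rw [← this]; abel
      exact neg_eq_of_add_eq_zero_left h5

end

/-- Let G be a finite group acting faithfully and linearly on a non-trivial finite vector space V over the field with q elements (q prime) so that every non-zero vector has a stabilizer of order 2, and suppose G has a central involution. Then V has q^(2r) elements for some r and G contains exactly q^r + 1 non-central involutions. -/
theorem result
    (q : ℕ) [Fact q.Prime] {V : Type*} [AddCommGroup V] [Module (ZMod q) V] [Finite V] [Nontrivial V]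
    {G : Type*} [Group G] [Finite G] (ρ : G →* (V ≃ₗ[ZMod q] V)) (hρ : Function.Injective ρ)
    (hstab : ∀ v : V, v ≠ 0 → Nat.card {g : G // ρ g v = v} = 2)
    (z : G) (hz : orderOf z = 2) (hzc : z ∈ Subgroup.center G) :
    ∃ r : ℕ, Nat.card V = q ^ (2 * r) ∧
      Nat.card {g : G // orderOf g = 2 ∧ g ∉ Subgroup.center G} = q ^ r + 1 := by
  classical
  have hz1 : z ≠ 1 := by
    intro h
    rw [h, orderOf_one] at hz
    norm_num at hz
  have hz2 : z * z = 1 := by
    rw [← pow_two, ← hz]; exact pow_orderOf_eq_one z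
  have hzc' : ∀ g : G, g * z = z * g := fun g => Subgroup.mem_center_iff.1 hzc g
  have hzv : ∀ v : V, v ≠ 0 → ρ z v ≠ v :=
    fun v hv => central_no_fix ρ hstab hρ z hz1 hz2 hzc' v hv
  have hneg : ∀ v : V, ρ z v = -v := by
    intro v
    have hfix : ρ z (ρ z v + v) = ρ z v + v := by
      rw [map_add, ← rho_mul, hz2, rho_one, add_comm]
    have h0 : ρ z v + v = 0 := by
      by_contra h
      exact hzv _ h hfix
    exact eq_neg_of_add_eq_zero_left h0
  have hodd : ∀ v : V, v + v = 0 → v = 0 := by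
    intro v hv
    by_contra h
    apply hzv v h
    rw [hneg]
    exact neg_eq_of_add_eq_zero_left hv
  have hB : ∀ t : G, t * t = 1 → t ≠ z → ∃ v : V, v ≠ 0 ∧ ρ t v = v := by
    intro t ht2 htz
    by_contra hcon
    push Not at hcon
    apply htz
    apply hρ
    ext v
    show ρ t v = ρ z v
    rw [hneg]
    have hfix : ρ t (ρ t v + v) = ρ t v + v := by
      rw [map_add, ← rho_mul, ht2, rho_one, add_comm]
    have h0 : ρ t v + v = 0 := by
      by_contra h
      exact hcon _ h hfix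
    exact eq_neg_of_add_eq_zero_left h0
  have hJ : ∀ g : G, (orderOf g = 2 ∧ g ∉ Subgroup.center G) ↔ (g ≠ 1 ∧ g * g = 1 ∧ g ≠ z) := by
    intro g
    constructor
    · rintro ⟨ho, hnc⟩
      refine ⟨?_, ?_, ?_⟩
      · intro h
        rw [h, orderOf_one] at ho
        norm_num at ho
      · rw [← pow_two, ← ho]; exact pow_orderOf_eq_one g
      · intro h
        apply hnc
        rw [h]; exact hzc
    · rintro ⟨h1, h2, h3⟩
      refine ⟨orderOf_eq_prime (by rw [pow_two]; exact h2) h1, ?_⟩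
      intro hc
      obtain ⟨v, hv, hfix⟩ := hB g h2 h3
      exact central_no_fix ρ hstab hρ g h1 h2 (fun x => Subgroup.mem_center_iff.1 hc x) v hv hfix
  have hzinv : z⁻¹ = z := inv_eq_of_mul_eq_one_left hz2
  have hJz : ∀ t : G, (t ≠ 1 ∧ t * t = 1 ∧ t ≠ z) →
      (t * z ≠ 1 ∧ (t * z) * (t * z) = 1 ∧ t * z ≠ z) := by
    rintro t ⟨h1, h2, h3⟩
    refine ⟨?_, ?_, ?_⟩
    · intro h
      apply h3
      rw [eq_inv_of_mul_eq_one_left h, hzinv]
    · calc t * z * (t * z) = t * (z * t) * z := by group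
        _ = t * (t * z) * z := by rw [← hzc' t]
        _ = (t * t) * (z * z) := by group
        _ = 1 := by rw [h2, hz2, one_mul]
    · intro h
      apply h1
      have h4 : t * z = 1 * z := by rw [one_mul]; exact h
      exact mul_right_cancel h4
  have hρtz : ∀ (t : G) (v : V), ρ (t * z) v = -ρ t v := by
    intro t v
    rw [rho_mul, hneg, map_neg]
  obtain ⟨m, hm⟩ : ∃ m : G → ℕ, ∀ s : G, m s = Nat.card {v : V // ρ s v = v} :=
    ⟨_, fun _ => rfl⟩
  have hmpos : ∀ s : G, 0 < m s := by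
    intro s
    rw [hm]
    have : Nonempty {v : V // ρ s v = v} := ⟨⟨0, map_zero _⟩⟩
    exact Nat.card_pos
  obtain ⟨M, hM⟩ : ∃ M : ℕ, M = Nat.card V := ⟨_, rfl⟩
  rw [← hM]
  have hMpos : 0 < M := by rw [hM]; exact Nat.card_pos
  have hhalf : ∀ v : V, ∃ h : V, h + h = v := by
    have hinj : Function.Injective (fun h : V => h + h) := by
      intro a b hab
      have hab' : a + a = b + b := hab
      have h0 : (a - b) + (a - b) = 0 := by
        have h1 : a + a - (b + b) = 0 := sub_eq_zero.2 hab'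
        rw [← h1]; abel
      exact sub_eq_zero.1 (hodd _ h0)
    exact Finite.surjective_of_injective hinj
  have hprod : ∀ t : G, (t ≠ 1 ∧ t * t = 1 ∧ t ≠ z) → m t * m (t * z) = M := by
    rintro t ⟨h1, h2, h3⟩
    rw [hm, hm, ← Nat.card_prod, hM]
    let f : {v : V // ρ t v = v} × {v : V // ρ (t * z) v = v} → V := fun p => p.1.1 + p.2.1
    have hf : Function.Bijective f := by
      constructor
      · rintro ⟨⟨a, ha⟩, ⟨b, hb⟩⟩ ⟨⟨a', ha'⟩, ⟨b', hb'⟩⟩ hab
        have hab' : a + b = a' + b' := hab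
        have hd1 : ρ t (a - a') = a - a' := by rw [map_sub, ha, ha']
        have hd2 : ρ (t * z) (a - a') = a - a' := by
          have e : a - a' = b' - b := by
            rw [sub_eq_sub_iff_add_eq_add, hab', add_comm]
          rw [e, map_sub, hb', hb]
        rw [hρtz, hd1] at hd2
        have hd0 : a - a' = 0 := hodd _ (by
          have h4 : -(a - a') + (a - a') = 0 := neg_add_cancel _
          rw [hd2] at h4; exact h4)
        have haa : a = a' := sub_eq_zero.1 hd0
        subst haa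
        have hbb : b = b' := add_left_cancel hab'
        subst hbb
        rfl
      · intro v
        obtain ⟨h, hh⟩ := hhalf v
        refine ⟨(⟨h + ρ t h, ?_⟩, ⟨h - ρ t h, ?_⟩), ?_⟩
        · rw [map_add, ← rho_mul, h2, rho_one, add_comm]
        · rw [hρtz, map_sub, ← rho_mul, h2, rho_one]; abel
        · show h + ρ t h + (h - ρ t h) = v
          rw [← hh]; abel
    exact Nat.card_congr (Equiv.ofBijective f hf)
  have hdisj : ∀ s s' : G, s ≠ 1 → s' ≠ 1 → s ≠ s' → m s * m s' ≤ M := by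
    intro s s' hs hs' hne
    rw [hm, hm, ← Nat.card_prod, hM]
    let f : {v : V // ρ s v = v} × {v : V // ρ s' v = v} → V := fun p => p.1.1 + p.2.1
    have hf : Function.Injective f := by
      rintro ⟨⟨a, ha⟩, ⟨b, hb⟩⟩ ⟨⟨a', ha'⟩, ⟨b', hb'⟩⟩ hab
      have hab' : a + b = a' + b' := hab
      have hd1 : ρ s (a - a') = a - a' := by rw [map_sub, ha, ha']
      have hd2 : ρ s' (a - a') = a - a' := by
        have e : a - a' = b' - b := by
          rw [sub_eq_sub_iff_add_eq_add, hab', add_comm]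
        rw [e, map_sub, hb', hb]
      have hd0 : a - a' = 0 := by
        by_contra h
        exact hne (eq_of_fix ρ hstab _ h s s' hs hs' hd1 hd2)
      have haa : a = a' := sub_eq_zero.1 hd0
      subst haa
      have hbb : b = b' := add_left_cancel hab'
      subst hbb
      rfl
    exact Nat.card_le_card_of_injective f hf
  have hthird : ∀ t : G, (t ≠ 1 ∧ t * t = 1 ∧ t ≠ z) →
      ∃ t' : G, (t' ≠ 1 ∧ t' * t' = 1 ∧ t' ≠ z) ∧ t' ≠ t ∧ t' ≠ t * z := by
    intro t ht
    obtain ⟨h1, h2, h3⟩ := ht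
    obtain ⟨k1, k2, k3⟩ := hJz t ⟨h1, h2, h3⟩
    have htne : t ≠ t * z := by
      intro h
      apply hz1
      have h4 : t * 1 = t * z := by rw [mul_one]; exact h
      exact (mul_left_cancel h4).symm
    obtain ⟨a, ha0, ha⟩ := hB t h2 h3
    obtain ⟨b, hb0, hb⟩ := hB (t * z) k2 k3
    have hx : a + b ≠ 0 := by
      intro h0
      have hab : a = -b := eq_neg_of_add_eq_zero_left h0
      have h4 : ρ (t * z) a = a := by rw [hab, map_neg, hb]
      exact htne (eq_of_fix ρ hstab a ha0 t (t * z) h1 k1 ha h4)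
    obtain ⟨t', ht'x, ht'1, -⟩ := exists_tv ρ hstab (a + b) hx
    refine ⟨t', ⟨ht'1, sq_of_fix ρ hstab _ hx t' ht'1 ht'x, ?_⟩, ?_, ?_⟩
    · intro h
      rw [h] at ht'x
      exact hzv _ hx ht'x
    · intro h
      rw [h, map_add, ha] at ht'x
      have h5 : ρ t b = b := add_left_cancel ht'x
      exact htne (eq_of_fix ρ hstab b hb0 t (t * z) h1 k1 h5 hb)
    · intro h
      rw [h, map_add, hb] at ht'x
      have h5 : ρ (t * z) a = a := add_right_cancel ht'x
      exact htne (eq_of_fix ρ hstab a ha0 t (t * z) h1 k1 ha h5)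
  have hD : ∀ t : G, (t ≠ 1 ∧ t * t = 1 ∧ t ≠ z) → m t * m t ≤ M := by
    intro t ht
    obtain ⟨t', ht', hne1, hne2⟩ := hthird t ht
    have ht'z := hJz t' ht'
    have e1 : m t' * m t ≤ M := hdisj t' t ht'.1 ht.1 hne1
    have hne3 : t' * z ≠ t := by
      intro h
      apply hne2
      rw [← h, mul_assoc, hz2, mul_one]
    have e2 : m (t' * z) * m t ≤ M := hdisj (t' * z) t ht'z.1 ht.1 hne3
    have e3 : m t' * m (t' * z) = M := hprod t' ht'
    have e4 : M * (m t * m t) ≤ M * M := by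
      calc M * (m t * m t) = (m t' * m t) * (m (t' * z) * m t) := by rw [← e3]; ring
        _ ≤ M * M := Nat.mul_le_mul e1 e2
    exact Nat.le_of_mul_le_mul_left e4 hMpos
  have hsq : ∀ t : G, (t ≠ 1 ∧ t * t = 1 ∧ t ≠ z) → m t * m t = M := by
    intro t ht
    have e1 := hD t ht
    have e2 := hD (t * z) (hJz t ht)
    have e3 := hprod t ht
    have p1 := hmpos t
    have p2 := hmpos (t * z)
    have l1 : m t ≤ m (t * z) := by
      rw [← e3] at e1
      exact Nat.le_of_mul_le_mul_left e1 p1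
    have l2 : m (t * z) ≤ m t := by
      rw [← e3] at e2
      exact Nat.le_of_mul_le_mul_right e2 p2
    have l3 : m (t * z) = m t := le_antisymm l2 l1
    rw [← e3, l3]
  obtain ⟨v₀, hv₀⟩ := exists_ne (0 : V)
  obtain ⟨t₀, ht₀v, ht₀1, -⟩ := exists_tv ρ hstab v₀ hv₀
  have ht₀ : t₀ ≠ 1 ∧ t₀ * t₀ = 1 ∧ t₀ ≠ z := by
    refine ⟨ht₀1, sq_of_fix ρ hstab _ hv₀ t₀ ht₀1 ht₀v, ?_⟩
    intro h
    rw [h] at ht₀v
    exact hzv _ hv₀ ht₀v
  obtain ⟨m₀, hm₀⟩ : ∃ m₀ : ℕ, m₀ = m t₀ := ⟨_, rfl⟩
  have hMm : M = m₀ * m₀ := by rw [hm₀]; exact (hsq t₀ ht₀).symm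
  have hmall : ∀ t : G, (t ≠ 1 ∧ t * t = 1 ∧ t ≠ z) → m t = m₀ := by
    intro t ht
    have e := hsq t ht
    rw [hMm] at e
    exact Nat.mul_self_inj.1 e
  have hMq : ∃ k : ℕ, M = q ^ k := by
    refine ⟨Module.finrank (ZMod q) V, ?_⟩
    rw [hM, Module.natCard_eq_pow_finrank (K := ZMod q), Nat.card_zmod]
  obtain ⟨k, hk⟩ := hMq
  have hdvd : m₀ ∣ q ^ k := by rw [← hk, hMm]; exact dvd_mul_right _ _
  obtain ⟨r, -, hr⟩ := (Nat.dvd_prime_pow (Fact.out : q.Prime)).1 hdvd
  refine ⟨r, ?_, ?_⟩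
  · rw [hMm, hr, two_mul, pow_add]
  · have hm2 : 2 ≤ m₀ := by
      rw [hm₀, hm]
      have hnt : Nontrivial {v : V // ρ t₀ v = v} :=
        ⟨⟨⟨0, map_zero _⟩, ⟨v₀, ht₀v⟩, fun h => hv₀ (congrArg Subtype.val h).symm⟩⟩
      exact Finite.one_lt_card
    have hcount1 : Nat.card {v : V // v ≠ 0} + 1 = M := by
      rw [← Finite.card_option, hM]
      exact Nat.card_congr (Equiv.optionSubtypeNe (0 : V))
    choose τ hτfix hτ1 hτu using (fun v : {v : V // v ≠ 0} => exists_tv ρ hstab v.1 v.2)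
    have hτJ : ∀ v : {v : V // v ≠ 0}, orderOf (τ v) = 2 ∧ τ v ∉ Subgroup.center G := by
      intro v
      rw [hJ]
      refine ⟨hτ1 v, sq_of_fix ρ hstab _ v.2 _ (hτ1 v) (hτfix v), ?_⟩
      intro h
      have h5 := hτfix v
      rw [h] at h5
      exact hzv _ v.2 h5
    let f : {v : V // v ≠ 0} → {g : G // orderOf g = 2 ∧ g ∉ Subgroup.center G} :=
      fun v => ⟨τ v, hτJ v⟩
    have hfib : ∀ y : {g : G // orderOf g = 2 ∧ g ∉ Subgroup.center G},
        Nat.card {x : {v : V // v ≠ 0} // f x = y} + 1 = m₀ := by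
      intro y
      have hy := (hJ y.1).1 y.2
      rw [← hmall y.1 hy, hm, ← Finite.card_option]
      refine Nat.card_congr ?_
      refine (Equiv.optionCongr ?_).trans
        (Equiv.optionSubtypeNe (⟨0, map_zero _⟩ : {v : V // ρ y.1 v = v}))
      exact
        { toFun := fun x => ⟨⟨x.1.1, by
              have h1 := hτfix x.1
              have h2 : τ x.1 = y.1 := congrArg Subtype.val x.2
              rw [h2] at h1; exact h1⟩, fun h => x.1.2 (congrArg Subtype.val h)⟩
          invFun := fun w => ⟨⟨w.1.1, fun h => w.2 (Subtype.ext h)⟩, by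
              apply Subtype.ext
              show τ ⟨w.1.1, _⟩ = y.1
              have h1 := hτu ⟨w.1.1, fun h => w.2 (Subtype.ext h)⟩ y.1 w.1.2
              rcases h1 with h1 | h1
              · exact absurd h1 hy.1
              · exact h1.symm⟩
          left_inv := fun x => by apply Subtype.ext; apply Subtype.ext; rfl
          right_inv := fun w => by apply Subtype.ext; apply Subtype.ext; rfl }
    have hsum : Nat.card {v : V // v ≠ 0} =
        Nat.card {g : G // orderOf g = 2 ∧ g ∉ Subgroup.center G} * (m₀ - 1) := by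
      haveI : Fintype {g : G // orderOf g = 2 ∧ g ∉ Subgroup.center G} := Fintype.ofFinite _
      rw [← Nat.card_congr (Equiv.sigmaFiberEquiv f), Nat.card_sigma]
      have hc : ∀ y, Nat.card {x : {v : V // v ≠ 0} // f x = y} = m₀ - 1 := fun y => by
        have h6 := hfib y; omega
      rw [Finset.sum_congr rfl (fun y _ => hc y), Finset.sum_const, Finset.card_univ, smul_eq_mul,
        Nat.card_eq_fintype_card]
    rw [← hr]
    obtain ⟨n, hn⟩ : ∃ n, m₀ = n + 2 := ⟨m₀ - 2, by omega⟩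
    have h1 : Nat.card {v : V // v ≠ 0} + 1 = (n + 2) * (n + 2) := by rw [hcount1, hMm, hn]
    rw [hsum, hn] at h1
    have h2 : n + 2 - 1 = n + 1 := by omega
    rw [h2] at h1
    have e : Nat.card {g : G // orderOf g = 2 ∧ g ∉ Subgroup.center G} * (n + 1) =
        (n + 3) * (n + 1) := by
      have h3 : (n + 2) * (n + 2) = (n + 3) * (n + 1) + 1 := by ring
      rw [h3] at h1
      exact Nat.succ_injective h1
    rw [hn]
    exact Nat.eq_of_mul_eq_mul_right (Nat.succ_pos n) e

end Cfsg.Agent.S3381
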