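import Cfsg.Statements.S3382
import Mathlib
import Cfsg.Agent.Helper18.AutTwo

set_option autoImplicit false
open Cfsg

namespace Cfsg.Agent.S3382

/-- an automorphism of odd order fixes `y` as soon as it fixes `c = y⁻¹ α(y)` and `c` has
2-power order -/
theorem fix_of_chain {G : Type*} [Group G] (α : MulAut G) (r : ℕ) (hr : Odd r) (hα : α ^ r = 1)
    (y : G) (e : ℕ) (hc : α (y⁻¹ * α y) = y⁻¹ * α y) (hpow : (y⁻¹ * α y) ^ 2 ^ e = 1) :
    α y = y := by
  set c := y⁻¹ * α y with hcdef
  have hy : α y = y * c := by rw [hcdef]; group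
  have hk : ∀ k : ℕ, (α ^ k) y = y * c ^ k := by
    intro k
    induction k with
    | zero => simp
    | succ k ih =>
      rw [pow_succ', MulAut.mul_apply, ih, map_mul, map_pow, hc, hy, pow_succ', mul_assoc]
  have h1 : (α ^ 2 ^ e) y = y := by rw [hk, hpow, mul_one]
  have hcop : Nat.Coprime (2 ^ e) r := Nat.Coprime.pow_left e (Nat.coprime_two_left.mpr hr)
  by_cases hr1 : r = 1
  · subst hr1
    rw [pow_one] at hα
    rw [hα]; rfl
  · have hr2 : 1 < r := by
      rcases hr with ⟨j, rfl⟩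
      omega
    obtain ⟨u, -, hu⟩ := Nat.exists_mul_mod_eq_one_of_coprime hcop hr2
    have h2 : α ^ (2 ^ e * u) = α := by
      conv_rhs => rw [← pow_one α]
      rw [pow_eq_pow_mod (2 ^ e * u) hα, hu]
    have h3 : ∀ j : ℕ, ((α ^ 2 ^ e) ^ j) y = y := by
      intro j
      induction j with
      | zero => simp
      | succ j ih => rw [pow_succ', MulAut.mul_apply, ih, h1]
    rw [← h2, pow_mul]
    exact h3 u

/-- a group all of whose odd-order automorphisms are trivial has a 2-group of automorphisms -/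
theorem isPGroup_of_odd_trivial {G : Type*} [Group G] [Finite (MulAut G)]
    (h : ∀ α : MulAut G, Odd (orderOf α) → α = 1) : IsPGroup 2 (MulAut G) := by
  intro α
  obtain ⟨k, m, hm, hn⟩ := Nat.exists_eq_two_pow_mul_odd (orderOf_pos α).ne'
  refine ⟨k, ?_⟩
  apply h
  have h1 : (α ^ 2 ^ k) ^ m = 1 := by
    rw [← pow_mul, ← hn]; exact pow_orderOf_eq_one α
  exact Odd.of_dvd_nat hm (orderOf_dvd_of_pow_eq_one h1)

section monomial

variable {q : ℕ} [hqp : Fact q.Prime]

local notation "VV" => (Fin 2 → ZMod q)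
local notation "ΓΓ" => ((Fin 2 → ZMod q) ≃ₗ[ZMod q] (Fin 2 → ZMod q))

/-- diagonal elements -/
def IsDg (f : ΓΓ) : Prop :=
  ∃ a s : ZMod q, a ≠ 0 ∧ (s = 1 ∨ s = -1) ∧ ∀ v, f v = ![a * v 0, s * a⁻¹ * v 1]

/-- anti-diagonal elements -/
def IsAd (f : ΓΓ) : Prop :=
  ∃ a s : ZMod q, a ≠ 0 ∧ (s = 1 ∨ s = -1) ∧ ∀ v, f v = ![s * a⁻¹ * v 1, a * v 0]

/-- the explicit diagonal element -/
def dgE (a s : ZMod q) (ha : a ≠ 0) (hs : s * s = 1) : ΓΓ where
  toFun v := ![a * v 0, s * a⁻¹ * v 1]
  map_add' v w := by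
    ext i; fin_cases i <;> simp [mul_add]
  map_smul' c v := by
    ext i; fin_cases i <;> simp <;> ring
  invFun v := ![a⁻¹ * v 0, s * a * v 1]
  left_inv v := by
    ext i
    fin_cases i
    · simp
      rw [← mul_assoc, inv_mul_cancel₀ ha, one_mul]
    · simp
      calc s * a * (s * a⁻¹ * v 1) = (s * s) * (a * a⁻¹) * v 1 := by ring
        _ = v 1 := by rw [hs, mul_inv_cancel₀ ha, one_mul, one_mul]
  right_inv v := by
    ext i
    fin_cases i
    · simp
      rw [← mul_assoc, mul_inv_cancel₀ ha, one_mul]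
    · simp
      calc s * a⁻¹ * (s * a * v 1) = (s * s) * (a⁻¹ * a) * v 1 := by ring
        _ = v 1 := by rw [hs, inv_mul_cancel₀ ha, one_mul, one_mul]

theorem dgE_apply (a s : ZMod q) (ha : a ≠ 0) (hs : s * s = 1) (v : VV) :
    dgE a s ha hs v = ![a * v 0, s * a⁻¹ * v 1] := rfl

theorem sq_of_sign {s : ZMod q} (hs : s = 1 ∨ s = -1) : s * s = 1 := by
  rcases hs with rfl | rfl <;> ring

theorem sign_ne_zero {s : ZMod q} (hs : s = 1 ∨ s = -1) : s ≠ 0 := by
  intro h
  have := sq_of_sign hs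
  rw [h, mul_zero] at this
  exact zero_ne_one this

theorem isDg_dgE (a s : ZMod q) (ha : a ≠ 0) (hs : s = 1 ∨ s = -1) :
    IsDg (dgE a s ha (sq_of_sign hs)) := ⟨a, s, ha, hs, fun _ => rfl⟩

theorem not_dg_ad (f : ΓΓ) (h1 : IsDg f) (h2 : IsAd f) : False := by
  obtain ⟨a, s, ha, hs, hf⟩ := h1
  obtain ⟨b, t, hb, ht, hf'⟩ := h2
  have h := (hf ![1, 0]).symm.trans (hf' ![1, 0])
  have h0 := congrFun h 0
  simp at h0
  exact ha h0

theorem dg_mul_dg (f g : ΓΓ) (h1 : IsDg f) (h2 : IsDg g) : IsDg (f * g) := by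
  obtain ⟨a, s, ha, hs, hf⟩ := h1
  obtain ⟨b, t, hb, ht, hg⟩ := h2
  refine ⟨a * b, s * t, mul_ne_zero ha hb, ?_, ?_⟩
  · rcases hs with rfl | rfl <;> rcases ht with rfl | rfl <;> simp
  · intro v
    rw [LinearEquiv.mul_apply, hg, hf]
    ext i
    fin_cases i
    · simp; ring
    · simp; ring

theorem dg_mul_ad (f g : ΓΓ) (h1 : IsDg f) (h2 : IsAd g) : IsAd (f * g) := by
  obtain ⟨a, s, ha, hs, hf⟩ := h1
  obtain ⟨b, t, hb, ht, hg⟩ := h2
  have hs0 := sign_ne_zero hs
  refine ⟨s * a⁻¹ * b, s * t, mul_ne_zero (mul_ne_zero hs0 (inv_ne_zero ha)) hb, ?_, ?_⟩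
  · rcases hs with rfl | rfl <;> rcases ht with rfl | rfl <;> simp
  · intro v
    rw [LinearEquiv.mul_apply, hg, hf]
    have hss := sq_of_sign hs
    ext i
    fin_cases i
    · simp
      field_simp
    · simp
      ring

theorem ad_mul_dg (f g : ΓΓ) (h1 : IsAd f) (h2 : IsDg g) : IsAd (f * g) := by
  obtain ⟨a, s, ha, hs, hf⟩ := h1
  obtain ⟨b, t, hb, ht, hg⟩ := h2
  refine ⟨a * b, s * t, mul_ne_zero ha hb, ?_, ?_⟩
  · rcases hs with rfl | rfl <;> rcases ht with rfl | rfl <;> simp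
  · intro v
    rw [LinearEquiv.mul_apply, hg, hf]
    ext i
    fin_cases i
    · simp; ring
    · simp; ring

theorem ad_mul_ad (f g : ΓΓ) (h1 : IsAd f) (h2 : IsAd g) : IsDg (f * g) := by
  obtain ⟨a, s, ha, hs, hf⟩ := h1
  obtain ⟨b, t, hb, ht, hg⟩ := h2
  have hs0 := sign_ne_zero hs
  refine ⟨s * a⁻¹ * b, s * t, mul_ne_zero (mul_ne_zero hs0 (inv_ne_zero ha)) hb, ?_, ?_⟩
  · rcases hs with rfl | rfl <;> rcases ht with rfl | rfl <;> simp
  · intro v
    rw [LinearEquiv.mul_apply, hg, hf]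
    ext i
    fin_cases i
    · simp; ring
    · simp
      field_simp

theorem dg_comm (f g : ΓΓ) (h1 : IsDg f) (h2 : IsDg g) : f * g = g * f := by
  obtain ⟨a, s, ha, hs, hf⟩ := h1
  obtain ⟨b, t, hb, ht, hg⟩ := h2
  apply LinearEquiv.ext
  intro v
  rw [LinearEquiv.mul_apply, LinearEquiv.mul_apply, hg, hf, hf, hg]
  ext i
  fin_cases i
  · simp; ring
  · simp; ring

theorem isDg_one : IsDg (1 : ΓΓ) :=
  ⟨1, 1, one_ne_zero, Or.inl rfl, fun v => by
    ext i; fin_cases i <;> simp⟩

theorem dg_pow (f : ΓΓ) (h : IsDg f) (n : ℕ) : IsDg (f ^ n) := by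
  induction n with
  | zero => rw [pow_zero]; exact isDg_one
  | succ n ih => rw [pow_succ]; exact dg_mul_dg _ _ ih h

theorem diag_pow_apply (f : ΓΓ) (a b : ZMod q) (hf : ∀ v, f v = ![a * v 0, b * v 1]) (n : ℕ)
    (v : VV) : (f ^ n) v = ![a ^ n * v 0, b ^ n * v 1] := by
  induction n generalizing v with
  | zero =>
    rw [pow_zero]
    ext i; fin_cases i <;> simp
  | succ n ih =>
    rw [pow_succ, LinearEquiv.mul_apply, hf, ih]
    ext i
    fin_cases i
    · simp; ring
    · simp; ring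

/-- the scalar `-1` -/
def zE : ΓΓ := dgE (-1) 1 (neg_ne_zero.mpr one_ne_zero) (by ring)

/-- the reflection `diag(1, -1)` -/
def eE : ΓΓ := dgE 1 (-1) one_ne_zero (by ring)

theorem zE_apply (v : VV) : (zE : ΓΓ) v = ![-v 0, -v 1] := by
  unfold zE
  rw [dgE_apply]
  ext i
  fin_cases i
  · simp
  · simp [inv_neg]

theorem eE_apply (v : VV) : (eE : ΓΓ) v = ![v 0, -v 1] := by
  unfold eE
  rw [dgE_apply]
  ext i
  fin_cases i
  · simp
  · simp

theorem isDg_zE : IsDg (zE : ΓΓ) := isDg_dgE _ _ _ (Or.inl rfl)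

theorem isDg_eE : IsDg (eE : ΓΓ) := isDg_dgE _ _ _ (Or.inr rfl)

theorem sq_eq_one_cases {a : ZMod q} (h : a * a = 1) : a = 1 ∨ a = -1 := by
  have h1 : (a - 1) * (a + 1) = 0 := by linear_combination h
  rcases mul_eq_zero.mp h1 with h2 | h2
  · left; linear_combination h2
  · right; linear_combination h2

/-- diagonal involutions -/
theorem dg_invol (f : ΓΓ) (h : IsDg f) (h2 : f * f = 1) :
    f = 1 ∨ f = zE ∨ f = eE ∨ f = eE * zE := by
  obtain ⟨a, s, ha, hs, hf⟩ := h
  have h3 : a * a = 1 := by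
    have := congrArg (fun g : ΓΓ => g ![1, 0] 0) h2
    simp only [LinearEquiv.mul_apply, hf] at this
    simpa using this
  rcases sq_eq_one_cases h3 with rfl | rfl <;> rcases hs with rfl | rfl
  · left
    apply LinearEquiv.ext; intro v
    rw [hf]; ext i; fin_cases i <;> simp
  · right; right; left
    apply LinearEquiv.ext; intro v
    rw [hf, eE_apply]; ext i; fin_cases i <;> simp
  · right; left
    apply LinearEquiv.ext; intro v
    rw [hf, zE_apply]; ext i; fin_cases i <;> simp [inv_neg]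
  · right; right; right
    apply LinearEquiv.ext; intro v
    rw [hf, LinearEquiv.mul_apply, zE_apply, eE_apply]; ext i; fin_cases i <;> simp [inv_neg]

/-- a diagonal square which is an involution -/
theorem dg_sq_invol (w : ΓΓ) (h : IsDg w) (h2 : (w * w) * (w * w) = 1) :
    w * w = 1 ∨ w * w = zE := by
  obtain ⟨b, t, hb, ht, hw⟩ := h
  have htt := sq_of_sign ht
  have hww : ∀ v, (w * w) v = ![b * b * v 0, (b * b)⁻¹ * v 1] := by
    intro v
    rw [LinearEquiv.mul_apply, hw, hw]
    ext i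
    fin_cases i
    · simp; ring
    · simp
      calc t * b⁻¹ * (t * b⁻¹ * v 1) = (t * t) * (b⁻¹ * b⁻¹) * v 1 := by ring
        _ = b⁻¹ * b⁻¹ * v 1 := by rw [htt, one_mul]
  have h3 : (b * b) * (b * b) = 1 := by
    have := congrArg (fun g : ΓΓ => g ![1, 0] 0) h2
    simp only [LinearEquiv.mul_apply, hww] at this
    simpa using this
  rcases sq_eq_one_cases h3 with h4 | h4
  · left
    apply LinearEquiv.ext; intro v
    rw [hww, h4]; ext i; fin_cases i <;> simp
  · right
    apply LinearEquiv.ext; intro v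
    rw [hww, h4, zE_apply]; ext i; fin_cases i <;> simp [inv_neg]

theorem ad_sq_sq (f : ΓΓ) (h : IsAd f) : (f * f) * (f * f) = 1 := by
  obtain ⟨a, s, ha, hs, hf⟩ := h
  have hss := sq_of_sign hs
  have hff : ∀ v, (f * f) v = ![s * v 0, s * v 1] := by
    intro v
    rw [LinearEquiv.mul_apply, hf, hf]
    ext i
    fin_cases i
    · simp
      calc s * a⁻¹ * (a * v 0) = s * (a⁻¹ * a) * v 0 := by ring
        _ = s * v 0 := by rw [inv_mul_cancel₀ ha, mul_one]
    · simp
      calc a * (s * a⁻¹ * v 1) = s * (a * a⁻¹) * v 1 := by ring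
        _ = s * v 1 := by rw [mul_inv_cancel₀ ha, mul_one]
  apply LinearEquiv.ext; intro v
  rw [LinearEquiv.mul_apply, hff, hff]
  ext i
  fin_cases i
  · simp
    rw [← mul_assoc, hss, one_mul]
  · simp
    rw [← mul_assoc, hss, one_mul]

theorem zE_ne_one (hq2 : q ≠ 2) : (zE : ΓΓ) ≠ 1 := by
  intro h
  have := congrArg (fun g : ΓΓ => g ![1, 0] 0) h
  simp only [zE_apply] at this
  simp at this
  have h2 : (2 : ZMod q) = 0 := by linear_combination -this
  have h3 : ((2 : ℕ) : ZMod q) = 0 := by exact_mod_cast h2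
  rw [ZMod.natCast_eq_zero_iff] at h3
  have := (Nat.prime_dvd_prime_iff_eq hqp.out Nat.prime_two).mp h3
  exact hq2 this

theorem main_ge (m : ℕ) (hm : 4 ≤ m) (hq : q = 2 ^ m + 1) (T : Subgroup ΓΓ)
    (hT : ∀ f, f ∈ T ↔ ∃ a s : ZMod q, a ≠ 0 ∧ (s = 1 ∨ s = -1) ∧
      ((∀ v, f v = ![a * v 0, s * a⁻¹ * v 1]) ∨ (∀ v, f v = ![s * a⁻¹ * v 1, a * v 0]))) :
    IsPGroup 2 (MulAut T) := by
  have hcases : ∀ y : ↥T, IsDg y.1 ∨ IsAd y.1 := by
    intro y
    obtain ⟨a, s, ha, hs, h | h⟩ := (hT y.1).mp y.2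
    · exact Or.inl ⟨a, s, ha, hs, h⟩
    · exact Or.inr ⟨a, s, ha, hs, h⟩
  have hdgT : ∀ f : ΓΓ, IsDg f → f ∈ T := fun f ⟨a, s, ha, hs, h⟩ =>
    (hT f).mpr ⟨a, s, ha, hs, Or.inl h⟩
  have hfinΓ : Finite ΓΓ := Finite.of_injective (fun f : ΓΓ => (f : VV → VV))
    DFunLike.coe_injective
  have hfinA : Finite (MulAut ↥T) := Finite.of_injective (fun f : MulAut ↥T => (f : ↥T → ↥T))
    DFunLike.coe_injective
  have hq2 : q ≠ 2 := by
    rw [hq]
    have : 2 ^ 4 ≤ 2 ^ m := Nat.pow_le_pow_right (by norm_num) hm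
    omega
  have hqm : q - 1 = 2 ^ m := by rw [hq]; simp
  -- an element with nontrivial eighth power
  obtain ⟨c, hc0, hc8⟩ : ∃ c : ZMod q, c ≠ 0 ∧ c ^ 8 ≠ 1 := by
    obtain ⟨g, hg⟩ := IsCyclic.exists_generator (α := (ZMod q)ˣ)
    have hord : orderOf g = 2 ^ m := by
      rw [orderOf_eq_card_of_forall_mem_zpowers hg, Nat.card_eq_fintype_card, ZMod.card_units, hqm]
    refine ⟨(g : ZMod q), g.ne_zero, ?_⟩
    intro h
    have h1 : g ^ 8 = 1 := Units.ext (by simpa using h)
    have h2 := orderOf_dvd_of_pow_eq_one h1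
    rw [hord] at h2
    have h3 : 2 ^ m ≤ 8 := Nat.le_of_dvd (by norm_num) h2
    have : 2 ^ 4 ≤ 2 ^ m := Nat.pow_le_pow_right (by norm_num) hm
    omega
  -- a square root of `-1`
  obtain ⟨i, hi⟩ : ∃ i : ZMod q, i * i = -1 := by
    have h1 : IsSquare (-1 : ZMod q) := by
      rw [ZMod.exists_sq_eq_neg_one_iff, hq]
      have h4 : 2 ^ m = 2 ^ (m - 2) * 4 := by
        obtain ⟨k, rfl⟩ : ∃ k, m = k + 2 := ⟨m - 2, by omega⟩
        rw [Nat.add_sub_cancel, pow_add]
        norm_num
      rw [h4]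
      omega
    obtain ⟨i, hi⟩ := h1
    exact ⟨i, hi.symm⟩
  have hi0 : i ≠ 0 := by
    intro h
    rw [h, mul_zero] at hi
    exact one_ne_zero (neg_eq_zero.mp hi.symm)
  -- characterisation of diagonal elements
  have hfour : ∀ t : ↥T, t ^ 4 = (t * t) * (t * t) := by
    intro t
    rw [show (4 : ℕ) = 2 + 2 from rfl, pow_add, pow_two]
  have hC1 : ∀ y : ↥T, IsDg y.1 ↔ ∀ t : ↥T, y * t ^ 4 = t ^ 4 * y := by
    intro y
    constructor
    · intro hy t
      rcases hcases t with ht | ht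
      · apply Subtype.ext
        rw [Subgroup.coe_mul, Subgroup.coe_mul, Subgroup.coe_pow]
        exact dg_comm _ _ hy (dg_pow _ ht 4)
      · have h1 : t ^ 4 = 1 := by
          rw [hfour]
          apply Subtype.ext
          exact ad_sq_sq _ ht
        rw [h1, mul_one, one_mul]
    · intro hy
      rcases hcases y with h | h
      · exact h
      · exfalso
        obtain ⟨a, s, ha, hs, hf⟩ := h
        have hcT : dgE c 1 hc0 (by ring) ∈ T := hdgT _ (isDg_dgE c 1 hc0 (Or.inl rfl))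
        have h1 := hy ⟨_, hcT⟩
        have h2 := congrArg (fun g : ↥T => (g : ΓΓ) ![1, 0] 1) h1
        simp only [Subgroup.coe_mul, Subgroup.coe_pow, LinearEquiv.mul_apply] at h2
        rw [diag_pow_apply _ c (1 * c⁻¹) (fun v => dgE_apply c 1 hc0 (by ring) v) 4, hf,
          hf, diag_pow_apply _ c (1 * c⁻¹) (fun v => dgE_apply c 1 hc0 (by ring) v) 4] at h2
        simp at h2
        apply hc8
        have h3 : a * c ^ 4 = (c⁻¹) ^ 4 * a := by rw [inv_pow]; exact h2
        have h4 : c ^ 4 * (c⁻¹) ^ 4 = 1 := by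
          rw [← mul_pow, mul_inv_cancel₀ hc0, one_pow]
        have h5 : a * c ^ 8 = a := by
          calc a * c ^ 8 = (a * c ^ 4) * c ^ 4 := by ring
            _ = (c⁻¹) ^ 4 * a * c ^ 4 := by rw [h3]
            _ = a * (c ^ 4 * (c⁻¹) ^ 4) := by ring
            _ = a := by rw [h4, mul_one]
        exact mul_left_cancel₀ ha (by rw [h5, mul_one])
  have hpres : ∀ β : MulAut ↥T, ∀ y : ↥T, IsDg y.1 → IsDg (β y).1 := by
    intro β y hy
    rw [hC1] at hy ⊢
    intro t
    have h1 := hy (β.symm t)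
    have h2 := congrArg β h1
    rw [map_mul, map_mul, map_pow, MulEquiv.apply_symm_apply] at h2
    exact h2
  apply isPGroup_of_odd_trivial
  intro α hαodd
  have hαr : α ^ orderOf α = 1 := pow_orderOf_eq_one α
  have hpresAd : ∀ y : ↥T, IsAd y.1 → IsAd (α y).1 := by
    intro y hy
    rcases hcases (α y) with h | h
    · exfalso
      have := hpres α.symm (α y) h
      rw [MulEquiv.symm_apply_apply] at this
      exact not_dg_ad _ this hy
    · exact h
  -- the elements `z`, `e`
  set z : ↥T := ⟨zE, hdgT _ isDg_zE⟩ with hz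
  set e : ↥T := ⟨eE, hdgT _ isDg_eE⟩ with he
  have hzz : z * z = 1 := by
    apply Subtype.ext
    apply LinearEquiv.ext; intro v
    show (zE * zE : ΓΓ) v = v
    rw [LinearEquiv.mul_apply, zE_apply, zE_apply]
    ext j; fin_cases j <;> simp
  have hz1 : z ≠ 1 := fun h => zE_ne_one hq2 (congrArg Subtype.val h)
  have hee : e * e = 1 := by
    apply Subtype.ext
    apply LinearEquiv.ext; intro v
    show (eE * eE : ΓΓ) v = v
    rw [LinearEquiv.mul_apply, eE_apply, eE_apply]
    ext j; fin_cases j <;> simp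
  have hez : e ≠ z := by
    intro h
    have h1 := congrArg (fun g : ↥T => (g : ΓΓ) ![1, 0] 0) h
    simp only [hz, he, eE_apply, zE_apply] at h1
    simp at h1
    have h2 : (2 : ZMod q) = 0 := by linear_combination h1
    have h3 : ((2 : ℕ) : ZMod q) = 0 := by exact_mod_cast h2
    rw [ZMod.natCast_eq_zero_iff] at h3
    exact hq2 ((Nat.prime_dvd_prime_iff_eq hqp.out Nat.prime_two).mp h3)
  have he1 : e ≠ 1 := by
    intro h
    have h1 := congrArg (fun g : ↥T => (g : ΓΓ) ![0, 1] 1) h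
    simp only [he, eE_apply] at h1
    simp at h1
    have h2 : (2 : ZMod q) = 0 := by linear_combination -h1
    have h3 : ((2 : ℕ) : ZMod q) = 0 := by exact_mod_cast h2
    rw [ZMod.natCast_eq_zero_iff] at h3
    exact hq2 ((Nat.prime_dvd_prime_iff_eq hqp.out Nat.prime_two).mp h3)
  have hinvol : ∀ y : ↥T, IsDg y.1 → y * y = 1 → y = 1 ∨ y = z ∨ y = e ∨ y = e * z := by
    intro y hy hyy
    rcases dg_invol y.1 hy (congrArg Subtype.val hyy) with h | h | h | h
    · exact Or.inl (Subtype.ext h)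
    · exact Or.inr (Or.inl (Subtype.ext h))
    · exact Or.inr (Or.inr (Or.inl (Subtype.ext h)))
    · exact Or.inr (Or.inr (Or.inr (Subtype.ext h)))
  have hsq : ∀ w : ↥T, IsDg w.1 → (w * w) * (w * w) = 1 → w * w = 1 ∨ w * w = z := by
    intro w hw hww
    rcases dg_sq_invol w.1 hw (congrArg Subtype.val hww) with h | h
    · exact Or.inl (Subtype.ext h)
    · exact Or.inr (Subtype.ext h)
  -- (S0) `α z = z`
  have hαz : α z = z := by
    set w : ↥T := ⟨dgE i 1 hi0 (by ring), hdgT _ (isDg_dgE i 1 hi0 (Or.inl rfl))⟩ with hw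
    have hwz : w * w = z := by
      apply Subtype.ext
      apply LinearEquiv.ext; intro v
      show (dgE i 1 hi0 (by ring) * dgE i 1 hi0 (by ring) : ΓΓ) v = zE v
      rw [LinearEquiv.mul_apply, dgE_apply, dgE_apply, zE_apply]
      ext j
      fin_cases j
      · simp
        rw [← mul_assoc, hi]; ring
      · simp
        rw [← mul_assoc, ← mul_inv, hi, inv_neg, inv_one]; ring
    have h1 : α w * α w = α z := by rw [← map_mul, hwz]
    have h2 : (α w * α w) * (α w * α w) = 1 := by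
      rw [h1, ← map_mul, hzz, map_one]
    rcases hsq (α w) (hpres α w (isDg_dgE i 1 hi0 (Or.inl rfl))) h2 with h3 | h3
    · exfalso
      rw [h1] at h3
      exact hz1 (α.injective (by rw [h3, map_one]))
    · rw [← h1, h3]
  -- (S1) `α e = e`
  have hαe : α e = e := by
    have h1 : α e * α e = 1 := by rw [← map_mul, hee, map_one]
    have hcz : α z⁻¹ = z⁻¹ := by rw [map_inv, hαz]
    have hzinv : z⁻¹ = z := inv_eq_of_mul_eq_one_left hzz
    have heinv : e⁻¹ = e := inv_eq_of_mul_eq_one_left hee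
    rcases hinvol (α e) (hpres α e isDg_eE) h1 with h | h | h | h
    · exact absurd (α.injective (by rw [h, map_one])) he1
    · exact absurd (α.injective (by rw [h, hαz])) hez
    · exact h
    · apply fix_of_chain α (orderOf α) hαodd hαr e 1
      · rw [h, heinv, ← mul_assoc, hee, one_mul, hαz]
      · rw [h, heinv, ← mul_assoc, hee, one_mul, pow_one, pow_two, hzz]
  -- (S2) diagonal elements of 2-power order
  have hS2 : ∀ k : ℕ, 1 ≤ k → ∀ y : ↥T, IsDg y.1 → y ^ 2 ^ k = 1 → α y = y := by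
    intro k hk
    induction k, hk using Nat.le_induction with
    | base =>
      intro y hy hy2
      rw [pow_one, pow_two] at hy2
      rcases hinvol y hy hy2 with h | h | h | h
      · rw [h, map_one]
      · rw [h, hαz]
      · rw [h, hαe]
      · rw [h, map_mul, hαe, hαz]
    | succ k hk ih =>
      intro y hy hy2
      have hyinv : IsDg (y⁻¹).1 := by
        rcases hcases y⁻¹ with h | h
        · exact h
        · exfalso
          have := dg_mul_ad _ _ hy h
          have h1 : ((y * y⁻¹ : ↥T) : ΓΓ) = 1 := by rw [mul_inv_cancel]; rfl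
          rw [Subgroup.coe_mul] at h1
          rw [h1] at this
          exact not_dg_ad _ isDg_one this
      have hαy : IsDg (α y).1 := hpres α y hy
      have hcdg : IsDg (y⁻¹ * α y).1 := dg_mul_dg _ _ hyinv hαy
      have hcomm : Commute y⁻¹ (α y) := Subtype.ext (dg_comm _ _ hyinv hαy)
      set u := y ^ 2 ^ k with hu
      have huu : u * u = 1 := by
        rw [hu, ← pow_two, ← pow_mul, ← pow_succ]; exact hy2
      have hαu : α u = u := by
        obtain ⟨k', rfl⟩ : ∃ k', k = k' + 1 := ⟨k - 1, by omega⟩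
        have hw : IsDg (y ^ 2 ^ k').1 := by
          rw [Subgroup.coe_pow]; exact dg_pow _ hy _
        have huw : u = y ^ 2 ^ k' * y ^ 2 ^ k' := by
          rw [hu, ← pow_two, ← pow_mul, ← pow_succ]
        have h4 : (y ^ 2 ^ k' * y ^ 2 ^ k') * (y ^ 2 ^ k' * y ^ 2 ^ k') = 1 := by
          rw [← huw]; exact huu
        rcases hsq _ hw h4 with h | h
        · rw [huw, h, map_one]
        · rw [huw, h, hαz]
      have hcpow : (y⁻¹ * α y) ^ 2 ^ k = 1 := by
        rw [hcomm.mul_pow, inv_pow, ← map_pow, ← hu, hαu, inv_mul_cancel]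
      exact fix_of_chain α (orderOf α) hαodd hαr y k (ih _ hcdg hcpow) hcpow
  -- (S3) all diagonal elements
  have hS3 : ∀ y : ↥T, IsDg y.1 → α y = y ∧ y ^ 2 ^ m = 1 := by
    intro y hy
    have hpow : y ^ 2 ^ m = 1 := by
      obtain ⟨a, s, ha, hs, hf⟩ := hy
      apply Subtype.ext
      apply LinearEquiv.ext; intro v
      rw [Subgroup.coe_pow, diag_pow_apply _ a (s * a⁻¹) hf]
      have h1 : a ^ 2 ^ m = 1 := by
        rw [← hqm]; exact ZMod.pow_card_sub_one_eq_one ha
      have h2 : (s * a⁻¹) ^ 2 ^ m = 1 := by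
        rw [← hqm]
        exact ZMod.pow_card_sub_one_eq_one (mul_ne_zero (sign_ne_zero hs) (inv_ne_zero ha))
      rw [h1, h2]
      ext j; fin_cases j <;> simp
    exact ⟨hS2 m (by omega) y hy hpow, hpow⟩
  -- (S4) everything
  ext y
  rcases hcases y with hy | hy
  · rw [(hS3 y hy).1]; rfl
  · have hαy := hpresAd y hy
    have hcdg : IsDg (y⁻¹ * α y).1 := by
      rcases hcases (y⁻¹ * α y) with h | h
      · exact h
      · exfalso
        have := ad_mul_ad _ _ hy h
        have h1 : ((y * (y⁻¹ * α y) : ↥T) : ΓΓ) = (α y).1 := by rw [mul_inv_cancel_left]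
        rw [Subgroup.coe_mul] at h1
        rw [h1] at this
        exact not_dg_ad _ this hαy
    have h1 := hS3 _ hcdg
    have := fix_of_chain α (orderOf α) hαodd hαr y m h1.1 h1.2
    rw [this]; rfl


/-- the explicit anti-diagonal element -/
def adE (a s : ZMod q) (ha : a ≠ 0) (hs : s * s = 1) : ΓΓ where
  toFun v := ![s * a⁻¹ * v 1, a * v 0]
  map_add' v w := by
    ext i; fin_cases i <;> simp [mul_add]
  map_smul' c v := by
    ext i; fin_cases i <;> simp <;> ring
  invFun v := ![a⁻¹ * v 1, s * a * v 0]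
  left_inv v := by
    ext i
    fin_cases i
    · simp
      rw [← mul_assoc, inv_mul_cancel₀ ha, one_mul]
    · simp
      calc s * a * (s * a⁻¹ * v 1) = (s * s) * (a * a⁻¹) * v 1 := by ring
        _ = v 1 := by rw [hs, mul_inv_cancel₀ ha, one_mul, one_mul]
  right_inv v := by
    ext i
    fin_cases i
    · simp
      calc s * a⁻¹ * (s * a * v 0) = (s * s) * (a⁻¹ * a) * v 0 := by ring
        _ = v 0 := by rw [hs, inv_mul_cancel₀ ha, one_mul, one_mul]
    · simp
      rw [← mul_assoc, mul_inv_cancel₀ ha, one_mul]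

theorem adE_apply (a s : ZMod q) (ha : a ≠ 0) (hs : s * s = 1) (v : VV) :
    adE a s ha hs v = ![s * a⁻¹ * v 1, a * v 0] := rfl

/-- the element of order four -/
def xE : ΓΓ := adE 1 (-1) one_ne_zero (by ring)

theorem xE_apply (v : VV) : (xE : ΓΓ) v = ![-v 1, v 0] := by
  unfold xE
  rw [adE_apply]
  ext i
  fin_cases i
  · simp
  · simp

theorem isAd_xE : IsAd (xE : ΓΓ) := ⟨1, -1, one_ne_zero, Or.inr rfl, fun _ => rfl⟩

theorem main_two (h2 : ∀ a : ZMod q, a ≠ 0 → a = 1) (hneg : (-1 : ZMod q) = 1)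
    (T : Subgroup ΓΓ)
    (hT : ∀ f, f ∈ T ↔ ∃ a s : ZMod q, a ≠ 0 ∧ (s = 1 ∨ s = -1) ∧
      ((∀ v, f v = ![a * v 0, s * a⁻¹ * v 1]) ∨ (∀ v, f v = ![s * a⁻¹ * v 1, a * v 0]))) :
    IsPGroup 2 (MulAut T) := by
  have hel : ∀ y : ↥T, y = 1 ∨ ∀ v, y.1 v = ![v 1, v 0] := by
    intro y
    obtain ⟨a, s, ha, hs, h | h⟩ := (hT y.1).mp y.2
    · left
      have ha1 := h2 a ha
      have hs1 : s = 1 := by
        rcases hs with rfl | rfl
        · rfl
        · exact hneg
      subst ha1; subst hs1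
      apply Subtype.ext; apply LinearEquiv.ext; intro v
      rw [h]; ext i; fin_cases i <;> simp
    · right
      intro v
      have ha1 := h2 a ha
      have hs1 : s = 1 := by
        rcases hs with rfl | rfl
        · rfl
        · exact hneg
      rw [h, ha1, hs1]; ext i; fin_cases i <;> simp
  intro α
  refine ⟨0, ?_⟩
  rw [pow_zero, pow_one]
  ext y
  rcases hel y with h | h
  · rw [h, map_one]; rfl
  · rcases hel (α y) with h' | h'
    · have : y = 1 := α.injective (by rw [h', map_one])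
      rw [this, map_one]; rfl
    · have : α y = y := by
        apply Subtype.ext; apply LinearEquiv.ext; intro v; rw [h, h']
      rw [this]; rfl

theorem main_three (h3 : ∀ a : ZMod q, a ≠ 0 → a = 1 ∨ a = -1) (hq2 : q ≠ 2)
    (T : Subgroup ΓΓ)
    (hT : ∀ f, f ∈ T ↔ ∃ a s : ZMod q, a ≠ 0 ∧ (s = 1 ∨ s = -1) ∧
      ((∀ v, f v = ![a * v 0, s * a⁻¹ * v 1]) ∨ (∀ v, f v = ![s * a⁻¹ * v 1, a * v 0]))) :
    IsPGroup 2 (MulAut T) := by
  have hcases : ∀ y : ↥T, IsDg y.1 ∨ IsAd y.1 := by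
    intro y
    obtain ⟨a, s, ha, hs, h | h⟩ := (hT y.1).mp y.2
    · exact Or.inl ⟨a, s, ha, hs, h⟩
    · exact Or.inr ⟨a, s, ha, hs, h⟩
  have hdgT : ∀ f : ΓΓ, IsDg f → f ∈ T := fun f ⟨a, s, ha, hs, h⟩ =>
    (hT f).mpr ⟨a, s, ha, hs, Or.inl h⟩
  have hadT : ∀ f : ΓΓ, IsAd f → f ∈ T := fun f ⟨a, s, ha, hs, h⟩ =>
    (hT f).mpr ⟨a, s, ha, hs, Or.inr h⟩
  have hfinΓ : Finite ΓΓ := Finite.of_injective (fun f : ΓΓ => (f : VV → VV))
    DFunLike.coe_injective
  have hfinA : Finite (MulAut ↥T) := Finite.of_injective (fun f : MulAut ↥T => (f : ↥T → ↥T))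
    DFunLike.coe_injective
  have hsqa : ∀ a : ZMod q, a ≠ 0 → a * a = 1 := by
    intro a ha
    rcases h3 a ha with rfl | rfl <;> ring
  have hinva : ∀ a : ZMod q, a ≠ 0 → a⁻¹ = a := by
    intro a ha
    rcases h3 a ha with rfl | rfl
    · simp
    · simp [inv_neg]
  set z : ↥T := ⟨zE, hdgT _ isDg_zE⟩ with hz
  set x : ↥T := ⟨xE, hadT _ isAd_xE⟩ with hx
  have hzz : z * z = 1 := by
    apply Subtype.ext
    apply LinearEquiv.ext; intro v
    show (zE * zE : ΓΓ) v = v
    rw [LinearEquiv.mul_apply, zE_apply, zE_apply]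
    ext j; fin_cases j <;> simp
  have hz1 : z ≠ 1 := fun h => zE_ne_one hq2 (congrArg Subtype.val h)
  have hxx : x * x = z := by
    apply Subtype.ext
    apply LinearEquiv.ext; intro v
    show (xE * xE : ΓΓ) v = zE v
    rw [LinearEquiv.mul_apply, xE_apply, xE_apply, zE_apply]
    ext j; fin_cases j <;> simp
  -- squares
  have hF1dg : ∀ w : ↥T, IsDg w.1 → w * w = 1 := by
    intro w ⟨a, s, ha, hs, hf⟩
    apply Subtype.ext
    apply LinearEquiv.ext; intro v
    show (w.1 * w.1) v = v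
    rw [LinearEquiv.mul_apply, hf, hf, hinva a ha]
    have haa := hsqa a ha
    have hss := sq_of_sign hs
    ext j
    fin_cases j
    · simp
      rw [← mul_assoc, haa, one_mul]
    · simp
      calc s * a * (s * a * v 1) = (s * s) * (a * a) * v 1 := by ring
        _ = v 1 := by rw [hss, haa, one_mul, one_mul]
  have hadsq : ∀ w : ↥T, ∀ a s : ZMod q, a ≠ 0 → (s = 1 ∨ s = -1) →
      (∀ v, w.1 v = ![s * a⁻¹ * v 1, a * v 0]) → ∀ v, (w * w).1 v = ![s * v 0, s * v 1] := by
    intro w a s ha hs hf v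
    rw [Subgroup.coe_mul, LinearEquiv.mul_apply, hf, hf]
    ext j
    fin_cases j
    · simp
      calc s * a⁻¹ * (a * v 0) = s * (a⁻¹ * a) * v 0 := by ring
        _ = s * v 0 := by rw [inv_mul_cancel₀ ha, mul_one]
    · simp
      calc a * (s * a⁻¹ * v 1) = s * (a * a⁻¹) * v 1 := by ring
        _ = s * v 1 := by rw [mul_inv_cancel₀ ha, mul_one]
  have hF1 : ∀ w : ↥T, w * w = 1 ∨ w * w = z := by
    intro w
    rcases hcases w with h | ⟨a, s, ha, hs, hf⟩
    · exact Or.inl (hF1dg w h)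
    · have h1 := hadsq w a s ha hs hf
      rcases hs with rfl | rfl
      · left
        apply Subtype.ext
        apply LinearEquiv.ext; intro v
        rw [h1]
        ext j; fin_cases j <;> simp
      · right
        apply Subtype.ext
        apply LinearEquiv.ext; intro v
        rw [h1]
        show _ = zE v
        rw [zE_apply]
        ext j; fin_cases j <;> simp
  have hxz : ∀ v, (x * z).1 v = ![v 1, -v 0] := by
    intro v
    show (xE * zE : ΓΓ) v = _
    rw [LinearEquiv.mul_apply, zE_apply, xE_apply]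
    ext j; fin_cases j <;> simp
  have hF2 : ∀ w : ↥T, w * w = z → w = x ∨ w = x * z := by
    intro w hw
    rcases hcases w with h | ⟨a, s, ha, hs, hf⟩
    · exfalso
      rw [hF1dg w h] at hw
      exact hz1 hw.symm
    · have h1 := hadsq w a s ha hs hf
      rcases hs with rfl | rfl
      · exfalso
        apply hz1
        rw [← hw]
        apply Subtype.ext
        apply LinearEquiv.ext; intro v
        rw [h1]
        ext j; fin_cases j <;> simp
      · rcases h3 a ha with rfl | rfl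
        · left
          apply Subtype.ext
          apply LinearEquiv.ext; intro v
          rw [hf]
          show _ = xE v
          rw [xE_apply]
          ext j; fin_cases j <;> simp
        · right
          apply Subtype.ext
          apply LinearEquiv.ext; intro v
          rw [hf, hxz]
          ext j; fin_cases j <;> simp [inv_neg]
  have hF3 : ∀ y : ↥T, y * z = z * y := by
    intro y
    apply Subtype.ext
    apply LinearEquiv.ext; intro v
    show (y.1 * zE : ΓΓ) v = (zE * y.1 : ΓΓ) v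
    rw [LinearEquiv.mul_apply, LinearEquiv.mul_apply, zE_apply, zE_apply]
    have h1 : (![-v 0, -v 1] : VV) = -v := by
      ext j; fin_cases j <;> simp
    have h2 : (![-(y.1 v) 0, -(y.1 v) 1] : VV) = -(y.1 v) := by
      ext j; fin_cases j <;> simp
    rw [h1, h2, map_neg]
  have hF5 : ∀ c : ↥T, c * x = x * c → c = 1 ∨ c = z ∨ c = x ∨ c = x * z := by
    intro c hc
    have hc' : ∀ v, c.1 (xE v) = xE (c.1 v) := by
      intro v
      have := congrArg (fun g : ↥T => g.1 v) hc
      simpa [Subgroup.coe_mul, LinearEquiv.mul_apply, hx] using this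
    rcases hcases c with ⟨a, s, ha, hs, hf⟩ | ⟨a, s, ha, hs, hf⟩
    · have h1 := congrFun (hc' ![1, 0]) 1
      rw [xE_apply, xE_apply, hf, hf, hinva a ha] at h1
      simp at h1
      -- h1 : s * a = a
      have hs1 : s = 1 := by
        have h2 : (s - 1) * a = 0 := by linear_combination h1
        rcases mul_eq_zero.mp h2 with h | h
        · linear_combination h
        · exact absurd h ha
      subst hs1
      rcases h3 a ha with rfl | rfl
      · left
        apply Subtype.ext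
        apply LinearEquiv.ext; intro v
        rw [hf]
        ext j; fin_cases j <;> simp
      · right; left
        apply Subtype.ext
        apply LinearEquiv.ext; intro v
        rw [hf]
        show _ = zE v
        rw [zE_apply]
        ext j; fin_cases j <;> simp [inv_neg]
    · have h1 := congrFun (hc' ![1, 0]) 0
      rw [xE_apply, xE_apply, hf, hf, hinva a ha] at h1
      simp at h1
      -- h1 : s * a = -a
      have hs1 : s = -1 := by
        have h2 : (s + 1) * a = 0 := by linear_combination h1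
        rcases mul_eq_zero.mp h2 with h | h
        · linear_combination h
        · exact absurd h ha
      subst hs1
      right; right
      apply hF2
      apply Subtype.ext
      apply LinearEquiv.ext; intro v
      rw [hadsq c a (-1) ha (Or.inr rfl) hf]
      show _ = zE v
      rw [zE_apply]
      ext j; fin_cases j <;> simp
  apply isPGroup_of_odd_trivial
  intro α hαodd
  have hαr : α ^ orderOf α = 1 := pow_orderOf_eq_one α
  have hαz : α z = z := by
    have h1 : α x * α x = α z := by rw [← map_mul, hxx]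
    rcases hF1 (α x) with h | h
    · exfalso
      rw [h1] at h
      exact hz1 (α.injective (by rw [h, map_one]))
    · rw [← h1, h]
  have hxinv : x⁻¹ * (x * z) = z := by group
  have hαx : α x = x := by
    have h1 : α x * α x = z := by rw [← map_mul, hxx, hαz]
    rcases hF2 (α x) h1 with h | h
    · exact h
    · apply fix_of_chain α (orderOf α) hαodd hαr x 1
      · rw [h, hxinv, hαz]
      · rw [h, hxinv, pow_one, pow_two, hzz]
  have hαxz : α (x * z) = x * z := by rw [map_mul, hαx, hαz]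
  ext y
  have hw : (y * x * y⁻¹) * (y * x * y⁻¹) = z := by
    have : (y * x * y⁻¹) * (y * x * y⁻¹) = y * (x * x) * y⁻¹ := by group
    rw [this, hxx, hF3, mul_inv_cancel_right]
  have hαw : α (y * x * y⁻¹) = y * x * y⁻¹ := by
    rcases hF2 _ hw with h | h
    · rw [h, hαx]
    · rw [h, hαxz]
  have hαw' : α y * x * (α y)⁻¹ = y * x * y⁻¹ := by
    rw [← hαw, map_mul, map_mul, map_inv, hαx]
  have hc : (y⁻¹ * α y) * x = x * (y⁻¹ * α y) := by
    have h1 : α y * x = y * x * y⁻¹ * α y := by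
      rw [← hαw']; group
    calc (y⁻¹ * α y) * x = y⁻¹ * (α y * x) := by group
      _ = y⁻¹ * (y * x * y⁻¹ * α y) := by rw [h1]
      _ = x * (y⁻¹ * α y) := by group
  have hαc : α (y⁻¹ * α y) = y⁻¹ * α y := by
    rcases hF5 _ hc with h | h | h | h
    · rw [h, map_one]
    · rw [h, hαz]
    · rw [h, hαx]
    · rw [h, hαxz]
  have hc4 : (y⁻¹ * α y) ^ 2 ^ 2 = 1 := by
    have h4 : ∀ t : ↥T, t ^ 2 ^ 2 = (t * t) * (t * t) := by
      intro t
      rw [show (2 : ℕ) ^ 2 = 2 + 2 from rfl, pow_add, pow_two]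
    rw [h4]
    rcases hF1 (y⁻¹ * α y) with h | h
    · rw [h, one_mul]
    · rw [h, hzz]
  have := fix_of_chain α (orderOf α) hαodd hαr y 2 hαc hc4
  rw [this]; rfl

end monomial

theorem zmod_two_cases : ∀ a : ZMod 2, a ≠ 0 → a = 1 := by decide

theorem zmod_two_neg : (-1 : ZMod 2) = 1 := by decide

theorem zmod_three_cases : ∀ a : ZMod 3, a ≠ 0 → a = 1 ∨ a = -1 := by decide

/-- Let q = 2^m + 1 be a prime other than 5. Then the automorphism group of the group of linear maps of F_q² of the forms (x, y) ↦ (a x, ± a⁻¹ y) and (x, y) ↦ (± a⁻¹ y, a x) with a ≠ 0 is itself a 2-group. -/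
theorem result (q m : ℕ) [Fact q.Prime] (hq : q = 2 ^ m + 1) (hq5 : q ≠ 5)
    (T : Subgroup ((Fin 2 → ZMod q) ≃ₗ[ZMod q] (Fin 2 → ZMod q)))
    (hT : ∀ f, f ∈ T ↔ ∃ a s : ZMod q, a ≠ 0 ∧ (s = 1 ∨ s = -1) ∧
      ((∀ v, f v = ![a * v 0, s * a⁻¹ * v 1]) ∨ (∀ v, f v = ![s * a⁻¹ * v 1, a * v 0]))) :
    IsPGroup 2 (MulAut T) := by
  rcases Nat.lt_or_ge m 4 with hm | hm
  · interval_cases m
    · have hq' : q = 2 := by rw [hq]; norm_num
      have h2 : ∀ a : ZMod q, a ≠ 0 → a = 1 := by
        subst hq'; exact zmod_two_cases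
      have hneg : (-1 : ZMod q) = 1 := by
        subst hq'; exact zmod_two_neg
      exact main_two h2 hneg T hT
    · have hq' : q = 3 := by rw [hq]; norm_num
      have h3 : ∀ a : ZMod q, a ≠ 0 → a = 1 ∨ a = -1 := by
        subst hq'; exact zmod_three_cases
      exact main_three h3 (by omega) T hT
    · exact absurd (by rw [hq]; norm_num) hq5
    · exfalso
      have hp := (Fact.out : q.Prime)
      rw [hq] at hp
      norm_num at hp
  · exact main_ge m hm hq T hT

end Cfsg.Agent.S3382
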