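import Cfsg.Statements.S3704
import Mathlib

set_option autoImplicit false
open Cfsg
open scoped Matrix

namespace Cfsg.Agent.S3704

theorem three_classes_false {Ω Q : Type*} [Fintype Ω] [DecidableEq Ω] [DecidableEq Q]
    (cl : Ω → Ω → Q)
    (H1 : ∀ i j : Q, ∃ d o : ℚ, ∀ ω ω' : Ω,
      ∑ x : Ω, (if cl ω x = i then (1:ℚ) else 0) * (if cl ω' x = j then (1:ℚ) else 0)
        = if ω = ω' then d else o)
    (H2 : ∀ i : Q, ∃ ω ω' x : Ω, ω ≠ ω' ∧ cl ω x = i ∧ cl ω' x ≠ i)
    (i j j' : Q) (hij : i ≠ j) (hij' : i ≠ j') (hjj' : j ≠ j') : False := by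
  obtain ⟨M, hM⟩ : ∃ M : Q → Matrix Ω Ω ℚ,
      ∀ k ω x, M k ω x = if cl ω x = k then (1:ℚ) else 0 :=
    ⟨fun k => Matrix.of (fun ω x => if cl ω x = k then (1:ℚ) else 0), fun _ _ _ => rfl⟩
  obtain ⟨K, hK⟩ : ∃ K : Matrix Ω Ω ℚ, ∀ ω ω', K ω ω' = if ω = ω' then (0:ℚ) else 1 :=
    ⟨Matrix.of (fun ω ω' => if ω = ω' then (0:ℚ) else 1), fun _ _ => rfl⟩
  have hMM : ∀ a b ω ω', (M a * (M b)ᵀ) ω ω'
      = ∑ x : Ω, (if cl ω x = a then (1:ℚ) else 0) * (if cl ω' x = b then (1:ℚ) else 0) := by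
    intro a b ω ω'
    rw [Matrix.mul_apply]
    apply Finset.sum_congr rfl
    intro x _
    rw [Matrix.transpose_apply, hM, hM]
  obtain ⟨d, o, hdo⟩ := H1 i i
  obtain ⟨ω₀, ω₁, x₀, hne, hx0, hx1⟩ := H2 i
  have hd : d = ∑ x : Ω, (if cl ω₀ x = i then (1:ℚ) else 0) * (if cl ω₀ x = i then (1:ℚ) else 0) := by
    rw [hdo ω₀ ω₀, if_pos rfl]
  have ho : o = ∑ x : Ω, (if cl ω₀ x = i then (1:ℚ) else 0) * (if cl ω₁ x = i then (1:ℚ) else 0) := by
    rw [hdo ω₀ ω₁, if_neg hne]
  have ho0 : 0 ≤ o := by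
    rw [ho]
    apply Finset.sum_nonneg
    intro x _
    split_ifs <;> norm_num
  have hdo1 : 1 ≤ d - o := by
    rw [hd, ho, ← Finset.sum_sub_distrib]
    have hterm : ∀ x ∈ (Finset.univ : Finset Ω), (0:ℚ) ≤
        (if cl ω₀ x = i then (1:ℚ) else 0) * (if cl ω₀ x = i then (1:ℚ) else 0)
          - (if cl ω₀ x = i then (1:ℚ) else 0) * (if cl ω₁ x = i then (1:ℚ) else 0) := by
      intro x _
      split_ifs <;> norm_num
    have h1 := Finset.single_le_sum hterm (Finset.mem_univ x₀)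
    rw [if_pos hx0, if_neg hx1] at h1
    have h2 : (1:ℚ) * 1 - 1 * 0 = 1 := by norm_num
    rw [h2] at h1
    exact h1
  have hS : ∀ ω ω', (M i * (M i)ᵀ) ω ω' = if ω = ω' then d else o := by
    intro ω ω'
    rw [hMM]
    exact hdo ω ω'
  have hdetS : (M i * (M i)ᵀ).det ≠ 0 := by
    intro hdet
    obtain ⟨v, hv, hmv⟩ := Matrix.exists_mulVec_eq_zero_iff.mpr hdet
    have hrow : ∀ ω, (d - o) * v ω + o * ∑ y, v y = 0 := by
      intro ω
      have h1 : ∑ y, (M i * (M i)ᵀ) ω y * v y = 0 := congrFun hmv ω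
      have h2 : ∀ y, (M i * (M i)ᵀ) ω y * v y
          = o * v y + (if ω = y then (d - o) * v y else 0) := by
        intro y
        rw [hS]
        split_ifs <;> ring
      simp only [h2] at h1
      rw [Finset.sum_add_distrib, ← Finset.mul_sum, Finset.sum_ite_eq Finset.univ ω,
        if_pos (Finset.mem_univ ω)] at h1
      linarith
    have hs : ∑ y, v y = 0 := by
      have h3 : ∑ ω : Ω, ((d - o) * v ω + o * ∑ y, v y) = 0 :=
        Finset.sum_eq_zero (fun ω _ => hrow ω)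
      rw [Finset.sum_add_distrib, ← Finset.mul_sum, Finset.sum_const, Finset.card_univ,
        nsmul_eq_mul] at h3
      have hn : (0:ℚ) ≤ (Fintype.card Ω : ℚ) := Nat.cast_nonneg _
      have hno : (0:ℚ) ≤ (Fintype.card Ω : ℚ) * o := mul_nonneg hn ho0
      have hpos : 0 < (d - o) + (Fintype.card Ω : ℚ) * o := by linarith
      have h4 : ((d - o) + (Fintype.card Ω : ℚ) * o) * ∑ y, v y = 0 := by
        rw [← h3]
        ring
      rcases mul_eq_zero.mp h4 with h | h
      · exact absurd h (ne_of_gt hpos)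
      · exact h
    apply hv
    funext ω
    have h5 := hrow ω
    rw [hs, mul_zero, add_zero] at h5
    rcases mul_eq_zero.mp h5 with h | h
    · exfalso
      linarith
    · exact h
  have hdetP : (M i).det ≠ 0 := by
    intro h
    apply hdetS
    rw [Matrix.det_mul, h, zero_mul]
  have hPinv : (M i)⁻¹ * M i = 1 := Matrix.nonsing_inv_mul _ (isUnit_iff_ne_zero.mpr hdetP)
  have hoff : ∀ k : Q, i ≠ k → ∃ μ : ℚ, ∀ x ω, M k ω x = μ * ((M i)⁻¹ * K) x ω := by
    intro k hik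
    obtain ⟨dk, ok, hk⟩ := H1 i k
    have hdk : dk = 0 := by
      have h1 := hk ω₀ ω₀
      rw [if_pos rfl] at h1
      rw [← h1]
      apply Finset.sum_eq_zero
      intro x _
      by_cases hx : cl ω₀ x = i
      · rw [if_neg (fun h => hik (hx.symm.trans h)), mul_zero]
      · rw [if_neg hx, zero_mul]
    have hPk : M i * (M k)ᵀ = ok • K := by
      ext ω ω'
      rw [hMM, hk, hdk, Matrix.smul_apply, hK, smul_eq_mul]
      split_ifs <;> simp
    have hk2 : (M k)ᵀ = ok • ((M i)⁻¹ * K) := by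
      calc (M k)ᵀ = ((M i)⁻¹ * M i) * (M k)ᵀ := by rw [hPinv, Matrix.one_mul]
        _ = (M i)⁻¹ * (M i * (M k)ᵀ) := Matrix.mul_assoc _ _ _
        _ = ok • ((M i)⁻¹ * K) := by rw [hPk, Matrix.mul_smul]
    refine ⟨ok, fun x ω => ?_⟩
    have h1 := congrFun (congrFun hk2 x) ω
    rw [Matrix.transpose_apply, Matrix.smul_apply, smul_eq_mul] at h1
    exact h1
  obtain ⟨μ, hμ⟩ := hoff j hij
  obtain ⟨μ', hμ'⟩ := hoff j' hij'
  obtain ⟨a, _, x, _, hax, _⟩ := H2 j
  obtain ⟨a', _, x', _, hax', _⟩ := H2 j'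
  have h1 := hμ x a
  rw [hM, if_pos hax] at h1
  have h2 := hμ' x a
  rw [hM, if_neg (fun h => hjj' (hax.symm.trans h))] at h2
  have hB : ((M i)⁻¹ * K) x a ≠ 0 := by
    intro h
    rw [h, mul_zero] at h1
    exact one_ne_zero h1
  have hμ'0 : μ' = 0 := by
    rcases mul_eq_zero.mp h2.symm with h | h
    · exact h
    · exact absurd h hB
  have h3 := hμ' x' a'
  rw [hM, if_pos hax', hμ'0, zero_mul] at h3
  exact one_ne_zero h3

theorem two_orbits_aux {G Ω : Type*} [Group G] [Finite G] [MulAction G Ω] [Finite Ω]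
    (h2 : MulAction.IsMultiplyPretransitive G Ω 2) (H : Subgroup G)
    (hidx : H.index = Nat.card Ω) (hnt : ¬ MulAction.IsPretransitive H Ω) :
    Nat.card (MulAction.orbitRel.Quotient H Ω) = 2 := by
  classical
  haveI : Fintype Ω := Fintype.ofFinite Ω
  haveI : Fintype (G ⧸ H) := Fintype.ofFinite _
  haveI : Fintype (MulAction.orbitRel.Quotient H Ω) := Fintype.ofFinite _
  obtain ⟨e⟩ : Nonempty ((G ⧸ H) ≃ Ω) := by
    rw [← Finite.card_eq, ← hidx, Subgroup.index_eq_card]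
  have hmk : ∀ a b : Ω, (Quotient.mk'' a : MulAction.orbitRel.Quotient H Ω) = Quotient.mk'' b
      ↔ ∃ h : H, h • b = a := by
    intro a b
    rw [Quotient.eq'', MulAction.orbitRel_apply, MulAction.mem_orbit_iff]
  have hmkG : ∀ (a : Ω) (g : G), g ∈ H →
      (Quotient.mk'' (g • a) : MulAction.orbitRel.Quotient H Ω) = Quotient.mk'' a := by
    intro a g hg
    rw [hmk]
    exact ⟨⟨g, hg⟩, rfl⟩
  have hex2 : ∃ a b : Ω, (Quotient.mk'' a : MulAction.orbitRel.Quotient H Ω) ≠ Quotient.mk'' b := by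
    by_contra hno
    apply hnt
    refine ⟨fun a b => ?_⟩
    by_contra hab
    apply hno
    exact ⟨b, a, fun h => hab ((hmk b a).mp h)⟩
  obtain ⟨cls, hcls⟩ : ∃ cls : Ω → G ⧸ H → MulAction.orbitRel.Quotient H Ω,
      ∀ ω q, cls ω q = Quotient.mk'' ((Quotient.out q : G)⁻¹ • ω) :=
    ⟨fun ω q => Quotient.mk'' ((Quotient.out q : G)⁻¹ • ω), fun _ _ => rfl⟩
  have hinv : ∀ (g : G) (ω : Ω) (q : G ⧸ H), cls (g • ω) (g • q) = cls ω q := by
    intro g ω q
    rw [hcls, hcls]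
    have h0 : g • q = ((g * Quotient.out q : G) : G ⧸ H) := by
      have h := MulAction.Quotient.smul_mk H g (Quotient.out q)
      rw [QuotientGroup.out_eq'] at h
      exact h
    have h1 : ((g * Quotient.out q : G) : G ⧸ H) = ((Quotient.out (g • q) : G) : G ⧸ H) := by
      rw [QuotientGroup.out_eq', h0]
    have h2 : (g * Quotient.out q)⁻¹ * Quotient.out (g • q) ∈ H := QuotientGroup.eq.mp h1
    have h3 : (Quotient.out (g • q) : G)⁻¹ • g • ω
        = ((g * Quotient.out q)⁻¹ * Quotient.out (g • q))⁻¹ • ((Quotient.out q : G)⁻¹ • ω) := by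
      simp only [smul_smul]
      congr 1
      group
    rw [h3]
    exact hmkG _ _ (H.inv_mem h2)
  have hq0 : ∀ ω, cls ω ((1 : G) : G ⧸ H) = Quotient.mk'' ω := by
    intro ω
    rw [hcls]
    apply hmkG
    have h1 : ((Quotient.out ((1 : G) : G ⧸ H) : G) : G ⧸ H) = ((1 : G) : G ⧸ H) :=
      QuotientGroup.out_eq' _
    have h2 := QuotientGroup.eq.mp h1
    rw [mul_one] at h2
    exact h2
  obtain ⟨a₀, b₀, hab₀⟩ := hex2
  have hab₀' : a₀ ≠ b₀ := fun h => hab₀ (by rw [h])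
  have h2' : ∀ {a b c d : Ω}, a ≠ b → c ≠ d → ∃ g : G, g • a = c ∧ g • b = d :=
    MulAction.is_two_pretransitive_iff.mp h2
  haveI := h2
  haveI : MulAction.IsPretransitive G Ω := MulAction.isPretransitive_of_is_two_pretransitive
  have H1 : ∀ i j : MulAction.orbitRel.Quotient H Ω, ∃ d o : ℚ, ∀ ω ω' : Ω,
      ∑ x : Ω, (if cls ω (e.symm x) = i then (1:ℚ) else 0)
          * (if cls ω' (e.symm x) = j then (1:ℚ) else 0) = if ω = ω' then d else o := by
    intro i j
    have hf : ∀ ω ω' : Ω, ∑ x : Ω, (if cls ω (e.symm x) = i then (1:ℚ) else 0)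
          * (if cls ω' (e.symm x) = j then (1:ℚ) else 0)
        = ∑ q : G ⧸ H, (if cls ω q = i then (1:ℚ) else 0)
          * (if cls ω' q = j then (1:ℚ) else 0) := by
      intro ω ω'
      exact Equiv.sum_comp e.symm (fun q => (if cls ω q = i then (1:ℚ) else 0)
          * (if cls ω' q = j then (1:ℚ) else 0))
    have hfinv : ∀ (g : G) (ω ω' : Ω),
        ∑ q : G ⧸ H, (if cls (g • ω) q = i then (1:ℚ) else 0)
          * (if cls (g • ω') q = j then (1:ℚ) else 0)
        = ∑ q : G ⧸ H, (if cls ω q = i then (1:ℚ) else 0)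
          * (if cls ω' q = j then (1:ℚ) else 0) := by
      intro g ω ω'
      exact (Fintype.sum_equiv (MulAction.toPerm g)
        (fun q => (if cls ω q = i then (1:ℚ) else 0) * (if cls ω' q = j then (1:ℚ) else 0))
        (fun q => (if cls (g • ω) q = i then (1:ℚ) else 0)
          * (if cls (g • ω') q = j then (1:ℚ) else 0))
        (fun q => by simp only [MulAction.toPerm_apply, hinv])).symm
    refine ⟨∑ q : G ⧸ H, (if cls a₀ q = i then (1:ℚ) else 0)
          * (if cls a₀ q = j then (1:ℚ) else 0),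
        ∑ q : G ⧸ H, (if cls a₀ q = i then (1:ℚ) else 0)
          * (if cls b₀ q = j then (1:ℚ) else 0), ?_⟩
    intro ω ω'
    rw [hf]
    by_cases h : ω = ω'
    · rw [if_pos h, ← h]
      obtain ⟨g, hg⟩ := MulAction.exists_smul_eq G a₀ ω
      rw [← hg, hfinv]
    · rw [if_neg h]
      obtain ⟨g, hg1, hg2⟩ := h2' hab₀' h
      rw [← hg1, ← hg2, hfinv]
  have H2 : ∀ i : MulAction.orbitRel.Quotient H Ω, ∃ ω ω' x : Ω,
      ω ≠ ω' ∧ cls ω (e.symm x) = i ∧ cls ω' (e.symm x) ≠ i := by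
    intro i
    obtain ⟨ω, rfl⟩ := Quotient.mk''_surjective i
    obtain ⟨ω', hω'⟩ : ∃ ω' : Ω,
        (Quotient.mk'' ω' : MulAction.orbitRel.Quotient H Ω) ≠ Quotient.mk'' ω := by
      by_contra hno
      apply hab₀
      have h1 : (Quotient.mk'' a₀ : MulAction.orbitRel.Quotient H Ω) = Quotient.mk'' ω := by
        by_contra h
        exact hno ⟨a₀, h⟩
      have h2 : (Quotient.mk'' b₀ : MulAction.orbitRel.Quotient H Ω) = Quotient.mk'' ω := by
        by_contra h
        exact hno ⟨b₀, h⟩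
      rw [h1, h2]
    refine ⟨ω, ω', e ((1 : G) : G ⧸ H), fun h => hω' (by rw [h]), ?_, ?_⟩
    · rw [Equiv.symm_apply_apply, hq0]
    · rw [Equiv.symm_apply_apply, hq0]
      exact hω'
  have hle : ¬ 2 < Fintype.card (MulAction.orbitRel.Quotient H Ω) := by
    intro h3
    obtain ⟨i, j, j', hij, hij', hjj'⟩ := Fintype.two_lt_card_iff.mp h3
    exact three_classes_false (fun ω x => cls ω (e.symm x)) H1 H2 i j j' hij hij' hjj'
  have hge : 1 < Fintype.card (MulAction.orbitRel.Quotient H Ω) := by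
    rw [Fintype.one_lt_card_iff]
    exact ⟨_, _, hab₀⟩
  rw [Nat.card_eq_fintype_card]
  omega

/-- Let G be a finite group acting faithfully and 2-transitively on a finite set Ω of size n, and let H be a subgroup of index n in G which is not transitive on Ω and fixes no point of Ω. Then H has exactly two orbits on Ω. -/
theorem result {G Ω : Type*} [Group G] [Finite G] [MulAction G Ω] [FaithfulSMul G Ω] [Finite Ω] (h2 : MulAction.IsMultiplyPretransitive G Ω 2) (H : Subgroup G) (hidx : H.index = Nat.card Ω) (hnt : ¬ MulAction.IsPretransitive H Ω) (hfix : ∀ a : Ω, ∃ h : H, h • a ≠ a) : Nat.card (MulAction.orbitRel.Quotient H Ω) = 2 := by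
  exact two_orbits_aux h2 H hidx hnt

end Cfsg.Agent.S3704
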