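import Cfsg.Statements.S3733
import Mathlib

set_option autoImplicit false
open Cfsg

namespace Cfsg.Agent.S3733

open scoped IsMulCommutative

/-- Let A and V be subgroups of a finite group with V abelian and nontrivial and A normalizing V. Suppose a nonempty finite family of proper subgroups of A partitions A: every non-identity element of A lies in exactly one member. If the number of members minus one is coprime to the order of V, then some member B of the family has a non-identity fixed point on V, that is V ∩ C(B) ≠ 1. -/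
theorem result {G : Type*} [Group G] [Finite G] (A V : Subgroup G) (hVab : IsMulCommutative V) (hV : V ≠ ⊥) (hAV : A ≤ Subgroup.normalizer (V : Set G)) (𝒜 : Finset (Subgroup G)) (hne : 𝒜.Nonempty) (hprop : ∀ B ∈ 𝒜, B < A) (hpart : ∀ a ∈ A, a ≠ 1 → ∃! B, B ∈ 𝒜 ∧ a ∈ B) (hk : (𝒜.card - 1).Coprime (Nat.card V)) : ∃ B ∈ 𝒜, V ⊓ Subgroup.centralizer (B : Set G) ≠ ⊥ := by
  classical
  have : Fintype G := Fintype.ofFinite G
  have := hVab
  by_contra hcon
  push Not at hcon
  have hmem : ∀ a ∈ A, ∀ v : V, a * (v:G) * a⁻¹ ∈ V := by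
    intro a ha v
    have := hAV ha
    rw [Subgroup.mem_normalizer_iff] at this
    exact (this v).1 v.2
  let f : G → V → V := fun g v => if h : g * (v : G) * g⁻¹ ∈ V then ⟨g * v * g⁻¹, h⟩ else 1
  let P : Subgroup G → V → V := fun S v => ∏ g : G, if g ∈ S then f g v else 1
  have hinv : ∀ S : Subgroup G, S ≤ A → ∀ v : V, ∀ c ∈ S, c * (P S v : G) * c⁻¹ = P S v := by
    intro S hSA v c hc
    let ψ : V →* V :=
      { toFun := fun w => ⟨c * w * c⁻¹, hmem c (hSA hc) w⟩
        map_one' := by ext; simp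
        map_mul' := by intro x y; ext; simp }
    have h1 : (ψ (P S v) : G) = c * (P S v : G) * c⁻¹ := rfl
    rw [← h1]
    congr 1
    show ψ (∏ g : G, if g ∈ S then f g v else 1) = ∏ g : G, if g ∈ S then f g v else 1
    rw [map_prod]
    rw [← Equiv.prod_comp (Equiv.mulLeft c) (fun g => if g ∈ S then f g v else 1)]
    apply Finset.prod_congr rfl
    intro g _
    show ψ (if g ∈ S then f g v else 1) = if c * g ∈ S then f (c * g) v else 1
    by_cases hg : g ∈ S
    · have hcg : c * g ∈ S := S.mul_mem hc hg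
      rw [if_pos hg, if_pos hcg]
      ext
      simp only [f, dif_pos (hmem g (hSA hg) v), dif_pos (hmem (c*g) (hSA hcg) v)]
      show c * (g * v * g⁻¹) * c⁻¹ = c * g * v * (c * g)⁻¹
      group
    · have hcg : c * g ∉ S := fun h => hg (by simpa using S.mul_mem (S.inv_mem hc) h)
      rw [if_neg hg, if_neg hcg, map_one]
  have hfix : ∀ S : Subgroup G, S ≤ A → ∀ v : V,
      (P S v : G) ∈ V ⊓ Subgroup.centralizer (S : Set G) := by
    intro S hSA v
    refine ⟨(P S v).2, ?_⟩
    show (P S v : G) ∈ Subgroup.centralizer (S : Set G)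
    rw [Subgroup.mem_centralizer_iff]
    intro c hc
    have := hinv S hSA v c hc
    calc c * (P S v : G) = c * (P S v : G) * c⁻¹ * c := by group
      _ = (P S v : G) * c := by rw [this]
  have hPB : ∀ B ∈ 𝒜, ∀ v : V, P B v = 1 := by
    intro B hB v
    have h1 := hfix B (hprop B hB).le v
    rw [hcon B hB, Subgroup.mem_bot] at h1
    exact Subtype.ext h1
  obtain ⟨B₀, hB₀⟩ := hne
  have hPA : ∀ v : V, P A v = 1 := by
    intro v
    have h1 := hfix A le_rfl v
    have h2 : (P A v : G) ∈ V ⊓ Subgroup.centralizer (B₀ : Set G) :=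
      ⟨h1.1, Subgroup.centralizer_le (hprop B₀ hB₀).le h1.2⟩
    rw [hcon B₀ hB₀, Subgroup.mem_bot] at h2
    exact Subtype.ext h2
  have hf1 : ∀ v : V, f 1 v = v := by
    intro v
    ext
    simp [f]
  have hcount : ∀ v : V, ∏ B ∈ 𝒜, P B v = P A v * v ^ (𝒜.card - 1) := by
    intro v
    show ∏ B ∈ 𝒜, ∏ g : G, (if g ∈ B then f g v else 1) = _
    rw [Finset.prod_comm]
    have hterm : ∀ g : G, ∏ B ∈ 𝒜, (if g ∈ B then f g v else 1)
        = (if g ∈ A then f g v else 1) * (if g = 1 then v ^ (𝒜.card - 1) else 1) := by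
      intro g
      by_cases hg1 : g = 1
      · subst hg1
        rw [if_pos A.one_mem, if_pos rfl, hf1]
        have : ∀ B ∈ 𝒜, (if (1:G) ∈ B then v else 1) = v := by
          intro B _
          rw [if_pos B.one_mem]
        rw [Finset.prod_congr rfl this, Finset.prod_const]
        have hpos : 0 < 𝒜.card := Finset.card_pos.mpr ⟨B₀, hB₀⟩
        conv_lhs => rw [show 𝒜.card = (𝒜.card - 1) + 1 by omega]
        rw [pow_succ, mul_comm]
      · rw [if_neg hg1, mul_one]
        by_cases hgA : g ∈ A
        · rw [if_pos hgA]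
          obtain ⟨B, ⟨hB, hgB⟩, huniq⟩ := hpart g hgA hg1
          rw [Finset.prod_eq_single B]
          · rw [if_pos hgB]
          · intro B' hB' hne'
            rw [if_neg]
            intro hgB'
            exact hne' (huniq B' ⟨hB', hgB'⟩)
          · intro h; exact absurd hB h
        · rw [if_neg hgA]
          apply Finset.prod_eq_one
          intro B hB
          rw [if_neg]
          intro hgB
          exact hgA ((hprop B hB).le hgB)
    rw [Finset.prod_congr rfl (fun g _ => hterm g), Finset.prod_mul_distrib]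
    congr 1
    rw [Finset.prod_ite_eq' Finset.univ (1:G) (fun _ => v ^ (𝒜.card - 1))]
    simp
  apply hV
  rw [Subgroup.eq_bot_iff_forall]
  intro x hx
  have h1 := hcount ⟨x, hx⟩
  rw [hPA, one_mul, Finset.prod_congr rfl (fun B hB => hPB B hB ⟨x, hx⟩), Finset.prod_const_one] at h1
  have h2 : orderOf (⟨x, hx⟩ : V) ∣ 𝒜.card - 1 := orderOf_dvd_of_pow_eq_one h1.symm
  have h3 : orderOf (⟨x, hx⟩ : V) ∣ Nat.card V := orderOf_dvd_natCard _
  have h4 : orderOf (⟨x, hx⟩ : V) = 1 := Nat.eq_one_of_dvd_coprimes hk h2 h3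
  rw [orderOf_eq_one_iff] at h4
  exact congrArg Subtype.val h4

end Cfsg.Agent.S3733
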