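import Cfsg.Statements.S3734
import Mathlib
import Cfsg.Agent.Helper1.GenCent
import Cfsg.Agent.Helper1.Coprime
import Cfsg.Agent.Helper9.PLocal
import Cfsg.Agent.S0026
import Cfsg.Agent.S0027

set_option autoImplicit false
open Cfsg
open scoped commutatorElement
open Cfsg.Agent.Helper1
universe u

namespace Cfsg.Agent.S3734

theorem faithful_centGen {X : Type u} [Group X] [Finite X] (A K : Subgroup X)
    (hcomm : ∀ a ∈ A, ∀ b ∈ A, a * b = b * a) (hAK : A ≤ Subgroup.normalizer (K : Set X))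
    (hcop : (Nat.card A).Coprime (Nat.card K))
    (hnc : ¬ ∃ a ∈ A, (A ⊓ Subgroup.centralizer (K : Set X)) ⊔ Subgroup.zpowers a = A) :
    K ≤ ⨆ a ∈ {a : X | a ∈ A ∧ a ∉ Subgroup.centralizer (K : Set X)},
      K ⊓ Subgroup.centralizer ({a} : Set X) := by
  classical
  have hdisj : ∀ y, y ∈ A → y ∈ K → y = 1 := by
    intro y hyA hyK
    exact Subgroup.disjoint_def.mp (Subgroup.disjoint_of_coprime_natCard hcop) hyA hyK
  have hconjK : ∀ a ∈ A, ∀ k ∈ K, a * k * a⁻¹ ∈ K := by
    intro a ha k hk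
    exact (Subgroup.mem_normalizer_iff.mp (hAK ha) k).mp hk
  obtain ⟨B, hBdef⟩ : ∃ B : Subgroup X, B = A ⊓ Subgroup.centralizer (K : Set X) := ⟨_, rfl⟩
  obtain ⟨T, hTdef⟩ : ∃ T : Subgroup X,
      T = ⨆ a ∈ {a : X | a ∈ A ∧ a ∉ Subgroup.centralizer (K : Set X)},
        K ⊓ Subgroup.centralizer ({a} : Set X) := ⟨_, rfl⟩
  rw [← hTdef]
  have hTK : T ≤ K := by
    rw [hTdef]
    exact iSup₂_le (fun a _ => inf_le_left)
  obtain ⟨Y, hYdef⟩ : ∃ Y : Subgroup X, Y = K ⊔ A := ⟨_, rfl⟩
  have hKY : K ≤ Y := by rw [hYdef]; exact le_sup_left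
  have hAY : A ≤ Y := by rw [hYdef]; exact le_sup_right
  have hBA : B ≤ A := by rw [hBdef]; exact inf_le_left
  have hBK : ∀ b ∈ B, ∀ k ∈ K, k * b = b * k := by
    intro b hb k hk
    rw [hBdef] at hb
    exact Subgroup.mem_centralizer_iff.mp hb.2 k hk
  have hBcent : ∀ b ∈ B, ∀ y ∈ Y, y * b = b * y := by
    intro b hb
    have h1 : K ≤ Subgroup.centralizer ({b} : Set X) := by
      intro k hk
      rw [Subgroup.mem_centralizer_iff]
      intro z hz
      rw [Set.mem_singleton_iff.mp hz]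
      exact (hBK b hb k hk).symm
    have h2 : A ≤ Subgroup.centralizer ({b} : Set X) := by
      intro a ha
      rw [Subgroup.mem_centralizer_iff]
      intro z hz
      rw [Set.mem_singleton_iff.mp hz]
      exact hcomm b (hBA hb) a ha
    intro y hy
    have h3 : y ∈ Subgroup.centralizer ({b} : Set X) := by
      rw [hYdef] at hy
      exact (sup_le h1 h2) hy
    exact (Subgroup.mem_centralizer_iff.mp h3 b (Set.mem_singleton b)).symm
  haveI hBn : (B.subgroupOf Y).Normal := by
    refine ⟨fun b hb y => ?_⟩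
    rw [Subgroup.mem_subgroupOf] at hb ⊢
    have h1 : ((y * b * y⁻¹ : ↥Y) : X) = (b : X) := by
      rw [Subgroup.coe_mul, Subgroup.coe_mul, Subgroup.coe_inv, hBcent _ hb _ y.2]
      group
    rw [h1]
    exact hb
  obtain ⟨π, hπ⟩ : ∃ π : ↥Y →* ↥Y ⧸ B.subgroupOf Y, π = QuotientGroup.mk' (B.subgroupOf Y) :=
    ⟨_, rfl⟩
  have hker : ∀ y : ↥Y, π y = 1 ↔ (y : X) ∈ B := by
    intro y
    rw [hπ, ← MonoidHom.mem_ker, QuotientGroup.ker_mk', Subgroup.mem_subgroupOf]
  have hπeq : ∀ y z : ↥Y, π y = π z → ((y : X)⁻¹ * (z : X)) ∈ B := by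
    intro y z h
    have h1 : π (y⁻¹ * z) = 1 := by rw [map_mul, map_inv, h, inv_mul_cancel]
    have h2 := (hker _).mp h1
    rw [Subgroup.coe_mul, Subgroup.coe_inv] at h2
    exact h2
  obtain ⟨Kb, hKb⟩ : ∃ Kb : Subgroup (↥Y ⧸ B.subgroupOf Y), Kb = (K.subgroupOf Y).map π :=
    ⟨_, rfl⟩
  obtain ⟨Ab, hAb⟩ : ∃ Ab : Subgroup (↥Y ⧸ B.subgroupOf Y), Ab = (A.subgroupOf Y).map π :=
    ⟨_, rfl⟩
  have hKbmem : ∀ z, z ∈ Kb ↔ ∃ k, ∃ hk : k ∈ K, π ⟨k, hKY hk⟩ = z := by
    intro z
    rw [hKb]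
    constructor
    · rintro ⟨y, hy, rfl⟩
      exact ⟨y.1, Subgroup.mem_subgroupOf.mp hy, rfl⟩
    · rintro ⟨k, hk, rfl⟩
      exact Subgroup.mem_map_of_mem π (Subgroup.mem_subgroupOf.mpr hk)
  have hAbmem : ∀ z, z ∈ Ab ↔ ∃ a, ∃ ha : a ∈ A, π ⟨a, hAY ha⟩ = z := by
    intro z
    rw [hAb]
    constructor
    · rintro ⟨y, hy, rfl⟩
      exact ⟨y.1, Subgroup.mem_subgroupOf.mp hy, rfl⟩
    · rintro ⟨a, ha, rfl⟩
      exact Subgroup.mem_map_of_mem π (Subgroup.mem_subgroupOf.mpr ha)
  have hcommAb : ∀ x ∈ Ab, ∀ y ∈ Ab, x * y = y * x := by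
    intro x hx y hy
    obtain ⟨a, ha, rfl⟩ := (hAbmem x).mp hx
    obtain ⟨b, hb, rfl⟩ := (hAbmem y).mp hy
    rw [← map_mul, ← map_mul]
    exact congrArg π (Subtype.ext (hcomm a ha b hb))
  have hnormAb : Ab ≤ Subgroup.normalizer (Kb : Set (↥Y ⧸ B.subgroupOf Y)) := by
    apply Cfsg.Agent.Helper9.le_normalizer_of_conj_inv
    intro x hx z hz
    obtain ⟨a, ha, rfl⟩ := (hAbmem x).mp hx
    obtain ⟨k, hk, rfl⟩ := (hKbmem z).mp hz
    rw [← map_mul, ← map_inv, ← map_mul]
    exact (hKbmem _).mpr ⟨a * k * a⁻¹, hconjK a ha k hk, congrArg π (Subtype.ext rfl)⟩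
  have hcopb : (Nat.card Ab).Coprime (Nat.card Kb) := by
    have h1 : Nat.card Ab ∣ Nat.card A := by
      rw [hAb]
      have h2 := (A.subgroupOf Y).card_map_dvd π
      rwa [Nat.card_congr (Subgroup.subgroupOfEquivOfLe hAY).toEquiv] at h2
    have h3 : Nat.card Kb ∣ Nat.card K := by
      rw [hKb]
      have h2 := (K.subgroupOf Y).card_map_dvd π
      rwa [Nat.card_congr (Subgroup.subgroupOfEquivOfLe hKY).toEquiv] at h2
    exact Nat.Coprime.coprime_dvd_left h1 (Nat.Coprime.coprime_dvd_right h3 hcop)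
  have hncb : ¬ IsCyclic Ab := by
    intro hcyc
    obtain ⟨g, hg⟩ := IsCyclic.exists_generator (α := ↥Ab)
    obtain ⟨a, ha, hga⟩ := (hAbmem g.1).mp g.2
    apply hnc
    refine ⟨a, ha, le_antisymm (sup_le inf_le_left (by rw [Subgroup.zpowers_le]; exact ha)) ?_⟩
    intro x hx
    have hxb : π ⟨x, hAY hx⟩ ∈ Ab := (hAbmem _).mpr ⟨x, hx, rfl⟩
    obtain ⟨m, hm⟩ := Subgroup.mem_zpowers_iff.mp (hg ⟨_, hxb⟩)
    have hm' : π ((⟨a, hAY ha⟩ : ↥Y) ^ m) = π ⟨x, hAY hx⟩ := by
      rw [map_zpow, hga]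
      have h0 := congrArg Subtype.val hm
      rw [Subgroup.coe_zpow] at h0
      exact h0
    have h1 : (a ^ m)⁻¹ * x ∈ B := by
      have h0 := hπeq _ _ hm'
      rw [Subgroup.coe_zpow] at h0
      exact h0
    have h3 : a ^ m * ((a ^ m)⁻¹ * x) ∈ B ⊔ Subgroup.zpowers a :=
      Subgroup.mul_mem _ (Subgroup.mem_sup_right (Subgroup.zpow_mem_zpowers a m))
        (Subgroup.mem_sup_left h1)
    have h2 : a ^ m * ((a ^ m)⁻¹ * x) = x := by group
    rw [h2, hBdef] at h3
    exact h3
  have hmain := centGen_aux (Nat.card Kb) (↥Y ⧸ B.subgroupOf Y) Ab Kb rfl hcommAb hncb hnormAb hcopb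
  have hle : centGen Ab Kb ≤ (T.subgroupOf Y).map π := by
    unfold centGen
    apply iSup₂_le
    rintro ab ⟨habA, hab1⟩ z hz
    obtain ⟨hzK, hzC⟩ := Subgroup.mem_inf.mp hz
    obtain ⟨a, ha, rfl⟩ := (hAbmem ab).mp habA
    obtain ⟨k, hk, rfl⟩ := (hKbmem z).mp hzK
    have haB : a ∉ Subgroup.centralizer (K : Set X) := by
      intro hc
      apply hab1
      rw [hker]
      show a ∈ B
      rw [hBdef]
      exact ⟨ha, hc⟩
    have hcomm1 : π ⟨a, hAY ha⟩ * π ⟨k, hKY hk⟩ = π ⟨k, hKY hk⟩ * π ⟨a, hAY ha⟩ :=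
      Subgroup.mem_centralizer_iff.mp hzC _ (Set.mem_singleton _)
    have h1 : π (⟨k, hKY hk⟩ * ⟨a, hAY ha⟩) = π (⟨a, hAY ha⟩ * ⟨k, hKY hk⟩) := by
      rw [map_mul, map_mul, hcomm1]
    have h2 : (k * a)⁻¹ * (a * k) ∈ B := hπeq _ _ h1
    have h3 : (k * a)⁻¹ * (a * k) ∈ K := by
      have h4 : (k * a)⁻¹ * (a * k) = a⁻¹ * (k⁻¹ * (a * k * a⁻¹)) * a⁻¹⁻¹ := by group
      rw [h4]
      exact hconjK a⁻¹ (A.inv_mem ha) _ (K.mul_mem (K.inv_mem hk) (hconjK a ha k hk))
    have h5 : (k * a)⁻¹ * (a * k) = 1 := hdisj _ (hBA h2) h3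
    have h6 : k * a = a * k := inv_mul_eq_one.mp h5
    have hle2 : K ⊓ Subgroup.centralizer ({a} : Set X) ≤ T := by
      rw [hTdef]
      exact le_iSup₂_of_le a ⟨ha, haB⟩ le_rfl
    have hkT : k ∈ T := by
      apply hle2
      refine Subgroup.mem_inf.mpr ⟨hk, ?_⟩
      rw [Subgroup.mem_centralizer_iff]
      intro z hz
      rw [Set.mem_singleton_iff.mp hz]
      exact h6.symm
    exact Subgroup.mem_map_of_mem π (Subgroup.mem_subgroupOf.mpr hkT)
  intro k hk
  have h1 : π ⟨k, hKY hk⟩ ∈ (T.subgroupOf Y).map π :=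
    hle (hmain ((hKbmem _).mpr ⟨k, hk, rfl⟩))
  obtain ⟨t, ht, htk⟩ := h1
  have htT : (t : X) ∈ T := Subgroup.mem_subgroupOf.mp ht
  have h2 : (t : X)⁻¹ * k ∈ B := hπeq _ _ htk
  have h3 : (t : X)⁻¹ * k ∈ K := K.mul_mem (K.inv_mem (hTK htT)) hk
  have h4 : (t : X)⁻¹ * k = 1 := hdisj _ (hBA h2) h3
  have h5 : (t : X) = k := inv_mul_eq_one.mp h4
  rw [← h5]
  exact htT

theorem gen_aux {X : Type u} [Group X] [Finite X] (A : Subgroup X)
    (hcomm : ∀ a ∈ A, ∀ b ∈ A, a * b = b * a) :
    ∀ (n : ℕ) (K : Subgroup X), Nat.card K = n → A ≤ Subgroup.normalizer (K : Set X) →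
      (Nat.card A).Coprime (Nat.card K) →
      K ≤ ⨆ B ∈ {B : Subgroup X | B ≤ A ∧ ∃ a ∈ A, B ⊔ Subgroup.zpowers a = A},
        K ⊓ Subgroup.centralizer (B : Set X) := by
  intro n
  induction n using Nat.strong_induction_on with
  | _ n ih =>
    intro K hn hAK hcop
    by_cases h : ∃ a ∈ A, (A ⊓ Subgroup.centralizer (K : Set X)) ⊔ Subgroup.zpowers a = A
    · have h1 : K ≤ K ⊓ Subgroup.centralizer
          ((A ⊓ Subgroup.centralizer (K : Set X) : Subgroup X) : Set X) := by
        refine le_inf le_rfl ?_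
        rw [Subgroup.le_centralizer_iff]
        exact inf_le_right
      exact h1.trans (le_iSup₂_of_le (A ⊓ Subgroup.centralizer (K : Set X)) ⟨inf_le_left, h⟩ le_rfl)
    · refine (faithful_centGen A K hcomm hAK hcop h).trans ?_
      apply iSup₂_le
      rintro a ⟨haA, haK⟩
      have hKa_le : K ⊓ Subgroup.centralizer ({a} : Set X) ≤ K := inf_le_left
      have hKa_ne : K ⊓ Subgroup.centralizer ({a} : Set X) ≠ K := by
        intro heq
        apply haK
        rw [Subgroup.mem_centralizer_iff]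
        intro k hk
        have hk' : k ∈ K ⊓ Subgroup.centralizer ({a} : Set X) := by rw [heq]; exact hk
        exact (Subgroup.mem_centralizer_iff.mp hk'.2 a (Set.mem_singleton a)).symm
      have hlt : Nat.card ↥(K ⊓ Subgroup.centralizer ({a} : Set X)) < n := by
        rw [← hn]
        by_contra hge
        exact hKa_ne (Subgroup.eq_of_le_of_card_ge hKa_le (not_lt.mp hge))
      have hnormKa : A ≤ Subgroup.normalizer
          ((K ⊓ Subgroup.centralizer ({a} : Set X) : Subgroup X) : Set X) := by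
        apply Cfsg.Agent.Helper9.le_normalizer_of_conj_inv
        intro b hb x hx
        refine Subgroup.mem_inf.mpr ⟨(Subgroup.mem_normalizer_iff.mp (hAK hb) x).mp hx.1, ?_⟩
        rw [Subgroup.mem_centralizer_iff]
        intro z hz
        rw [Set.mem_singleton_iff.mp hz]
        have hab : Commute a b := hcomm a haA b hb
        have hax : Commute a x := Subgroup.mem_centralizer_iff.mp hx.2 a (Set.mem_singleton a)
        exact ((hab.mul_right hax).mul_right hab.inv_right).eq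
      have hcopa : (Nat.card A).Coprime (Nat.card ↥(K ⊓ Subgroup.centralizer ({a} : Set X))) :=
        Nat.Coprime.coprime_dvd_right (Subgroup.card_dvd_of_le hKa_le) hcop
      have h3 := ih _ hlt (K ⊓ Subgroup.centralizer ({a} : Set X)) rfl hnormKa hcopa
      refine h3.trans ?_
      apply iSup₂_mono
      intro B _
      exact inf_le_inf_right _ hKa_le

/-- Let A and G be subgroups of a finite group with A abelian, A normalizing G and the orders of A and G coprime. Then G is generated by the fixed-point subgroups C_G(B) of those subgroups B of A for which A/B is cyclic (that is, A = ⟨B, a⟩ for some a), and [G, A] is generated by the commutator subgroups [C_G(B), A] over the same subgroups B. -/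
theorem result {X : Type*} [Group X] [Finite X] (A G : Subgroup X) (hAab : IsMulCommutative A) (hAG : A ≤ Subgroup.normalizer (G : Set X)) (hcop : (Nat.card A).Coprime (Nat.card G)) : (⨆ B ∈ {B : Subgroup X | B ≤ A ∧ ∃ a ∈ A, B ⊔ Subgroup.zpowers a = A}, G ⊓ Subgroup.centralizer (B : Set X)) = G ∧ (⨆ B ∈ {B : Subgroup X | B ≤ A ∧ ∃ a ∈ A, B ⊔ Subgroup.zpowers a = A}, ⁅G ⊓ Subgroup.centralizer (B : Set X), A⁆) = ⁅G, A⁆ := by
  classical
  have hcomm : ∀ a ∈ A, ∀ b ∈ A, a * b = b * a := by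
    intro a ha b hb
    have h0 := hAab.is_comm.comm ⟨a, ha⟩ ⟨b, hb⟩
    exact congrArg Subtype.val h0
  haveI hsolvA : Group.IsSolvable A :=
    Group.isSolvable_of_comm (fun x y => Subtype.ext (hcomm x x.2 y y.2))
  constructor
  · apply le_antisymm
    · exact iSup₂_le (fun B _ => inf_le_left)
    · exact gen_aux A hcomm (Nat.card G) G rfl hAG hcop
  · apply le_antisymm
    · exact iSup₂_le (fun B _ => Subgroup.commutator_mono inf_le_left le_rfl)
    · obtain ⟨T, hTdef⟩ : ∃ T : Subgroup X,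
          T = ⨆ B ∈ {B : Subgroup X | B ≤ A ∧ ∃ a ∈ A, B ⊔ Subgroup.zpowers a = A},
            ⁅G ⊓ Subgroup.centralizer (B : Set X), A⁆ := ⟨_, rfl⟩
      rw [← hTdef]
      obtain ⟨L, hLdef⟩ : ∃ L : Subgroup X, L = ⁅G, A⁆ := ⟨_, rfl⟩
      rw [← hLdef]
      have hLG : L ≤ G := by rw [hLdef]; exact commutator_le_of_le_normalizer G A hAG
      have hAL : A ≤ Subgroup.normalizer (L : Set X) := by
        rw [hLdef]
        exact le_normalizer_commutator G A A hAG Subgroup.le_normalizer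
      have hcopL : (Nat.card A).Coprime (Nat.card L) :=
        Nat.Coprime.coprime_dvd_right (Subgroup.card_dvd_of_le hLG) hcop
      have hLL : ⁅L, A⁆ = L := by
        rw [hLdef]
        exact Cfsg.Agent.S0027.result A G hAG hcop (Or.inl hsolvA)
      have hpiece_le : ∀ B ∈ {B : Subgroup X | B ≤ A ∧ ∃ a ∈ A, B ⊔ Subgroup.zpowers a = A},
          ⁅G ⊓ Subgroup.centralizer (B : Set X), A⁆ ≤ T := by
        intro B hB
        rw [hTdef]
        exact le_iSup₂_of_le B hB le_rfl
      have hnormT : ∀ c : X, c ∈ Subgroup.normalizer (G : Set X) → (∀ b ∈ A, c * b = b * c) →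
          ∀ t ∈ T, c * t * c⁻¹ ∈ T := by
        intro c hcG hcA t ht
        have hmap : T.map (MulAut.conj c).toMonoidHom ≤ T := by
          rw [hTdef, Subgroup.map_iSup]
          apply iSup_le
          intro B
          rw [Subgroup.map_iSup]
          apply iSup_le
          intro hB
          rw [Subgroup.map_commutator]
          refine (Subgroup.commutator_mono ?_ ?_).trans (le_iSup₂_of_le B hB le_rfl)
          · rintro _ ⟨x, hx, rfl⟩
            show c * x * c⁻¹ ∈ G ⊓ Subgroup.centralizer (B : Set X)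
            refine Subgroup.mem_inf.mpr ⟨(Subgroup.mem_normalizer_iff.mp hcG x).mp hx.1, ?_⟩
            rw [Subgroup.mem_centralizer_iff]
            intro b hb
            have hbc : Commute b c := (hcA b (hB.1 hb)).symm
            have hbx : Commute b x := Subgroup.mem_centralizer_iff.mp hx.2 b hb
            exact ((hbc.mul_right hbx).mul_right hbc.inv_right).eq
          · rintro _ ⟨a, ha, rfl⟩
            show c * a * c⁻¹ ∈ A
            have h1 : c * a * c⁻¹ = a := by
              rw [hcA a ha]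
              group
            rw [h1]
            exact ha
        exact hmap (Subgroup.mem_map_of_mem _ ht)
      obtain ⟨E, hEdef⟩ : ∃ E : Subgroup X,
          E = Subgroup.normalizer (G : Set X) ⊓ Subgroup.centralizer (A : Set X) := ⟨_, rfl⟩
      have hEmem : ∀ c ∈ E, c ∈ Subgroup.normalizer (G : Set X) ∧ ∀ b ∈ A, c * b = b * c := by
        intro c hc
        rw [hEdef] at hc
        exact ⟨hc.1, fun b hb => (Subgroup.mem_centralizer_iff.mp hc.2 b hb).symm⟩
      have hET : E ≤ Subgroup.normalizer (T : Set X) := by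
        apply Cfsg.Agent.Helper9.le_normalizer_of_conj_inv
        intro c hc t ht
        exact hnormT c (hEmem c hc).1 (hEmem c hc).2 t ht
      have hAE : A ≤ E := by
        intro a ha
        rw [hEdef]
        refine Subgroup.mem_inf.mpr ⟨hAG ha, ?_⟩
        rw [Subgroup.mem_centralizer_iff]
        intro b hb
        exact hcomm b hb a ha
      have hCE : L ⊓ Subgroup.centralizer (A : Set X) ≤ E := by
        intro c hc
        rw [hEdef]
        exact Subgroup.mem_inf.mpr ⟨Subgroup.le_normalizer (hLG hc.1), hc.2⟩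
      obtain ⟨D, hD⟩ : ∃ D : Subgroup X, ∀ x, x ∈ D ↔
          (x ∈ Subgroup.normalizer (T : Set X) ∧ ∀ a ∈ A, x * a * x⁻¹ * a⁻¹ ∈ T) :=
        ⟨{ carrier := {x | x ∈ Subgroup.normalizer (T : Set X) ∧ ∀ a ∈ A, x * a * x⁻¹ * a⁻¹ ∈ T}
           mul_mem' := by
             rintro x y ⟨hxN, hx⟩ ⟨hyN, hy⟩
             refine ⟨Subgroup.mul_mem _ hxN hyN, fun a ha => ?_⟩
             have h1 : x * y * a * (x * y)⁻¹ * a⁻¹
                 = (x * (y * a * y⁻¹ * a⁻¹) * x⁻¹) * (x * a * x⁻¹ * a⁻¹) := by group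
             rw [h1]
             exact T.mul_mem ((Subgroup.mem_normalizer_iff.mp hxN _).mp (hy a ha)) (hx a ha)
           one_mem' := by
             refine ⟨Subgroup.one_mem _, fun a ha => ?_⟩
             have h1 : (1 : X) * a * (1 : X)⁻¹ * a⁻¹ = 1 := by group
             rw [h1]
             exact T.one_mem
           inv_mem' := by
             rintro x ⟨hxN, hx⟩
             refine ⟨Subgroup.inv_mem _ hxN, fun a ha => ?_⟩
             have h1 : x⁻¹ * a * x⁻¹⁻¹ * a⁻¹ = x⁻¹ * (x * a * x⁻¹ * a⁻¹)⁻¹ * x⁻¹⁻¹ := by group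
             rw [h1]
             exact (Subgroup.mem_normalizer_iff.mp (Subgroup.inv_mem _ hxN) _).mp
               (T.inv_mem (hx a ha)) }, fun _ => Iff.rfl⟩
      have hTD : T ≤ D := by
        intro t ht
        refine (hD t).mpr ⟨Subgroup.le_normalizer ht, fun a ha => ?_⟩
        have h1 : t * a * t⁻¹ * a⁻¹ = t * (a * t⁻¹ * a⁻¹) := by group
        rw [h1]
        exact T.mul_mem ht
          (hnormT a (hAG ha) (fun b hb => hcomm a ha b hb) t⁻¹ (T.inv_mem ht))
      have hCD : L ⊓ Subgroup.centralizer (A : Set X) ≤ D := by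
        intro c hc
        refine (hD c).mpr ⟨hET (hCE hc), fun a ha => ?_⟩
        have h0 : a * c = c * a := Subgroup.mem_centralizer_iff.mp hc.2 a ha
        have h1 : c * a * c⁻¹ * a⁻¹ = 1 := by
          rw [← h0]
          group
        rw [h1]
        exact T.one_mem
      have hLD : L ≤ D := by
        refine (gen_aux A hcomm (Nat.card L) L rfl hAL hcopL).trans ?_
        apply iSup₂_le
        intro B hB
        have hLB_le : L ⊓ Subgroup.centralizer (B : Set X) ≤ L := inf_le_left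
        have hnormLB : A ≤ Subgroup.normalizer
            ((L ⊓ Subgroup.centralizer (B : Set X) : Subgroup X) : Set X) := by
          apply Cfsg.Agent.Helper9.le_normalizer_of_conj_inv
          intro a ha x hx
          refine Subgroup.mem_inf.mpr ⟨(Subgroup.mem_normalizer_iff.mp (hAL ha) x).mp hx.1, ?_⟩
          rw [Subgroup.mem_centralizer_iff]
          intro b hb
          have hba : Commute b a := hcomm b (hB.1 hb) a ha
          have hbx : Commute b x := Subgroup.mem_centralizer_iff.mp hx.2 b hb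
          exact ((hba.mul_right hbx).mul_right hba.inv_right).eq
        have hcopLB : (Nat.card A).Coprime
            (Nat.card ↥(L ⊓ Subgroup.centralizer (B : Set X))) :=
          Nat.Coprime.coprime_dvd_right (Subgroup.card_dvd_of_le hLB_le) hcopL
        have h26 := Cfsg.Agent.S0026.result A (L ⊓ Subgroup.centralizer (B : Set X)) hnormLB
          hcopLB (Or.inl hsolvA)
        rw [← h26]
        apply sup_le
        · refine (Subgroup.commutator_mono (inf_le_inf_right _ hLG) le_rfl).trans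
            ((hpiece_le B hB).trans hTD)
        · exact (inf_le_inf_right _ hLB_le).trans hCD
      calc L = ⁅L, A⁆ := hLL.symm
        _ ≤ T := by
          rw [Subgroup.commutator_le]
          intro x hx a ha
          have h1 := ((hD x).mp (hLD hx)).2 a ha
          rw [commutatorElement_def]
          exact h1

end Cfsg.Agent.S3734
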