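import Cfsg.Statements.S3735
import Mathlib
import Cfsg.Agent.Helper20.Conj

set_option autoImplicit false
open Cfsg

namespace Cfsg.Agent.S3735

open Cfsg.Agent.Helper20

theorem mem_sup_of_commute {G : Type*} [Group G] (A B : Subgroup G)
    (hcomm : ∀ a ∈ A, ∀ b ∈ B, a * b = b * a) (x : G) (hx : x ∈ A ⊔ B) :
    ∃ a ∈ A, ∃ b ∈ B, x = a * b := by
  rw [Subgroup.sup_eq_closure] at hx
  refine Subgroup.closure_induction ?_ ?_ ?_ ?_ hx
  · rintro y (hy | hy)
    · exact ⟨y, hy, 1, B.one_mem, by simp⟩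
    · exact ⟨1, A.one_mem, y, hy, by simp⟩
  · exact ⟨1, A.one_mem, 1, B.one_mem, by simp⟩
  · rintro _ _ _ _ ⟨a₁, ha₁, b₁, hb₁, rfl⟩ ⟨a₂, ha₂, b₂, hb₂, rfl⟩
    refine ⟨a₁ * a₂, mul_mem ha₁ ha₂, b₁ * b₂, mul_mem hb₁ hb₂, ?_⟩
    have := hcomm a₂ ha₂ b₁ hb₁
    calc a₁ * b₁ * (a₂ * b₂) = a₁ * (b₁ * a₂) * b₂ := by group
      _ = a₁ * (a₂ * b₁) * b₂ := by rw [this]
      _ = a₁ * a₂ * (b₁ * b₂) := by group
  · rintro _ _ ⟨a, ha, b, hb, rfl⟩
    refine ⟨a⁻¹, inv_mem ha, b⁻¹, inv_mem hb, ?_⟩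
    have := hcomm a⁻¹ (inv_mem ha) b⁻¹ (inv_mem hb)
    rw [mul_inv_rev, this]

theorem normalizer_sup {G : Type*} [Group G] (A X Y : Subgroup G)
    (hX : A ≤ Subgroup.normalizer (X : Set G)) (hY : A ≤ Subgroup.normalizer (Y : Set G)) :
    A ≤ Subgroup.normalizer ((X ⊔ Y : Subgroup G) : Set G) := by
  intro a ha
  apply mem_normalizer_of_map_conj_eq
  rw [Subgroup.map_sup, map_conj_eq_of_mem_normalizer X a (hX ha),
    map_conj_eq_of_mem_normalizer Y a (hY ha)]

theorem normalizer_inf {G : Type*} [Group G] (A X Y : Subgroup G)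
    (hX : A ≤ Subgroup.normalizer (X : Set G)) (hY : A ≤ Subgroup.normalizer (Y : Set G)) :
    A ≤ Subgroup.normalizer ((X ⊓ Y : Subgroup G) : Set G) := by
  intro a ha
  have h1 := hX ha
  have h2 := hY ha
  rw [Subgroup.mem_normalizer_iff] at h1 h2 ⊢
  intro y
  rw [Subgroup.mem_inf, Subgroup.mem_inf, h1 y, h2 y]

theorem normalizer_map_conj {G : Type*} [Group G] (A S : Subgroup G) (h : G)
    (hh : h ∈ Subgroup.normalizer (A : Set G)) (hS : A ≤ Subgroup.normalizer (S : Set G)) :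
    A ≤ Subgroup.normalizer ((S.map (MulAut.conj h).toMonoidHom : Subgroup G) : Set G) := by
  intro a ha
  apply mem_normalizer_of_map_conj_eq
  have ha' : h⁻¹ * a * h ∈ A := by
    have := (Subgroup.mem_normalizer_iff''.mp hh a).mp ha
    exact this
  have e : a * h = h * (h⁻¹ * a * h) := by group
  rw [map_conj_mul, e, ← map_conj_mul, map_conj_eq_of_mem_normalizer S _ (hS ha')]

/-- Clifford's Theorem for actions on finite abelian groups, first part. Let H and V be subgroups of a finite group with V abelian and H normalizing V, and let A be a normal subgroup of H. If every H-invariant subgroup of V has an H-invariant complement in V, then every A-invariant subgroup of V has an A-invariant complement in V. -/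
theorem result {G : Type*} [Group G] [Finite G] (H A V : Subgroup G) (hVab : IsMulCommutative V) (hHV : H ≤ Subgroup.normalizer (V : Set G)) (hAH : A ≤ H) (hAn : H ≤ Subgroup.normalizer (A : Set G)) (hss : ∀ U : Subgroup G, U ≤ V → H ≤ Subgroup.normalizer (U : Set G) → ∃ W : Subgroup G, W ≤ V ∧ H ≤ Subgroup.normalizer (W : Set G) ∧ U ⊓ W = ⊥ ∧ U ⊔ W = V) (U : Subgroup G) (hUV : U ≤ V) (hAU : A ≤ Subgroup.normalizer (U : Set G)) : ∃ W : Subgroup G, W ≤ V ∧ A ≤ Subgroup.normalizer (W : Set G) ∧ U ⊓ W = ⊥ ∧ U ⊔ W = V := by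
  classical
  -- minimal A-invariant subgroups of V
  let 𝒮 : Set (Subgroup G) := {S | S ≤ V ∧ A ≤ Subgroup.normalizer (S : Set G) ∧ S ≠ ⊥ ∧
    ∀ T : Subgroup G, T ≤ S → A ≤ Subgroup.normalizer (T : Set G) → T = ⊥ ∨ T = S}
  have hfin : ∀ s : Set (Subgroup G), s.Finite := fun s => Set.toFinite s
  -- every nontrivial A-invariant subgroup contains a member of 𝒮
  have hmin : ∀ W : Subgroup G, W ≤ V → A ≤ Subgroup.normalizer (W : Set G) → W ≠ ⊥ →
      ∃ S ∈ 𝒮, S ≤ W := by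
    intro W hWV hAW hW
    let s : Set (Subgroup G) := {S | S ≤ W ∧ A ≤ Subgroup.normalizer (S : Set G) ∧ S ≠ ⊥}
    have hs : s.Nonempty := ⟨W, le_rfl, hAW, hW⟩
    obtain ⟨S, hS, hSmin⟩ := Set.exists_min_image s (fun S => Nat.card S) (hfin s) hs
    refine ⟨S, ⟨hS.1.trans hWV, hS.2.1, hS.2.2, ?_⟩, hS.1⟩
    intro T hTS hAT
    by_cases hT : T = ⊥
    · exact Or.inl hT
    · right
      have hTs : T ∈ s := ⟨hTS.trans hS.1, hAT, hT⟩
      exact Subgroup.eq_of_le_of_card_ge hTS (hSmin T hTs)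
  -- the socle
  have hV0V : sSup 𝒮 ≤ V := sSup_le (fun S hS => hS.1)
  have hconj : ∀ h ∈ H, ∀ S ∈ 𝒮, S.map (MulAut.conj h).toMonoidHom ∈ 𝒮 := by
    intro h hh S hS
    have hhA : h ∈ Subgroup.normalizer (A : Set G) := hAn hh
    refine ⟨?_, normalizer_map_conj A S h hhA hS.2.1, ?_, ?_⟩
    · have := map_conj_mono h hS.1
      rw [map_conj_eq_of_mem_normalizer V h (hHV hh)] at this
      exact this
    · intro hbot
      apply hS.2.2.1
      have := map_conj_inv_eq S _ h hbot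
      rw [← this]
      simp
    · intro T hTS hAT
      have hT' : T.map (MulAut.conj h⁻¹).toMonoidHom ≤ S := by
        have := map_conj_mono h⁻¹ hTS
        rw [map_conj_mul, inv_mul_cancel, map_conj_one] at this
        exact this
      have hAT' := normalizer_map_conj A T h⁻¹ (inv_mem hhA) hAT
      rcases hS.2.2.2 _ hT' hAT' with h0 | h1
      · left
        have := map_conj_inv_eq T _ h⁻¹ h0
        rw [← this]; simp
      · right
        have := map_conj_inv_eq T _ h⁻¹ h1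
        rw [inv_inv] at this
        exact this.symm
  have hHV0 : H ≤ Subgroup.normalizer ((sSup 𝒮 : Subgroup G) : Set G) := by
    have hle : ∀ h ∈ H, (sSup 𝒮).map (MulAut.conj h).toMonoidHom ≤ sSup 𝒮 := by
      intro h hh
      rw [Subgroup.map_le_iff_le_comap]
      apply sSup_le
      intro S hS
      rw [← Subgroup.map_le_iff_le_comap]
      exact le_sSup (hconj h hh S hS)
    intro h hh
    apply mem_normalizer_of_map_conj_eq
    apply le_antisymm (hle h hh)
    have := map_conj_mono h (hle h⁻¹ (inv_mem hh))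
    rw [map_conj_mul, mul_inv_cancel, map_conj_one] at this
    exact this
  have hV0 : sSup 𝒮 = V := by
    obtain ⟨W, hWV, hHW, hinf, hsup⟩ := hss (sSup 𝒮) hV0V hHV0
    have hW : W = ⊥ := by
      by_contra hne
      obtain ⟨S, hS, hSW⟩ := hmin W hWV (hAH.trans hHW) hne
      have : S ≤ sSup 𝒮 ⊓ W := le_inf (le_sSup hS) hSW
      rw [hinf] at this
      exact hS.2.2.1 (le_bot_iff.mp this)
    rw [hW, sup_bot_eq] at hsup
    exact hsup
  -- a maximal A-invariant subgroup meeting U trivially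
  let t : Set (Subgroup G) := {W | W ≤ V ∧ A ≤ Subgroup.normalizer (W : Set G) ∧ U ⊓ W = ⊥}
  have hbotN : A ≤ Subgroup.normalizer ((⊥ : Subgroup G) : Set G) := by
    intro a _
    rw [Subgroup.mem_normalizer_iff]
    intro y
    simp
  have ht : t.Nonempty := ⟨⊥, bot_le, hbotN, by simp⟩
  obtain ⟨W, hW, hWmax⟩ := Set.exists_max_image t (fun S => Nat.card S) (hfin t) ht
  refine ⟨W, hW.1, hW.2.1, hW.2.2, ?_⟩
  by_contra hne
  have hUWV : U ⊔ W ≤ V := sup_le hUV hW.1
  have hex : ∃ S ∈ 𝒮, ¬ S ≤ U ⊔ W := by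
    by_contra hcon
    push Not at hcon
    apply hne
    apply le_antisymm hUWV
    rw [← hV0]
    exact sSup_le hcon
  obtain ⟨S, hS, hSnot⟩ := hex
  have hAUW : A ≤ Subgroup.normalizer ((U ⊔ W : Subgroup G) : Set G) := normalizer_sup A U W hAU hW.2.1
  have hSinf : S ⊓ (U ⊔ W) = ⊥ := by
    rcases hS.2.2.2 (S ⊓ (U ⊔ W)) inf_le_left (normalizer_inf A S (U ⊔ W) hS.2.1 hAUW) with h0 | h1
    · exact h0
    · exfalso
      apply hSnot
      rw [← h1]
      exact inf_le_right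
  have hcommV : ∀ a ∈ V, ∀ b ∈ V, a * b = b * a := by
    intro a ha b hb
    have := hVab.is_comm.comm (⟨a, ha⟩ : V) ⟨b, hb⟩
    exact congrArg Subtype.val this
  have hW' : W ⊔ S ∈ t := by
    refine ⟨sup_le hW.1 hS.1, normalizer_sup A W S hW.2.1 hS.2.1, ?_⟩
    rw [eq_bot_iff]
    intro x hx
    rw [Subgroup.mem_inf] at hx
    obtain ⟨w, hw, s, hs, rfl⟩ := mem_sup_of_commute W S
      (fun a ha b hb => hcommV a (hW.1 ha) b (hS.1 hb)) x hx.2
    have hsUW : s ∈ U ⊔ W := by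
      have : s = w⁻¹ * (w * s) := by group
      rw [this]
      exact mul_mem (Subgroup.mem_sup_right (inv_mem hw)) (Subgroup.mem_sup_left hx.1)
    have hs1 : s ∈ S ⊓ (U ⊔ W) := ⟨hs, hsUW⟩
    rw [hSinf, Subgroup.mem_bot] at hs1
    subst hs1
    rw [mul_one] at hx ⊢
    have : w ∈ U ⊓ W := ⟨hx.1, hw⟩
    rw [hW.2.2] at this
    exact this
  have hcard := hWmax (W ⊔ S) hW'
  have hWS : W ⊔ S = W := (Subgroup.eq_of_le_of_card_ge le_sup_left hcard).symm
  apply hSnot
  calc S ≤ W ⊔ S := le_sup_right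
    _ = W := hWS
    _ ≤ U ⊔ W := le_sup_right

end Cfsg.Agent.S3735
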