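import Cfsg.Statements.S3738
import Cfsg.Agent.Helper29.RankTwo

set_option autoImplicit false
open Cfsg

namespace Cfsg.Agent.S3738

/-- Let d be a non-identity 3-element of a finite group and P a 2-subgroup normalized by d on which ⟨d⟩ acts faithfully (no non-identity power of d centralizes P) and without non-identity fixed points (C_P(d) = 1). If every abelian subgroup of P has 2-rank at most 2, then d has order 3. -/
theorem result {X : Type*} [Group X] [Finite X] (d : X) (n : ℕ) (hn : 1 ≤ n) (hd : orderOf d = 3 ^ n) (P : Subgroup X) (hP : IsPGroup 2 P) (hdP : d ∈ Subgroup.normalizer (P : Set X)) (hfaith : Subgroup.zpowers d ⊓ Subgroup.centralizer (P : Set X) = ⊥) (hfpf : P ⊓ Subgroup.centralizer {d} = ⊥) (hrank : ∀ V : Subgroup X, V ≤ P → IsMulCommutative V → Cfsg.PRankLE 2 2 V) : orderOf d = 3 := by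
  classical
by_contra hne
have hn2 : 2 ≤ n := by
  by_contra h
  have : n = 1 := by omega
  rw [this, pow_one] at hd
  exact hne hd
have hrank' : ∀ V : Subgroup X, V ≤ P → (∀ a ∈ V, ∀ b ∈ V, a * b = b * a) →
    (∀ a ∈ V, a ^ 2 = 1) → Nat.card V ≤ 4 := by
  intro V hVP hVc hV2
  have hVcomm : IsMulCommutative ↥V := ⟨⟨fun a b => Subtype.ext (hVc a.1 a.2 b.1 b.2)⟩⟩
  have h1 := hrank V hVP hVcomm (⊤ : Subgroup ↥V)
    ⟨⟨fun a b => Subtype.ext (Subtype.ext (hVc a.1.1 a.1.2 b.1.1 b.1.2))⟩⟩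
    (fun a _ => Subtype.ext (by simpa using hV2 a.1 a.2))
  rw [Subgroup.card_top] at h1
  calc Nat.card V ≤ 2 ^ 2 := h1
    _ = 4 := by norm_num
have hg9 : (d ^ 3 ^ (n - 2)) ^ 9 = 1 := by
  rw [← pow_mul]
  have h3 : 3 ^ (n - 2) * 9 = 3 ^ n := by
    have h2 : n = (n - 2) + 2 := by omega
    have h4 : (3:ℕ) ^ ((n - 2) + 2) = 3 ^ (n - 2) * 9 := by rw [pow_add]; norm_num
    rw [← h4, ← h2]
  rw [h3, ← hd, pow_orderOf_eq_one]
have hgP : ∀ x ∈ P, d ^ 3 ^ (n - 2) * x * (d ^ 3 ^ (n - 2))⁻¹ ∈ P := by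
  intro x hx
  have h1 : d ^ 3 ^ (n - 2) ∈ Subgroup.normalizer (P : Set X) := Subgroup.pow_mem _ hdP _
  exact (Subgroup.mem_normalizer_iff.1 h1 x).1 hx
have hcen := Cfsg.Agent.Helper29.rt_nine_centralizes (d ^ 3 ^ (n - 2)) hg9 P hP hgP hrank'
have he : (d ^ 3 ^ (n - 2)) ^ 3 = d ^ 3 ^ (n - 1) := by
  rw [← pow_mul]
  congr 1
  have h2 : n - 1 = (n - 2) + 1 := by omega
  rw [h2, pow_succ]
rw [he] at hcen
have hmem : d ^ 3 ^ (n - 1) ∈ Subgroup.zpowers d ⊓ Subgroup.centralizer (P : Set X) := by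
  refine Subgroup.mem_inf.2 ⟨Subgroup.pow_mem _ (Subgroup.mem_zpowers d) _, ?_⟩
  exact Subgroup.mem_centralizer_iff.2 fun h hh => (hcen h hh).symm
rw [hfaith, Subgroup.mem_bot] at hmem
have hdvd : orderOf d ∣ 3 ^ (n - 1) := orderOf_dvd_of_pow_eq_one hmem
rw [hd] at hdvd
have := (Nat.pow_dvd_pow_iff_le_right (by norm_num : 1 < 3)).1 hdvd
omega

end Cfsg.Agent.S3738
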