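import Cfsg.Statements.S3741
import Mathlib
import Cfsg.Agent.Helper20.PCentral
import Cfsg.Agent.Helper20.SylowAux

set_option autoImplicit false
open Cfsg

namespace Cfsg.Agent.S3741

open Cfsg.Agent.Helper20
open scoped commutatorElement

theorem card_commuting_mul {G : Type*} [Group G] [Finite G] {p : ℕ} [Fact p.Prime]
    (hG : IsPGroup p G) (A B : Subgroup G)
    (hZB : ∀ z ∈ ⁅A, B⁆, ∀ b ∈ B, b * z = z * b) (hcard : Nat.card ↥⁅A, B⁆ ≤ p) (x : G)
    (hx : x ∈ A) (hxc : x ∉ Subgroup.centralizer (B : Set G)) :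
    Nat.card {y : B // x * (y : G) = y * x} * p = Nat.card B := by
  have hp := (Fact.out : p.Prime)
  let φ : B →* (⁅A, B⁆ : Subgroup G) :=
    { toFun := fun b => ⟨⁅x, (b : G)⁆, Subgroup.commutator_mem_commutator hx b.2⟩
      map_one' := by ext; simp
      map_mul' := by
        intro b b'
        ext
        show ⁅x, (b : G) * b'⁆ = ⁅x, (b:G)⁆ * ⁅x, (b':G)⁆
        have h := hZB ⁅x, (b':G)⁆ (Subgroup.commutator_mem_commutator hx b'.2) b b.2
        calc ⁅x, (b : G) * b'⁆ = ⁅x, (b:G)⁆ * ((b:G) * ⁅x, (b':G)⁆ * (b:G)⁻¹) := by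
              simp only [commutatorElement_def]; group
          _ = ⁅x, (b:G)⁆ * ⁅x, (b':G)⁆ := by rw [h, mul_inv_cancel_right] }
  have hφ : ∀ b : B, ((φ b : (⁅A, B⁆ : Subgroup G)) : G) = ⁅x, (b : G)⁆ := fun b => rfl
  have hker : Nat.card {y : B // x * (y : G) = y * x} = Nat.card φ.ker := by
    apply Nat.card_congr
    apply Equiv.subtypeEquivRight
    intro b
    rw [MonoidHom.mem_ker, Subtype.ext_iff, hφ]
    exact (commutatorElement_eq_one_iff_mul_comm).symm
  have hrange : Nat.card φ.range = p := by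
    have hpg : IsPGroup p φ.range := (hG.to_subgroup ⁅A, B⁆).to_subgroup φ.range
    obtain ⟨k, hk⟩ := IsPGroup.iff_card.1 hpg
    have hle : Nat.card φ.range ≤ p := (Subgroup.card_le_card_group φ.range).trans hcard
    have hne : Nat.card φ.range ≠ 1 := by
      intro h1
      rw [Subgroup.card_eq_one] at h1
      apply hxc
      rw [Subgroup.mem_centralizer_iff]
      intro b hb
      have : φ ⟨b, hb⟩ ∈ φ.range := ⟨_, rfl⟩
      rw [h1, Subgroup.mem_bot, Subtype.ext_iff, hφ] at this
      exact ((commutatorElement_eq_one_iff_mul_comm).1 this).symm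
    rw [hk] at hle hne ⊢
    have hk1 : k = 1 := by
      rcases k with _ | _ | k
      · simp at hne
      · rfl
      · exfalso
        have h7 : p ^ 1 < p ^ (k + 1 + 1) := Nat.pow_lt_pow_right hp.one_lt (by omega)
        rw [pow_one] at h7
        exact absurd hle (not_le.2 h7)
    rw [hk1, pow_one]
  rw [hker, ← hrange, ← Subgroup.index_ker, Subgroup.card_mul_index]

theorem count_commuting {G : Type*} [Group G] [Finite G] (p : ℕ) (A B : Subgroup G)
    (h : ∀ x ∈ A, x ∉ Subgroup.centralizer (B : Set G) →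
      Nat.card {y : B // x * (y : G) = y * x} * p = Nat.card B) :
    Nat.card {q : A × B // (q.1 : G) * q.2 = q.2 * q.1} * p
      = Nat.card (A ⊓ Subgroup.centralizer (B : Set G) : Subgroup G) * (Nat.card B * p)
        + (Nat.card A - Nat.card (A ⊓ Subgroup.centralizer (B : Set G) : Subgroup G))
          * Nat.card B := by
  classical
  have : Fintype A := Fintype.ofFinite A
  have e : {q : A × B // (q.1 : G) * q.2 = q.2 * q.1} ≃
      Σ a : A, {b : B // (a : G) * b = b * a} :=
    Equiv.subtypeProdEquivSigmaSubtype (fun (a : A) (b : B) => (a : G) * b = b * a)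
  rw [Nat.card_congr e, Nat.card_sigma, Finset.sum_mul]
  have hterm : ∀ a : A, Nat.card {b : B // (a : G) * b = b * a} * p
      = if (a : G) ∈ Subgroup.centralizer (B : Set G) then Nat.card B * p else Nat.card B := by
    intro a
    split_ifs with hc
    · congr 1
      have : ∀ b : B, (a : G) * b = b * a :=
        fun b => ((Subgroup.mem_centralizer_iff.1 hc) b b.2).symm
      rw [Nat.card_congr (Equiv.subtypeUnivEquiv this)]
    · exact h a a.2 hc
  rw [Finset.sum_congr rfl (fun a _ => hterm a), Finset.sum_ite, Finset.sum_const,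
    Finset.sum_const, smul_eq_mul, smul_eq_mul]
  have hc1 : (Finset.univ.filter
      (fun a : A => (a : G) ∈ Subgroup.centralizer (B : Set G))).card
      = Nat.card (A ⊓ Subgroup.centralizer (B : Set G) : Subgroup G) := by
    rw [← Fintype.card_subtype, ← Nat.card_eq_fintype_card]
    apply Nat.card_congr
    exact
      { toFun := fun a => ⟨a.1.1, a.1.2, a.2⟩
        invFun := fun g => ⟨⟨g.1, g.2.1⟩, g.2.2⟩
        left_inv := fun _ => rfl
        right_inv := fun _ => rfl }
  have hc2 : (Finset.univ.filter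
      (fun a : A => ¬ (a : G) ∈ Subgroup.centralizer (B : Set G))).card
      = Nat.card A - Nat.card (A ⊓ Subgroup.centralizer (B : Set G) : Subgroup G) := by
    have h3 := Finset.card_filter_add_card_filter_not (s := (Finset.univ : Finset A))
      (fun a : A => (a : G) ∈ Subgroup.centralizer (B : Set G))
    rw [hc1, Finset.card_univ, ← Nat.card_eq_fintype_card] at h3
    omega
  rw [hc1, hc2]

/-- Let A and B be subgroups of a finite p-group with [A, B] ≤ A ∩ B and [A, B] of order at most p. Then |A : C_A(B)| = |B : C_B(A)|. -/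
theorem result {G : Type*} [Group G] [Finite G] {p : ℕ} [Fact p.Prime] (hG : IsPGroup p G) (A B : Subgroup G) (hAB : ⁅A, B⁆ ≤ A ⊓ B) (hcard : Nat.card ↥⁅A, B⁆ ≤ p) : (A ⊓ Subgroup.centralizer (B : Set G)).relIndex A = (B ⊓ Subgroup.centralizer (A : Set G)).relIndex B := by
  have hp := (Fact.out : p.Prime)
  have hZA := commute_of_le_normalizer_of_card_le hG ⁅A, B⁆ A
    (Subgroup.normalizer_commutator_ge_left A B) (hAB.trans inf_le_left) hcard
  have hZB := commute_of_le_normalizer_of_card_le hG ⁅A, B⁆ B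
    (Subgroup.normalizer_commutator_ge_right A B) (hAB.trans inf_le_right) hcard
  have hcomm : ⁅B, A⁆ = ⁅A, B⁆ := Subgroup.commutator_comm B A
  have h1 := count_commuting p A B
    (fun x hx hxc => card_commuting_mul hG A B hZB hcard x hx hxc)
  have h2 := count_commuting p B A
    (fun x hx hxc => card_commuting_mul hG B A (by rw [hcomm]; exact hZA)
      (by rw [hcomm]; exact hcard) x hx hxc)
  have hN : Nat.card {q : A × B // (q.1 : G) * q.2 = q.2 * q.1}
      = Nat.card {q : B × A // (q.1 : G) * q.2 = q.2 * q.1} := by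
    apply Nat.card_congr
    exact (Equiv.prodComm A B).subtypeEquiv (fun q => eq_comm)
  rw [hN, h2] at h1
  have ha := card_mul_relIndex_of_le (inf_le_left : A ⊓ Subgroup.centralizer (B : Set G) ≤ A)
  have hb := card_mul_relIndex_of_le (inf_le_left : B ⊓ Subgroup.centralizer (A : Set G) ≤ B)
  generalize (A ⊓ Subgroup.centralizer (B : Set G)).relIndex A = r at *
  generalize (B ⊓ Subgroup.centralizer (A : Set G)).relIndex B = s at *
  have hcpos : 0 < Nat.card (A ⊓ Subgroup.centralizer (B : Set G) : Subgroup G) := Nat.card_pos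
  have hdpos : 0 < Nat.card (B ⊓ Subgroup.centralizer (A : Set G) : Subgroup G) := Nat.card_pos
  have hapos : 0 < Nat.card A := Nat.card_pos
  have hbpos : 0 < Nat.card B := Nat.card_pos
  generalize Nat.card (A ⊓ Subgroup.centralizer (B : Set G) : Subgroup G) = c at *
  generalize Nat.card (B ⊓ Subgroup.centralizer (A : Set G) : Subgroup G) = d at *
  generalize Nat.card A = a at *
  generalize Nat.card B = b at *
  have hr0 : r ≠ 0 := by intro h; rw [h, Nat.mul_zero] at ha; omega
  have hs0 : s ≠ 0 := by intro h; rw [h, Nat.mul_zero] at hb; omega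
  obtain ⟨r', rfl⟩ := Nat.exists_eq_succ_of_ne_zero hr0
  obtain ⟨s', rfl⟩ := Nat.exists_eq_succ_of_ne_zero hs0
  obtain ⟨q, rfl⟩ : ∃ q, p = q + 1 := ⟨p - 1, by have := hp.pos; omega⟩
  have hq0 : 0 < q := by have := hp.one_lt; omega
  have hac : a - c = c * r' := by rw [← ha]; simp [Nat.mul_succ]
  have hbd : b - d = d * s' := by rw [← hb]; simp [Nat.mul_succ]
  rw [hac, hbd, ← ha, ← hb] at h1
  have h3 : (c * d) * (s' * q) = (c * d) * (r' * q) := by nlinarith [h1]
  have h4 := Nat.eq_of_mul_eq_mul_left (Nat.mul_pos hcpos hdpos) h3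
  have h5 := Nat.eq_of_mul_eq_mul_right hq0 h4
  rw [h5]

end Cfsg.Agent.S3741
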