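import Mathlib
import Cfsg.Statements.S3742
import Cfsg.Agent.S1012

set_option autoImplicit false
open Cfsg

namespace Cfsg.Agent.S3742

/-- the endomorphism of `Q₈` sending the generators to `p`, `r` -/
def aqF (p r : QuaternionGroup 2) : QuaternionGroup 2 → QuaternionGroup 2
  | QuaternionGroup.a i => p ^ i.val
  | QuaternionGroup.xa i => r * p ^ i.val

/-- validity of a pair of images of the generators -/
def aqV (x : QuaternionGroup 2 × QuaternionGroup 2) : Prop :=
  x.1 * x.1 ≠ 1 ∧ x.2 * x.2 = x.1 * x.1 ∧ x.2 * x.1 * x.2⁻¹ = x.1⁻¹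

instance aqV_dec : DecidablePred aqV := fun x => by
  unfold aqV
  infer_instance

set_option maxRecDepth 100000 in
theorem aq_mul : ∀ p r : QuaternionGroup 2, aqV (p, r) →
    ∀ x y : QuaternionGroup 2, aqF p r (x * y) = aqF p r x * aqF p r y := by
  decide

set_option maxRecDepth 100000 in
theorem aq_inj : ∀ p r : QuaternionGroup 2, aqV (p, r) →
    ∀ x y : QuaternionGroup 2, aqF p r x = aqF p r y → x = y := by
  decide

set_option maxRecDepth 100000 in
theorem aq_gen : ∀ p r : QuaternionGroup 2, aqF p r (QuaternionGroup.a 1) = p ∧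
    aqF p r (QuaternionGroup.xa 0) = r := by
  decide

set_option maxRecDepth 100000 in
theorem aq_card : Fintype.card {x : QuaternionGroup 2 × QuaternionGroup 2 // aqV x} = 24 := by
  decide

set_option maxRecDepth 100000 in
theorem aq_six : ∀ p r : QuaternionGroup 2, aqV (p, r) →
    (aqF p r)^[6] (QuaternionGroup.a 1) = QuaternionGroup.a 1 →
    (aqF p r)^[6] (QuaternionGroup.xa 0) = QuaternionGroup.xa 0 →
    ((aqF p r)^[2] (QuaternionGroup.a 1) = QuaternionGroup.a 1 ∧
      (aqF p r)^[2] (QuaternionGroup.xa 0) = QuaternionGroup.xa 0) ∨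
    ((aqF p r)^[3] (QuaternionGroup.a 1) = QuaternionGroup.a 1 ∧
      (aqF p r)^[3] (QuaternionGroup.xa 0) = QuaternionGroup.xa 0) := by
  decide

theorem aq_valid (α : MulAut (QuaternionGroup 2)) :
    aqV (α (QuaternionGroup.a 1), α (QuaternionGroup.xa 0)) := by
  refine ⟨?_, ?_, ?_⟩
  · show α (QuaternionGroup.a 1) * α (QuaternionGroup.a 1) ≠ 1
    rw [← map_mul, Ne, map_eq_one_iff α α.injective]
    decide
  · show α (QuaternionGroup.xa 0) * α (QuaternionGroup.xa 0)
      = α (QuaternionGroup.a 1) * α (QuaternionGroup.a 1)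
    rw [← map_mul, ← map_mul]
    congr 1
  · show α (QuaternionGroup.xa 0) * α (QuaternionGroup.a 1) * (α (QuaternionGroup.xa 0))⁻¹
      = (α (QuaternionGroup.a 1))⁻¹
    rw [← map_inv, ← map_mul, ← map_mul, ← map_inv]
    congr 1

theorem aq_eq (α : MulAut (QuaternionGroup 2)) (x : QuaternionGroup 2) :
    α x = aqF (α (QuaternionGroup.a 1)) (α (QuaternionGroup.xa 0)) x := by
  rcases x with i | i
  · show α (QuaternionGroup.a i) = α (QuaternionGroup.a 1) ^ i.val
    rw [← map_pow, QuaternionGroup.a_one_pow, ZMod.natCast_zmod_val]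
  · show α (QuaternionGroup.xa i) = α (QuaternionGroup.xa 0) * α (QuaternionGroup.a 1) ^ i.val
    rw [← map_pow, ← map_mul, QuaternionGroup.a_one_pow, ZMod.natCast_zmod_val,
      QuaternionGroup.xa_mul_a, zero_add]

theorem aq_ext (α β : MulAut (QuaternionGroup 2))
    (h1 : α (QuaternionGroup.a 1) = β (QuaternionGroup.a 1))
    (h2 : α (QuaternionGroup.xa 0) = β (QuaternionGroup.xa 0)) : α = β := by
  apply MulEquiv.ext
  intro x
  rw [aq_eq α x, aq_eq β x, h1, h2]

theorem aq_iter (α : MulAut (QuaternionGroup 2)) (n : ℕ) (x : QuaternionGroup 2) :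
    (α ^ n) x = (aqF (α (QuaternionGroup.a 1)) (α (QuaternionGroup.xa 0)))^[n] x := by
  induction n generalizing x with
  | zero => rfl
  | succ n ih =>
    rw [pow_succ, MulAut.mul_apply, Function.iterate_succ_apply, ← aq_eq α x, ih]

theorem aq_card_aut : Nat.card (MulAut (QuaternionGroup 2)) = 24 := by
  rw [← aq_card, ← Nat.card_eq_fintype_card]
  apply Nat.card_congr
  refine Equiv.ofBijective (fun α => ⟨(α (QuaternionGroup.a 1), α (QuaternionGroup.xa 0)),
    aq_valid α⟩) ⟨?_, ?_⟩
  · intro α β h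
    have h1 : α (QuaternionGroup.a 1) = β (QuaternionGroup.a 1) :=
      congrArg (fun w : {x : QuaternionGroup 2 × QuaternionGroup 2 // aqV x} => w.1.1) h
    have h2 : α (QuaternionGroup.xa 0) = β (QuaternionGroup.xa 0) :=
      congrArg (fun w : {x : QuaternionGroup 2 × QuaternionGroup 2 // aqV x} => w.1.2) h
    exact aq_ext α β h1 h2
  · rintro ⟨⟨p, r⟩, hv⟩
    have hinj : Function.Injective (aqF p r) := fun x y h => aq_inj p r hv x y h
    have hbij : Function.Bijective (aqF p r) := ⟨hinj, Finite.injective_iff_surjective.mp hinj⟩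
    refine ⟨MulEquiv.ofBijective (MonoidHom.mk' (aqF p r) (aq_mul p r hv)) hbij, ?_⟩
    apply Subtype.ext
    show ((aqF p r) (QuaternionGroup.a 1), (aqF p r) (QuaternionGroup.xa 0)) = (p, r)
    rw [(aq_gen p r).1, (aq_gen p r).2]

/-- The automorphism group of the quaternion group of order 8 is isomorphic to the symmetric group of degree 4. -/
theorem result : Nonempty (MulAut (QuaternionGroup 2) ≃* Equiv.Perm (Fin 4)) := by
  have : Finite (MulAut (QuaternionGroup 2)) := Nat.finite_of_card_ne_zero (by rw [aq_card_aut]; norm_num)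
  apply Cfsg.Agent.S1012.result aq_card_aut
  intro α h6
  have h1 : α ^ 6 = 1 := by
    rw [← h6]
    exact pow_orderOf_eq_one α
  have ha : (α ^ 6) (QuaternionGroup.a 1) = QuaternionGroup.a 1 := by rw [h1]; rfl
  have hx : (α ^ 6) (QuaternionGroup.xa 0) = QuaternionGroup.xa 0 := by rw [h1]; rfl
  rw [aq_iter] at ha hx
  rcases aq_six _ _ (aq_valid α) ha hx with ⟨h2, h3⟩ | ⟨h2, h3⟩
  · rw [← aq_iter] at h2 h3
    have h4 : α ^ 2 = 1 := aq_ext _ _ h2 h3
    have h5 := orderOf_dvd_of_pow_eq_one h4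
    rw [h6] at h5
    omega
  · rw [← aq_iter] at h2 h3
    have h4 : α ^ 3 = 1 := aq_ext _ _ h2 h3
    have h5 := orderOf_dvd_of_pow_eq_one h4
    rw [h6] at h5
    omega

end Cfsg.Agent.S3742
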