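import Cfsg.Statements.S3745
import Mathlib
import Cfsg.Agent.Helper1.Coprime2
import Cfsg.Agent.Helper1.Hall
import Cfsg.Agent.Helper1.CharSub
import Cfsg.Agent.Helper20.SylowAux

set_option autoImplicit false
open Cfsg

namespace Cfsg.Agent.S3745

open Pointwise
open Cfsg.Agent.Helper1

universe u

theorem pi_split (π : Set ℕ) : ∀ n : ℕ, 0 < n → ∃ m m' : ℕ, n = m * m' ∧ m.Coprime m' ∧
    (∀ p : ℕ, p.Prime → p ∣ m → p ∈ π) ∧ (∀ p : ℕ, p.Prime → p ∣ m' → p ∉ π) := by
  intro n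
  induction n using Nat.strong_induction_on with
  | _ n ih =>
  intro hn
  by_cases h1 : n = 1
  · refine ⟨1, 1, by rw [h1], Nat.coprime_one_left 1, ?_, ?_⟩
    · intro p hp hd
      exact absurd (Nat.dvd_one.mp hd) hp.ne_one
    · intro p hp hd
      exact absurd (Nat.dvd_one.mp hd) hp.ne_one
  · obtain ⟨p, hp, hpn⟩ : ∃ p : ℕ, p.Prime ∧ p ∣ n :=
      ⟨_, Nat.minFac_prime h1, Nat.minFac_dvd n⟩
    obtain ⟨e, r, hr, hnr⟩ := Nat.exists_eq_pow_mul_and_not_dvd (Nat.pos_iff_ne_zero.mp hn) p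
      hp.ne_one
    have hrpos : 0 < r := by
      rcases Nat.eq_zero_or_pos r with h | h
      · rw [h, mul_zero] at hnr; omega
      · exact h
    have he : e ≠ 0 := by
      intro he
      rw [he, pow_zero, one_mul] at hnr
      exact hr (hnr ▸ hpn)
    have h2 : 2 ≤ p ^ e := by
      calc 2 ≤ p := hp.two_le
        _ = p ^ 1 := (pow_one _).symm
        _ ≤ p ^ e := Nat.pow_le_pow_right hp.pos (Nat.one_le_iff_ne_zero.mpr he)
    have hlt : r < n := by
      rw [hnr]
      nlinarith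
    obtain ⟨m, m', hmm, hcop, hm, hm'⟩ := ih r hlt hrpos
    have hcr : Nat.Coprime (p ^ e) r :=
      Nat.Coprime.pow_left e ((Nat.Prime.coprime_iff_not_dvd hp).mpr hr)
    have hcm : Nat.Coprime (p ^ e) m := hcr.coprime_dvd_right ⟨m', hmm⟩
    have hcm' : Nat.Coprime (p ^ e) m' := hcr.coprime_dvd_right ⟨m, by rw [hmm, mul_comm]⟩
    by_cases hpi : p ∈ π
    · refine ⟨p ^ e * m, m', by rw [hnr, hmm, mul_assoc], Nat.Coprime.mul_left hcm' hcop, ?_, hm'⟩
      intro q hq hqd
      rcases (Nat.Prime.dvd_mul hq).mp hqd with h | h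
      · have h3 := (Nat.prime_dvd_prime_iff_eq hq hp).mp (hq.dvd_of_dvd_pow h)
        rw [h3]; exact hpi
      · exact hm q hq h
    · refine ⟨m, p ^ e * m', by rw [hnr, hmm]; ring, Nat.Coprime.mul_right hcm.symm hcop, hm, ?_⟩
      intro q hq hqd
      rcases (Nat.Prime.dvd_mul hq).mp hqd with h | h
      · have h3 := (Nat.prime_dvd_prime_iff_eq hq hp).mp (hq.dvd_of_dvd_pow h)
        rw [h3]; exact hpi
      · exact hm' q hq h

theorem coprime_of_primes (π : Set ℕ) (a b : ℕ) (ha : ∀ p : ℕ, p.Prime → p ∣ a → p ∈ π)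
    (hb : ∀ p : ℕ, p.Prime → p ∣ b → p ∉ π) : a.Coprime b := by
  by_contra h
  obtain ⟨p, hp, hpa, hpb⟩ := Nat.Prime.not_coprime_iff_dvd.mp h
  exact hb p hp hpb (ha p hp hpa)

theorem hall_iff (π : Set ℕ) {X : Type*} [Group X] [Finite X] (H G : Subgroup X) (m n : ℕ)
    (hG : Nat.card G = m * n) (hm : ∀ p : ℕ, p.Prime → p ∣ m → p ∈ π)
    (hn : ∀ p : ℕ, p.Prime → p ∣ n → p ∉ π) :
    Cfsg.IsPiHallOf π H G ↔ H ≤ G ∧ Nat.card H = m := by
  have hGpos : 0 < Nat.card G := Nat.card_pos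
  have hmpos : 0 < m := by
    rcases Nat.eq_zero_or_pos m with h | h
    · rw [h, zero_mul] at hG; omega
    · exact h
  have hnpos : 0 < n := by
    rcases Nat.eq_zero_or_pos n with h | h
    · rw [h, mul_zero] at hG; omega
    · exact h
  constructor
  · rintro ⟨hle, h1, h2⟩
    refine ⟨hle, ?_⟩
    have hcr : Nat.card H * H.relIndex G = m * n := by
      rw [← hG]; exact Cfsg.Agent.Helper20.card_mul_relIndex_of_le hle
    have hc1 : (Nat.card H).Coprime n := coprime_of_primes π _ _ h1 hn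
    have hc2 : m.Coprime (H.relIndex G) := by
      by_contra h
      obtain ⟨p, hp, hpa, hpb⟩ := Nat.Prime.not_coprime_iff_dvd.mp h
      exact h2 p hp (hm p hp hpa) hpb
    have hd1 : Nat.card H ∣ m := hc1.dvd_of_dvd_mul_right ⟨_, hcr.symm⟩
    have hd2 : m ∣ Nat.card H := hc2.dvd_of_dvd_mul_right ⟨_, hcr⟩
    exact Nat.dvd_antisymm hd1 hd2
  · rintro ⟨hle, hc⟩
    have hcr : Nat.card H * H.relIndex G = m * n := by
      rw [← hG]; exact Cfsg.Agent.Helper20.card_mul_relIndex_of_le hle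
    rw [hc] at hcr
    have hri : H.relIndex G = n := Nat.eq_of_mul_eq_mul_left hmpos hcr
    refine ⟨hle, ?_, ?_⟩
    · intro p hp hd
      rw [hc] at hd
      exact hm p hp hd
    · intro p hp hpi hd
      rw [hri] at hd
      exact hn p hp hd hpi

theorem le_normalizer_inf {X : Type*} [Group X] (A H K : Subgroup X)
    (hH : A ≤ Subgroup.normalizer (H : Set X)) (hK : A ≤ Subgroup.normalizer (K : Set X)) :
    A ≤ Subgroup.normalizer ((H ⊓ K : Subgroup X) : Set X) := by
  intro a ha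
  rw [Subgroup.mem_normalizer_iff]
  intro x
  rw [Subgroup.mem_inf, Subgroup.mem_inf, ← Subgroup.mem_normalizer_iff.mp (hH ha) x,
    ← Subgroup.mem_normalizer_iff.mp (hK ha) x]

theorem le_normalizer_sup {X : Type*} [Group X] (A H K : Subgroup X)
    (hH : A ≤ Subgroup.normalizer (H : Set X)) (hK : A ≤ Subgroup.normalizer (K : Set X)) :
    A ≤ Subgroup.normalizer ((H ⊔ K : Subgroup X) : Set X) := by
  intro a ha
  rw [mem_normalizer_iff_conj_smul, conj_smul_eq_map, Subgroup.map_sup, ← conj_smul_eq_map,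
    ← conj_smul_eq_map, mem_normalizer_iff_conj_smul.mp (hH ha),
    mem_normalizer_iff_conj_smul.mp (hK ha)]

theorem card_map_mul_card_ker {X : Type*} {Y : Type*} [Group X] [Group Y] (f : X →* Y)
    (H : Subgroup X) (h : f.ker ≤ H) :
    Nat.card (H.map f) * Nat.card f.ker = Nat.card H := by
  have h1 : (f.comp H.subtype).range = H.map f := by
    rw [MonoidHom.range_comp, Subgroup.range_subtype]
  have h2 : (f.comp H.subtype).ker = f.ker.subgroupOf H :=
    (MonoidHom.comap_ker f H.subtype).symm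
  have h3 := Subgroup.index_ker (f.comp H.subtype)
  have h4 := Subgroup.card_mul_index (f.comp H.subtype).ker
  rw [h3, h1, h2, Nat.card_congr (Subgroup.subgroupOfEquivOfLe h).toEquiv] at h4
  rw [mul_comm]
  exact h4

theorem card_sup_of_normal_disjoint {X : Type*} [Group X] (N V : Subgroup X)
    [N.Normal] (h : N ⊓ V = ⊥) :
    Nat.card (N ⊔ V : Subgroup X) = Nat.card N * Nat.card V := by
  have h1 : N.relIndex (N ⊔ V) = Nat.card V := by
    rw [Subgroup.relIndex_sup_left, ← Subgroup.inf_relIndex_right, h, Subgroup.relIndex_bot_left]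
  have h2 := Cfsg.Agent.Helper20.card_mul_relIndex_of_le (le_sup_left : N ≤ N ⊔ V)
  rw [h1] at h2
  exact h2.symm

/-- Frattini argument for Hall subgroups of a solvable normal subgroup. -/
theorem hall_frattini {Γ : Type u} [Group Γ] [Finite Γ] (K : Subgroup Γ) [hKn : K.Normal]
    (hsolv : Group.IsSolvable K) (m n : ℕ) (hK : Nat.card K = m * n) (hmn : m.Coprime n)
    (Q : Subgroup Γ) (hQK : Q ≤ K) (hQ : Nat.card Q = m) :
    Subgroup.normalizer (Q : Set Γ) ⊔ K = ⊤ := by
  rw [eq_top_iff]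
  intro g _
  have h1 : MulAut.conj g • Q ≤ K := by
    intro x hx
    rw [mem_conj_smul] at hx
    have h2 := hKn.conj_mem _ (hQK hx) g
    have h3 : g * (g⁻¹ * x * g) * g⁻¹ = x := by group
    rwa [h3] at h2
  have hc1 : Nat.card ((MulAut.conj g • Q).subgroupOf K) = m := by
    rw [Nat.card_congr (Subgroup.subgroupOfEquivOfLe h1).toEquiv, card_conj_smul, hQ]
  have hc2 : Nat.card (Q.subgroupOf K) = m := by
    rw [Nat.card_congr (Subgroup.subgroupOfEquivOfLe hQK).toEquiv, hQ]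
  haveI := hsolv
  obtain ⟨k, hk⟩ := hall_conj m n hK hmn (Q.subgroupOf K) ((MulAut.conj g • Q).subgroupOf K)
    hc2 hc1
  have h4 : MulAut.conj (k : Γ) • Q = MulAut.conj g • Q := conj_of_conj_subgroupOf hQK h1 k hk
  have h5 : (k : Γ)⁻¹ * g ∈ Subgroup.normalizer (Q : Set Γ) := by
    rw [mem_normalizer_iff_conj_smul, ← conj_smul_smul, ← h4, conj_smul_smul, inv_mul_cancel,
      map_one, one_smul]
  have h6 : g = ((k : Γ)⁻¹ * g) * (g⁻¹ * k * g) := by group
  have h7 : g⁻¹ * (k : Γ) * g ∈ K := by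
    have h8 := hKn.conj_mem _ k.2 g⁻¹
    simpa [mul_assoc] using h8
  rw [h6]
  exact Subgroup.mul_mem_sup h5 h7

/-- Under coprime action on a solvable group there is an invariant Hall subgroup. -/
theorem inv_hall_exists {X : Type u} [Group X] [Finite X] (A K : Subgroup X)
    (hAK : A ≤ Subgroup.normalizer (K : Set X))
    (hcop : (Nat.card A).Coprime (Nat.card K)) (hsolv : Group.IsSolvable K)
    (m n : ℕ) (hK : Nat.card K = m * n) (hmn : m.Coprime n) :
    ∃ Q : Subgroup X, Q ≤ K ∧ Nat.card Q = m ∧ A ≤ Subgroup.normalizer (Q : Set X) := by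
  set Γ := Subgroup.normalizer (K : Set X) with hΓ
  have hKΓ : K ≤ Γ := Subgroup.le_normalizer
  set K' := K.subgroupOf Γ with hK'
  set A' := A.subgroupOf Γ with hA'
  have hK'n : K'.Normal := Subgroup.normal_in_normalizer
  have hcardK' : Nat.card K' = Nat.card K :=
    Nat.card_congr (Subgroup.subgroupOfEquivOfLe hKΓ).toEquiv
  have hcardA' : Nat.card A' = Nat.card A :=
    Nat.card_congr (Subgroup.subgroupOfEquivOfLe hAK).toEquiv
  have hcop' : (Nat.card A').Coprime (Nat.card K') := by rw [hcardK', hcardA']; exact hcop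
  have hsolv' : Group.IsSolvable K' :=
    Group.isSolvable_of_isSolvable_injective
      (f := (Subgroup.subgroupOfEquivOfLe hKΓ).toMonoidHom)
      (Subgroup.subgroupOfEquivOfLe hKΓ).injective
  haveI := hsolv'
  obtain ⟨P', hP'⟩ := hall_exists m n (hcardK'.trans hK) hmn
  set Q' : Subgroup Γ := P'.map K'.subtype with hQ'
  have hQ'K : Q' ≤ K' := Subgroup.map_subtype_le P'
  have hQ'c : Nat.card Q' = m := by rw [hQ', Subgroup.card_subtype, hP']
  have hfr : Subgroup.normalizer (Q' : Set Γ) ⊔ K' = ⊤ :=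
    hall_frattini K' hsolv' m n (hcardK'.trans hK) hmn Q' hQ'K hQ'c
  obtain ⟨d, hd, hconj⟩ := exists_conj_le_of_sup_eq_top K' A' (Subgroup.normalizer (Q' : Set Γ))
    hcop' (Or.inr hsolv') hfr
  set Q'' : Subgroup Γ := MulAut.conj d⁻¹ • Q' with hQ''
  have hQ''K : Q'' ≤ K' := by
    intro x hx
    rw [hQ'', mem_conj_smul] at hx
    have h1 : d⁻¹⁻¹ * x * d⁻¹ ∈ K' := hQ'K hx
    have h2 := hK'n.conj_mem _ h1 d⁻¹
    simpa [mul_assoc] using h2
  have hA'N : A' ≤ Subgroup.normalizer (Q'' : Set Γ) := by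
    intro a ha
    have h1 : d * a * d⁻¹ ∈ Subgroup.normalizer (Q' : Set Γ) := hconj (conj_mem_conj_smul ha)
    rw [mem_normalizer_iff_conj_smul] at h1 ⊢
    rw [hQ'', conj_smul_smul]
    have h2 : a * d⁻¹ = d⁻¹ * (d * a * d⁻¹) := by group
    rw [h2, ← conj_smul_smul, h1]
  refine ⟨Q''.map Γ.subtype, ?_, ?_, ?_⟩
  · rintro _ ⟨y, hy, rfl⟩
    exact Subgroup.mem_subgroupOf.mp (hQ''K hy)
  · rw [Subgroup.card_subtype, hQ'', card_conj_smul, hQ'c]
  · intro a ha
    exact map_subtype_mem_normalizer Γ Q'' ⟨a, hAK ha⟩ (hA'N (Subgroup.mem_subgroupOf.mpr ha))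

/-- Invariant Hall subgroups are conjugate under the fixed points. -/
theorem inv_hall_conj {X : Type u} [Group X] [Finite X] (A G : Subgroup X)
    (hAG : A ≤ Subgroup.normalizer (G : Set X)) (hcop : (Nat.card A).Coprime (Nat.card G))
    (hsolv : Group.IsSolvable G) (m n : ℕ) (hG : Nat.card G = m * n) (hmn : m.Coprime n)
    (H₁ H₂ : Subgroup X) (h1 : H₁ ≤ G) (h2 : H₂ ≤ G) (hc1 : Nat.card H₁ = m)
    (hc2 : Nat.card H₂ = m) (hA1 : A ≤ Subgroup.normalizer (H₁ : Set X))
    (hA2 : A ≤ Subgroup.normalizer (H₂ : Set X)) :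
    ∃ c ∈ G ⊓ Subgroup.centralizer (A : Set X), MulAut.conj c • H₁ = H₂ := by
  haveI := hsolv
  have hc1' : Nat.card (H₁.subgroupOf G) = m := by
    rw [Nat.card_congr (Subgroup.subgroupOfEquivOfLe h1).toEquiv, hc1]
  have hc2' : Nat.card (H₂.subgroupOf G) = m := by
    rw [Nat.card_congr (Subgroup.subgroupOfEquivOfLe h2).toEquiv, hc2]
  obtain ⟨x, hx⟩ := hall_conj m n hG hmn (H₁.subgroupOf G) (H₂.subgroupOf G) hc1' hc2'
  have hx12 : MulAut.conj (x : X) • H₁ = H₂ := conj_of_conj_subgroupOf h1 h2 x hx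
  have hx' : MulAut.conj (x : X)⁻¹ • H₂ = H₁ := by
    rw [← hx12, conj_smul_smul, inv_mul_cancel, map_one, one_smul]
  have hAD : A ≤ Subgroup.normalizer
      ((G ⊓ Subgroup.normalizer (H₁ : Set X) : Subgroup X) : Set X) := by
    apply le_normalizer_inf A G _ hAG
    intro a ha
    rw [Subgroup.mem_normalizer_iff]
    intro y
    constructor
    · intro hy
      exact Subgroup.mul_mem _ (Subgroup.mul_mem _ (hA1 ha) hy) (Subgroup.inv_mem _ (hA1 ha))
    · intro hy
      have h3 : y = a⁻¹ * (a * y * a⁻¹) * a := by group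
      rw [h3]
      exact Subgroup.mul_mem _ (Subgroup.mul_mem _ (Subgroup.inv_mem _ (hA1 ha)) hy) (hA1 ha)
  have h : ∀ a ∈ A, (x : X)⁻¹ * a * x * a⁻¹ ∈ G ⊓ Subgroup.normalizer (H₁ : Set X) := by
    intro a ha
    refine Subgroup.mem_inf.mpr ⟨?_, ?_⟩
    · have h3 : a * (x : X) * a⁻¹ ∈ G := (Subgroup.mem_normalizer_iff.mp (hAG ha) x).mp x.2
      have h4 := G.mul_mem (G.inv_mem x.2) h3
      have h5 : (x : X)⁻¹ * (a * x * a⁻¹) = (x : X)⁻¹ * a * x * a⁻¹ := by group
      rwa [h5] at h4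
    · have hn1' : MulAut.conj a⁻¹ • H₁ = H₁ :=
        mem_normalizer_iff_conj_smul.mp (Subgroup.inv_mem _ (hA1 ha))
      have hn2 : MulAut.conj a • H₂ = H₂ := mem_normalizer_iff_conj_smul.mp (hA2 ha)
      rw [mem_normalizer_iff_conj_smul]
      calc MulAut.conj ((x : X)⁻¹ * a * x * a⁻¹) • H₁
          = MulAut.conj ((x : X)⁻¹ * a * x) • MulAut.conj a⁻¹ • H₁ := by rw [conj_smul_smul]
        _ = MulAut.conj ((x : X)⁻¹ * a * x) • H₁ := by rw [hn1']
        _ = MulAut.conj ((x : X)⁻¹ * a) • MulAut.conj (x : X) • H₁ := by rw [conj_smul_smul]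
        _ = MulAut.conj ((x : X)⁻¹ * a) • H₂ := by rw [hx12]
        _ = MulAut.conj (x : X)⁻¹ • MulAut.conj a • H₂ := by rw [conj_smul_smul]
        _ = H₁ := by rw [hn2, hx']
  obtain ⟨d, hd, hcent⟩ := coprime_coset_fixed A G (G ⊓ Subgroup.normalizer (H₁ : Set X)) hAG hAD
    inf_le_left hcop (Or.inr hsolv) (x : X) x.2 h
  obtain ⟨hdG, hdN⟩ := Subgroup.mem_inf.mp hd
  refine ⟨(x : X) * d, Subgroup.mem_inf.mpr ⟨G.mul_mem x.2 hdG, hcent⟩, ?_⟩
  rw [← conj_smul_smul, mem_normalizer_iff_conj_smul.mp hdN, hx12]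

/-- Dominance for invariant Hall subgroups, `G` normal. -/
theorem inv_hall_dom_aux : ∀ (N₀ : ℕ) (X : Type u) [Group X] [Finite X] (A G U : Subgroup X)
    [G.Normal], Nat.card G = N₀ → (Nat.card A).Coprime (Nat.card G) → Group.IsSolvable G →
    ∀ m n : ℕ, Nat.card G = m * n → m.Coprime n → U ≤ G →
    A ≤ Subgroup.normalizer (U : Set X) → (Nat.card U).Coprime n →
    ∃ H : Subgroup X, H ≤ G ∧ Nat.card H = m ∧ A ≤ Subgroup.normalizer (H : Set X) ∧ U ≤ H := by
  intro N₀
  induction N₀ using Nat.strong_induction_on with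
  | _ N₀ ih =>
  intro X _ _ A G U hGn hN₀ hcop hsolv m n hG hmn hUG hAU hUn
  have hGpos : 0 < Nat.card G := Nat.card_pos
  have hmpos : 0 < m := by
    rcases Nat.eq_zero_or_pos m with h | h
    · rw [h, zero_mul] at hG; omega
    · exact h
  have hnpos : 0 < n := by
    rcases Nat.eq_zero_or_pos n with h | h
    · rw [h, mul_zero] at hG; omega
    · exact h
  by_cases hGbot : G = ⊥
  · refine ⟨⊥, bot_le, ?_, ?_, ?_⟩
    · rw [Subgroup.card_bot]
      rw [hGbot, Subgroup.card_bot] at hG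
      exact (Nat.eq_one_of_mul_eq_one_right hG.symm).symm
    · rw [Subgroup.normalizer_eq_top]
      exact le_top
    · rw [hGbot] at hUG
      exact hUG
  · haveI : Nontrivial G := (Subgroup.nontrivial_iff_ne_bot G).mpr hGbot
    haveI := hsolv
    obtain ⟨p, hp, B, hchar, hne, hcomm, hexp⟩ := exists_char_elemAbelian G
    haveI hpf : Fact p.Prime := ⟨hp⟩
    have hBp : IsPGroup p B := by
      intro x
      refine ⟨1, ?_⟩
      rw [pow_one]
      apply Subtype.ext
      have h1 := hexp x x.2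
      simpa using h1
    obtain ⟨e, he⟩ := hBp.exists_card_eq
    have hNn0 : (B.map G.subtype).Normal := by
      rw [← Subgroup.normalizer_eq_top_iff]
      have h1 := normalizer_le_normalizer_map_char G B
      rw [Subgroup.normalizer_eq_top] at h1
      exact top_le_iff.mp h1
    obtain ⟨N, hNdef⟩ : ∃ N : Subgroup X, N = B.map G.subtype := ⟨_, rfl⟩
    rw [← hNdef] at hNn0
    haveI hNn : N.Normal := hNn0
    have hNG : N ≤ G := by rw [hNdef]; exact Subgroup.map_subtype_le B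
    have hNcard : Nat.card N = Nat.card B := by rw [hNdef]; exact Subgroup.card_subtype G B
    have hNe : Nat.card N = p ^ e := hNcard.trans he
    have hN1 : 1 < Nat.card N := by
      rw [hNcard]; exact (Subgroup.one_lt_card_iff_ne_bot B).mpr hne
    have hNpos : 0 < Nat.card N := Nat.card_pos
    obtain ⟨f, hf, hker⟩ : ∃ f : X →* X ⧸ N, Function.Surjective f ∧ f.ker = N :=
      ⟨QuotientGroup.mk' N, QuotientGroup.mk'_surjective N, QuotientGroup.ker_mk' N⟩
    haveI hGbar_n : (G.map f).Normal := Subgroup.Normal.map hGn f hf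
    have hcG : Nat.card (G.map f) * Nat.card N = Nat.card G := by
      have h1 := card_map_mul_card_ker f G (hker.le.trans hNG)
      rwa [hker] at h1
    have hlt : Nat.card (G.map f) < N₀ := by
      rw [← hN₀, ← hcG]
      have h1 : 0 < Nat.card (G.map f) := Nat.card_pos
      nlinarith
    have hcopbar : (Nat.card (A.map f)).Coprime (Nat.card (G.map f)) :=
      (hcop.coprime_dvd_left (Subgroup.card_map_dvd A f)).coprime_dvd_right ⟨_, hcG.symm⟩
    have hsolvbar : Group.IsSolvable (G.map f) :=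
      Group.isSolvable_of_surjective (MonoidHom.subgroupMap_surjective f G)
    have hUbar : U.map f ≤ G.map f := Subgroup.map_mono hUG
    have hAUbar : A.map f ≤ Subgroup.normalizer ((U.map f : Subgroup (X ⧸ N)) : Set (X ⧸ N)) :=
      (Subgroup.map_mono hAU).trans (Subgroup.le_normalizer_map f)
    have hNdvd : Nat.card N ∣ m * n := ⟨Nat.card (G.map f), by rw [← hG, ← hcG, mul_comm]⟩
    have hcomapG : ∀ Hb : Subgroup (X ⧸ N), Hb ≤ G.map f → Hb.comap f ≤ G := by
      intro Hb hHb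
      exact (Subgroup.comap_mono hHb).trans (Subgroup.comap_map_eq_self (hker.le.trans hNG)).le
    have hcomapc : ∀ Hb : Subgroup (X ⧸ N),
        Nat.card (Hb.comap f) = Nat.card Hb * Nat.card N := by
      intro Hb
      have h1 := card_map_mul_card_ker f (Hb.comap f) (MonoidHom.ker_le_comap f Hb)
      rw [Subgroup.map_comap_eq_self_of_surjective hf, hker] at h1
      exact h1.symm
    have hcomapA : ∀ Hb : Subgroup (X ⧸ N),
        A.map f ≤ Subgroup.normalizer (Hb : Set (X ⧸ N)) →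
        A ≤ Subgroup.normalizer ((Hb.comap f : Subgroup X) : Set X) := by
      intro Hb hHb
      exact (Subgroup.le_comap_map f A).trans
        ((Subgroup.comap_mono hHb).trans (Subgroup.le_normalizer_comap f))
    have hcomapU : ∀ Hb : Subgroup (X ⧸ N), U.map f ≤ Hb → U ≤ Hb.comap f := by
      intro Hb hHb
      exact (Subgroup.le_comap_map f U).trans (Subgroup.comap_mono hHb)
    by_cases hpm : p ∣ m
    · have hpn : Nat.Coprime p n := Nat.Coprime.coprime_dvd_left hpm hmn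
      have hNn' : (Nat.card N).Coprime n := by rw [hNe]; exact Nat.Coprime.pow_left e hpn
      obtain ⟨m', hm'⟩ := hNn'.dvd_of_dvd_mul_right hNdvd
      have hq : Nat.card (G.map f) = m' * n := by
        have h1 : Nat.card N * Nat.card (G.map f) = Nat.card N * (m' * n) := by
          rw [mul_comm, hcG, hG, hm']; ring
        exact Nat.eq_of_mul_eq_mul_left hNpos h1
      obtain ⟨Hb, hHbG, hHbc, hHbA, hHbU⟩ := ih _ hlt (X ⧸ N) (A.map f) (G.map f) (U.map f) rfl
        hcopbar hsolvbar m' n hq (hmn.coprime_dvd_left ⟨_, by rw [hm', mul_comm]⟩) hUbar hAUbar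
        (hUn.coprime_dvd_left (Subgroup.card_map_dvd U f))
      refine ⟨Hb.comap f, hcomapG Hb hHbG, ?_, hcomapA Hb hHbA, hcomapU Hb hHbU⟩
      rw [hcomapc Hb, hHbc, hm', mul_comm]
    · have hpm' : Nat.Coprime p m := (Nat.Prime.coprime_iff_not_dvd hp).mpr hpm
      have hNm : (Nat.card N).Coprime m := by rw [hNe]; exact Nat.Coprime.pow_left e hpm'
      obtain ⟨n', hn'⟩ := hNm.dvd_of_dvd_mul_left hNdvd
      have hq : Nat.card (G.map f) = m * n' := by
        have h1 : Nat.card N * Nat.card (G.map f) = Nat.card N * (m * n') := by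
          rw [mul_comm, hcG, hG, hn']; ring
        exact Nat.eq_of_mul_eq_mul_left hNpos h1
      have hUn' : (Nat.card (U.map f)).Coprime n' :=
        (hUn.coprime_dvd_left (Subgroup.card_map_dvd U f)).coprime_dvd_right
          ⟨_, by rw [hn', mul_comm]⟩
      obtain ⟨Hb, hHbG, hHbc, hHbA, hHbU⟩ := ih _ hlt (X ⧸ N) (A.map f) (G.map f) (U.map f) rfl
        hcopbar hsolvbar m n' hq (hmn.coprime_dvd_right ⟨_, by rw [hn', mul_comm]⟩) hUbar hAUbar
        hUn'
      have hH₀G0 := hcomapG Hb hHbG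
      have hNH₀0 : N ≤ Hb.comap f := hker.symm.le.trans (MonoidHom.ker_le_comap f Hb)
      have hH₀c0 : Nat.card (Hb.comap f) = m * Nat.card N := by rw [hcomapc Hb, hHbc]
      have hAH₀0 := hcomapA Hb hHbA
      have hUH₀0 := hcomapU Hb hHbU
      obtain ⟨H₀, hH₀def⟩ : ∃ H₀ : Subgroup X, H₀ = Hb.comap f := ⟨_, rfl⟩
      rw [← hH₀def] at hH₀G0 hNH₀0 hH₀c0 hAH₀0 hUH₀0
      have hsolvH₀ : Group.IsSolvable H₀ :=
        Group.isSolvable_of_isSolvable_injective (f := Subgroup.inclusion hH₀G0)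
          (Subgroup.inclusion_injective hH₀G0)
      obtain ⟨K, hKH₀, hKc, hAK⟩ := inv_hall_exists A H₀ hAH₀0
        (hcop.coprime_dvd_right (Subgroup.card_dvd_of_le hH₀G0)) hsolvH₀ m (Nat.card N) hH₀c0
        hNm.symm
      have hNK : N ⊓ K = ⊥ :=
        (Subgroup.disjoint_of_coprime_natCard (by rw [hKc]; exact hNm)).eq_bot
      have hUN : (Nat.card U).Coprime (Nat.card N) := hUn.coprime_dvd_right ⟨_, hn'⟩
      have hNU : N ⊓ U = ⊥ := (Subgroup.disjoint_of_coprime_natCard hUN.symm).eq_bot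
      have hsupK : N ⊔ K = H₀ := by
        apply Subgroup.eq_of_le_of_card_ge (sup_le hNH₀0 hKH₀)
        rw [card_sup_of_normal_disjoint N K hNK, hKc, hH₀c0, mul_comm]
      have hWH₀ : N ⊔ U ≤ H₀ := sup_le hNH₀0 hUH₀0
      have hWc : Nat.card (N ⊔ U : Subgroup X) = Nat.card N * Nat.card U :=
        card_sup_of_normal_disjoint N U hNU
      have hW2 : N ⊔ U ≤ N ⊔ (K ⊓ (N ⊔ U)) := by
        intro w hw
        have h1 : w ∈ N ⊔ K := by rw [hsupK]; exact hWH₀ hw
        rw [← SetLike.mem_coe, Subgroup.normal_mul, Set.mem_mul] at h1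
        obtain ⟨x, hx, k, hk, rfl⟩ := h1
        have hkW : k ∈ N ⊔ U := by
          have h2 : k = x⁻¹ * (x * k) := by group
          rw [h2]
          exact (N ⊔ U).mul_mem ((N ⊔ U).inv_mem (Subgroup.mem_sup_left hx)) hw
        exact Subgroup.mul_mem_sup hx (Subgroup.mem_inf.mpr ⟨hk, hkW⟩)
      have hW3 : N ⊔ (K ⊓ (N ⊔ U)) = N ⊔ U :=
        le_antisymm (sup_le le_sup_left inf_le_right) hW2
      have hNKW : N ⊓ (K ⊓ (N ⊔ U)) = ⊥ := by
        apply le_bot_iff.mp
        rw [← hNK]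
        exact inf_le_inf_left N inf_le_left
      have hU₁c : Nat.card (K ⊓ (N ⊔ U) : Subgroup X) = Nat.card U := by
        have h1 := card_sup_of_normal_disjoint N (K ⊓ (N ⊔ U)) hNKW
        rw [hW3, hWc] at h1
        exact (Nat.eq_of_mul_eq_mul_left hNpos h1).symm
      have hAN : A ≤ Subgroup.normalizer (N : Set X) := by
        rw [Subgroup.normalizer_eq_top]
        exact le_top
      have hAW : A ≤ Subgroup.normalizer ((N ⊔ U : Subgroup X) : Set X) :=
        le_normalizer_sup A N U hAN hAU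
      have hAU₁ : A ≤ Subgroup.normalizer ((K ⊓ (N ⊔ U) : Subgroup X) : Set X) :=
        le_normalizer_inf A K (N ⊔ U) hAK hAW
      have hWG : N ⊔ U ≤ G := sup_le hNG hUG
      have hsolvW : Group.IsSolvable (N ⊔ U : Subgroup X) :=
        Group.isSolvable_of_isSolvable_injective (f := Subgroup.inclusion hWG)
          (Subgroup.inclusion_injective hWG)
      obtain ⟨c, hc, hcU⟩ := inv_hall_conj A (N ⊔ U) hAW
        (hcop.coprime_dvd_right (Subgroup.card_dvd_of_le hWG)) hsolvW (Nat.card U) (Nat.card N)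
        (by rw [hWc, mul_comm]) hUN (K ⊓ (N ⊔ U)) U inf_le_right le_sup_right hU₁c rfl hAU₁ hAU
      obtain ⟨hcW, hcA⟩ := Subgroup.mem_inf.mp hc
      refine ⟨MulAut.conj c • K, ?_, ?_, ?_, ?_⟩
      · intro x hx
        rw [mem_conj_smul] at hx
        have h1 : c * (c⁻¹ * x * c) * c⁻¹ ∈ G :=
          G.mul_mem (G.mul_mem (hWG hcW) (hH₀G0 (hKH₀ hx))) (G.inv_mem (hWG hcW))
        have h2 : c * (c⁻¹ * x * c) * c⁻¹ = x := by group
        rwa [h2] at h1
      · rw [card_conj_smul, hKc]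
      · intro a ha
        rw [mem_normalizer_iff_conj_smul, conj_smul_smul]
        have h1 : a * c = c * a := (Subgroup.mem_centralizer_iff.mp hcA) a ha
        rw [h1, ← conj_smul_smul, mem_normalizer_iff_conj_smul.mp (hAK ha)]
      · rw [← hcU]
        intro x hx
        rw [mem_conj_smul] at hx ⊢
        exact (Subgroup.mem_inf.mp hx).1

/-- Dominance for invariant Hall subgroups. -/
theorem inv_hall_dom {X : Type u} [Group X] [Finite X] (A G U : Subgroup X)
    (hAG : A ≤ Subgroup.normalizer (G : Set X)) (hcop : (Nat.card A).Coprime (Nat.card G))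
    (hsolv : Group.IsSolvable G) (m n : ℕ) (hG : Nat.card G = m * n) (hmn : m.Coprime n)
    (hUG : U ≤ G) (hAU : A ≤ Subgroup.normalizer (U : Set X)) (hUn : (Nat.card U).Coprime n) :
    ∃ H : Subgroup X, H ≤ G ∧ Nat.card H = m ∧ A ≤ Subgroup.normalizer (H : Set X) ∧ U ≤ H := by
  have hGM : G ≤ Subgroup.normalizer (G : Set X) := Subgroup.le_normalizer
  haveI hGn : (G.subgroupOf (Subgroup.normalizer (G : Set X))).Normal :=
    Subgroup.normal_in_normalizer
  have hcG : Nat.card (G.subgroupOf (Subgroup.normalizer (G : Set X))) = Nat.card G :=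
    Nat.card_congr (Subgroup.subgroupOfEquivOfLe hGM).toEquiv
  have hcA : Nat.card (A.subgroupOf (Subgroup.normalizer (G : Set X))) = Nat.card A :=
    Nat.card_congr (Subgroup.subgroupOfEquivOfLe hAG).toEquiv
  have hcU : Nat.card (U.subgroupOf (Subgroup.normalizer (G : Set X))) = Nat.card U :=
    Nat.card_congr (Subgroup.subgroupOfEquivOfLe (hUG.trans hGM)).toEquiv
  have hsolv' : Group.IsSolvable (G.subgroupOf (Subgroup.normalizer (G : Set X))) :=
    Group.isSolvable_of_isSolvable_injective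
      (f := (Subgroup.subgroupOfEquivOfLe hGM).toMonoidHom)
      (Subgroup.subgroupOfEquivOfLe hGM).injective
  have hAU' : A.subgroupOf (Subgroup.normalizer (G : Set X)) ≤
      Subgroup.normalizer ((U.subgroupOf (Subgroup.normalizer (G : Set X)) :
        Subgroup (Subgroup.normalizer (G : Set X))) : Set (Subgroup.normalizer (G : Set X))) := by
    intro a ha
    rw [Subgroup.mem_normalizer_iff]
    intro y
    rw [Subgroup.mem_subgroupOf, Subgroup.mem_subgroupOf]
    exact Subgroup.mem_normalizer_iff.mp (hAU (Subgroup.mem_subgroupOf.mp ha)) (y : X)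
  have hUG' : U.subgroupOf (Subgroup.normalizer (G : Set X)) ≤
      G.subgroupOf (Subgroup.normalizer (G : Set X)) := by
    intro y hy
    exact Subgroup.mem_subgroupOf.mpr (hUG (Subgroup.mem_subgroupOf.mp hy))
  obtain ⟨H', hH'G, hH'c, hH'A, hH'U⟩ := inv_hall_dom_aux _ (Subgroup.normalizer (G : Set X))
    (A.subgroupOf _) (G.subgroupOf _) (U.subgroupOf _) rfl (by rw [hcA, hcG]; exact hcop) hsolv'
    m n (hcG.trans hG) hmn hUG' hAU' (by rw [hcU]; exact hUn)
  refine ⟨H'.map (Subgroup.normalizer (G : Set X)).subtype, ?_, ?_, ?_, ?_⟩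
  · rintro _ ⟨y, hy, rfl⟩
    exact Subgroup.mem_subgroupOf.mp (hH'G hy)
  · rw [Subgroup.card_subtype, hH'c]
  · intro a ha
    exact map_subtype_mem_normalizer _ H' ⟨a, hAG ha⟩ (hH'A (Subgroup.mem_subgroupOf.mpr ha))
  · intro u hu
    exact ⟨⟨u, hGM (hUG hu)⟩, hH'U (Subgroup.mem_subgroupOf.mpr hu), rfl⟩

/-- Coprime action on a solvable group and Hall subgroups. Let A and G be subgroups of a finite group with A normalizing G, the orders of A and G coprime, and G solvable, and let π be a set of primes. Then (a) G has an A-invariant Hall π-subgroup; (b) any two A-invariant Hall π-subgroups of G are conjugate by an element of C_G(A); (c) every A-invariant π-subgroup of G lies in an A-invariant Hall π-subgroup of G. -/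
theorem result {X : Type*} [Group X] [Finite X] (A G : Subgroup X) (hAG : A ≤ Subgroup.normalizer (G : Set X)) (hcop : (Nat.card A).Coprime (Nat.card G)) (hsolv : Group.IsSolvable G) (π : Set ℕ) : (∃ H : Subgroup X, Cfsg.IsPiHallOf π H G ∧ A ≤ Subgroup.normalizer (H : Set X)) ∧ (∀ H₁ H₂ : Subgroup X, Cfsg.IsPiHallOf π H₁ G → A ≤ Subgroup.normalizer (H₁ : Set X) → Cfsg.IsPiHallOf π H₂ G → A ≤ Subgroup.normalizer (H₂ : Set X) → ∃ c ∈ G ⊓ Subgroup.centralizer (A : Set X), H₂ = H₁.map (MulAut.conj c).toMonoidHom) ∧ (∀ U : Subgroup X, U ≤ G → A ≤ Subgroup.normalizer (U : Set X) → (∀ p : ℕ, p.Prime → p ∣ Nat.card U → p ∈ π) → ∃ H : Subgroup X, Cfsg.IsPiHallOf π H G ∧ A ≤ Subgroup.normalizer (H : Set X) ∧ U ≤ H) := by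
  obtain ⟨m, n, hG, hmn, hm, hn⟩ := pi_split π (Nat.card G) Nat.card_pos
  refine ⟨?_, ?_, ?_⟩
  · obtain ⟨Q, hQG, hQc, hAQ⟩ := inv_hall_exists A G hAG hcop hsolv m n hG hmn
    exact ⟨Q, (hall_iff π Q G m n hG hm hn).mpr ⟨hQG, hQc⟩, hAQ⟩
  · intro H₁ H₂ h1 hA1 h2 hA2
    obtain ⟨h1G, h1c⟩ := (hall_iff π H₁ G m n hG hm hn).mp h1
    obtain ⟨h2G, h2c⟩ := (hall_iff π H₂ G m n hG hm hn).mp h2
    obtain ⟨c, hc, hcc⟩ := inv_hall_conj A G hAG hcop hsolv m n hG hmn H₁ H₂ h1G h2G h1c h2c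
      hA1 hA2
    exact ⟨c, hc, by rw [← conj_smul_eq_map]; exact hcc.symm⟩
  · intro U hUG hAU hU
    obtain ⟨H, hHG, hHc, hAH, hUH⟩ := inv_hall_dom A G U hAG hcop hsolv m n hG hmn hUG hAU
      (coprime_of_primes π _ _ hU hn)
    exact ⟨H, (hall_iff π H G m n hG hm hn).mpr ⟨hHG, hHc⟩, hAH, hUH⟩

end Cfsg.Agent.S3745
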