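import Cfsg.Statements.S3746
-- import your own Cfsg.Agent.* helpers here
import Cfsg.Agent.Helper9.Misc1

set_option autoImplicit false
open Cfsg

namespace Cfsg.Agent.S3746

open Cfsg.Agent.Helper9

/-- Let Z ≤ Z(G) be a central subgroup of a finite group G and E a subgroup of G containing Z whose image E/Z is a component of G/Z (subnormal and quasisimple). Then the derived subgroup [E, E] is a component of G. -/
theorem result {G : Type*} [Group G] [Finite G] (Z : Subgroup G) (hZ : Z ≤ Subgroup.center G) [Z.Normal] (E : Subgroup G) (hZE : Z ≤ E) (hE : Cfsg.IsComponent (E.map (QuotientGroup.mk' Z))) : Cfsg.IsComponent ⁅E, E⁆ := by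
  classical
  obtain ⟨π, hπ⟩ : ∃ π : G →* G ⧸ Z, π = QuotientGroup.mk' Z := ⟨_, rfl⟩
  rw [← hπ] at hE
  have hker : π.ker = Z := by rw [hπ]; exact QuotientGroup.ker_mk' Z
  have hEsn : E.IsSubnormal := by
    have h1 := hE.1.comap π
    rwa [Subgroup.comap_map_eq_self (by rw [hker]; exact hZE)] at h1
  have hDsn : (⁅E, E⁆ : Subgroup G).IsSubnormal := commutator_subnormal hEsn
  have hmap : (⁅E, E⁆ : Subgroup G).map π = E.map π := by
    rw [Subgroup.map_commutator]; exact component_perfect hE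
  have hdecomp : ∀ e ∈ E, ∃ d ∈ (⁅E, E⁆ : Subgroup G), ∃ z ∈ Z, e = d * z := by
    intro e he
    have h1 : π e ∈ (⁅E, E⁆ : Subgroup G).map π := by
      rw [hmap]; exact Subgroup.mem_map_of_mem π he
    obtain ⟨d, hd, hde⟩ := h1
    refine ⟨d, hd, d⁻¹ * e, ?_, by group⟩
    rw [← hker, MonoidHom.mem_ker, map_mul, map_inv, hde, inv_mul_cancel]
  have hcomm : ∀ a b z w : G, z ∈ Subgroup.center G → w ∈ Subgroup.center G →
      a * z * (b * w) * (a * z)⁻¹ * (b * w)⁻¹ = a * b * a⁻¹ * b⁻¹ := by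
    intro a b z w hz hw
    have h1 : ∀ g : G, z * g = g * z := fun g => ((Subgroup.mem_center_iff.mp hz) g).symm
    have h2 : ∀ g : G, w * g = g * w := fun g => ((Subgroup.mem_center_iff.mp hw) g).symm
    calc a * z * (b * w) * (a * z)⁻¹ * (b * w)⁻¹
        = a * (z * b) * w * z⁻¹ * a⁻¹ * w⁻¹ * b⁻¹ := by group
      _ = a * (b * z) * w * z⁻¹ * a⁻¹ * w⁻¹ * b⁻¹ := by rw [h1 b]
      _ = a * b * (z * (w * z⁻¹)) * a⁻¹ * w⁻¹ * b⁻¹ := by group
      _ = a * b * ((w * z⁻¹) * z) * a⁻¹ * w⁻¹ * b⁻¹ := by rw [h1 (w * z⁻¹)]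
      _ = a * b * (w * a⁻¹) * w⁻¹ * b⁻¹ := by group
      _ = a * b * (a⁻¹ * w) * w⁻¹ * b⁻¹ := by rw [h2 a⁻¹]
      _ = a * b * a⁻¹ * b⁻¹ := by group
  have hperf : ⁅(⁅E, E⁆ : Subgroup G), (⁅E, E⁆ : Subgroup G)⁆ = ⁅E, E⁆ := by
    apply le_antisymm
    · rw [Subgroup.commutator_le]
      intro a ha b hb
      rw [commutatorElement_def]
      exact Subgroup.mul_mem _ (Subgroup.mul_mem _ (Subgroup.mul_mem _ ha hb)
        (Subgroup.inv_mem _ ha)) (Subgroup.inv_mem _ hb)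
    · rw [Subgroup.commutator_le]
      intro a ha b hb
      obtain ⟨d₁, hd₁, z₁, hz₁, rfl⟩ := hdecomp a ha
      obtain ⟨d₂, hd₂, z₂, hz₂, rfl⟩ := hdecomp b hb
      rw [commutatorElement_def, hcomm d₁ d₂ z₁ z₂ (hZ hz₁) (hZ hz₂), ← commutatorElement_def]
      exact Subgroup.commutator_mem_commutator hd₁ hd₂
  refine ⟨hDsn, ?_⟩
  have hq0 : Cfsg.IsQuasisimple ↥((⁅E, E⁆ : Subgroup G).map π) := by
    rw [hmap]; exact hE.2
  have hsurj : Function.Surjective (π.subgroupMap (⁅E, E⁆ : Subgroup G)) :=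
    MonoidHom.subgroupMap_surjective π _
  have hq1 : Cfsg.IsQuasisimple
      (↥(⁅E, E⁆ : Subgroup G) ⧸ (π.subgroupMap (⁅E, E⁆ : Subgroup G)).ker) :=
    quasi_of_mulEquiv (QuotientGroup.quotientKerEquivOfSurjective _ hsurj).symm hq0
  have hcen : (π.subgroupMap (⁅E, E⁆ : Subgroup G)).ker ≤
      Subgroup.center ↥(⁅E, E⁆ : Subgroup G) := by
    intro d hd
    rw [MonoidHom.mem_ker] at hd
    have h0 : π (d : G) = 1 := congrArg Subtype.val hd
    have hdZ : (d : G) ∈ Z := by rw [← hker]; exact h0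
    rw [Subgroup.mem_center_iff]
    intro a
    apply Subtype.ext
    exact Subgroup.mem_center_iff.mp (hZ hdZ) (a : G)
  exact quasi_of_central_quotient _ (Subgroup.isPerfect_iff.mpr hperf).commutator_eq_top hcen hq1

end Cfsg.Agent.S3746
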