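import Cfsg.Statements.S3748
import Mathlib
import Cfsg.Agent.Helper20.Wielandt
import Cfsg.Agent.Helper20.Norm
import Cfsg.Agent.Helper20.Subnormal

set_option autoImplicit false
open Cfsg

namespace Cfsg.Agent.S3748

open Cfsg.Agent.Helper20

/-- Call a proper subgroup M of G primitive when M = N_G(N) for every non-trivial normal subgroup N of M. If M is a primitive subgroup of the finite group G, then no non-trivial subnormal subgroup of G is contained in M; in particular M ∩ F(G) = 1. -/
theorem result {G : Type*} [Group G] [Finite G] (M : Subgroup G) (hM : M ≠ ⊤) (hprim : ∀ N : Subgroup G, N ≤ M → M ≤ Subgroup.normalizer (N : Set G) → N ≠ ⊥ → Subgroup.normalizer (N : Set G) = M) : (∀ L : Subgroup G, L.IsSubnormal → L ≤ M → L = ⊥) ∧ M ⊓ Cfsg.fittingSubgroup G = ⊥ := by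
  have hGtop : (⊤ : Subgroup G) ≠ ⊥ := by
    intro h
    apply hM
    rw [eq_top_iff, h]; exact bot_le
  constructor
  · intro L hL hLM
    by_contra hLbot
    let X : Subgroup G := ⨆ m : M, L.map (MulAut.conj (m : G)).toMonoidHom
    have hXM : X ≤ M := iSup_le (fun m => map_conj_le_of_mem L M m hLM m.2)
    have hLX : L ≤ X := by
      have := le_iSup (fun m : M => L.map (MulAut.conj (m : G)).toMonoidHom) (1 : M)
      have h1 : L.map (MulAut.conj (((1 : M) : G))).toMonoidHom = L := map_conj_one L
      rw [← h1]
      exact this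
    have hXbot : X ≠ ⊥ := fun h => hLbot (by rw [eq_bot_iff, ← h]; exact hLX)
    have hMX : M ≤ Subgroup.normalizer (X : Set G) := by
      apply le_normalizer_of_forall_conj_mem
      intro m hm y hy
      have h1 : X.map (MulAut.conj m).toMonoidHom ≤ X := by
        show (⨆ m' : M, L.map (MulAut.conj (m' : G)).toMonoidHom).map
          (MulAut.conj m).toMonoidHom ≤ X
        rw [Subgroup.map_iSup]
        apply iSup_le
        intro m'
        rw [map_conj_mul]
        exact le_iSup (fun m : M => L.map (MulAut.conj (m : G)).toMonoidHom) (⟨m, hm⟩ * m')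
      exact h1 (conj_mem_map_conj X m y hy)
    have hNX : Subgroup.normalizer (X : Set G) = M := hprim X hXM hMX hXbot
    obtain ⟨N₀, -, hN₀n, hN₀bot, hmin⟩ :=
      exists_minNormal_le (⊤ : Subgroup G) inferInstance hGtop
    have hN₀X : N₀ ≤ Subgroup.normalizer (X : Set G) := by
      intro x hx
      apply mem_normalizer_of_map_conj_eq
      show (⨆ m' : M, L.map (MulAut.conj (m' : G)).toMonoidHom).map
        (MulAut.conj x).toMonoidHom = X
      rw [Subgroup.map_iSup]
      apply iSup_congr
      intro m'
      apply map_conj_eq_of_mem_normalizer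
      apply minNormal_le_normalizer_subnormal N₀ hN₀n hN₀bot hmin _ _ hx
      exact hL.map (MulAut.conj (m' : G)).surjective
    have hN₀M : N₀ ≤ M := hNX ▸ hN₀X
    have h3 := hprim N₀ hN₀M (by rw [Subgroup.normalizer_eq_top]; exact le_top) hN₀bot
    rw [Subgroup.normalizer_eq_top] at h3
    exact hM h3.symm
  · by_contra hXbot
    have hFn : (Cfsg.fittingSubgroup G).Normal := Cfsg.Agent.Helper9.fitting_normal
    have hXM : M ⊓ Cfsg.fittingSubgroup G ≤ M := inf_le_left
    have hMX : M ≤ Subgroup.normalizer ((M ⊓ Cfsg.fittingSubgroup G : Subgroup G) : Set G) :=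
      le_normalizer_inf M M (Cfsg.fittingSubgroup G) Subgroup.le_normalizer
        (by rw [Subgroup.normalizer_eq_top]; exact le_top)
    have hNX := hprim (M ⊓ Cfsg.fittingSubgroup G) hXM hMX hXbot
    have hFnil : Group.IsNilpotent (Cfsg.fittingSubgroup G) :=
      Cfsg.Agent.Helper9.fitting_nilpotent
    have hnc := Group.normalizerCondition_of_isNilpotent (G := Cfsg.fittingSubgroup G)
    have hFM : Cfsg.fittingSubgroup G ≤ M := by
      by_contra hFM
      have hlt : (M ⊓ Cfsg.fittingSubgroup G).subgroupOf (Cfsg.fittingSubgroup G) < ⊤ := by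
        rw [lt_top_iff_ne_top]
        intro h
        rw [Subgroup.subgroupOf_eq_top] at h
        exact hFM (h.trans inf_le_left)
      have h1 := hnc _ hlt
      obtain ⟨f, hf1, hf2⟩ := SetLike.exists_of_lt h1
      have h2 : (f : G) ∈ Subgroup.normalizer
          ((M ⊓ Cfsg.fittingSubgroup G : Subgroup G) : Set G) :=
        coe_mem_normalizer_of_subgroupOf inf_le_right f hf1
      rw [hNX] at h2
      exact hf2 (Subgroup.mem_subgroupOf.2 ⟨h2, f.2⟩)
    have hFbot : Cfsg.fittingSubgroup G ≠ ⊥ := fun h => hXbot (by rw [h]; simp)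
    have h3 := hprim (Cfsg.fittingSubgroup G) hFM
      (by rw [Subgroup.normalizer_eq_top]; exact le_top) hFbot
    rw [Subgroup.normalizer_eq_top] at h3
    exact hM h3.symm

end Cfsg.Agent.S3748
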