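import Cfsg.Statements.S3749
import Mathlib
import Cfsg.Agent.Helper1.Coprime3
import Cfsg.Agent.Helper4.Subnormal
import Cfsg.Agent.Helper17.CharP
import Cfsg.Agent.Helper20.Conj
import Cfsg.Agent.Helper20.SylowAux
import Cfsg.Agent.Helper20.Subnormal
import Cfsg.Agent.Helper20.PCentral

set_option autoImplicit false
open Cfsg

namespace Cfsg.Agent.S3749

/-- Call a proper subgroup M of G primitive when M = N_G(N) for every non-trivial normal subgroup N of M. Let M be a primitive subgroup of the finite group G, p a prime with O_p(M) ≠ 1, and N a normal subgroup of G with M ∩ N = 1. Then p does not divide the order of N; for every prime q there is exactly one Sylow q-subgroup of N normalized by M; and if the order of N has at least two prime divisors then M is not a maximal subgroup of G. -/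
theorem result {G : Type*} [Group G] [Finite G] (M : Subgroup G) (hM : M ≠ ⊤) (hprim : ∀ N : Subgroup G, N ≤ M → M ≤ Subgroup.normalizer (N : Set G) → N ≠ ⊥ → Subgroup.normalizer (N : Set G) = M) {p : ℕ} [Fact p.Prime] (hOp : Cfsg.pCore p ↥M ≠ ⊥) (N : Subgroup G) [N.Normal] (hMN : M ⊓ N = ⊥) : ¬ p ∣ Nat.card N ∧ (∀ q : ℕ, [Fact q.Prime] → ∃! Q : Sylow q ↥N, M ≤ Subgroup.normalizer ((Q : Subgroup ↥N).map N.subtype : Set G)) ∧ ((∃ q r : ℕ, q.Prime ∧ r.Prime ∧ q ≠ r ∧ q ∣ Nat.card N ∧ r ∣ Nat.card N) → ¬ IsCoatom M) := by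
  classical
  have hp := (Fact.out : p.Prime)
  obtain ⟨P₀, hP₀def⟩ : ∃ P₀ : Subgroup G, P₀ = Cfsg.Agent.Helper17.pc p M := ⟨_, rfl⟩
  have hP₀M : P₀ ≤ M := by
    rw [hP₀def]
    exact Cfsg.Agent.Helper17.pc_le M
  have hP₀p : IsPGroup p ↥P₀ := by
    rw [hP₀def]
    exact Cfsg.Agent.Helper17.pc_isPGroup M
  have hMP₀ : M ≤ Subgroup.normalizer (P₀ : Set G) := by
    rw [hP₀def]
    exact Cfsg.Agent.Helper17.le_normalizer_pc M
  have hP₀bot : P₀ ≠ ⊥ := by
    rw [hP₀def]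
    intro h
    apply hOp
    exact (Subgroup.map_eq_bot_iff_of_injective _ M.subtype_injective).1 h
  have hNP₀ : Subgroup.normalizer (P₀ : Set G) = M := hprim P₀ hP₀M hMP₀ hP₀bot
  have hcent : ∀ z ∈ N, (∀ y ∈ P₀, z * y = y * z) → z = 1 := by
    intro z hzN hz
    have hzM : z ∈ M := by
      rw [← hNP₀, Subgroup.mem_normalizer_iff]
      intro y
      constructor
      · intro hy
        rw [hz y hy, mul_inv_cancel_right]
        exact hy
      · intro hy
        have h1 := hz _ hy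
        have h2 : z * y * z⁻¹ = y := by
          have h3 : z * (z * y * z⁻¹) = z * y := by
            rw [h1]
            group
          exact mul_left_cancel h3
        rw [h2] at hy
        exact hy
    have h4 : z ∈ M ⊓ N := ⟨hzM, hzN⟩
    rw [hMN] at h4
    exact Subgroup.mem_bot.1 h4
  have h1 : ¬ p ∣ Nat.card N := by
    intro hdvd
    obtain ⟨S, hS⟩ := hP₀p.exists_le_sylow
    have hD : (S : Subgroup G) ⊓ N ≠ ⊥ := by
      intro hbot
      have h2 := Cfsg.Agent.Helper20.card_mul_relIndex_of_le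
        (inf_le_right : (S : Subgroup G) ⊓ N ≤ N)
      rw [Subgroup.inf_relIndex_right, hbot, Subgroup.card_bot, one_mul] at h2
      have h3 := Cfsg.Agent.Helper4.relIndex_dvd_index_of_normal_right (S : Subgroup G) N
      rw [h2] at h3
      exact S.not_dvd_index (hdvd.trans h3)
    obtain ⟨x, hx, hx1⟩ : ∃ x ∈ (S : Subgroup G) ⊓ N, x ≠ 1 := by
      by_contra h
      apply hD
      rw [eq_bot_iff]
      intro x hx
      rw [Subgroup.mem_bot]
      exact Classical.by_contradiction fun h1 => h ⟨x, hx, h1⟩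
    have hN'bot : N.subgroupOf (S : Subgroup G) ≠ ⊥ := by
      intro h
      have h2 : (⟨x, hx.1⟩ : ↥(S : Subgroup G)) ∈ N.subgroupOf (S : Subgroup G) :=
        Subgroup.mem_subgroupOf.2 hx.2
      rw [h, Subgroup.mem_bot] at h2
      exact hx1 (congrArg Subtype.val h2)
    obtain ⟨z, hzN', hz1, hzc⟩ := Cfsg.Agent.Helper20.exists_central_mem_of_normal S.isPGroup'
      (N.subgroupOf (S : Subgroup G)) hN'bot
    apply hz1
    apply Subtype.ext
    apply hcent (z : G) (Subgroup.mem_subgroupOf.1 hzN')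
    intro y hy
    rw [Subgroup.mem_center_iff] at hzc
    have h2 := hzc ⟨y, hS hy⟩
    exact (congrArg Subtype.val h2).symm
  have hcop : (Nat.card ↥P₀).Coprime (Nat.card ↥N) := by
    obtain ⟨n, hn⟩ := (IsPGroup.iff_card).1 hP₀p
    rw [hn]
    exact Nat.Coprime.pow_left n ((Nat.Prime.coprime_iff_not_dvd hp).2 h1)
  have hP₀N : P₀ ≤ Subgroup.normalizer (N : Set G) := by
    rw [Subgroup.normalizer_eq_top]
    exact le_top
  have hP₀solv : Group.IsSolvable ↥P₀ := by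
    haveI : Group.IsNilpotent ↥P₀ := hP₀p.isNilpotent
    infer_instance
  have huniq : ∀ (q : ℕ) [Fact q.Prime] (Q₁ Q₂ : Subgroup G), Q₁ ≤ N → Q₂ ≤ N →
      Nat.card ↥Q₁ = q ^ (Nat.card ↥N).factorization q →
      Nat.card ↥Q₂ = q ^ (Nat.card ↥N).factorization q →
      P₀ ≤ Subgroup.normalizer (Q₁ : Set G) → P₀ ≤ Subgroup.normalizer (Q₂ : Set G) →
      Q₁ = Q₂ := by
    intro q _ Q₁ Q₂ hQ₁N hQ₂N hc₁ hc₂ hn₁ hn₂
    have hq := (Fact.out : q.Prime)
    have hQ₁q : IsPGroup q ↥Q₁ := IsPGroup.of_card hc₁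
    have hQ₂q : IsPGroup q ↥Q₂ := IsPGroup.of_card hc₂
    have hidx : ¬ q ∣ Q₁.relIndex N := by
      intro hdvd
      have h2 := Cfsg.Agent.Helper20.card_mul_relIndex_of_le hQ₁N
      have h3 : q ^ ((Nat.card ↥N).factorization q + 1) ∣ Nat.card ↥N := by
        rw [pow_succ]
        have h5 : q ^ (Nat.card ↥N).factorization q * q ∣ Nat.card ↥Q₁ * Q₁.relIndex N := by
          rw [hc₁]
          exact Nat.mul_dvd_mul_left _ hdvd
        rw [h2] at h5
        exact h5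
      exact Nat.pow_succ_factorization_not_dvd Nat.card_pos.ne' hq h3
    obtain ⟨g, hgN, hg⟩ := Cfsg.Agent.Helper20.exists_conj_eq_of_isPGroup N Q₁ Q₂ hQ₁q hQ₁N hQ₂N
      hQ₂q (by rw [hc₁, hc₂]) hidx
    have hAD : P₀ ≤ Subgroup.normalizer
        ((N ⊓ Subgroup.normalizer (Q₁ : Set G) : Subgroup G) : Set G) :=
      Cfsg.Agent.Helper1.le_normalizer_inf_normalizer P₀ N Q₁ hP₀N hn₁
    have e2 : Q₁.map (MulAut.conj g).toMonoidHom = Q₂ := hg.symm
    have e4 : Q₂.map (MulAut.conj g⁻¹).toMonoidHom = Q₁ :=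
      Cfsg.Agent.Helper20.map_conj_inv_eq Q₁ Q₂ g e2
    have hcond : ∀ a ∈ P₀, g⁻¹ * a * g * a⁻¹ ∈ N ⊓ Subgroup.normalizer (Q₁ : Set G) := by
      intro a ha
      refine ⟨?_, ?_⟩
      · have h2 : a * g * a⁻¹ ∈ N := Subgroup.Normal.conj_mem inferInstance g hgN a
        have h3 := N.mul_mem (N.inv_mem hgN) h2
        have h4 : g⁻¹ * (a * g * a⁻¹) = g⁻¹ * a * g * a⁻¹ := by group
        rw [h4] at h3
        exact h3
      · have e1 : Q₁.map (MulAut.conj a⁻¹).toMonoidHom = Q₁ :=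
          Cfsg.Agent.Helper20.map_conj_eq_of_mem_normalizer Q₁ a⁻¹
            (Subgroup.inv_mem _ (hn₁ ha))
        have e3 : Q₂.map (MulAut.conj a).toMonoidHom = Q₂ :=
          Cfsg.Agent.Helper20.map_conj_eq_of_mem_normalizer Q₂ a (hn₂ ha)
        show g⁻¹ * a * g * a⁻¹ ∈ Subgroup.normalizer (Q₁ : Set G)
        rw [Cfsg.Agent.Helper20.mem_normalizer_iff_map_conj,
          ← Cfsg.Agent.Helper20.map_conj_mul Q₁ (g⁻¹ * a * g) a⁻¹, e1,
          ← Cfsg.Agent.Helper20.map_conj_mul Q₁ (g⁻¹ * a) g, e2,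
          ← Cfsg.Agent.Helper20.map_conj_mul Q₂ g⁻¹ a, e3, e4]
    obtain ⟨d, hd, hgd⟩ := Cfsg.Agent.Helper1.coprime_coset_fixed P₀ N
      (N ⊓ Subgroup.normalizer (Q₁ : Set G)) hP₀N hAD inf_le_left hcop (Or.inl hP₀solv) g hgN hcond
    have hgd1 : g * d = 1 := by
      apply hcent (g * d) (N.mul_mem hgN hd.1)
      intro y hy
      rw [Subgroup.mem_centralizer_iff] at hgd
      exact (hgd y hy).symm
    have hg' : g = d⁻¹ := eq_inv_of_mul_eq_one_left hgd1
    have hgn : g ∈ Subgroup.normalizer (Q₁ : Set G) := by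
      rw [hg']
      exact Subgroup.inv_mem _ hd.2
    rw [← e2, Cfsg.Agent.Helper20.map_conj_eq_of_mem_normalizer Q₁ g hgn]
  have hex : ∀ (q : ℕ) [Fact q.Prime], ∃ Q₀ : Subgroup G, Q₀ ≤ N ∧
      Nat.card ↥Q₀ = q ^ (Nat.card ↥N).factorization q ∧
      M ≤ Subgroup.normalizer (Q₀ : Set G) := by
    intro q _
    obtain ⟨Q₀, hQ₀N, hQ₀c, hQ₀n⟩ :=
      Cfsg.Agent.Helper1.inv_sylow_exists P₀ N hP₀N hcop (Or.inl hP₀solv) q
    refine ⟨Q₀, hQ₀N, hQ₀c, ?_⟩
    intro m hm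
    rw [Cfsg.Agent.Helper20.mem_normalizer_iff_map_conj]
    symm
    apply huniq q Q₀ (Q₀.map (MulAut.conj m).toMonoidHom) hQ₀N ?_ hQ₀c ?_ hQ₀n ?_
    · rintro _ ⟨k, hk, rfl⟩
      exact Subgroup.Normal.conj_mem inferInstance k (hQ₀N hk) m
    · rw [Cfsg.Agent.Helper20.card_map_conj]
      exact hQ₀c
    · intro a ha
      rw [Cfsg.Agent.Helper20.mem_normalizer_iff_map_conj, Cfsg.Agent.Helper20.map_conj_mul]
      have hb : m⁻¹ * a * m ∈ P₀ := by
        have h2 := (Subgroup.mem_normalizer_iff.1 (hMP₀ (M.inv_mem hm)) a).1 ha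
        rw [inv_inv] at h2
        exact h2
      have h3 : a * m = m * (m⁻¹ * a * m) := by group
      rw [h3, ← Cfsg.Agent.Helper20.map_conj_mul,
        Cfsg.Agent.Helper20.map_conj_eq_of_mem_normalizer Q₀ _ (hQ₀n hb)]
  have h2 : ∀ q : ℕ, [Fact q.Prime] → ∃! Q : Sylow q ↥N,
      M ≤ Subgroup.normalizer (((Q : Subgroup ↥N).map N.subtype : Subgroup G) : Set G) := by
    intro q _
    obtain ⟨Q₀, hQ₀N, hQ₀c, hQ₀M⟩ := hex q
    have hc' : Nat.card ↥(Q₀.subgroupOf N) = q ^ (Nat.card ↥N).factorization q := by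
      rw [Nat.card_congr (Subgroup.subgroupOfEquivOfLe hQ₀N).toEquiv]
      exact hQ₀c
    have hmap : ((Sylow.ofCard (Q₀.subgroupOf N) hc' : Sylow q ↥N) : Subgroup ↥N).map N.subtype
        = Q₀ := by
      rw [Sylow.coe_ofCard, Subgroup.subgroupOf_map_subtype, inf_eq_left.2 hQ₀N]
    refine ⟨Sylow.ofCard (Q₀.subgroupOf N) hc', ?_, ?_⟩
    · show M ≤ Subgroup.normalizer ((((Sylow.ofCard (Q₀.subgroupOf N) hc' : Sylow q ↥N) :
        Subgroup ↥N).map N.subtype : Subgroup G) : Set G)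
      rw [hmap]
      exact hQ₀M
    · intro Q' hQ'
      apply Sylow.ext
      have hQ'card : Nat.card ↥((Q' : Subgroup ↥N).map N.subtype) =
          q ^ (Nat.card ↥N).factorization q := by
        rw [Subgroup.card_subtype]
        exact Q'.card_eq_multiplicity
      have heq := huniq q _ Q₀ (Subgroup.map_subtype_le _) hQ₀N hQ'card hQ₀c (hP₀M.trans hQ')
        (hP₀M.trans hQ₀M)
      rw [Sylow.coe_ofCard, ← heq]
      exact (Subgroup.comap_map_eq_self_of_injective N.subtype_injective _).symm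
  have h3 : (∃ q r : ℕ, q.Prime ∧ r.Prime ∧ q ≠ r ∧ q ∣ Nat.card N ∧ r ∣ Nat.card N) →
      ¬ IsCoatom M := by
    rintro ⟨q, r, hq, hr, hqr, hqN, hrN⟩ hco
    haveI : Fact q.Prime := ⟨hq⟩
    obtain ⟨Q₀, hQ₀N, hQ₀c, hQ₀M⟩ := hex q
    have hfpos : 1 ≤ (Nat.card ↥N).factorization q :=
      (hq.pow_dvd_iff_le_factorization Nat.card_pos.ne').1 (by rw [pow_one]; exact hqN)
    have hQ₀bot : Q₀ ≠ ⊥ := by
      intro h
      rw [h, Subgroup.card_bot] at hQ₀c
      have h4 : 1 < q ^ (Nat.card ↥N).factorization q := Nat.one_lt_pow (by omega) hq.one_lt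
      omega
    have hlt : M < M ⊔ Q₀ := by
      refine lt_of_le_of_ne le_sup_left ?_
      intro h
      apply hQ₀bot
      have hQM : Q₀ ≤ M := by
        rw [h]
        exact le_sup_right
      rw [eq_bot_iff, ← hMN]
      exact le_inf hQM hQ₀N
    have htop := hco.2 _ hlt
    have hNQ : N ≤ Q₀ := by
      intro n hn
      have hn' : n ∈ Q₀ ⊔ M := by
        rw [sup_comm, htop]
        exact Subgroup.mem_top n
      obtain ⟨l, hl, m, hm, rfl⟩ := Cfsg.Agent.Helper20.mem_sup_of_le_normalizer Q₀ M hQ₀M n hn'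
      have hmN : m ∈ N := by
        have h4 := N.mul_mem (N.inv_mem (hQ₀N hl)) hn
        rwa [inv_mul_cancel_left] at h4
      have hm1 : m ∈ M ⊓ N := ⟨hm, hmN⟩
      rw [hMN, Subgroup.mem_bot] at hm1
      rw [hm1, mul_one]
      exact hl
    have hcardN : Nat.card ↥N = q ^ (Nat.card ↥N).factorization q := by
      rw [← hQ₀c]
      exact congrArg (fun K : Subgroup G => Nat.card ↥K) (le_antisymm hNQ hQ₀N)
    have hrdvd : r ∣ q ^ (Nat.card ↥N).factorization q := by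
      rw [← hcardN]
      exact hrN
    exact hqr ((Nat.prime_dvd_prime_iff_eq hr hq).1 (hr.dvd_of_dvd_pow hrdvd)).symm
  exact ⟨h1, h2, h3⟩

end Cfsg.Agent.S3749
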