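import Cfsg.Statements.S3750
-- import your own Cfsg.Agent.* helpers here
import Cfsg.Agent.Helper9.FStar
import Cfsg.Agent.Helper9.Comp
import Cfsg.Agent.Helper9.Layer
import Cfsg.Agent.Helper9.Fitting

set_option autoImplicit false
open Cfsg

namespace Cfsg.Agent.S3750

open Cfsg.Agent.Helper9

/-- Call a proper subgroup M of G primitive when M = N_G(N) for every non-trivial normal subgroup N of M. Let M be a primitive subgroup of the finite group G and N a normal subgroup of G with M ∩ F*(N) ≠ 1. Then F(G) = 1 and F*(N) = F*(G) = E(G); in particular every minimal normal subgroup of G is contained in N. -/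
theorem result {G : Type*} [Group G] [Finite G] (M : Subgroup G) (hM : M ≠ ⊤) (hprim : ∀ N : Subgroup G, N ≤ M → M ≤ Subgroup.normalizer (N : Set G) → N ≠ ⊥ → Subgroup.normalizer (N : Set G) = M) (N : Subgroup G) [N.Normal] (hMF : M ⊓ (Cfsg.generalizedFittingSubgroup ↥N).map N.subtype ≠ ⊥) : Cfsg.fittingSubgroup G = ⊥ ∧ (Cfsg.generalizedFittingSubgroup ↥N).map N.subtype = Cfsg.generalizedFittingSubgroup G ∧ Cfsg.generalizedFittingSubgroup G = Cfsg.layer G ∧ ∀ K : Subgroup G, K.Normal → K ≠ ⊥ → (∀ K' : Subgroup G, K'.Normal → K' ≤ K → K' = ⊥ ∨ K' = K) → K ≤ N := by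
  classical
  obtain ⟨FN, hFN⟩ : ∃ FN, FN = (Cfsg.generalizedFittingSubgroup ↥N).map N.subtype := ⟨_, rfl⟩
  rw [← hFN] at hMF ⊢
  have hNn : N.Normal := inferInstance
  have hFNn : FN.Normal := by rw [hFN]; exact char_map_normal N _
  have hFNle : FN ≤ N := by rw [hFN]; exact Subgroup.map_subtype_le _
  have hC : Subgroup.centralizer (FN : Set G) = ⊥ := by
    by_contra hne
    haveI := hFNn
    have hCn : (Subgroup.centralizer (FN : Set G)).Normal := inferInstance
    have hX : Subgroup.normalizer ((M ⊓ FN : Subgroup G) : Set G) = M := by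
      apply hprim _ inf_le_left _ hMF
      intro m hm
      rw [Subgroup.mem_normalizer_iff]
      intro x
      constructor
      · rintro ⟨h1, h2⟩
        exact ⟨M.mul_mem (M.mul_mem hm h1) (M.inv_mem hm), hFNn.conj_mem x h2 m⟩
      · rintro ⟨h1, h2⟩
        refine ⟨?_, ?_⟩
        · have h3 := M.mul_mem (M.mul_mem (M.inv_mem hm) h1) hm
          have h4 : m⁻¹ * (m * x * m⁻¹) * m = x := by group
          rw [h4] at h3; exact h3
        · have h3 := hFNn.conj_mem _ h2 m⁻¹
          have h4 : m⁻¹ * (m * x * m⁻¹) * m⁻¹⁻¹ = x := by group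
          rw [h4] at h3; exact h3
    have hCM : Subgroup.centralizer (FN : Set G) ≤ M := by
      rw [← hX]
      refine le_trans (Subgroup.centralizer_le ?_) (Subgroup.centralizer_le_normalizer _)
      intro y hy
      exact hy.2
    have h2 := hprim _ hCM (by rw [Subgroup.normalizer_eq_top]; exact le_top) hne
    rw [Subgroup.normalizer_eq_top] at h2
    exact hM h2.symm
  have hFitN : Cfsg.fittingSubgroup ↥N = ⊥ := by
    haveI hnil : Group.IsNilpotent ↥(Cfsg.fittingSubgroup ↥N) := fitting_nilpotent
    by_contra hne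
    haveI : Nontrivial ↥(Cfsg.fittingSubgroup ↥N) := (Subgroup.nontrivial_iff_ne_bot _).mpr hne
    have hcen := Group.IsNilpotent.center_ne_bot (G := ↥(Cfsg.fittingSubgroup ↥N))
    apply hcen
    rw [eq_bot_iff]
    intro z hz
    rw [Subgroup.mem_bot]
    have hzc : ((z : ↥N) : G) ∈ Subgroup.centralizer (FN : Set G) := by
      rw [Subgroup.mem_centralizer_iff]
      intro y hy
      rw [hFN] at hy
      obtain ⟨y', hy', rfl⟩ := hy
      have hle : Cfsg.generalizedFittingSubgroup ↥N ≤ Subgroup.centralizer ({(z : ↥N)} : Set ↥N) := by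
        show Cfsg.layer ↥N ⊔ Cfsg.fittingSubgroup ↥N ≤ _
        apply sup_le
        · intro e he
          rw [Subgroup.mem_centralizer_iff]
          intro w hw
          rw [Set.mem_singleton_iff] at hw
          rw [hw]
          exact ((comm_eq_bot_iff _ _).mp layer_comm_fitting e he (z : ↥N) z.2).symm
        · intro f hf
          rw [Subgroup.mem_centralizer_iff]
          intro w hw
          rw [Set.mem_singleton_iff] at hw
          rw [hw]
          have h5 := (Subgroup.mem_center_iff.mp hz) ⟨f, hf⟩
          have h6 := congrArg Subtype.val h5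
          exact h6.symm
      have h7 := (Subgroup.mem_centralizer_iff.mp (hle hy')) (z : ↥N) (Set.mem_singleton _)
      have h8 := congrArg Subtype.val h7
      exact h8.symm
    rw [hC, Subgroup.mem_bot] at hzc
    apply Subtype.ext
    apply Subtype.ext
    exact hzc
  have hFitG : Cfsg.fittingSubgroup G = ⊥ := by
    haveI hFn : (Cfsg.fittingSubgroup G).Normal := fitting_normal
    have h1 : Cfsg.fittingSubgroup G ⊓ N = ⊥ := by
      have h2 : Cfsg.fittingSubgroup G ⊓ N ≤ (Cfsg.fittingSubgroup ↥N).map N.subtype := by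
        apply le_fitOf inf_le_right
        · have : (Cfsg.fittingSubgroup G ⊓ N).Normal := inferInstance
          exact Subgroup.le_normalizer_of_normal
        · haveI := fitting_nilpotent (G := G)
          exact Group.nilpotent_of_mulEquiv (Subgroup.subgroupOfEquivOfLe
            (inf_le_left : Cfsg.fittingSubgroup G ⊓ N ≤ Cfsg.fittingSubgroup G))
      rw [hFitN, Subgroup.map_bot] at h2
      exact eq_bot_iff.mpr h2
    have h3 : ⁅Cfsg.fittingSubgroup G, N⁆ = ⊥ := by
      rw [eq_bot_iff, ← h1]
      exact Subgroup.commutator_le_inf _ _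
    rw [eq_bot_iff, ← hC]
    intro f hf
    rw [Subgroup.mem_centralizer_iff]
    intro y hy
    exact ((comm_eq_bot_iff _ _).mp h3 f hf y (hFNle hy)).symm
  have hc : Cfsg.generalizedFittingSubgroup G = Cfsg.layer G := by
    show Cfsg.layer G ⊔ Cfsg.fittingSubgroup G = Cfsg.layer G
    rw [hFitG, sup_bot_eq]
  have hFN' : FN = (Cfsg.layer ↥N).map N.subtype := by
    rw [hFN]
    show (Cfsg.layer ↥N ⊔ Cfsg.fittingSubgroup ↥N).map N.subtype = _
    rw [hFitN, sup_bot_eq]
  have hNsub : N.IsSubnormal := hNn.isSubnormal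
  have hb : FN = Cfsg.generalizedFittingSubgroup G := by
    rw [hc]
    apply le_antisymm
    · rw [hFN']; exact layerOf_le_layer N hNsub
    · apply sSup_le
      intro K hK
      rcases component_dichotomy K N hK hNsub with h | h
      · rw [hFN', ← Subgroup.map_subgroupOf_eq_of_le h]
        exact Subgroup.map_mono (le_layer (component_subgroupOf hK h))
      · exfalso
        have hK1 : K ≠ ⊥ := by
          haveI := quasi_nontrivial hK.2
          exact (Subgroup.nontrivial_iff_ne_bot K).mp inferInstance
        apply hK1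
        rw [eq_bot_iff, ← hC]
        intro k hk
        rw [Subgroup.mem_centralizer_iff]
        intro y hy
        exact ((comm_eq_bot_iff _ _).mp h k hk y (hFNle hy)).symm
  refine ⟨hFitG, hb, hc, ?_⟩
  intro K hKn hK1 hKmin
  haveI := hKn
  haveI hFsn : (Cfsg.generalizedFittingSubgroup G).Normal := genFitting_normal
  rcases hKmin (K ⊓ Cfsg.generalizedFittingSubgroup G) inferInstance inf_le_left with h | h
  · exfalso
    have h3 : ⁅K, Cfsg.generalizedFittingSubgroup G⁆ = ⊥ := by
      rw [eq_bot_iff, ← h]; exact Subgroup.commutator_le_inf _ _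
    have h4 : K ≤ Cfsg.generalizedFittingSubgroup G := by
      refine le_trans ?_ centralizer_genFitting_le
      intro k hk
      rw [Subgroup.mem_centralizer_iff]
      intro y hy
      exact ((comm_eq_bot_iff _ _).mp h3 k hk y hy).symm
    apply hK1
    rw [← h]; exact (inf_eq_left.mpr h4).symm
  · have h5 : K ≤ Cfsg.generalizedFittingSubgroup G := inf_eq_left.mp h
    rw [← hb] at h5
    exact h5.trans hFNle

end Cfsg.Agent.S3750
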