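import Cfsg.Statements.S3760
import Mathlib

set_option autoImplicit false
open Cfsg

namespace Cfsg.Agent.S3760

theorem mem_map_conj {G : Type*} [Group G] (K : Subgroup G) (g y : G) :
    y ∈ K.map (MulAut.conj g).toMonoidHom ↔ g⁻¹ * y * g ∈ K := by
  constructor
  · rintro ⟨k, hk, rfl⟩
    have : g⁻¹ * ((MulAut.conj g).toMonoidHom k) * g = k := by
      simp [MulAut.conj_apply, mul_assoc]
    rw [this]; exact hk
  · intro h
    refine ⟨g⁻¹ * y * g, h, ?_⟩
    simp [MulAut.conj_apply, mul_assoc]

theorem map_conj_mul {G : Type*} [Group G] (K : Subgroup G) (g h : G) :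
    (K.map (MulAut.conj h).toMonoidHom).map (MulAut.conj g).toMonoidHom
      = K.map (MulAut.conj (g * h)).toMonoidHom := by
  ext y
  rw [mem_map_conj, mem_map_conj, mem_map_conj]
  have : h⁻¹ * (g⁻¹ * y * g) * h = (g * h)⁻¹ * y * (g * h) := by group
  rw [this]

theorem map_conj_one {G : Type*} [Group G] (K : Subgroup G) :
    K.map (MulAut.conj (1 : G)).toMonoidHom = K := by
  ext y
  simp [mem_map_conj]

theorem mem_normalizer_of_map_conj_eq {G : Type*} [Group G] (K : Subgroup G) (g : G)
    (h : K.map (MulAut.conj g).toMonoidHom = K) : g ∈ Subgroup.normalizer (K : Set G) := by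
  rw [Subgroup.mem_normalizer_iff'']
  intro y
  rw [← mem_map_conj, h]

theorem map_conj_eq_of_mem_normalizer {G : Type*} [Group G] (K : Subgroup G) (g : G)
    (h : g ∈ Subgroup.normalizer (K : Set G)) : K.map (MulAut.conj g).toMonoidHom = K := by
  ext y
  rw [mem_map_conj]
  rw [Subgroup.mem_normalizer_iff''] at h
  exact (h y).symm

/-- Let the group G act transitively on a set X, let x ∈ X with stabilizer H = G_x, and let K ≤ H. Then N_G(K) acts transitively on the set of fixed points of K if and only if every G-conjugate of K contained in H is already an H-conjugate of K. -/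
theorem result {G : Type*} [Group G] {X : Type*} [MulAction G X] (htrans : ∀ a b : X, ∃ g : G, g • a = b) (x : X) (K : Subgroup G) (hK : K ≤ MulAction.stabilizer G x) : (∀ a b : X, (∀ k ∈ K, k • a = a) → (∀ k ∈ K, k • b = b) → ∃ g ∈ Subgroup.normalizer (K : Set G), g • a = b) ↔ ∀ g : G, K.map (MulAut.conj g).toMonoidHom ≤ MulAction.stabilizer G x → ∃ h ∈ MulAction.stabilizer G x, K.map (MulAut.conj g).toMonoidHom = K.map (MulAut.conj h).toMonoidHom := by
  constructor
  · intro hN g hg
    have hfix1 : ∀ k ∈ K, k • (g⁻¹ • x) = g⁻¹ • x := by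
      intro k hk
      have hmem : g * k * g⁻¹ ∈ K.map (MulAut.conj g).toMonoidHom := by
        rw [mem_map_conj]
        have : g⁻¹ * (g * k * g⁻¹) * g = k := by group
        rw [this]; exact hk
      have hst := hg hmem
      rw [MulAction.mem_stabilizer_iff] at hst
      have : k • (g⁻¹ • x) = g⁻¹ • ((g * k * g⁻¹) • x) := by
        simp only [← mul_smul]
        congr 1
        group
      rw [this, hst]
    have hfix2 : ∀ k ∈ K, k • x = x := fun k hk => MulAction.mem_stabilizer_iff.mp (hK hk)
    obtain ⟨n, hn, hnx⟩ := hN (g⁻¹ • x) x hfix1 hfix2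
    refine ⟨g * n⁻¹, ?_, ?_⟩
    · rw [MulAction.mem_stabilizer_iff, mul_smul]
      have : n⁻¹ • x = g⁻¹ • x := ((smul_eq_iff_eq_inv_smul n).mp hnx).symm
      rw [this, ← mul_smul]; simp
    · rw [← map_conj_mul, map_conj_eq_of_mem_normalizer K n⁻¹ (inv_mem hn)]
  · intro hc a b ha hb
    have key : ∀ c : X, (∀ k ∈ K, k • c = c) → ∃ n ∈ Subgroup.normalizer (K : Set G), n • x = c := by
      intro c hcfix
      obtain ⟨g, hg⟩ := htrans x c
      have hle : K.map (MulAut.conj g⁻¹).toMonoidHom ≤ MulAction.stabilizer G x := by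
        intro y hy
        rw [mem_map_conj] at hy
        rw [MulAction.mem_stabilizer_iff]
        simp only [inv_inv] at hy
        have h1 := hcfix _ hy
        rw [← hg] at h1
        have : y • x = g⁻¹ • ((g * y * g⁻¹) • (g • x)) := by
          simp only [← mul_smul]
          congr 1
          group
        rw [this, h1, ← mul_smul]; simp
      obtain ⟨h, hh, heq⟩ := hc g⁻¹ hle
      refine ⟨g * h, ?_, ?_⟩
      · apply mem_normalizer_of_map_conj_eq
        rw [← map_conj_mul, ← heq, map_conj_mul, mul_inv_cancel, map_conj_one]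
      · rw [mul_smul, MulAction.mem_stabilizer_iff.mp hh, hg]
    obtain ⟨na, hna, hnax⟩ := key a ha
    obtain ⟨nb, hnb, hnbx⟩ := key b hb
    refine ⟨nb * na⁻¹, mul_mem hnb (inv_mem hna), ?_⟩
    rw [mul_smul]
    have : na⁻¹ • a = x := by rw [← hnax, ← mul_smul]; simp
    rw [this, hnbx]

end Cfsg.Agent.S3760
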