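import Cfsg.Statements.S3763
-- import your own Cfsg.Agent.* helpers here
import Cfsg.Agent.Helper11.ExtraRank

set_option autoImplicit false
open Cfsg

namespace Cfsg.Agent.S3763

/-- Let E be an extraspecial 2-group of order 2^(2n+1). Then the largest elementary abelian subgroups of E have order 2^n or 2^(n+1); and two extraspecial 2-groups of the same order whose largest elementary abelian subgroups have the same order are isomorphic. -/
theorem result {E : Type*} [Group E] [Finite E] (hE : Cfsg.IsExtraspecial 2 E) (n : ℕ) (hn : Nat.card E = 2 ^ (2 * n + 1)) : ((Cfsg.PRankLE 2 n E ∧ ¬ Cfsg.PRankLE 2 (n - 1) E) ∨ (Cfsg.PRankLE 2 (n + 1) E ∧ ¬ Cfsg.PRankLE 2 n E)) ∧ ∀ (E' : Type*) [Group E'] [Finite E'], Cfsg.IsExtraspecial 2 E' → Nat.card E' = Nat.card E → (∀ k : ℕ, Cfsg.PRankLE 2 k E ↔ Cfsg.PRankLE 2 k E') → Nonempty (E ≃* E') := by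
  have hmain := Cfsg.Agent.Helper11.extraspecial_rank_main hE n hn
  refine ⟨?_, ?_⟩
  · rcases hmain with ⟨_, h1, h2⟩ | ⟨_, h1, h2⟩
    · exact Or.inr ⟨h1, h2⟩
    · exact Or.inl ⟨h1, h2⟩
  · intro E' _ _ hE' hcard hrank
    have hn' : Nat.card E' = 2 ^ (2 * n + 1) := hcard.trans hn
    have hmain' := Cfsg.Agent.Helper11.extraspecial_rank_main hE' n hn'
    apply Cfsg.Agent.Helper11.extraspecial_two_iso hE hE' hcard
    rw [Cfsg.Agent.Helper11.card_sq_eq E', Cfsg.Agent.Helper11.card_sq_eq E]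
    rcases hmain with ⟨hN, h1, h2⟩ | ⟨hN, h1, h2⟩ <;>
      rcases hmain' with ⟨hN', h1', h2'⟩ | ⟨hN', h1', h2'⟩
    · exact hN'.trans hN.symm
    · exact absurd ((hrank n).mpr h1') h2
    · exact absurd ((hrank n).mp h1) h2'
    · omega

end Cfsg.Agent.S3763
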