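import Cfsg.Statements.S3766
import Mathlib
import Cfsg.Agent.Helper9.Fitting
import Cfsg.Agent.Helper9.Layer
import Cfsg.Agent.Helper18.Solvable
import Cfsg.Agent.S0583

set_option autoImplicit false
open Cfsg
open scoped commutatorElement

namespace Cfsg.Agent.S3766

theorem nilp_normal_centralizes_chief {G : Type*} [Group G] [Finite G] (F : Subgroup G)
    [hFn : F.Normal] (hFnil : Group.IsNilpotent ↥F) (U V : Subgroup G) (hU : U.Normal)
    (hV : V.Normal) (hVU : V < U)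
    (hch : ∀ W : Subgroup G, W.Normal → V ≤ W → W ≤ U → W = V ∨ W = U) (g : G) (hg : g ∈ F)
    (u : G) (hu : u ∈ U) : u * g * u⁻¹ * g⁻¹ ∈ V := by
  haveI := hV
  haveI := hFnil
  obtain ⟨π, hπ⟩ : ∃ π : G →* G ⧸ V, π = QuotientGroup.mk' V := ⟨_, rfl⟩
  have hπs : Function.Surjective π := by rw [hπ]; exact QuotientGroup.mk'_surjective V
  have hker : ∀ x : G, π x = 1 ↔ x ∈ V := by
    intro x
    rw [hπ, ← MonoidHom.mem_ker, QuotientGroup.ker_mk']
  haveI hM : (U.map π).Normal := Subgroup.Normal.map hU π hπs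
  have hM1 : U.map π ≠ ⊥ := by
    intro h
    have hUV : U ≤ V := by
      intro x hx
      have h1 : π x ∈ U.map π := Subgroup.mem_map_of_mem π hx
      rw [h, Subgroup.mem_bot] at h1
      exact (hker x).mp h1
    exact absurd hVU (not_lt_of_ge hUV)
  have hmin : ∀ K : Subgroup (G ⧸ V), K.Normal → K ≤ U.map π → K = ⊥ ∨ K = U.map π := by
    intro K hK hKU
    have hVK : V ≤ K.comap π := by
      intro x hx
      rw [Subgroup.mem_comap, (hker x).mpr hx]
      exact K.one_mem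
    have hKU' : K.comap π ≤ U := by
      intro x hx
      obtain ⟨u', hu', hux⟩ := hKU (Subgroup.mem_comap.mp hx)
      have h1 : u'⁻¹ * x ∈ V := by
        rw [← hker, map_mul, map_inv, hux, inv_mul_cancel]
      have h2 : x = u' * (u'⁻¹ * x) := by group
      rw [h2]
      exact U.mul_mem hu' (hVU.le h1)
    have hmc : (K.comap π).map π = K := Subgroup.map_comap_eq_self_of_surjective hπs K
    rcases hch (K.comap π) (hK.comap π) hVK hKU' with h | h
    · left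
      rw [← hmc, h, eq_bot_iff]
      rintro _ ⟨v, hv, rfl⟩
      rw [Subgroup.mem_bot]
      exact (hker v).mpr hv
    · right
      rw [← hmc, h]
  have h583 := Cfsg.Agent.S0583.result (U.map π) hM1 hmin
  have hFb : F.map π ≤ Cfsg.fittingSubgroup (G ⧸ V) := by
    apply Cfsg.Agent.Helper9.le_fitting (Subgroup.Normal.map hFn π hπs)
    exact Group.nilpotent_of_surjective (π.subgroupMap F) (π.subgroupMap_surjective F)
  have hc := h583 (hFb (Subgroup.mem_map_of_mem π hg))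
  rw [Subgroup.mem_centralizer_iff] at hc
  have h1 := hc (π u) (Subgroup.mem_map_of_mem π hu)
  rw [← hker, map_mul, map_mul, map_mul, map_inv, map_inv, h1]
  group

theorem nilpotent_of_chief_central {G : Type*} [Group G] [Finite G] (A F₁ : Subgroup G)
    [hAn : A.Normal] [hF1n : F₁.Normal] (hF1A : F₁ ≤ A)
    (hAA : ∀ a ∈ A, ∀ b ∈ A, a * b * a⁻¹ * b⁻¹ ∈ F₁)
    (hcent : ∀ U V : Subgroup G, U.Normal → V.Normal → V < U →
      (∀ W : Subgroup G, W.Normal → V ≤ W → W ≤ U → W = V ∨ W = U) → U ≤ F₁ →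
      ∀ a ∈ A, ∀ u ∈ U, u * a * u⁻¹ * a⁻¹ ∈ V) :
    Group.IsNilpotent ↥A := by
  classical
  obtain ⟨n, hn'⟩ := WellFoundedGT.monotone_chain_condition
    (⟨fun n => Subgroup.upperCentralSeries ↥A n, Subgroup.upperCentralSeries_mono ↥A⟩ :
      ℕ →o Subgroup ↥A)
  have hn : Subgroup.upperCentralSeries ↥A (n + 1) = Subgroup.upperCentralSeries ↥A n :=
    (hn' (n + 1) (Nat.le_succ n)).symm
  obtain ⟨Z, hZdef⟩ : ∃ Z : Subgroup G, Z = (Subgroup.upperCentralSeries ↥A n).map A.subtype :=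
    ⟨_, rfl⟩
  haveI hZn : Z.Normal := by rw [hZdef]; infer_instance
  have hmemZ : ∀ y : ↥A, y ∈ Subgroup.upperCentralSeries ↥A n ↔ (y : G) ∈ Z := by
    intro y
    rw [hZdef]
    constructor
    · intro hy
      exact Subgroup.mem_map_of_mem A.subtype hy
    · rintro ⟨y', hy', h⟩
      have h1 : y' = y := Subtype.ext h
      rw [← h1]
      exact hy'
  have hstep : ∀ x ∈ A, (∀ a ∈ A, x * a * x⁻¹ * a⁻¹ ∈ Z) → x ∈ Z := by
    intro x hx h
    apply (hmemZ ⟨x, hx⟩).mp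
    rw [← hn, Subgroup.mem_upperCentralSeries_succ_iff]
    intro y
    rw [hmemZ, commutatorElement_def]
    simp only [Subgroup.coe_mul, Subgroup.coe_inv]
    exact h y.1 y.2
  have hFZ : F₁ ≤ Z := by
    by_contra hnot
    have hDlt : Z ⊓ F₁ < F₁ :=
      lt_of_le_of_ne inf_le_right (fun h => hnot (by rw [← h]; exact inf_le_left))
    obtain ⟨U, ⟨hUn, hDU, hUF⟩, hUmin⟩ := WellFounded.has_min
      (wellFounded_lt : WellFounded ((· < ·) : Subgroup G → Subgroup G → Prop))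
      {U : Subgroup G | U.Normal ∧ Z ⊓ F₁ < U ∧ U ≤ F₁} ⟨F₁, hF1n, hDlt, le_rfl⟩
    have hchief : ∀ W : Subgroup G, W.Normal → Z ⊓ F₁ ≤ W → W ≤ U → W = Z ⊓ F₁ ∨ W = U := by
      intro W hW hDW hWU
      by_cases h : W = Z ⊓ F₁
      · left; exact h
      · right
        have hlt : Z ⊓ F₁ < W := lt_of_le_of_ne hDW (Ne.symm h)
        have h1 := hUmin W ⟨hW, hlt, hWU.trans hUF⟩
        exact (lt_or_eq_of_le hWU).resolve_left h1
    have hUZ : U ≤ Z := by
      intro u hu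
      apply hstep u (hF1A (hUF hu))
      intro a ha
      have h1 := hcent U (Z ⊓ F₁) hUn inferInstance hDU hchief hUF a ha u hu
      exact (inf_le_left : Z ⊓ F₁ ≤ Z) h1
    exact absurd (le_inf hUZ hUF) (not_le_of_gt hDU)
  have hAZ : A ≤ Z := by
    intro a ha
    apply hstep a ha
    intro b hb
    exact hFZ (hAA a ha b hb)
  refine ⟨⟨n, ?_⟩⟩
  rw [eq_top_iff]
  intro x _
  exact (hmemZ x).mpr (hAZ x.2)

/-- The elements of `N` centralizing every chief factor of `G` below `F`. -/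
def chiefCent {G : Type*} [Group G] (N F : Subgroup G) : Subgroup G where
  carrier := {x | x ∈ N ∧ ∀ U V : Subgroup G, (U.Normal ∧ V.Normal ∧ V < U ∧
    ∀ W : Subgroup G, W.Normal → V ≤ W → W ≤ U → W = V ∨ W = U) → U ≤ F →
    ∀ u ∈ U, u * x * u⁻¹ * x⁻¹ ∈ V}
  mul_mem' := by
    rintro x y ⟨hxN, hx⟩ ⟨hyN, hy⟩
    refine ⟨N.mul_mem hxN hyN, ?_⟩
    intro U V hUV hUF u hu
    have h1 := hx U V hUV hUF u hu
    have h2 := hy U V hUV hUF u hu
    have h3 : u * (x * y) * u⁻¹ * (x * y)⁻¹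
        = (u * x * u⁻¹ * x⁻¹) * (x * (u * y * u⁻¹ * y⁻¹) * x⁻¹) := by group
    rw [h3]
    exact V.mul_mem h1 (hUV.2.1.conj_mem _ h2 x)
  one_mem' := by
    refine ⟨N.one_mem, ?_⟩
    intro U V hUV hUF u hu
    have h3 : u * 1 * u⁻¹ * (1 : G)⁻¹ = 1 := by group
    rw [h3]
    exact V.one_mem
  inv_mem' := by
    rintro x ⟨hxN, hx⟩
    refine ⟨N.inv_mem hxN, ?_⟩
    intro U V hUV hUF u hu
    have h1 := hx U V hUV hUF u hu
    have h3 : u * x⁻¹ * u⁻¹ * x⁻¹⁻¹ = x⁻¹ * (u * x * u⁻¹ * x⁻¹)⁻¹ * x⁻¹⁻¹ := by group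
    rw [h3]
    exact hUV.2.1.conj_mem _ (V.inv_mem h1) x⁻¹

theorem mem_chiefCent {G : Type*} [Group G] (N F : Subgroup G) (x : G) :
    x ∈ chiefCent N F ↔ (x ∈ N ∧ ∀ U V : Subgroup G, (U.Normal ∧ V.Normal ∧ V < U ∧
      ∀ W : Subgroup G, W.Normal → V ≤ W → W ≤ U → W = V ∨ W = U) → U ≤ F →
      ∀ u ∈ U, u * x * u⁻¹ * x⁻¹ ∈ V) := Iff.rfl

theorem chiefCent_normal {G : Type*} [Group G] (N F : Subgroup G) [hN : N.Normal] :
    (chiefCent N F).Normal := by
  refine ⟨fun x hx z => ?_⟩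
  obtain ⟨hxN, hx⟩ := (mem_chiefCent N F x).mp hx
  refine (mem_chiefCent N F _).mpr ⟨hN.conj_mem x hxN z, ?_⟩
  intro U V hUV hUF u hu
  have h1 := hx U V hUV hUF (z⁻¹ * u * z⁻¹⁻¹) (hUV.1.conj_mem u hu z⁻¹)
  have h3 : u * (z * x * z⁻¹) * u⁻¹ * (z * x * z⁻¹)⁻¹
      = z * ((z⁻¹ * u * z⁻¹⁻¹) * x * (z⁻¹ * u * z⁻¹⁻¹)⁻¹ * x⁻¹) * z⁻¹ := by group
  rw [h3]
  exact hUV.2.1.conj_mem _ h1 z

/-- Let G be a finite solvable group and N a normal subgroup of G. Call a pair V < U of normal subgroups of G a chief factor of G when no normal subgroup of G lies strictly between them; an element g centralizes the chief factor U/V when u g u⁻¹ g⁻¹ ∈ V for all u ∈ U. Then an element of G lies in the Fitting subgroup F(N) if and only if it lies in N and centralizes every chief factor of G; and also if and only if it lies in N and centralizes every chief factor U/V of G with U ≤ F(N). -/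
theorem result {G : Type*} [Group G] [Finite G] (hG : Group.IsSolvable G) (N : Subgroup G) [N.Normal] (g : G) : (g ∈ (Cfsg.fittingSubgroup ↥N).map N.subtype ↔ g ∈ N ∧ ∀ U V : Subgroup G, (U.Normal ∧ V.Normal ∧ V < U ∧ ∀ W : Subgroup G, W.Normal → V ≤ W → W ≤ U → W = V ∨ W = U) → ∀ u ∈ U, u * g * u⁻¹ * g⁻¹ ∈ V) ∧ (g ∈ (Cfsg.fittingSubgroup ↥N).map N.subtype ↔ g ∈ N ∧ ∀ U V : Subgroup G, (U.Normal ∧ V.Normal ∧ V < U ∧ ∀ W : Subgroup G, W.Normal → V ≤ W → W ≤ U → W = V ∨ W = U) → U ≤ (Cfsg.fittingSubgroup ↥N).map N.subtype → ∀ u ∈ U, u * g * u⁻¹ * g⁻¹ ∈ V) := by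
  classical
  obtain ⟨F, hFdef⟩ : ∃ F : Subgroup G, F = (Cfsg.fittingSubgroup ↥N).map N.subtype := ⟨_, rfl⟩
  haveI hFn : F.Normal := by rw [hFdef]; infer_instance
  have hFN : F ≤ N := by rw [hFdef]; exact Subgroup.map_subtype_le _
  have hFnil : Group.IsNilpotent ↥F := by
    rw [hFdef]
    haveI := Cfsg.Agent.Helper9.fitting_nilpotent (G := ↥N)
    exact Group.nilpotent_of_surjective (N.subtype.subgroupMap _)
      (N.subtype.subgroupMap_surjective _)
  rw [← hFdef]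
  have ha : g ∈ F → g ∈ N ∧ ∀ U V : Subgroup G, (U.Normal ∧ V.Normal ∧ V < U ∧
      ∀ W : Subgroup G, W.Normal → V ≤ W → W ≤ U → W = V ∨ W = U) →
      ∀ u ∈ U, u * g * u⁻¹ * g⁻¹ ∈ V := by
    intro hg
    refine ⟨hFN hg, ?_⟩
    rintro U V ⟨hU, hV, hVU, hch⟩ u hu
    exact nilp_normal_centralizes_chief F hFnil U V hU hV hVU hch g hg u hu
  have hb : (g ∈ N ∧ ∀ U V : Subgroup G, (U.Normal ∧ V.Normal ∧ V < U ∧
      ∀ W : Subgroup G, W.Normal → V ≤ W → W ≤ U → W = V ∨ W = U) → U ≤ F →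
      ∀ u ∈ U, u * g * u⁻¹ * g⁻¹ ∈ V) → g ∈ F := by
    intro hg
    by_contra hgF
    obtain ⟨C, hCdef⟩ : ∃ C : Subgroup G, C = chiefCent N F := ⟨_, rfl⟩
    haveI hCn : C.Normal := by rw [hCdef]; exact chiefCent_normal N F
    have hgC : g ∈ C := by rw [hCdef]; exact (mem_chiefCent N F g).mpr hg
    have hsol : ∃ n, Cfsg.Agent.Helper18.dser C n ≤ F := by
      obtain ⟨n, hn⟩ := hG
      exact ⟨n, (Cfsg.Agent.Helper18.dser_le_derivedSeries C n).trans (by rw [hn]; exact bot_le)⟩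
    have h0 : ¬ Cfsg.Agent.Helper18.dser C 0 ≤ F := fun h => hgF (h hgC)
    have hi : Cfsg.Agent.Helper18.dser C (Nat.find hsol) ≤ F := Nat.find_spec hsol
    have hi0 : Nat.find hsol ≠ 0 := by
      intro h
      rw [h] at hi
      exact h0 hi
    obtain ⟨j, hj⟩ := Nat.exists_eq_succ_of_ne_zero hi0
    have hjF : ¬ Cfsg.Agent.Helper18.dser C j ≤ F :=
      Nat.find_min hsol (by rw [hj]; exact Nat.lt_succ_self j)
    have hj1 : Cfsg.Agent.Helper18.dser C (j + 1) ≤ F := by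
      rw [hj] at hi
      exact hi
    obtain ⟨A, hAdef⟩ : ∃ A : Subgroup G, A = Cfsg.Agent.Helper18.dser C j := ⟨_, rfl⟩
    haveI hAn : A.Normal := by rw [hAdef]; exact Cfsg.Agent.Helper18.dser_normal C j
    have hAC : A ≤ C := by rw [hAdef]; exact Cfsg.Agent.Helper18.dser_le C j
    have hAA : ∀ a ∈ A, ∀ b ∈ A, a * b * a⁻¹ * b⁻¹ ∈ F ⊓ A := by
      intro a ha b hb
      have h1 : ⁅a, b⁆ ∈ ⁅A, A⁆ := Subgroup.commutator_mem_commutator ha hb
      rw [commutatorElement_def] at h1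
      refine Subgroup.mem_inf.mpr ⟨hj1 ?_, ?_⟩
      · show a * b * a⁻¹ * b⁻¹ ∈ ⁅Cfsg.Agent.Helper18.dser C j, Cfsg.Agent.Helper18.dser C j⁆
        rw [← hAdef]
        exact h1
      · exact A.mul_mem (A.mul_mem (A.mul_mem ha hb) (A.inv_mem ha)) (A.inv_mem hb)
    have hAnil : Group.IsNilpotent ↥A := by
      apply nilpotent_of_chief_central A (F ⊓ A) inf_le_right hAA
      intro U V hU hV hVU hch hUF a ha u hu
      have haC : a ∈ chiefCent N F := by rw [← hCdef]; exact hAC ha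
      exact ((mem_chiefCent N F a).mp haC).2 U V ⟨hU, hV, hVU, hch⟩ (hUF.trans inf_le_left) u hu
    have hAN : A ≤ N := by
      intro a ha
      have haC : a ∈ chiefCent N F := by rw [← hCdef]; exact hAC ha
      exact ((mem_chiefCent N F a).mp haC).1
    have hAF : A ≤ F := by
      rw [hFdef]
      have h1 : (A.subgroupOf N) ≤ Cfsg.fittingSubgroup ↥N := by
        apply Cfsg.Agent.Helper9.le_fitting inferInstance
        haveI := hAnil
        exact Group.nilpotent_of_surjective (Subgroup.subgroupOfEquivOfLe hAN).symm.toMonoidHom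
          (Subgroup.subgroupOfEquivOfLe hAN).symm.surjective
      intro a ha
      exact ⟨⟨a, hAN ha⟩, h1 (Subgroup.mem_subgroupOf.mpr ha), rfl⟩
    rw [hAdef] at hAF
    exact hjF hAF
  exact ⟨⟨ha, fun h => hb ⟨h.1, fun U V hUV _ => h.2 U V hUV⟩⟩,
    ⟨fun hg => ⟨(ha hg).1, fun U V hUV _ => (ha hg).2 U V hUV⟩, hb⟩⟩

end Cfsg.Agent.S3766
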