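import Cfsg.Statements.S3768
import Mathlib
import Cfsg.Agent.Helper1.FrobThm
import Cfsg.Agent.Helper20.SylowAux

set_option autoImplicit false
open Cfsg

namespace Cfsg.Agent.S3768

open scoped Pointwise

/-- Let G be a finite Frobenius group with Frobenius complement R and Frobenius kernel K (the identity together with the elements in no conjugate of R), and let N be a normal subgroup of G not containing K. Then G/N is a Frobenius group with Frobenius complement RN/N whose Frobenius kernel is the image of K. -/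
theorem result {G : Type*} [Group G] [Finite G] (R : Subgroup G) (hR : Cfsg.IsFrobeniusComplement R) (N : Subgroup G) [N.Normal] (hKN : ¬ Cfsg.frobeniusKernel R ⊆ N) : Cfsg.IsFrobeniusComplement (R.map (QuotientGroup.mk' N)) ∧ Cfsg.frobeniusKernel (R.map (QuotientGroup.mk' N)) = QuotientGroup.mk' N '' Cfsg.frobeniusKernel R := by
  classical
  obtain ⟨hR1, hR2, hTI⟩ := hR
  obtain ⟨K, hKset, hKn, hKR⟩ := Cfsg.Agent.Helper1.frobenius_kernel_subgroup R hTI
  have hNn : N.Normal := inferInstance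
  have hKmem : ∀ x : G, x ∈ K ↔ (x = 1 ∨ ∀ g : G, x ∉ MulAut.conj g • R) := by
    intro x
    have h1 : x ∈ (K : Set G) ↔ x ∈ Cfsg.frobeniusKernel R := by rw [hKset]
    exact h1
  have hKRbot : ∀ x : G, x ∈ K → x ∈ R → x = 1 := by
    intro x hxK hxR
    have h1 : x ∈ K ⊓ R := Subgroup.mem_inf.mpr ⟨hxK, hxR⟩
    rw [hKR.disjoint.eq_bot] at h1
    exact Subgroup.mem_bot.mp h1
  have hdecomp : ∀ g : G, ∃ k ∈ K, ∃ r ∈ R, k * r = g := by
    intro g
    obtain ⟨⟨⟨k, hk⟩, ⟨r, hr⟩⟩, hkr, -⟩ := Subgroup.IsComplement.existsUnique hKR g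
    exact ⟨k, hk, r, hr, hkr⟩
  have hfpf : ∀ r ∈ R, r ≠ 1 → ∀ k ∈ K, k * r = r * k → k = 1 := by
    intro r hr hr1 k hk hcomm
    by_cases hkR : k ∈ R
    · exact hKRbot k hk hkR
    · exfalso
      have h1 := hTI k hkR
      have h2 : r ∈ R ⊓ MulAut.conj k • R := by
        refine Subgroup.mem_inf.mpr ⟨hr, ?_⟩
        rw [Cfsg.Agent.Helper20.mem_conj_smul_iff]
        have h3 : k⁻¹ * r * k = r := by rw [mul_assoc, ← hcomm, inv_mul_cancel_left]
        rw [h3]; exact hr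
      rw [h1] at h2
      exact hr1 (Subgroup.mem_bot.mp h2)
  have hinj : ∀ r ∈ R, r ≠ 1 → ∀ k ∈ K, ∀ k' ∈ K, k * r * k⁻¹ = k' * r * k'⁻¹ → k = k' := by
    intro r hr hr1 k hk k' hk' h
    have h1 : (k'⁻¹ * k) * r = r * (k'⁻¹ * k) := by
      calc (k'⁻¹ * k) * r = k'⁻¹ * (k * r * k⁻¹) * k := by group
        _ = k'⁻¹ * (k' * r * k'⁻¹) * k := by rw [h]
        _ = r * (k'⁻¹ * k) := by group
    have h2 := hfpf r hr hr1 (k'⁻¹ * k) (K.mul_mem (K.inv_mem hk') hk) h1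
    calc k = k' * (k'⁻¹ * k) := by group
      _ = k' := by rw [h2, mul_one]
  have hF5 : ∀ M : Subgroup G, M.Normal → M ≤ K → ∀ r ∈ R, r ≠ 1 → ∀ k ∈ K,
      k * r * k⁻¹ * r⁻¹ ∈ M → k ∈ M := by
    intro M hMn hMK r hr hr1 k hk hkM
    have hf : ∀ m : M, (m : G) * r * (m : G)⁻¹ * r⁻¹ ∈ M := by
      intro m
      have h1 : r * (m : G)⁻¹ * r⁻¹ ∈ M := hMn.conj_mem _ (M.inv_mem m.2) r
      have h2 : (m : G) * r * (m : G)⁻¹ * r⁻¹ = (m : G) * (r * (m : G)⁻¹ * r⁻¹) := by group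
      rw [h2]; exact M.mul_mem m.2 h1
    have hfinj : Function.Injective
        (fun m : M => (⟨(m : G) * r * (m : G)⁻¹ * r⁻¹, hf m⟩ : M)) := by
      intro m m' h
      have h1 : (m : G) * r * (m : G)⁻¹ * r⁻¹ = (m' : G) * r * (m' : G)⁻¹ * r⁻¹ :=
        congrArg Subtype.val h
      have h2 : (m : G) * r * (m : G)⁻¹ = (m' : G) * r * (m' : G)⁻¹ := mul_right_cancel h1
      exact Subtype.ext (hinj r hr hr1 m (hMK m.2) m' (hMK m'.2) h2)
    have hfsurj := Finite.injective_iff_surjective.mp hfinj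
    obtain ⟨m, hm⟩ := hfsurj ⟨k * r * k⁻¹ * r⁻¹, hkM⟩
    have h1 : (m : G) * r * (m : G)⁻¹ * r⁻¹ = k * r * k⁻¹ * r⁻¹ := congrArg Subtype.val hm
    have h2 : (m : G) * r * (m : G)⁻¹ = k * r * k⁻¹ := mul_right_cancel h1
    have h3 := hinj r hr hr1 m (hMK m.2) k hk h2
    rw [← h3]; exact m.2
  have hNK : N ≤ K := by
    by_contra hcon
    obtain ⟨n, hnN, hnK⟩ := SetLike.not_le_iff_exists.mp hcon
    rw [hKmem] at hnK
    push Not at hnK
    obtain ⟨hn1, g, hg⟩ := hnK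
    rw [Cfsg.Agent.Helper20.mem_conj_smul_iff] at hg
    have hrN : g⁻¹ * n * g ∈ N := by
      have h0 := hNn.conj_mem n hnN g⁻¹
      rwa [inv_inv] at h0
    have hr1 : g⁻¹ * n * g ≠ 1 := by
      intro h
      apply hn1
      calc n = g * (g⁻¹ * n * g) * g⁻¹ := by group
        _ = 1 := by rw [h]; group
    apply hKN
    intro k hk
    rw [← hKset] at hk
    have hk' : k ∈ K := hk
    have hNKn : (N ⊓ K).Normal := inferInstance
    have hmem : k * (g⁻¹ * n * g) * k⁻¹ * (g⁻¹ * n * g)⁻¹ ∈ N ⊓ K := by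
      refine Subgroup.mem_inf.mpr ⟨?_, ?_⟩
      · exact N.mul_mem (hNn.conj_mem _ hrN k) (N.inv_mem hrN)
      · have h2 : k * (g⁻¹ * n * g) * k⁻¹ * (g⁻¹ * n * g)⁻¹
            = k * ((g⁻¹ * n * g) * k⁻¹ * (g⁻¹ * n * g)⁻¹) := by group
        rw [h2]
        exact K.mul_mem hk' (hKn.conj_mem _ (K.inv_mem hk') _)
    have h5 := hF5 (N ⊓ K) hNKn inf_le_right (g⁻¹ * n * g) hg hr1 k hk' hmem
    exact (Subgroup.mem_inf.mp h5).1
  have hRN : ∀ x ∈ R, x ∈ N → x = 1 := fun x hxR hxN => hKRbot x (hNK hxN) hxR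
  obtain ⟨π, hπdef⟩ : ∃ π : G →* G ⧸ N, π = QuotientGroup.mk' N := ⟨_, rfl⟩
  rw [← hπdef]
  have hπsurj : Function.Surjective π := by rw [hπdef]; exact QuotientGroup.mk'_surjective N
  have hπker : ∀ a : G, π a = 1 ↔ a ∈ N := by
    intro a
    rw [← MonoidHom.mem_ker, hπdef, QuotientGroup.ker_mk']
  have hπeq : ∀ a b : G, π a = π b → a⁻¹ * b ∈ N := by
    intro a b h
    rw [← hπker, map_mul, map_inv, h, inv_mul_cancel]
  have hRbar : ∀ x : G, π x ∈ R.map π → ∃ r ∈ R, r⁻¹ * x ∈ N := by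
    intro x hx
    obtain ⟨r, hr, hrx⟩ := Subgroup.mem_map.mp hx
    exact ⟨r, hr, hπeq r x hrx⟩
  have hconj : ∀ g x : G, π x ∈ MulAut.conj (π g) • R.map π → π (g⁻¹ * x * g) ∈ R.map π := by
    intro g x h
    rw [Cfsg.Agent.Helper20.mem_conj_smul_iff] at h
    rw [map_mul, map_mul, map_inv]
    exact h
  have hconj' : ∀ g x : G, π (g⁻¹ * x * g) ∈ R.map π → π x ∈ MulAut.conj (π g) • R.map π := by
    intro g x h
    rw [Cfsg.Agent.Helper20.mem_conj_smul_iff]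
    rw [map_mul, map_mul, map_inv] at h
    exact h
  refine ⟨⟨?_, ?_, ?_⟩, ?_⟩
  · intro hbot
    apply hR1
    rw [Subgroup.eq_bot_iff_forall]
    intro r hr
    have h1 : π r ∈ R.map π := Subgroup.mem_map_of_mem π hr
    rw [hbot, Subgroup.mem_bot, hπker] at h1
    exact hRN r hr h1
  · intro htop
    apply hKN
    intro k hk
    rw [← hKset] at hk
    have hk' : k ∈ K := hk
    have h1 : π k ∈ R.map π := by rw [htop]; exact Subgroup.mem_top _
    obtain ⟨r, hr, hrk⟩ := hRbar k h1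
    have h2 : r⁻¹ ∈ K := by
      have h3 : r⁻¹ = (r⁻¹ * k) * k⁻¹ := by group
      rw [h3]; exact K.mul_mem (hNK hrk) (K.inv_mem hk')
    have h4 : r = 1 := hKRbot r (inv_mem_iff.mp h2) hr
    rw [h4, inv_one, one_mul] at hrk
    exact hrk
  · intro gbar hgbar
    obtain ⟨g, rfl⟩ := hπsurj gbar
    rw [Subgroup.eq_bot_iff_forall]
    intro xbar hxbar
    obtain ⟨hx1, hx2⟩ := Subgroup.mem_inf.mp hxbar
    obtain ⟨r₁, hr₁, rfl⟩ := Subgroup.mem_map.mp hx1
    by_contra hne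
    have hr₁ne : r₁ ≠ 1 := by
      intro h
      apply hne
      rw [h, map_one]
    obtain ⟨k, hk, r, hr, hkr⟩ := hdecomp g
    have h1 := hconj g r₁ hx2
    have h2 : π (k⁻¹ * r₁ * k) ∈ R.map π := by
      have h3 : k⁻¹ * r₁ * k = r * (g⁻¹ * r₁ * g) * r⁻¹ := by rw [← hkr]; group
      rw [h3, map_mul, map_mul, map_inv]
      exact (R.map π).mul_mem ((R.map π).mul_mem (Subgroup.mem_map_of_mem π hr) h1)
        ((R.map π).inv_mem (Subgroup.mem_map_of_mem π hr))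
    obtain ⟨r₂, hr₂, hr₂N⟩ := hRbar _ h2
    have h4 : r₂⁻¹ * r₁ ∈ K := by
      have h5 : r₂⁻¹ * r₁ = (r₂⁻¹ * (k⁻¹ * r₁ * k)) * (k⁻¹ * (r₁⁻¹ * k * r₁)) := by group
      rw [h5]
      have h0 := hKn.conj_mem k hk r₁⁻¹
      rw [inv_inv] at h0
      exact K.mul_mem (hNK hr₂N) (K.mul_mem (K.inv_mem hk) h0)
    have h6 : r₂⁻¹ * r₁ = 1 := hKRbot _ h4 (R.mul_mem (R.inv_mem hr₂) hr₁)
    have h7 : r₂ = r₁ := by
      calc r₂ = r₂ * (r₂⁻¹ * r₁) := by rw [h6, mul_one]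
        _ = r₁ := by group
    rw [h7] at hr₂N
    have h8 : k * r₁⁻¹ * k⁻¹ * (r₁⁻¹)⁻¹ ∈ N := by
      have h9 : k * r₁⁻¹ * k⁻¹ * (r₁⁻¹)⁻¹ = k * (r₁⁻¹ * (k⁻¹ * r₁ * k)) * k⁻¹ := by group
      rw [h9]
      exact hNn.conj_mem _ hr₂N k
    have hkN : k ∈ N :=
      hF5 N hNn hNK r₁⁻¹ (R.inv_mem hr₁) (inv_ne_one.mpr hr₁ne) k hk h8
    apply hgbar
    rw [← hkr, map_mul]
    have h10 : π k = 1 := (hπker k).mpr hkN
    rw [h10, one_mul]
    exact Subgroup.mem_map_of_mem π hr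
  · ext xbar
    constructor
    · intro hx
      obtain ⟨x, rfl⟩ := hπsurj xbar
      rcases hx with hx | hx
      · exact ⟨1, Or.inl rfl, by rw [map_one, hx]⟩
      · refine ⟨x, ?_, rfl⟩
        rw [← hKset]
        show x ∈ K
        by_contra hxK
        rw [hKmem] at hxK
        push Not at hxK
        obtain ⟨-, g, hg⟩ := hxK
        rw [Cfsg.Agent.Helper20.mem_conj_smul_iff] at hg
        exact hx (π g) (hconj' g x (Subgroup.mem_map_of_mem π hg))
    · rintro ⟨y, hy, rfl⟩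
      rw [← hKset] at hy
      have hyK : y ∈ K := hy
      by_cases h1 : π y = 1
      · exact Or.inl h1
      · refine Or.inr ?_
        intro gbar hmem
        obtain ⟨g, rfl⟩ := hπsurj gbar
        have h2 := hconj g y hmem
        obtain ⟨r, hr, hrN⟩ := hRbar _ h2
        have h3 : g⁻¹ * y * g ∈ K := by
          have h0 := hKn.conj_mem y hyK g⁻¹
          rwa [inv_inv] at h0
        have h4 : r⁻¹ ∈ K := by
          have h5 : r⁻¹ = (r⁻¹ * (g⁻¹ * y * g)) * (g⁻¹ * y * g)⁻¹ := by group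
          rw [h5]; exact K.mul_mem (hNK hrN) (K.inv_mem h3)
        have h6 : r = 1 := hKRbot r (inv_mem_iff.mp h4) hr
        rw [h6, inv_one, one_mul] at hrN
        apply h1
        rw [hπker]
        have h7 := hNn.conj_mem _ hrN g
        have h8 : g * (g⁻¹ * y * g) * g⁻¹ = y := by group
        rw [h8] at h7
        exact h7

end Cfsg.Agent.S3768
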