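import Cfsg.Statements.S3770
import Mathlib
import Cfsg.Agent.S0042
import Cfsg.Agent.Helper10.FrobPrimeC
-- import your own Cfsg.Agent.* helpers here

set_option autoImplicit false
open Cfsg

namespace Cfsg.Agent.S3770

open Pointwise


/-- Let G and V be subgroups of a finite group with G a Frobenius group with complement R of prime order and kernel K, G normalizing V, and V an elementary abelian ℓ-group for a prime ℓ not dividing the order of G. If C_V(R) has order ℓ, then the derived subgroup of K centralizes V. -/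
theorem result {X : Type*} [Group X] [Finite X] (G : Subgroup X) (V : Subgroup X) {ℓ : ℕ} (hℓ : ℓ.Prime) (hV : Cfsg.IsElementaryAbelian ℓ V) (hℓG : ¬ ℓ ∣ Nat.card G) (hGV : G ≤ Subgroup.normalizer (V : Set X)) (R : Subgroup ↥G) (hR : Cfsg.IsFrobeniusComplement R) (hRp : (Nat.card R).Prime) (hCV : Nat.card ↥(V ⊓ Subgroup.centralizer ((R.map G.subtype : Subgroup X) : Set X)) = ℓ) : ⁅Subgroup.closure (Subtype.val '' Cfsg.frobeniusKernel R), Subgroup.closure (Subtype.val '' Cfsg.frobeniusKernel R)⁆ ≤ Subgroup.centralizer (V : Set X) := by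
  obtain ⟨hVc, hVexp⟩ := hV
  obtain ⟨N, hNset, hNn, hNnil⟩ := Cfsg.Agent.S0042.result R hR
  obtain ⟨hRb, hRt, hTI⟩ := hR
  haveI := hNn
  have hcl : Subgroup.closure (Subtype.val '' Cfsg.frobeniusKernel R) = N.map G.subtype := by
    rw [← hNset]
    have h1 : (Subtype.val '' (N : Set ↥G)) = ((N.map G.subtype : Subgroup X) : Set X) := by
      rw [Subgroup.coe_map]; rfl
    rw [h1, Subgroup.closure_eq]
  rw [hcl]
  haveI : Fact ℓ.Prime := ⟨hℓ⟩
  refine Cfsg.Agent.Helper10.frob_prime_conc V G (N.map G.subtype) (R.map G.subtype) ?_ hGV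
    (Subgroup.map_subtype_le N) (Subgroup.map_subtype_le R) ?_ ?_ ?_ ?_ ℓ hℓ (dvd_of_eq hCV)
  · intro a ha b hb
    haveI := hVc
    exact congrArg Subtype.val (mul_comm' (⟨a, ha⟩ : ↥V) ⟨b, hb⟩)
  · rintro _ ⟨r, hr, rfl⟩ _ ⟨x, hx, rfl⟩
    exact ⟨r * x * r⁻¹, hNn.conj_mem x hx r, rfl⟩
  · rintro _ ⟨r, hr, rfl⟩ hne _ ⟨x, hx, rfl⟩ hcomm
    have hr1 : r ≠ 1 := fun h => hne (by rw [h, map_one])
    have hcomm' : r * x = x * r := Subtype.ext hcomm
    by_contra hx1
    have hx1' : x ≠ 1 := fun h => hx1 (by rw [h, map_one])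
    have hxK : x ∈ Cfsg.frobeniusKernel R := by rw [← hNset]; exact hx
    have hxout : ∀ g : ↥G, x ∉ MulAut.conj g • R := by
      rcases hxK with h1 | h1
      · exact absurd h1 hx1'
      · exact h1
    have hxR : x ∉ R := by
      intro hxR
      apply hxout 1
      rw [map_one, one_smul]; exact hxR
    have hbot := hTI x hxR
    have hmem : r ∈ R ⊓ MulAut.conj x • R := by
      refine Subgroup.mem_inf.mpr ⟨hr, ?_⟩
      have h2 : x * r * x⁻¹ ∈ MulAut.conj x • R :=
        Subgroup.smul_mem_pointwise_smul r (MulAut.conj x) R hr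
      have h3 : x * r * x⁻¹ = r := by rw [← hcomm']; group
      rw [h3] at h2; exact h2
    rw [hbot, Subgroup.mem_bot] at hmem
    exact hr1 hmem
  · haveI := hNnil
    exact Group.nilpotent_of_mulEquiv (N.equivMapOfInjective G.subtype G.subtype_injective)
  · have h1 : Nat.card ↥(N.map G.subtype) ∣ Nat.card G := by
      rw [Subgroup.card_map_of_injective G.subtype_injective]
      exact Subgroup.card_subgroup_dvd_card N
    have hp : IsPGroup ℓ ↥V := by
      intro a
      exact ⟨1, by rw [pow_one]; exact Subtype.ext (hVexp a a.2)⟩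
    obtain ⟨k, hk⟩ := IsPGroup.iff_card.mp hp
    rw [hk]
    apply Nat.Coprime.pow_right
    exact (Nat.Coprime.coprime_dvd_left h1 ((Nat.Prime.coprime_iff_not_dvd hℓ).mpr hℓG).symm)

end Cfsg.Agent.S3770
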