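import Cfsg.Statements.S3771
import Mathlib
import Cfsg.Agent.Helper4.ElemAb

set_option autoImplicit false
open Cfsg

namespace Cfsg.Agent.S3771

/-- Let p be a prime and R a finite p-group of p-rank at most 2 (no elementary abelian subgroup of order p³) in which every element has order dividing p. Then R has order at most p³. -/
theorem result {R : Type*} [Group R] [Finite R] {p : ℕ} [Fact p.Prime] (hR : IsPGroup p R) (hrank : Cfsg.PRankLE p 2 R) (hexp : ∀ x : R, x ^ p = 1) : Nat.card R ≤ p ^ 3 := by
  have hp := (Fact.out : p.Prime)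
  have hab : ∀ A : Subgroup R, IsMulCommutative A → Nat.card A ≤ p ^ 2 :=
    fun A hA => hrank A hA (fun a _ => hexp a)
  by_cases hZ : Subgroup.center R = ⊤
  · have h1 := hab (Subgroup.center R) inferInstance
    rw [hZ, Subgroup.card_top] at h1
    exact h1.trans (Nat.pow_le_pow_right hp.pos (by norm_num))
  have hQnt : Nontrivial (R ⧸ Subgroup.center R) := by
    rw [← not_subsingleton_iff_nontrivial]
    intro hs
    exact hZ (QuotientGroup.subgroup_eq_top_of_subsingleton _ hs)
  have hQp : IsPGroup p (R ⧸ Subgroup.center R) := hR.to_quotient _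
  have hcnt := hQp.center_nontrivial
  obtain ⟨⟨q, hqc⟩, hq1⟩ := exists_ne (1 : Subgroup.center (R ⧸ Subgroup.center R))
  obtain ⟨n, rfl⟩ := QuotientGroup.mk_surjective q
  have hnZ : n ∉ Subgroup.center R := by
    intro h
    apply hq1
    ext
    exact (QuotientGroup.eq_one_iff n).2 h
  have hcomm : ∀ g : R, g * n * g⁻¹ * n⁻¹ ∈ Subgroup.center R := by
    intro g
    rw [Subgroup.mem_center_iff] at hqc
    have h1 := hqc (QuotientGroup.mk g)
    rw [← QuotientGroup.eq_one_iff]
    simp only [QuotientGroup.mk_mul, QuotientGroup.mk_inv]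
    rw [h1]; group
  have hRnt : Nontrivial R := by
    rw [← not_subsingleton_iff_nontrivial]
    intro hs
    apply hZ
    rw [eq_top_iff]
    intro x _
    rw [Subsingleton.elim x 1]
    exact Subgroup.one_mem _
  have hAab : IsMulCommutative (Subgroup.center R ⊔ Subgroup.zpowers n : Subgroup R) := by
    apply Cfsg.Agent.Helper4.isMulCommutative_sup inferInstance inferInstance
    rw [Subgroup.centralizer_eq_top_iff_subset.2 (by exact subset_rfl)]
    exact le_top
  have hAcard := hab _ hAab
  have hZA : Subgroup.center R < Subgroup.center R ⊔ Subgroup.zpowers n := by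
    refine lt_of_le_of_ne le_sup_left ?_
    intro h
    apply hnZ
    rw [h]
    exact (le_sup_right : Subgroup.zpowers n ≤ _) (Subgroup.mem_zpowers n)
  obtain ⟨a, ha⟩ := IsPGroup.iff_card.1 (hR.to_subgroup (Subgroup.center R))
  obtain ⟨b, hb⟩ := IsPGroup.iff_card.1
    (hR.to_subgroup (Subgroup.center R ⊔ Subgroup.zpowers n))
  have hlt : Nat.card (Subgroup.center R) <
      Nat.card (Subgroup.center R ⊔ Subgroup.zpowers n : Subgroup R) := by
    by_contra hge
    push Not at hge
    exact hZA.ne (Subgroup.eq_of_le_of_card_ge hZA.le hge)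
  have hab' : a < b := by
    rw [ha, hb] at hlt
    exact (Nat.pow_lt_pow_iff_right hp.one_lt).1 hlt
  have hb2 : b ≤ 2 := by
    rw [hb] at hAcard
    exact (Nat.pow_le_pow_iff_right hp.one_lt).1 hAcard
  have ha0 : a ≠ 0 := by
    intro h0
    rw [h0, pow_zero] at ha
    have hcn := hR.center_nontrivial
    have := Finite.one_lt_card_iff_nontrivial.2 hcn
    omega
  have ha1 : a = 1 := by omega
  have hb2' : b = 2 := by omega
  rw [ha1, pow_one] at ha
  rw [hb2'] at hb
  let ψ : R →* Subgroup.center R :=
    { toFun := fun g => ⟨g * n * g⁻¹ * n⁻¹, hcomm g⟩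
      map_one' := by ext; simp
      map_mul' := by
        intro g h
        ext
        show g * h * n * (g * h)⁻¹ * n⁻¹ = (g * n * g⁻¹ * n⁻¹) * (h * n * h⁻¹ * n⁻¹)
        have hc := Subgroup.mem_center_iff.1 (hcomm h)
        calc g * h * n * (g * h)⁻¹ * n⁻¹ = g * ((h * n * h⁻¹ * n⁻¹) * (n * g⁻¹ * n⁻¹)) := by group
          _ = g * ((n * g⁻¹ * n⁻¹) * (h * n * h⁻¹ * n⁻¹)) := by rw [hc]
          _ = (g * n * g⁻¹ * n⁻¹) * (h * n * h⁻¹ * n⁻¹) := by group }
  have hψ : ∀ g : R, ((ψ g : Subgroup.center R) : R) = g * n * g⁻¹ * n⁻¹ := fun g => rfl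
  have hker : ψ.ker ≤ Subgroup.center R ⊔ Subgroup.zpowers n := by
    intro x hx
    rw [MonoidHom.mem_ker, Subtype.ext_iff, hψ, Subgroup.coe_one] at hx
    have hxn : x * n = n * x := by
      have : x * n = (x * n * x⁻¹ * n⁻¹) * (n * x) := by group
      rw [this, hx, one_mul]
    have hxab : IsMulCommutative
        ((Subgroup.center R ⊔ Subgroup.zpowers n) ⊔ Subgroup.zpowers x : Subgroup R) := by
      apply Cfsg.Agent.Helper4.isMulCommutative_sup hAab inferInstance
      rw [Subgroup.zpowers_le, Subgroup.mem_centralizer_iff]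
      intro y hy
      have hle : Subgroup.center R ⊔ Subgroup.zpowers n ≤ Subgroup.centralizer ({x} : Set R) := by
        apply sup_le
        · intro z hz
          rw [Subgroup.mem_centralizer_iff]
          intro w hw
          rw [Set.mem_singleton_iff] at hw
          rw [hw]
          exact (Subgroup.mem_center_iff.1 hz) x
        · rw [Subgroup.zpowers_le, Subgroup.mem_centralizer_iff]
          intro w hw
          rw [Set.mem_singleton_iff] at hw
          rw [hw]; exact hxn
      have := Subgroup.mem_centralizer_iff.1 (hle hy) x (Set.mem_singleton x)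
      exact this.symm
    have hc := hab _ hxab
    have heq : Subgroup.center R ⊔ Subgroup.zpowers n
        = (Subgroup.center R ⊔ Subgroup.zpowers n) ⊔ Subgroup.zpowers x :=
      Subgroup.eq_of_le_of_card_ge le_sup_left (by rw [hb]; exact hc)
    rw [heq]
    exact (le_sup_right : Subgroup.zpowers x ≤ _) (Subgroup.mem_zpowers x)
  have h1 : Nat.card ψ.ker ≤ p ^ 2 := by
    rw [← hb]; exact Subgroup.card_le_of_le hker
  have h2 : Nat.card ψ.range ≤ p := by
    rw [← ha]; exact Subgroup.card_le_card_group _
  have h3 : Nat.card R = Nat.card ψ.ker * Nat.card ψ.range := by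
    rw [← Subgroup.index_ker, Subgroup.card_mul_index]
  rw [h3]
  calc Nat.card ψ.ker * Nat.card ψ.range ≤ p ^ 2 * p := Nat.mul_le_mul h1 h2
    _ = p ^ 3 := by ring

end Cfsg.Agent.S3771
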