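import Cfsg.Statements.S3774
import Mathlib

set_option autoImplicit false
open Cfsg

namespace Cfsg.Agent.S3774

theorem dvd_of_pow_sub_one_dvd (n M : ℕ) (h : (2 ^ n - 1) ∣ (2 ^ M - 1)) : n ∣ M := by
  have h1 : Nat.gcd (2 ^ n - 1) (2 ^ M - 1) = 2 ^ n - 1 := Nat.gcd_eq_left h
  rw [Nat.pow_sub_one_gcd_pow_sub_one] at h1
  have h2 : 2 ^ Nat.gcd n M = 2 ^ n := by
    have h3 : 1 ≤ 2 ^ Nat.gcd n M := Nat.one_le_two_pow
    have h4 : 1 ≤ 2 ^ n := Nat.one_le_two_pow
    omega
  have h5 : Nat.gcd n M = n := Nat.pow_right_injective (le_refl 2) h2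
  rw [← h5]
  exact Nat.gcd_dvd_right n M

/-- Let G be a nontrivial finite 2-group whose automorphism group permutes the involutions of G transitively. Then every involution of G is central, so that the involutions together with 1 form the subgroup Ω₁(Z(G)), and if this subgroup has order q then |G| is a power of q. -/
theorem result {G : Type*} [Group G] [Finite G] [Nontrivial G] (hG : IsPGroup 2 G) (htrans : ∀ x y : G, x ≠ 1 → x ^ 2 = 1 → y ≠ 1 → y ^ 2 = 1 → ∃ a : MulAut G, a x = y) : (∀ x : G, x ^ 2 = 1 → x ∈ Subgroup.center G) ∧ ∃ m : ℕ, Nat.card G = Nat.card {z : G // z ^ 2 = 1} ^ m := by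
  classical
  haveI : Fintype G := Fintype.ofFinite G
  haveI : Fact (Nat.Prime 2) := ⟨Nat.prime_two⟩
  have hinv : ∀ x : G, x ≠ 1 → x ^ (orderOf x / 2) ≠ 1 ∧ (x ^ (orderOf x / 2)) ^ 2 = 1 := by
    intro x hx
    obtain ⟨k, hk⟩ := (IsPGroup.iff_orderOf.mp hG) x
    have hk0 : k ≠ 0 := by
      intro h0
      rw [h0, pow_zero, orderOf_eq_one_iff] at hk
      exact hx hk
    obtain ⟨j, rfl⟩ := Nat.exists_eq_succ_of_ne_zero hk0
    have h2 : orderOf x / 2 = 2 ^ j := by
      rw [hk, pow_succ]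
      exact Nat.mul_div_cancel _ (by norm_num)
    rw [h2]
    constructor
    · apply pow_ne_one_of_lt_orderOf (by positivity)
      rw [hk]
      exact Nat.pow_lt_pow_right (by norm_num) (Nat.lt_succ_self j)
    · rw [← pow_mul, ← pow_succ, ← hk]
      exact pow_orderOf_eq_one _
  have hcen : ∀ x : G, x ^ 2 = 1 → x ∈ Subgroup.center G := by
    haveI := hG.center_nontrivial
    obtain ⟨z₀, hz₀⟩ := exists_ne (1 : Subgroup.center G)
    have hz₀' : (z₀ : G) ≠ 1 := fun h => hz₀ (Subtype.ext h)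
    obtain ⟨hz1, hz2⟩ := hinv (z₀ : G) hz₀'
    have hzc : (z₀ : G) ^ (orderOf (z₀ : G) / 2) ∈ Subgroup.center G :=
      Subgroup.pow_mem _ z₀.2 _
    intro x hx
    by_cases hx1 : x = 1
    · rw [hx1]; exact Subgroup.one_mem _
    · obtain ⟨a, ha⟩ := htrans _ x hz1 hz2 hx1 hx
      rw [← ha, Subgroup.mem_center_iff]
      intro g
      have h1 : (a.symm g) * (z₀ : G) ^ (orderOf (z₀ : G) / 2) =
          (z₀ : G) ^ (orderOf (z₀ : G) / 2) * (a.symm g) :=
        Subgroup.mem_center_iff.mp hzc (a.symm g)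
      have h2 := congrArg a h1
      rw [map_mul, map_mul, MulEquiv.apply_symm_apply] at h2
      exact h2
  refine ⟨hcen, ?_⟩
  let W : Subgroup G :=
    { carrier := {z | z ^ 2 = 1}
      mul_mem' := by
        intro a b ha hb
        have hc : Commute a b := Subgroup.mem_center_iff.mp (hcen b hb) a
        show (a * b) ^ 2 = 1
        rw [hc.mul_pow, show a ^ 2 = 1 from ha, show b ^ 2 = 1 from hb, one_mul]
      one_mem' := by
        show (1 : G) ^ 2 = 1
        exact one_pow 2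
      inv_mem' := by
        intro a ha
        show a⁻¹ ^ 2 = 1
        rw [inv_pow, show a ^ 2 = 1 from ha, inv_one] }
  have hWmem : ∀ z : G, z ∈ W ↔ z ^ 2 = 1 := fun z => Iff.rfl
  have hWcard : Nat.card W = Nat.card {z : G // z ^ 2 = 1} :=
    Nat.card_congr (Equiv.subtypeEquivRight hWmem)
  obtain ⟨n, hn⟩ := IsPGroup.iff_card.mp (hG.to_subgroup W)
  obtain ⟨M, hM⟩ := IsPGroup.iff_card.mp hG
  have hmaps : (((Finset.univ : Finset G).erase 1 : Finset G) : Set G).MapsTo
      (fun x : G => x ^ (orderOf x / 2))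
      ((Finset.univ.filter (fun v : G => v ^ 2 = 1)).erase 1 : Finset G) := by
    intro x hx
    have hx1 : x ≠ 1 := (Finset.mem_erase.mp (Finset.mem_coe.mp hx)).1
    obtain ⟨h1, h2⟩ := hinv x hx1
    exact Finset.mem_coe.mpr
      (Finset.mem_erase.mpr ⟨h1, Finset.mem_filter.mpr ⟨Finset.mem_univ _, h2⟩⟩)
  have hsum := Finset.card_eq_sum_card_fiberwise hmaps
  have hfib : ∀ v w : G, v ≠ 1 → v ^ 2 = 1 → w ≠ 1 → w ^ 2 = 1 →
      (((Finset.univ : Finset G).erase 1).filter (fun x => x ^ (orderOf x / 2) = v)).card ≤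
      (((Finset.univ : Finset G).erase 1).filter (fun x => x ^ (orderOf x / 2) = w)).card := by
    intro v w hv1 hv2 hw1 hw2
    obtain ⟨a, ha⟩ := htrans v w hv1 hv2 hw1 hw2
    apply Finset.card_le_card_of_injOn (fun x => a x)
    · intro x hx
      have hx' := Finset.mem_filter.mp (Finset.mem_coe.mp hx)
      have hx1 : x ≠ 1 := (Finset.mem_erase.mp hx'.1).1
      refine Finset.mem_coe.mpr
        (Finset.mem_filter.mpr ⟨Finset.mem_erase.mpr ⟨?_, Finset.mem_univ _⟩, ?_⟩)
      · intro h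
        apply hx1
        have h3 : a x = a 1 := by rw [map_one]; exact h
        exact a.injective h3
      · show (a x) ^ (orderOf (a x) / 2) = w
        rw [MulEquiv.orderOf_eq, ← map_pow, hx'.2, ha]
    · intro x _ y _ hxy
      exact a.injective hxy
  obtain ⟨v₀, hv₀1, hv₀2⟩ : ∃ v : G, v ≠ 1 ∧ v ^ 2 = 1 := by
    obtain ⟨x, hx⟩ := exists_ne (1 : G)
    exact ⟨_, (hinv x hx).1, (hinv x hx).2⟩
  have hconst : ∀ b ∈ (Finset.univ.filter (fun v : G => v ^ 2 = 1)).erase 1,
      (((Finset.univ : Finset G).erase 1).filter (fun x => x ^ (orderOf x / 2) = b)).card =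
      (((Finset.univ : Finset G).erase 1).filter (fun x => x ^ (orderOf x / 2) = v₀)).card := by
    intro b hb
    have hb1 : b ≠ 1 := (Finset.mem_erase.mp hb).1
    have hb2 : b ^ 2 = 1 := (Finset.mem_filter.mp (Finset.mem_erase.mp hb).2).2
    exact le_antisymm (hfib b v₀ hb1 hb2 hv₀1 hv₀2) (hfib v₀ b hv₀1 hv₀2 hb1 hb2)
  have h6 := hsum.trans (Finset.sum_const_nat hconst)
  have h1mem : (1 : G) ∈ Finset.univ.filter (fun v : G => v ^ 2 = 1) :=
    Finset.mem_filter.mpr ⟨Finset.mem_univ _, one_pow 2⟩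
  rw [Finset.card_erase_of_mem (Finset.mem_univ (1 : G)), Finset.card_univ,
    Finset.card_erase_of_mem h1mem,
    ← Fintype.card_subtype, ← Nat.card_eq_fintype_card, ← Nat.card_eq_fintype_card, ← hWcard, hn,
    hM] at h6
  have hdvd : n ∣ M := dvd_of_pow_sub_one_dvd n M ⟨_, h6⟩
  obtain ⟨k, hk⟩ := hdvd
  refine ⟨k, ?_⟩
  rw [hM, ← hWcard, hn, hk, pow_mul]

end Cfsg.Agent.S3774
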