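import Cfsg.Statements.S3775
import Mathlib

set_option autoImplicit false
open Cfsg

namespace Cfsg.Agent.S3775

variable {A : Type*} [CommGroup A]

/-- invariance, elementwise form -/
def InvS (X : Subgroup (MulAut A)) (B : Subgroup A) : Prop := ∀ x ∈ X, ∀ b ∈ B, x b ∈ B

lemma inv_iff (X : Subgroup (MulAut A)) (B : Subgroup A) :
    (∀ x ∈ X, B.map x.toMonoidHom = B) ↔ InvS X B := by
  constructor
  · intro h x hx b hb
    have h1 := Subgroup.mem_map_of_mem x.toMonoidHom hb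
    rw [h x hx] at h1
    exact h1
  · intro h x hx
    apply le_antisymm
    · rintro _ ⟨b, hb, rfl⟩
      exact h x hx b hb
    · intro b hb
      exact ⟨x⁻¹ b, h x⁻¹ (X.inv_mem hx) b hb, MulAut.apply_inv_self _ x b⟩

lemma lemC {p : ℕ} (hp : p.Prime) (T K N : Subgroup A) (a : A) (hTK : T ⊓ K ≤ N)
    (hap : a ^ p ∈ T) (ha : a ∉ T ⊔ K) : (T ⊔ Subgroup.zpowers a) ⊓ K ≤ N := by
  intro k hk
  obtain ⟨hk1, hk2⟩ := Subgroup.mem_inf.1 hk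
  obtain ⟨t, ht, z, hz, rfl⟩ := Subgroup.mem_sup.1 hk1
  obtain ⟨i, rfl⟩ := Subgroup.mem_zpowers_iff.1 hz
  by_cases hpi : (p : ℤ) ∣ i
  · obtain ⟨j, rfl⟩ := hpi
    apply hTK
    refine Subgroup.mem_inf.2 ⟨T.mul_mem ht ?_, hk2⟩
    rw [zpow_mul, zpow_natCast]
    exact T.zpow_mem hap j
  · exfalso
    have hcop : IsCoprime (p : ℤ) i :=
      ((Nat.prime_iff_prime_int.1 hp).coprime_iff_not_dvd).2 hpi
    obtain ⟨u, v, huv⟩ := hcop
    apply ha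
    have h1 : (a ^ p) ^ u * ((t⁻¹) ^ v * (t * a ^ i) ^ v) = a := by
      rw [← mul_zpow, inv_mul_cancel_left, ← zpow_natCast, ← zpow_mul, ← zpow_mul, ← zpow_add]
      have h2 : (p : ℤ) * u + i * v = 1 := by linarith
      rw [h2, zpow_one]
    rw [← h1]
    exact Subgroup.mul_mem _ (Subgroup.mem_sup_left (T.zpow_mem hap u))
      (Subgroup.mul_mem _ (Subgroup.mem_sup_left (T.zpow_mem (T.inv_mem ht) v))
        (Subgroup.mem_sup_right (K.zpow_mem hk2 v)))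

lemma exists_max_sub [Finite A] (P : Subgroup A → Prop) (T1 : Subgroup A) (h1 : P T1) :
    ∃ T, P T ∧ ∀ T', P T' → T ≤ T' → T' = T := by
  haveI : Nonempty {T : Subgroup A // P T} := ⟨⟨T1, h1⟩⟩
  obtain ⟨⟨T, hT⟩, hmax⟩ := Finite.exists_max (fun T : {T : Subgroup A // P T} => Nat.card T.1)
  refine ⟨T, hT, fun T' hT' hle => ?_⟩
  exact (Subgroup.eq_of_le_of_card_ge hle (hmax ⟨T', hT'⟩)).symm

lemma exists_min_sub [Finite A] (P : Subgroup A → Prop) (T1 : Subgroup A) (h1 : P T1) :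
    ∃ T, P T ∧ ∀ T', P T' → T' ≤ T → T' = T := by
  haveI : Nonempty {T : Subgroup A // P T} := ⟨⟨T1, h1⟩⟩
  obtain ⟨⟨T, hT⟩, hmin⟩ := Finite.exists_min (fun T : {T : Subgroup A // P T} => Nat.card T.1)
  refine ⟨T, hT, fun T' hT' hle => ?_⟩
  exact Subgroup.eq_of_le_of_card_ge hle (hmin ⟨T', hT'⟩)

lemma exists_pow_inv [Finite A] {p : ℕ} [Fact p.Prime] (hA : IsPGroup p A) (c : ℕ)
    (hc : c.Coprime p) : ∃ m : ℕ, ∀ a : A, (a ^ c) ^ m = a := by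
  obtain ⟨e, he⟩ := IsPGroup.iff_card.1 hA
  by_cases h1 : Nat.card A = 1
  · refine ⟨0, fun a => ?_⟩
    have h2 : a ^ Nat.card A = 1 := pow_card_eq_one'
    rw [h1, pow_one] at h2
    rw [h2, pow_zero]
  · have hM : 1 < Nat.card A := by
      have h3 : Nat.card A ≠ 0 := Nat.card_pos.ne'
      omega
    have hcop : c.Coprime (Nat.card A) := by
      rw [he]; exact Nat.Coprime.pow_right e hc
    obtain ⟨m, -, hm⟩ := Nat.exists_mul_mod_eq_one_of_coprime hcop hM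
    refine ⟨m, fun a => ?_⟩
    rw [← pow_mul, ← pow_mod_natCard, hm, pow_one]

lemma exists_order_p {p : ℕ} (hA : IsPGroup p A) (B : Subgroup A) (hB : B ≠ ⊥) :
    ∃ c ∈ B, c ≠ 1 ∧ c ^ p = 1 := by
  by_contra hcon
  apply hB
  rw [eq_bot_iff]
  intro b hb
  rw [Subgroup.mem_bot]
  obtain ⟨k, hk⟩ := hA b
  have key : ∀ (k : ℕ) (b : A), b ∈ B → b ^ p ^ k = 1 → b = 1 := by
    intro k
    induction k with
    | zero => intro b _ h; simpa using h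
    | succ k ih =>
      intro b hb h
      apply ih b hb
      by_contra h1
      exact hcon ⟨b ^ p ^ k, B.pow_mem hb _, h1, by rw [← pow_mul, ← pow_succ]; exact h⟩
  exact key k b hb hk

lemma exists_pow_mem {p : ℕ} (S : Subgroup A) : ∀ (k : ℕ) (a : A), a ^ p ^ k ∈ S → a ∉ S →
    ∃ b : A, b ∉ S ∧ b ^ p ∈ S := by
  intro k
  induction k with
  | zero =>
    intro a h1 h2
    rw [pow_zero, pow_one] at h1
    exact absurd h1 h2
  | succ k ih =>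
    intro a h1 h2
    by_cases h3 : a ^ p ∈ S
    · exact ⟨a, h2, h3⟩
    · exact ih (a ^ p) (by rw [← pow_mul, ← pow_succ']; exact h1) h3

lemma exists_exp {p : ℕ} : ∀ (k : ℕ), (∀ a : A, a ^ p ^ k = 1) → (∃ a : A, a ≠ 1) →
    ∃ n : ℕ, (∀ a : A, a ^ p ^ (n + 1) = 1) ∧ ∃ a1 : A, a1 ^ p ^ n ≠ 1 := by
  intro k
  induction k with
  | zero =>
    intro h hne
    obtain ⟨a, ha⟩ := hne
    exact absurd (by simpa using h a) ha
  | succ k ih =>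
    intro h hne
    by_cases h2 : ∀ a : A, a ^ p ^ k = 1
    · exact ih h2 hne
    · push Not at h2
      exact ⟨k, h, h2⟩

/-- the averaging argument, with the two quotient maps abstracted -/
lemma gal_core [Finite A] {B C : Type*} [CommGroup B] [CommGroup C]
    (X : Subgroup (MulAut A)) (m : ℕ) (hm : ∀ a : A, (a ^ Nat.card X) ^ m = a)
    (Q K N T0 : Subgroup A) (π : A →* B) (hπ : ∀ a : A, π a = 1 ↔ a ∈ N)
    (ρ : A →* C) (hρ : ∀ a : A, ρ a = 1 ↔ a ∈ T0)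
    (hQ : InvS X Q) (hK : InvS X K) (hN : InvS X N)
    (hNT : N ≤ T0) (hTQ : T0 ≤ Q) (hKQ : K ≤ Q) (hsup : Q ≤ T0 ⊔ K) (hinf : T0 ⊓ K ≤ N) :
    ∃ T : Subgroup A, InvS X T ∧ N ≤ T ∧ T ≤ Q ∧ Q ≤ T ⊔ K ∧ T ⊓ K ≤ N := by
  classical
  haveI : Fintype ↥X := Fintype.ofFinite _
  have hκ : ∀ a : A, ∃ k : A, k ∈ K ∧ (a ∈ Q → ρ k = ρ a) := by
    intro a
    by_cases ha : a ∈ Q
    · obtain ⟨t, ht, k, hk, rfl⟩ := Subgroup.mem_sup.1 (hsup ha)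
      exact ⟨k, hk, fun _ => by rw [map_mul, (hρ t).2 ht, one_mul]⟩
    · exact ⟨1, K.one_mem, fun h => absurd h ha⟩
  choose κ hκK hκρ using hκ
  have hπx : ∀ x ∈ X, ∀ a b : A, π a = π b → π (x a) = π (x b) := by
    intro x hx a b hab
    have h1 : π (a * b⁻¹) = 1 := by rw [map_mul, map_inv, hab, mul_inv_cancel]
    have h2 : π (x (a * b⁻¹)) = 1 := (hπ _).2 (hN x hx _ ((hπ _).1 h1))
    rw [map_mul, map_inv, map_mul, map_inv, mul_inv_eq_one] at h2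
    exact h2
  have hKN : ∀ k ∈ K, ∀ k' ∈ K, ρ k = ρ k' → π k = π k' := by
    intro k hk k' hk' h
    have h1 : k * k'⁻¹ ∈ N := by
      apply hinf
      refine Subgroup.mem_inf.2 ⟨(hρ _).1 ?_, K.mul_mem hk (K.inv_mem hk')⟩
      rw [map_mul, map_inv, h, mul_inv_cancel]
    have h2 := (hπ _).2 h1
    rw [map_mul, map_inv, mul_inv_eq_one] at h2
    exact h2
  have hκmul : ∀ q ∈ Q, ∀ q' ∈ Q, π (κ (q * q')) = π (κ q) * π (κ q') := by
    intro q hq q' hq'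
    rw [← map_mul]
    apply hKN _ (hκK _) _ (K.mul_mem (hκK _) (hκK _))
    rw [hκρ _ (Q.mul_mem hq hq'), map_mul, map_mul, hκρ _ hq, hκρ _ hq']
  have hκK' : ∀ k ∈ K, π (κ k) = π k := by
    intro k hk
    exact hKN _ (hκK _) _ hk (hκρ _ (hKQ hk))
  have hκT : ∀ t ∈ T0, π (κ t) = 1 := by
    intro t ht
    rw [← map_one π]
    apply hKN _ (hκK _) _ K.one_mem
    rw [hκρ _ (hTQ ht), map_one, (hρ t).2 ht]
  obtain ⟨θ, hθdef⟩ : ∃ θ : A → A, ∀ a : A,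
      θ a = ∏ x : ↥X, (x : MulAut A)⁻¹ (κ ((x : MulAut A) a)) := ⟨_, fun _ => rfl⟩
  have hθK : ∀ q ∈ Q, θ q ∈ K := by
    intro q hq
    rw [hθdef]
    apply Subgroup.prod_mem
    intro x _
    exact hK _ (X.inv_mem x.2) _ (hκK _)
  have hθmul : ∀ q ∈ Q, ∀ q' ∈ Q, π (θ (q * q')) = π (θ q) * π (θ q') := by
    intro q hq q' hq'
    rw [hθdef, hθdef, hθdef, map_prod, map_prod, map_prod, ← Finset.prod_mul_distrib]
    apply Finset.prod_congr rfl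
    intro x _
    have e1 : π ((x : MulAut A)⁻¹ (κ ((x : MulAut A) (q * q')))) =
        π ((x : MulAut A)⁻¹ (κ ((x : MulAut A) q) * κ ((x : MulAut A) q'))) := by
      apply hπx _ (X.inv_mem x.2)
      rw [map_mul (x : MulAut A) q q', hκmul _ (hQ _ x.2 _ hq) _ (hQ _ x.2 _ hq'), map_mul]
    rw [e1, map_mul, map_mul]
  have hθK' : ∀ k ∈ K, π (θ k) = π k ^ Nat.card X := by
    intro k hk
    rw [hθdef, map_prod, Nat.card_eq_fintype_card, ← Finset.card_univ, ← Finset.prod_const]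
    apply Finset.prod_congr rfl
    intro x _
    have e1 : π ((x : MulAut A)⁻¹ (κ ((x : MulAut A) k))) =
        π ((x : MulAut A)⁻¹ ((x : MulAut A) k)) := by
      apply hπx _ (X.inv_mem x.2)
      exact hκK' _ (hK _ x.2 _ hk)
    rw [e1, MulAut.inv_apply_self]
  have hθN : ∀ n ∈ N, θ n ∈ N := by
    intro n hn
    rw [hθdef]
    apply Subgroup.prod_mem
    intro x _
    exact hN _ (X.inv_mem x.2) _ ((hπ _).1 (hκT _ (hNT (hN _ x.2 _ hn))))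
  have hθeq : ∀ y ∈ X, ∀ a : A, θ (y a) = y (θ a) := by
    intro y hy a
    rw [hθdef, hθdef, map_prod]
    apply Fintype.prod_equiv (Equiv.mulRight (⟨y, hy⟩ : ↥X))
    intro x
    simp only [Equiv.coe_mulRight, Subgroup.coe_mul, mul_inv_rev, MulAut.mul_apply,
      MulAut.apply_inv_self]
  have hθ1 : π (θ 1) = 1 := (hπ _).2 (hθN 1 N.one_mem)
  obtain ⟨T, hTmem⟩ : ∃ T : Subgroup A, ∀ q : A, q ∈ T ↔ (q ∈ Q ∧ π (θ q) = 1) :=
    ⟨{ carrier := {q | q ∈ Q ∧ π (θ q) = 1}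
       mul_mem' := by
         rintro a b ⟨ha, ha'⟩ ⟨hb, hb'⟩
         exact ⟨Q.mul_mem ha hb, by rw [hθmul a ha b hb, ha', hb', one_mul]⟩
       one_mem' := ⟨Q.one_mem, hθ1⟩
       inv_mem' := by
         rintro a ⟨ha, ha'⟩
         refine ⟨Q.inv_mem ha, ?_⟩
         have h := hθmul a ha a⁻¹ (Q.inv_mem ha)
         rw [mul_inv_cancel, hθ1, ha', one_mul] at h
         exact h.symm }, fun q => Iff.rfl⟩
  refine ⟨T, ?_, ?_, ?_, ?_, ?_⟩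
  · intro y hy q hq
    obtain ⟨hq1, hq2⟩ := (hTmem q).1 hq
    refine (hTmem _).2 ⟨hQ y hy q hq1, ?_⟩
    rw [hθeq y hy q]
    exact (hπ _).2 (hN y hy _ ((hπ _).1 hq2))
  · intro n hn
    exact (hTmem _).2 ⟨hTQ (hNT hn), (hπ _).2 (hθN n hn)⟩
  · intro q hq
    exact ((hTmem q).1 hq).1
  · intro q hq
    have hk' : (θ q)⁻¹ ^ m ∈ K := K.pow_mem (K.inv_mem (hθK q hq)) m
    have e1 : π (θ ((θ q)⁻¹ ^ m)) = (π (θ q))⁻¹ := by
      rw [hθK' _ hk', ← map_pow, ← pow_mul, mul_comm, pow_mul, hm, map_inv]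
    have e2 : q * (θ q)⁻¹ ^ m ∈ T :=
      (hTmem _).2 ⟨Q.mul_mem hq (hKQ hk'), by rw [hθmul q hq _ (hKQ hk'), e1, mul_inv_cancel]⟩
    have e3 : (q * (θ q)⁻¹ ^ m) * ((θ q)⁻¹ ^ m)⁻¹ = q := by rw [mul_inv_cancel_right]
    rw [← e3]
    exact Subgroup.mul_mem _ (Subgroup.mem_sup_left e2) (Subgroup.mem_sup_right (K.inv_mem hk'))
  · intro k hk
    obtain ⟨hk1, hk2⟩ := Subgroup.mem_inf.1 hk
    have e1 := ((hTmem k).1 hk1).2
    rw [hθK' k hk2, ← map_pow] at e1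
    have e2 := N.pow_mem ((hπ _).1 e1) m
    rw [hm] at e2
    exact e2

lemma gal [Finite A] {p : ℕ} [Fact p.Prime] (hA : IsPGroup p A) (X : Subgroup (MulAut A))
    (hX : (Nat.card X).Coprime p) (Q K N T0 : Subgroup A)
    (hQ : InvS X Q) (hK : InvS X K) (hN : InvS X N)
    (hNT : N ≤ T0) (hTQ : T0 ≤ Q) (hKQ : K ≤ Q) (hsup : Q ≤ T0 ⊔ K) (hinf : T0 ⊓ K ≤ N) :
    ∃ T : Subgroup A, InvS X T ∧ N ≤ T ∧ T ≤ Q ∧ Q ≤ T ⊔ K ∧ T ⊓ K ≤ N := by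
  obtain ⟨m, hm⟩ := exists_pow_inv hA (Nat.card X) hX
  exact gal_core X m hm Q K N T0 (QuotientGroup.mk' N)
    (fun a => by rw [← MonoidHom.mem_ker, QuotientGroup.ker_mk'])
    (QuotientGroup.mk' T0) (fun a => by rw [← MonoidHom.mem_ker, QuotientGroup.ker_mk'])
    hQ hK hN hNT hTQ hKQ hsup hinf

lemma lemM [Finite A] {p : ℕ} [Fact p.Prime] (hA : IsPGroup p A) (X : Subgroup (MulAut A))
    (hX : (Nat.card X).Coprime p) (n : ℕ) (hexp : ∀ a : A, a ^ p ^ (n + 1) = 1)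
    (U : Subgroup A) (hU : InvS X U) (hUr : ∀ u ∈ U, ∃ a : A, a ^ p ^ n = u) :
    ∃ Q R : Subgroup A, InvS X Q ∧ InvS X R ∧ Q ⊓ R = ⊥ ∧ Q ⊔ R = ⊤ ∧ U ≤ Q ∧
      ∀ q ∈ Q, q ^ p = 1 → q ∈ U := by
  have hp : p.Prime := Fact.out
  obtain ⟨Q1, hQ1⟩ : ∃ Q1 : Subgroup A, ∀ a, a ∈ Q1 ↔ a ^ p ^ n ∈ U :=
    ⟨U.comap (powMonoidHom (p ^ n)), fun a => by rw [Subgroup.mem_comap, powMonoidHom_apply]⟩
  have hQ1inv : InvS X Q1 := by
    intro x hx a ha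
    rw [hQ1] at ha ⊢
    rw [← map_pow]
    exact hU x hx _ ha
  have hQ1U : ∀ u : A, u ∈ U ↔ ∃ q ∈ Q1, q ^ p ^ n = u := by
    intro u
    constructor
    · intro hu
      obtain ⟨a, ha⟩ := hUr u hu
      exact ⟨a, (hQ1 a).2 (ha ▸ hu), ha⟩
    · rintro ⟨q, hq, rfl⟩
      exact (hQ1 q).1 hq
  obtain ⟨Q, ⟨hQ, hQU⟩, hQmin⟩ := exists_min_sub
    (fun Q : Subgroup A => InvS X Q ∧ ∀ u : A, u ∈ U ↔ ∃ q ∈ Q, q ^ p ^ n = u) Q1
    ⟨hQ1inv, hQ1U⟩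
  obtain ⟨K, hKmem⟩ : ∃ K : Subgroup A, ∀ a, a ∈ K ↔ (a ∈ Q ∧ a ^ p ^ n = 1) :=
    ⟨Q ⊓ (powMonoidHom (p ^ n)).ker, fun a => by
      rw [Subgroup.mem_inf, MonoidHom.mem_ker, powMonoidHom_apply]⟩
  obtain ⟨N, hNmem⟩ : ∃ N : Subgroup A, ∀ a, a ∈ N ↔ ∃ q ∈ Q, q ^ p = a :=
    ⟨Q.map (powMonoidHom p), fun a => by simp only [Subgroup.mem_map, powMonoidHom_apply]⟩
  have hKinv : InvS X K := by
    intro x hx a ha
    rw [hKmem] at ha ⊢
    exact ⟨hQ x hx a ha.1, by rw [← map_pow, ha.2, map_one]⟩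
  have hNinv : InvS X N := by
    intro x hx a ha
    rw [hNmem] at ha ⊢
    obtain ⟨q, hq, rfl⟩ := ha
    exact ⟨x q, hQ x hx q hq, by rw [map_pow]⟩
  have hNK : N ≤ K := by
    intro a ha
    obtain ⟨q, hq, rfl⟩ := (hNmem a).1 ha
    exact (hKmem _).2 ⟨Q.pow_mem hq _, by rw [← pow_mul, ← pow_succ']; exact hexp q⟩
  have hKQ : K ≤ Q := fun a ha => ((hKmem a).1 ha).1
  have hNQ : N ≤ Q := hNK.trans hKQ
  -- property (P)
  have hP : ∀ q ∈ Q, q ^ p ^ n = 1 → ∃ q1 ∈ Q, q1 ^ p = q := by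
    obtain ⟨T0, ⟨hNT, hTQ, hinf⟩, hmax⟩ := exists_max_sub
      (fun T : Subgroup A => N ≤ T ∧ T ≤ Q ∧ T ⊓ K ≤ N) N ⟨le_refl N, hNQ, inf_le_left⟩
    have hsup : Q ≤ T0 ⊔ K := by
      by_contra hcon
      obtain ⟨a, haQ, ha⟩ := SetLike.not_le_iff_exists.1 hcon
      have hap : a ^ p ∈ T0 := hNT ((hNmem _).2 ⟨a, haQ, rfl⟩)
      have hC := lemC hp T0 K N a hinf hap ha
      have hE := hmax (T0 ⊔ Subgroup.zpowers a)
        ⟨le_sup_of_le_left hNT, sup_le hTQ ((Subgroup.zpowers_le).2 haQ), hC⟩ le_sup_left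
      apply ha
      apply Subgroup.mem_sup_left
      rw [← hE]
      exact Subgroup.mem_sup_right (Subgroup.mem_zpowers a)
    obtain ⟨T, hTinv, hNT', hTQ', hsup', hinf'⟩ :=
      gal hA X hX Q K N T0 hQ hKinv hNinv hNT hTQ hKQ hsup hinf
    have hTeq : T = Q := by
      apply hQmin T ⟨hTinv, ?_⟩ hTQ'
      intro u
      constructor
      · intro hu
        obtain ⟨q, hq, rfl⟩ := (hQU u).1 hu
        obtain ⟨t, ht, k, hk, rfl⟩ := Subgroup.mem_sup.1 (hsup' hq)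
        exact ⟨t, ht, by rw [mul_pow, ((hKmem k).1 hk).2, mul_one]⟩
      · rintro ⟨t, ht, rfl⟩
        exact (hQU _).2 ⟨t, hTQ' ht, rfl⟩
    intro q hq hqn
    have hqT : q ∈ T := by rw [hTeq]; exact hq
    have h1 : q ∈ N := hinf' (Subgroup.mem_inf.2 ⟨hqT, (hKmem q).2 ⟨hq, hqn⟩⟩)
    exact (hNmem q).1 h1
  -- complement
  obtain ⟨R0, hR0, hR0max⟩ := exists_max_sub
    (fun R : Subgroup A => R ⊓ Q ≤ ⊥) ⊥ inf_le_left
  have hRQ : (⊤ : Subgroup A) ≤ R0 ⊔ Q := by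
    by_contra hcon
    obtain ⟨a, -, ha⟩ := SetLike.not_le_iff_exists.1 hcon
    obtain ⟨b, hb1, hb2⟩ := exists_pow_mem (p := p) (R0 ⊔ Q) (n + 1) a
      (by rw [hexp]; exact Subgroup.one_mem _) ha
    obtain ⟨r, hr, q, hq, hrq⟩ := Subgroup.mem_sup.1 hb2
    have hq1 : q ^ p ^ n = 1 := by
      have h1 : q ^ p ^ n ∈ R0 ⊓ Q := by
        refine Subgroup.mem_inf.2 ⟨?_, Q.pow_mem hq _⟩
        have h2 : r ^ p ^ n * q ^ p ^ n = 1 := by
          rw [← mul_pow, hrq, ← pow_mul, ← pow_succ']; exact hexp b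
        rw [eq_inv_of_mul_eq_one_right h2]
        exact R0.inv_mem (R0.pow_mem hr _)
      exact Subgroup.mem_bot.1 (hR0 h1)
    obtain ⟨q1, hq1Q, hq1p⟩ := hP q hq hq1
    have ha' : (b * q1⁻¹) ^ p ∈ R0 := by
      have h3 : (b * q1⁻¹) ^ p = r := by
        rw [mul_pow, inv_pow, hq1p, ← hrq, mul_inv_cancel_right]
      rw [h3]; exact hr
    have ha'' : b * q1⁻¹ ∉ R0 ⊔ Q := by
      intro h
      apply hb1
      have h4 : (b * q1⁻¹) * q1 = b := by rw [inv_mul_cancel_right]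
      rw [← h4]
      exact Subgroup.mul_mem _ h (Subgroup.mem_sup_right hq1Q)
    have hC := lemC hp R0 Q ⊥ (b * q1⁻¹) hR0 ha' ha''
    have hE := hR0max (R0 ⊔ Subgroup.zpowers (b * q1⁻¹)) hC le_sup_left
    apply ha''
    apply Subgroup.mem_sup_left
    rw [← hE]
    exact Subgroup.mem_sup_right (Subgroup.mem_zpowers _)
  have hTopInv : InvS X (⊤ : Subgroup A) := fun _ _ _ _ => Subgroup.mem_top _
  have hBotInv : InvS X (⊥ : Subgroup A) := by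
    intro x _ b hb
    rw [Subgroup.mem_bot] at hb ⊢
    rw [hb, map_one]
  obtain ⟨R, hRinv, -, -, hRsup, hRinf⟩ :=
    gal hA X hX ⊤ Q ⊥ R0 hTopInv hQ hBotInv bot_le le_top le_top hRQ hR0
  refine ⟨Q, R, hQ, hRinv, ?_, ?_, ?_, ?_⟩
  · rw [inf_comm]; exact le_bot_iff.1 hRinf
  · rw [sup_comm]; exact top_le_iff.1 hRsup
  · intro u hu
    obtain ⟨q, hq, rfl⟩ := (hQU u).1 hu
    exact Q.pow_mem hq _
  · intro q hq hqp
    have hstep : ∀ j : ℕ, j ≤ n → ∃ q' ∈ Q, q' ^ p ^ j = q := by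
      intro j
      induction j with
      | zero => intro _; exact ⟨q, hq, by rw [pow_zero, pow_one]⟩
      | succ j ih =>
        intro hj
        obtain ⟨q', hq', hq'j⟩ := ih (by omega)
        have h1 : q' ^ p ^ n = 1 := by
          obtain ⟨d, hd⟩ : ∃ d, n = j + (d + 1) := ⟨n - j - 1, by omega⟩
          rw [hd, pow_add, pow_mul, hq'j, pow_succ', pow_mul, hqp, one_pow]
        obtain ⟨q'', hq'', hq''p⟩ := hP q' hq' h1
        exact ⟨q'', hq'', by rw [pow_succ', pow_mul, hq''p, hq'j]⟩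
    obtain ⟨q', hq', hq'n⟩ := hstep n le_rfl
    exact (hQU q).2 ⟨q', hq', hq'n⟩

lemma iii_imp_ii [Finite A] {p : ℕ} [Fact p.Prime] (hA : IsPGroup p A)
    (X : Subgroup (MulAut A))
    (hiii : ∀ B : Subgroup A, InvS X B → (∀ b ∈ B, b ^ p = 1) →
      B = ⊥ ∨ ∀ a : A, a ∈ B ↔ a ^ p = 1) :
    ∀ (k : ℕ) (B : Subgroup A), InvS X B → (∀ b ∈ B, b ^ p ^ k = 1) →
      ∃ i : ℕ, ∀ a : A, a ∈ B ↔ a ^ p ^ i = 1 := by
  intro k
  induction k with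
  | zero =>
    intro B _ hB
    refine ⟨0, fun a => ?_⟩
    rw [pow_zero, pow_one]
    exact ⟨fun ha => by simpa using hB a ha, fun ha => ha ▸ B.one_mem⟩
  | succ k ih =>
    intro B hBinv hB
    by_cases hB0 : B = ⊥
    · refine ⟨0, fun a => ?_⟩
      rw [hB0, pow_zero, pow_one, Subgroup.mem_bot]
    have hΩ : ∀ a : A, a ^ p = 1 → a ∈ B := by
      obtain ⟨W, hW⟩ : ∃ W : Subgroup A, ∀ a, a ∈ W ↔ (a ∈ B ∧ a ^ p = 1) :=
        ⟨B ⊓ (powMonoidHom p).ker, fun a => by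
          rw [Subgroup.mem_inf, MonoidHom.mem_ker, powMonoidHom_apply]⟩
      have hWinv : InvS X W := by
        intro x hx a ha
        rw [hW] at ha ⊢
        exact ⟨hBinv x hx a ha.1, by rw [← map_pow, ha.2, map_one]⟩
      rcases hiii W hWinv (fun b hb => ((hW b).1 hb).2) with h0 | h1
      · exfalso
        obtain ⟨c, hc, hc1, hcp⟩ := exists_order_p hA B hB0
        have h2 : c ∈ W := (hW c).2 ⟨hc, hcp⟩
        rw [h0, Subgroup.mem_bot] at h2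
        exact hc1 h2
      · intro a ha
        exact ((hW a).1 ((h1 a).2 ha)).1
    obtain ⟨Bp, hBp⟩ : ∃ Bp : Subgroup A, ∀ a, a ∈ Bp ↔ ∃ b ∈ B, b ^ p = a :=
      ⟨B.map (powMonoidHom p), fun a => by simp only [Subgroup.mem_map, powMonoidHom_apply]⟩
    have hBpinv : InvS X Bp := by
      intro x hx a ha
      rw [hBp] at ha ⊢
      obtain ⟨b, hb, rfl⟩ := ha
      exact ⟨x b, hBinv x hx b hb, by rw [map_pow]⟩
    obtain ⟨j, hj⟩ := ih Bp hBpinv (by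
      intro c hc
      obtain ⟨b, hb, rfl⟩ := (hBp c).1 hc
      rw [← pow_mul, ← pow_succ']
      exact hB b hb)
    refine ⟨j + 1, fun a => ⟨fun ha => ?_, fun ha => ?_⟩⟩
    · have h1 := (hj (a ^ p)).1 ((hBp _).2 ⟨a, ha, rfl⟩)
      rw [pow_succ', pow_mul]
      exact h1
    · have h1 : a ^ p ∈ Bp := (hj _).2 (by rw [← pow_mul, ← pow_succ']; exact ha)
      obtain ⟨b, hb, hbp⟩ := (hBp _).1 h1
      have h2 : a * b⁻¹ ∈ B := hΩ _ (by rw [mul_pow, inv_pow, hbp, mul_inv_cancel])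
      have h3 : a * b⁻¹ * b = a := by rw [inv_mul_cancel_right]
      rw [← h3]
      exact B.mul_mem h2 hb

lemma i_imp_iii [Finite A] {p : ℕ} [Fact p.Prime] (hA : IsPGroup p A) (X : Subgroup (MulAut A))
    (hX : (Nat.card X).Coprime p)
    (hi : ¬ ∃ B C : Subgroup A, B ≠ ⊥ ∧ C ≠ ⊥ ∧ InvS X B ∧ InvS X C ∧ B ⊓ C = ⊥ ∧ B ⊔ C = ⊤)
    (V : Subgroup A) (hV : InvS X V) (hVp : ∀ b ∈ V, b ^ p = 1) :
    V = ⊥ ∨ ∀ a : A, a ∈ V ↔ a ^ p = 1 := by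
  by_cases hV0 : V = ⊥
  · exact Or.inl hV0
  right
  by_contra hcon
  have hex : ∃ a : A, a ^ p = 1 ∧ a ∉ V := by
    by_contra h2
    apply hcon
    intro a
    exact ⟨hVp a, fun ha => by_contra fun h3 => h2 ⟨a, ha, h3⟩⟩
  obtain ⟨a0, ha0p, ha0V⟩ := hex
  apply hi
  obtain ⟨e, he⟩ := IsPGroup.iff_card.1 hA
  obtain ⟨c0, hc0, hc01, -⟩ := exists_order_p hA V hV0
  obtain ⟨n, hexp, a1, ha1⟩ := exists_exp (p := p) e
    (fun a : A => by rw [← he]; exact pow_card_eq_one') ⟨c0, hc01⟩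
  obtain ⟨W, hW⟩ : ∃ W : Subgroup A, ∀ c, c ∈ W ↔ ∃ a : A, a ^ p ^ n = c :=
    ⟨(powMonoidHom (p ^ n)).range, fun c => by
      simp only [MonoidHom.mem_range, powMonoidHom_apply]⟩
  have hWinv : InvS X W := by
    intro x hx c hc
    rw [hW] at hc ⊢
    obtain ⟨a, rfl⟩ := hc
    exact ⟨x a, by rw [map_pow]⟩
  have hWne : W ≠ ⊥ := by
    intro h0
    have h1 : a1 ^ p ^ n ∈ W := (hW _).2 ⟨a1, rfl⟩
    rw [h0, Subgroup.mem_bot] at h1
    exact ha1 h1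
  have hUex : ∃ U : Subgroup A, InvS X U ∧ U ≤ W ∧ U ≠ ⊥ ∧ ∃ a : A, a ^ p = 1 ∧ a ∉ U := by
    by_cases hc : ∀ a : A, a ^ p = 1 → a ∈ W
    · exact ⟨V, hV, fun v hv => hc v (hVp v hv), hV0, a0, ha0p, ha0V⟩
    · push Not at hc
      obtain ⟨a, ha1, ha2⟩ := hc
      exact ⟨W, hWinv, le_refl W, hWne, a, ha1, ha2⟩
  obtain ⟨U, hU, hUW, hUne, a2, ha2p, ha2U⟩ := hUex
  obtain ⟨Q, R, hQ, hR, hinf, hsup, hUQ, hQU⟩ :=
    lemM hA X hX n hexp U hU (fun u hu => (hW u).1 (hUW hu))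
  refine ⟨Q, R, ?_, ?_, hQ, hR, hinf, hsup⟩
  · intro hQ0
    apply hUne
    rw [eq_bot_iff, ← hQ0]
    exact hUQ
  · intro hR0
    rw [hR0, sup_bot_eq] at hsup
    apply ha2U
    exact hQU a2 (by rw [hsup]; exact Subgroup.mem_top _) ha2p

theorem main [Finite A] {p : ℕ} [Fact p.Prime] (hA : IsPGroup p A) (X : Subgroup (MulAut A))
    (hX : (Nat.card X).Coprime p) :
    ((¬ ∃ B C : Subgroup A, B ≠ ⊥ ∧ C ≠ ⊥ ∧ InvS X B ∧ InvS X C ∧ B ⊓ C = ⊥ ∧ B ⊔ C = ⊤) ↔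
      (∀ B : Subgroup A, InvS X B → ∃ i : ℕ, ∀ a : A, a ∈ B ↔ a ^ p ^ i = 1)) ∧
    ((∀ B : Subgroup A, InvS X B → ∃ i : ℕ, ∀ a : A, a ∈ B ↔ a ^ p ^ i = 1) ↔
      (∀ B : Subgroup A, InvS X B → (∀ b ∈ B, b ^ p = 1) →
        B = ⊥ ∨ ∀ a : A, a ∈ B ↔ a ^ p = 1)) := by
  have h21 : (∀ B : Subgroup A, InvS X B → ∃ i : ℕ, ∀ a : A, a ∈ B ↔ a ^ p ^ i = 1) →
      ¬ ∃ B C : Subgroup A, B ≠ ⊥ ∧ C ≠ ⊥ ∧ InvS X B ∧ InvS X C ∧ B ⊓ C = ⊥ ∧ B ⊔ C = ⊤ := by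
    rintro hii ⟨B, C, hB, hC, hBi, hCi, hinf, hsup⟩
    obtain ⟨i, hi⟩ := hii B hBi
    obtain ⟨j, hj⟩ := hii C hCi
    rcases le_total i j with hij | hij
    · apply hB
      rw [eq_bot_iff, ← hinf]
      intro a ha
      refine Subgroup.mem_inf.2 ⟨ha, (hj a).2 ?_⟩
      have h1 := (hi a).1 ha
      obtain ⟨d, rfl⟩ := Nat.exists_eq_add_of_le hij
      rw [pow_add, pow_mul, h1, one_pow]
    · apply hC
      rw [eq_bot_iff, ← hinf]
      intro a ha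
      refine Subgroup.mem_inf.2 ⟨(hi a).2 ?_, ha⟩
      have h1 := (hj a).1 ha
      obtain ⟨d, rfl⟩ := Nat.exists_eq_add_of_le hij
      rw [pow_add, pow_mul, h1, one_pow]
  have h23 : (∀ B : Subgroup A, InvS X B → ∃ i : ℕ, ∀ a : A, a ∈ B ↔ a ^ p ^ i = 1) →
      (∀ B : Subgroup A, InvS X B → (∀ b ∈ B, b ^ p = 1) →
        B = ⊥ ∨ ∀ a : A, a ∈ B ↔ a ^ p = 1) := by
    intro hii B hBinv hBp
    obtain ⟨i, hi⟩ := hii B hBinv
    rcases Nat.eq_zero_or_pos i with h0 | hpos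
    · left
      rw [eq_bot_iff]
      intro a ha
      have h1 := (hi a).1 ha
      rw [h0, pow_zero, pow_one] at h1
      rw [Subgroup.mem_bot]; exact h1
    · right
      intro a
      refine ⟨hBp a, fun ha => (hi a).2 ?_⟩
      obtain ⟨d, rfl⟩ : ∃ d, i = d + 1 := ⟨i - 1, by omega⟩
      rw [pow_succ', pow_mul, ha, one_pow]
  have h32 : (∀ B : Subgroup A, InvS X B → (∀ b ∈ B, b ^ p = 1) →
        B = ⊥ ∨ ∀ a : A, a ∈ B ↔ a ^ p = 1) →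
      (∀ B : Subgroup A, InvS X B → ∃ i : ℕ, ∀ a : A, a ∈ B ↔ a ^ p ^ i = 1) := by
    intro hiii B hB
    obtain ⟨e, he⟩ := IsPGroup.iff_card.1 hA
    exact iii_imp_ii hA X hiii e B hB (fun b _ => by rw [← he]; exact pow_card_eq_one')
  have h13 : (¬ ∃ B C : Subgroup A, B ≠ ⊥ ∧ C ≠ ⊥ ∧ InvS X B ∧ InvS X C ∧ B ⊓ C = ⊥ ∧
        B ⊔ C = ⊤) →
      (∀ B : Subgroup A, InvS X B → (∀ b ∈ B, b ^ p = 1) →
        B = ⊥ ∨ ∀ a : A, a ∈ B ↔ a ^ p = 1) := by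
    intro hi B hB hBp
    exact i_imp_iii hA X hX hi B hB hBp
  exact ⟨⟨fun h => h32 (h13 h), h21⟩, ⟨h23, h32⟩⟩

/-- Let A be a finite abelian p-group and X a group of automorphisms of A of order prime to p. Call a subgroup of A invariant when every element of X maps it onto itself. Then the following are equivalent: (i) A is not the direct product of two nontrivial invariant subgroups; (ii) every invariant subgroup of A is one of the subgroups Ω_i(A) = {a : a^(p^i) = 1}; (iii) the subgroup Ω₁(A) of elements of order dividing p has no invariant subgroups other than 1 and itself. -/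
theorem result {A : Type*} [CommGroup A] [Finite A] {p : ℕ} [Fact p.Prime] (hA : IsPGroup p A) (X : Subgroup (MulAut A)) (hX : (Nat.card X).Coprime p) : ((¬ ∃ B C : Subgroup A, B ≠ ⊥ ∧ C ≠ ⊥ ∧ (∀ x ∈ X, B.map x.toMonoidHom = B) ∧ (∀ x ∈ X, C.map x.toMonoidHom = C) ∧ B ⊓ C = ⊥ ∧ B ⊔ C = ⊤) ↔ (∀ B : Subgroup A, (∀ x ∈ X, B.map x.toMonoidHom = B) → ∃ i : ℕ, ∀ a : A, a ∈ B ↔ a ^ p ^ i = 1)) ∧ ((∀ B : Subgroup A, (∀ x ∈ X, B.map x.toMonoidHom = B) → ∃ i : ℕ, ∀ a : A, a ∈ B ↔ a ^ p ^ i = 1) ↔ (∀ B : Subgroup A, (∀ x ∈ X, B.map x.toMonoidHom = B) → (∀ b ∈ B, b ^ p = 1) → B = ⊥ ∨ ∀ a : A, a ∈ B ↔ a ^ p = 1)) := by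
  simp only [inv_iff]
  exact main hA X hX

end Cfsg.Agent.S3775
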