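import Cfsg.Statements.S3778
import Mathlib

set_option autoImplicit false
open Cfsg

namespace Cfsg.Agent.S3778

open scoped commutatorElement

/-- The lower central series of the whole group. -/
abbrev Gam (G : Type*) [Group G] (i : ℕ) : Subgroup G := (⊤ : Subgroup G).lowerCentralSeries i

theorem gam_normal (G : Type*) [Group G] (i : ℕ) : (Gam G i).Normal := inferInstance

/-- The centralizer of the section `A / B`. -/
def secCent {G : Type*} [Group G] (A B : Subgroup G) (hB : B.Normal) : Subgroup G where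
  carrier := {x | ∀ y ∈ A, x * y * x⁻¹ * y⁻¹ ∈ B}
  mul_mem' := by
    intro a b ha hb y hy
    have h1 : a * b * y * (a * b)⁻¹ * y⁻¹ =
        a * (b * y * b⁻¹ * y⁻¹) * a⁻¹ * (a * y * a⁻¹ * y⁻¹) := by group
    rw [h1]
    exact B.mul_mem (hB.conj_mem _ (hb y hy) a) (ha y hy)
  one_mem' := by
    intro y _
    have h1 : (1 : G) * y * 1⁻¹ * y⁻¹ = 1 := by group
    rw [h1]
    exact B.one_mem
  inv_mem' := by
    intro a ha y hy
    have h1 : a⁻¹ * y * a⁻¹⁻¹ * y⁻¹ = a⁻¹ * (a * y * a⁻¹ * y⁻¹)⁻¹ * a⁻¹⁻¹ := by group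
    rw [h1]
    exact hB.conj_mem _ (B.inv_mem (ha y hy)) a⁻¹

/-- The centralizer of `γ_i / γ_{i+2}`. -/
def Cs (G : Type*) [Group G] (i : ℕ) : Subgroup G :=
  secCent (Gam G i) (Gam G (i + 2)) (gam_normal G (i + 2))

theorem mem_Cs {G : Type*} [Group G] (i : ℕ) (x : G) :
    x ∈ Cs G i ↔ ∀ y ∈ Gam G i, x * y * x⁻¹ * y⁻¹ ∈ Gam G (i + 2) := Iff.rfl

theorem gam_strict {G : Type*} [Group G] (c : ℕ) (hc : Gam G c = ⊥)
    (hmin : ∀ m < c, Gam G m ≠ ⊥) (j : ℕ) (hj : j < c) : Gam G (j + 1) ≠ Gam G j := by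
  intro heq
  have h1 : ∀ k, Gam G (j + k) = Gam G j := by
    intro k
    induction k with
    | zero => rfl
    | succ k ih =>
      have h2 : Gam G (j + (k + 1)) = ⁅Gam G (j + k), (⊤ : Subgroup G)⁆ := rfl
      rw [h2, ih]
      exact heq
  have h3 := h1 (c - j)
  rw [show j + (c - j) = c by omega, hc] at h3
  exact hmin j hj h3.symm

theorem Cs_card {G : Type*} [Group G] [Finite G] {p : ℕ} [Fact p.Prime] (hG : IsPGroup p G)
    (i : ℕ) (hne : Gam G (i + 1 + 1) ≠ Gam G (i + 1)) : p * Nat.card (Cs G i) ≤ Nat.card G := by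
  have hp := (Fact.out : p.Prime)
  have hCs_ne : Cs G i ≠ ⊤ := by
    intro htop
    apply hne
    apply le_antisymm
    · exact (⊤ : Subgroup G).lowerCentralSeries_antitone (Nat.le_succ (i + 1))
    · show ⁅Gam G i, (⊤ : Subgroup G)⁆ ≤ Gam G (i + 1 + 1)
      rw [Subgroup.commutator_le]
      intro y hy x _
      have hx : x ∈ Cs G i := by rw [htop]; exact Subgroup.mem_top x
      have h1 : x * y * x⁻¹ * y⁻¹ ∈ Gam G (i + 2) := (mem_Cs i x).mp hx y hy
      have h2 : ⁅y, x⁆ = (x * y * x⁻¹ * y⁻¹)⁻¹ := by rw [commutatorElement_def]; group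
      rw [h2]
      exact Subgroup.inv_mem _ h1
  obtain ⟨e, he⟩ := hG.index (Cs G i)
  have he0 : e ≠ 0 := by
    intro h0
    rw [h0, pow_zero] at he
    exact hCs_ne (Subgroup.index_eq_one.mp he)
  have h1 := Subgroup.card_mul_index (Cs G i)
  rw [he] at h1
  rw [← h1, mul_comm]
  apply Nat.mul_le_mul_left
  calc p = p ^ 1 := (pow_one p).symm
    _ ≤ p ^ e := Nat.pow_le_pow_right hp.pos (Nat.one_le_iff_ne_zero.mpr he0)

theorem sup_ne_of_not_mem {G : Type*} [Group G] (x : G) (i : ℕ) (hx : x ∉ Cs G i) :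
    Subgroup.centralizer ({x} : Set G) ⊔ Gam G (i + 1) ≠
      Subgroup.centralizer ({x} : Set G) ⊔ Gam G i := by
  intro heq
  apply hx
  rw [mem_Cs]
  intro y hy
  have h1 : y ∈ Subgroup.centralizer ({x} : Set G) ⊔ Gam G (i + 1) := by
    rw [heq]
    exact Subgroup.mem_sup_right hy
  rw [← SetLike.mem_coe, Subgroup.mul_normal, Set.mem_mul] at h1
  obtain ⟨a, ha, y', hy', rfl⟩ := h1
  have hxa : x * a = a * x := Subgroup.mem_centralizer_iff.mp ha x rfl
  have h2 : x * (a * y') * x⁻¹ * (a * y')⁻¹ = a * (x * y' * x⁻¹ * y'⁻¹) * a⁻¹ := by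
    calc x * (a * y') * x⁻¹ * (a * y')⁻¹ = (x * a) * y' * x⁻¹ * y'⁻¹ * a⁻¹ := by group
      _ = (a * x) * y' * x⁻¹ * y'⁻¹ * a⁻¹ := by rw [hxa]
      _ = a * (x * y' * x⁻¹ * y'⁻¹) * a⁻¹ := by group
  have h3 : ⁅y', x⁆ ∈ Gam G (i + 1 + 1) :=
    Subgroup.commutator_mem_commutator hy' (Subgroup.mem_top x)
  have h4 : x * y' * x⁻¹ * y'⁻¹ = (⁅y', x⁆)⁻¹ := by rw [commutatorElement_def]; group
  have hmem : x * y' * x⁻¹ * y'⁻¹ ∈ Gam G (i + 2) := by
    rw [h4]
    exact Subgroup.inv_mem _ h3
  rw [h2]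
  exact (gam_normal G (i + 2)).conj_mem _ hmem a

open Classical in
theorem chain_card {G : Type*} [Group G] [Finite G] {p : ℕ} [Fact p.Prime] (hG : IsPGroup p G)
    (K : ℕ → Subgroup G) (hK : ∀ j, K (j + 1) ≤ K j) :
    ∀ m : ℕ, Nat.card (K m) * p ^ ((Finset.range m).filter (fun j => K (j + 1) ≠ K j)).card ≤
      Nat.card (K 0) := by
  classical
  have hp := (Fact.out : p.Prime)
  intro m
  induction m with
  | zero => simp
  | succ m ih =>
    rw [Finset.range_add_one, Finset.filter_insert]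
    by_cases h : K (m + 1) ≠ K m
    · rw [if_pos h, Finset.card_insert_of_notMem (by simp)]
      generalize ((Finset.range m).filter (fun j => K (j + 1) ≠ K j)).card = s at ih ⊢
      rw [pow_succ]
      obtain ⟨a, ha⟩ := IsPGroup.iff_card.mp (hG.to_subgroup (K (m + 1)))
      obtain ⟨a', ha'⟩ := IsPGroup.iff_card.mp (hG.to_subgroup (K m))
      have hlt : a < a' := by
        by_contra hge
        push Not at hge
        exact h (Subgroup.eq_of_le_of_card_ge (hK m)
          (by rw [ha, ha']; exact Nat.pow_le_pow_right hp.pos hge))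
      have h1 : Nat.card (K (m + 1)) * p ≤ Nat.card (K m) := by
        rw [ha, ha', ← pow_succ]
        exact Nat.pow_le_pow_right hp.pos hlt
      calc Nat.card (K (m + 1)) * (p ^ s * p) = (Nat.card (K (m + 1)) * p) * p ^ s := by ring
        _ ≤ Nat.card (K m) * p ^ s := Nat.mul_le_mul_right _ h1
        _ ≤ Nat.card (K 0) := ih
    · rw [if_neg h]
      push Not at h
      rw [h]
      exact ih

open Classical in
theorem card_I_le {G : Type*} [Group G] [Finite G] {p : ℕ} [Fact p.Prime] (hG : IsPGroup p G)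
    (b : ℕ) (x : G) (hb : (Subgroup.centralizer ({x} : Set G)).index ≤ p ^ b) (c : ℕ)
    (hc : Gam G c = ⊥) :
    ((Finset.range (c - 1)).filter (fun i => x ∉ Cs G i)).card ≤ b := by
  classical
  have hp := (Fact.out : p.Prime)
  have hK : ∀ j, Subgroup.centralizer ({x} : Set G) ⊔ Gam G (j + 1) ≤
      Subgroup.centralizer ({x} : Set G) ⊔ Gam G j :=
    fun j => sup_le_sup_left ((⊤ : Subgroup G).lowerCentralSeries_antitone (Nat.le_succ j)) _
  have h1 : Nat.card (Subgroup.centralizer ({x} : Set G) ⊔ Gam G c : Subgroup G) *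
      p ^ ((Finset.range c).filter (fun j => Subgroup.centralizer ({x} : Set G) ⊔ Gam G (j + 1) ≠
        Subgroup.centralizer ({x} : Set G) ⊔ Gam G j)).card ≤
      Nat.card (Subgroup.centralizer ({x} : Set G) ⊔ Gam G 0 : Subgroup G) :=
    chain_card hG (fun j => Subgroup.centralizer ({x} : Set G) ⊔ Gam G j) hK c
  have hKc : Subgroup.centralizer ({x} : Set G) ⊔ Gam G c = Subgroup.centralizer ({x} : Set G) := by
    rw [hc, sup_bot_eq]
  have hK0 : Subgroup.centralizer ({x} : Set G) ⊔ Gam G 0 = ⊤ := by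
    show Subgroup.centralizer ({x} : Set G) ⊔ (⊤ : Subgroup G) = ⊤
    exact sup_top_eq _
  rw [hKc, hK0, Subgroup.card_top] at h1
  have h2 := Subgroup.card_mul_index (Subgroup.centralizer ({x} : Set G))
  have hsub : ((Finset.range (c - 1)).filter (fun i => x ∉ Cs G i)) ⊆
      ((Finset.range c).filter (fun j => Subgroup.centralizer ({x} : Set G) ⊔ Gam G (j + 1) ≠
        Subgroup.centralizer ({x} : Set G) ⊔ Gam G j)) := by
    intro i hi
    rw [Finset.mem_filter, Finset.mem_range] at hi ⊢
    exact ⟨by omega, sup_ne_of_not_mem x i hi.2⟩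
  have h3 := Finset.card_le_card hsub
  have hCpos : 0 < Nat.card (Subgroup.centralizer ({x} : Set G)) := Nat.card_pos
  have h4 : p ^ ((Finset.range c).filter (fun j =>
      Subgroup.centralizer ({x} : Set G) ⊔ Gam G (j + 1) ≠
        Subgroup.centralizer ({x} : Set G) ⊔ Gam G j)).card ≤
      (Subgroup.centralizer ({x} : Set G)).index := by
    rw [← h2] at h1
    exact Nat.le_of_mul_le_mul_left h1 hCpos
  have h5 := (Nat.pow_le_pow_iff_right hp.one_lt).mp (h4.trans hb)
  omega

open Classical in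
theorem count_I {G : Type*} [Group G] [Fintype G] {p : ℕ} [Fact p.Prime] (c : ℕ)
    (hcard : ∀ i, i + 1 < c → p * Nat.card (Cs G i) ≤ Nat.card G) :
    (c - 1) * (p - 1) * Nat.card G ≤
      p * ∑ x : G, ((Finset.range (c - 1)).filter (fun i => x ∉ Cs G i)).card := by
  classical
  have hp := (Fact.out : p.Prime)
  have h1 : ∑ x : G, ((Finset.range (c - 1)).filter (fun i => x ∉ Cs G i)).card =
      ∑ i ∈ Finset.range (c - 1), (Finset.univ.filter (fun x : G => x ∉ Cs G i)).card := by
    simp only [Finset.card_filter]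
    exact Finset.sum_comm
  rw [h1, Finset.mul_sum]
  have h2 : ∀ i ∈ Finset.range (c - 1), (p - 1) * Nat.card G ≤
      p * (Finset.univ.filter (fun x : G => x ∉ Cs G i)).card := by
    intro i hi
    rw [Finset.mem_range] at hi
    have h3 := hcard i (by omega)
    have h4 : (Finset.univ.filter (fun x : G => x ∈ Cs G i)).card +
        (Finset.univ.filter (fun x : G => x ∉ Cs G i)).card = Nat.card G := by
      rw [Finset.card_filter_add_card_filter_not, Finset.card_univ,
        Nat.card_eq_fintype_card]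
    have h5 : Nat.card (Cs G i) = (Finset.univ.filter (fun x : G => x ∈ Cs G i)).card := by
      rw [Nat.card_eq_fintype_card]
      exact Fintype.card_of_subtype _ (fun x => by simp)
    rw [h5] at h3
    obtain ⟨P, hP⟩ : ∃ P, p = P + 1 := ⟨p - 1, by have := hp.pos; omega⟩
    rw [hP] at h3 ⊢
    rw [Nat.add_sub_cancel]
    have h6 : P * (Finset.univ.filter (fun x : G => x ∈ Cs G i)).card +
        P * (Finset.univ.filter (fun x : G => x ∉ Cs G i)).card = P * Nat.card G := by
      rw [← mul_add, h4]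
    nlinarith [h6, h3, h4]
  calc (c - 1) * (p - 1) * Nat.card G = ∑ i ∈ Finset.range (c - 1), (p - 1) * Nat.card G := by
        rw [Finset.sum_const, Finset.card_range, smul_eq_mul, mul_assoc]
    _ ≤ ∑ i ∈ Finset.range (c - 1), p * (Finset.univ.filter (fun x : G => x ∉ Cs G i)).card :=
        Finset.sum_le_sum h2

/-- If G is a finite p-group in which every conjugacy class has at most p^b elements (every element has centralizer of index at most p^b), then G is abelian when b = 0, and when b ≥ 1 its nilpotency class c satisfies (c − 1)(p − 1) < bp, that is c < bp/(p − 1) + 1, and hence c ≤ 2b. -/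
theorem result {G : Type*} [Group G] [Finite G] {p : ℕ} [Fact p.Prime] (hG : IsPGroup p G) (b : ℕ) (hb : ∀ x : G, (Subgroup.centralizer ({x} : Set G)).index ≤ p ^ b) : ∃ c : ℕ, (⊤ : Subgroup G).lowerCentralSeries c = ⊥ ∧ (b ≠ 0 → (c - 1) * (p - 1) < b * p ∧ c ≤ 2 * b) ∧ (b = 0 → c ≤ 1) := by
  classical
  have hp := (Fact.out : p.Prime)
  haveI : Fintype G := Fintype.ofFinite G
  haveI hnil : Group.IsNilpotent G := hG.isNilpotent
  have hex : ∃ n, (⊤ : Subgroup G).lowerCentralSeries n = ⊥ :=
    Subgroup.nilpotent_iff_lowerCentralSeries.mp hnil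
  by_cases hb0 : b = 0
  · refine ⟨1, ?_, fun h => absurd hb0 h, fun _ => le_rfl⟩
    show ⁅(⊤ : Subgroup G), (⊤ : Subgroup G)⁆ = ⊥
    rw [Subgroup.commutator_eq_bot_iff_le_centralizer]
    intro x _
    rw [Subgroup.mem_centralizer_iff]
    intro y _
    have h1 := hb y
    rw [hb0, pow_zero] at h1
    have h2 : (Subgroup.centralizer ({y} : Set G)).index = 1 := by
      have h0 := Subgroup.index_ne_zero_of_finite (H := Subgroup.centralizer ({y} : Set G))
      omega
    have h3 : x ∈ Subgroup.centralizer ({y} : Set G) := by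
      rw [Subgroup.index_eq_one.mp h2]
      exact Subgroup.mem_top x
    exact Subgroup.mem_centralizer_iff.mp h3 y rfl
  · obtain ⟨c, hc, hcmin⟩ : ∃ c, (⊤ : Subgroup G).lowerCentralSeries c = ⊥ ∧
        ∀ m < c, (⊤ : Subgroup G).lowerCentralSeries m ≠ ⊥ :=
      ⟨Nat.find hex, Nat.find_spec hex, fun m hm => Nat.find_min hex hm⟩
    refine ⟨c, hc, fun _ => ?_, fun h => absurd h hb0⟩
    have hmain : (c - 1) * (p - 1) < b * p := by
      by_cases hc2 : c ≤ 1
      · have h1 : c - 1 = 0 := by omega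
        rw [h1, zero_mul]
        exact Nat.mul_pos (Nat.pos_of_ne_zero hb0) hp.pos
      · push Not at hc2
        have hc' : Gam G c = ⊥ := hc
        have hCs_card : ∀ i, i + 1 < c → p * Nat.card (Cs G i) ≤ Nat.card G :=
          fun i hi => Cs_card hG i (gam_strict c hc' hcmin (i + 1) hi)
        by_contra hcon
        push Not at hcon
        have hIle : ∀ x : G, ((Finset.range (c - 1)).filter (fun i => x ∉ Cs G i)).card ≤ b :=
          fun x => card_I_le hG b x (hb x) c hc'
        have hcount := count_I (G := G) (p := p) c hCs_card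
        have hI1 : ((Finset.range (c - 1)).filter (fun i => (1 : G) ∉ Cs G i)).card = 0 := by
          rw [Finset.card_eq_zero, Finset.filter_eq_empty_iff]
          intro i _ h
          exact h (Subgroup.one_mem _)
        have hupper : ∑ x : G, ((Finset.range (c - 1)).filter (fun i => x ∉ Cs G i)).card ≤
            (Fintype.card G - 1) * b := by
          rw [← Finset.add_sum_erase Finset.univ _ (Finset.mem_univ (1 : G)), hI1, zero_add]
          calc ∑ x ∈ Finset.univ.erase (1 : G),
                ((Finset.range (c - 1)).filter (fun i => x ∉ Cs G i)).card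
              ≤ (Finset.univ.erase (1 : G)).card • b :=
                Finset.sum_le_card_nsmul _ _ _ (fun x _ => hIle x)
            _ = (Fintype.card G - 1) * b := by
                rw [Finset.card_erase_of_mem (Finset.mem_univ _), Finset.card_univ, smul_eq_mul]
        have hN : 0 < Fintype.card G := Fintype.card_pos
        rw [Nat.card_eq_fintype_card] at hcount
        have hQpos : 0 < (c - 1) * (p - 1) :=
          Nat.mul_pos (by omega) (by have := hp.two_le; omega)
        have h7 : (c - 1) * (p - 1) * Fintype.card G ≤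
            (Fintype.card G - 1) * ((c - 1) * (p - 1)) := by
          calc (c - 1) * (p - 1) * Fintype.card G
              ≤ p * ∑ x : G, ((Finset.range (c - 1)).filter (fun i => x ∉ Cs G i)).card := hcount
            _ ≤ p * ((Fintype.card G - 1) * b) := Nat.mul_le_mul_left _ hupper
            _ = (Fintype.card G - 1) * (b * p) := by ring
            _ ≤ (Fintype.card G - 1) * ((c - 1) * (p - 1)) := Nat.mul_le_mul_left _ hcon
        obtain ⟨N', hN'⟩ : ∃ N', Fintype.card G = N' + 1 := ⟨Fintype.card G - 1, by omega⟩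
        rw [hN', Nat.add_sub_cancel] at h7
        nlinarith
    refine ⟨hmain, ?_⟩
    by_contra hcon
    push Not at hcon
    have h1 : 2 * b ≤ c - 1 := by omega
    have hp2 : 2 ≤ p := hp.two_le
    have h2 : 2 * b * (p - 1) ≤ (c - 1) * (p - 1) := Nat.mul_le_mul_right _ h1
    obtain ⟨P, hP⟩ : ∃ P, p = P + 1 := ⟨p - 1, by omega⟩
    rw [hP] at hmain h2
    rw [Nat.add_sub_cancel] at hmain h2
    have hP1 : 1 ≤ P := by omega
    nlinarith

end Cfsg.Agent.S3778
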