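import Cfsg.Statements.S3780
import Mathlib
import Cfsg.Agent.Helper20.GenRank

set_option autoImplicit false
open Cfsg

namespace Cfsg.Agent.S3780

/-- Let V be a finite abelian p-group and α an automorphism of V of order p whose fixed-point subgroup has order p^n. Then V can be generated by pn elements: some subset of V with at most pn elements generates V. -/
theorem result {V : Type*} [CommGroup V] [Finite V] {p : ℕ} [Fact p.Prime] (hV : IsPGroup p V) (α : MulAut V) (hα : orderOf α = p) (n : ℕ) (hfix : Nat.card {v : V // α v = v} = p ^ n) : ∃ S : Finset V, S.card ≤ p * n ∧ Subgroup.closure (S : Set V) = ⊤ := by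
  classical
  have hp := (Fact.out : p.Prime)
  obtain ⟨e, he⟩ := hV.exists_card_eq
  have hcard : Nat.card (Additive V) = p ^ e := by
    rw [← he]
    exact Nat.card_congr Additive.toMul
  have hαp : α ^ p = 1 := by
    have h := pow_orderOf_eq_one α
    rw [hα] at h
    exact h
  have ha : (Cfsg.Agent.Helper20.mulAutToEnd V α) ^ p = 1 := by
    rw [← map_pow, hαp, map_one]
  have hfix' : Nat.card {x : Additive V // Cfsg.Agent.Helper20.mulAutToEnd V α x = x} ≤ p ^ n := by
    rw [← hfix]
    apply le_of_eq
    exact Nat.card_congr (Equiv.subtypeEquiv Additive.toMul (fun x => Iff.rfl))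
  obtain ⟨S, hS, hcl⟩ := Cfsg.Agent.Helper20.add_gen_bound p e hcard
    (Cfsg.Agent.Helper20.mulAutToEnd V α) ha n hfix'
  refine ⟨S.image Additive.toMul, (Finset.card_image_le).trans hS, ?_⟩
  rw [eq_top_iff]
  intro v _
  have hv : Additive.ofMul v ∈ AddSubgroup.closure (S : Set (Additive V)) := by
    rw [hcl]
    exact AddSubgroup.mem_top _
  have key : ∀ x ∈ AddSubgroup.closure (S : Set (Additive V)),
      Additive.toMul x ∈ Subgroup.closure ((S.image Additive.toMul : Finset V) : Set V) := by
    intro x hx
    induction hx using AddSubgroup.closure_induction with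
    | mem y hy => exact Subgroup.subset_closure (Finset.mem_coe.2 (Finset.mem_image_of_mem _ hy))
    | zero => exact Subgroup.one_mem _
    | add y z _ _ hy hz => exact Subgroup.mul_mem _ hy hz
    | neg y _ hy => exact Subgroup.inv_mem _ hy
  exact key _ hv

end Cfsg.Agent.S3780
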