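import Cfsg.Statements.S3781
import Mathlib

set_option autoImplicit false
open Cfsg

namespace Cfsg.Agent.S3781

/-- Iterated commutator with the whole group. -/
def citer {G : Type*} [Group G] : Subgroup G → ℕ → Subgroup G
  | M, 0 => M
  | M, k + 1 => citer ⁅M, (⊤ : Subgroup G)⁆ k

theorem citer_succ' {G : Type*} [Group G] : ∀ (k : ℕ) (M : Subgroup G),
    citer M (k + 1) = ⁅citer M k, (⊤ : Subgroup G)⁆ := by
  intro k
  induction k with
  | zero => intro M; rfl
  | succ k ih => intro M; exact ih ⁅M, (⊤ : Subgroup G)⁆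

theorem citer_mono {G : Type*} [Group G] : ∀ (k : ℕ) (M M' : Subgroup G), M ≤ M' →
    citer M k ≤ citer M' k := by
  intro k
  induction k with
  | zero => intro M M' h; exact h
  | succ k ih => intro M M' h; exact ih _ _ (Subgroup.commutator_mono h le_rfl)

theorem citer_normal {G : Type*} [Group G] : ∀ (k : ℕ) (M : Subgroup G), M.Normal →
    (citer M k).Normal := by
  intro k
  induction k with
  | zero => intro M h; exact h
  | succ k ih =>
    intro M h
    haveI := h
    exact ih ⁅M, (⊤ : Subgroup G)⁆ inferInstance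

theorem citer_le {G : Type*} [Group G] : ∀ (k : ℕ) (M : Subgroup G), M.Normal →
    citer M k ≤ M := by
  intro k
  induction k with
  | zero => intro M _; exact le_rfl
  | succ k ih =>
    intro M hM
    haveI := hM
    exact (ih ⁅M, (⊤ : Subgroup G)⁆ inferInstance).trans (Subgroup.commutator_le_left M ⊤)

theorem citer_map {G G' : Type*} [Group G] [Group G'] (f : G →* G')
    (hf : Function.Surjective f) : ∀ (k : ℕ) (M : Subgroup G),
    (citer M k).map f = citer (M.map f) k := by
  intro k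
  induction k with
  | zero => intro M; rfl
  | succ k ih =>
    intro M
    have h1 : citer (M.map f) (k + 1) = citer ⁅M.map f, (⊤ : Subgroup G')⁆ k := rfl
    have h2 : citer M (k + 1) = citer ⁅M, (⊤ : Subgroup G)⁆ k := rfl
    rw [h1, h2, ih, Subgroup.map_commutator, Subgroup.map_top_of_surjective f hf]

/-- Three subgroups lemma modulo a normal subgroup. -/
theorem three_le {G : Type*} [Group G] (H₁ H₂ H₃ X : Subgroup G) [X.Normal]
    (h1 : ⁅⁅H₂, H₃⁆, H₁⁆ ≤ X) (h2 : ⁅⁅H₃, H₁⁆, H₂⁆ ≤ X) : ⁅⁅H₁, H₂⁆, H₃⁆ ≤ X := by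
  have key : ∀ K : Subgroup G, K ≤ X ↔ K.map (QuotientGroup.mk' X) = ⊥ := by
    intro K
    rw [Subgroup.map_eq_bot_iff, QuotientGroup.ker_mk']
  rw [key] at h1 h2 ⊢
  rw [Subgroup.map_commutator, Subgroup.map_commutator] at h1 h2 ⊢
  exact Subgroup.commutator_commutator_eq_bot_of_rotate h1 h2

theorem comm_lcs_le {G : Type*} [Group G] : ∀ (j : ℕ) (M : Subgroup G), M.Normal →
    ⁅M, (⊤ : Subgroup G).lowerCentralSeries j⁆ ≤ citer M (j + 1) := by
  intro j
  induction j with
  | zero =>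
    intro M _
    show ⁅M, (⊤ : Subgroup G)⁆ ≤ ⁅M, (⊤ : Subgroup G)⁆
    exact le_rfl
  | succ j ih =>
    intro M hM
    haveI := hM
    haveI hX : (citer ⁅M, (⊤ : Subgroup G)⁆ (j + 1)).Normal := citer_normal _ _ inferInstance
    have hb : ⁅⁅(⊤ : Subgroup G), M⁆, (⊤ : Subgroup G).lowerCentralSeries j⁆ ≤
        citer ⁅M, (⊤ : Subgroup G)⁆ (j + 1) := by
      rw [Subgroup.commutator_comm ⊤ M]
      exact ih ⁅M, (⊤ : Subgroup G)⁆ inferInstance
    have ha : ⁅⁅M, (⊤ : Subgroup G).lowerCentralSeries j⁆, (⊤ : Subgroup G)⁆ ≤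
        citer ⁅M, (⊤ : Subgroup G)⁆ (j + 1) := by
      have h1 : ⁅⁅M, (⊤ : Subgroup G).lowerCentralSeries j⁆, (⊤ : Subgroup G)⁆ ≤
          ⁅citer M (j + 1), (⊤ : Subgroup G)⁆ := Subgroup.commutator_mono (ih M hM) le_rfl
      have h2 : citer ⁅M, (⊤ : Subgroup G)⁆ (j + 1) = ⁅citer M (j + 1), (⊤ : Subgroup G)⁆ :=
        citer_succ' (j + 1) M
      rw [h2]
      exact h1
    have h3 := three_le ((⊤ : Subgroup G).lowerCentralSeries j) ⊤ M
      (citer ⁅M, (⊤ : Subgroup G)⁆ (j + 1)) hb ha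
    rw [Subgroup.commutator_comm ⁅(⊤ : Subgroup G).lowerCentralSeries j, (⊤ : Subgroup G)⁆ M] at h3
    exact h3

theorem eq_bot_of_comm_eq {G : Type*} [Group G] [Group.IsNilpotent G] (M : Subgroup G)
    (h : M ≤ ⁅M, (⊤ : Subgroup G)⁆) : M = ⊥ := by
  obtain ⟨c, hc⟩ := Subgroup.nilpotent_iff_lowerCentralSeries.mp (inferInstance : Group.IsNilpotent G)
  have key : ∀ j, M ≤ (⊤ : Subgroup G).lowerCentralSeries j := by
    intro j
    induction j with
    | zero =>
      show M ≤ (⊤ : Subgroup G)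
      exact le_top
    | succ j ih => exact h.trans (Subgroup.commutator_mono ih le_rfl)
  exact le_bot_iff.mp (hc ▸ key c)

theorem citer_eq_bot_of_card_le {G : Type*} [Group G] [Finite G] {p : ℕ} [Fact p.Prime]
    (hG : IsPGroup p G) : ∀ (k : ℕ) (M : Subgroup G), M.Normal → Nat.card M ≤ p ^ k →
    citer M k = ⊥ := by
  haveI : Group.IsNilpotent G := hG.isNilpotent
  have hp := (Fact.out : p.Prime)
  intro k
  induction k with
  | zero =>
    intro M _ hc
    rw [pow_zero] at hc
    show M = ⊥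
    exact Subgroup.eq_bot_of_card_le M hc
  | succ k ih =>
    intro M hM hc
    haveI := hM
    show citer ⁅M, (⊤ : Subgroup G)⁆ k = ⊥
    by_cases hb : M = ⊥
    · have h2 : citer ⁅M, (⊤ : Subgroup G)⁆ k ≤ M :=
        (citer_le k _ inferInstance).trans (Subgroup.commutator_le_left M ⊤)
      exact le_bot_iff.mp (h2.trans hb.le)
    · apply ih _ inferInstance
      have hle : ⁅M, (⊤ : Subgroup G)⁆ ≤ M := Subgroup.commutator_le_left M ⊤
      have hlt : Nat.card (⁅M, (⊤ : Subgroup G)⁆ : Subgroup G) < Nat.card M := by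
        by_contra h
        push Not at h
        have h3 := Subgroup.eq_of_le_of_card_ge hle h
        exact hb (eq_bot_of_comm_eq M h3.symm.le)
      obtain ⟨a, ha⟩ := IsPGroup.iff_card.mp (hG.to_subgroup M)
      obtain ⟨b, hb'⟩ := IsPGroup.iff_card.mp (hG.to_subgroup ⁅M, (⊤ : Subgroup G)⁆)
      rw [ha] at hc hlt
      rw [hb'] at hlt ⊢
      have h4 : b < a := (Nat.pow_lt_pow_iff_right hp.one_lt).mp hlt
      have h5 : a ≤ k + 1 := (Nat.pow_le_pow_iff_right hp.one_lt).mp hc
      exact Nat.pow_le_pow_right hp.pos (by omega)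

theorem card_map_mul_card_ker {X : Type*} {Y : Type*} [Group X] [Group Y] (f : X →* Y)
    (H : Subgroup X) (h : f.ker ≤ H) :
    Nat.card (H.map f) * Nat.card f.ker = Nat.card H := by
  have h1 : (f.comp H.subtype).range = H.map f := by
    rw [MonoidHom.range_comp, Subgroup.range_subtype]
  have h2 : (f.comp H.subtype).ker = f.ker.subgroupOf H :=
    (MonoidHom.comap_ker f H.subtype).symm
  have h3 := Subgroup.index_ker (f.comp H.subtype)
  have h4 := Subgroup.card_mul_index (f.comp H.subtype).ker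
  rw [h3, h1, h2, Nat.card_congr (Subgroup.subgroupOfEquivOfLe h).toEquiv] at h4
  rw [mul_comm]
  exact h4

theorem card_mul_relIndex_of_le {G : Type*} [Group G] {K L : Subgroup G} (h : K ≤ L) :
    Nat.card K * K.relIndex L = Nat.card L := by
  have h1 := Subgroup.relIndex_mul_relIndex (⊥ : Subgroup G) K L bot_le h
  rwa [Subgroup.relIndex_bot_left, Subgroup.relIndex_bot_left] at h1

theorem citer_le_of_relIndex {G : Type*} [Group G] [Finite G] {p : ℕ} [Fact p.Prime]
    (hG : IsPGroup p G) (k : ℕ) (M L : Subgroup G) [M.Normal] [L.Normal] (hLM : L ≤ M)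
    (hidx : L.relIndex M = p ^ k) : citer M k ≤ L := by
  have hf : Function.Surjective (QuotientGroup.mk' L) := QuotientGroup.mk'_surjective L
  have hker : (QuotientGroup.mk' L).ker = L := QuotientGroup.ker_mk' L
  have hG' : IsPGroup p (G ⧸ L) := hG.to_quotient L
  have hMn : (M.map (QuotientGroup.mk' L)).Normal := Subgroup.Normal.map inferInstance _ hf
  have hcard : Nat.card (M.map (QuotientGroup.mk' L)) ≤ p ^ k := by
    have h1 := card_map_mul_card_ker (QuotientGroup.mk' L) M (by rw [hker]; exact hLM)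
    rw [hker] at h1
    have h2 : Nat.card L * L.relIndex M = Nat.card M := card_mul_relIndex_of_le hLM
    rw [hidx] at h2
    have hpos : 0 < Nat.card L := Nat.card_pos
    have h4 : Nat.card L * Nat.card (M.map (QuotientGroup.mk' L)) = Nat.card L * p ^ k := by
      rw [h2, mul_comm, h1]
    exact (Nat.eq_of_mul_eq_mul_left hpos h4).le
  have h5 := citer_eq_bot_of_card_le hG' k _ hMn hcard
  rw [← citer_map _ hf, Subgroup.map_eq_bot_iff, hker] at h5
  exact h5

/-- Let G be a finite p-group and n ≥ 1, and write γ_1(G) = G, γ_{k+1}(G) = [γ_k(G), G], and likewise γ_k(N) for a subgroup N. Let N be a normal subgroup of G contained in γ_n(G). If i > 1 and γ_{i+1}(N) ≠ 1, then |γ_i(N) : γ_{i+1}(N)| ≥ p^n. -/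
theorem result {G : Type*} [Group G] [Finite G] {p : ℕ} [Fact p.Prime] (hG : IsPGroup p G) (n : ℕ) (hn : 1 ≤ n) (N : Subgroup G) [N.Normal] (hN : N ≤ (⊤ : Subgroup G).lowerCentralSeries (n - 1)) (i : ℕ) (hi : 1 < i) (hne : N.lowerCentralSeries i ≠ ⊥) : p ^ n ≤ (N.lowerCentralSeries i).relIndex (N.lowerCentralSeries (i - 1)) := by
  have hp := (Fact.out : p.Prime)
  obtain ⟨j, rfl⟩ : ∃ j, i = j + 1 := ⟨i - 1, by omega⟩
  rw [Nat.add_sub_cancel]
  have hnorm : ∀ t : ℕ, (N.lowerCentralSeries t).Normal := by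
    intro t
    induction t with
    | zero => exact (inferInstance : N.Normal)
    | succ t ih =>
      haveI := ih
      show (⁅N.lowerCentralSeries t, N⁆ : Subgroup G).Normal
      infer_instance
  haveI hMn := hnorm j
  haveI hLn := hnorm (j + 1)
  have hLM : N.lowerCentralSeries (j + 1) ≤ N.lowerCentralSeries j :=
    N.lowerCentralSeries_antitone (Nat.le_succ j)
  obtain ⟨k, hk⟩ := (hG.to_subgroup (N.lowerCentralSeries j)).index
    ((N.lowerCentralSeries (j + 1)).subgroupOf (N.lowerCentralSeries j))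
  have hk' : (N.lowerCentralSeries (j + 1)).relIndex (N.lowerCentralSeries j) = p ^ k := hk
  rw [hk']
  by_contra hcon
  have hkn : k < n := by
    by_contra h
    exact hcon (Nat.pow_le_pow_right hp.pos (not_lt.mp h))
  have h1 : citer (N.lowerCentralSeries j) k ≤ N.lowerCentralSeries (j + 1) :=
    citer_le_of_relIndex hG k _ _ hLM hk'
  have h2 : N.lowerCentralSeries (j + 1) ≤ ⁅N.lowerCentralSeries (j + 1), (⊤ : Subgroup G)⁆ := by
    calc N.lowerCentralSeries (j + 1) = ⁅N.lowerCentralSeries j, N⁆ := rfl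
      _ ≤ ⁅N.lowerCentralSeries j, (⊤ : Subgroup G).lowerCentralSeries (n - 1)⁆ :=
          Subgroup.commutator_mono le_rfl hN
      _ ≤ ⁅N.lowerCentralSeries j, (⊤ : Subgroup G).lowerCentralSeries k⁆ :=
          Subgroup.commutator_mono le_rfl
            ((⊤ : Subgroup G).lowerCentralSeries_antitone (by omega))
      _ ≤ citer (N.lowerCentralSeries j) (k + 1) := comm_lcs_le k _ hMn
      _ = ⁅citer (N.lowerCentralSeries j) k, (⊤ : Subgroup G)⁆ := citer_succ' k _
      _ ≤ ⁅N.lowerCentralSeries (j + 1), (⊤ : Subgroup G)⁆ := Subgroup.commutator_mono h1 le_rfl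
  haveI : Group.IsNilpotent G := hG.isNilpotent
  exact hne (eq_bot_of_comm_eq _ h2)

end Cfsg.Agent.S3781
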