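import Cfsg.Statements.S3784
import Mathlib

set_option autoImplicit false
open Cfsg

namespace Cfsg.Agent.S3784

theorem two_pow_odd_dvd {S a : ℕ} (hS : Odd S) (hdvd : S ∣ 2 ^ a) : S = 1 := by
  obtain ⟨k, hk, rfl⟩ := (Nat.dvd_prime_pow Nat.prime_two).1 hdvd
  rcases Nat.eq_zero_or_pos k with rfl | hkpos
  · simp
  · exfalso
    have : Even (2 ^ k) := (Nat.even_pow.mpr ⟨even_two, by omega⟩)
    exact (Nat.not_even_iff_odd.mpr hS) this

theorem case_p_two (q a b : ℕ) (hq : q.Prime) (ha : 1 ≤ a) (hb : 1 ≤ b) (h : 2 ^ a = q ^ b + 1) :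
    b = 1 := by
  have hq2 : q ≠ 2 := by
    rintro rfl
    have h1 : Even (2 ^ a) := (Nat.even_pow.mpr ⟨even_two, by omega⟩)
    have h2 : Even (2 ^ b) := (Nat.even_pow.mpr ⟨even_two, by omega⟩)
    rw [h] at h1
    rw [Nat.even_add_one] at h1
    exact h1 h2
  have hqo : Odd q := hq.odd_of_ne_two hq2
  have hq1 : 1 < q := hq.one_lt
  rcases Nat.even_or_odd b with hbe | hbo
  · exfalso
    obtain ⟨c, rfl⟩ := hbe
    have hc : 1 ≤ c := by omega
    have hodd : Odd (q ^ c) := hqo.pow
    have hsq : (q ^ c) ^ 2 % 4 = 1 := by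
      obtain ⟨k, hk⟩ := hodd
      have : (q ^ c) ^ 2 = 4 * (k ^ 2 + k) + 1 := by rw [hk]; ring
      rw [this]; omega
    have hqb : q ^ (c + c) = (q ^ c) ^ 2 := by ring
    rw [hqb] at h
    have ha1 : a = 1 := by
      by_contra hne
      have h2a : 2 ≤ a := by omega
      have : 4 ∣ 2 ^ a := by
        have := pow_dvd_pow 2 h2a
        simpa using this
      omega
    subst ha1
    have : 1 < q ^ c := Nat.one_lt_pow (by omega) hq1
    nlinarith
  · have hS : ∃ S : ℤ, S * ((q : ℤ) + 1) = (q : ℤ) ^ b + 1 ∧ Odd S := by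
      refine ⟨∑ i ∈ Finset.range b, (-(q : ℤ)) ^ i, ?_, ?_⟩
      · have := geom_sum_mul (-(q : ℤ)) b
        rw [Odd.neg_pow hbo] at this
        linarith
      · rw [Int.odd_iff, Finset.sum_int_mod]
        have hterm : ∀ i ∈ Finset.range b, (-(q : ℤ)) ^ i % 2 = 1 := fun i _ =>
          Int.odd_iff.mp (Odd.pow (Odd.neg (by exact_mod_cast hqo)))
        rw [Finset.sum_congr rfl hterm]
        simp
        exact_mod_cast Nat.odd_iff.mp hbo
    obtain ⟨S, hS1, hS2⟩ := hS
    have hnat : S.natAbs * (q + 1) = q ^ b + 1 := by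
      have := congrArg Int.natAbs hS1
      rw [Int.natAbs_mul] at this
      have e1 : ((q : ℤ) + 1).natAbs = q + 1 := by
        have : ((q : ℤ) + 1) = ((q + 1 : ℕ) : ℤ) := by push_cast; ring
        rw [this, Int.natAbs_natCast]
      have e2 : ((q : ℤ) ^ b + 1).natAbs = q ^ b + 1 := by
        have : ((q : ℤ) ^ b + 1) = ((q ^ b + 1 : ℕ) : ℤ) := by push_cast; ring
        rw [this, Int.natAbs_natCast]
      rw [e1, e2] at this
      exact this
    have hodd : Odd S.natAbs := Int.natAbs_odd.mpr hS2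
    have hdvd : S.natAbs ∣ 2 ^ a := by
      rw [h, ← hnat]; exact dvd_mul_right _ _
    have hone : S.natAbs = 1 := two_pow_odd_dvd hodd hdvd
    rw [hone, one_mul] at hnat
    have hqb : q ^ b = q ^ 1 := by rw [pow_one]; omega
    exact Nat.pow_right_injective hq1 hqb

theorem case_q_two (p a b : ℕ) (hp : p.Prime) (ha : 1 ≤ a) (hb : 1 ≤ b) (h : p ^ a = 2 ^ b + 1) :
    a = 1 ∨ (p ^ a = 9 ∧ 2 ^ b = 8) := by
  have hp2 : p ≠ 2 := by
    rintro rfl
    have h1 : Even (2 ^ a) := (Nat.even_pow.mpr ⟨even_two, by omega⟩)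
    have h2 : Even (2 ^ b) := (Nat.even_pow.mpr ⟨even_two, by omega⟩)
    rw [h] at h1
    rw [Nat.even_add_one] at h1
    exact h1 h2
  have hpo : Odd p := hp.odd_of_ne_two hp2
  have hp1 : 1 < p := hp.one_lt
  rcases Nat.even_or_odd a with hae | hao
  · right
    obtain ⟨c, rfl⟩ := hae
    have hc : 1 ≤ c := by omega
    obtain ⟨x, hx⟩ : ∃ x, x = p ^ c := ⟨_, rfl⟩
    have hxodd : Odd x := by rw [hx]; exact hpo.pow
    have hx1 : 1 < x := by rw [hx]; exact Nat.one_lt_pow (by omega) hp1
    have hpa : p ^ (c + c) = x * x := by rw [hx]; ring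
    rw [hpa] at h
    have hfac : (x - 1) * (x + 1) = 2 ^ b := by
      have : (x - 1) * (x + 1) + 1 = x * x := by
        obtain ⟨y, rfl⟩ : ∃ y, x = y + 1 := ⟨x - 1, by omega⟩
        simp; ring
      omega
    have hd1 : x - 1 ∣ 2 ^ b := ⟨x + 1, hfac.symm⟩
    have hd2 : x + 1 ∣ 2 ^ b := ⟨x - 1, by rw [← hfac]; ring⟩
    obtain ⟨i, hi, hi'⟩ := (Nat.dvd_prime_pow Nat.prime_two).1 hd1
    obtain ⟨j, hj, hj'⟩ := (Nat.dvd_prime_pow Nat.prime_two).1 hd2
    have hij : 2 ^ j = 2 ^ i + 2 := by omega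
    have hi1 : i = 1 := by
      rcases Nat.lt_or_ge i 2 with hlt | hge
      · rcases Nat.eq_zero_or_pos i with rfl | hpos
        · exfalso
          simp at hi'
          have : x = 2 := by omega
          rw [this] at hxodd
          exact (Nat.not_even_iff_odd.mpr hxodd) even_two
        · omega
      · exfalso
        have h4 : 4 ∣ 2 ^ i := by
          have := pow_dvd_pow 2 hge
          simpa using this
        have hj2 : j < 2 := by
          by_contra hcon
          push Not at hcon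
          have h4' : 4 ∣ 2 ^ j := by
            have := pow_dvd_pow 2 hcon
            simpa using this
          omega
        interval_cases j <;> simp at hij
    subst hi1
    have hx3 : x = 3 := by simp at hi'; omega
    rw [hpa, hx3]
    rw [hx3] at h
    constructor <;> omega
  · left
    by_contra hne
    have ha2 : 2 ≤ a := by omega
    have hsum : (∑ i ∈ Finset.range a, p ^ i) * (p - 1) = 2 ^ b := by
      have := geom_sum_mul_add (p - 1) a
      have hpp : p - 1 + 1 = p := by omega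
      rw [hpp] at this
      omega
    have hSodd : Odd (∑ i ∈ Finset.range a, p ^ i) := by
      rw [Nat.odd_iff, Finset.sum_nat_mod]
      have hterm : ∀ i ∈ Finset.range a, p ^ i % 2 = 1 := fun i _ => Nat.odd_iff.mp hpo.pow
      rw [Finset.sum_congr rfl hterm]
      simp
      exact Nat.odd_iff.mp hao
    have hSone : (∑ i ∈ Finset.range a, p ^ i) = 1 :=
      two_pow_odd_dvd hSodd ⟨p - 1, hsum.symm⟩
    have hge : p ^ 0 + p ^ 1 ≤ ∑ i ∈ Finset.range a, p ^ i := by
      have hsub : Finset.range 2 ⊆ Finset.range a := Finset.range_subset_range.mpr ha2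
      have := Finset.sum_le_sum_of_subset (f := fun i => p ^ i) hsub
      simpa [Finset.sum_range_succ] using this
    simp at hge
    omega

/-- Let p, q be primes and a, b positive integers with p^a = q^b + 1. Then either p = 2, b = 1, a is prime and q = 2^a − 1; or q = 2, a = 1, b is a power of 2 and p = 2^b + 1; or p^a = 9 and q^b = 8. -/
theorem result (p q a b : ℕ) (hp : p.Prime) (hq : q.Prime) (ha : 1 ≤ a) (hb : 1 ≤ b) (h : p ^ a = q ^ b + 1) : (p = 2 ∧ b = 1 ∧ a.Prime ∧ q + 1 = 2 ^ a) ∨ (q = 2 ∧ a = 1 ∧ (∃ m : ℕ, b = 2 ^ m) ∧ p = 2 ^ b + 1) ∨ (p ^ a = 9 ∧ q ^ b = 8) := by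
  have hpar : p = 2 ∨ q = 2 := by
    by_contra hcon
    push Not at hcon
    have hpo : Odd p := hp.odd_of_ne_two hcon.1
    have hqo : Odd q := hq.odd_of_ne_two hcon.2
    have h1 : Odd (p ^ a) := hpo.pow
    have h2 : Odd (q ^ b) := hqo.pow
    rw [h] at h1
    have : Even (q ^ b + 1) := h2.add_one
    exact (Nat.not_even_iff_odd.mpr h1) this
  rcases hpar with rfl | rfl
  · left
    have hb1 : b = 1 := case_p_two q a b hq ha hb h
    subst hb1
    simp at h
    refine ⟨rfl, rfl, ?_, by omega⟩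
    have hprime : (2 ^ a - 1).Prime := by
      have : 2 ^ a - 1 = q := by omega
      rw [this]; exact hq
    have ha1 : a ≠ 1 := by
      rintro rfl
      have : q = 1 := by omega
      rw [this] at hq
      exact Nat.not_prime_one hq
    exact (Nat.prime_of_pow_sub_one_prime ha1 hprime).2
  · rcases case_q_two p a b hp ha hb h with ha1 | h9
    · right; left
      subst ha1
      simp at h
      refine ⟨rfl, rfl, ?_, h⟩
      have hprime : (2 ^ b + 1).Prime := by rw [← h]; exact hp
      exact Nat.pow_of_pow_add_prime (by norm_num) (by omega) hprime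
    · right; right
      exact h9

end Cfsg.Agent.S3784
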