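import Cfsg.Statements.S3785
import Mathlib
import Cfsg.Agent.Helper9.Fitting
import Cfsg.Agent.Helper27.CoprimeAut
import Cfsg.Agent.Helper21.Primary
import Cfsg.Agent.S1264

set_option autoImplicit false
open Cfsg

namespace Cfsg.Agent.S3785

open Cfsg.Agent.Helper9
open scoped Pointwise

/-- A finite group all of whose `q'`-elements are central is nilpotent. -/
theorem nilpotent_of_qprime_central {N : Type*} [Group N] [Finite N] (q : ℕ) [Fact q.Prime]
    (h : ∀ x : N, (orderOf x).Coprime q → x ∈ Subgroup.center N) : Group.IsNilpotent N := by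
  apply Group.of_quotient_center_nilpotent
  have hq : IsPGroup q (N ⧸ Subgroup.center N) := by
    intro ybar
    obtain ⟨y, rfl⟩ := QuotientGroup.mk_surjective ybar
    refine ⟨(Nat.card N).factorization q, ?_⟩
    have hn0 : Nat.card N ≠ 0 := Nat.card_pos.ne'
    have hcop := Nat.coprime_ordCompl (Fact.out : q.Prime) hn0
    have hpow : (y ^ q ^ (Nat.card N).factorization q) ^
        (Nat.card N / q ^ (Nat.card N).factorization q) = 1 := by
      rw [← pow_mul, Nat.ordProj_mul_ordCompl_eq_self, pow_card_eq_one']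
    have hdvd : orderOf (y ^ q ^ (Nat.card N).factorization q) ∣
        Nat.card N / q ^ (Nat.card N).factorization q :=
      orderOf_dvd_of_pow_eq_one hpow
    have hc : (orderOf (y ^ q ^ (Nat.card N).factorization q)).Coprime q :=
      Nat.Coprime.coprime_dvd_left hdvd hcop.symm
    have hmem := h _ hc
    rw [← QuotientGroup.mk_pow]
    exact (QuotientGroup.eq_one_iff _).mpr hmem
  exact hq.isNilpotent

/-- Let G be a finite solvable group whose Fitting subgroup F(G) has odd order. If an element g of G commutes with every element of prime order of F(G), then g ∈ F(G). -/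
theorem result {G : Type*} [Group G] [Finite G] (hG : Group.IsSolvable G) (hodd : Odd (Nat.card (Cfsg.fittingSubgroup G))) (g : G) (hg : ∀ x ∈ Cfsg.fittingSubgroup G, (orderOf x).Prime → g * x = x * g) : g ∈ Cfsg.fittingSubgroup G := by
  classical
  obtain ⟨F, hFdef⟩ : ∃ F, F = Cfsg.fittingSubgroup G := ⟨_, rfl⟩
  rw [← hFdef] at hodd hg ⊢
  haveI hFn : F.Normal := by rw [hFdef]; infer_instance
  have hoddF : ∀ x ∈ F, Odd (orderOf x) := by
    intro x hx
    exact Odd.of_dvd_nat hodd (Subgroup.orderOf_dvd_natCard F hx)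
  have hpF : ∀ p : ℕ, p.Prime → Cfsg.pCore p G ≤ F := by
    intro p hp
    haveI : Fact p.Prime := ⟨hp⟩
    rw [hFdef]; exact pCore_le_fitting p
  have hpN : ∀ p : ℕ, (Cfsg.pCore p G).Normal :=
    fun p => Subgroup.sSup_normal _ (fun _ h => h.1)
  have hCFle : Subgroup.centralizer (F : Set G) ≤ F := by
    haveI := hG
    have h1 := Cfsg.Agent.S1264.result (Subgroup.centralizer (Cfsg.fittingSubgroup G : Set G))
      le_rfl Subgroup.le_normalizer inferInstance
    rw [hFdef]
    exact h1.trans (Subgroup.map_subtype_le _)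
  have hb : ∀ p : ℕ, p.Prime → ∀ y : G, (∀ x ∈ F, (orderOf x).Prime → y * x = x * y) →
      (orderOf y).Coprime p → ∀ x ∈ Cfsg.pCore p G, y * x = x * y := by
    intro p hp y hy hcop x hx
    haveI : Fact p.Prime := ⟨hp⟩
    have hm : (MulAut.conj y) ^ (orderOf y) = 1 := by
      rw [← map_pow, pow_orderOf_eq_one, map_one]
    have hinvP : ∀ z ∈ Cfsg.pCore p G, (MulAut.conj y) z ∈ Cfsg.pCore p G := by
      intro z hz
      rw [MulAut.conj_apply]
      exact (hpN p).conj_mem z hz y
    have hfix : ∀ z ∈ Cfsg.pCore p G, z ^ p = 1 → (MulAut.conj y) z = z := by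
      intro z hz hzp
      rw [MulAut.conj_apply]
      by_cases hz1 : z = 1
      · rw [hz1]; group
      · have ho : orderOf z = p := orderOf_eq_prime hzp hz1
        have h1 := hy z (hpF p hp hz) (by rw [ho]; exact hp)
        rw [h1, mul_inv_cancel_right]
    have hfix4 : p = 2 → ∀ z ∈ Cfsg.pCore p G, z ^ 4 = 1 → (MulAut.conj y) z = z := by
      intro hp2 z hz _
      have h1 : Odd (orderOf z) := hoddF z (hpF p hp hz)
      obtain ⟨k, hk⟩ := (IsPGroup.iff_orderOf.mp (pCore_isPGroup p (G := G))) ⟨z, hz⟩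
      rw [Subgroup.orderOf_mk] at hk
      have hz1 : z = 1 := by
        rcases Nat.eq_zero_or_pos k with h0 | h0
        · rw [h0, pow_zero] at hk
          exact orderOf_eq_one_iff.mp hk
        · exfalso
          rw [hk, hp2] at h1
          have h2 : Even (2 ^ k) := (Nat.even_pow.mpr ⟨even_two, h0.ne'⟩)
          exact (Nat.not_even_iff_odd.mpr h1) h2
      rw [hz1, map_one]
    have h := Cfsg.Agent.Helper27.aut_fix_of_fix_small_sub (Cfsg.pCore p G) (pCore_isPGroup p)
      (MulAut.conj y) hm hcop hinvP hfix hfix4 x hx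
    rw [MulAut.conj_apply] at h
    calc y * x = (y * x * y⁻¹) * y := by group
      _ = x * y := by rw [h]
  have hCent_conj : ∀ y h : G, (∀ x ∈ F, (orderOf x).Prime → y * x = x * y) →
      (∀ x ∈ F, (orderOf x).Prime → (h * y * h⁻¹) * x = x * (h * y * h⁻¹)) := by
    intro y h hy x hx hxo
    have h1 : h⁻¹ * x * h ∈ F := by
      have h0 := hFn.conj_mem x hx h⁻¹
      rwa [inv_inv] at h0
    have h3 := MulEquiv.orderOf_eq (MulAut.conj h⁻¹) x
    rw [MulAut.conj_apply, inv_inv] at h3
    have h2 : (orderOf (h⁻¹ * x * h)).Prime := by rw [h3]; exact hxo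
    have h4 := hy (h⁻¹ * x * h) h1 h2
    calc h * y * h⁻¹ * x = h * (y * (h⁻¹ * x * h)) * h⁻¹ := by group
      _ = h * ((h⁻¹ * x * h) * y) * h⁻¹ := by rw [h4]
      _ = x * (h * y * h⁻¹) := by group
  obtain ⟨C, hCdef⟩ : ∃ C : Subgroup G,
      C = Subgroup.centralizer {x : G | x ∈ F ∧ (orderOf x).Prime} := ⟨_, rfl⟩
  have hCmem : ∀ y : G, y ∈ C ↔ (∀ x ∈ F, (orderOf x).Prime → y * x = x * y) := by
    intro y
    rw [hCdef, Subgroup.mem_centralizer_iff]
    constructor
    · intro h x hx hxo
      exact (h x ⟨hx, hxo⟩).symm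
    · rintro h x ⟨hx, hxo⟩
      exact (h x hx hxo).symm
  haveI hCn : C.Normal := by
    constructor
    intro y hy h
    rw [hCmem] at hy ⊢
    exact hCent_conj y h hy
  have hkey : ∀ q : ℕ, q.Prime → ∀ c ∈ C, (∃ k : ℕ, orderOf c = q ^ k) → c ∈ F := by
    rintro q hq c hcC ⟨k, hk⟩
    haveI : Fact q.Prime := ⟨hq⟩
    obtain ⟨N, hNdef⟩ : ∃ N : Subgroup G, N = Subgroup.normalClosure {c} := ⟨_, rfl⟩
    haveI hNn : N.Normal := by rw [hNdef]; infer_instance
    have hcN : c ∈ N := by
      rw [hNdef]; exact Subgroup.subset_normalClosure (Set.mem_singleton c)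
    have hNC : N ≤ C := by
      rw [hNdef]; exact Subgroup.normalClosure_le_normal (Set.singleton_subset_iff.mpr hcC)
    have hNp : ∀ p : ℕ, p.Prime → p ≠ q →
        N ≤ Subgroup.centralizer (Cfsg.pCore p G : Set G) := by
      intro p hp hpq
      haveI := hpN p
      rw [hNdef]
      apply Subgroup.normalClosure_le_normal
      rw [Set.singleton_subset_iff]
      show c ∈ Subgroup.centralizer (Cfsg.pCore p G : Set G)
      rw [Subgroup.mem_centralizer_iff]
      intro x hx
      have hcop : (orderOf c).Coprime p := by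
        rw [hk]
        exact Nat.Coprime.pow_left _ ((Nat.coprime_primes hq hp).mpr (Ne.symm hpq))
      exact (hb p hp c ((hCmem c).mp hcC) hcop x hx).symm
    obtain ⟨F', hF'def⟩ : ∃ F' : Subgroup G,
        F' = ⨆ (p : Nat.Primes) (_ : p ≠ (⟨q, hq⟩ : Nat.Primes)), Cfsg.pCore (p : ℕ) G :=
      ⟨_, rfl⟩
    have hFsplit : F = Cfsg.pCore q G ⊔ F' := by
      rw [hFdef, fitting_eq_iSup_pCore, hF'def]
      exact iSup_split_single (fun p : Nat.Primes => Cfsg.pCore (p : ℕ) G) ⟨q, hq⟩
    have hcentF' : ∀ K : Subgroup G,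
        (∀ p : ℕ, p.Prime → p ≠ q → K ≤ Subgroup.centralizer (Cfsg.pCore p G : Set G)) →
        K ≤ Subgroup.centralizer (F' : Set G) := by
      intro K hK
      rw [Subgroup.le_centralizer_iff, hF'def]
      apply iSup_le
      intro p
      apply iSup_le
      intro hpq
      rw [← Subgroup.le_centralizer_iff]
      apply hK p p.2
      intro h
      exact hpq (Subtype.ext h)
    have hNF' : N ≤ Subgroup.centralizer (F' : Set G) := hcentF' N hNp
    have hQF' : Cfsg.pCore q G ≤ Subgroup.centralizer (F' : Set G) := by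
      apply hcentF'
      intro p hp hpq
      intro a ha
      rw [Subgroup.mem_centralizer_iff]
      intro b hb'
      have hdis : Disjoint (Cfsg.pCore q G) (Cfsg.pCore p G) := by
        haveI : Fact p.Prime := ⟨hp⟩
        exact IsPGroup.disjoint_of_ne q p (Ne.symm hpq) _ _ (pCore_isPGroup q) (pCore_isPGroup p)
      exact (Subgroup.commute_of_normal_of_disjoint _ _ (hpN q) (hpN p) hdis a b ha hb').eq.symm
    have hcentral : ∀ x ∈ N, (orderOf x).Coprime q → ∀ n ∈ N, n * x = x * n := by
      intro x hxN hxq n hn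
      have hxC := (hCmem x).mp (hNC hxN)
      have hxall : ∀ p : ℕ, p.Prime → ∀ z ∈ Cfsg.pCore p G, x * z = z * x := by
        intro p hp z hz
        by_cases hpq : p = q
        · subst hpq
          exact hb p hp x hxC hxq z hz
        · have h1 := hNp p hp hpq hxN
          rw [Subgroup.mem_centralizer_iff] at h1
          exact (h1 z hz).symm
      have hxCF : x ∈ Subgroup.centralizer (F : Set G) := by
        have h1 : Subgroup.zpowers x ≤ Subgroup.centralizer (F : Set G) := by
          rw [Subgroup.le_centralizer_iff, hFdef, fitting_eq_iSup_pCore]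
          apply iSup_le
          intro p
          rw [← Subgroup.le_centralizer_iff, Subgroup.zpowers_le]
          rw [Subgroup.mem_centralizer_iff]
          intro z hz
          exact (hxall p p.2 z hz).symm
        exact h1 (Subgroup.mem_zpowers x)
      have hxF : x ∈ Cfsg.pCore q G ⊔ F' := by rw [← hFsplit]; exact hCFle hxCF
      have hxmul : x ∈ ((Cfsg.pCore q G : Subgroup G) : Set G) * (F' : Set G) := by
        haveI := hpN q
        rw [← Subgroup.normal_mul]
        exact hxF
      obtain ⟨a, ha, b, hb', hab⟩ := Set.mem_mul.mp hxmul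
      have hbF' : b ∈ F' := hb'
      have hcomm : a * b = b * a := by
        have h1 := hQF' ha
        rw [Subgroup.mem_centralizer_iff] at h1
        exact (h1 b hb').symm
      obtain ⟨j, hj⟩ := (IsPGroup.iff_orderOf.mp (pCore_isPGroup q (G := G))) ⟨a, ha⟩
      rw [Subgroup.orderOf_mk] at hj
      have haj : a ^ q ^ j = 1 := by rw [← hj]; exact pow_orderOf_eq_one a
      have hxpow : x ^ q ^ j = b ^ q ^ j := by
        rw [← hab, (show Commute a b from hcomm).mul_pow, haj, one_mul]
      have hcop2 : (q ^ j).Coprime (orderOf x) := Nat.Coprime.pow_left _ hxq.symm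
      obtain ⟨m, hm⟩ := exists_pow_eq_self_of_coprime hcop2
      have hxF' : x ∈ F' := by
        rw [← hm, hxpow]
        exact pow_mem (pow_mem hbF' _) _
      have h2 := hNF' hn
      rw [Subgroup.mem_centralizer_iff] at h2
      exact (h2 x hxF').symm
    have hNnil : Group.IsNilpotent ↥N := by
      apply nilpotent_of_qprime_central q
      intro x hxo
      rw [Subgroup.mem_center_iff]
      intro n
      apply Subtype.ext
      have hxo' : (orderOf (x : G)).Coprime q := by rwa [Subgroup.orderOf_coe]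
      exact hcentral (x : G) x.2 hxo' (n : G) n.2
    have hNF : N ≤ F := by rw [hFdef]; exact le_fitting hNn hNnil
    exact hNF hcN
  have hgC : g ∈ C := (hCmem g).mpr hg
  apply Cfsg.Agent.Helper21.mem_of_primary_powers_mem
  rintro z hz ⟨q, b, hq, hzo⟩
  have hzC : z ∈ C := (Subgroup.zpowers_le.mpr hgC) hz
  exact hkey q hq z hzC ⟨b, hzo⟩

end Cfsg.Agent.S3785
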