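import Cfsg.Statements.S3788
import Cfsg.Agent.Lead.CycNormal

set_option autoImplicit false
open Cfsg

namespace Cfsg.Agent.S3788

/-- Let G be a finite p-soluble group, P a Sylow p-subgroup of G and A a cyclic normal subgroup of P. If p is odd, or if no section of G is isomorphic to the symmetric group of degree 4, then A ≤ O_{p',p}(G). -/
theorem result {G : Type*} [Group G] [Finite G] {p : ℕ} [Fact p.Prime] (hG : Cfsg.IsPSolvable p G) (P : Sylow p G) (A : Subgroup G) (hAP : A ≤ (P : Subgroup G)) (hAn : (P : Subgroup G) ≤ Subgroup.normalizer (A : Set G)) (hA : IsCyclic A) (h : p ≠ 2 ∨ ¬ Cfsg.Involves (Equiv.Perm (Fin 4)) G) : A ≤ Cfsg.pPrimePCore p G := by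
  classical
  by_contra hcon
  haveI := hA
  obtain ⟨g₀, hg₀⟩ := IsCyclic.exists_generator (α := ↥A)
  obtain ⟨c, hc⟩ : ∃ c : G, c = (g₀ : G) := ⟨_, rfl⟩
  have hcA : c ∈ A := by rw [hc]; exact g₀.2
  have hAc : ∀ x ∈ A, x ∈ Subgroup.zpowers c := by
    intro x hx
    obtain ⟨k, hk⟩ := Subgroup.mem_zpowers_iff.mp (hg₀ ⟨x, hx⟩)
    refine Subgroup.mem_zpowers_iff.mpr ⟨k, ?_⟩
    rw [hc]
    have h0 := congrArg Subtype.val hk
    simpa using h0
  obtain ⟨π, hπ⟩ : ∃ π : G →* G ⧸ Cfsg.pPrimeCore p G,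
      π = QuotientGroup.mk' (Cfsg.pPrimeCore p G) := ⟨_, rfl⟩
  have hπs : Function.Surjective π := by rw [hπ]; exact QuotientGroup.mk'_surjective _
  have hmem : ∀ x : G, x ∈ Cfsg.pPrimePCore p G ↔
      π x ∈ Cfsg.pCore p (G ⧸ Cfsg.pPrimeCore p G) := by
    intro x; rw [hπ]; exact Iff.rfl
  have hcnot : π c ∉ Cfsg.pCore p (G ⧸ Cfsg.pPrimeCore p G) := by
    intro h0
    apply hcon
    intro x hx
    obtain ⟨k, hk⟩ := Subgroup.mem_zpowers_iff.mp (hAc x hx)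
    rw [← hk]
    exact Subgroup.zpow_mem _ ((hmem c).mpr h0) k
  obtain ⟨n, hn⟩ := P.isPGroup' ⟨c, hAP hcA⟩
  have hcn : c ^ (p ^ n) = 1 := by simpa using congrArg Subtype.val hn
  have hex : ∃ j : ℕ, (π c) ^ (p ^ j) ∈ Cfsg.pCore p (G ⧸ Cfsg.pPrimeCore p G) :=
    ⟨n, by rw [← map_pow, hcn, map_one]; exact Subgroup.one_mem _⟩
  obtain ⟨j, hj, hjmin⟩ : ∃ j, (π c) ^ (p ^ j) ∈ Cfsg.pCore p (G ⧸ Cfsg.pPrimeCore p G) ∧
      ∀ i < j, (π c) ^ (p ^ i) ∉ Cfsg.pCore p (G ⧸ Cfsg.pPrimeCore p G) :=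
    ⟨Nat.find hex, Nat.find_spec hex, fun i hi => Nat.find_min hex hi⟩
  have hj0 : j ≠ 0 := by
    rintro rfl
    apply hcnot
    simpa using hj
  obtain ⟨j', rfl⟩ : ∃ j', j = j' + 1 := ⟨j - 1, by omega⟩
  apply Cfsg.Agent.Lead.CN.cn_hcore (H := G ⧸ Cfsg.pPrimeCore p G) p
    (Cfsg.Agent.Helper20.isPSolvable_quotient p hG _)
    (Cfsg.Agent.Helper9.pPrimeCore_quotient_eq_bot p)
    ((π c) ^ (p ^ j')) (hjmin j' (Nat.lt_succ_self j')) ?_ ?_ ?_
  · rw [← pow_mul, ← pow_succ]; exact hj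
  · intro q hq
    have hqP : q ∈ (P : Subgroup G).map π := by
      have h1 := Cfsg.Agent.Helper16.pCore_le_sylow (P.mapSurjective hπs) hq
      rwa [Sylow.coe_mapSurjective] at h1
    obtain ⟨g, hgP, rfl⟩ := Subgroup.mem_map.mp hqP
    have hgc : g * c * g⁻¹ ∈ A := ((Subgroup.mem_normalizer_iff.mp (hAn hgP)) c).mp hcA
    obtain ⟨k, hk⟩ := Subgroup.mem_zpowers_iff.mp (hAc _ hgc)
    refine Subgroup.mem_zpowers_iff.mpr ⟨k, ?_⟩
    calc (π c ^ p ^ j') ^ k = (π c ^ k) ^ (p ^ j') := by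
          rw [← zpow_natCast, ← zpow_mul, ← zpow_natCast, ← zpow_mul, mul_comm]
      _ = (π (g * c * g⁻¹)) ^ (p ^ j') := by rw [← map_zpow, hk]
      _ = π g * π c ^ p ^ j' * (π g)⁻¹ := by rw [map_mul, map_mul, map_inv, conj_pow]
  · rcases h with h | h
    · exact Or.inl h
    · exact Or.inr (fun h2 => h (Cfsg.Agent.Helper1.involves_of_surjective_hom π hπs h2))

end Cfsg.Agent.S3788
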