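import Cfsg.Statements.S3790
import Mathlib
import Cfsg.Agent.Helper20.PLengthProd

set_option autoImplicit false
open Cfsg

namespace Cfsg.Agent.S3790

/-- Let G be a finite solvable group and p a prime. Suppose p₁, …, p_r are distinct primes, all different from p, that include every prime dividing the order of G other than p, and that G has p_i-length at most l_i for each i. Then G has p-length at most the product of the numbers 1 + l_i. -/
theorem result {G : Type*} [Group G] [Finite G] (hG : Group.IsSolvable G) (p : ℕ) [Fact p.Prime] (r : ℕ) (q : Fin r → ℕ) (hq : ∀ i, (q i).Prime ∧ q i ≠ p) (hinj : Function.Injective q) (hcover : ∀ s : ℕ, s.Prime → s ∣ Nat.card G → s ≠ p → ∃ i, q i = s) (l : Fin r → ℕ) (hl : ∀ i, Cfsg.PLengthLE (q i) (l i) G) : Cfsg.PLengthLE p (Finset.univ.prod fun i => 1 + l i) G := by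
  classical
  have hl' : ∃ l' : ℕ → ℕ, ∀ i, l' (q i) = l i := by
    refine ⟨fun s => if h : ∃ i, q i = s then l h.choose else 0, fun i => ?_⟩
    have h : ∃ j, q j = q i := ⟨i, rfl⟩
    show (if h : ∃ j, q j = q i then l h.choose else 0) = l i
    rw [dif_pos h]
    exact congrArg l (hinj h.choose_spec)
  obtain ⟨l', hl'⟩ := hl'
  have h1 : ∀ s ∈ Finset.univ.image q, s.Prime ∧ s ≠ p := by
    intro s hs
    obtain ⟨i, -, rfl⟩ := Finset.mem_image.mp hs
    exact hq i
  have h2 : ∀ t : ℕ, t.Prime → t ∣ Nat.card G → t ≠ p → t ∈ Finset.univ.image q := by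
    intro t ht hdvd hne
    obtain ⟨i, rfl⟩ := hcover t ht hdvd hne
    exact Finset.mem_image_of_mem q (Finset.mem_univ i)
  have h3 : ∀ s ∈ Finset.univ.image q, Cfsg.PLengthLE s (l' s) G := by
    intro s hs
    obtain ⟨i, -, rfl⟩ := Finset.mem_image.mp hs
    rw [hl' i]
    exact hl i
  have key := Cfsg.Agent.Helper20.PLen.plength_prod p (Finset.univ.image q) G l' h1 h2 h3
  rw [Finset.prod_image (fun x _ y _ h => hinj h)] at key
  have e : (∏ x : Fin r, (1 + l' (q x))) = Finset.univ.prod fun i => 1 + l i :=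
    Finset.prod_congr rfl (fun i _ => by rw [hl' i])
  rw [e] at key
  exact key

end Cfsg.Agent.S3790
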