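import Cfsg.Statements.S3799
-- import your own Cfsg.Agent.* helpers here
import Cfsg.Agent.Helper11.Heis

set_option autoImplicit false
open Cfsg

namespace Cfsg.Agent.S3799

/-- For every odd prime p and every n ≥ 1 there is an extraspecial p-group of order p^(1+2n) and exponent p; concretely, the general linear group of degree n + 2 over the field with p elements contains such a subgroup. -/
theorem result (p : ℕ) [Fact p.Prime] (hp : p ≠ 2) (n : ℕ) (hn : 1 ≤ n) : ∃ E : Subgroup (Matrix.GeneralLinearGroup (Fin (n + 2)) (ZMod p)), Cfsg.IsExtraspecial p ↥E ∧ Nat.card E = p ^ (1 + 2 * n) ∧ ∀ x ∈ E, x ^ p = 1 := by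
  obtain ⟨φ, hφ⟩ : ∃ φ : Cfsg.Agent.Helper11.Heis n p →*
      Matrix.GeneralLinearGroup (Fin (n + 2)) (ZMod p), Function.Injective φ :=
    ⟨Cfsg.Agent.Helper11.Heis.toGL n p, Cfsg.Agent.Helper11.Heis.toGL_inj n p⟩
  obtain ⟨e⟩ : Nonempty (Cfsg.Agent.Helper11.Heis n p ≃* φ.range) :=
    ⟨MonoidHom.ofInjective hφ⟩
  haveI : Finite φ.range := Finite.of_equiv _ e.toEquiv
  have hC : Cfsg.Agent.Helper11.CentP p φ.range :=
    Cfsg.Agent.Helper11.centP_transfer e (Cfsg.Agent.Helper11.Heis.centP hp)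
  refine ⟨φ.range, Cfsg.Agent.Helper11.centP_extraspecial hC ?_, ?_, ?_⟩
  · obtain ⟨x, y, hxy⟩ := Cfsg.Agent.Helper11.Heis.nonabelian (p := p) hn
    refine ⟨e x, e y, fun h => hxy (e.injective ?_)⟩
    rw [map_mul, map_mul]
    exact h
  · rw [← Nat.card_congr e.toEquiv]
    exact Cfsg.Agent.Helper11.Heis.card_eq
  · intro x hx
    have h1 := hC.2.2 ⟨x, hx⟩
    exact congrArg Subtype.val h1

end Cfsg.Agent.S3799
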