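import Cfsg.Statements.S3800
import Mathlib
import Cfsg.Agent.Helper20.SylowAux

set_option autoImplicit false
open Cfsg

namespace Cfsg.Agent.S3800

open Cfsg.Agent.Helper20

/-- Let G be a finite group, N a normal subgroup of G whose order is prime to p, and P a p-subgroup of G. Then in G/N the normalizer of the image of P is the image of N_G(P), and the centralizer of the image of P is the image of C_G(P). -/
theorem result {G : Type*} [Group G] [Finite G] {p : ℕ} [Fact p.Prime] (N : Subgroup G) [N.Normal] (hN : (Nat.card N).Coprime p) (P : Subgroup G) (hP : IsPGroup p P) : Subgroup.normalizer ((P.map (QuotientGroup.mk' N)) : Set (G ⧸ N)) = (Subgroup.normalizer (P : Set G)).map (QuotientGroup.mk' N) ∧ Subgroup.centralizer ((P.map (QuotientGroup.mk' N)) : Set (G ⧸ N)) = (Subgroup.centralizer (P : Set G)).map (QuotientGroup.mk' N) := by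
  classical
  have hp : p.Prime := Fact.out
  have hNn : N.Normal := inferInstance
  have hsurj := QuotientGroup.mk'_surjective N
  have hPN : P ⊓ N = ⊥ := by
    obtain ⟨a, ha⟩ := IsPGroup.iff_card.mp hP
    apply disjoint_iff.mp
    apply Subgroup.disjoint_of_coprime_natCard
    rw [ha]
    exact Nat.Coprime.pow_left a hN.symm
  have key : ∀ ybar ∈ Subgroup.normalizer ((P.map (QuotientGroup.mk' N)) : Set (G ⧸ N)),
      ∃ z ∈ Subgroup.normalizer (P : Set G), QuotientGroup.mk' N z = ybar := by
    intro ybar hy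
    obtain ⟨y, rfl⟩ := hsurj ybar
    have hQle : P.map (MulAut.conj y).toMonoidHom ≤ P ⊔ N := by
      intro v hv
      rw [mem_map_conj] at hv
      have h1 : QuotientGroup.mk' N (y⁻¹ * v * y) ∈ P.map (QuotientGroup.mk' N) :=
        Subgroup.mem_map_of_mem _ hv
      have h2 : QuotientGroup.mk' N v ∈ P.map (QuotientGroup.mk' N) := by
        rw [Subgroup.mem_normalizer_iff''] at hy
        have := (hy (QuotientGroup.mk' N v)).mpr
        apply this
        simpa using h1
      obtain ⟨u, hu, hue⟩ := h2
      have h3 : u⁻¹ * v ∈ N := by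
        rw [← QuotientGroup.eq]
        exact hue
      have : v = u * (u⁻¹ * v) := by group
      rw [this]
      exact Subgroup.mul_mem_sup hu h3
    have hidx := not_dvd_relIndex_sup_of_coprime P N hP hN
    obtain ⟨k, hk, hke⟩ := exists_conj_eq_of_isPGroup (P ⊔ N) P (P.map (MulAut.conj y).toMonoidHom)
      hP le_sup_left hQle (isPGroup_map_conj P hP y) (by rw [card_map_conj]) hidx
    rw [sup_comm, Subgroup.mem_sup_of_normal_left] at hk
    obtain ⟨n, hn, u, hu, rfl⟩ := hk
    have hPu : P.map (MulAut.conj u).toMonoidHom = P :=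
      map_conj_eq_of_mem_normalizer P u (Subgroup.le_normalizer hu)
    rw [← map_conj_mul, hPu] at hke
    refine ⟨n⁻¹ * y, ?_, ?_⟩
    · apply mem_normalizer_of_map_conj_eq
      rw [← map_conj_mul, hke, map_conj_mul, inv_mul_cancel, map_conj_one]
    · rw [map_mul, map_inv]
      have : QuotientGroup.mk' N n = 1 := by
        rw [QuotientGroup.mk'_apply, QuotientGroup.eq_one_iff]; exact hn
      rw [this]; simp
  have hnorm : Subgroup.normalizer ((P.map (QuotientGroup.mk' N)) : Set (G ⧸ N)) =
      (Subgroup.normalizer (P : Set G)).map (QuotientGroup.mk' N) := by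
    apply le_antisymm
    · intro ybar hy
      obtain ⟨z, hz, hze⟩ := key ybar hy
      exact ⟨z, hz, hze⟩
    · exact Subgroup.le_normalizer_map _
  refine ⟨hnorm, ?_⟩
  apply le_antisymm
  · intro ybar hy
    have hyn : ybar ∈ Subgroup.normalizer ((P.map (QuotientGroup.mk' N)) : Set (G ⧸ N)) :=
      Subgroup.centralizer_le_normalizer _ hy
    obtain ⟨z, hz, rfl⟩ := key ybar hyn
    refine ⟨z, ?_, rfl⟩
    show z ∈ Subgroup.centralizer (P : Set G)
    rw [Subgroup.mem_centralizer_iff]
    intro u hu
    have hu' : u ∈ P := hu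
    have h1 : z * u * z⁻¹ ∈ P := (Subgroup.mem_normalizer_iff.mp hz u).mp hu'
    have h2 : z * u * z⁻¹ * u⁻¹ ∈ P := mul_mem h1 (inv_mem hu')
    have h3 : z * u * z⁻¹ * u⁻¹ ∈ N := by
      rw [← QuotientGroup.eq_one_iff, ← QuotientGroup.mk'_apply]
      rw [Subgroup.mem_centralizer_iff] at hy
      have hc := hy (QuotientGroup.mk' N u) (Subgroup.mem_map_of_mem _ hu')
      simp only [map_mul, map_inv]
      rw [← hc]
      group
    have h4 : z * u * z⁻¹ * u⁻¹ ∈ P ⊓ N := ⟨h2, h3⟩
    rw [hPN, Subgroup.mem_bot] at h4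
    have : z * u = (z * u * z⁻¹ * u⁻¹) * (u * z) := by group
    rw [this, h4, one_mul]
  · have := Subgroup.map_centralizer_le_centralizer_image (P : Set G) (QuotientGroup.mk' N)
    rw [Subgroup.coe_map]
    exact this

end Cfsg.Agent.S3800
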