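import Cfsg.Statements.S3950
import Cfsg.Agent.Helper21.Schur
import Cfsg.Agent.Helper21.AbelianNonCyclic
import Cfsg.Agent.S3979

set_option autoImplicit false
open Cfsg

namespace Cfsg.Agent.S3950

/-- A finite abelian group has trivial Schur multiplier if and only if it is cyclic. -/
theorem result {G : Type*} [CommGroup G] [Finite G] : Cfsg.HasCyclicSchurMultiplier G 1 ↔ IsCyclic G := by
  constructor
  · intro hG
    by_contra hnc
    obtain ⟨p, hp, f, hf⟩ := Cfsg.Agent.Helper21.exists_surj_zmod_p_sq hnc
    obtain ⟨Γ, _, _, τ, hstem, hker⟩ := Cfsg.Agent.Helper21.exists_stem_nontrivial p hp f hf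
    exact hker (Cfsg.Agent.Helper21.ker_bot_of_schur_one hG Γ τ hstem)
  · intro hc
    exact Cfsg.Agent.S3979.result

end Cfsg.Agent.S3950
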