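import Cfsg.Statements.S3953
import Cfsg.Agent.Helper27.CorHom

set_option autoImplicit false
open Cfsg

namespace Cfsg.Agent.S3953

open scoped IsMulCommutative

theorem exists_root_of_coprime {A : Type*} [CommGroup A] (a₀ : A) (m n : ℕ)
    (h : Nat.Coprime m n) (hn : a₀ ^ n = 1) : ∃ x : ℤ, (a₀ ^ x) ^ m = a₀ := by
  refine ⟨Nat.gcdA m n, ?_⟩
  have hbez := Nat.gcd_eq_gcd_ab m n
  rw [h.gcd_eq_one] at hbez
  have h1 : a₀ ^ ((m : ℤ) * Nat.gcdA m n + (n : ℤ) * Nat.gcdB m n) = a₀ := by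
    rw [← hbez, Nat.cast_one, zpow_one]
  rw [zpow_add, zpow_mul', zpow_mul, zpow_natCast, zpow_natCast, hn, one_zpow, mul_one] at h1
  exact h1

set_option maxHeartbeats 1600000 in
/-- Let `P` be a Sylow `p`-subgroup of the finite group `G`, let `A` be the Schur multiplier of `G` and `B` that of `P`. Then the `p`-primary component of `A` is isomorphic to a direct factor of `B`: there are subgroups `C` and `D` of `B` meeting trivially and generating `B`, with `C` isomorphic to the `p`-primary component of `A`. -/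
theorem result {G : Type*} [Group G] [Finite G] (p : ℕ) [Fact p.Prime] (P : Sylow p G) {A B : Type*} [CommGroup A] [CommGroup B] (hA : Cfsg.HasSchurMultiplier G A) (hB : Cfsg.HasSchurMultiplier P B) : ∃ C D : Subgroup B, C ⊓ D = ⊥ ∧ C ⊔ D = ⊤ ∧ Nonempty (CommGroup.primaryComponent A p ≃* C) := by
  classical
  obtain ⟨Γ, _, _, σ, hσ, ⟨i⟩⟩ := hA.1
  obtain ⟨E, _, _, τ, hτ, ⟨i'⟩⟩ := hB.1
  have hkA : Nat.card A ≤ Nat.card σ.ker := le_of_eq (Nat.card_congr i.symm.toEquiv)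
  have hkB : Nat.card B ≤ Nat.card τ.ker := le_of_eq (Nat.card_congr i'.symm.toEquiv)
  let τ' : E →* G := (P : Subgroup G).subtype.comp τ
  have hτ'1 : ∀ e : E, τ' e = 1 ↔ τ e = 1 := by
    intro e
    constructor
    · intro h; exact Subtype.ext h
    · intro h
      show ((τ e : (P : Subgroup G)) : G) = 1
      rw [h]; rfl
  let T : Subgroup (E × Γ) := Cfsg.Agent.Helper21.pullbackSubgroup τ' σ
  have hTmem : ∀ y : E × Γ, y ∈ T ↔ τ' y.1 = σ y.2 := fun y => Iff.rfl
  let p₁ : T →* E := (MonoidHom.fst E Γ).comp T.subtype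
  let q : T →* Γ := (MonoidHom.snd E Γ).comp T.subtype
  have hTu : ∀ u : T, τ' (p₁ u) = σ (q u) := fun u => (hTmem _).1 u.2
  have hp₁ : Function.Surjective p₁ := Cfsg.Agent.Helper21.pullback_fst_surjective τ' σ hσ.1
  have hcen' : ∀ u : T, σ (q u) = 1 → u ∈ Subgroup.center T := by
    intro u hu
    have h2 : τ (p₁ u) = 1 := (hτ'1 _).1 ((hTu u).trans hu)
    have h3 : p₁ u ∈ Subgroup.center E := hτ.2.1 (MonoidHom.mem_ker.2 h2)
    have h4 : q u ∈ Subgroup.center Γ := hσ.2.1 (MonoidHom.mem_ker.2 hu)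
    rw [Subgroup.mem_center_iff]
    intro g
    apply Subtype.ext
    apply Prod.ext
    · exact Subgroup.mem_center_iff.1 h3 (p₁ g)
    · exact Subgroup.mem_center_iff.1 h4 (q g)
  have hcenT : (τ.comp p₁).ker ≤ Subgroup.center T := by
    intro u hu
    apply hcen'
    have h1 : τ (p₁ u) = 1 := MonoidHom.mem_ker.1 hu
    rw [← hTu u]
    exact (hτ'1 _).2 h1
  have hL := Cfsg.Agent.Helper21.ker_inf_commutator_eq_bot hB τ hτ hkB p₁ hp₁ hcenT
  have hZ : σ.ker ≤ q.range := by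
    intro z hz
    exact ⟨⟨(1, z), by show τ' 1 = σ z; rw [map_one, MonoidHom.mem_ker.1 hz]⟩, rfl⟩
  obtain ⟨F, hF1, hF2⟩ := Cfsg.Agent.Helper27.exists_cor_hom hA σ hσ hkA q hZ hcen'
  have hrange : q.range = (P : Subgroup G).comap σ := by
    ext γ
    constructor
    · rintro ⟨u, rfl⟩
      show σ (q u) ∈ (P : Subgroup G)
      rw [← hTu u]
      exact (τ (p₁ u)).2
    · intro hγ
      obtain ⟨e, he⟩ := hτ.1 ⟨σ γ, hγ⟩
      exact ⟨⟨(e, γ), by show ((τ e : (P : Subgroup G)) : G) = σ γ; rw [he]⟩, rfl⟩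
  obtain ⟨m, hm⟩ : ∃ m : ℕ, m = q.range.index := ⟨_, rfl⟩
  rw [← hm] at hF2
  have hmidx : m = (P : Subgroup G).index := by
    rw [hm, hrange]; exact Subgroup.index_comap_of_surjective _ hσ.1
  have hmp : ¬ p ∣ m := by rw [hmidx]; exact P.not_dvd_index
  have hpm : Nat.Coprime p m := (Nat.Prime.coprime_iff_not_dvd Fact.out).2 hmp
  obtain ⟨e₀, he₀⟩ := IsPGroup.iff_card.1 P.2
  -- the kernel of `τ` is a `p`-group
  have hKp : ∀ k : E, τ k = 1 → k ^ p ^ e₀ = 1 := by
    intro k hk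
    have hkc : k ∈ commutator E := hτ.2.2 (MonoidHom.mem_ker.2 hk)
    have h1 : MonoidHom.transferCenterPow E k = 1 :=
      MonoidHom.mem_ker.1 (Abelianization.commutator_subset_ker (MonoidHom.transferCenterPow E) hkc)
    have h2 : k ^ (Subgroup.center E).index = 1 := by
      have h := MonoidHom.transferCenterPow_apply k
      rw [h1] at h
      exact h.symm
    have h3 : (Subgroup.center E).index ∣ p ^ e₀ := by
      have h4 : τ.ker.index = p ^ e₀ := by
        rw [Subgroup.index_ker, MonoidHom.range_eq_top.2 hτ.1, Subgroup.card_top, he₀]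
      rw [← h4]; exact Subgroup.index_dvd_of_le hτ.2.1
    obtain ⟨c, hc⟩ := h3
    rw [hc, pow_mul, h2, one_pow]
  have hFτ : ∀ z : σ.ker, τ (p₁ (F z)) = 1 := by
    intro z
    apply (hτ'1 _).1
    rw [hTu, hF2, map_pow, MonoidHom.mem_ker.1 z.2, one_pow]
  let f' : σ.ker →* τ.ker := (p₁.comp F).codRestrict τ.ker (fun z => MonoidHom.mem_ker.2 (hFτ z))
  let j : τ.ker →* T := MonoidHom.codRestrict ((MonoidHom.inl E Γ).comp τ.ker.subtype) T
    (fun k => by
      show τ' (k : E) = σ 1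
      rw [map_one]; exact (hτ'1 _).2 (MonoidHom.mem_ker.1 k.2))
  have hj1 : ∀ k : τ.ker, p₁ (j k) = (k : E) := fun k => rfl
  have hj2 : ∀ k : τ.ker, q (j k) = 1 := fun k => rfl
  let DK : Subgroup τ.ker := (commutator T).comap j
  let φ : A →* B := i'.toMonoidHom.comp (f'.comp i.symm.toMonoidHom)
  let φp : CommGroup.primaryComponent A p →* B :=
    φ.comp (CommGroup.primaryComponent A p).subtype
  have hφp : ∀ a : CommGroup.primaryComponent A p, φp a = i' (f' (i.symm (a : A))) := fun a => rfl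
  have hf' : ∀ z : σ.ker, ((f' z : τ.ker) : E) = p₁ (F z) := fun z => rfl
  have hcop : ∀ a : A, a ∈ CommGroup.primaryComponent A p → a ^ m = 1 → a = 1 := by
    intro a ha ham
    obtain ⟨k, hk⟩ := CommGroup.mem_primaryComponent.1 ha
    have hc : Nat.Coprime (p ^ k) m := Nat.Coprime.pow_left k hpm
    have h := pow_gcd_eq_one.2 ⟨hk, ham⟩
    rwa [hc.gcd_eq_one, pow_one] at h
  have hzero : ∀ a : CommGroup.primaryComponent A p,
      ((i.symm (a : A) : σ.ker) : Γ) ^ m = 1 → a = 1 := by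
    intro a h4
    have h5 : (i.symm (a : A)) ^ m = 1 := Subtype.ext (by rw [Subgroup.coe_pow]; exact h4)
    have h6 := congrArg i h5
    rw [map_pow, MulEquiv.apply_symm_apply, map_one] at h6
    exact Subtype.ext (hcop _ a.2 h6)
  have huniq : ∀ a b : T, a ∈ commutator T → b ∈ commutator T → p₁ a = p₁ b → a = b := by
    intro a b ha hb hab
    have h1 : a⁻¹ * b ∈ p₁.ker ⊓ commutator T := Subgroup.mem_inf.2
      ⟨MonoidHom.mem_ker.2 (by rw [map_mul, map_inv, hab, inv_mul_cancel]),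
        mul_mem (inv_mem ha) hb⟩
    rw [hL, Subgroup.mem_bot] at h1
    exact inv_mul_eq_one.1 h1
  have hφinj : Function.Injective φp := by
    rw [injective_iff_map_eq_one]
    intro a ha
    have h1 : f' (i.symm (a : A)) = 1 := i'.injective (by rw [map_one]; exact ha)
    have h2 : p₁ (F (i.symm (a : A))) = p₁ 1 := by
      rw [map_one, ← hf', h1]; rfl
    have h3 : F (i.symm (a : A)) = 1 := huniq _ _ (hF1 _) (one_mem _) h2
    apply hzero
    rw [← hF2, h3, map_one]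
  refine ⟨φp.range, DK.map i'.toMonoidHom, ?_, ?_, ⟨MonoidHom.ofInjective hφinj⟩⟩
  · rw [eq_bot_iff]
    intro b hb
    obtain ⟨⟨a, rfl⟩, hb2⟩ := Subgroup.mem_inf.1 hb
    obtain ⟨k, hk, hkb⟩ := Subgroup.mem_map.1 hb2
    have h1 : f' (i.symm (a : A)) = k := i'.injective hkb.symm
    have hk' : j k ∈ commutator T := hk
    have h2 : F (i.symm (a : A)) = j k := huniq _ _ (hF1 _) hk' (by
      rw [hj1, ← hf', h1])
    have ha1 : a = 1 := by
      apply hzero
      rw [← hF2, h2, hj2]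
    rw [ha1, map_one]
    exact Subgroup.mem_bot.2 rfl
  · rw [eq_top_iff]
    intro b _
    obtain ⟨k, hk⟩ : ∃ k : τ.ker, k = i'.symm b := ⟨_, rfl⟩
    have hkc : (k : E) ∈ commutator E := hτ.2.2 k.2
    obtain ⟨t, ht, htk⟩ :=
      Cfsg.Agent.Helper21.exists_mem_commutator_of_surjective p₁ hp₁ hkc
    have hγ : σ (q t) = 1 := by
      rw [← hTu t, htk]
      exact (hτ'1 _).2 (MonoidHom.mem_ker.1 k.2)
    have htp : t ^ p ^ e₀ = 1 := by
      apply huniq _ _ (pow_mem ht _) (one_mem _)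
      rw [map_pow, htk, hKp _ (MonoidHom.mem_ker.1 k.2), map_one]
    obtain ⟨zγ, hzγ⟩ : ∃ zγ : σ.ker, (zγ : Γ) = q t := ⟨⟨q t, MonoidHom.mem_ker.2 hγ⟩, rfl⟩
    have hzp : zγ ^ p ^ e₀ = 1 := by
      apply Subtype.ext
      rw [Subgroup.coe_pow, hzγ, ← map_pow, htp, map_one]; rfl
    have ha₀p : (i zγ) ^ p ^ e₀ = 1 := by rw [← map_pow, hzp, map_one]
    obtain ⟨x, hx⟩ := exists_root_of_coprime (i zγ) m (p ^ e₀)
      (Nat.Coprime.pow_left e₀ hpm).symm ha₀p
    have ha₀mem : i zγ ∈ CommGroup.primaryComponent A p :=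
      CommGroup.mem_primaryComponent.2 ⟨e₀, ha₀p⟩
    have hamem : (i zγ) ^ x ∈ CommGroup.primaryComponent A p := zpow_mem ha₀mem x
    obtain ⟨za, hza⟩ : ∃ za : σ.ker, za = i.symm ((i zγ) ^ x) := ⟨_, rfl⟩
    have hzam : za ^ m = zγ := by
      rw [hza, ← map_pow, hx, MulEquiv.symm_apply_apply]
    have hqF : q (F za) = q t := by
      rw [hF2, ← hzγ, ← hzam, Subgroup.coe_pow]
    -- the element `k * (f' za)⁻¹` lies in `DK`
    have hjk : j (k * (f' za)⁻¹) = t * (F za)⁻¹ := by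
      apply Subtype.ext
      apply Prod.ext
      · show p₁ (j (k * (f' za)⁻¹)) = p₁ (t * (F za)⁻¹)
        rw [hj1, map_mul, map_inv, htk, Subgroup.coe_mul, Subgroup.coe_inv, hf']
      · show q (j (k * (f' za)⁻¹)) = q (t * (F za)⁻¹)
        rw [hj2, map_mul, map_inv, hqF, mul_inv_cancel]
    have hd : k * (f' za)⁻¹ ∈ DK := by
      show j (k * (f' za)⁻¹) ∈ commutator T
      rw [hjk]
      exact mul_mem ht (inv_mem (hF1 za))
    have hb : b = φp ⟨(i zγ) ^ x, hamem⟩ * i' (k * (f' za)⁻¹) := by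
      rw [hφp, ← hza, map_mul, map_inv, mul_comm (i' k), mul_inv_cancel_left, hk,
        MulEquiv.apply_symm_apply]
    rw [hb]
    exact Subgroup.mul_mem_sup ⟨_, rfl⟩ (Subgroup.mem_map_of_mem _ hd)

end Cfsg.Agent.S3953
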