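import Cfsg.Statements.S3956
import Cfsg.Agent.Helper21.ProjLift

set_option autoImplicit false
universe u v
open Cfsg

namespace Cfsg.Agent.S3956

/-- Let `σ : Γ →* Q` be a finite stem extension of the finite group `Q` such that every homomorphism from `Q` to the quotient of `GL n ℂ` by its centre, for every `n`, lifts along `σ` to a homomorphism `Γ →* GL n ℂ`. Then `σ` is a Schur covering group of `Q`: for every finite stem extension `τ : Δ →* Q` with `Δ` in the same universe as `Q`, the kernel of `τ` is a homomorphic image of the kernel of `σ`. -/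
theorem result {Q : Type u} [Group Q] [Finite Q] {Γ : Type v} [Group Γ] [Finite Γ] (σ : Γ →* Q) (hσ : Cfsg.IsStemExtension σ) (hlift : ∀ (n : ℕ) (γ : Q →* (GL (Fin n) ℂ ⧸ Subgroup.center (GL (Fin n) ℂ))), ∃ ρ : Γ →* GL (Fin n) ℂ, (QuotientGroup.mk' (Subgroup.center (GL (Fin n) ℂ))).comp ρ = γ.comp σ) (Δ : Type u) [Group Δ] [Finite Δ] (τ : Δ →* Q) (hτ : Cfsg.IsStemExtension τ) : ∃ π : σ.ker →* τ.ker, Function.Surjective π := by
  let p₁ : ↥(Cfsg.Agent.Helper21.pullbackSubgroup σ τ) →* Γ :=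
    (MonoidHom.fst Γ Δ).comp (Cfsg.Agent.Helper21.pullbackSubgroup σ τ).subtype
  let p₂ : ↥(Cfsg.Agent.Helper21.pullbackSubgroup σ τ) →* Δ :=
    (MonoidHom.snd Γ Δ).comp (Cfsg.Agent.Helper21.pullbackSubgroup σ τ).subtype
  have hp₁ : Function.Surjective p₁ := Cfsg.Agent.Helper21.pullback_fst_surjective σ τ hτ.1
  have hp₂ : Function.Surjective p₂ := Cfsg.Agent.Helper21.pullback_snd_surjective σ τ hσ.1
  have hbot : p₁.ker ⊓ commutator ↥(Cfsg.Agent.Helper21.pullbackSubgroup σ τ) = ⊥ := by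
    rw [eq_bot_iff]
    intro t ht
    obtain ⟨ht1, ht2⟩ := Subgroup.mem_inf.1 ht
    have h1 : p₁ t = 1 := MonoidHom.mem_ker.1 ht1
    have h2 : p₂ t = 1 := Cfsg.Agent.Helper21.snd_eq_one_of_lift σ τ hτ.1 hτ.2.1 hlift p₁ p₂
      (fun s => s.2) h1 ht2
    rw [Subgroup.mem_bot]
    exact Subtype.ext (Prod.ext h1 h2)
  obtain ⟨π, hπ⟩ := Cfsg.Agent.Helper21.exists_hom_of_square σ τ p₁ p₂ hp₁ hp₂
    (fun t => t.2) hσ.2.2 hbot
  have hrange : π.range = τ.ker := by rw [hπ]; exact inf_eq_left.2 hτ.2.2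
  refine ⟨π.codRestrict τ.ker (fun a => by rw [← hrange]; exact ⟨a, rfl⟩), ?_⟩
  rintro ⟨k, hk⟩
  rw [← hrange] at hk
  obtain ⟨a, rfl⟩ := hk
  exact ⟨a, rfl⟩

end Cfsg.Agent.S3956
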