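import Cfsg.Statements.S3958
import Cfsg.Agent.Helper21.CentralImage

set_option autoImplicit false
universe u v
open Cfsg

namespace Cfsg.Agent.S3958

/-- Let `σ : Γ →* Q` be a finite stem extension of the finite group `Q` with `Γ` of trivial Schur multiplier. Then `σ` is a Schur covering group of `Q`: for every finite stem extension `τ : Δ →* Q` with `Δ` in the same universe as `Q`, the kernel of `τ` is a homomorphic image of the kernel of `σ`. -/
theorem result {Q : Type u} [Group Q] [Finite Q] {Γ : Type v} [Group Γ] [Finite Γ] (σ : Γ →* Q) (hσ : Cfsg.IsStemExtension σ) (hΓ : Cfsg.HasCyclicSchurMultiplier Γ 1) (Δ : Type u) [Group Δ] [Finite Δ] (τ : Δ →* Q) (hτ : Cfsg.IsStemExtension τ) : ∃ π : σ.ker →* τ.ker, Function.Surjective π := by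
  let p₁ : ↥(Cfsg.Agent.Helper21.pullbackSubgroup σ τ) →* Γ :=
    (MonoidHom.fst Γ Δ).comp (Cfsg.Agent.Helper21.pullbackSubgroup σ τ).subtype
  let p₂ : ↥(Cfsg.Agent.Helper21.pullbackSubgroup σ τ) →* Δ :=
    (MonoidHom.snd Γ Δ).comp (Cfsg.Agent.Helper21.pullbackSubgroup σ τ).subtype
  have hp₁ : Function.Surjective p₁ := Cfsg.Agent.Helper21.pullback_fst_surjective σ τ hτ.1
  have hp₂ : Function.Surjective p₂ := Cfsg.Agent.Helper21.pullback_snd_surjective σ τ hσ.1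
  have hcen : p₁.ker ≤ Subgroup.center ↥(Cfsg.Agent.Helper21.pullbackSubgroup σ τ) := by
    intro y hy
    have h1 : (y : Γ × Δ).1 = 1 := MonoidHom.mem_ker.1 hy
    have h2 : τ (y : Γ × Δ).2 = 1 := by
      rw [← (Cfsg.Agent.Helper21.mem_pullbackSubgroup σ τ _).1 y.2, h1, map_one]
    have h4 : (y : Γ × Δ).2 ∈ Subgroup.center Δ := hτ.2.1 (MonoidHom.mem_ker.2 h2)
    rw [Subgroup.mem_center_iff]
    intro g
    apply Subtype.ext
    apply Prod.ext
    · show (g : Γ × Δ).1 * (y : Γ × Δ).1 = (y : Γ × Δ).1 * (g : Γ × Δ).1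
      rw [h1, mul_one, one_mul]
    · exact Subgroup.mem_center_iff.1 h4 (g : Γ × Δ).2
  obtain ⟨π', hπ'⟩ :=
    Cfsg.Agent.Helper21.exists_hom_range_eq_ker_inf_commutator hΓ p₁ hp₁ hcen
  have hbot : p₁.ker ⊓ commutator ↥(Cfsg.Agent.Helper21.pullbackSubgroup σ τ) = ⊥ := by
    rw [← hπ', eq_bot_iff]
    rintro _ ⟨a, rfl⟩
    have ha : a = 1 := Subsingleton.elim _ _
    rw [ha, map_one]
    exact Subgroup.mem_bot.2 rfl
  obtain ⟨π, hπ⟩ := Cfsg.Agent.Helper21.exists_hom_of_square σ τ p₁ p₂ hp₁ hp₂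
    (fun t => t.2) hσ.2.2 hbot
  have hrange : π.range = τ.ker := by rw [hπ]; exact inf_eq_left.2 hτ.2.2
  refine ⟨π.codRestrict τ.ker (fun a => by rw [← hrange]; exact ⟨a, rfl⟩), ?_⟩
  rintro ⟨k, hk⟩
  rw [← hrange] at hk
  obtain ⟨a, rfl⟩ := hk
  exact ⟨a, rfl⟩

end Cfsg.Agent.S3958
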