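import Cfsg.Statements.S3962
-- import your own Cfsg.Agent.* helpers here

set_option autoImplicit false
open Cfsg

namespace Cfsg.Agent.S3962

/-- Let `G` be a perfect group and `π : G →* Q` a surjective homomorphism whose kernel is central. Then `π` maps the centre of `G` onto the centre of `Q`. Taking `π` to be the map to `G ⧸ Z(G)` shows that the central quotient of a perfect group has trivial centre. -/
theorem result {G Q : Type*} [Group G] [Group Q] (hG : Group.IsPerfect G) (π : G →* Q) (hπ : Function.Surjective π) (hker : π.ker ≤ Subgroup.center G) : (Subgroup.center G).map π = Subgroup.center Q := by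
  classical
  ext q
  constructor
  · rintro ⟨z, hz, rfl⟩
    rw [Subgroup.mem_center_iff]
    intro q'
    obtain ⟨g, rfl⟩ := hπ q'
    rw [← map_mul, ← map_mul, (Subgroup.mem_center_iff.mp hz g)]
  · intro hq
    obtain ⟨g, rfl⟩ := hπ q
    refine ⟨g, ?_, rfl⟩
    have hc : ∀ h : G, g * h * g⁻¹ * h⁻¹ ∈ Subgroup.center G := by
      intro h
      apply hker
      rw [MonoidHom.mem_ker]
      have := Subgroup.mem_center_iff.mp hq (π h)
      simp only [map_mul, map_inv]
      rw [← this]
      group
    obtain ⟨φ, hφd⟩ : ∃ φ : G →* Subgroup.center G, ∀ h : G, (φ h : G) = g * h * g⁻¹ * h⁻¹ := by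
      refine ⟨{ toFun := fun h => ⟨g * h * g⁻¹ * h⁻¹, hc h⟩, map_one' := ?_, map_mul' := ?_ }, ?_⟩
      · apply Subtype.ext
        simp
      · intro a b
        apply Subtype.ext
        have hb := Subgroup.mem_center_iff.mp (hc b) (a⁻¹)
        simp only [Subgroup.coe_mul]
        calc g * (a * b) * g⁻¹ * (a * b)⁻¹
            = g * a * g⁻¹ * ((g * b * g⁻¹ * b⁻¹) * a⁻¹) := by group
          _ = g * a * g⁻¹ * (a⁻¹ * (g * b * g⁻¹ * b⁻¹)) := by rw [hb]
          _ = g * a * g⁻¹ * a⁻¹ * (g * b * g⁻¹ * b⁻¹) := by group
      · intro h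
        rfl
    have hφ : ∀ h : G, φ h = 1 := by
      intro h
      have h1 : commutator G ≤ φ.ker := by
        rw [commutator_def, Subgroup.commutator_le]
        intro a _ b _
        rw [MonoidHom.mem_ker, map_commutatorElement, commutatorElement_eq_one_iff_commute]
        apply Subtype.ext
        exact (Subgroup.mem_center_iff.mp (φ a).2 (φ b)).symm
      have h2 : h ∈ commutator G := by
        rw [hG.commutator_eq_top]
        exact Subgroup.mem_top h
      exact MonoidHom.mem_ker.mp (h1 h2)
    show g ∈ Subgroup.center G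
    rw [Subgroup.mem_center_iff]
    intro h
    have h3 : g * h * g⁻¹ * h⁻¹ = 1 := by
      rw [← hφd h, hφ h]
      rfl
    calc h * g = (g * h * g⁻¹ * h⁻¹)⁻¹ * (g * h) := by group
      _ = g * h := by rw [h3]; simp

end Cfsg.Agent.S3962
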