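import Cfsg.Statements.S3964
import Cfsg.Agent.Helper21.Schur
import Cfsg.Agent.Helper21.StemIndex2

set_option autoImplicit false
open Cfsg

namespace Cfsg.Agent.S3964

/-- For odd `n` the dihedral group of order `2 n` has trivial Schur multiplier. -/
theorem result (n : ℕ) (hn : Odd n) : Cfsg.HasCyclicSchurMultiplier (DihedralGroup n) 1 := by
  have hn0 : NeZero n := ⟨fun h => by rw [h] at hn; exact absurd hn (by decide)⟩
  apply Cfsg.Agent.Helper21.schur_one_of_ker_bot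
  intro Γ _ _ σ hσ
  obtain ⟨s, hs⟩ := hσ.1 (DihedralGroup.sr 0)
  have hC : ∀ x : DihedralGroup n, x ∈ Subgroup.zpowers (DihedralGroup.r 1 : DihedralGroup n) ↔
      ∃ i : ZMod n, x = DihedralGroup.r i := by
    intro x
    constructor
    · rintro ⟨k, rfl⟩
      exact ⟨(k : ZMod n), DihedralGroup.r_one_zpow k⟩
    · rintro ⟨i, rfl⟩
      refine ⟨(i.val : ℤ), ?_⟩
      simp
  have ht : ∀ c ∈ Subgroup.zpowers (DihedralGroup.r 1 : DihedralGroup n),
      DihedralGroup.sr 0 * c * (DihedralGroup.sr 0)⁻¹ ∈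
        Subgroup.zpowers (DihedralGroup.r 1 : DihedralGroup n) := by
    intro c hc
    obtain ⟨i, rfl⟩ := (hC c).mp hc
    rw [hC]
    exact ⟨-i, by simp⟩
  have hcov : ∀ h : DihedralGroup n, h ∈ Subgroup.zpowers (DihedralGroup.r 1 : DihedralGroup n) ∨
      h * (DihedralGroup.sr 0)⁻¹ ∈ Subgroup.zpowers (DihedralGroup.r 1 : DihedralGroup n) := by
    rintro (i | i)
    · exact Or.inl ((hC _).mpr ⟨i, rfl⟩)
    · exact Or.inr ((hC _).mpr ⟨-i, by simp⟩)
  rw [Subgroup.eq_bot_iff_forall]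
  intro x hx
  obtain ⟨r, hr, rfl⟩ := Cfsg.Agent.Helper21.stem_ker_form σ hσ
    (Subgroup.zpowers (DihedralGroup.r 1 : DihedralGroup n)) (DihedralGroup.sr 0) ht hcov s hs x hx
  obtain ⟨i, hi⟩ := (hC _).mp hr
  have h1 : σ (s * r * s⁻¹ * r⁻¹) = 1 := MonoidHom.mem_ker.mp hx
  rw [map_mul, map_mul, map_mul, map_inv, map_inv, hs, hi] at h1
  have h2 : (-i - i : ZMod n) = 0 := by
    have h3 : DihedralGroup.sr 0 * DihedralGroup.r i * (DihedralGroup.sr 0)⁻¹ * (DihedralGroup.r i)⁻¹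
        = DihedralGroup.r (-i - i) := by simp [sub_eq_add_neg]
    rw [h3, DihedralGroup.one_def] at h1
    exact DihedralGroup.r.inj h1
  have h4 : i = 0 := by
    have h5 : i + i = 0 := by
      have : i + i = -(-i - i) := by ring
      rw [this, h2, neg_zero]
    exact (ZMod.add_self_eq_zero_iff_eq_zero hn).mp h5
  have h6 : r ∈ Subgroup.center Γ := by
    apply hσ.2.1
    rw [MonoidHom.mem_ker, hi, h4]
    rfl
  have h7 := Subgroup.mem_center_iff.mp h6 s
  calc s * r * s⁻¹ * r⁻¹ = (s * r) * s⁻¹ * r⁻¹ := by group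
    _ = (r * s) * s⁻¹ * r⁻¹ := by rw [h7]
    _ = 1 := by group

end Cfsg.Agent.S3964
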