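import Cfsg.Statements.S3965
import Cfsg.Agent.Helper21.Schur2
import Cfsg.Agent.Helper21.StemIndex2
import Cfsg.Agent.Helper21.QuatDihedral

set_option autoImplicit false
open Cfsg

namespace Cfsg.Agent.S3965

/-- For even `n ≥ 2` the dihedral group of order `2 n` has Schur multiplier cyclic of order `2`. -/
theorem result (n : ℕ) [NeZero n] (hn : Even n) : Cfsg.HasCyclicSchurMultiplier (DihedralGroup n) 2 := by
  refine ⟨⟨QuaternionGroup n, inferInstance, inferInstance, Cfsg.Agent.Helper21.quatToDihedral n,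
    Cfsg.Agent.Helper21.quatToDihedral_isStem n hn,
    Cfsg.Agent.Helper21.nonempty_mulEquiv_zmod2_of_card (Cfsg.Agent.Helper21.card_ker_quatToDihedral n)⟩, ?_⟩
  intro Γ _ _ σ hσ
  obtain ⟨s, hs⟩ := hσ.1 (DihedralGroup.sr 0)
  obtain ⟨m, hm⟩ := hn
  obtain ⟨r0, hr0⟩ := hσ.1 (DihedralGroup.r (m : ZMod n))
  have hC : ∀ x : DihedralGroup n, x ∈ Subgroup.zpowers (DihedralGroup.r 1 : DihedralGroup n) ↔
      ∃ i : ZMod n, x = DihedralGroup.r i := by
    intro x
    constructor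
    · rintro ⟨k, rfl⟩
      exact ⟨(k : ZMod n), DihedralGroup.r_one_zpow k⟩
    · rintro ⟨i, rfl⟩
      refine ⟨(i.val : ℤ), ?_⟩
      simp
  have ht : ∀ c ∈ Subgroup.zpowers (DihedralGroup.r 1 : DihedralGroup n),
      DihedralGroup.sr 0 * c * (DihedralGroup.sr 0)⁻¹ ∈
        Subgroup.zpowers (DihedralGroup.r 1 : DihedralGroup n) := by
    intro c hc
    obtain ⟨i, rfl⟩ := (hC c).mp hc
    rw [hC]
    exact ⟨-i, by simp⟩
  have hcov : ∀ h : DihedralGroup n, h ∈ Subgroup.zpowers (DihedralGroup.r 1 : DihedralGroup n) ∨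
      h * (DihedralGroup.sr 0)⁻¹ ∈ Subgroup.zpowers (DihedralGroup.r 1 : DihedralGroup n) := by
    rintro (i | i)
    · exact Or.inl ((hC _).mpr ⟨i, rfl⟩)
    · exact Or.inr ((hC _).mpr ⟨-i, by simp⟩)
  have hcen : ∀ k : Γ, σ k = 1 → ∀ g : Γ, g * k = k * g := by
    intro k hk g
    exact Subgroup.mem_center_iff.mp (hσ.2.1 (MonoidHom.mem_ker.mpr hk)) g
  have hmm : (m : ZMod n) + (m : ZMod n) = 0 := by
    have : ((n : ℕ) : ZMod n) = 0 := ZMod.natCast_self n
    rw [← this, hm]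
    push_cast
    ring
  have hform : ∀ x ∈ σ.ker, x = 1 ∨ x = s * r0 * s⁻¹ * r0⁻¹ := by
    intro x hx
    obtain ⟨r, hr, rfl⟩ := Cfsg.Agent.Helper21.stem_ker_form σ hσ
      (Subgroup.zpowers (DihedralGroup.r 1 : DihedralGroup n)) (DihedralGroup.sr 0) ht hcov s hs x hx
    obtain ⟨i, hi⟩ := (hC _).mp hr
    have h1 : σ (s * r * s⁻¹ * r⁻¹) = 1 := MonoidHom.mem_ker.mp hx
    rw [map_mul, map_mul, map_mul, map_inv, map_inv, hs, hi] at h1
    have h2 : (-i - i : ZMod n) = 0 := by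
      have h3 : DihedralGroup.sr 0 * DihedralGroup.r i * (DihedralGroup.sr 0)⁻¹ * (DihedralGroup.r i)⁻¹
          = DihedralGroup.r (-i - i) := by simp [sub_eq_add_neg]
      rw [h3, DihedralGroup.one_def] at h1
      exact DihedralGroup.r.inj h1
    have h5 : i + i = 0 := by
      have : i + i = -(-i - i) := by ring
      rw [this, h2, neg_zero]
    have h6 : i = 0 ∨ i = (m : ZMod n) := by
      have h7 : ((i.val + i.val : ℕ) : ZMod n) = 0 := by
        push_cast
        rw [ZMod.natCast_zmod_val]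
        exact h5
      have h8 : n ∣ i.val + i.val := (ZMod.natCast_eq_zero_iff _ _).mp h7
      have h9 : i.val < n := ZMod.val_lt i
      obtain ⟨c, hc⟩ := h8
      have hc' : c < 2 := by
        by_contra hge
        have : n * 2 ≤ n * c := Nat.mul_le_mul_left _ (by omega)
        omega
      interval_cases c
      · left
        have : i.val = 0 := by omega
        exact (ZMod.val_eq_zero i).mp this
      · right
        have hv : i.val = m := by omega
        have h10 := ZMod.natCast_zmod_val i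
        rw [hv] at h10
        exact h10.symm
    rcases h6 with h6 | h6
    · left
      have h7 := hcen r (by rw [hi, h6]; rfl) s
      calc s * r * s⁻¹ * r⁻¹ = (s * r) * s⁻¹ * r⁻¹ := by group
        _ = (r * s) * s⁻¹ * r⁻¹ := by rw [h7]
        _ = 1 := by group
    · right
      have hk : σ (r * r0⁻¹) = 1 := by
        rw [map_mul, map_inv, hr0, hi, h6]
        exact mul_inv_cancel _
      have h7 := hcen (r * r0⁻¹) hk s
      calc s * r * s⁻¹ * r⁻¹ = (s * (r * r0⁻¹)) * r0 * s⁻¹ * r⁻¹ := by group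
        _ = ((r * r0⁻¹) * s) * r0 * s⁻¹ * r⁻¹ := by rw [h7]
        _ = (r * r0⁻¹) * (s * r0 * s⁻¹ * r0⁻¹) * (r * r0⁻¹)⁻¹ := by group
        _ = ((s * r0 * s⁻¹ * r0⁻¹) * (r * r0⁻¹)) * (r * r0⁻¹)⁻¹ := by
            rw [hcen (r * r0⁻¹) hk (s * r0 * s⁻¹ * r0⁻¹)]
        _ = s * r0 * s⁻¹ * r0⁻¹ := by group
  have hz : s * r0 * s⁻¹ * r0⁻¹ ∈ σ.ker := by
    rw [MonoidHom.mem_ker, map_mul, map_mul, map_mul, map_inv, map_inv, hs, hr0]
    have h3 : DihedralGroup.sr 0 * DihedralGroup.r (m : ZMod n) * (DihedralGroup.sr 0)⁻¹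
        * (DihedralGroup.r (m : ZMod n))⁻¹ = DihedralGroup.r (-(m : ZMod n) - (m : ZMod n)) := by
      simp [sub_eq_add_neg]
    rw [h3, DihedralGroup.one_def]
    congr 1
    linear_combination -hmm
  apply Cfsg.Agent.Helper21.exists_surj_zmod2 (⟨s * r0 * s⁻¹ * r0⁻¹, hz⟩ : σ.ker)
  intro x
  rcases hform x.1 x.2 with h | h
  · left; exact Subtype.ext h
  · right; exact Subtype.ext h

end Cfsg.Agent.S3965
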