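import Cfsg.Statements.S3969
import Cfsg.Agent.Helper21.CoprimeAbelian

set_option autoImplicit false
open Cfsg

namespace Cfsg.Agent.S3969

/-- Let `P` be an abelian Sylow `p`-subgroup of the finite group `G`, generated by `d` elements (`d` its minimal number of generators). If the order of `G` is coprime to `(p - 1)(p ^ 2 - 1) ⋯ (p ^ d - 1)`, then `G` has a normal `p`-complement. (The classical statement needs only the largest number of cyclic factors of `P` of equal order in place of `d`; the form here follows from it.) -/
theorem result {G : Type*} [Group G] [Finite G] (p : ℕ) [Fact p.Prime] (P : Sylow p G) (hab : IsMulCommutative (P : Subgroup G)) (hcop : Nat.Coprime (Nat.card G) (∏ i ∈ Finset.Icc 1 (Group.rank (P : Subgroup G)), (p ^ i - 1))) : Cfsg.HasNormalPComplement p G := by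
  classical
  haveI := hab
  have hNC : Subgroup.normalizer ((P : Subgroup G) : Set G) ≤
      Subgroup.centralizer ((P : Subgroup G) : Set G) := by
    intro g hg
    apply Cfsg.Agent.Helper21.mem_of_primary_powers_mem
    intro z hz hzo
    obtain ⟨q, b, hq, hzo⟩ := hzo
    have hzN : z ∈ Subgroup.normalizer ((P : Subgroup G) : Set G) :=
      (Subgroup.zpowers_le.2 hg) hz
    rw [Subgroup.mem_centralizer_iff]
    by_cases hqp : q = p
    · subst hqp
      have hzP := Cfsg.Agent.Helper21.mem_sylow_of_mem_normalizer_of_orderOf P hzN hzo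
      intro x hx
      exact setLike_mul_comm (s := (P : Subgroup G)) hx hzP
    · by_contra hnc
      haveI : Fact q.Prime := ⟨hq⟩
      have hnc' : ¬ ∀ x ∈ (P : Subgroup G), z * x = x * z :=
        fun h => hnc (fun x hx => (h x hx).symm)
      obtain ⟨i, hi1, hi2, hqi⟩ :=
        Cfsg.Agent.Helper21.exists_dvd_pow_sub_one_of_not_centralizes hqp (P : Subgroup G)
          P.isPGroup' z hzN b hzo hnc'
      have hb : b ≠ 0 := by
        rintro rfl
        rw [pow_zero, orderOf_eq_one_iff] at hzo
        apply hnc'
        intro x _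
        rw [hzo, one_mul, mul_one]
      have hqG : q ∣ Nat.card G := by
        have h1 : q ∣ orderOf z := by rw [hzo]; exact dvd_pow_self q hb
        exact h1.trans (orderOf_dvd_natCard z)
      have hqprod : q ∣ ∏ i ∈ Finset.Icc 1 (Group.rank (P : Subgroup G)), (p ^ i - 1) :=
        hqi.trans (Finset.dvd_prod_of_mem _ (Finset.mem_Icc.2 ⟨hi1, hi2⟩))
      have h2 := Nat.dvd_gcd hqG hqprod
      rw [Nat.Coprime.gcd_eq_one hcop] at h2
      exact hq.one_lt.ne' (Nat.dvd_one.1 h2)
  exact ⟨P, _, MonoidHom.normal_ker _, MonoidHom.ker_transferSylow_isComplement' P hNC⟩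

end Cfsg.Agent.S3969
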