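import Cfsg.Statements.S3971
import Mathlib
import Cfsg.Agent.Lead.Frobenius

set_option autoImplicit false
open Cfsg

namespace Cfsg.Agent.S3971

open Subgroup in
/-- An element of odd order normalising a cyclic `2`-subgroup centralises it. -/
theorem cyc_lemma {G : Type*} [Group G] [Finite G] (C : Subgroup G) [IsCyclic C] (hC : IsPGroup 2 C)
    (g : G) (hg : g ∈ normalizer (C : Set G)) (hodd : Odd (orderOf g)) :
    g ∈ centralizer (C : Set G) := by
  have h1 : orderOf (C.normalizerMonoidHom ⟨g, hg⟩) ∣ orderOf g := by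
    have h0 := orderOf_map_dvd C.normalizerMonoidHom (⟨g, hg⟩ : normalizer (C : Set G))
    rwa [Subgroup.orderOf_mk] at h0
  have h2 : orderOf (C.normalizerMonoidHom ⟨g, hg⟩) ∣ Nat.card (MulAut C) := orderOf_dvd_natCard _
  rw [IsCyclic.card_mulAut] at h2
  obtain ⟨k, hk⟩ := hC.exists_card_eq
  have h3 : ∃ j, Nat.totient (Nat.card C) = 2 ^ j := by
    rw [hk]
    rcases Nat.eq_zero_or_pos k with h0 | h0
    · exact ⟨0, by rw [h0]; simp⟩
    · exact ⟨k - 1, by rw [Nat.totient_prime_pow Nat.prime_two h0]; simp⟩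
  obtain ⟨j, hj⟩ := h3
  rw [hj] at h2
  have hcop : Nat.Coprime (orderOf g) (2 ^ j) := Nat.Coprime.pow_right j (Nat.coprime_two_right.2 hodd)
  have h4 : orderOf (C.normalizerMonoidHom ⟨g, hg⟩) = 1 := Nat.eq_one_of_dvd_coprimes hcop h1 h2
  have h5 : C.normalizerMonoidHom ⟨g, hg⟩ = 1 := orderOf_eq_one_iff.1 h4
  have h6 : (⟨g, hg⟩ : normalizer (C : Set G)) ∈ C.normalizerMonoidHom.ker := h5
  rw [Subgroup.normalizerMonoidHom_ker, Subgroup.mem_subgroupOf] at h6
  exact h6

theorem rel2 {G : Type*} [Group G] [Finite G] (X M : Subgroup G) (hM : M ≤ X)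
    (hc : Nat.card X = 2 * Nat.card M) :
    ∀ a ∈ X, ∀ b ∈ X, (a * b ∈ M ↔ (a ∈ M ↔ b ∈ M)) := by
  have hi : (M.subgroupOf X).index = 2 := by
    have h1 := Subgroup.card_mul_index (M.subgroupOf X)
    have h2 : Nat.card (M.subgroupOf X) = Nat.card M :=
      Nat.card_congr (Subgroup.subgroupOfEquivOfLe hM).toEquiv
    rw [h2, hc] at h1
    have hpos : 0 < Nat.card M := Nat.card_pos
    exact Nat.eq_of_mul_eq_mul_left hpos (by rw [h1, mul_comm])
  intro a ha b hb
  have h3 := Subgroup.mul_mem_iff_of_index_two hi (a := (⟨a, ha⟩ : X)) (b := ⟨b, hb⟩)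
  simpa [Subgroup.mem_subgroupOf] using h3

open Subgroup in
theorem idx2_eq {G : Type*} [Group G] (X M₁ M₂ : Subgroup G) (c y : G)
    (hC : ∀ a ∈ X, ∀ b ∈ X, (a * b ∈ zpowers c ↔ (a ∈ zpowers c ↔ b ∈ zpowers c)))
    (h1 : ∀ a ∈ X, ∀ b ∈ X, (a * b ∈ M₁ ↔ (a ∈ M₁ ↔ b ∈ M₁)))
    (h2 : ∀ a ∈ X, ∀ b ∈ X, (a * b ∈ M₂ ↔ (a ∈ M₂ ↔ b ∈ M₂)))
    (hM₁ : M₁ ≤ X) (hM₂ : M₂ ≤ X) (hcX : c ∈ X) (hyX : y ∈ X) (hyC : y ∉ zpowers c)
    (hc1 : c ∉ M₁) (hc2 : c ∉ M₂) (hy : y ∈ M₁ ↔ y ∈ M₂) : M₁ = M₂ := by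
  obtain ⟨E, hE⟩ : ∃ E : Subgroup G, ∀ z : G, z ∈ E ↔ (z ∈ X ∧ (z ∈ M₁ ↔ z ∈ M₂)) := by
    refine ⟨{ carrier := {z | z ∈ X ∧ (z ∈ M₁ ↔ z ∈ M₂)}
              mul_mem' := ?_
              one_mem' := ?_
              inv_mem' := ?_ }, fun z => Iff.rfl⟩
    · rintro a b ⟨ha, ha'⟩ ⟨hb, hb'⟩
      refine ⟨X.mul_mem ha hb, ?_⟩
      rw [h1 a ha b hb, h2 a ha b hb, ha', hb']
    · exact ⟨X.one_mem, by simp only [one_mem]⟩
    · rintro a ⟨ha, ha'⟩
      exact ⟨X.inv_mem ha, by rw [inv_mem_iff, inv_mem_iff]; exact ha'⟩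
  have hcE : c ∈ E := (hE c).2 ⟨hcX, by simp only [hc1, hc2]⟩
  have hyE : y ∈ E := (hE y).2 ⟨hyX, hy⟩
  have hCE : zpowers c ≤ E := (zpowers_le).2 hcE
  have hXE : ∀ z ∈ X, z ∈ E := by
    intro z hz
    by_cases hzC : z ∈ zpowers c
    · exact hCE hzC
    · have h3 : y⁻¹ * z ∈ zpowers c := by
        rw [hC _ (X.inv_mem hyX) _ hz]
        constructor
        · intro h
          exact absurd (inv_mem_iff.1 h) hyC
        · intro h
          exact absurd h hzC
      have h4 : z = y * (y⁻¹ * z) := by group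
      rw [h4]
      exact E.mul_mem hyE (hCE h3)
  ext z
  constructor
  · intro hz
    exact ((hE z).1 (hXE z (hM₁ hz))).2.1 hz
  · intro hz
    exact ((hE z).1 (hXE z (hM₂ hz))).2.2 hz

open Subgroup in
theorem two_grp_lemma {G : Type*} [Group G] [Finite G] (X : Subgroup G) (hX : IsPGroup 2 X)
    (c : G) (hcX : c ∈ X) (hcard : Nat.card X ≤ 2 * orderOf c)
    (g : G) (hg : g ∈ normalizer (X : Set G)) (hodd : Odd (orderOf g)) (h3 : ¬ 3 ∣ orderOf g) :
    g ∈ centralizer (X : Set G) := by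
  classical
  have hCX : zpowers c ≤ X := (zpowers_le).2 hcX
  have hCp : IsPGroup 2 (zpowers c) := hX.to_le hCX
  have hcardC : Nat.card (zpowers c) = orderOf c := Nat.card_zpowers c
  by_cases hXC : Nat.card X = orderOf c
  · have hXeq : zpowers c = X := Subgroup.eq_of_le_of_card_ge hCX (by rw [hcardC, hXC])
    have h1 := cyc_lemma (zpowers c) hCp g (by rw [hXeq]; exact hg) hodd
    rw [hXeq] at h1
    exact h1
  · have hXC2 : Nat.card X = 2 * orderOf c := by
      have hd : orderOf c ∣ Nat.card X := by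
        rw [← hcardC]
        exact Subgroup.card_dvd_of_le hCX
      obtain ⟨r, hr⟩ := hd
      have hpos : 0 < orderOf c := orderOf_pos c
      have hXpos : 0 < Nat.card X := Nat.card_pos
      have hr2 : r = 2 := by
        have h1 : r ≤ 2 := by nlinarith
        have h2 : r ≠ 1 := by
          rintro rfl
          exact hXC (by rw [hr, mul_one])
        have h0 : r ≠ 0 := by
          rintro rfl
          rw [mul_zero] at hr
          omega
        omega
      rw [hr, hr2, mul_comm]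
    have hrelC := rel2 X (zpowers c) hCX (by rw [hcardC]; exact hXC2)
    obtain ⟨y, hyX, hyC⟩ : ∃ y, y ∈ X ∧ y ∉ zpowers c := by
      by_contra hcon
      push Not at hcon
      have h1 : X ≤ zpowers c := hcon
      have h2 : zpowers c = X := le_antisymm hCX h1
      apply hXC
      rw [← h2, hcardC]
    obtain ⟨d, hd⟩ : ∃ d : ℕ → G, ∀ i, d i = g ^ i * c * (g ^ i)⁻¹ := ⟨_, fun i => rfl⟩
    have hdX : ∀ i, d i ∈ X := fun i => by
      rw [hd]
      exact ((Subgroup.mem_set_normalizer_iff.1 (Subgroup.pow_mem _ hg i)) c).1 hcX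
    have hdo : ∀ i, orderOf (d i) = orderOf c := fun i => by
      rw [hd]
      have h1 := (MulAut.conj (g ^ i)).orderOf_eq c
      rw [MulAut.conj_apply] at h1
      exact h1
    have hkeyN : ∀ i : ℕ, d i ∈ zpowers c →
        g ^ i ∈ normalizer ((zpowers c : Subgroup G) : Set G) := by
      intro i hi
      apply Subgroup.mem_normalizer_fintype
      intro n hn
      obtain ⟨k, rfl⟩ := Subgroup.mem_zpowers_iff.1 hn
      have h1 : g ^ i * c ^ k * (g ^ i)⁻¹ = (d i) ^ k := by rw [hd, conj_zpow]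
      rw [h1]
      exact Subgroup.zpow_mem _ hi k
    have hcop : ∀ i : ℕ, Nat.Coprime i (orderOf g) →
        g ^ i ∈ normalizer ((zpowers c : Subgroup G) : Set G) →
        g ∈ normalizer ((zpowers c : Subgroup G) : Set G) := by
      intro i hi h
      obtain ⟨m, hm⟩ := exists_pow_eq_self_of_coprime hi
      rw [← hm]
      exact Subgroup.pow_mem _ h m
    have hgN : g ∈ normalizer ((zpowers c : Subgroup G) : Set G) := by
      by_contra hgN
      have hn1 : d 1 ∉ zpowers c :=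
        fun h => hgN (hcop 1 (Nat.coprime_one_left _) (hkeyN 1 h))
      have hn2 : d 2 ∉ zpowers c :=
        fun h => hgN (hcop 2 (Nat.coprime_two_left.2 hodd) (hkeyN 2 h))
      have hn3 : d 3 ∉ zpowers c :=
        fun h => hgN (hcop 3 ((Nat.Prime.coprime_iff_not_dvd Nat.prime_three).2 h3) (hkeyN 3 h))
      have hMX : ∀ i, zpowers (d i) ≤ X := fun i => (zpowers_le).2 (hdX i)
      have hMcard : ∀ i, Nat.card X = 2 * Nat.card (zpowers (d i)) := fun i => by
        rw [Nat.card_zpowers, hdo, hXC2]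
      have hMrel := fun i => rel2 X (zpowers (d i)) (hMX i) (hMcard i)
      have hcM : ∀ i, d i ∉ zpowers c → c ∉ zpowers (d i) := by
        intro i hi hc'
        apply hi
        have hle : zpowers c ≤ zpowers (d i) := (zpowers_le).2 hc'
        have heq : zpowers c = zpowers (d i) :=
          Subgroup.eq_of_le_of_card_ge hle (by rw [Nat.card_zpowers, Nat.card_zpowers, hdo])
        rw [heq]
        exact mem_zpowers _
      have hshift : ∀ i j : ℕ, zpowers (d i) = zpowers (d (i + j)) → d j ∈ zpowers c := by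
        intro i j h
        have h1 : d (i + j) ∈ zpowers (d i) := by
          rw [h]
          exact mem_zpowers _
        obtain ⟨k, hk⟩ := Subgroup.mem_zpowers_iff.1 h1
        rw [Subgroup.mem_zpowers_iff]
        refine ⟨k, ?_⟩
        have e1 : d i ^ k = g ^ i * c ^ k * (g ^ i)⁻¹ := by rw [hd, conj_zpow]
        have e2 : d (i + j) = g ^ i * d j * (g ^ i)⁻¹ := by
          rw [hd, hd, pow_add]
          group
        rw [e1, e2] at hk
        exact mul_left_cancel (mul_right_cancel hk)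
      have htri : (y ∈ zpowers (d 1) ↔ y ∈ zpowers (d 2)) ∨ (y ∈ zpowers (d 2) ↔ y ∈ zpowers (d 3)) ∨
          (y ∈ zpowers (d 1) ↔ y ∈ zpowers (d 3)) := by
        by_cases a1 : y ∈ zpowers (d 1) <;> by_cases a2 : y ∈ zpowers (d 2) <;>
          by_cases a3 : y ∈ zpowers (d 3) <;> simp [a1, a2, a3]
      rcases htri with h | h | h
      · have h5 := idx2_eq X (zpowers (d 1)) (zpowers (d 2)) c y hrelC (hMrel 1) (hMrel 2) (hMX 1)
          (hMX 2) hcX hyX hyC (hcM 1 hn1) (hcM 2 hn2) h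
        exact hn1 (hshift 1 1 h5)
      · have h5 := idx2_eq X (zpowers (d 2)) (zpowers (d 3)) c y hrelC (hMrel 2) (hMrel 3) (hMX 2)
          (hMX 3) hcX hyX hyC (hcM 2 hn2) (hcM 3 hn3) h
        exact hn1 (hshift 2 1 h5)
      · have h5 := idx2_eq X (zpowers (d 1)) (zpowers (d 3)) c y hrelC (hMrel 1) (hMrel 3) (hMX 1)
          (hMX 3) hcX hyX hyC (hcM 1 hn1) (hcM 3 hn3) h
        exact hn2 (hshift 1 2 h5)
    have hgC := cyc_lemma (zpowers c) hCp g hgN hodd
    rw [Subgroup.mem_centralizer_iff]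
    intro z hz
    by_cases hzC : z ∈ zpowers c
    · exact (Subgroup.mem_centralizer_iff.1 hgC) z hzC
    · have hgz : g * z * g⁻¹ ∈ X := (Subgroup.mem_set_normalizer_iff.1 hg z).1 hz
      have hgzC : g * z * g⁻¹ ∉ zpowers c :=
        fun h => hzC ((Subgroup.mem_set_normalizer_iff.1 hgN z).2 h)
      have hc' : z⁻¹ * (g * z * g⁻¹) ∈ zpowers c := by
        rw [hrelC _ (X.inv_mem hz) _ hgz]
        constructor
        · intro h
          exact absurd (inv_mem_iff.1 h) hzC
        · intro h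
          exact absurd h hgzC
      obtain ⟨w, hw⟩ : ∃ w, w = z⁻¹ * (g * z * g⁻¹) := ⟨_, rfl⟩
      rw [← hw] at hc'
      have hcomm : w * g = g * w := (Subgroup.mem_centralizer_iff.1 hgC) w hc'
      have e1 : z⁻¹ * g * z = w * g := by
        rw [hw]
        group
      have o1 : orderOf (w * g) = orderOf g := by
        rw [← e1]
        have h1 := (MulAut.conj z⁻¹).orderOf_eq g
        rw [MulAut.conj_apply, inv_inv] at h1
        exact h1
      have hwX : w ∈ X := hCX hc'
      obtain ⟨k, hk⟩ := (IsPGroup.iff_orderOf.1 hX) ⟨w, hwX⟩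
      rw [Subgroup.orderOf_mk] at hk
      have hcop' : Nat.Coprime (orderOf w) (orderOf g) := by
        rw [hk]
        exact Nat.Coprime.pow_left k (Nat.coprime_two_left.2 hodd)
      have o2 := Commute.orderOf_mul_eq_mul_orderOf_of_coprime (show Commute w g from hcomm) hcop'
      rw [o1] at o2
      have hgpos := orderOf_pos g
      have hw1 : orderOf w = 1 := Nat.eq_of_mul_eq_mul_right hgpos (by rw [one_mul]; exact o2.symm)
      have hw1' : w = 1 := orderOf_eq_one_iff.1 hw1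
      rw [hw] at hw1'
      have h7 : g * z * g⁻¹ = z := by
        have h8 := eq_inv_of_mul_eq_one_right hw1'
        rw [inv_inv] at h8
        exact h8
      exact (mul_inv_eq_iff_eq_mul.1 h7).symm

open Pointwise

/-- Let `G` be a finite group of order `2 ^ a * n` with `n` odd and not divisible by `3`, and suppose `G` has an element of order `2 ^ (a - 1)` (so a Sylow `2`-subgroup has a cyclic subgroup of index at most `2`). Then `G` has a normal subgroup of order `n`. -/
theorem result {G : Type*} [Group G] [Finite G] (a n : ℕ) (hG : Nat.card G = 2 ^ a * n) (hn : Odd n) (h3 : ¬ 3 ∣ n) (hx : ∃ x : G, orderOf x = 2 ^ (a - 1)) : ∃ N : Subgroup G, N.Normal ∧ Nat.card N = n := by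
  classical
obtain ⟨x₀, hx₀⟩ := hx
haveI : Fact (Nat.Prime 2) := ⟨Nat.prime_two⟩
have hn0 : n ≠ 0 := by
  rintro rfl
  exact absurd hn (by decide)
have hSyl : ∀ Q : Sylow 2 G, Nat.card (Q : Subgroup G) = 2 ^ a := by
  intro Q
  rw [Sylow.card_eq_multiplicity, hG]
  congr 1
  rw [Nat.factorization_mul (pow_ne_zero _ two_ne_zero) hn0,
    Nat.Prime.factorization_pow Nat.prime_two]
  simp [Nat.factorization_eq_zero_of_not_dvd hn.not_two_dvd_nat]
have hF : Cfsg.Agent.Lead.FrobHyp 2 G := by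
  intro X hX g hg hcop
  have hodd : Odd (orderOf g) := Nat.coprime_two_right.1 hcop
  have hg3 : ¬ 3 ∣ orderOf g := by
    intro h
    have h1 : 3 ∣ Nat.card G := h.trans (orderOf_dvd_natCard g)
    rw [hG] at h1
    rcases (Nat.Prime.dvd_mul Nat.prime_three).1 h1 with h2 | h2
    · have h4 := Nat.Prime.dvd_of_dvd_pow Nat.prime_three h2
      have h5 := Nat.le_of_dvd (by norm_num) h4
      omega
    · exact h3 h2
  obtain ⟨Q, hXQ⟩ := hX.exists_le_sylow
  have hP0 : IsPGroup 2 (Subgroup.zpowers x₀) :=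
    IsPGroup.of_card (n := a - 1) (by rw [Nat.card_zpowers, hx₀])
  obtain ⟨P₀, hP₀⟩ := hP0.exists_le_sylow
  obtain ⟨h, hh⟩ := MulAction.exists_smul_eq G P₀ Q
  obtain ⟨x₁, hx₁Q, hx₁o⟩ : ∃ x₁ ∈ (Q : Subgroup G), orderOf x₁ = 2 ^ (a - 1) := by
    refine ⟨h * x₀ * h⁻¹, ?_, ?_⟩
    · have h1 : (MulAut.conj h) • x₀ ∈ (MulAut.conj h) • (P₀ : Subgroup G) :=
        Subgroup.smul_mem_pointwise_smul _ _ _ (hP₀ (Subgroup.mem_zpowers x₀))
      have h2 : ((h • P₀ : Sylow 2 G) : Subgroup G) = (MulAut.conj h) • (P₀ : Subgroup G) := rfl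
      rw [← hh, h2]
      exact h1
    · have h1 := (MulAut.conj h).orderOf_eq x₀
      rw [MulAut.conj_apply] at h1
      rw [h1, hx₀]
  obtain ⟨D, hD⟩ : ∃ D : Subgroup G, D = X ⊓ Subgroup.zpowers x₁ := ⟨_, rfl⟩
  have hDX : D ≤ X := hD ▸ inf_le_left
  have hDz : D ≤ Subgroup.zpowers x₁ := hD ▸ inf_le_right
  haveI : IsCyclic D :=
    isCyclic_of_injective (Subgroup.inclusion hDz) (Subgroup.inclusion_injective hDz)
  obtain ⟨c', hc'⟩ := IsCyclic.exists_generator (α := D)
  have hco : orderOf (c' : G) = Nat.card D := by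
    rw [← orderOf_eq_card_of_forall_mem_zpowers hc', Subgroup.orderOf_coe]
  have hle : Nat.card X ≤ 2 * Nat.card D := by
    have h1 := Subgroup.card_mul_index (D.subgroupOf X)
    have h2 : Nat.card (D.subgroupOf X) = Nat.card D :=
      Nat.card_congr (Subgroup.subgroupOfEquivOfLe hDX).toEquiv
    have h3 : (D.subgroupOf X).index = (Subgroup.zpowers x₁).relIndex X := by
      show D.relIndex X = _
      rw [hD, Subgroup.inf_relIndex_left]
    have h5 : (Subgroup.zpowers x₁).relIndex (Q : Subgroup G) ≤ 2 := by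
      have h6 := Subgroup.card_mul_index ((Subgroup.zpowers x₁).subgroupOf (Q : Subgroup G))
      have h7 : Nat.card ((Subgroup.zpowers x₁).subgroupOf (Q : Subgroup G)) = 2 ^ (a - 1) := by
        rw [Nat.card_congr (Subgroup.subgroupOfEquivOfLe
          ((Subgroup.zpowers_le).2 hx₁Q)).toEquiv, Nat.card_zpowers, hx₁o]
      rw [h7, hSyl Q] at h6
      show ((Subgroup.zpowers x₁).subgroupOf (Q : Subgroup G)).index ≤ 2
      have h8 : 2 ^ a ≤ 2 * 2 ^ (a - 1) := by
        rcases Nat.eq_zero_or_pos a with h0 | h0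
        · subst h0
          simp
        · have h9 : a = (a - 1) + 1 := by omega
          have h10 : 2 ^ a = 2 ^ (a - 1) * 2 := by
            conv_lhs => rw [h9, pow_succ]
          omega
      have hpos : 0 < 2 ^ (a - 1) := by positivity
      nlinarith
    have h4 : (Subgroup.zpowers x₁).relIndex X ≤ (Subgroup.zpowers x₁).relIndex (Q : Subgroup G) := by
      apply Subgroup.relIndex_le_of_le_right hXQ
      intro h0
      have h6 := Subgroup.card_mul_index ((Subgroup.zpowers x₁).subgroupOf (Q : Subgroup G))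
      have h6' : ((Subgroup.zpowers x₁).subgroupOf (Q : Subgroup G)).index = 0 := h0
      rw [h6', mul_zero, hSyl Q] at h6
      have hpos : 0 < 2 ^ a := by positivity
      omega
    rw [h2, h3] at h1
    calc Nat.card X = Nat.card D * (Subgroup.zpowers x₁).relIndex X := h1.symm
      _ ≤ Nat.card D * 2 := Nat.mul_le_mul_left _ (h4.trans h5)
      _ = 2 * Nat.card D := mul_comm _ _
  exact two_grp_lemma X hX (c' : G) (hDX c'.2) (by rw [hco]; exact hle) g hg hodd hg3
obtain ⟨P⟩ : Nonempty (Sylow 2 G) := inferInstance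
obtain ⟨K, hKn, hKc⟩ := Cfsg.Agent.Lead.frobenius_npc hF P
refine ⟨K, hKn, ?_⟩
have h1 := hKc.card_mul
rw [hSyl P, hG] at h1
have hpos : 0 < 2 ^ a := by positivity
exact Nat.eq_of_mul_eq_mul_left hpos (by rw [← h1, mul_comm])

end Cfsg.Agent.S3971
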