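import Cfsg.Statements.S3978
import Cfsg.Agent.Helper21.ProjLift
import Cfsg.Agent.Helper21.Schur

set_option autoImplicit false
open Cfsg

namespace Cfsg.Agent.S3978

/-- A finite group `Q` has trivial Schur multiplier if and only if, for every `n`, every homomorphism from `Q` to the projective general linear group (the quotient of `GL n ℂ` by its centre) lifts to a homomorphism into `GL n ℂ`. -/
theorem result {Q : Type*} [Group Q] [Finite Q] : Cfsg.HasCyclicSchurMultiplier Q 1 ↔ ∀ (n : ℕ) (γ : Q →* (GL (Fin n) ℂ ⧸ Subgroup.center (GL (Fin n) ℂ))), ∃ ρ : Q →* GL (Fin n) ℂ, (QuotientGroup.mk' (Subgroup.center (GL (Fin n) ℂ))).comp ρ = γ := by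
  constructor
  · intro h n γ
    have hid : Cfsg.IsStemExtension (MonoidHom.id Q) :=
      ⟨Function.surjective_id, by rw [MonoidHom.ker_id]; exact bot_le,
        by rw [MonoidHom.ker_id]; exact bot_le⟩
    have hk : Nat.card (Multiplicative (ZMod 1)) ≤ Nat.card (MonoidHom.id Q).ker := by
      have h1 : Nat.card (Multiplicative (ZMod 1)) = 1 := by
        rw [Nat.card_eq_one_iff_unique]
        exact ⟨⟨fun a b => Subsingleton.elim (Multiplicative.toAdd a) (Multiplicative.toAdd b)⟩, ⟨1⟩⟩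
      rw [h1]; exact Nat.card_pos
    obtain ⟨ρ, hρ⟩ := Cfsg.Agent.Helper21.exists_lift_projective h (MonoidHom.id Q) hid hk n γ
    exact ⟨ρ, by rw [hρ, MonoidHom.comp_id]⟩
  · intro h
    apply Cfsg.Agent.Helper21.schur_one_of_ker_bot
    intro Δ _ _ τ hτ
    rw [eq_bot_iff]
    intro k hk
    have h1 := Cfsg.Agent.Helper21.snd_eq_one_of_lift (MonoidHom.id Q) τ hτ.1 hτ.2.1
      (fun n γ => by
        obtain ⟨ρ, hρ⟩ := h n γ
        exact ⟨ρ, by rw [hρ, MonoidHom.comp_id]⟩)
      τ (MonoidHom.id Δ) (fun t => rfl) (MonoidHom.mem_ker.1 hk) (hτ.2.2 hk)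
    exact Subgroup.mem_bot.2 h1

end Cfsg.Agent.S3978
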