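import Cfsg.Statements.S3992
import Cfsg.Agent.Helper21.CPGroup
import Cfsg.Agent.Helper19.SolvPrimes
import Cfsg.Agent.S0144

set_option autoImplicit false
open Cfsg

namespace Cfsg.Agent.S3992

/-- Let G be a finite non-solvable group in which every element has prime-power order, and let R be its largest solvable normal subgroup. Then R is a p-group for some prime p; G/R has a non-abelian simple normal subgroup contained in every nontrivial normal subgroup of G/R (its unique minimal normal subgroup); and the order of every solvable subgroup of G has at most two prime divisors. -/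
theorem result {G : Type*} [Group G] [Finite G] (hns : ¬ Group.IsSolvable G) (hpp : ∀ g : G, g ≠ 1 → IsPrimePow (orderOf g))
    (R : Subgroup G) [R.Normal] (hRs : Group.IsSolvable ↥R) (hRmax : ∀ N : Subgroup G, N.Normal → Group.IsSolvable ↥N → N ≤ R) :
    (∃ p : ℕ, p.Prime ∧ IsPGroup p ↥R) ∧
      (∃ M : Subgroup (G ⧸ R), M.Normal ∧ IsSimpleGroup ↥M ∧ ¬ IsMulCommutative ↥M ∧
        ∀ N : Subgroup (G ⧸ R), N.Normal → N ≠ ⊥ → M ≤ N) ∧
      ∀ H : Subgroup G, Group.IsSolvable ↥H → (Nat.card ↥H).primeFactors.card ≤ 2 := by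
  classical
  have hquot_pp : ∀ x : G ⧸ R, x ≠ 1 → IsPrimePow (orderOf x) := by
    intro x hx
    obtain ⟨g, rfl⟩ := QuotientGroup.mk_surjective x
    have hg : g ≠ 1 := by
      rintro rfl
      exact hx rfl
    obtain ⟨p, k, hp, hk, hgo⟩ := (isPrimePow_nat_iff _).1 (hpp g hg)
    have hdvd : orderOf (g : G ⧸ R) ∣ p ^ k := by
      rw [hgo]
      exact orderOf_map_dvd (QuotientGroup.mk' R) g
    obtain ⟨j, hj, hjo⟩ := (Nat.dvd_prime_pow hp).1 hdvd
    rw [hjo]
    have hj0 : j ≠ 0 := by
      rintro rfl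
      rw [pow_zero] at hjo
      exact hx (orderOf_eq_one_iff.1 hjo)
    exact hp.isPrimePow.pow hj0
  have hquot_rad : ∀ N : Subgroup (G ⧸ R), N.Normal → Group.IsSolvable ↥N → N = ⊥ := by
    intro N hN hNs
    have hc : (N.comap (QuotientGroup.mk' R)).Normal := hN.comap _
    have hRle : R ≤ N.comap (QuotientGroup.mk' R) := by
      intro x hx
      rw [Subgroup.mem_comap]
      have h1 : QuotientGroup.mk' R x = 1 := (QuotientGroup.eq_one_iff x).2 hx
      rw [h1]
      exact N.one_mem
    have hcs : Group.IsSolvable ↥(N.comap (QuotientGroup.mk' R)) := by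
      haveI := hRs
      haveI := hNs
      refine Group.isSolvable_of_ker_le_range (Subgroup.inclusion hRle)
        (((QuotientGroup.mk' R).comp (N.comap (QuotientGroup.mk' R)).subtype).codRestrict N
          (fun x => x.2)) ?_
      intro x hx
      rw [MonoidHom.mem_ker] at hx
      have hx' : QuotientGroup.mk' R (x : G) = 1 := congrArg Subtype.val hx
      have hxR : (x : G) ∈ R := (QuotientGroup.eq_one_iff _).1 hx'
      exact ⟨⟨x, hxR⟩, Subtype.ext rfl⟩
    have hle := hRmax _ hc hcs
    rw [eq_bot_iff]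
    intro x hx
    obtain ⟨g, rfl⟩ := QuotientGroup.mk_surjective x
    have hg : g ∈ R := hle hx
    rw [Subgroup.mem_bot]
    exact (QuotientGroup.eq_one_iff g).2 hg
  haveI hnt : Nontrivial (G ⧸ R) := by
    by_contra hnt
    rw [not_nontrivial_iff_subsingleton] at hnt
    haveI := hRs
    exact hns (Group.isSolvable_of_ker_le_range R.subtype (QuotientGroup.mk' R) (by simp))
  have part1 : ∃ p : ℕ, p.Prime ∧ IsPGroup p ↥R := by
    by_contra hcon
    push_neg at hcon
    have hR1 : Nat.card R ≠ 1 := by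
      intro h
      exact hcon 2 Nat.prime_two (IsPGroup.of_card (n := 0) (by rw [h, pow_zero]))
    obtain ⟨r, hr, hrR⟩ := Nat.exists_prime_and_dvd hR1
    obtain ⟨e, m, hrm, hRe⟩ :=
      Nat.exists_eq_pow_mul_and_not_dvd (Nat.card_pos.ne' : Nat.card R ≠ 0) r hr.ne_one
    have hm1 : m ≠ 1 := by
      rintro rfl
      exact hcon r hr (IsPGroup.of_card (n := e) (by rw [hRe, mul_one]))
    obtain ⟨s, hs, hsm⟩ := Nat.exists_prime_and_dvd hm1
    have hrs : r ≠ s := by
      rintro rfl
      exact hrm hsm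
    have hsR : s ∣ Nat.card R := by
      rw [hRe]
      exact hsm.mul_left _
    have hprimes : ∀ t : ℕ, t.Prime → t ∣ Nat.card G → t = r ∨ t = s := by
      intro t ht htG
      by_contra hne
      push_neg at hne
      have htri := Cfsg.Agent.Helper19.tri_of_solvable_normal R hRs hr hs ht hrs
        (Ne.symm hne.1) (Ne.symm hne.2) hrR hsR htG
      rcases htri with ⟨x, hx⟩ | ⟨x, hx⟩ | ⟨x, hx⟩
      · exact Cfsg.Agent.Helper21.cp_no_mul_order hpp hr hs hrs x hx
      · exact Cfsg.Agent.Helper21.cp_no_mul_order hpp hr ht (Ne.symm hne.1) x hx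
      · exact Cfsg.Agent.Helper21.cp_no_mul_order hpp hs ht (Ne.symm hne.2) x hx
    obtain ⟨a, m₁, hrm₁, hG1⟩ :=
      Nat.exists_eq_pow_mul_and_not_dvd (Nat.card_pos.ne' : Nat.card G ≠ 0) r hr.ne_one
    have hm₁0 : m₁ ≠ 0 := by
      rintro rfl
      rw [mul_zero] at hG1
      exact Nat.card_pos.ne' hG1
    obtain ⟨b, m₂, hsm₂, hm₁⟩ := Nat.exists_eq_pow_mul_and_not_dvd hm₁0 s hs.ne_one
    have hm₂ : m₂ = 1 := by
      by_contra hne
      obtain ⟨t, ht, htm⟩ := Nat.exists_prime_and_dvd hne
      have htG : t ∣ Nat.card G := by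
        rw [hG1, hm₁]
        exact (htm.mul_left _).mul_left _
      rcases hprimes t ht htG with h | h
      · rw [h] at htm
        exact hrm₁ (by rw [hm₁]; exact htm.mul_left _)
      · rw [h] at htm
        exact hsm₂ htm
    apply hns
    exact Cfsg.Agent.S0144.result r s a b hr hs (by rw [hG1, hm₁, hm₂, mul_one])
  have part3 : ∀ H : Subgroup G, Group.IsSolvable ↥H → (Nat.card ↥H).primeFactors.card ≤ 2 := by
    intro H hH
    by_contra hcon
    push_neg at hcon
    obtain ⟨r, s, t, hr, hs, ht, hrs, hrt, hst⟩ := Finset.two_lt_card_iff.1 hcon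
    rw [Nat.mem_primeFactors] at hr hs ht
    haveI := hH
    have hK : Group.IsSolvable ↥(⊤ : Subgroup ↥H) := inferInstance
    have htri := Cfsg.Agent.Helper19.tri_of_solvable_normal (⊤ : Subgroup ↥H) hK hr.1 hs.1 ht.1
      hrs hrt hst (by rw [Subgroup.card_top]; exact hr.2.1)
      (by rw [Subgroup.card_top]; exact hs.2.1) ht.2.1
    have key : ∀ a b : ℕ, a.Prime → b.Prime → a ≠ b → ∀ x : ↥H, orderOf x = a * b → False := by
      intro a b ha hb hab x hx
      exact Cfsg.Agent.Helper21.cp_no_mul_order hpp ha hb hab (x : G)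
        (by rw [Subgroup.orderOf_coe]; exact hx)
    rcases htri with ⟨x, hx⟩ | ⟨x, hx⟩ | ⟨x, hx⟩
    · exact key r s hr.1 hs.1 hrs x hx
    · exact key r t hr.1 ht.1 hrt x hx
    · exact key s t hs.1 ht.1 hst x hx
  exact ⟨part1, Cfsg.Agent.Helper21.cp_simple_socle hquot_pp hquot_rad, part3⟩

end Cfsg.Agent.S3992
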