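import Cfsg.Statements.S3997
import Cfsg.Agent.Helper21.OrderType

set_option autoImplicit false
open Cfsg

namespace Cfsg.Agent.S3997

/-- Let G and H be finite groups with the same order type: for every m they have the same number of elements of order m. If G is nilpotent then so is H. -/
theorem result {G H : Type*} [Group G] [Finite G] [Group H] [Finite H] (hT : (∀ m : ℕ, Nat.card {g : G // orderOf g = m} = Nat.card {h : H // orderOf h = m})) (hG : Group.IsNilpotent G) :
    Group.IsNilpotent H := by
  classical
  have hcard : Nat.card G = Nat.card H := Helper21.card_eq_of_orderType hT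
  have key : ∀ (p : ℕ) [Fact p.Prime], Subsingleton (Sylow p H) := by
    intro p hp
    have hpel : {g : G | ∃ k, orderOf g = p ^ k}.ncard = {h : H | ∃ k, orderOf h = p ^ k}.ncard :=
      Helper21.ncard_orderOf_pred_eq hT (fun n => ∃ k, n = p ^ k)
    have hGp : (((default : Sylow p G) : Subgroup G) : Set G) =
        {g : G | ∃ k, orderOf g = p ^ k} :=
      Helper21.normal_sylow_coe_eq (default : Sylow p G)
    have hHp : ∀ Q : Sylow p H, ((Q : Subgroup H) : Set H) =
        {h : H | ∃ k, orderOf h = p ^ k} := by
      intro Q
      refine Set.eq_of_subset_of_ncard_le ?_ ?_ (Set.toFinite _)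
      · intro h hh
        exact Helper21.exists_orderOf_eq_pow_of_mem_sylow Q hh
      · rw [← hpel, ← hGp]
        have h1 : ((Q : Subgroup H) : Set H).ncard = p ^ (Nat.card H).factorization p :=
          (Nat.card_coe_set_eq _).symm.trans Q.card_eq_multiplicity
        have h2 : (((default : Sylow p G) : Subgroup G) : Set G).ncard =
            p ^ (Nat.card G).factorization p :=
          (Nat.card_coe_set_eq _).symm.trans (default : Sylow p G).card_eq_multiplicity
        rw [h1, h2, hcard]
    constructor
    intro Q Q'
    exact Sylow.ext (SetLike.coe_injective ((hHp Q).trans (hHp Q').symm))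
  apply ((Group.isNilpotent_of_finite_tfae (G := H)).out 0 3).mpr
  intro p hp Q
  have := key p
  exact Sylow.normal_of_subsingleton Q

end Cfsg.Agent.S3997
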