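import Cfsg.Statements.S4002
import Mathlib
import Cfsg.Agent.Helper19.SolvPrimes

set_option autoImplicit false
open Cfsg

namespace Cfsg.Agent.S4002

/-- If the set of element orders of a finite group G is {1, 2, …, n} with n ≥ 7, then G is not solvable. -/
theorem result {G : Type*} [Group G] [Finite G] (n : ℕ) (hn : 7 ≤ n) (h : Set.range (orderOf : G → ℕ) = {k : ℕ | 1 ≤ k ∧ k ≤ n}) : ¬ Group.IsSolvable G := by
  intro hsolv
  have key : ∃ r s t : ℕ, r.Prime ∧ s.Prime ∧ t.Prime ∧ r < s ∧ s < t ∧ t ≤ n ∧ n < r * s := by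
    by_cases h14 : n ≤ 14
    · exact ⟨3, 5, 7, by norm_num, by norm_num, by norm_num, by norm_num, by norm_num, hn,
        by omega⟩
    by_cases h34 : n ≤ 34
    · exact ⟨5, 7, 11, by norm_num, by norm_num, by norm_num, by norm_num, by norm_num,
        by omega, by omega⟩
    obtain ⟨t, ht, ht1, ht2⟩ := Nat.exists_prime_lt_and_le_two_mul (n / 2) (by omega)
    obtain ⟨s, hs, hs1, hs2⟩ := Nat.exists_prime_lt_and_le_two_mul ((t - 1) / 2) (by omega)
    obtain ⟨r, hr, hr1, hr2⟩ := Nat.exists_prime_lt_and_le_two_mul ((s - 1) / 2) (by omega)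
    refine ⟨r, s, t, hr, hs, ht, by omega, by omega, by omega, ?_⟩
    have h4 : n + 1 ≤ 4 * s := by omega
    have h5 : 9 ≤ s := by omega
    have h3 : s ≤ 2 * r := by omega
    have h6 : s * s ≤ 2 * r * s := Nat.mul_le_mul_right s h3
    have h7 : 9 * (n + 1) ≤ s * (4 * s) := Nat.mul_le_mul h5 h4
    have h8 : s * (4 * s) = 4 * (s * s) := by ring
    have h9 : 2 * r * s = 2 * (r * s) := by ring
    rw [h8] at h7
    rw [h9] at h6
    linarith
  obtain ⟨r, s, t, hr, hs, ht, hrs, hst, htn, hn_rs⟩ := key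
  have hdvd : ∀ p : ℕ, p.Prime → p ≤ n → p ∣ Nat.card G := by
    intro p hp hpn
    have hmem : p ∈ Set.range (orderOf : G → ℕ) := by
      rw [h]
      exact ⟨hp.one_lt.le, hpn⟩
    obtain ⟨g, hg⟩ := hmem
    rw [← hg]
    exact orderOf_dvd_natCard g
  have hle : ∀ x : G, orderOf x ≤ n := by
    intro x
    have hmem : orderOf x ∈ Set.range (orderOf : G → ℕ) := ⟨x, rfl⟩
    rw [h] at hmem
    exact hmem.2
  have hsolv' : Group.IsSolvable G := hsolv
  have hK : Group.IsSolvable (⊤ : Subgroup G) := inferInstance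
  have htri := Cfsg.Agent.Helper19.tri_of_solvable_normal (⊤ : Subgroup G) hK hr hs ht
    (by omega) (by omega) (by omega)
    (by rw [Subgroup.card_top]; exact hdvd r hr (by omega))
    (by rw [Subgroup.card_top]; exact hdvd s hs (by omega))
    (hdvd t ht htn)
  rcases htri with ⟨x, hx⟩ | ⟨x, hx⟩ | ⟨x, hx⟩
  · have h1 := hle x
    rw [hx] at h1
    linarith
  · have h1 := hle x
    rw [hx] at h1
    have h2 : r * s ≤ r * t := Nat.mul_le_mul_left r hst.le
    linarith
  · have h1 := hle x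
    rw [hx] at h1
    have h2 : s * r ≤ s * t := Nat.mul_le_mul_left s (by omega)
    have h3 : s * r = r * s := Nat.mul_comm s r
    linarith

end Cfsg.Agent.S4002
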