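import Mathlib
import Cfsg.Agent.Helper24.NormalEA
import Cfsg.Agent.Helper20.PCentral

set_option autoImplicit false
set_option linter.style.haveILetI false

open Cfsg

namespace Cfsg.Agent.S4003

theorem dvd_card_of_fibers {A B : Type*} [Finite A] [Finite B] (F : A → B) (d : ℕ)
    (h : ∀ b, d ∣ Nat.card {a : A // F a = b}) : d ∣ Nat.card A := by
  haveI : Fintype B := Fintype.ofFinite B
  rw [← Nat.card_congr (Equiv.sigmaFiberEquiv F), Nat.card_sigma]
  exact Finset.dvd_sum (fun b _ => h b)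

theorem card_eq_mul_of_fibers {A B : Type*} [Finite A] [Finite B] (F : A → B) (k : ℕ)
    (h : ∀ b, Nat.card {a : A // F a = b} = k) : Nat.card A = k * Nat.card B := by
  haveI : Fintype B := Fintype.ofFinite B
  rw [← Nat.card_congr (Equiv.sigmaFiberEquiv F), Nat.card_sigma,
    Finset.sum_congr rfl (fun b _ => h b), Finset.sum_const, Finset.card_univ,
    Nat.card_eq_fintype_card, smul_eq_mul, mul_comm]

theorem pow_mul_class_two {G : Type*} [Group G] (x e c : G) (h : e * x = x * e * c)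
    (hcx : Commute c x) (hce : Commute c e) (n : ℕ) :
    (x * e) ^ n = x ^ n * e ^ n * c ^ (n * (n - 1) / 2) := by
  have h1 : ∀ k : ℕ, e ^ k * x = x * e ^ k * c ^ k := by
    intro k
    induction k with
    | zero => simp
    | succ k ih =>
      have hcek : Commute (c ^ k) e := hce.pow_left k
      calc e ^ (k + 1) * x = e ^ k * (e * x) := by rw [pow_succ, mul_assoc]
        _ = e ^ k * (x * e * c) := by rw [h]
        _ = (e ^ k * x) * e * c := by simp only [mul_assoc]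
        _ = x * e ^ k * c ^ k * e * c := by rw [ih]
        _ = x * e ^ k * (c ^ k * e) * c := by simp only [mul_assoc]
        _ = x * e ^ k * (e * c ^ k) * c := by rw [hcek.eq]
        _ = x * e ^ (k + 1) * c ^ (k + 1) := by rw [pow_succ, pow_succ]; simp only [mul_assoc]
  induction n with
  | zero => simp
  | succ n ih =>
    have hcn : Commute (c ^ (n * (n - 1) / 2)) x := hcx.pow_left _
    have hcn' : Commute (c ^ (n * (n - 1) / 2)) e := hce.pow_left _
    have hcn'' : Commute (c ^ n) e := hce.pow_left _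
    have hT : (n + 1) * (n + 1 - 1) / 2 = n * (n - 1) / 2 + n := Nat.triangle_succ n
    have hcc : Commute (c ^ n) (c ^ (n * (n - 1) / 2)) := (Commute.refl c).pow_pow _ _
    calc (x * e) ^ (n + 1) = (x * e) ^ n * (x * e) := pow_succ _ _
      _ = x ^ n * e ^ n * c ^ (n * (n - 1) / 2) * (x * e) := by rw [ih]
      _ = x ^ n * e ^ n * (c ^ (n * (n - 1) / 2) * x) * e := by simp only [mul_assoc]
      _ = x ^ n * e ^ n * (x * c ^ (n * (n - 1) / 2)) * e := by rw [hcn.eq]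
      _ = x ^ n * (e ^ n * x) * (c ^ (n * (n - 1) / 2) * e) := by simp only [mul_assoc]
      _ = x ^ n * (x * e ^ n * c ^ n) * (e * c ^ (n * (n - 1) / 2)) := by rw [h1, hcn'.eq]
      _ = x ^ n * x * e ^ n * (c ^ n * e) * c ^ (n * (n - 1) / 2) := by simp only [mul_assoc]
      _ = x ^ n * x * e ^ n * (e * c ^ n) * c ^ (n * (n - 1) / 2) := by rw [hcn''.eq]
      _ = x ^ (n + 1) * e ^ (n + 1) * c ^ ((n + 1) * (n + 1 - 1) / 2) := by
          rw [hT, pow_succ, pow_succ, pow_add]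
          simp only [mul_assoc]
          rw [hcc.eq]

theorem comm_central {Q : Type*} [Group Q] [Finite Q] {p : ℕ} [Fact p.Prime]
    (hQ : IsPGroup p Q) (E : Subgroup Q) [hEn : E.Normal] (hE : Nat.card E = p ^ 2)
    (hexp : ∀ e ∈ E, e ^ p = 1) (e : Q) (he : e ∈ E) (x : Q) :
    e⁻¹ * x⁻¹ * e * x ∈ Subgroup.center Q := by
  have hp : p.Prime := Fact.out
  have hEne : E ≠ ⊥ := by
    intro h
    rw [h, Subgroup.card_bot] at hE
    have : 1 < p ^ 2 := Nat.one_lt_pow (by norm_num) hp.one_lt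
    omega
  obtain ⟨z, hzE, hz1, hzc⟩ := Helper20.exists_central_mem_of_normal hQ E hEne
  have hNc : Subgroup.zpowers z ≤ Subgroup.center Q := by
    rw [Subgroup.zpowers_le]; exact hzc
  haveI hNn : (Subgroup.zpowers z).Normal := ⟨fun n hn g => by
    have h1 := Subgroup.mem_center_iff.mp (hNc hn) g
    have h2 : g * n * g⁻¹ = n := by rw [h1, mul_inv_cancel_right]
    rw [h2]; exact hn⟩
  have hNE : Subgroup.zpowers z ≤ E := by rw [Subgroup.zpowers_le]; exact hzE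
  have hNcard : Nat.card (Subgroup.zpowers z) = p := by
    rw [Nat.card_zpowers]
    exact orderOf_eq_prime (hexp z hzE) hz1
  obtain ⟨f, hf⟩ : ∃ f : Q →* Q ⧸ Subgroup.zpowers z, f = QuotientGroup.mk' _ := ⟨_, rfl⟩
  have hfs : Function.Surjective f := hf ▸ QuotientGroup.mk'_surjective _
  have hker : f.ker = Subgroup.zpowers z := by rw [hf, QuotientGroup.ker_mk']
  haveI hmapn : (E.map f).Normal := hEn.map f hfs
  have hcard : Nat.card (E.map f) ≤ p := by
    have h1 := Subgroup.relIndex_ker E f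
    rw [hker] at h1
    have h2 := Subgroup.relIndex_mul_relIndex ⊥ (Subgroup.zpowers z) E bot_le hNE
    rw [Subgroup.relIndex_bot_left, Subgroup.relIndex_bot_left, hNcard, hE, h1] at h2
    have h3 : p * Nat.card (E.map f) = p * p := by rw [h2, sq]
    exact (Nat.eq_of_mul_eq_mul_left hp.pos h3).le
  have hcen := Helper20.normal_le_center_of_card_le (hQ.to_quotient (Subgroup.zpowers z))
    (E.map f) hcard
  have h4 : f e ∈ Subgroup.center (Q ⧸ Subgroup.zpowers z) :=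
    hcen (Subgroup.mem_map_of_mem f he)
  have h5 := Subgroup.mem_center_iff.mp h4 (f x)
  have h6 : f (e⁻¹ * x⁻¹ * e * x) = 1 := by
    rw [map_mul, map_mul, map_mul, map_inv, map_inv, mul_assoc, ← h5]
    group
  have h7 : e⁻¹ * x⁻¹ * e * x ∈ Subgroup.zpowers z := by
    rw [← hker]
    exact h6
  exact hNc h7

theorem pow_mul_normal {Q : Type*} [Group Q] [Finite Q] {p : ℕ} [Fact p.Prime] (hodd : p ≠ 2)
    (hQ : IsPGroup p Q) (E : Subgroup Q) [hEn : E.Normal] (hE : Nat.card E = p ^ 2)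
    (hexp : ∀ e ∈ E, e ^ p = 1) (x e : Q) (he : e ∈ E) : (x * e) ^ p = x ^ p := by
  have hp : p.Prime := Fact.out
  have hc := comm_central hQ E hE hexp e he x
  have hcE : e⁻¹ * x⁻¹ * e * x ∈ E := by
    have h1 : x⁻¹ * e * x ∈ E := by
      have := hEn.conj_mem e he x⁻¹
      rwa [inv_inv] at this
    have h2 : e⁻¹ * (x⁻¹ * e * x) ∈ E := E.mul_mem (E.inv_mem he) h1
    simpa only [mul_assoc] using h2
  have hcomm := Subgroup.mem_center_iff.mp hc
  have h := pow_mul_class_two x e (e⁻¹ * x⁻¹ * e * x) (by group) (hcomm x).symm (hcomm e).symm p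
  rw [h, hexp e he, mul_one]
  obtain ⟨k, hk⟩ := hp.odd_of_ne_two hodd
  have h2 : p * (p - 1) / 2 = p * k := by
    have h3 : p - 1 = 2 * k := by omega
    rw [h3, ← mul_assoc, mul_comm p 2, mul_assoc, Nat.mul_div_cancel_left _ (by norm_num : 0 < 2)]
  rw [h2, pow_mul, hexp _ hcE, one_pow, mul_one]

theorem exists_nat_pow {Q : Type*} [Group Q] [Finite Q] {a b : Q} (hb : b ∈ Subgroup.zpowers a) :
    ∃ k : ℕ, a ^ k = b := by
  have := (mem_powers_iff_mem_zpowers (x := a) (y := b)).mpr hb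
  exact (Submonoid.mem_powers_iff _ _).mp this


set_option maxHeartbeats 1000000 in
theorem card_order_dvd_pgroup {Q : Type*} [Group Q] [Finite Q] {p : ℕ} [Fact p.Prime] (hodd : p ≠ 2)
    (hQ : IsPGroup p Q) (hnc : ¬ IsCyclic Q) (n : ℕ) :
    p ^ (n + 2) ∣ Nat.card {x : Q // orderOf x = p ^ (n + 2)} := by
  have hp : p.Prime := Fact.out
  obtain ⟨E, hEn, ⟨hEcomm, hEexp⟩, hEcard⟩ := Helper24.exists_normal_elementary_sq hodd hQ hnc
  haveI := hEn
  have hpow : ∀ (x e : Q), e ∈ E → (x * e) ^ p = x ^ p :=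
    fun x e he => pow_mul_normal hodd hQ E hEcard hEexp x e he
  have e1 : p ^ (n + 2) = p * p ^ (n + 1) := pow_succ' p (n + 1)
  have e2 : p ^ (n + 1) = p * p ^ n := pow_succ' p n
  have hlt : p ^ (n + 1) < p ^ (n + 2) := Nat.pow_lt_pow_right hp.one_lt (by omega)
  apply dvd_card_of_fibers
    (fun x : {x : Q // orderOf x = p ^ (n + 2)} => Subgroup.zpowers x.1 ⊔ E)
  intro H
  by_cases hne : Nonempty {a : {x : Q // orderOf x = p ^ (n + 2)} // Subgroup.zpowers a.1 ⊔ E = H}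
  swap
  · rw [not_nonempty_iff] at hne
    rw [Nat.card_of_isEmpty]; exact dvd_zero _
  obtain ⟨⟨⟨x₀, hx₀⟩, hH⟩⟩ := hne
  have hH' : Subgroup.zpowers x₀ ⊔ E = H := hH
  have hsup : ∀ (C : Subgroup Q) (y : Q), y ∈ C ⊔ E → ∃ a ∈ C, ∃ e ∈ E, a * e = y := by
    intro C y hy
    have h1 : y ∈ ((C ⊔ E : Subgroup Q) : Set Q) := hy
    rw [Subgroup.mul_normal] at h1
    exact Set.mem_mul.mp h1
  have hx₀pow : x₀ ^ (p ^ (n + 2)) = 1 := by rw [← hx₀]; exact pow_orderOf_eq_one x₀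
  have hMexp : ∀ m ∈ Subgroup.zpowers (x₀ ^ p) ⊔ E, m ^ (p ^ (n + 1)) = 1 := by
    intro m hm
    obtain ⟨b, hb, e, he, rfl⟩ := hsup _ m hm
    rw [e2, pow_mul, hpow b e he, ← pow_mul, ← e2]
    obtain ⟨k, rfl⟩ := exists_nat_pow hb
    rw [← pow_mul, ← pow_mul]
    have h3 : p * (k * p ^ (n + 1)) = p ^ (n + 2) * k := by rw [e1]; ring
    rw [h3, pow_mul, hx₀pow, one_pow]
  have hMH : Subgroup.zpowers (x₀ ^ p) ⊔ E ≤ H := by
    rw [← hH']
    exact sup_le_sup_right (by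
      rw [Subgroup.zpowers_le]; exact Subgroup.pow_mem _ (Subgroup.mem_zpowers _) _) E
  have hfib : ∀ y : Q, (orderOf y = p ^ (n + 2) ∧ Subgroup.zpowers y ⊔ E = H) ↔
      (y ∈ H ∧ y ∉ Subgroup.zpowers (x₀ ^ p) ⊔ E) := by
    intro y
    constructor
    · rintro ⟨hy, hyH⟩
      refine ⟨?_, fun hyM => ?_⟩
      · rw [← hyH]
        exact (le_sup_left : Subgroup.zpowers y ≤ _) (Subgroup.mem_zpowers y)
      · have h1 := hMexp y hyM
        have h2 : orderOf y ∣ p ^ (n + 1) := orderOf_dvd_of_pow_eq_one h1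
        rw [hy] at h2
        have h3 := Nat.le_of_dvd (pow_pos hp.pos _) h2
        omega
    · rintro ⟨hyH, hyM⟩
      rw [← hH'] at hyH
      obtain ⟨a, ha, e, he, rfl⟩ := hsup _ y hyH
      obtain ⟨k, rfl⟩ := exists_nat_pow ha
      have hk : ¬ p ∣ k := by
        rintro ⟨j, rfl⟩
        apply hyM
        refine Subgroup.mul_mem _ ((le_sup_left : Subgroup.zpowers (x₀ ^ p) ≤ _) ?_)
          ((le_sup_right : E ≤ _) he)
        rw [pow_mul]; exact Subgroup.pow_mem _ (Subgroup.mem_zpowers _) _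
      have hcop : (orderOf x₀).Coprime k := by
        rw [hx₀]; exact Nat.Coprime.pow_left _ ((Nat.Prime.coprime_iff_not_dvd hp).mpr hk)
      have hoa : orderOf (x₀ ^ k) = p ^ (n + 2) := by rw [hcop.orderOf_pow, hx₀]
      have hyp : (x₀ ^ k * e) ^ p = (x₀ ^ k) ^ p := hpow _ e he
      have hy1 : (x₀ ^ k * e) ^ (p ^ (n + 1 + 1)) = 1 := by
        have h5 := pow_orderOf_eq_one (x₀ ^ k)
        rw [hoa] at h5
        show (x₀ ^ k * e) ^ (p ^ (n + 2)) = 1
        rw [e1, pow_mul, hyp, ← pow_mul, ← e1]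
        exact h5
      have hy2 : ¬ (x₀ ^ k * e) ^ (p ^ (n + 1)) = 1 := by
        rw [e2, pow_mul, hyp, ← pow_mul, ← e2]
        intro h
        have h2 : orderOf (x₀ ^ k) ∣ p ^ (n + 1) := orderOf_dvd_of_pow_eq_one h
        rw [hoa] at h2
        have h3 := Nat.le_of_dvd (pow_pos hp.pos _) h2
        omega
      have hoy : orderOf (x₀ ^ k * e) = p ^ (n + 2) := orderOf_eq_prime_pow hy2 hy1
      refine ⟨hoy, ?_⟩
      rw [← hH']
      apply le_antisymm
      · refine sup_le ?_ le_sup_right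
        rw [Subgroup.zpowers_le]
        exact Subgroup.mul_mem _ ((le_sup_left : Subgroup.zpowers x₀ ≤ _)
          (Subgroup.pow_mem _ (Subgroup.mem_zpowers _) _)) ((le_sup_right : E ≤ _) he)
      · refine sup_le ?_ le_sup_right
        have h1 : x₀ ^ k ∈ Subgroup.zpowers (x₀ ^ k * e) ⊔ E := by
          have h6 : (x₀ ^ k * e) * e⁻¹ ∈ Subgroup.zpowers (x₀ ^ k * e) ⊔ E :=
            Subgroup.mul_mem _ ((le_sup_left : Subgroup.zpowers (x₀ ^ k * e) ≤ _)
              (Subgroup.mem_zpowers _)) ((le_sup_right : E ≤ _) (E.inv_mem he))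
          rwa [mul_inv_cancel_right] at h6
        have h2 : Subgroup.zpowers (x₀ ^ k) = Subgroup.zpowers x₀ := by
          apply Subgroup.eq_of_le_of_card_ge
          · rw [Subgroup.zpowers_le]; exact Subgroup.pow_mem _ (Subgroup.mem_zpowers _) _
          · rw [Nat.card_zpowers, Nat.card_zpowers, hoa, hx₀]
        rw [← h2, Subgroup.zpowers_le]
        exact h1
  have hcardfib : Nat.card {a : {x : Q // orderOf x = p ^ (n + 2)} //
      Subgroup.zpowers a.1 ⊔ E = H} =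
      Nat.card H - Nat.card (Subgroup.zpowers (x₀ ^ p) ⊔ E : Subgroup Q) := by
    calc Nat.card {a : {x : Q // orderOf x = p ^ (n + 2)} // Subgroup.zpowers a.1 ⊔ E = H}
        = Nat.card {y : Q // orderOf y = p ^ (n + 2) ∧ Subgroup.zpowers y ⊔ E = H} :=
          Nat.card_congr (Equiv.subtypeSubtypeEquivSubtypeInter _
            (fun x => Subgroup.zpowers x ⊔ E = H))
      _ = Nat.card {y : Q // y ∈ H ∧ y ∉ Subgroup.zpowers (x₀ ^ p) ⊔ E} :=
          Nat.card_congr (Equiv.subtypeEquivRight hfib)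
      _ = Nat.card H - Nat.card (Subgroup.zpowers (x₀ ^ p) ⊔ E : Subgroup Q) := by
          have hsub : ((Subgroup.zpowers (x₀ ^ p) ⊔ E : Subgroup Q) : Set Q) ⊆ (H : Set Q) := hMH
          have h7 := Set.ncard_sdiff hsub (Set.toFinite _)
          simp only [← Nat.card_coe_set_eq] at h7
          exact h7
  rw [hcardfib]
  have hMdvd : p ^ (n + 2) ∣ Nat.card (Subgroup.zpowers (x₀ ^ p) ⊔ E : Subgroup Q) := by
    obtain ⟨k, hk⟩ := (hQ.to_subgroup (Subgroup.zpowers (x₀ ^ p) ⊔ E)).exists_card_eq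
    have hoc : orderOf (x₀ ^ p) = p ^ (n + 1) := by
      apply orderOf_eq_prime_pow
      · rw [← pow_mul, ← e2]
        intro h
        have h2 : orderOf x₀ ∣ p ^ (n + 1) := orderOf_dvd_of_pow_eq_one h
        rw [hx₀] at h2
        have h3 := Nat.le_of_dvd (pow_pos hp.pos _) h2
        omega
      · rw [← pow_mul, ← e1]; exact hx₀pow
    have h1 : p ^ (n + 1) ∣ p ^ k := by
      rw [← hk, ← hoc, ← Nat.card_zpowers]
      exact Subgroup.card_dvd_of_le le_sup_left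
    have h2 : n + 1 ≤ k := (Nat.pow_dvd_pow_iff_le_right hp.one_lt).mp h1
    rcases Nat.eq_or_lt_of_le h2 with h3 | h3
    · exfalso
      have h4 : Subgroup.zpowers (x₀ ^ p) = Subgroup.zpowers (x₀ ^ p) ⊔ E := by
        apply Subgroup.eq_of_le_of_card_ge le_sup_left
        rw [hk, ← h3, Nat.card_zpowers, hoc]
      have h5 : E ≤ Subgroup.zpowers (x₀ ^ p) := by
        rw [h4]; exact le_sup_right
      haveI : IsCyclic E := Subgroup.isCyclic_of_le h5
      obtain ⟨g, hg⟩ := IsCyclic.exists_generator (α := E)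
      have h6 : orderOf g = Nat.card E := orderOf_eq_card_of_forall_mem_zpowers hg
      have h7 : g ^ p = 1 := Subtype.ext (hEexp g.1 g.2)
      have h8 : orderOf g ∣ p := orderOf_dvd_of_pow_eq_one h7
      rw [h6, hEcard] at h8
      have h9 := Nat.le_of_dvd hp.pos h8
      have h10 : p < p ^ 2 := by
        calc p = p ^ 1 := (pow_one p).symm
          _ < p ^ 2 := Nat.pow_lt_pow_right hp.one_lt (by norm_num)
      omega
    · rw [hk]; exact pow_dvd_pow p (by omega)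
  have hHdvd : p ^ (n + 2) ∣ Nat.card H := hMdvd.trans (Subgroup.card_dvd_of_le hMH)
  exact Nat.dvd_sub hHdvd hMdvd

theorem gen_count {G : Type*} [Group G] [Finite G] (Z : Subgroup G) (hZ : IsCyclic Z) (n : ℕ)
    (hn : Nat.card Z = n) : Nat.card {z : G // Subgroup.zpowers z = Z} = Nat.totient n := by
  classical
  haveI : Fintype Z := Fintype.ofFinite _
  have h1 : Nat.card {z : G // Subgroup.zpowers z = Z} = Nat.card {a : Z // orderOf a = n} := by
    refine Nat.card_congr ⟨fun z => ⟨⟨z.1, by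
        have h := Subgroup.mem_zpowers z.1
        rw [z.2] at h
        exact h⟩, ?_⟩,
      fun a => ⟨a.1.1, ?_⟩, ?_, ?_⟩
    · rw [← Subgroup.orderOf_coe]
      show orderOf z.1 = n
      rw [← Nat.card_zpowers, z.2, hn]
    · apply Subgroup.eq_of_le_of_card_ge
      · rw [Subgroup.zpowers_le]; exact a.1.2
      · rw [Nat.card_zpowers, Subgroup.orderOf_coe, a.2, hn]
    · intro z; rfl
    · intro a; rfl
  rw [h1, Nat.card_eq_fintype_card, Fintype.card_subtype]
  exact IsCyclic.card_orderOf_eq_totient (dvd_of_eq (by rw [← Nat.card_eq_fintype_card, hn]))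


def cjS {G : Type*} [Group G] (g : G) (Z : Subgroup G) : Subgroup G :=
  Z.map (MulAut.conj g).toMonoidHom

def cj {G : Type*} [Group G] (g : G) (t : G × Subgroup G) : G × Subgroup G :=
  (g * t.1 * g⁻¹, cjS g t.2)

theorem mem_cjS {G : Type*} [Group G] (g : G) (Z : Subgroup G) (x : G) :
    x ∈ cjS g Z ↔ g⁻¹ * x * g ∈ Z := by
  unfold cjS
  rw [Subgroup.mem_map]
  constructor
  · rintro ⟨y, hy, rfl⟩
    have h : g⁻¹ * ((MulAut.conj g).toMonoidHom y) * g = y := by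
      simp [MulAut.conj_apply, mul_assoc]
    rw [h]; exact hy
  · intro h
    exact ⟨g⁻¹ * x * g, h, by simp [MulAut.conj_apply, mul_assoc]⟩

theorem cjS_one {G : Type*} [Group G] (Z : Subgroup G) : cjS 1 Z = Z := by
  ext x
  rw [mem_cjS]
  simp

theorem cjS_mul {G : Type*} [Group G] (g h : G) (Z : Subgroup G) :
    cjS (g * h) Z = cjS g (cjS h Z) := by
  ext x
  rw [mem_cjS, mem_cjS, mem_cjS]
  simp [mul_assoc]

theorem cj_one {G : Type*} [Group G] (t : G × Subgroup G) : cj 1 t = t := by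
  unfold cj
  rw [cjS_one]
  simp

theorem cj_mul {G : Type*} [Group G] (g h : G) (t : G × Subgroup G) :
    cj (g * h) t = cj g (cj h t) := by
  unfold cj
  rw [cjS_mul]
  simp [mul_assoc]

theorem cyc_cjS {G : Type*} [Group G] (g : G) (Z : Subgroup G) (h : IsCyclic Z) :
    IsCyclic (cjS g Z) := by
  haveI := h
  exact isCyclic_of_surjective (Z.equivMapOfInjective _ (MulAut.conj g).injective)
    (Z.equivMapOfInjective _ (MulAut.conj g).injective).surjective

theorem card_cjS {G : Type*} [Group G] (g : G) (Z : Subgroup G) :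
    Nat.card (cjS g Z) = Nat.card Z :=
  Subgroup.card_map_of_injective (MulAut.conj g).injective

theorem card_modEq_fixed {G : Type*} [Group G] {T : Type*} [Finite T] (act : G → T → T)
    (h1 : ∀ t, act 1 t = t) (hmul : ∀ g h t, act (g * h) t = act g (act h t))
    {p : ℕ} [Fact p.Prime] (P : Subgroup G) (hP : IsPGroup p P) (S : T → Prop)
    (hS : ∀ g ∈ P, ∀ t, S t → S (act g t)) :
    Nat.card {t // S t} ≡ Nat.card {t : T // S t ∧ ∀ g ∈ P, act g t = t} [MOD p] := by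
  letI : MulAction P {t // S t} :=
    { smul := fun g t => ⟨act g.1 t.1, hS g.1 g.2 t.1 t.2⟩
      one_smul := fun t => Subtype.ext (h1 t.1)
      mul_smul := fun g h t => Subtype.ext (hmul g.1 h.1 t.1) }
  have h := hP.card_modEq_card_fixedPoints {t // S t}
  have e : Nat.card ↥(MulAction.fixedPoints P {t // S t}) =
      Nat.card {t : T // S t ∧ ∀ g ∈ P, act g t = t} :=
    Nat.card_congr ⟨fun t => ⟨t.1.1, t.1.2, fun g hg => congrArg Subtype.val (t.2 ⟨g, hg⟩)⟩,
      fun t => ⟨⟨t.1, t.2.1⟩, fun g => Subtype.ext (t.2.2 g.1 g.2)⟩, fun t => rfl, fun t => rfl⟩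
  rw [e] at h
  exact h

theorem le_sylow_of_cjS_fixed {G : Type*} [Group G] [Finite G] {p : ℕ} [Fact p.Prime]
    (P : Sylow p G) (Z : Subgroup G) (hZ : IsPGroup p Z)
    (hfix : ∀ g ∈ (P : Subgroup G), cjS g Z = Z) : Z ≤ P := by
  have hnorm : (P : Subgroup G) ≤ Subgroup.normalizer (Z : Set G) := by
    intro g hg
    rw [Subgroup.mem_normalizer_iff]
    intro n
    have h1 := hfix g hg
    constructor
    · intro hn
      rw [← h1, mem_cjS]
      have h2 : g⁻¹ * (g * n * g⁻¹) * g = n := by group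
      rw [h2]; exact hn
    · intro hn
      rw [← h1, mem_cjS] at hn
      have h2 : g⁻¹ * (g * n * g⁻¹) * g = n := by group
      rw [h2] at hn; exact hn
  have hsup : IsPGroup p (↥((P : Subgroup G) ⊔ Z)) :=
    IsPGroup.to_sup_of_normal_right' P.2 hZ hnorm
  have h3 := P.3 hsup le_sup_left
  calc Z ≤ (P : Subgroup G) ⊔ Z := le_sup_right
    _ = P := h3

theorem SW_cj {G : Type*} [Group G] (m q : ℕ) (g : G) (t : G × Subgroup G)
    (h : orderOf t.1 = m ∧ IsCyclic t.2 ∧ Nat.card t.2 = q ∧ ∀ z ∈ t.2, t.1 * z = z * t.1) :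
    orderOf (cj g t).1 = m ∧ IsCyclic (cj g t).2 ∧ Nat.card (cj g t).2 = q ∧
      ∀ z ∈ (cj g t).2, (cj g t).1 * z = z * (cj g t).1 := by
  obtain ⟨h1, h2, h3, h4⟩ := h
  refine ⟨?_, cyc_cjS g t.2 h2, (card_cjS g t.2).trans h3, ?_⟩
  · show orderOf (g * t.1 * g⁻¹) = m
    rw [← h1]
    exact MulEquiv.orderOf_eq (MulAut.conj g) t.1
  · intro z hz
    have hz' : z ∈ cjS g t.2 := hz
    have h5 := h4 _ ((mem_cjS g t.2 z).mp hz')
    show g * t.1 * g⁻¹ * z = z * (g * t.1 * g⁻¹)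
    calc g * t.1 * g⁻¹ * z = g * (t.1 * (g⁻¹ * z * g)) * g⁻¹ := by group
      _ = g * ((g⁻¹ * z * g) * t.1) * g⁻¹ := by rw [h5]
      _ = z * (g * t.1 * g⁻¹) := by group

theorem card_Y_V {G : Type*} [Group G] [Finite G] (q m : ℕ) (hcop : Nat.Coprime q m)
    (hq : 0 < q) (hm0 : 0 < m) :
    Nat.card {g : G // orderOf g = q * m} =
      Nat.card {v : G × G // orderOf v.1 = m ∧ orderOf v.2 = q ∧ v.1 * v.2 = v.2 * v.1} := by
  obtain ⟨a, ha1, ha2⟩ := Nat.chineseRemainder hcop 0 1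
  obtain ⟨b, hb1, hb2⟩ := Nat.chineseRemainder hcop 1 0
  have hqa : q ∣ a := (Nat.modEq_zero_iff_dvd).mp ha1
  have hmb : m ∣ b := (Nat.modEq_zero_iff_dvd).mp hb2
  have hab : a + b ≡ 1 [MOD q * m] := by
    have h1 : a + b ≡ 0 + 1 [MOD q] := ha1.add hb1
    have h2 : a + b ≡ 1 + 0 [MOD m] := ha2.add hb2
    rw [zero_add] at h1
    rw [add_zero] at h2
    exact (Nat.modEq_and_modEq_iff_modEq_mul hcop).mp ⟨h1, h2⟩
  have key : ∀ g : G, orderOf g = q * m →
      orderOf (g ^ a) = m ∧ orderOf (g ^ b) = q ∧ g ^ b * g ^ a = g := by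
    intro g hg
    have hsum : g ^ b * g ^ a = g := by
      rw [← pow_add]
      have h3 : g ^ (b + a) = g ^ 1 := by
        rw [pow_eq_pow_iff_modEq, hg, add_comm]; exact hab
      rw [h3, pow_one]
    have hua : (g ^ a) ^ m = 1 := by
      rw [← pow_mul]
      apply orderOf_dvd_iff_pow_eq_one.mp
      rw [hg]; exact Nat.mul_dvd_mul_right hqa m
    have hzb : (g ^ b) ^ q = 1 := by
      rw [← pow_mul]
      apply orderOf_dvd_iff_pow_eq_one.mp
      rw [hg, mul_comm b q]; exact Nat.mul_dvd_mul_left q hmb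
    have hu1 : orderOf (g ^ a) ∣ m := orderOf_dvd_of_pow_eq_one hua
    have hz1 : orderOf (g ^ b) ∣ q := orderOf_dvd_of_pow_eq_one hzb
    have hcomm : Commute (g ^ b) (g ^ a) := (Commute.refl g).pow_pow b a
    have hdvd : q * m ∣ orderOf (g ^ b) * orderOf (g ^ a) := by
      have h4 := hcomm.orderOf_mul_dvd_mul_orderOf
      rwa [hsum, hg] at h4
    have hule := Nat.le_of_dvd hm0 hu1
    have hzle := Nat.le_of_dvd hq hz1
    have hupos := orderOf_pos (g ^ a)
    have hzpos := orderOf_pos (g ^ b)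
    have hle := Nat.le_of_dvd (Nat.mul_pos hzpos hupos) hdvd
    refine ⟨?_, ?_, hsum⟩
    · by_contra hne
      have hlt : orderOf (g ^ a) + 1 ≤ m := by omega
      have h1 : q * (orderOf (g ^ a) + 1) ≤ q * m := Nat.mul_le_mul_left q hlt
      have h2 : orderOf (g ^ b) * orderOf (g ^ a) ≤ q * orderOf (g ^ a) :=
        Nat.mul_le_mul_right _ hzle
      nlinarith
    · by_contra hne
      have hlt : orderOf (g ^ b) + 1 ≤ q := by omega
      have h1 : (orderOf (g ^ b) + 1) * m ≤ q * m := Nat.mul_le_mul_right m hlt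
      have h2 : orderOf (g ^ b) * orderOf (g ^ a) ≤ orderOf (g ^ b) * m :=
        Nat.mul_le_mul_left _ hule
      nlinarith
  have key2 : ∀ u z : G, orderOf u = m → orderOf z = q → u * z = z * u →
      orderOf (z * u) = q * m ∧ (z * u) ^ a = u ∧ (z * u) ^ b = z := by
    intro u z hu hz hc
    have hcomm : Commute z u := hc.symm
    refine ⟨?_, ?_, ?_⟩
    · rw [hcomm.orderOf_mul_eq_mul_orderOf_of_coprime (by rw [hz, hu]; exact hcop), hz, hu]
    · rw [hcomm.mul_pow]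
      have h1 : z ^ a = 1 := orderOf_dvd_iff_pow_eq_one.mp (by rw [hz]; exact hqa)
      have h2 : u ^ a = u ^ 1 := by rw [pow_eq_pow_iff_modEq, hu]; exact ha2
      rw [h1, h2, pow_one, one_mul]
    · rw [hcomm.mul_pow]
      have h1 : u ^ b = 1 := orderOf_dvd_iff_pow_eq_one.mp (by rw [hu]; exact hmb)
      have h2 : z ^ b = z ^ 1 := by rw [pow_eq_pow_iff_modEq, hz]; exact hb1
      rw [h1, h2, pow_one, mul_one]
  refine Nat.card_congr ⟨fun g => ⟨(g.1 ^ a, g.1 ^ b), (key g.1 g.2).1, (key g.1 g.2).2.1, ?_⟩,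
    fun v => ⟨v.1.2 * v.1.1, (key2 v.1.1 v.1.2 v.2.1 v.2.2.1 v.2.2.2).1⟩, ?_, ?_⟩
  · exact ((Commute.refl g.1).pow_pow a b).eq
  · intro g
    exact Subtype.ext (key g.1 g.2).2.2
  · intro v
    apply Subtype.ext
    exact Prod.ext (key2 v.1.1 v.1.2 v.2.1 v.2.2.1 v.2.2.2).2.1
      (key2 v.1.1 v.1.2 v.2.1 v.2.2.1 v.2.2.2).2.2

theorem card_V_W {G : Type*} [Group G] [Finite G] (q m : ℕ) :
    Nat.card {v : G × G // orderOf v.1 = m ∧ orderOf v.2 = q ∧ v.1 * v.2 = v.2 * v.1} =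
    Nat.totient q * Nat.card {t : G × Subgroup G // orderOf t.1 = m ∧ IsCyclic t.2 ∧
      Nat.card t.2 = q ∧ ∀ z ∈ t.2, t.1 * z = z * t.1} := by
  apply card_eq_mul_of_fibers
    (fun v : {v : G × G // orderOf v.1 = m ∧ orderOf v.2 = q ∧ v.1 * v.2 = v.2 * v.1} =>
      (⟨(v.1.1, Subgroup.zpowers v.1.2), v.2.1,
        (show IsCyclic (Subgroup.zpowers v.1.2) from inferInstance),
        (show Nat.card (Subgroup.zpowers v.1.2) = q by rw [Nat.card_zpowers]; exact v.2.2.1),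
        fun z hz => by
          have hz' : z ∈ Subgroup.zpowers v.1.2 := hz
          obtain ⟨j, rfl⟩ := Subgroup.mem_zpowers_iff.mp hz'
          exact (Commute.zpow_right (show Commute v.1.1 v.1.2 from v.2.2.2) j).eq⟩ :
        {t : G × Subgroup G // orderOf t.1 = m ∧ IsCyclic t.2 ∧ Nat.card t.2 = q ∧
          ∀ z ∈ t.2, t.1 * z = z * t.1}))
  intro w
  rw [← gen_count w.1.2 w.2.2.1 q w.2.2.2.1]
  refine Nat.card_congr ⟨fun x => ⟨x.1.1.2,
      congrArg (fun t : {t : G × Subgroup G // orderOf t.1 = m ∧ IsCyclic t.2 ∧ Nat.card t.2 = q ∧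
          ∀ z ∈ t.2, t.1 * z = z * t.1} => t.1.2) x.2⟩,
    fun z => ⟨⟨(w.1.1, z.1), w.2.1, ?_, ?_⟩, ?_⟩, ?_, ?_⟩
  · show orderOf z.1 = q
    rw [← Nat.card_zpowers, z.2]; exact w.2.2.2.1
  · show w.1.1 * z.1 = z.1 * w.1.1
    have h := Subgroup.mem_zpowers z.1
    rw [z.2] at h
    exact w.2.2.2.2 z.1 h
  · exact Subtype.ext (Prod.ext rfl z.2)
  · intro x
    apply Subtype.ext
    apply Subtype.ext
    exact Prod.ext (congrArg (fun t : {t : G × Subgroup G // orderOf t.1 = m ∧ IsCyclic t.2 ∧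
      Nat.card t.2 = q ∧ ∀ z ∈ t.2, t.1 * z = z * t.1} => t.1.1) x.2).symm rfl
  · intro z
    rfl

theorem comm_of_fixed {G : Type*} [Group G] [Finite G] {p : ℕ} [Fact p.Prime] (P : Sylow p G)
    (k : ℕ) (u : G) (hu : ∀ g ∈ (P : Subgroup G), g * u * g⁻¹ = u) (Z : Subgroup G)
    (hZ : Nat.card Z = p ^ k) (hfix : ∀ g ∈ (P : Subgroup G), cjS g Z = Z) :
    ∀ z ∈ Z, u * z = z * u := by
  intro z hz
  have hzP : z ∈ (P : Subgroup G) := le_sylow_of_cjS_fixed P Z (IsPGroup.of_card hZ) hfix hz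
  have h := hu z hzP
  calc u * z = (z * u * z⁻¹) * z := by rw [h]
    _ = z * u := by group

theorem dvd_card_fixW {G : Type*} [Group G] [Finite G] {p : ℕ} [Fact p.Prime] (P : Sylow p G)
    (m k : ℕ)
    (hB : p ∣ Nat.card {Z : Subgroup G // IsCyclic Z ∧ Nat.card Z = p ^ k ∧
      ∀ g ∈ (P : Subgroup G), cjS g Z = Z}) :
    p ∣ Nat.card {t : G × Subgroup G // (orderOf t.1 = m ∧ IsCyclic t.2 ∧ Nat.card t.2 = p ^ k ∧
      ∀ z ∈ t.2, t.1 * z = z * t.1) ∧ ∀ g ∈ (P : Subgroup G), cj g t = t} := by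
  have e : {t : G × Subgroup G // (orderOf t.1 = m ∧ IsCyclic t.2 ∧ Nat.card t.2 = p ^ k ∧
      ∀ z ∈ t.2, t.1 * z = z * t.1) ∧ ∀ g ∈ (P : Subgroup G), cj g t = t} ≃
      {u : G // orderOf u = m ∧ ∀ g ∈ (P : Subgroup G), g * u * g⁻¹ = u} ×
      {Z : Subgroup G // IsCyclic Z ∧ Nat.card Z = p ^ k ∧
        ∀ g ∈ (P : Subgroup G), cjS g Z = Z} :=
    ⟨fun t => (⟨t.1.1, t.2.1.1, fun g hg => congrArg Prod.fst (t.2.2 g hg)⟩,
        ⟨t.1.2, t.2.1.2.1, t.2.1.2.2.1, fun g hg => congrArg Prod.snd (t.2.2 g hg)⟩),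
      fun ab => ⟨(ab.1.1, ab.2.1), ⟨ab.1.2.1, ab.2.2.1, ab.2.2.2.1,
          comm_of_fixed P k ab.1.1 ab.1.2.2 ab.2.1 ab.2.2.2.1 ab.2.2.2.2⟩,
        fun g hg => Prod.ext (ab.1.2.2 g hg) (ab.2.2.2.2 g hg)⟩,
      fun t => rfl, fun ab => rfl⟩
  rw [Nat.card_congr e, Nat.card_prod]
  exact Dvd.dvd.mul_left hB _

theorem arith1 (p n c : ℕ) (hp : p.Prime) (h : p ^ (n + 2) ∣ Nat.totient (p ^ (n + 2)) * c) :
    p ∣ c := by
  rw [Nat.totient_prime_pow hp (by omega : 0 < n + 2)] at h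
  have e : p ^ (n + 2) = p ^ (n + 2 - 1) * p := by
    have h1 : n + 2 - 1 = n + 1 := by omega
    rw [h1, pow_succ]
  rw [e, mul_assoc] at h
  have h2 : p ∣ (p - 1) * c := (Nat.mul_dvd_mul_iff_left (pow_pos hp.pos _)).mp h
  rcases (Nat.Prime.dvd_mul hp).mp h2 with h3 | h3
  · exfalso
    have h4 := Nat.le_of_dvd (by have := hp.one_lt; omega) h3
    have := hp.one_lt
    omega
  · exact h3

theorem arith2 (p n c : ℕ) (hp : p.Prime) (h : p ∣ c) :
    p ^ (n + 2) ∣ Nat.totient (p ^ (n + 2)) * c := by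
  rw [Nat.totient_prime_pow hp (by omega : 0 < n + 2)]
  have e : p ^ (n + 2) = p ^ (n + 2 - 1) * p := by
    have h1 : n + 2 - 1 = n + 1 := by omega
    rw [h1, pow_succ]
  rw [e, mul_assoc]
  exact Nat.mul_dvd_mul_left _ (Dvd.dvd.mul_left h _)

theorem dvd_card_B {G : Type*} [Group G] [Finite G] {p : ℕ} [Fact p.Prime] (hodd : p ≠ 2)
    (P : Sylow p G) (hP : ¬ IsCyclic ↥(P : Subgroup G)) (n : ℕ) :
    p ∣ Nat.card {Z : Subgroup G // IsCyclic Z ∧ Nat.card Z = p ^ (n + 2) ∧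
      ∀ g ∈ (P : Subgroup G), cjS g Z = Z} := by
  have hp : p.Prime := Fact.out
  have h1 : p ^ (n + 2) ∣
      Nat.card {x : G // x ∈ (P : Subgroup G) ∧ orderOf x = p ^ (n + 2)} := by
    have h := card_order_dvd_pgroup hodd P.isPGroup' hP n
    have e : {x : ↥(P : Subgroup G) // orderOf x = p ^ (n + 2)} ≃
        {x : G // x ∈ (P : Subgroup G) ∧ orderOf x = p ^ (n + 2)} :=
      ⟨fun x => ⟨x.1.1, x.1.2, by rw [Subgroup.orderOf_coe]; exact x.2⟩,
       fun x => ⟨⟨x.1, x.2.1⟩, by rw [← Subgroup.orderOf_coe]; exact x.2.2⟩,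
       fun x => rfl, fun x => rfl⟩
    rwa [Nat.card_congr e] at h
  have h2 : Nat.card {x : G // x ∈ (P : Subgroup G) ∧ orderOf x = p ^ (n + 2)} =
      Nat.totient (p ^ (n + 2)) * Nat.card {Z : Subgroup G // IsCyclic Z ∧
        Nat.card Z = p ^ (n + 2) ∧ Z ≤ (P : Subgroup G)} := by
    apply card_eq_mul_of_fibers
      (fun x : {x : G // x ∈ (P : Subgroup G) ∧ orderOf x = p ^ (n + 2)} =>
        (⟨Subgroup.zpowers x.1, inferInstance, by rw [Nat.card_zpowers]; exact x.2.2,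
          by rw [Subgroup.zpowers_le]; exact x.2.1⟩ :
          {Z : Subgroup G // IsCyclic Z ∧ Nat.card Z = p ^ (n + 2) ∧ Z ≤ (P : Subgroup G)}))
    intro w
    rw [← gen_count w.1 w.2.1 _ w.2.2.1]
    refine Nat.card_congr ⟨fun x => ⟨x.1.1, congrArg Subtype.val x.2⟩,
      fun z => ⟨⟨z.1, ?_, ?_⟩, Subtype.ext z.2⟩, fun x => rfl, fun z => rfl⟩
    · have h := Subgroup.mem_zpowers z.1
      rw [z.2] at h
      exact w.2.2.2 h
    · rw [← Nat.card_zpowers, z.2]; exact w.2.2.1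
  have h3 := card_modEq_fixed (cjS (G := G)) cjS_one cjS_mul (P : Subgroup G) P.isPGroup'
    (fun Z : Subgroup G => IsCyclic Z ∧ Nat.card Z = p ^ (n + 2) ∧ Z ≤ (P : Subgroup G))
    (fun g hg Z hZ => ⟨cyc_cjS g Z hZ.1, (card_cjS g Z).trans hZ.2.1, fun x hx => by
      have hx' := hZ.2.2 ((mem_cjS g Z x).mp hx)
      have h5 : g * (g⁻¹ * x * g) * g⁻¹ = x := by group
      rw [← h5]
      exact Subgroup.mul_mem _ (Subgroup.mul_mem _ hg hx') (Subgroup.inv_mem _ hg)⟩)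
  have e2 : {Z : Subgroup G // (IsCyclic Z ∧ Nat.card Z = p ^ (n + 2) ∧ Z ≤ (P : Subgroup G)) ∧
      ∀ g ∈ (P : Subgroup G), cjS g Z = Z} ≃
      {Z : Subgroup G // IsCyclic Z ∧ Nat.card Z = p ^ (n + 2) ∧
        ∀ g ∈ (P : Subgroup G), cjS g Z = Z} :=
    ⟨fun Z => ⟨Z.1, Z.2.1.1, Z.2.1.2.1, Z.2.2⟩,
     fun Z => ⟨Z.1, ⟨Z.2.1, Z.2.2.1,
       le_sylow_of_cjS_fixed P Z.1 (IsPGroup.of_card Z.2.2.1) Z.2.2.2⟩, Z.2.2.2⟩,
     fun Z => rfl, fun Z => rfl⟩
  rw [Nat.card_congr e2] at h3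
  rw [h2] at h1
  have h4 : p ∣ Nat.card {Z : Subgroup G // IsCyclic Z ∧ Nat.card Z = p ^ (n + 2) ∧
      Z ≤ (P : Subgroup G)} := arith1 p n _ hp h1
  exact (Nat.modEq_zero_iff_dvd).mp (h3.symm.trans ((Nat.modEq_zero_iff_dvd).mpr h4))

/-- Let G be a finite group, p an odd prime dividing the order of G whose Sylow p-subgroups are not cyclic, and n = p^s·m with s > 1 and m coprime to p. Then the number of elements of G of order n is a multiple of p^s. -/
theorem result {G : Type*} [Group G] [Finite G] (p : ℕ) [Fact p.Prime] (hodd : p ≠ 2) (hpG : p ∣ Nat.card G)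
    (P : Sylow p G) (hP : ¬ IsCyclic ↥(P : Subgroup G)) (s m : ℕ) (hs : 1 < s) (hm : Nat.Coprime p m) :
    p ^ s ∣ Nat.card {g : G // orderOf g = p ^ s * m} := by
  have hp : p.Prime := Fact.out
  obtain ⟨n, rfl⟩ : ∃ n, s = n + 2 := ⟨s - 2, by omega⟩
  have hm0 : 0 < m := by
    rcases Nat.eq_zero_or_pos m with h | h
    · rw [h, Nat.coprime_zero_right] at hm
      exact absurd hm hp.one_lt.ne'
    · exact h
  have hcop : Nat.Coprime (p ^ (n + 2)) m := Nat.Coprime.pow_left _ hm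
  have hq : 0 < p ^ (n + 2) := pow_pos hp.pos _
  rw [card_Y_V (p ^ (n + 2)) m hcop hq hm0, card_V_W]
  apply arith2 p n _ hp
  have h1 := card_modEq_fixed (cj (G := G)) cj_one cj_mul (P : Subgroup G) P.isPGroup'
    (fun t : G × Subgroup G => orderOf t.1 = m ∧ IsCyclic t.2 ∧ Nat.card t.2 = p ^ (n + 2) ∧
      ∀ z ∈ t.2, t.1 * z = z * t.1)
    (fun g _ t ht => SW_cj m (p ^ (n + 2)) g t ht)
  have h2 := dvd_card_fixW P m (n + 2) (dvd_card_B hodd P hP n)
  exact (Nat.modEq_zero_iff_dvd).mp (h1.trans ((Nat.modEq_zero_iff_dvd).mpr h2))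

end Cfsg.Agent.S4003
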