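import Cfsg.Statements.S4005
import Mathlib

set_option autoImplicit false
open Cfsg

namespace Cfsg.Agent.S4005

theorem inv_word {G : Type*} [Group G] {t s u : G} (hu : u * u = 1)
    (hc : t * s = s * t) (h1 : t * u * t = u * t * u) (h2 : s * u * s = u * s * u)
    (h3 : (t * s) * u * (t * s) = u * (t * s) * u) : s * t * u = 1 := by
  have e0 : t * (u * (s * (u * t))) = u * (t * (s * u)) := by
    calc t * (u * (s * (u * t))) = t * ((u * s * u) * t) := by simp only [mul_assoc]
      _ = t * ((s * u * s) * t) := by rw [h2]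
      _ = (t * s) * u * (s * t) := by simp only [mul_assoc]
      _ = (t * s) * u * (t * s) := by rw [hc]
      _ = u * (t * s) * u := h3
      _ = u * (t * (s * u)) := by simp only [mul_assoc]
  have e1 : u * (t * (s * (u * t))) = s * u := by
    have a : t * (u * (t * (s * (u * t)))) = t * (s * u) := by
      calc t * (u * (t * (s * (u * t)))) = (t * u * t) * (s * (u * t)) := by simp only [mul_assoc]
        _ = (u * t * u) * (s * (u * t)) := by rw [h1]
        _ = u * (t * (u * (s * (u * t)))) := by simp only [mul_assoc]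
        _ = u * (u * (t * (s * u))) := by rw [e0]
        _ = (u * u) * (t * (s * u)) := by simp only [mul_assoc]
        _ = t * (s * u) := by rw [hu, one_mul]
    exact mul_left_cancel a
  have e2 : (s * u) * (s * t * u) = (s * u) * 1 := by
    calc (s * u) * (s * t * u) = (s * u * s) * (t * u) := by simp only [mul_assoc]
      _ = (u * s * u) * (t * u) := by rw [h2]
      _ = u * (s * (u * t * u)) := by simp only [mul_assoc]
      _ = u * (s * (t * u * t)) := by rw [h1]
      _ = u * ((s * t) * (u * t)) := by simp only [mul_assoc]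
      _ = u * ((t * s) * (u * t)) := by rw [hc]
      _ = u * (t * (s * (u * t))) := by simp only [mul_assoc]
      _ = s * u := e1
      _ = (s * u) * 1 := (mul_one _).symm
  exact mul_left_cancel e2

theorem rel3 {G : Type*} [Group G] {a b : G} (ha : a * a = 1) (hb : b * b = 1)
    (h : (a * b) * (a * b) * (a * b) = 1) : a * b * a = b * a * b := by
  have ha' : ∀ x : G, a * (a * x) = x := fun x => by rw [← mul_assoc, ha, one_mul]
  have hb' : ∀ x : G, b * (b * x) = x := fun x => by rw [← mul_assoc, hb, one_mul]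
  have e : (b * a * b) * (b * a * b) = 1 := by
    simp only [mul_assoc, hb', ha', hb]
  calc a * b * a = (a * b * a) * ((b * a * b) * (b * a * b)) := by rw [e, mul_one]
    _ = ((a * b) * (a * b) * (a * b)) * (b * a * b) := by simp only [mul_assoc]
    _ = b * a * b := by rw [h, one_mul]

theorem lin_kill {M : Type*} [Group M] (hc : ∀ a b : M, a * b = b * a) (hs : ∀ a : M, a * a = 1)
    (φ γ : M ≃* M)
    (h1 : ∀ n, φ (φ n) = n * φ n) (h2 : ∀ n, γ (γ n) = n * γ n)
    (h3 : ∀ n, φ (γ (φ (γ n))) = n * φ (γ n))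
    (h4 : ∀ n, φ (γ (γ (φ (γ (γ n))))) = n * φ (γ (γ n))) (n : M) : φ n = 1 := by
  have hs' : ∀ a b : M, a * (a * b) = b := fun a b => by rw [← mul_assoc, hs, one_mul]
  have hlc : ∀ a b c : M, a * (b * c) = b * (a * c) := fun a b c => by
    rw [← mul_assoc, hc a b, mul_assoc]
  have B : ∀ n, φ (γ (φ n)) = n * (γ n * φ (γ n)) := by
    intro n
    have e := h4 n
    rw [h2 n, map_mul, h2 (φ n * φ (γ n))] at e
    simp only [map_mul] at e
    rw [h1 n, h1 (γ n), h3 n] at e
    calc φ (γ (φ n)) = (φ n * γ n) * ((n * φ n) * (γ n * φ (γ n)) * (φ (γ (φ n)) * (n * φ (γ n)))) := by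
          simp only [mul_assoc, hlc, hc, hs, hs', mul_one]
      _ = (φ n * γ n) * (n * (φ n * φ (γ n))) := by rw [e]
      _ = n * (γ n * φ (γ n)) := by simp only [mul_assoc, hlc, hc, hs, hs', mul_one]
  have e3 := h3 n
  have eB := B (γ n)
  rw [h2 n, map_mul] at eB
  calc φ n = (n * φ (γ n)) * (γ n * ((n * γ n) * (φ n * φ (γ n)))) := by
        simp only [mul_assoc, hlc, hc, hs, hs', mul_one]
    _ = (n * φ (γ n)) * (n * φ (γ n)) := by rw [← eB, e3]
    _ = 1 := hs _

/-- A finite group whose set of element orders is exactly {1, 2, 3} has either a normal elementary abelian 3-subgroup of index 2 or a normal elementary abelian 2-subgroup of index 3. -/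
theorem result {G : Type*} [Group G] [Finite G] (h : Set.range (orderOf : G → ℕ) = {k : ℕ | 1 ≤ k ∧ k ≤ 3}) :
    (∃ N : Subgroup G, N.Normal ∧ Cfsg.IsElementaryAbelian 3 N ∧ N.index = 2) ∨
      (∃ N : Subgroup G, N.Normal ∧ Cfsg.IsElementaryAbelian 2 N ∧ N.index = 3) := by
  classical
have hord : ∀ g : G, orderOf g = 1 ∨ orderOf g = 2 ∨ orderOf g = 3 := by
  intro g
  have hg : orderOf g ∈ Set.range (orderOf : G → ℕ) := ⟨g, rfl⟩
  rw [h] at hg
  obtain ⟨h1, h2⟩ := hg
  omega
obtain ⟨t, ht⟩ : ∃ t : G, orderOf t = 2 := by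
  have h2 : (2 : ℕ) ∈ Set.range (orderOf : G → ℕ) := by
    rw [h]
    exact ⟨by norm_num, by norm_num⟩
  exact h2
obtain ⟨x, hx⟩ : ∃ x : G, orderOf x = 3 := by
  have h3 : (3 : ℕ) ∈ Set.range (orderOf : G → ℕ) := by
    rw [h]
    exact ⟨by norm_num, by norm_num⟩
  exact h3
have hno6 : ∀ a b : G, orderOf a = 2 → orderOf b = 3 → a * b ≠ b * a := by
  intro a b ha hb hab
  have h6 := Commute.orderOf_mul_eq_mul_orderOf_of_coprime (show Commute a b from hab)
    (by rw [ha, hb]; decide)
  rw [ha, hb] at h6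
  rcases hord (a * b) with h' | h' | h' <;> omega
have hinv : ∀ a : G, orderOf a = 2 → a * a = 1 := by
  intro a ha
  have h1 := pow_orderOf_eq_one a
  rw [ha, pow_two] at h1
  exact h1
have hne1 : ∀ a : G, orderOf a = 2 → a ≠ 1 := by
  intro a ha h1
  rw [h1, orderOf_one] at ha
  omega
have hsq : ∀ a : G, a * a = 1 → a = 1 ∨ orderOf a = 2 := by
  intro a ha
  have hd : orderOf a ∣ 2 := orderOf_dvd_of_pow_eq_one (by rw [pow_two]; exact ha)
  rcases (Nat.dvd_prime Nat.prime_two).1 hd with h1 | h2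
  · left
    exact orderOf_eq_one_iff.1 h1
  · right
    exact h2
have hcube : ∀ g : G, orderOf g = 3 → g * g * g = 1 := by
  intro g hg
  have h1 := pow_orderOf_eq_one g
  rw [hg, pow_three'] at h1
  exact h1
have hA : ∀ a b : G, orderOf a = 2 → orderOf b = 2 → a * b = b * a ∨ orderOf (a * b) = 3 := by
  intro a b ha hb
  rcases hord (a * b) with h' | h' | h'
  · left
    have h1 : a * b = 1 := orderOf_eq_one_iff.1 h'
    have h2 : b = a⁻¹ := eq_inv_of_mul_eq_one_right h1
    rw [h2, mul_inv_cancel, inv_mul_cancel]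
  · left
    have h2 := hinv (a * b) h'
    calc a * b = (a * b)⁻¹ := (inv_eq_of_mul_eq_one_left h2).symm
      _ = b * a := by
        rw [mul_inv_rev, inv_eq_of_mul_eq_one_left (hinv a ha), inv_eq_of_mul_eq_one_left (hinv b hb)]
  · right
    exact h'
have hB : ∀ t s u : G, orderOf t = 2 → orderOf s = 2 → orderOf u = 2 → t ≠ s → t * s = s * t →
    t * u = u * t := by
  intro t s u ht hs hu hts hc
  by_contra hne
  have ht2 := hinv t ht
  have hs2 := hinv s hs
  have hu2 := hinv u hu
  have o1 : orderOf (t * u) = 3 := (hA t u ht hu).resolve_left hne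
  have o2 : orderOf (s * u) = 3 := by
    refine (hA s u hs hu).resolve_left ?_
    intro hsu
    apply hno6 s (t * u) hs o1
    rw [← mul_assoc, ← hc, mul_assoc, hsu, mul_assoc]
  have hts2 : orderOf (t * s) = 2 := by
    have h1 : (t * s) * (t * s) = 1 := by
      calc (t * s) * (t * s) = (t * s) * (s * t) := by rw [hc]
        _ = t * (s * s) * t := by simp only [mul_assoc]
        _ = 1 := by rw [hs2, mul_one, ht2]
    rcases hsq _ h1 with h' | h'
    · exfalso
      apply hts
      have h2 : s = t⁻¹ := eq_inv_of_mul_eq_one_right h'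
      rw [h2, inv_eq_of_mul_eq_one_left ht2]
    · exact h'
  have o3 : orderOf (t * s * u) = 3 := by
    refine (hA (t * s) u hts2 hu).resolve_left ?_
    intro hsu
    apply hno6 (t * s) (t * u) hts2 o1
    calc (t * s) * (t * u) = t * (s * t) * u := by simp only [mul_assoc]
      _ = t * (t * s) * u := by rw [hc]
      _ = t * ((t * s) * u) := by simp only [mul_assoc]
      _ = t * (u * (t * s)) := by rw [hsu]
      _ = (t * u) * (t * s) := by simp only [mul_assoc]
  have r1 := rel3 ht2 hu2 (hcube _ o1)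
  have r2 := rel3 hs2 hu2 (hcube _ o2)
  have r3 := rel3 (hinv _ hts2) hu2 (hcube _ o3)
  have key := inv_word hu2 hc r1 r2 r3
  apply hne
  have hu' : u = (s * t)⁻¹ := eq_inv_of_mul_eq_one_right key
  rw [hu', mul_inv_rev, inv_eq_of_mul_eq_one_left ht2, inv_eq_of_mul_eq_one_left hs2, mul_assoc, hc]
by_cases hK : ∃ a b : G, orderOf a = 2 ∧ orderOf b = 2 ∧ a ≠ b ∧ a * b = b * a
· right
  obtain ⟨a, b, ha, hb, hab, hcomm⟩ := hK
  have hBa : ∀ u : G, orderOf u = 2 → a * u = u * a := fun u hu => hB a b u ha hb hu hab hcomm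
  have hall : ∀ u v : G, orderOf u = 2 → orderOf v = 2 → u * v = v * u := by
    intro u v hu hv
    by_cases hua : u = a
    · rw [hua]
      exact hBa v hv
    · exact hB u a v hu ha hv hua (hBa u hu).symm
  have hcomm2 : ∀ u v : G, u * u = 1 → v * v = 1 → u * v = v * u := by
    intro u v hu hv
    rcases hsq u hu with h1 | h1
    · rw [h1, one_mul, mul_one]
    rcases hsq v hv with h2 | h2
    · rw [h2, one_mul, mul_one]
    exact hall u v h1 h2
  obtain ⟨N, hNmem⟩ : ∃ N : Subgroup G, ∀ g : G, g ∈ N ↔ g * g = 1 := by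
    refine ⟨{ carrier := {g | g * g = 1}
              mul_mem' := ?_
              one_mem' := ?_
              inv_mem' := ?_ }, fun g => Iff.rfl⟩
    · intro g₁ g₂ h1 h2
      have h1' : g₁ * g₁ = 1 := h1
      have h2' : g₂ * g₂ = 1 := h2
      show (g₁ * g₂) * (g₁ * g₂) = 1
      have h3 := hcomm2 g₁ g₂ h1' h2'
      calc (g₁ * g₂) * (g₁ * g₂) = (g₁ * g₂) * (g₂ * g₁) := by rw [h3]
        _ = g₁ * (g₂ * g₂) * g₁ := by simp only [mul_assoc]
        _ = 1 := by rw [h2', mul_one, h1']
    · show (1 : G) * 1 = 1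
      rw [mul_one]
    · intro g₁ h1
      have h1' : g₁ * g₁ = 1 := h1
      show g₁⁻¹ * g₁⁻¹ = 1
      rw [← mul_inv_rev, h1', inv_one]
  have hNn : N.Normal := by
    constructor
    intro n hn g
    rw [hNmem] at hn ⊢
    have e : g * n * g⁻¹ * (g * n * g⁻¹) = g * (n * n) * g⁻¹ := by group
    rw [e, hn, mul_one, mul_inv_cancel]
  have hNc : ∀ p q : N, p * q = q * p :=
    fun p q => Subtype.ext (hcomm2 p.1 q.1 ((hNmem _).1 p.2) ((hNmem _).1 q.2))
  have hNs : ∀ p : N, p * p = 1 := fun p => Subtype.ext ((hNmem _).1 p.2)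
  refine ⟨N, hNn, ⟨⟨⟨hNc⟩⟩, fun p hp => by rw [pow_two]; exact (hNmem p).1 hp⟩, ?_⟩
  have hNn' := hNn
  have hxN : x ∉ N := by
    intro hxN
    rcases hsq x ((hNmem x).1 hxN) with h1 | h1
    · rw [h1, orderOf_one] at hx
      omega
    · omega
  have h3of : ∀ g : G, g ∉ N → orderOf g = 3 := by
    intro g hg
    rcases hord g with h1 | h1 | h1
    · exfalso
      apply hg
      rw [orderOf_eq_one_iff.1 h1]
      exact N.one_mem
    · exfalso
      exact hg ((hNmem g).2 (hinv g h1))
    · exact h1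
  have hrel : ∀ g : G, orderOf g = 3 → ∀ n : N,
      (MulAut.conjNormal g : MulAut N) ((MulAut.conjNormal g : MulAut N) n) =
        n * (MulAut.conjNormal g : MulAut N) n := by
    intro g hg n
    have hg3 := hcube g hg
    obtain ⟨c, hc⟩ : ∃ c : MulAut N, c = MulAut.conjNormal g := ⟨_, rfl⟩
    rw [← hc]
    have c3 : c (c (c n)) = n := by
      apply Subtype.ext
      rw [hc]
      simp only [MulAut.conjNormal_apply]
      have e : g * (g * (g * (n : G) * g⁻¹) * g⁻¹) * g⁻¹ = (g * g * g) * (n : G) * (g * g * g)⁻¹ := by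
        group
      rw [e, hg3, one_mul, inv_one, mul_one]
    obtain ⟨m, hmdef⟩ : ∃ m : N, m = n * c n * c (c n) := ⟨_, rfl⟩
    have hm : c m = m := by
      rw [hmdef, map_mul, map_mul, c3, hNc (c n * c (c n)) n, mul_assoc]
    have hm1 : m = 1 := by
      by_contra hne
      have hmG : (m : G) ≠ 1 := fun h' => hne (Subtype.ext h')
      have ho : orderOf (m : G) = 2 := (hsq _ ((hNmem _).1 m.2)).resolve_left hmG
      apply hno6 _ g ho hg
      have h5 : g * (m : G) * g⁻¹ = (m : G) := by
        have h6 := congrArg (fun z : N => (z : G)) hm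
        rw [hc] at h6
        simpa only [MulAut.conjNormal_apply] using h6
      exact (mul_inv_eq_iff_eq_mul.1 h5).symm
    rw [hmdef] at hm1
    have h6 : c (c n) = (n * c n)⁻¹ := eq_inv_of_mul_eq_one_right hm1
    rw [h6]
    exact inv_eq_of_mul_eq_one_left (hNs _)
  have hkey : ∀ g : G, g ∉ N → x * g ∈ N ∨ x * g * g ∈ N := by
    intro g hg
    by_contra hcon
    push Not at hcon
    obtain ⟨hc1, hc2⟩ := hcon
    have og := h3of g hg
    have o1 := h3of _ hc1
    have o2 := h3of _ hc2
    have hr1 := hrel x hx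
    have hr2 := hrel g og
    have hr3 := hrel (x * g) o1
    have hr4 := hrel (x * g * g) o2
    simp only [map_mul, MulAut.mul_apply] at hr3 hr4
    have hk := lin_kill hNc hNs (MulAut.conjNormal x) (MulAut.conjNormal g) hr1 hr2 hr3 hr4
      ⟨t, (hNmem t).2 (hinv t ht)⟩
    have h7 : (⟨t, (hNmem t).2 (hinv t ht)⟩ : N) = 1 := (MulEquiv.map_eq_one_iff _).1 hk
    exact hne1 t ht (congrArg Subtype.val h7)
  rw [Subgroup.index_eq_card]
  have hx3 : ((x : G) : G ⧸ N) ^ 3 = 1 := by
    rw [← QuotientGroup.mk_pow, pow_three', hcube x hx]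
    rfl
  have hx1 : ((x : G) : G ⧸ N) ≠ 1 := by
    intro h'
    exact hxN ((QuotientGroup.eq_one_iff x).1 h')
  have hf3 : Fact (Nat.Prime 3) := ⟨Nat.prime_three⟩
  have ho : orderOf ((x : G) : G ⧸ N) = 3 := orderOf_eq_prime hx3 hx1
  rw [← ho]
  symm
  apply orderOf_eq_card_of_forall_mem_zpowers
  intro q
  induction q using QuotientGroup.induction_on with
  | H g =>
    by_cases hg : g ∈ N
    · rw [(QuotientGroup.eq_one_iff g).2 hg]
      exact Subgroup.one_mem _
    · rcases hkey g hg with h1 | h1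
      · have e1 : ((x : G) : G ⧸ N) * (g : G ⧸ N) = 1 := by
          rw [← QuotientGroup.mk_mul]
          exact (QuotientGroup.eq_one_iff _).2 h1
        have e2 : (g : G ⧸ N) = ((x : G) : G ⧸ N)⁻¹ := eq_inv_of_mul_eq_one_right e1
        rw [e2]
        exact Subgroup.inv_mem _ (Subgroup.mem_zpowers _)
      · have e1 : ((x : G) : G ⧸ N) * (g : G ⧸ N) * (g : G ⧸ N) = 1 := by
          rw [← QuotientGroup.mk_mul, ← QuotientGroup.mk_mul]
          exact (QuotientGroup.eq_one_iff _).2 h1
        have e2 : (g : G ⧸ N) * (g : G ⧸ N) * (g : G ⧸ N) = 1 := by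
          rw [← QuotientGroup.mk_mul, ← QuotientGroup.mk_mul, hcube g (h3of g hg)]
          rfl
        have e3 : ((x : G) : G ⧸ N) = (g : G ⧸ N) :=
          mul_right_cancel (mul_right_cancel (e1.trans e2.symm))
        rw [← e3]
        exact Subgroup.mem_zpowers _
· left
  have hK' : ∀ a b : G, orderOf a = 2 → orderOf b = 2 → a * b = b * a → a = b := by
    intro a b ha hb hab
    by_contra hne
    exact hK ⟨a, b, ha, hb, hne, hab⟩
  have hf2 : Fact (Nat.Prime 2) := ⟨Nat.prime_two⟩
  obtain ⟨P, hP⟩ := (IsPGroup.of_card (p := 2) (n := 1) (G := Subgroup.zpowers t)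
    (by rw [Nat.card_zpowers, ht, pow_one])).exists_le_sylow
  have htP : t ∈ (P : Subgroup G) := hP (Subgroup.mem_zpowers t)
  have h2pow : ∀ z ∈ (P : Subgroup G), orderOf z ≠ 3 := by
    intro z hz h3
    obtain ⟨k, hk⟩ := P.2 ⟨z, hz⟩
    have hk' : z ^ 2 ^ k = 1 := by
      have h4 := congrArg Subtype.val hk
      simpa using h4
    have hd := orderOf_dvd_of_pow_eq_one hk'
    rw [h3] at hd
    have h5 := Nat.Prime.dvd_of_dvd_pow Nat.prime_three hd
    omega
  have hPel : ∀ y ∈ (P : Subgroup G), y = 1 ∨ y = t := by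
    intro y hy
    rcases hord y with h1 | h1 | h1
    · left
      exact orderOf_eq_one_iff.1 h1
    · right
      have hyt : y * t ∈ (P : Subgroup G) := Subgroup.mul_mem _ hy htP
      rcases hA y t h1 ht with h' | h'
      · exact hK' y t h1 ht h'
      · exact absurd h' (h2pow _ hyt)
    · exact absurd h1 (h2pow y hy)
  have hnc : Subgroup.normalizer ((P : Subgroup G) : Set G) ≤
      Subgroup.centralizer ((P : Subgroup G) : Set G) := by
    intro g hg
    rw [Subgroup.mem_centralizer_iff]
    intro y hy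
    rcases hPel y hy with h1 | h1
    · rw [h1, one_mul, mul_one]
    · rw [h1]
      have hg' := (Subgroup.mem_set_normalizer_iff.1 hg t).1 htP
      rcases hPel _ hg' with h2 | h2
      · exact absurd (conj_eq_one_iff.1 h2) (hne1 t ht)
      · exact (mul_inv_eq_iff_eq_mul.1 h2).symm
  obtain ⟨K, hKn, hKc⟩ : ∃ K : Subgroup G, K.Normal ∧ K.IsComplement' (P : Subgroup G) :=
    ⟨_, MonoidHom.normal_ker _, MonoidHom.ker_transferSylow_isComplement' P hnc⟩
  have hPeq : (P : Subgroup G) = Subgroup.zpowers t := by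
    apply le_antisymm
    · intro y hy
      rcases hPel y hy with h1 | h1
      · rw [h1]
        exact Subgroup.one_mem _
      · rw [h1]
        exact Subgroup.mem_zpowers t
    · exact hP
  have hKidx : K.index = 2 := by
    rw [hKc.symm.index_eq_card, hPeq, Nat.card_zpowers, ht]
  have htK : t ∉ K := by
    intro htK
    have h1 : t ∈ K ⊓ (P : Subgroup G) := ⟨htK, htP⟩
    rw [hKc.disjoint.eq_bot] at h1
    exact hne1 t ht (Subgroup.mem_bot.1 h1)
  have hout : ∀ g : G, g ∉ K → orderOf g = 2 := by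
    intro g hg
    rcases hord g with h1 | h1 | h1
    · exfalso
      apply hg
      rw [orderOf_eq_one_iff.1 h1]
      exact K.one_mem
    · exact h1
    · exfalso
      apply hg
      have h2 : g * g ∈ K := Subgroup.mul_self_mem_of_index_two hKidx g
      have h3 : g = (g * g)⁻¹ := eq_inv_of_mul_eq_one_right (hcube g h1)
      rw [h3]
      exact K.inv_mem h2
  have htk : ∀ k ∈ K, t * k ∉ K := by
    intro k hk h'
    apply htK
    have h1 : t = (t * k) * k⁻¹ := by group
    rw [h1]
    exact K.mul_mem h' (K.inv_mem hk)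
  have hin : ∀ k ∈ K, k ^ 3 = 1 := by
    intro k hk
    rcases hord k with h1 | h1 | h1
    · rw [orderOf_eq_one_iff.1 h1, one_pow]
    · exfalso
      have o := hout _ (htk k hk)
      rcases hA t k ht h1 with h' | h'
      · apply htK
        rw [hK' t k ht h1 h']
        exact hk
      · omega
    · rw [← h1]
      exact pow_orderOf_eq_one k
  have hinvK : ∀ k ∈ K, t * k * t = k⁻¹ := by
    intro k hk
    have o := hinv _ (hout _ (htk k hk))
    apply eq_inv_of_mul_eq_one_left
    rw [mul_assoc (t * k) t k]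
    exact o
  have ht2 := hinv t ht
  refine ⟨K, hKn, ⟨⟨⟨fun p q => Subtype.ext ?_⟩⟩, hin⟩, hKidx⟩
  show (p : G) * (q : G) = (q : G) * (p : G)
  have e1 := hinvK _ (K.mul_mem p.2 q.2)
  have e2 := hinvK _ p.2
  have e3 := hinvK _ q.2
  have e4 : t * ((p : G) * (q : G)) * t = (t * (p : G) * t) * (t * (q : G) * t) := by
    rw [show (t * (p : G) * t) * (t * (q : G) * t) = t * (p : G) * (t * t) * (q : G) * t by
      simp only [mul_assoc], ht2, mul_one]
    simp only [mul_assoc]
  rw [e1, e2, e3] at e4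
  have e5 := congrArg (fun z : G => z⁻¹) e4
  simp only [mul_inv_rev, inv_inv] at e5
  exact e5

end Cfsg.Agent.S4005
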