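import Cfsg.Statements.S4198
import Mathlib.GroupTheory.SpecificGroups.Alternating.Centralizer
import Mathlib.GroupTheory.Perm.Cycle.PossibleTypes

set_option autoImplicit false
open Cfsg

namespace Cfsg.Agent.S4198

noncomputable def crep {M : Type*} [Monoid M] (c : ConjClasses M) : M :=
  Classical.choose (ConjClasses.exists_rep c)

theorem mk_crep {M : Type*} [Monoid M] (c : ConjClasses M) : ConjClasses.mk (crep c) = c :=
  Classical.choose_spec (ConjClasses.exists_rep c)

theorem mem_alt_iff (n : ℕ) (g : Equiv.Perm (Fin n)) :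
    g ∈ alternatingGroup (Fin n) ↔ Even (g.cycleType.sum + Multiset.card g.cycleType) := by
  rw [Equiv.Perm.mem_alternatingGroup, Equiv.Perm.sign_of_cycleType]
  exact neg_one_pow_eq_one_iff_even (by decide)

theorem mul_mem_alt_of_not (n : ℕ) (σ τ : Equiv.Perm (Fin n))
    (hσ : σ ∉ alternatingGroup (Fin n)) (hτ : τ ∉ alternatingGroup (Fin n)) :
    σ * τ ∈ alternatingGroup (Fin n) := by
  rw [Equiv.Perm.mem_alternatingGroup] at hσ hτ ⊢
  have h1 : Equiv.Perm.sign σ = -1 := (Int.units_eq_one_or _).resolve_left hσ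
  have h2 : Equiv.Perm.sign τ = -1 := (Int.units_eq_one_or _).resolve_left hτ
  rw [Equiv.Perm.sign_mul, h1, h2]
  decide

noncomputable def stype (n : ℕ) (c : ConjClasses (Equiv.Perm (Fin n))) : Multiset ℕ :=
  (crep c).cycleType

theorem stype_inj (n : ℕ) : Function.Injective (stype n) := by
  intro c c' h
  have h1 : IsConj (crep c) (crep c') := Equiv.Perm.isConj_iff_cycleType_eq.mpr h
  calc c = ConjClasses.mk (crep c) := (mk_crep c).symm
    _ = ConjClasses.mk (crep c') := ConjClasses.mk_eq_mk_iff_isConj.mpr h1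
    _ = c' := mk_crep c'

open Classical in
noncomputable def rho (n : ℕ) (m : Multiset ℕ) : Equiv.Perm (Fin n) :=
  if h : ∃ g : Equiv.Perm (Fin n), g.cycleType = m then Classical.choose h else 1

theorem rho_spec (n : ℕ) (m : Multiset ℕ) (h : ∃ g : Equiv.Perm (Fin n), g.cycleType = m) :
    (rho n m).cycleType = m := by
  unfold rho
  rw [dif_pos h]
  exact Classical.choose_spec h

open Classical in
noncomputable def pick (m : Multiset ℕ) : ℕ :=
  if h : m = 0 then 0 else Classical.choose (Multiset.exists_mem_of_ne_zero h)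

theorem pick_mem (m : Multiset ℕ) (h : m ≠ 0) : pick m ∈ m := by
  unfold pick
  rw [dif_neg h]
  exact Classical.choose_spec (Multiset.exists_mem_of_ne_zero h)

noncomputable def theta (m : Multiset ℕ) : Multiset ℕ := (pick m - 1) ::ₘ m.erase (pick m)

theorem theta_sum (m : Multiset ℕ) (h : m ≠ 0) (h1 : 1 ≤ pick m) :
    (theta m).sum + 1 = m.sum := by
  have hc : pick m ::ₘ m.erase (pick m) = m := Multiset.cons_erase (pick_mem m h)
  have h2 := congrArg Multiset.sum hc
  rw [Multiset.sum_cons] at h2
  unfold theta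
  rw [Multiset.sum_cons]
  omega

theorem theta_card (m : Multiset ℕ) (h : m ≠ 0) :
    Multiset.card (theta m) = Multiset.card m := by
  have hc : pick m ::ₘ m.erase (pick m) = m := Multiset.cons_erase (pick_mem m h)
  have h2 := congrArg Multiset.card hc
  rw [Multiset.card_cons] at h2
  unfold theta
  rw [Multiset.card_cons]
  exact h2

theorem theta_inj (m m' : Multiset ℕ) (h : m ≠ 0) (h' : m' ≠ 0) (ho : ∀ a ∈ m, Odd a)
    (ho' : ∀ a ∈ m', Odd a) (he : theta m = theta m') : m = m' := by
  have hp := pick_mem m h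
  have hp' := pick_mem m' h'
  have hodd := ho _ hp
  have hodd' := ho' _ hp'
  have hM : pick m = pick m' := by
    have h1 : pick m - 1 ∈ theta m' := by
      rw [← he]; unfold theta; exact Multiset.mem_cons_self _ _
    unfold theta at h1
    rcases Multiset.mem_cons.mp h1 with h2 | h2
    · obtain ⟨k, hk⟩ := hodd
      obtain ⟨k', hk'⟩ := hodd'
      omega
    · exfalso
      have h3 := ho' _ (Multiset.mem_of_mem_erase h2)
      obtain ⟨k, hk⟩ := hodd
      obtain ⟨j, hj⟩ := h3
      omega
  unfold theta at he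
  rw [hM] at he
  have h4 : m.erase (pick m') = m'.erase (pick m') := (Multiset.cons_inj_right _).mp he
  calc m = pick m ::ₘ m.erase (pick m) := (Multiset.cons_erase hp).symm
    _ = pick m' ::ₘ m'.erase (pick m') := by rw [hM, h4]
    _ = m' := Multiset.cons_erase hp'

noncomputable def atype (n : ℕ) (a : ConjClasses (alternatingGroup (Fin n))) : Multiset ℕ :=
  ((crep a : alternatingGroup (Fin n)) : Equiv.Perm (Fin n)).cycleType

def primary (n : ℕ) (a : ConjClasses (alternatingGroup (Fin n))) : Prop :=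
  ∃ h : alternatingGroup (Fin n), ConjClasses.mk h = a ∧
    (h : Equiv.Perm (Fin n)) = rho n (atype n a)

noncomputable def psi (n : ℕ) (a : ConjClasses (alternatingGroup (Fin n))) : Multiset ℕ :=
  @ite _ (primary n a) (Classical.propDecidable _) (atype n a) (theta (atype n a))

theorem psi_pos (n : ℕ) (a : ConjClasses (alternatingGroup (Fin n))) (h : primary n a) :
    psi n a = atype n a := by
  unfold psi; exact if_pos h

theorem psi_neg (n : ℕ) (a : ConjClasses (alternatingGroup (Fin n))) (h : ¬ primary n a) :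
    psi n a = theta (atype n a) := by
  unfold psi; exact if_neg h

theorem rho_atype (n : ℕ) (a : ConjClasses (alternatingGroup (Fin n))) :
    (rho n (atype n a)).cycleType = atype n a :=
  rho_spec n (atype n a) ⟨((crep a : alternatingGroup (Fin n)) : Equiv.Perm (Fin n)), rfl⟩

theorem atype_even (n : ℕ) (a : ConjClasses (alternatingGroup (Fin n))) :
    Even ((atype n a).sum + Multiset.card (atype n a)) :=
  (mem_alt_iff n _).mp (crep a).2

theorem rho_mem (n : ℕ) (a : ConjClasses (alternatingGroup (Fin n))) :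
    rho n (atype n a) ∈ alternatingGroup (Fin n) := by
  rw [mem_alt_iff, rho_atype]
  exact atype_even n a

theorem mk_eq_of_conj (n : ℕ) (g h : alternatingGroup (Fin n)) (σ : Equiv.Perm (Fin n))
    (hσ : σ ∈ alternatingGroup (Fin n))
    (hc : σ * (h : Equiv.Perm (Fin n)) * σ⁻¹ = (g : Equiv.Perm (Fin n))) :
    ConjClasses.mk h = ConjClasses.mk g := by
  rw [ConjClasses.mk_eq_mk_iff_isConj, isConj_iff]
  exact ⟨⟨σ, hσ⟩, Subtype.ext hc⟩

theorem exists_conj (n : ℕ) (a : ConjClasses (alternatingGroup (Fin n))) :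
    ∃ σ : Equiv.Perm (Fin n), σ * rho n (atype n a) * σ⁻¹ =
      ((crep a : alternatingGroup (Fin n)) : Equiv.Perm (Fin n)) := by
  have h : (rho n (atype n a)).cycleType =
      ((crep a : alternatingGroup (Fin n)) : Equiv.Perm (Fin n)).cycleType := rho_atype n a
  exact isConj_iff.mp (Equiv.Perm.isConj_iff_cycleType_eq.mpr h)

theorem nonprimary_conj (n : ℕ) (a : ConjClasses (alternatingGroup (Fin n)))
    (hnp : ¬ primary n a) (σ : Equiv.Perm (Fin n))
    (hσ : σ * rho n (atype n a) * σ⁻¹ =
      ((crep a : alternatingGroup (Fin n)) : Equiv.Perm (Fin n))) :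
    σ ∉ alternatingGroup (Fin n) := by
  intro hmem
  apply hnp
  refine ⟨⟨rho n (atype n a), rho_mem n a⟩, ?_, rfl⟩
  exact (mk_eq_of_conj n (crep a) ⟨rho n (atype n a), rho_mem n a⟩ σ hmem hσ).trans (mk_crep a)

theorem nonprimary_cent (n : ℕ) (a : ConjClasses (alternatingGroup (Fin n)))
    (hnp : ¬ primary n a) :
    Subgroup.centralizer {((crep a : alternatingGroup (Fin n)) : Equiv.Perm (Fin n))} ≤
      alternatingGroup (Fin n) := by
  intro ζ hζ
  by_contra hζA
  rw [Subgroup.mem_centralizer_singleton_iff] at hζ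
  obtain ⟨σ, hσ⟩ := exists_conj n a
  have hσA := nonprimary_conj n a hnp σ hσ
  have h1 : ζ * σ ∈ alternatingGroup (Fin n) := mul_mem_alt_of_not n ζ σ hζA hσA
  refine nonprimary_conj n a hnp (ζ * σ) ?_ h1
  have h2 : ζ * σ * rho n (atype n a) * (ζ * σ)⁻¹ =
      ζ * (σ * rho n (atype n a) * σ⁻¹) * ζ⁻¹ := by group
  rw [h2, hσ, hζ, mul_inv_cancel_right]

theorem nonprimary_facts (n : ℕ) (hn : 5 ≤ n) (a : ConjClasses (alternatingGroup (Fin n)))
    (hnp : ¬ primary n a) :
    (∀ i ∈ atype n a, Odd i) ∧ n ≤ (atype n a).sum + 1 ∧ atype n a ≠ 0 ∧ 3 ≤ pick (atype n a) := by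
  have hc := nonprimary_cent n a hnp
  have h1 : ∀ i ∈ atype n a, Odd i :=
    Equiv.Perm.OnCycleFactors.odd_of_centralizer_le_alternatingGroup hc
  have h2 : n ≤ (atype n a).sum + 1 := by
    have := Equiv.Perm.card_le_of_centralizer_le_alternating hc
    rw [Fintype.card_fin] at this
    exact this
  have h3 : atype n a ≠ 0 := by
    intro h0
    rw [h0, Multiset.sum_zero] at h2
    omega
  refine ⟨h1, h2, h3, ?_⟩
  have hp := pick_mem _ h3
  have h4 : 2 ≤ pick (atype n a) := Equiv.Perm.two_le_of_mem_cycleType hp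
  obtain ⟨k, hk⟩ := h1 _ hp
  omega

theorem psi_inj (n : ℕ) (hn : 5 ≤ n) : Function.Injective (psi n) := by
  intro a a' h
  by_cases hp : primary n a
  · by_cases hp' : primary n a'
    · rw [psi_pos n a hp, psi_pos n a' hp'] at h
      obtain ⟨x, hx1, hx2⟩ := hp
      obtain ⟨x', hx1', hx2'⟩ := hp'
      have hxx : x = x' := Subtype.ext (by rw [hx2, hx2', h])
      rw [← hx1, ← hx1', hxx]
    · exfalso
      rw [psi_pos n a hp, psi_neg n a' hp'] at h
      obtain ⟨-, -, h3, h4⟩ := nonprimary_facts n hn a' hp'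
      have e1 := theta_sum _ h3 (by omega)
      have e2 := theta_card _ h3
      obtain ⟨k, hk⟩ := atype_even n a
      obtain ⟨k', hk'⟩ := atype_even n a'
      rw [h] at hk
      omega
  · by_cases hp' : primary n a'
    · exfalso
      rw [psi_neg n a hp, psi_pos n a' hp'] at h
      obtain ⟨-, -, h3, h4⟩ := nonprimary_facts n hn a hp
      have e1 := theta_sum _ h3 (by omega)
      have e2 := theta_card _ h3
      obtain ⟨k, hk⟩ := atype_even n a
      obtain ⟨k', hk'⟩ := atype_even n a'
      rw [← h] at hk'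
      omega
    · rw [psi_neg n a hp, psi_neg n a' hp'] at h
      obtain ⟨ho, -, h3, -⟩ := nonprimary_facts n hn a hp
      obtain ⟨ho', -, h3', -⟩ := nonprimary_facts n hn a' hp'
      have e : atype n a = atype n a' := theta_inj _ _ h3 h3' ho ho' h
      obtain ⟨σ, hσ⟩ := exists_conj n a
      obtain ⟨σ', hσ'⟩ := exists_conj n a'
      have hσA := nonprimary_conj n a hp σ hσ
      have hσA' := nonprimary_conj n a' hp' σ' hσ'
      have hσi : σ⁻¹ ∉ alternatingGroup (Fin n) := fun hh => hσA ((Subgroup.inv_mem_iff _).mp hh)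
      have h1 : σ' * σ⁻¹ ∈ alternatingGroup (Fin n) := mul_mem_alt_of_not n σ' σ⁻¹ hσA' hσi
      have h2 : σ' * σ⁻¹ * ((crep a : alternatingGroup (Fin n)) : Equiv.Perm (Fin n)) *
          (σ' * σ⁻¹)⁻¹ = ((crep a' : alternatingGroup (Fin n)) : Equiv.Perm (Fin n)) := by
        rw [← hσ, ← hσ', e]
        group
      calc a = ConjClasses.mk (crep a) := (mk_crep a).symm
        _ = ConjClasses.mk (crep a') := mk_eq_of_conj n (crep a') (crep a) _ h1 h2
        _ = a' := mk_crep a'

theorem psi_mem (n : ℕ) (hn : 5 ≤ n) (a : ConjClasses (alternatingGroup (Fin n))) :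
    (∃ g : Equiv.Perm (Fin n), g.cycleType = psi n a) ∧ psi n a ≠ {2} := by
  by_cases hp : primary n a
  · rw [psi_pos n a hp]
    refine ⟨⟨((crep a : alternatingGroup (Fin n)) : Equiv.Perm (Fin n)), rfl⟩, ?_⟩
    intro h2
    have he := atype_even n a
    rw [h2] at he
    revert he
    decide
  · rw [psi_neg n a hp]
    obtain ⟨ho, h2, h3, h4⟩ := nonprimary_facts n hn a hp
    have e1 := theta_sum _ h3 (by omega)
    have hsum : (atype n a).sum ≤ n := by
      have := Equiv.Perm.sum_cycleType_le ((crep a : alternatingGroup (Fin n)) : Equiv.Perm (Fin n))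
      rw [Fintype.card_fin] at this
      exact this
    refine ⟨?_, ?_⟩
    · rw [Equiv.Perm.exists_with_cycleType_iff (Fin n), Fintype.card_fin]
      refine ⟨by omega, ?_⟩
      intro x hx
      unfold theta at hx
      rcases Multiset.mem_cons.mp hx with hx1 | hx1
      · omega
      · exact Equiv.Perm.two_le_of_mem_cycleType (Multiset.mem_of_mem_erase hx1)
    · intro hθ
      rw [hθ] at e1
      simp at e1
      omega

noncomputable def TT (n : ℕ) : Finset (Multiset ℕ) :=
  (Finset.univ : Finset (Equiv.Perm (Fin n))).image Equiv.Perm.cycleType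

theorem mem_TT (n : ℕ) (m : Multiset ℕ) :
    m ∈ TT n ↔ ∃ g : Equiv.Perm (Fin n), g.cycleType = m := by
  unfold TT
  rw [Finset.mem_image]
  constructor
  · rintro ⟨g, -, hg⟩; exact ⟨g, hg⟩
  · rintro ⟨g, hg⟩; exact ⟨g, Finset.mem_univ _, hg⟩

theorem part1 (n : ℕ) (hn : 5 ≤ n) :
    Nat.card (ConjClasses (alternatingGroup (Fin n))) <
      Nat.card (ConjClasses (Equiv.Perm (Fin n))) := by
  have h2 : ({2} : Multiset ℕ) ∈ TT n := by
    rw [mem_TT, Equiv.Perm.exists_with_cycleType_iff (Fin n), Fintype.card_fin]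
    refine ⟨?_, ?_⟩
    · rw [Multiset.sum_singleton]; omega
    · intro a ha
      rw [Multiset.mem_singleton] at ha
      omega
  have hA : Nat.card (ConjClasses (alternatingGroup (Fin n))) ≤ ((TT n).erase {2}).card := by
    have hf : ∀ a, psi n a ∈ (TT n).erase {2} := fun a => by
      obtain ⟨h1, h2'⟩ := psi_mem n hn a
      exact Finset.mem_erase.mpr ⟨h2', (mem_TT n _).mpr h1⟩
    have hinj : Function.Injective
        (fun a => (⟨psi n a, hf a⟩ : {m // m ∈ (TT n).erase {2}})) := by
      intro a a' h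
      exact psi_inj n hn (congrArg Subtype.val h)
    have h3 := Nat.card_le_card_of_injective _ hinj
    rw [Nat.card_eq_finsetCard] at h3
    exact h3
  have hS : (TT n).card ≤ Nat.card (ConjClasses (Equiv.Perm (Fin n))) := by
    have hinj : Function.Injective
        (fun m : {m // m ∈ TT n} => ConjClasses.mk (rho n m.1)) := by
      intro m m' h
      have h1 := ConjClasses.mk_eq_mk_iff_isConj.mp h
      have h2 := Equiv.Perm.isConj_iff_cycleType_eq.mp h1
      rw [rho_spec n _ ((mem_TT n _).mp m.2), rho_spec n _ ((mem_TT n _).mp m'.2)] at h2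
      exact Subtype.ext h2
    have h3 := Nat.card_le_card_of_injective _ hinj
    rw [Nat.card_eq_finsetCard] at h3
    exact h3
  have h3 : ((TT n).erase {2}).card < (TT n).card := Finset.card_erase_lt_of_mem h2
  omega

def FF : ℕ → Finset (Multiset ℕ)
  | 0 => {0}
  | 1 => {0}
  | (k + 2) => FF (k + 1) ∪ (FF k).image (fun m => (k + 2 - m.sum) ::ₘ m)

theorem FF_succ (k : ℕ) :
    FF (k + 2) = FF (k + 1) ∪ (FF k).image (fun m => (k + 2 - m.sum) ::ₘ m) := by
  rw [FF]

theorem eq_zero_of_small (m : Multiset ℕ) (h2 : ∀ a ∈ m, 2 ≤ a) (hs : m.sum ≤ 1) : m = 0 := by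
  by_contra hne
  obtain ⟨s, hs'⟩ := Multiset.exists_mem_of_ne_zero hne
  have h3 := congrArg Multiset.sum (Multiset.cons_erase hs')
  rw [Multiset.sum_cons] at h3
  have := h2 s hs'
  omega

theorem FF_mem : ∀ (n : ℕ) (m : Multiset ℕ), (∀ a ∈ m, 2 ≤ a) → m.sum ≤ n → m ∈ FF n
  | 0, m, h2, hs => by
      have h0 := eq_zero_of_small m h2 (by omega)
      rw [h0]
      exact Finset.mem_singleton_self _
  | 1, m, h2, hs => by
      have h0 := eq_zero_of_small m h2 hs
      rw [h0]
      exact Finset.mem_singleton_self _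
  | (k + 2), m, h2, hs => by
      rw [FF_succ]
      by_cases hle : m.sum ≤ k + 1
      · exact Finset.mem_union_left _ (FF_mem (k + 1) m h2 hle)
      · have hsum : m.sum = k + 2 := by omega
        have hne : m ≠ 0 := by
          intro h0
          rw [h0, Multiset.sum_zero] at hsum
          omega
        obtain ⟨s, hs'⟩ := Multiset.exists_mem_of_ne_zero hne
        have h2s := h2 s hs'
        have hcons : s ::ₘ m.erase s = m := Multiset.cons_erase hs'
        have h3 := congrArg Multiset.sum hcons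
        rw [Multiset.sum_cons] at h3
        apply Finset.mem_union_right
        rw [Finset.mem_image]
        refine ⟨m.erase s, FF_mem k (m.erase s)
          (fun a ha => h2 a (Multiset.mem_of_mem_erase ha)) (by omega), ?_⟩
        have h4 : k + 2 - (m.erase s).sum = s := by omega
        rw [h4, hcons]

theorem FF_card_succ (k : ℕ) : (FF (k + 2)).card ≤ (FF (k + 1)).card + (FF k).card := by
  rw [FF_succ]
  exact (Finset.card_union_le _ _).trans (Nat.add_le_add_left Finset.card_image_le _)

theorem FF_card_le (n : ℕ) (hn : 5 ≤ n) : (FF n).card ≤ 2 ^ (n - 2) := by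
  have c0 : (FF 0).card = 1 := by rw [FF]; exact Finset.card_singleton _
  have c1 : (FF 1).card = 1 := by rw [FF]; exact Finset.card_singleton _
  have c2 := FF_card_succ 0
  have c3 := FF_card_succ 1
  have c4 := FF_card_succ 2
  have c5 := FF_card_succ 3
  have c6 := FF_card_succ 4
  simp only [Nat.reduceAdd] at c2 c3 c4 c5 c6
  induction n using Nat.strong_induction_on with
  | _ n ih =>
    by_cases h7 : 7 ≤ n
    · obtain ⟨j, rfl⟩ : ∃ j, n = j + 7 := ⟨n - 7, by omega⟩
      have h1 := ih (j + 6) (by omega) (by omega)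
      have h2 := ih (j + 5) (by omega) (by omega)
      have h3 := FF_card_succ (j + 5)
      have e1 : j + 6 - 2 = j + 4 := by omega
      have e2 : j + 5 - 2 = j + 3 := by omega
      have e3 : j + 7 - 2 = j + 5 := by omega
      rw [e1] at h1
      rw [e2] at h2
      rw [e3]
      have p1 : 2 ^ (j + 4) = 2 * 2 ^ (j + 3) := by rw [pow_succ]; ring
      have p2 : 2 ^ (j + 5) = 4 * 2 ^ (j + 3) := by rw [pow_succ, pow_succ]; ring
      rw [p1] at h1
      rw [p2]
      have h3' : (FF (j + 7)).card ≤ (FF (j + 6)).card + (FF (j + 5)).card := h3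
      omega
    · have h56 : n = 5 ∨ n = 6 := by omega
      rcases h56 with rfl | rfl
      · norm_num
        omega
      · norm_num
        omega

theorem part2 (n : ℕ) (hn : 5 ≤ n) :
    Nat.card (ConjClasses (Equiv.Perm (Fin n))) ≤ 2 ^ (n - 2) := by
  have hf : ∀ c : ConjClasses (Equiv.Perm (Fin n)), stype n c ∈ FF n := fun c => by
    apply FF_mem
    · intro a ha
      exact Equiv.Perm.two_le_of_mem_cycleType (σ := crep c) ha
    · have := Equiv.Perm.sum_cycleType_le (crep c)
      rw [Fintype.card_fin] at this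
      exact this
  have hinj : Function.Injective (fun c => (⟨stype n c, hf c⟩ : {m // m ∈ FF n})) :=
    fun c c' h => stype_inj n (congrArg Subtype.val h)
  have h3 := Nat.card_le_card_of_injective _ hinj
  rw [Nat.card_eq_finsetCard] at h3
  exact h3.trans (FF_card_le n hn)


/-- For n ≥ 5 the alternating group of degree n has strictly fewer conjugacy classes than the symmetric group of degree n, and the symmetric group of degree n (whose classes correspond to the partitions of n) has at most 2^(n−2) conjugacy classes. -/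
theorem result (n : ℕ) (hn : 5 ≤ n) : Nat.card (ConjClasses (alternatingGroup (Fin n))) < Nat.card (ConjClasses (Equiv.Perm (Fin n))) ∧ Nat.card (ConjClasses (Equiv.Perm (Fin n))) ≤ 2 ^ (n - 2) := by
  exact ⟨part1 n hn, part2 n hn⟩

end Cfsg.Agent.S4198
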