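import Mathlib
import Cfsg.Statements.S4200
import Cfsg.Agent.Helper22.Count

set_option autoImplicit false
open Cfsg

namespace Cfsg.Agent.S4200

open Cfsg.Agent.Helper22

theorem mem_cent_iff {X : Type*} [Group X] (x g : X) :
    g ∈ Subgroup.centralizer ({x} : Set X) ↔ Commute g x := by
  rw [Subgroup.mem_centralizer_singleton_iff]
  exact ⟨fun h => h, fun h => h⟩

theorem cent_card {X : Type*} [Group X] (Y : Subgroup X) (x : X) :
    Nat.card {x' : X // Commute x' x} =
      Y.relIndex (Subgroup.centralizer ({x} : Set X)) * Nat.card {y : Y // Commute (y : X) x} := by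
  rw [← Nat.card_congr (Equiv.subtypeEquivRight (p := fun x' : X => x' ∈ Subgroup.centralizer ({x} : Set X))
    (q := fun x' : X => Commute x' x) (fun x' => mem_cent_iff x x'))]
  have e : Nat.card {y : Y // Commute (y : X) x} =
      Nat.card (Subgroup.centralizer ({x} : Set X) ⊓ Y : Subgroup X) := by
    refine Nat.card_congr ⟨fun p => ⟨p.1.1, Subgroup.mem_inf.2 ⟨(mem_cent_iff x _).2 p.2, p.1.2⟩⟩,
      fun p => ⟨⟨p.1, (Subgroup.mem_inf.1 p.2).2⟩, (mem_cent_iff x _).1 (Subgroup.mem_inf.1 p.2).1⟩, ?_, ?_⟩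
    · intro p; rfl
    · intro p; rfl
  rw [e]
  exact card_eq_relIndex_mul _ _

theorem result {X : Type*} [Group X] [Finite X] (Y : Subgroup X) : Nat.card (ConjClasses Y) ≤ Y.index * Nat.card (ConjClasses X) ∧ Nat.card (ConjClasses X) ≤ Y.index * Nat.card (ConjClasses Y) ∧ (¬ Y.Normal → Nat.card (ConjClasses X) < Y.index * Nat.card (ConjClasses Y)) := by
  classical
  have := Fintype.ofFinite X
  have := Fintype.ofFinite Y
  set m := Y.index with hm
  have hXY : Nat.card Y * m = Nat.card X := Y.card_mul_index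
  have hYpos : 0 < Nat.card Y := Nat.card_pos
  have hmpos : 0 < m := Nat.pos_of_ne_zero Subgroup.index_ne_zero_of_finite
  have hcX := card_comm_eq_card_conjClasses_mul_card X
  have hcY := card_comm_eq_card_conjClasses_mul_card Y
  have hT1 := card_rel_eq_sum_left (fun (x : X) (y : Y) => Commute x (y : X))
  have hT2 := card_rel_eq_sum_right (fun (x : X) (y : Y) => Commute x (y : X))
  have hX1 := card_rel_eq_sum_left (fun (x x' : X) => Commute x x')
  have hY2 := card_rel_eq_sum_right (fun (y y' : Y) => Commute y y')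
  have hstep1 : Nat.card {p : X × X // Commute p.1 p.2} ≤
      m * Nat.card {p : X × Y // Commute p.1 (p.2 : X)} := by
    rw [hX1, hT1, Finset.mul_sum]
    apply Finset.sum_le_sum
    intro x _
    have h1 : Nat.card {x' : X // Commute x x'} = Nat.card {x' : X // Commute x' x} :=
      Nat.card_congr (Equiv.subtypeEquivRight (fun x' => ⟨fun h => h.symm, fun h => h.symm⟩))
    have h2 : Nat.card {y : Y // Commute x (y : X)} = Nat.card {y : Y // Commute (y : X) x} :=
      Nat.card_congr (Equiv.subtypeEquivRight (fun x' => ⟨fun h => h.symm, fun h => h.symm⟩))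
    rw [h1, h2, cent_card Y x]
    exact Nat.mul_le_mul_right _ (relIndex_le_index' _ _)
  have hterm : ∀ y : Y, Nat.card {x : X // Commute x (y : X)} =
      Y.relIndex (Subgroup.centralizer ({(y : X)} : Set X)) * Nat.card {y' : Y // Commute y' y} := by
    intro y
    rw [cent_card Y (y : X)]
    congr 1
    exact Nat.card_congr (Equiv.subtypeEquivRight (fun y' =>
      ⟨fun h => Subtype.ext h, fun h => congrArg Subtype.val h⟩))
  have hstep2 : Nat.card {p : X × Y // Commute p.1 (p.2 : X)} ≤
      m * Nat.card {p : Y × Y // Commute p.1 p.2} := by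
    rw [hT2, hY2, Finset.mul_sum]
    apply Finset.sum_le_sum
    intro y _
    rw [hterm y]
    exact Nat.mul_le_mul_right _ (relIndex_le_index' _ _)
  have hinj : Nat.card {p : Y × Y // Commute p.1 p.2} ≤ Nat.card {p : X × X // Commute p.1 p.2} := by
    refine Nat.card_le_card_of_injective
      (fun p => ⟨((p.1.1 : X), (p.1.2 : X)), congrArg Subtype.val p.2⟩) ?_
    intro p q h
    simpa only [Subtype.ext_iff, Prod.ext_iff] using h
  refine ⟨?_, ?_, ?_⟩
  · rw [hcX, hcY, ← hXY] at hinj
    have : Nat.card (ConjClasses Y) * Nat.card Y ≤ (m * Nat.card (ConjClasses X)) * Nat.card Y := by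
      calc Nat.card (ConjClasses Y) * Nat.card Y ≤ Nat.card (ConjClasses X) * (Nat.card Y * m) := hinj
        _ = (m * Nat.card (ConjClasses X)) * Nat.card Y := by ring
    exact Nat.le_of_mul_le_mul_right this hYpos
  · have h := le_trans hstep1 (Nat.mul_le_mul_left m hstep2)
    rw [hcX, hcY, ← hXY] at h
    have : Nat.card (ConjClasses X) * (Nat.card Y * m) ≤ (m * Nat.card (ConjClasses Y)) * (Nat.card Y * m) := by
      calc Nat.card (ConjClasses X) * (Nat.card Y * m) ≤ m * (m * (Nat.card (ConjClasses Y) * Nat.card Y)) := h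
        _ = (m * Nat.card (ConjClasses Y)) * (Nat.card Y * m) := by ring
    exact Nat.le_of_mul_le_mul_right this (Nat.mul_pos hYpos hmpos)
  · intro hnn
    have hex : ∃ y ∈ Y, ∃ g : X, g * y * g⁻¹ ∉ Y := by
      by_contra hcon
      push Not at hcon
      exact hnn ⟨fun y hy g => hcon y hy g⟩
    obtain ⟨y, hy, g, hg⟩ := hex
    have hlt : Y.relIndex (Subgroup.centralizer ({y} : Set X)) < m := by
      apply relIndex_lt_index _ _ g⁻¹
      intro c hc y' hy' hgc
      apply hg
      rw [mem_cent_iff] at hc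
      have hc : c * y = y * c := hc
      have hg' : g = y'⁻¹ * c⁻¹ := by
        rw [← inv_inv g, hgc]; group
      have e : g * y * g⁻¹ = y'⁻¹ * y * y' := by
        rw [hg']
        have : c⁻¹ * y * c = y := by
          calc c⁻¹ * y * c = c⁻¹ * (y * c) := by group
            _ = c⁻¹ * (c * y) := by rw [← hc]
            _ = y := by group
        calc y'⁻¹ * c⁻¹ * y * (y'⁻¹ * c⁻¹)⁻¹ = y'⁻¹ * (c⁻¹ * y * c) * y' := by group
          _ = y'⁻¹ * y * y' := by rw [this]
      rw [e]
      exact Y.mul_mem (Y.mul_mem (Y.inv_mem hy') hy) hy'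
    have hstep2' : Nat.card {p : X × Y // Commute p.1 (p.2 : X)} <
        m * Nat.card {p : Y × Y // Commute p.1 p.2} := by
      rw [hT2, hY2, Finset.mul_sum]
      apply Finset.sum_lt_sum
      · intro y _
        rw [hterm y]
        exact Nat.mul_le_mul_right _ (relIndex_le_index' _ _)
      · refine ⟨⟨y, hy⟩, Finset.mem_univ _, ?_⟩
        rw [hterm ⟨y, hy⟩]
        apply Nat.mul_lt_mul_of_lt_of_le hlt le_rfl
        exact Nat.card_pos_iff.2 ⟨⟨⟨⟨y, hy⟩, Commute.refl _⟩⟩, Finite.of_fintype _⟩
    have h := lt_of_le_of_lt hstep1 (Nat.mul_lt_mul_of_pos_left hstep2' hmpos)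
    rw [hcX, hcY, ← hXY] at h
    have : Nat.card (ConjClasses X) * (Nat.card Y * m) < (m * Nat.card (ConjClasses Y)) * (Nat.card Y * m) := by
      calc Nat.card (ConjClasses X) * (Nat.card Y * m) < m * (m * (Nat.card (ConjClasses Y) * Nat.card Y)) := h
        _ = (m * Nat.card (ConjClasses Y)) * (Nat.card Y * m) := by ring
    exact Nat.lt_of_mul_lt_mul_right this

end Cfsg.Agent.S4200
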