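import Mathlib
import Cfsg.Statements.S4201
import Cfsg.Agent.Helper22.Count

set_option autoImplicit false
open Cfsg

namespace Cfsg.Agent.S4201

open Cfsg.Agent.Helper22

theorem coset_bound {X : Type*} [Group X] [Finite X] (N : Subgroup X) [N.Normal] (g : X) (r : X ⧸ N)
    (P : Prop) :
    Nat.card {y : X // (((y : X) : X ⧸ N) = r ∧ Commute y g) ∧ P} ≤
      Nat.card {n : N // Commute (n : X) g ∧ P} := by
  by_cases hne : Nonempty {y : X // (((y : X) : X ⧸ N) = r ∧ Commute y g) ∧ P}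
  · obtain ⟨⟨y0, ⟨hy0r, hy0c⟩, hP⟩⟩ := hne
    refine Nat.card_le_card_of_injective
      (fun y => ⟨⟨y0⁻¹ * y.1, ?_⟩, ?_, hP⟩) ?_
    · rw [← QuotientGroup.eq, hy0r, y.2.1.1]
    · exact Commute.mul_left (Commute.inv_left hy0c) y.2.1.2
    · intro y y' h
      have h1 : y0⁻¹ * y.1 = y0⁻¹ * y'.1 := congrArg (fun z => ((z.1 : N) : X)) h
      exact Subtype.ext (mul_left_cancel h1)
  · rw [not_nonempty_iff] at hne
    rw [Nat.card_of_isEmpty]
    exact Nat.zero_le _

theorem fiber_bound {X : Type*} [Group X] [Finite X] (N : Subgroup X) [N.Normal] (q r : X ⧸ N) :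
    Nat.card {p : X × X // (((p.2 : X) : X ⧸ N) = r ∧ Commute p.2 p.1) ∧ ((p.1 : X) : X ⧸ N) = q} ≤
      Nat.card {p : N × N // Commute p.1 p.2} := by
  classical
  have := Fintype.ofFinite X
  have := Fintype.ofFinite N
  rw [card_rel_eq_sum_left (fun (x y : X) => (((y : X) : X ⧸ N) = r ∧ Commute y x) ∧ ((x : X) : X ⧸ N) = q)]
  have h1 : ∑ x : X, Nat.card {y : X // (((y : X) : X ⧸ N) = r ∧ Commute y x) ∧ ((x : X) : X ⧸ N) = q} ≤
      ∑ x : X, Nat.card {n : N // Commute (n : X) x ∧ ((x : X) : X ⧸ N) = q} :=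
    Finset.sum_le_sum fun x _ => coset_bound N x r _
  refine le_trans h1 ?_
  rw [← card_rel_eq_sum_left (fun (x : X) (n : N) => Commute (n : X) x ∧ ((x : X) : X ⧸ N) = q),
    card_rel_eq_sum_right (fun (x : X) (n : N) => Commute (n : X) x ∧ ((x : X) : X ⧸ N) = q),
    card_rel_eq_sum_right (fun (n' n : N) => Commute n' n)]
  apply Finset.sum_le_sum
  intro n _
  have e1 : Nat.card {x : X // Commute (n : X) x ∧ ((x : X) : X ⧸ N) = q} =
      Nat.card {y : X // (((y : X) : X ⧸ N) = q ∧ Commute y (n : X)) ∧ True} :=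
    Nat.card_congr (Equiv.subtypeEquivRight (fun x =>
      ⟨fun h => ⟨⟨h.2, h.1.symm⟩, trivial⟩, fun h => ⟨h.1.2.symm, h.1.1⟩⟩))
  have e2 : Nat.card {n' : N // Commute (n' : X) (n : X) ∧ True} = Nat.card {n' : N // Commute n' n} :=
    Nat.card_congr (Equiv.subtypeEquivRight (fun n' =>
      ⟨fun h => Subtype.ext h.1, fun h => ⟨congrArg Subtype.val h, trivial⟩⟩))
  rw [e1, ← e2]
  exact coset_bound N (n : X) q True

theorem result {X : Type*} [Group X] [Finite X] (N : Subgroup X) [N.Normal] : Nat.card (ConjClasses X) ≤ Nat.card (ConjClasses N) * Nat.card (ConjClasses (X ⧸ N)) := by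
  classical
  have := Fintype.ofFinite X
  have := Fintype.ofFinite (X ⧸ N)
  have hcX := card_comm_eq_card_conjClasses_mul_card X
  have hcN := card_comm_eq_card_conjClasses_mul_card N
  have hcQ := card_comm_eq_card_conjClasses_mul_card (X ⧸ N)
  let F : {p : X × X // Commute p.1 p.2} → {p : (X ⧸ N) × (X ⧸ N) // Commute p.1 p.2} :=
    fun a => ⟨(((a.1.1 : X) : X ⧸ N), ((a.1.2 : X) : X ⧸ N)), a.2.map (QuotientGroup.mk' N)⟩
  have hmain : Nat.card {p : X × X // Commute p.1 p.2} ≤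
      Nat.card {p : (X ⧸ N) × (X ⧸ N) // Commute p.1 p.2} * Nat.card {p : N × N // Commute p.1 p.2} := by
    have := Fintype.ofFinite {p : (X ⧸ N) × (X ⧸ N) // Commute p.1 p.2}
    rw [← Nat.card_congr (Equiv.sigmaFiberEquiv F), Nat.card_sigma]
    have hle : ∀ b : {p : (X ⧸ N) × (X ⧸ N) // Commute p.1 p.2},
        Nat.card {a : {p : X × X // Commute p.1 p.2} // F a = b} ≤
          Nat.card {p : N × N // Commute p.1 p.2} := by
      intro b
      refine le_trans ?_ (fiber_bound N b.1.1 b.1.2)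
      refine Nat.card_le_card_of_injective (fun a => ⟨a.1.1, ⟨?_, ?_⟩, ?_⟩) ?_
      · have := congrArg (fun z : {p : (X ⧸ N) × (X ⧸ N) // Commute p.1 p.2} => z.1.2) a.2
        exact this
      · exact a.1.2.symm
      · have := congrArg (fun z : {p : (X ⧸ N) × (X ⧸ N) // Commute p.1 p.2} => z.1.1) a.2
        exact this
      · intro a a' h
        dsimp only at h
        have h1 : a.1.1 = a'.1.1 := by injection h
        exact Subtype.ext (Subtype.ext h1)
    calc ∑ b, Nat.card {a : {p : X × X // Commute p.1 p.2} // F a = b}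
        ≤ ∑ _b : {p : (X ⧸ N) × (X ⧸ N) // Commute p.1 p.2}, Nat.card {p : N × N // Commute p.1 p.2} :=
          Finset.sum_le_sum fun b _ => hle b
      _ = Nat.card {p : (X ⧸ N) × (X ⧸ N) // Commute p.1 p.2} * Nat.card {p : N × N // Commute p.1 p.2} := by
          rw [Finset.sum_const, Finset.card_univ, smul_eq_mul, ← Nat.card_eq_fintype_card]
  rw [hcX, hcN, hcQ, Subgroup.card_eq_card_quotient_mul_card_subgroup N] at hmain
  have hpos : 0 < Nat.card (X ⧸ N) * Nat.card N := Nat.mul_pos Nat.card_pos Nat.card_pos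
  have : Nat.card (ConjClasses X) * (Nat.card (X ⧸ N) * Nat.card N) ≤
      (Nat.card (ConjClasses N) * Nat.card (ConjClasses (X ⧸ N))) * (Nat.card (X ⧸ N) * Nat.card N) := by
    calc Nat.card (ConjClasses X) * (Nat.card (X ⧸ N) * Nat.card N)
        ≤ Nat.card (ConjClasses (X ⧸ N)) * Nat.card (X ⧸ N) * (Nat.card (ConjClasses N) * Nat.card N) := hmain
      _ = (Nat.card (ConjClasses N) * Nat.card (ConjClasses (X ⧸ N))) * (Nat.card (X ⧸ N) * Nat.card N) := by ring
  exact Nat.le_of_mul_le_mul_right this hpos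

end Cfsg.Agent.S4201
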