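import Mathlib
import Cfsg.Statements.S4204

set_option autoImplicit false
open Cfsg

namespace Cfsg.Agent.S4204

theorem comm_le_iff {G : Type*} [Group G] (Z : Subgroup G) [Z.Normal] (X Y : Subgroup G) :
    ⁅X, Y⁆ ≤ Z ↔ X.map (QuotientGroup.mk' Z) ≤
      Subgroup.centralizer ((Y.map (QuotientGroup.mk' Z) : Subgroup (G ⧸ Z)) : Set (G ⧸ Z)) := by
  rw [← Subgroup.commutator_eq_bot_iff_le_centralizer, ← Subgroup.map_commutator,
    Subgroup.map_eq_bot_iff, QuotientGroup.ker_mk']

theorem iSup_comm_le {G : Type*} [Group G] (Z : Subgroup G) [Z.Normal] {ι : Sort*}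
    (X : ι → Subgroup G) (Y : Subgroup G) (h : ∀ i, ⁅X i, Y⁆ ≤ Z) : ⁅⨆ i, X i, Y⁆ ≤ Z := by
  rw [comm_le_iff, Subgroup.map_iSup]
  exact iSup_le fun i => (comm_le_iff Z (X i) Y).1 (h i)

theorem comm_sup_le {G : Type*} [Group G] (Z : Subgroup G) [Z.Normal]
    (X Y₁ Y₂ : Subgroup G) (h1 : ⁅X, Y₁⁆ ≤ Z) (h2 : ⁅X, Y₂⁆ ≤ Z) : ⁅X, Y₁ ⊔ Y₂⁆ ≤ Z := by
  rw [Subgroup.commutator_comm] at h1 h2 ⊢
  rw [comm_le_iff] at h1 h2 ⊢
  rw [Subgroup.map_sup]
  exact sup_le h1 h2

/-- shifted lower central series: index 0 is the whole group -/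
def shifted {G : Type*} [Group G] (H : Subgroup G) : ℕ → Subgroup G
  | 0 => ⊤
  | (a + 1) => H.lowerCentralSeries a

theorem lcs_normal {G : Type*} [Group G] (H : Subgroup G) [H.Normal] (n : ℕ) :
    (H.lowerCentralSeries n).Normal := by
  induction n with
  | zero => simpa
  | succ n ih =>
    rw [Subgroup.lowerCentralSeries_succ]
    have := ih
    infer_instance

instance shifted_normal {G : Type*} [Group G] (H : Subgroup G) [H.Normal] (a : ℕ) :
    (shifted H a).Normal := by
  cases a with
  | zero => exact Subgroup.normal_top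
  | succ a => exact lcs_normal H a

theorem shifted_comm_self {G : Type*} [Group G] (H : Subgroup G) [H.Normal] (a : ℕ) :
    ⁅shifted H a, H⁆ ≤ shifted H (a + 1) := by
  cases a with
  | zero => exact Subgroup.commutator_le_right _ _
  | succ a => exact le_rfl

theorem shifted_comm_other {G : Type*} [Group G] (H : Subgroup G) [H.Normal] (K : Subgroup G) (a : ℕ) :
    ⁅shifted H a, K⁆ ≤ shifted H a :=
  Subgroup.commutator_le_left _ _

/-- the bounding subgroup -/
def bound {G : Type*} [Group G] (H K : Subgroup G) (n : ℕ) : Subgroup G :=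
  ⨆ (a : ℕ) (b : ℕ) (_ : a + b = n + 1), shifted H a ⊓ shifted K b

instance bound_normal {G : Type*} [Group G] (H K : Subgroup G) [H.Normal] [K.Normal] (n : ℕ) :
    (bound H K n).Normal := by
  unfold bound
  infer_instance

theorem term_le_bound {G : Type*} [Group G] (H K : Subgroup G) (n a b : ℕ) (h : a + b = n + 1) :
    shifted H a ⊓ shifted K b ≤ bound H K n := by
  unfold bound
  exact le_iSup_of_le a (le_iSup_of_le b (le_iSup_of_le h le_rfl))

theorem lcs_le_bound {G : Type*} [Group G] (H K : Subgroup G) [H.Normal] [K.Normal] (n : ℕ) :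
    (H ⊔ K).lowerCentralSeries n ≤ bound H K n := by
  induction n with
  | zero =>
    rw [Subgroup.lowerCentralSeries_zero]
    apply sup_le
    · refine le_trans ?_ (term_le_bound H K 0 1 0 rfl)
      simp [shifted]
    · refine le_trans ?_ (term_le_bound H K 0 0 1 rfl)
      simp [shifted]
  | succ n ih =>
    rw [Subgroup.lowerCentralSeries_succ]
    refine le_trans (Subgroup.commutator_mono ih le_rfl) ?_
    apply comm_sup_le
    · unfold bound
      apply iSup_comm_le
      intro a
      apply iSup_comm_le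
      intro b
      apply iSup_comm_le
      intro hab
      refine le_trans ?_ (term_le_bound H K (n + 1) (a + 1) b (by omega))
      apply le_inf
      · exact le_trans (Subgroup.commutator_mono inf_le_left le_rfl) (shifted_comm_self H a)
      · exact le_trans (Subgroup.commutator_mono inf_le_right le_rfl) (shifted_comm_other K H b)
    · unfold bound
      apply iSup_comm_le
      intro a
      apply iSup_comm_le
      intro b
      apply iSup_comm_le
      intro hab
      refine le_trans ?_ (term_le_bound H K (n + 1) a (b + 1) (by omega))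
      apply le_inf
      · exact le_trans (Subgroup.commutator_mono inf_le_left le_rfl) (shifted_comm_other H K a)
      · exact le_trans (Subgroup.commutator_mono inf_le_right le_rfl) (shifted_comm_self K b)

theorem shifted_eq_bot {G : Type*} [Group G] (H : Subgroup G) (c a : ℕ)
    (hH : H.lowerCentralSeries c = ⊥) (ha : c + 1 ≤ a) : shifted H a = ⊥ := by
  obtain ⟨a', rfl⟩ : ∃ a', a = a' + 1 := ⟨a - 1, by omega⟩
  show H.lowerCentralSeries a' = ⊥
  rw [eq_bot_iff, ← hH]
  exact H.lowerCentralSeries_antitone (by omega)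

theorem result {G : Type*} [Group G] [Finite G] (H K : Subgroup G) [H.Normal] [K.Normal] (c d : ℕ) (hH : H.lowerCentralSeries c = ⊥) (hK : K.lowerCentralSeries d = ⊥) : (H ⊔ K).lowerCentralSeries (c + d) = ⊥ := by
  rw [eq_bot_iff]
  refine le_trans (lcs_le_bound H K (c + d)) ?_
  unfold bound
  refine iSup_le fun a => iSup_le fun b => iSup_le fun hab => ?_
  by_cases h : c + 1 ≤ a
  · rw [shifted_eq_bot H c a hH h]; exact inf_le_left
  · rw [shifted_eq_bot K d b hK (by omega)]; exact inf_le_right

end Cfsg.Agent.S4204
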