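import Mathlib
import Cfsg.Statements.S4205

set_option autoImplicit false
open Cfsg

namespace Cfsg.Agent.S4205

theorem ucs_le_iterate {G : Type*} [Group G] (H : Subgroup G) (i : ℕ) :
    Subgroup.upperCentralSeries G i ≤ (fun K : Subgroup G => Subgroup.normalizer (K : Set G))^[i] H := by
  induction i with
  | zero => simp
  | succ i ih =>
    rw [Function.iterate_succ_apply']
    set K := (fun K : Subgroup G => Subgroup.normalizer (K : Set G))^[i] H with hK
    have key : ∀ z ∈ Subgroup.upperCentralSeries G (i + 1), ∀ k ∈ K, z * k * z⁻¹ ∈ K := by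
      intro z hz k hk
      rw [Subgroup.mem_upperCentralSeries_succ_iff] at hz
      have h1 : z * k * z⁻¹ * k⁻¹ ∈ K := ih (hz k)
      have h2 := K.mul_mem h1 hk
      simpa using h2
    intro z hz
    show z ∈ Subgroup.normalizer (K : Set G)
    rw [Subgroup.mem_normalizer_iff]
    intro k
    constructor
    · exact key z hz k
    · intro hk
      have := key z⁻¹ (Subgroup.inv_mem _ hz) _ hk
      simpa [mul_assoc] using this

theorem result {G : Type*} [Group G] [Finite G] (c : ℕ) (hG : Subgroup.upperCentralSeries G c = ⊤) (H : Subgroup G) : (fun K : Subgroup G => Subgroup.normalizer (K : Set G))^[c] H = ⊤ := by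
  have := ucs_le_iterate H c
  rw [hG] at this
  exact top_le_iff.1 this

end Cfsg.Agent.S4205
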