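import Mathlib
import Cfsg.Statements.S4207
import Cfsg.Agent.Helper22.AutGen

set_option autoImplicit false
open Cfsg

namespace Cfsg.Agent.S4207

theorem result {P : Type*} [Group P] [Finite P] {p n r : ℕ} [Fact p.Prime] (hP : Nat.card P = p ^ n) (hr : (frattini P).index = p ^ r) (A : Subgroup (MulAut P)) (hA : ∀ α ∈ A, ∀ x : P, α x * x⁻¹ ∈ frattini P) : Nat.card A ∣ p ^ (r * (n - r)) := by
  classical
  have hPp : IsPGroup p P := IsPGroup.of_card hP
  obtain ⟨T, hTcard, hTgen⟩ := Helper22.exists_gen_of_frattini_index hPp hr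
  have hΦ : Nat.card (frattini P) * p ^ r = p ^ n := by
    rw [← hr, ← hP]; exact Subgroup.card_mul_index _
  have hrn : r ≤ n := by
    have h1 : p ^ r ∣ p ^ n := Dvd.intro_left _ hΦ
    exact (Nat.pow_dvd_pow_iff_le_right (Fact.out : p.Prime).one_lt).1 h1
  have hΦ' : Nat.card (frattini P) = p ^ (n - r) := by
    have h1 : p ^ n = p ^ (n - r) * p ^ r := by rw [← pow_add, Nat.sub_add_cancel hrn]
    rw [h1] at hΦ
    exact Nat.eq_of_mul_eq_mul_right (pow_pos (Fact.out : p.Prime).pos r) hΦ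
  obtain ⟨X, hXdef⟩ : ∃ X : Set (T → P), X = {f | ∀ i : T, f i * (i : P)⁻¹ ∈ frattini P} :=
    ⟨_, rfl⟩
  have hmem : ∀ f : T → P, f ∈ X ↔ ∀ i : T, f i * (i : P)⁻¹ ∈ frattini P := by
    intro f; rw [hXdef]; rfl
  have hXA : ∀ α ∈ A, ∀ f ∈ X, (fun i => α (f i)) ∈ X := by
    intro α hα f hf
    rw [hmem] at hf ⊢
    intro i
    have e : α (f i) * (i : P)⁻¹ = (α (f i) * (f i)⁻¹) * (f i * (i : P)⁻¹) := by group
    rw [e]
    exact (frattini P).mul_mem (hA α hα (f i)) (hf i)
  have hXgen : ∀ f ∈ X, Subgroup.closure (Set.range f) = ⊤ := by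
    intro f hf
    rw [hmem] at hf
    apply frattini_nongenerating
    rw [eq_top_iff, ← hTgen, Subgroup.closure_le]
    intro t ht
    have ht' : t ∈ T := Finset.mem_coe.1 ht
    have h1 : f ⟨t, ht'⟩ ∈ Subgroup.closure (Set.range f) := Subgroup.subset_closure ⟨_, rfl⟩
    have h2 := hf ⟨t, ht'⟩
    have e : t = (f ⟨t, ht'⟩ * t⁻¹)⁻¹ * f ⟨t, ht'⟩ := by group
    rw [SetLike.mem_coe, e]
    exact Subgroup.mul_mem _ (Subgroup.mem_sup_right ((frattini P).inv_mem h2))
      (Subgroup.mem_sup_left h1)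
  have hdvd := Helper22.card_dvd_of_tuples A X hXA hXgen
  have hXcard : Nat.card X = Nat.card (frattini P) ^ T.card := by
    have e : X ≃ (T → frattini P) :=
      { toFun := fun f i => ⟨f.1 i * (i : P)⁻¹, (hmem f.1).1 f.2 i⟩
        invFun := fun φ => ⟨fun i => (φ i : P) * (i : P), (hmem _).2 (fun i => by
          rw [mul_inv_cancel_right]; exact (φ i).2)⟩
        left_inv := fun f => Subtype.ext (funext fun i => by simp)
        right_inv := fun φ => funext fun i => Subtype.ext (by simp) }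
    rw [Nat.card_congr e, Nat.card_fun, Nat.card_eq_finsetCard]
  rw [hXcard, hΦ', ← pow_mul] at hdvd
  exact dvd_trans hdvd (pow_dvd_pow p (by
    rw [mul_comm]; exact Nat.mul_le_mul_right _ hTcard))

end Cfsg.Agent.S4207
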