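import Mathlib
import Cfsg.Statements.S4208
import Cfsg.Agent.Helper22.AutGen
import Cfsg.Agent.Helper22.ElemAbCount
import Cfsg.Agent.Lead.PGroup

set_option autoImplicit false
open Cfsg

namespace Cfsg.Agent.S4208

theorem card_quot_tuples {P : Type*} [Group P] [Finite P] {p r : ℕ} [Fact p.Prime]
    (hPp : IsPGroup p P) (hr : (frattini P).index = p ^ r) :
    Nat.card {g : Fin r → P ⧸ frattini P // Subgroup.closure (Set.range g) = ⊤} =
      ∏ i ∈ Finset.range r, (p ^ r - p ^ i) := by
  have hcomm : IsMulCommutative (P ⧸ frattini P) :=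
    Subgroup.Normal.quotient_commutative_iff_commutator_le.2 (Lead.commutator_le_frattini hPp)
  letI inst : CommGroup (P ⧸ frattini P) :=
    { (inferInstance : Group (P ⧸ frattini P)) with
      mul_comm := fun a b => hcomm.is_comm.comm a b }
  have hexp : ∀ x : P ⧸ frattini P, x ^ p = 1 := by
    intro x
    induction x using QuotientGroup.induction_on
    rename_i y
    rw [← QuotientGroup.mk_pow, QuotientGroup.eq_one_iff]
    exact Lead.pow_mem_frattini hPp y
  have hcard : Nat.card (P ⧸ frattini P) = p ^ r := by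
    rw [← Subgroup.index_eq_card, hr]
  exact Helper22.card_gen_tuples hexp hcard

theorem result {P : Type*} [Group P] [Finite P] {p n r : ℕ} [Fact p.Prime] (hP : Nat.card P = p ^ n) (hr : (frattini P).index = p ^ r) : Nat.card (MulAut P) ∣ p ^ (r * (n - r)) * ∏ i ∈ Finset.range r, (p ^ r - p ^ i) := by
  classical
  have hPp : IsPGroup p P := IsPGroup.of_card hP
  have hΦ : Nat.card (frattini P) * p ^ r = p ^ n := by
    rw [← hr, ← hP]; exact Subgroup.card_mul_index _
  have hrn : r ≤ n := by
    have h1 : p ^ r ∣ p ^ n := Dvd.intro_left _ hΦ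
    exact (Nat.pow_dvd_pow_iff_le_right (Fact.out : p.Prime).one_lt).1 h1
  have hΦ' : Nat.card (frattini P) = p ^ (n - r) := by
    have h1 : p ^ n = p ^ (n - r) * p ^ r := by rw [← pow_add, Nat.sub_add_cancel hrn]
    rw [h1] at hΦ
    exact Nat.eq_of_mul_eq_mul_right (pow_pos (Fact.out : p.Prime).pos r) hΦ
  obtain ⟨Y, hYdef⟩ : ∃ Y : Set (Fin r → P), Y = {f | Subgroup.closure (Set.range f) = ⊤} :=
    ⟨_, rfl⟩
  have hY : ∀ f, f ∈ Y ↔ Subgroup.closure (Set.range f) = ⊤ := by
    intro f; rw [hYdef]; rfl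
  have hdvd := Helper22.card_dvd_of_tuples (⊤ : Subgroup (MulAut P)) Y (by
      intro α _ f hf
      rw [hY] at hf ⊢
      have h1 : Set.range (fun i => α (f i)) = α.toMonoidHom '' Set.range f := by
        rw [← Set.range_comp]; rfl
      rw [h1, ← MonoidHom.map_closure, hf, Subgroup.map_top_of_surjective _ α.surjective])
    (fun f hf => (hY f).1 hf)
  rw [Subgroup.card_top] at hdvd
  have hπ : ∀ x : P, ((QuotientGroup.mk x : P ⧸ frattini P).out)⁻¹ * x ∈ frattini P := by
    intro x
    rw [← QuotientGroup.eq, QuotientGroup.out_eq']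
  have hmkout : ∀ (q : P ⧸ frattini P) (φ : frattini P),
      (QuotientGroup.mk (q.out * (φ : P)) : P ⧸ frattini P) = q := by
    intro q φ
    rw [QuotientGroup.mk_mul, QuotientGroup.out_eq', (QuotientGroup.eq_one_iff (φ : P)).2 φ.2,
      mul_one]
  have hgen1 : ∀ f : Fin r → P, Subgroup.closure (Set.range f) = ⊤ →
      Subgroup.closure (Set.range (fun i => (QuotientGroup.mk (f i) : P ⧸ frattini P))) = ⊤ := by
    intro f hf
    have h1 : Set.range (fun i => (QuotientGroup.mk (f i) : P ⧸ frattini P)) =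
        (QuotientGroup.mk' (frattini P)) '' Set.range f := by
      rw [← Set.range_comp]; rfl
    rw [h1, ← MonoidHom.map_closure, hf,
      Subgroup.map_top_of_surjective _ (QuotientGroup.mk'_surjective _)]
  have hgen2 : ∀ f : Fin r → P,
      Subgroup.closure (Set.range (fun i => (QuotientGroup.mk (f i) : P ⧸ frattini P))) = ⊤ →
      Subgroup.closure (Set.range f) = ⊤ := by
    intro f hf
    apply Helper22.closure_eq_top_of_map_mk
    rw [MonoidHom.map_closure, ← hf]
    congr 1
    rw [← Set.range_comp]; rfl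
  have hYcard : Nat.card Y =
      Nat.card {g : Fin r → P ⧸ frattini P // Subgroup.closure (Set.range g) = ⊤} *
        Nat.card (frattini P) ^ r := by
    let e : Y ≃ {g : Fin r → P ⧸ frattini P // Subgroup.closure (Set.range g) = ⊤} ×
        (Fin r → frattini P) :=
      { toFun := fun f => (⟨fun i => QuotientGroup.mk (f.1 i), hgen1 f.1 ((hY f.1).1 f.2)⟩,
          fun i => ⟨((QuotientGroup.mk (f.1 i) : P ⧸ frattini P).out)⁻¹ * f.1 i, hπ (f.1 i)⟩)
        invFun := fun gφ => ⟨fun i => (gφ.1.1 i).out * (gφ.2 i : P), (hY _).2 (hgen2 _ (by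
          have h1 : (fun i => (QuotientGroup.mk ((gφ.1.1 i).out * (gφ.2 i : P)) :
              P ⧸ frattini P)) = gφ.1.1 := funext fun i => hmkout _ _
          rw [h1]; exact gφ.1.2))⟩
        left_inv := fun f => Subtype.ext (funext fun i => by
          show ((QuotientGroup.mk (f.1 i) : P ⧸ frattini P).out) *
            (((QuotientGroup.mk (f.1 i) : P ⧸ frattini P).out)⁻¹ * f.1 i) = f.1 i
          group)
        right_inv := fun gφ => by
          apply Prod.ext
          · apply Subtype.ext
            funext i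
            exact hmkout _ _
          · funext i
            apply Subtype.ext
            show ((QuotientGroup.mk ((gφ.1.1 i).out * (gφ.2 i : P)) : P ⧸ frattini P).out)⁻¹ *
              ((gφ.1.1 i).out * (gφ.2 i : P)) = (gφ.2 i : P)
            rw [hmkout]; group }
    rw [Nat.card_congr e, Nat.card_prod, Nat.card_fun, Nat.card_fin]
  rw [hYcard, card_quot_tuples hPp hr, hΦ', ← pow_mul] at hdvd
  have e2 : p ^ (r * (n - r)) * ∏ i ∈ Finset.range r, (p ^ r - p ^ i) =
      (∏ i ∈ Finset.range r, (p ^ r - p ^ i)) * p ^ ((n - r) * r) := by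
    rw [mul_comm (n - r) r, mul_comm]
  rw [e2]
  exact hdvd

end Cfsg.Agent.S4208
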