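import Cfsg.Statements.S4217
import Mathlib
import Cfsg.Agent.S0051

set_option autoImplicit false
open Cfsg

namespace Cfsg.Agent.S4217

theorem key {G : Type*} [Group G] [Finite G] (A : Subgroup G) [hAn : A.Normal]
    (hA : IsMulCommutative A) (q : ℕ) (hq : q.Prime)
    (hyp : q ∣ A.index → ∃ (S : Sylow q (G ⧸ A)) (K : Subgroup G), K ⊓ A = ⊥ ∧
      K ⊔ A = (S : Subgroup (G ⧸ A)).comap (QuotientGroup.mk' A)) :
    ∃ H : Subgroup G, H.index = q ^ (Nat.card A).factorization q ∧
      (Nat.card ↥(H ⊓ A)).Coprime q := by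
  classical
  have : Fact q.Prime := ⟨hq⟩
  obtain ⟨k, hk⟩ : ∃ k, k = (Nat.card A).factorization q := ⟨_, rfl⟩
  obtain ⟨m, hm⟩ : ∃ m, m = Nat.card A / q ^ (Nat.card A).factorization q := ⟨_, rfl⟩
  have hcardA : q ^ k * m = Nat.card A := by
    rw [hk, hm]; exact Nat.ordProj_mul_ordCompl_eq_self _ _
  have hmq : Nat.Coprime q m := by
    rw [hm]; exact Nat.coprime_ordCompl hq Nat.card_pos.ne'
  have hcomm : ∀ a b : G, a ∈ A → b ∈ A → a * b = b * a := by
    intro a b ha hb
    have := hA.is_comm.comm (⟨a, ha⟩ : A) ⟨b, hb⟩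
    exact congrArg Subtype.val this
  let B : Subgroup G :=
    { carrier := {a | a ∈ A ∧ a ^ m = 1}
      one_mem' := ⟨A.one_mem, one_pow m⟩
      mul_mem' := by
        rintro a b ⟨ha, ha'⟩ ⟨hb, hb'⟩
        refine ⟨A.mul_mem ha hb, ?_⟩
        have hc : Commute a b := hcomm a b ha hb
        rw [hc.mul_pow, ha', hb', one_mul]
      inv_mem' := by
        rintro a ⟨ha, ha'⟩
        exact ⟨A.inv_mem ha, by rw [inv_pow, ha', inv_one]⟩ }
  have hBA : B ≤ A := fun a ha => ha.1
  have hBn : B.Normal :=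
    ⟨fun a ha g => ⟨hAn.conj_mem a ha.1 g, by rw [conj_pow, ha.2, mul_one, mul_inv_cancel]⟩⟩
  have hBq : (Nat.card B).Coprime q := by
    rw [Nat.coprime_comm, Nat.Prime.coprime_iff_not_dvd hq]
    intro hdvd
    obtain ⟨b, hb⟩ := exists_prime_orderOf_dvd_card' q hdvd
    have hbm : b ^ m = 1 := Subtype.ext (by simpa using b.2.2)
    have : q ∣ m := hb ▸ orderOf_dvd_of_pow_eq_one hbm
    exact (Nat.Prime.coprime_iff_not_dvd hq).mp hmq this
  have hpowB : ∀ a ∈ A, a ^ (q ^ k) ∈ B := by
    intro a ha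
    refine ⟨A.pow_mem ha _, ?_⟩
    rw [← pow_mul, hcardA]
    have h1 : (⟨a, ha⟩ : A) ^ Nat.card A = 1 := pow_card_eq_one'
    have h2 := congrArg Subtype.val h1
    rwa [Subgroup.coe_pow, Subgroup.coe_one] at h2
  have hπ : Function.Surjective (QuotientGroup.mk' B) := QuotientGroup.mk'_surjective B
  have hAbn : (A.map (QuotientGroup.mk' B)).Normal := hAn.map _ hπ
  have := hA
  have hAbc : IsMulCommutative ↥(A.map (QuotientGroup.mk' B)) := Subgroup.map_isMulCommutative _ _
  have hAbp : IsPGroup q ↥(A.map (QuotientGroup.mk' B)) := by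
    rintro ⟨x, hx⟩
    obtain ⟨a, ha, rfl⟩ := Subgroup.mem_map.mp hx
    refine ⟨k, Subtype.ext ?_⟩
    show (QuotientGroup.mk' B a) ^ (q ^ k) = 1
    rw [← map_pow]
    exact (QuotientGroup.eq_one_iff _).mpr (hpowB a ha)
  obtain ⟨n, hn⟩ := hAbp.exists_card_eq
  have hAbidx : (A.map (QuotientGroup.mk' B)).index = A.index :=
    Subgroup.index_map_eq A hπ (by rw [QuotientGroup.ker_mk']; exact hBA)
  have hcards : Nat.card A = Nat.card B * Nat.card ↥(A.map (QuotientGroup.mk' B)) := by
    have h1 : Nat.card G = Nat.card (G ⧸ B) * Nat.card B :=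
      Subgroup.card_eq_card_quotient_mul_card_subgroup B
    have h2 : Nat.card ↥(A.map (QuotientGroup.mk' B)) * (A.map (QuotientGroup.mk' B)).index
        = Nat.card (G ⧸ B) := Subgroup.card_mul_index _
    have h3 : Nat.card A * A.index = Nat.card G := Subgroup.card_mul_index A
    have hpos : 0 < A.index := Nat.pos_of_ne_zero Subgroup.index_ne_zero_of_finite
    apply Nat.eq_of_mul_eq_mul_right hpos
    rw [h3, h1, ← h2, hAbidx]; ring
  have hnk : n = k := by
    rw [hk, hcards, hn, Nat.factorization_mul (Nat.card_pos.ne') (pow_ne_zero _ hq.ne_zero),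
      Nat.Prime.factorization_pow hq]
    simp [Nat.factorization_eq_zero_of_not_dvd ((Nat.Prime.coprime_iff_not_dvd hq).mp hBq.symm)]
  have hex : ∃ Hb : Subgroup (G ⧸ B),
      Subgroup.IsComplement' (A.map (QuotientGroup.mk' B)) Hb := by
    by_cases hdiv : q ∣ A.index
    · obtain ⟨S, K, hKA, hKS⟩ := hyp hdiv
      refine Cfsg.Agent.S0051.result (A.map (QuotientGroup.mk' B))
        ((K ⊔ A).map (QuotientGroup.mk' B)) (Subgroup.map_mono le_sup_right) ?_
        (K.map (QuotientGroup.mk' B)) (Subgroup.map_mono le_sup_left) ?_ ?_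
      · rw [hn]
        apply Nat.Coprime.pow_left
        rw [Nat.Prime.coprime_iff_not_dvd hq]
        have hidx : ((K ⊔ A).map (QuotientGroup.mk' B)).index = (K ⊔ A).index :=
          Subgroup.index_map_eq _ hπ (by rw [QuotientGroup.ker_mk']; exact hBA.trans le_sup_right)
        rw [hidx, hKS, Subgroup.index_comap_of_surjective _ (QuotientGroup.mk'_surjective A)]
        exact S.not_dvd_index
      · rw [eq_bot_iff]
        rintro x ⟨⟨k', hk', rfl⟩, ⟨a, ha, hax⟩⟩
        have h1 : a⁻¹ * k' ∈ B := QuotientGroup.eq.mp hax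
        have hk'A : k' ∈ A := by
          have := A.mul_mem ha (hBA h1)
          simpa using this
        have h2 : k' ∈ K ⊓ A := ⟨hk', hk'A⟩
        rw [hKA, Subgroup.mem_bot] at h2
        rw [Subgroup.mem_bot, h2, map_one]
      · rw [Subgroup.map_sup, sup_comm]
    · refine Cfsg.Agent.S0051.result (A.map (QuotientGroup.mk' B))
        (A.map (QuotientGroup.mk' B)) le_rfl ?_ ⊥ bot_le (bot_inf_eq _) (sup_bot_eq _)
      rw [hn, hAbidx]
      exact Nat.Coprime.pow_left _ ((Nat.Prime.coprime_iff_not_dvd hq).mpr hdiv)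
  obtain ⟨Hb, hHb⟩ := hex
  refine ⟨Hb.comap (QuotientGroup.mk' B), ?_, ?_⟩
  · rw [Subgroup.index_comap_of_surjective _ hπ, hHb.index_eq_card, hn, hnk, hk]
  · have hle : Hb.comap (QuotientGroup.mk' B) ⊓ A ≤ B := by
      rintro x ⟨hx1, hx2⟩
      have h1 : QuotientGroup.mk' B x ∈ A.map (QuotientGroup.mk' B) ⊓ Hb :=
        ⟨Subgroup.mem_map_of_mem _ hx2, hx1⟩
      rw [hHb.disjoint.eq_bot] at h1
      exact (QuotientGroup.eq_one_iff x).mp (Subgroup.mem_bot.mp h1)
    exact Nat.Coprime.coprime_dvd_left (Subgroup.card_dvd_of_le hle) hBq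


/-- Let `A` be an abelian normal subgroup of the finite group `G`. Then `A` has a complement in `G` if and only if, for every prime `p` dividing the index of `A`, there are a Sylow `p`-subgroup `S` of `G/A` and a subgroup `K` of `G` with `K ∩ A = 1` and `KA` equal to the preimage of `S` (that is, `A` has a complement in the preimage of a Sylow `p`-subgroup of `G/A`). -/
theorem result {G : Type*} [Group G] [Finite G] (A : Subgroup G) [A.Normal] (hA : IsMulCommutative A) : (∃ K : Subgroup G, K.IsComplement' A) ↔ ∀ p : ℕ, p.Prime → p ∣ A.index → ∃ (S : Sylow p (G ⧸ A)) (K : Subgroup G), K ⊓ A = ⊥ ∧ K ⊔ A = (S : Subgroup (G ⧸ A)).comap (QuotientGroup.mk' A) := by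
  classical
  constructor
  · rintro ⟨K, hK⟩ p hp hdvd
    have : Fact p.Prime := ⟨hp⟩
    obtain ⟨S⟩ : Nonempty (Sylow p (G ⧸ A)) := inferInstance
    refine ⟨S, K ⊓ (S : Subgroup (G ⧸ A)).comap (QuotientGroup.mk' A), ?_, ?_⟩
    · rw [inf_right_comm, hK.disjoint.eq_bot, bot_inf_eq]
    · apply le_antisymm
      · refine sup_le inf_le_right ?_
        intro a ha
        rw [Subgroup.mem_comap]
        have h1 : QuotientGroup.mk' A a = 1 := (QuotientGroup.eq_one_iff a).mpr ha
        rw [h1]; exact Subgroup.one_mem _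
      · intro x hx
        obtain ⟨⟨k, a⟩, hka⟩ := hK.2 x
        have hka' : (k : G) * (a : G) = x := hka
        have h1 : QuotientGroup.mk' A (k : G) = QuotientGroup.mk' A x := by
          rw [← hka', map_mul]
          have h2 : QuotientGroup.mk' A (a : G) = 1 := (QuotientGroup.eq_one_iff (a : G)).mpr a.2
          rw [h2, mul_one]
        have hkS : (k : G) ∈ (S : Subgroup (G ⧸ A)).comap (QuotientGroup.mk' A) := by
          rw [Subgroup.mem_comap, h1]; exact hx
        rw [← hka']
        exact Subgroup.mul_mem_sup (Subgroup.mem_inf.mpr ⟨k.2, hkS⟩) a.2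
  · intro h
    have key' : ∀ q : ℕ, q.Prime → ∃ H : Subgroup G,
        H.index = q ^ (Nat.card A).factorization q ∧ (Nat.card ↥(H ⊓ A)).Coprime q :=
      fun q hq => key A hA q hq (h q hq)
    choose! f hf using key'
    have hidx : ∀ s : Finset ℕ, (∀ q ∈ s, q.Prime) →
        (s.inf f).index ≤ ∏ q ∈ s, q ^ (Nat.card A).factorization q := by
      intro s
      induction s using Finset.induction_on with
      | empty => intro _; simp
      | insert a s has ih =>
        intro hs
        rw [Finset.inf_insert, Finset.prod_insert has]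
        calc (f a ⊓ s.inf f).index ≤ (f a).index * (s.inf f).index := Subgroup.index_inf_le
          _ ≤ _ := by
            rw [(hf a (hs a (Finset.mem_insert_self a s))).1]
            exact Nat.mul_le_mul_left _ (ih (fun q hq => hs q (Finset.mem_insert_of_mem hq)))
    obtain ⟨H, hH⟩ : ∃ H, H = (Nat.card A).primeFactors.inf f := ⟨_, rfl⟩
    have hHidx : H.index ≤ Nat.card A := by
      have h1 := hidx (Nat.card A).primeFactors (fun q hq => Nat.prime_of_mem_primeFactors hq)
      have h2 := Nat.prod_factorization_pow_eq_self (Nat.card_pos (α := A)).ne'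
      rw [Nat.prod_factorization_eq_prod_primeFactors] at h2
      rw [h2] at h1
      rw [hH]; exact h1
    have hHA : H ⊓ A = ⊥ := by
      rw [← Subgroup.card_eq_one]
      by_contra hne
      obtain ⟨r, hr, hrd⟩ := Nat.exists_prime_and_dvd hne
      have hrA : r ∣ Nat.card A := hrd.trans (Subgroup.card_dvd_of_le inf_le_right)
      have hrP : r ∈ (Nat.card A).primeFactors :=
        Nat.mem_primeFactors.mpr ⟨hr, hrA, Nat.card_pos.ne'⟩
      have hle : H ⊓ A ≤ f r ⊓ A := by
        rw [hH]; exact inf_le_inf_right A (Finset.inf_le hrP)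
      have hr2 : r ∣ Nat.card ↥(f r ⊓ A) := hrd.trans (Subgroup.card_dvd_of_le hle)
      exact (Nat.Prime.coprime_iff_not_dvd hr).mp (hf r hr).2.symm hr2
    refine ⟨H, Subgroup.isComplement'_of_card_mul_and_disjoint ?_ (disjoint_iff.mpr hHA)⟩
    apply le_antisymm
    · have hinj := Subgroup.mul_injective_of_disjoint (disjoint_iff.mpr hHA)
      have h1 := Nat.card_le_card_of_injective _ hinj
      rwa [Nat.card_prod] at h1
    · calc Nat.card G = Nat.card H * H.index := (Subgroup.card_mul_index H).symm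
        _ ≤ Nat.card H * Nat.card A := Nat.mul_le_mul_left _ hHidx

end Cfsg.Agent.S4217
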