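import Mathlib
import Cfsg.Statements.S4219

set_option autoImplicit false
open Cfsg

namespace Cfsg.Agent.S4219

theorem mem_normalizer_of_conj_le {G : Type*} [Group G] [Finite G] (Q : Subgroup G) (n : G)
    (h : ∀ q ∈ Q, n * q * n⁻¹ ∈ Q) : n ∈ Subgroup.normalizer (Q : Set G) := by
  rw [Subgroup.mem_normalizer_iff_map_conj_eq]
  apply Subgroup.eq_of_le_of_card_ge
  · rintro _ ⟨q, hq, rfl⟩
    exact h q hq
  · rw [Subgroup.card_map_of_injective (MulEquiv.injective (MulAut.conj n))]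

theorem witt {G : Type*} [Group G] [Finite G] {α : Type*} [MulAction G α] {t : ℕ}
    (hG : MulAction.IsMultiplyPretransitive G α t) (x : Fin t ↪ α) {p : ℕ} [Fact p.Prime]
    (K : Subgroup G) (hK : ∀ k : G, k ∈ K ↔ k • x = x)
    (P : Sylow p K) (a : Fin t ↪ α)
    (ha : ∀ i, a i ∈ MulAction.fixedPoints ((P : Subgroup K).map K.subtype) α) :
    ∃ n ∈ Subgroup.normalizer ((((P : Subgroup K).map K.subtype) : Subgroup G) : Set G), n • x = a := by
  have hQp : IsPGroup p ((P : Subgroup K).map K.subtype) := P.isPGroup'.map _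
  obtain ⟨g, hg⟩ := MulAction.exists_smul_eq G x a
  have hQa : ∀ q ∈ (P : Subgroup K).map K.subtype, q • a = a := by
    intro q hq
    ext i
    have := ha i
    rw [MulAction.mem_fixedPoints] at this
    exact this ⟨q, hq⟩
  have hconj : ∀ q ∈ (P : Subgroup K).map K.subtype, g⁻¹ * q * g ∈ K := by
    intro q hq
    rw [hK, mul_smul, mul_smul, hg, hQa q hq, ← hg, inv_smul_smul]
  let R : Subgroup K := (((P : Subgroup K).map K.subtype).map (MulAut.conj g⁻¹).toMonoidHom).comap K.subtype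
  have hR : IsPGroup p R := (hQp.map _).comap_subtype
  obtain ⟨S, hRS⟩ := hR.exists_le_sylow
  obtain ⟨h, hh⟩ := MulAction.exists_smul_eq K P S
  refine ⟨g * (h : G), ?_, ?_⟩
  · have hn : (g * (h : G))⁻¹ ∈ Subgroup.normalizer ((((P : Subgroup K).map K.subtype) : Subgroup G) : Set G) := by
      apply mem_normalizer_of_conj_le
      intro q hq
      have h1 : (⟨g⁻¹ * q * g, hconj q hq⟩ : K) ∈ R := by
        show g⁻¹ * q * g ∈ ((P : Subgroup K).map K.subtype).map (MulAut.conj g⁻¹).toMonoidHom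
        exact ⟨q, hq, by simp⟩
      have h2 := hRS h1
      rw [← hh, Sylow.coe_subgroup_smul, Subgroup.mem_pointwise_smul_iff_inv_smul_mem] at h2
      have h3 : ((MulAut.conj h)⁻¹ • (⟨g⁻¹ * q * g, hconj q hq⟩ : K) : K) =
          h⁻¹ * (⟨g⁻¹ * q * g, hconj q hq⟩ : K) * h := by
        simp [MulAut.smul_def]
      rw [h3] at h2
      have h4 : ((h⁻¹ * (⟨g⁻¹ * q * g, hconj q hq⟩ : K) * h : K) : G) ∈ (P : Subgroup K).map K.subtype :=
        ⟨_, h2, rfl⟩
      have h5 : (g * (h : G))⁻¹ * q * (g * (h : G))⁻¹⁻¹ =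
          ((h⁻¹ * (⟨g⁻¹ * q * g, hconj q hq⟩ : K) * h : K) : G) := by
        simp only [Subgroup.coe_mul, Subgroup.coe_inv]
        group
      rw [h5]; exact h4
    have := Subgroup.inv_mem _ hn
    rwa [inv_inv] at this
  · rw [mul_smul]
    have : (h : G) • x = x := (hK _).1 h.2
    rw [this, hg]

theorem result {G : Type*} [Group G] [Finite G] {α : Type*} [Fintype α] [MulAction G α] {t : ℕ} (hG : MulAction.IsMultiplyPretransitive G α t) (x : Fin t ↪ α) {p : ℕ} [Fact p.Prime] (P : Sylow p (MulAction.stabilizer G x)) (a b : Fin t ↪ α) (ha : ∀ i, a i ∈ MulAction.fixedPoints ((P : Subgroup (MulAction.stabilizer G x)).map (MulAction.stabilizer G x).subtype) α) (hb : ∀ i, b i ∈ MulAction.fixedPoints ((P : Subgroup (MulAction.stabilizer G x)).map (MulAction.stabilizer G x).subtype) α) : ∃ g ∈ Subgroup.normalizer ((((P : Subgroup (MulAction.stabilizer G x)).map (MulAction.stabilizer G x).subtype) : Subgroup G) : Set G), g • a = b := by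
  obtain ⟨na, hna, hxa⟩ := witt hG x (MulAction.stabilizer G x) (fun k => MulAction.mem_stabilizer_iff) P a ha
  obtain ⟨nb, hnb, hxb⟩ := witt hG x (MulAction.stabilizer G x) (fun k => MulAction.mem_stabilizer_iff) P b hb
  refine ⟨nb * na⁻¹, Subgroup.mul_mem _ hnb (Subgroup.inv_mem _ hna), ?_⟩
  rw [mul_smul, ← hxa, inv_smul_smul, hxb]

end Cfsg.Agent.S4219
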