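import Mathlib
import Cfsg.Statements.S4222

set_option autoImplicit false
open Cfsg

namespace Cfsg.Agent.S4222

open scoped Pointwise in
theorem result {T : Type*} [Group T] [Finite T] (N : Subgroup T) [N.Normal] (hz : Subgroup.center ↥N = ⊥) (ha : Function.Surjective (MulAut.conj : ↥N →* MulAut ↥N)) : (Subgroup.centralizer (N : Set T)).IsComplement' N := by
  apply Subgroup.isComplement'_of_disjoint_and_mul_eq_univ
  · rw [Subgroup.disjoint_def]
    intro x hxc hxN
    have hcen : (⟨x, hxN⟩ : N) ∈ Subgroup.center ↥N := by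
      rw [Subgroup.mem_center_iff]
      rintro ⟨m, hm⟩
      apply Subtype.ext
      rw [Subgroup.mem_centralizer_iff] at hxc
      exact hxc m hm
    rw [hz, Subgroup.mem_bot] at hcen
    exact congrArg Subtype.val hcen
  · rw [Set.eq_univ_iff_forall]
    intro t
    obtain ⟨n, hn⟩ := ha (MulAut.conjNormal t)
    have key : ∀ m : T, m ∈ N → (n : T) * m * (n : T)⁻¹ = t * m * t⁻¹ := by
      intro m hm
      have := congrArg (fun f : MulAut ↥N => ((f ⟨m, hm⟩ : N) : T)) hn
      simpa using this
    refine ⟨t * (n : T)⁻¹, ?_, (n : T), n.2, by group⟩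
    rw [SetLike.mem_coe, Subgroup.mem_centralizer_iff]
    intro m hm
    have hm' : (n : T)⁻¹ * m * (n : T) ∈ N := by
      exact N.mul_mem (N.mul_mem (N.inv_mem n.2) hm) n.2
    have := key _ hm'
    have h2 : t * ((n : T)⁻¹ * m * (n : T)) * t⁻¹ = m := by
      rw [← this]; group
    calc m * (t * (n : T)⁻¹) = (t * ((n : T)⁻¹ * m * (n : T)) * t⁻¹) * (t * (n : T)⁻¹) := by rw [h2]
      _ = t * (n : T)⁻¹ * m := by group

end Cfsg.Agent.S4222
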