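import Cfsg.Statements.S4224
import Cfsg.Agent.Helper29.Regular

set_option autoImplicit false
open Cfsg

namespace Cfsg.Agent.S4224

/-- In a regular `p`-group, for all elements `a`, `b` and every power `q = p^k`: `a^q` commutes with `b` if and only if the commutator `a⁻¹b⁻¹ab` has `q`-th power equal to `1`. -/
theorem result {G : Type*} [Group G] [Finite G] {p : ℕ} [Fact p.Prime] (hG : Cfsg.IsRegularPGroup p G) (a b : G) (k : ℕ) : a ^ p ^ k * b = b * a ^ p ^ k ↔ (a⁻¹ * b⁻¹ * a * b) ^ p ^ k = 1 := by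
  classical
have h := Cfsg.Agent.Helper29.reg_pow_eq_iff hG k (b⁻¹ * a * b) a
have h1 : (b⁻¹ * a * b) ^ p ^ k = b⁻¹ * a ^ p ^ k * b := by
  have := conj_pow (a := b⁻¹) (b := a) (i := p ^ k)
  simpa using this
have h2 : (a⁻¹ * b⁻¹ * a * b) ^ p ^ k = a⁻¹ * (b⁻¹ * a * b * a⁻¹) ^ p ^ k * a := by
  have := conj_pow (a := a⁻¹) (b := b⁻¹ * a * b * a⁻¹) (i := p ^ k)
  rw [inv_inv] at this
  rw [← this]
  congr 1
  group
have h6 : (a⁻¹ * b⁻¹ * a * b) ^ p ^ k = 1 ↔ (b⁻¹ * a * b * a⁻¹) ^ p ^ k = 1 := by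
  rw [h2]
  constructor
  · intro hc
    have h4 : a * (a⁻¹ * (b⁻¹ * a * b * a⁻¹) ^ p ^ k * a) * a⁻¹ = a * 1 * a⁻¹ := by rw [hc]
    rw [mul_one, mul_inv_cancel] at h4
    rw [← h4]
    group
  · intro hc
    rw [hc]
    simp
rw [h6, ← h, h1]
constructor
· intro hc
  rw [mul_assoc, hc, inv_mul_cancel_left]
· intro hc
  calc a ^ p ^ k * b = b * (b⁻¹ * a ^ p ^ k * b) := by group
    _ = b * a ^ p ^ k := by rw [hc]

end Cfsg.Agent.S4224
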