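import Cfsg.Statements.S4225
import Cfsg.Agent.Helper29.Regular

set_option autoImplicit false
open Cfsg

namespace Cfsg.Agent.S4225

/-- In a regular `p`-group, for every `k` the elements whose `p^k`-th power is `1` form a characteristic subgroup. -/
theorem result {G : Type*} [Group G] [Finite G] {p : ℕ} [Fact p.Prime] (hG : Cfsg.IsRegularPGroup p G) (k : ℕ) : ∃ H : Subgroup G, H.Characteristic ∧ (H : Set G) = {x : G | x ^ p ^ k = 1} := by
  classical
let H : Subgroup G :=
  { carrier := {x : G | x ^ p ^ k = 1}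
    mul_mem' := fun {x y} hx hy => Cfsg.Agent.Helper29.reg_mul_pow_eq_one hG k x y hx hy
    one_mem' := one_pow _
    inv_mem' := fun {x} hx => by
      show x⁻¹ ^ p ^ k = 1
      rw [inv_pow, (hx : x ^ p ^ k = 1), inv_one] }
refine ⟨H, ?_, rfl⟩
rw [Subgroup.characteristic_iff_le_comap]
intro ϕ x hx
show (ϕ x) ^ p ^ k = 1
rw [← map_pow, (hx : x ^ p ^ k = 1), map_one]

end Cfsg.Agent.S4225
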