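import Mathlib
import Cfsg.Statements.S4275

set_option autoImplicit false
open Cfsg

namespace Cfsg.Agent.S4275

theorem result {Ω : Type*} [Fintype Ω] (G : Subgroup (Equiv.Perm Ω)) (htr : MulAction.IsPretransitive G Ω) (o : Ω) (α : G ≃* G) : (∃ σ : Equiv.Perm Ω, σ ∈ Subgroup.normalizer (G : Set (Equiv.Perm Ω)) ∧ ∀ g : G, ((α g : G) : Equiv.Perm Ω) = σ * (g : Equiv.Perm Ω) * σ⁻¹) ↔ ∃ ω : Ω, ∀ g ∈ (MulAction.stabilizer G o).map α.toMonoidHom, g • ω = ω := by
  constructor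
  · rintro ⟨σ, -, hσ⟩
    refine ⟨σ o, ?_⟩
    rintro _ ⟨h, hh, rfl⟩
    have hh' : (h : Equiv.Perm Ω) o = o := hh
    show ((α h : G) : Equiv.Perm Ω) (σ o) = σ o
    rw [hσ h]
    simp [hh']
  · rintro ⟨ω, hω⟩
    choose k hk using fun x : Ω => MulAction.exists_smul_eq G o x
    let σ₀ : Ω → Ω := fun x => α (k x) • ω
    have key : ∀ g : G, σ₀ (g • o) = α g • ω := by
      intro g
      have h1 : g⁻¹ * k (g • o) ∈ MulAction.stabilizer G o := by
        rw [MulAction.mem_stabilizer_iff, mul_smul, hk, inv_smul_smul]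
      have h2 := hω (α (g⁻¹ * k (g • o))) ⟨_, h1, rfl⟩
      rw [map_mul, map_inv, mul_smul, inv_smul_eq_iff] at h2
      exact h2
    have equi : ∀ (h : G) (x : Ω), σ₀ (h • x) = α h • σ₀ x := by
      intro h x
      have hx : x = k x • o := (hk x).symm
      rw [hx, ← mul_smul, key, key, map_mul, mul_smul]
    have hsurj : Function.Surjective σ₀ := by
      intro y
      obtain ⟨k', hk'⟩ := MulAction.exists_smul_eq G ω y
      obtain ⟨g, rfl⟩ := α.surjective k'
      exact ⟨g • o, by rw [key, hk']⟩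
    have hbij : Function.Bijective σ₀ := ⟨Finite.injective_iff_surjective.2 hsurj, hsurj⟩
    let σ : Equiv.Perm Ω := Equiv.ofBijective σ₀ hbij
    have hσ : ∀ g : G, ((α g : G) : Equiv.Perm Ω) = σ * (g : Equiv.Perm Ω) * σ⁻¹ := by
      intro g
      ext x
      have := equi g (σ⁻¹ x)
      show ((α g : G) : Equiv.Perm Ω) x = σ ((g : Equiv.Perm Ω) (σ⁻¹ x))
      have e1 : σ ((g : Equiv.Perm Ω) (σ⁻¹ x)) = σ₀ (g • (σ⁻¹ x)) := rfl
      rw [e1, this]
      have e2 : σ₀ (σ⁻¹ x) = x := by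
        show σ (σ⁻¹ x) = x
        simp
      rw [e2]
      rfl
    refine ⟨σ, ?_, hσ⟩
    rw [Subgroup.mem_normalizer_iff]
    intro τ
    constructor
    · intro hτ
      have := hσ ⟨τ, hτ⟩
      simp only at this
      rw [← this]
      exact (α ⟨τ, hτ⟩).2
    · intro hτ
      obtain ⟨g, hg⟩ := α.surjective ⟨σ * τ * σ⁻¹, hτ⟩
      have h1 := hσ g
      rw [hg] at h1
      simp only at h1
      have h2 : τ = (g : Equiv.Perm Ω) := by
        have := congrArg (fun z => σ⁻¹ * z * σ) h1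
        have e3 : σ⁻¹ * (σ * τ * σ⁻¹) * σ = τ := by group
        have e4 : σ⁻¹ * (σ * (g : Equiv.Perm Ω) * σ⁻¹) * σ = (g : Equiv.Perm Ω) := by group
        exact e3.symm.trans (this.trans e4)
      rw [h2]
      exact g.2

end Cfsg.Agent.S4275
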