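import Mathlib
import Cfsg.Statements.S4296
import Cfsg.Agent.Helper1.FrobConj
import Cfsg.Agent.Helper1.Quat

set_option autoImplicit false
open Cfsg

namespace Cfsg.Agent.S4296

universe u

/-- Restriction of an additive endomorphism to an invariant subgroup. -/
def resEnd {V : Type u} [AddCommGroup V] (U : AddSubgroup V) (A : V →+ V)
    (h : ∀ u ∈ U, A u ∈ U) : U →+ U :=
  (A.comp U.subtype).codRestrict U (fun u => h u u.2)

/-- A finite abelian group of odd prime exponent with a "quaternion action" has square order. -/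
theorem sq_of_exponent (W : Type u) [AddCommGroup W] [Finite W] (q : ℕ) [hq : Fact q.Prime]
    (hq2 : q ≠ 2) (hW : ∀ w : W, q • w = 0) (A B : W →+ W)
    (hA : ∀ w, A (A w) = -w) (hB : ∀ w, B (B w) = -w) (hBA : ∀ w, B (A w) = -(A (B w))) :
    IsSquare (Nat.card W) := by
  obtain ⟨s, t, k, -, -, hk⟩ := Int.exists_sq_add_sq_add_one_eq_mul q
  have hWz : ∀ w : W, (q : ℤ) • w = 0 := fun w => by rw [natCast_zsmul]; exact hW w
  let ν : W →+ W :=
    { toFun := fun w => (s : ℤ) • A w + (t : ℤ) • B w + A (B w)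
      map_zero' := by simp
      map_add' := fun a b => by simp only [map_add, smul_add]; abel }
  have hν : ∀ w, ν w = (s : ℤ) • A w + (t : ℤ) • B w + A (B w) := fun w => rfl
  have key1 : ∀ w, ν (ν w) = -(((s : ℤ) ^ 2 + (t : ℤ) ^ 2 + 1) • w) := by
    intro w
    rw [hν (ν w), hν w]
    simp only [map_add, map_zsmul, hA, hB, hBA, map_neg, neg_neg]
    module
  have key2 : ∀ w, A (B (ν w)) + ν (A (B w)) = -((2 : ℤ) • w) := by
    intro w
    rw [hν (A (B w)), hν w]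
    simp only [map_add, map_zsmul, hA, hB, hBA, map_neg, neg_neg]
    module
  have hν2 : ∀ w, ν (ν w) = 0 := by
    intro w
    have h1 : ((s : ℤ) ^ 2 + (t : ℤ) ^ 2 + 1) = (k : ℤ) * (q : ℤ) := by exact_mod_cast hk
    rw [key1 w, h1, mul_smul, hWz, smul_zero, neg_zero]
  have hle1 : ν.range ≤ ν.ker := by
    rintro _ ⟨w, rfl⟩
    exact AddMonoidHom.mem_ker.mpr (hν2 w)
  have hle2 : ν.ker ≤ ν.range := by
    intro w hw
    have hw0 : ν w = 0 := AddMonoidHom.mem_ker.mp hw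
    have h2 := key2 w
    rw [hw0, map_zero, map_zero, zero_add] at h2
    obtain ⟨j, hj⟩ := hq.1.eq_two_or_odd'.resolve_left hq2
    have hqz : (q : ℤ) = 2 * (j : ℤ) + 1 := by exact_mod_cast hj
    have h5 := hWz w
    rw [hqz] at h5
    refine ⟨(j : ℤ) • A (B w), ?_⟩
    rw [map_zsmul, h2]
    have h6 : w - (j : ℤ) • -((2 : ℤ) • w) = ((2 : ℤ) * j + 1) • w := by module
    exact (sub_eq_zero.mp (h6.trans h5)).symm
  have hker : ν.ker = ν.range := le_antisymm hle2 hle1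
  have hc1 := AddSubgroup.card_eq_card_quotient_mul_card_addSubgroup ν.ker
  have hc2 : Nat.card (W ⧸ ν.ker) = Nat.card ν.range :=
    Nat.card_congr (QuotientAddGroup.quotientKerEquivRange ν).toEquiv
  rw [hc2] at hc1
  rw [hker] at hc1
  exact ⟨Nat.card ν.range, hc1⟩

/-- A finite abelian group of odd order with endomorphisms `A`, `B` such that
`A² = B² = -1`, `BA = -AB` has square order. -/
theorem sq_of_quat_action : ∀ (n : ℕ) (V : Type u) [AddCommGroup V] [Finite V] (A B : V →+ V),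
    Nat.card V = n → Odd n → (∀ v, A (A v) = -v) → (∀ v, B (B v) = -v) →
    (∀ v, B (A v) = -(A (B v))) → IsSquare n := by
  intro n
  induction n using Nat.strong_induction_on with
  | _ n ih =>
  intro V _ _ A B hn hodd hA hB hBA
  by_cases h1 : n = 1
  · subst h1; exact ⟨1, rfl⟩
  obtain ⟨q, hq, hqn⟩ := Nat.exists_prime_and_dvd h1
  have : Fact q.Prime := ⟨hq⟩
  have hq2 : q ≠ 2 := by
    intro h2
    rw [h2] at hqn
    exact (Nat.not_even_iff_odd.mpr hodd) (even_iff_two_dvd.mpr hqn)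
  let μ : V →+ V :=
    { toFun := fun v => q • v
      map_zero' := nsmul_zero q
      map_add' := fun a b => nsmul_add a b q }
  have hμ : ∀ v, μ v = q • v := fun v => rfl
  have hAμ : ∀ v, A (μ v) = μ (A v) := fun v => by rw [hμ, hμ, map_nsmul]
  have hBμ : ∀ v, B (μ v) = μ (B v) := fun v => by rw [hμ, hμ, map_nsmul]
  have hAker : ∀ u ∈ μ.ker, A u ∈ μ.ker := by
    intro u hu
    rw [AddMonoidHom.mem_ker] at hu ⊢
    rw [← hAμ, hu, map_zero]
  have hBker : ∀ u ∈ μ.ker, B u ∈ μ.ker := by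
    intro u hu
    rw [AddMonoidHom.mem_ker] at hu ⊢
    rw [← hBμ, hu, map_zero]
  have hArange : ∀ u ∈ μ.range, A u ∈ μ.range := by
    rintro _ ⟨v, rfl⟩
    exact ⟨A v, (hAμ v).symm⟩
  have hBrange : ∀ u ∈ μ.range, B u ∈ μ.range := by
    rintro _ ⟨v, rfl⟩
    exact ⟨B v, (hBμ v).symm⟩
  have hc1 := AddSubgroup.card_eq_card_quotient_mul_card_addSubgroup μ.ker
  have hc2 : Nat.card (V ⧸ μ.ker) = Nat.card μ.range :=
    Nat.card_congr (QuotientAddGroup.quotientKerEquivRange μ).toEquiv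
  rw [hc2, hn] at hc1
  obtain ⟨x, hx⟩ := exists_prime_addOrderOf_dvd_card' (G := V) q (by rw [hn]; exact hqn)
  have hxker : x ∈ μ.ker := by
    rw [AddMonoidHom.mem_ker, hμ, ← hx]; exact addOrderOf_nsmul_eq_zero x
  have hx0 : x ≠ 0 := by
    intro h; rw [h, addOrderOf_zero] at hx; exact hq.one_lt.ne hx
  have hker1 : 1 < Nat.card μ.ker := by
    have : Nontrivial ↥μ.ker := ⟨⟨⟨x, hxker⟩, 0, fun h => hx0 (Subtype.ext_iff.mp h)⟩⟩
    exact Finite.one_lt_card
  have hrpos : 0 < Nat.card μ.range := Nat.card_pos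
  have hrlt : Nat.card μ.range < n := by
    rw [hc1]; exact lt_mul_of_one_lt_right hrpos hker1
  have hrodd : Odd (Nat.card μ.range) := by
    rw [hc1] at hodd; exact (Nat.odd_mul.mp hodd).1
  have hS1 : IsSquare (Nat.card μ.range) :=
    ih _ hrlt ↥μ.range (resEnd μ.range A hArange) (resEnd μ.range B hBrange) rfl hrodd
      (fun v => Subtype.ext (hA v)) (fun v => Subtype.ext (hB v)) (fun v => Subtype.ext (hBA v))
  have hS2 : IsSquare (Nat.card μ.ker) :=
    sq_of_exponent ↥μ.ker q hq2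
      (fun w => by
        apply Subtype.ext
        change q • (w : V) = 0
        exact AddMonoidHom.mem_ker.mp w.2)
      (resEnd μ.ker A hAker) (resEnd μ.ker B hBker)
      (fun v => Subtype.ext (hA v)) (fun v => Subtype.ext (hB v)) (fun v => Subtype.ext (hBA v))
  rw [hc1]; exact hS1.mul hS2

/-- Multiplicative form. -/
theorem sq_mul {V : Type u} [Group V] [Finite V] (hcomm : ∀ a b : V, a * b = b * a)
    (hodd : Odd (Nat.card V)) (f g : V →* V) (hf : ∀ v, f (f v) = v⁻¹) (hg : ∀ v, g (g v) = v⁻¹)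
    (hgf : ∀ v, g (f v) = (f (g v))⁻¹) : IsSquare (Nat.card V) := by
  let _ : CommGroup V := { (inferInstance : Group V) with mul_comm := hcomm }
  exact sq_of_quat_action (Nat.card V) (Additive V) (MonoidHom.toAdditive f)
    (MonoidHom.toAdditive g) rfl hodd (fun v => hf (Additive.toMul v))
    (fun v => hg (Additive.toMul v)) (fun v => hgf (Additive.toMul v))

theorem conj_inv_aux {G : Type u} [Group G] (z y : G) (hz : z * z = 1) :
    z * (y⁻¹ * (z * y * z⁻¹)) * z⁻¹ = (y⁻¹ * (z * y * z⁻¹))⁻¹ := by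
  have hzi : z⁻¹ = z := inv_eq_of_mul_eq_one_left hz
  have e : z * (y⁻¹ * (z * y * z)) * z = z * y⁻¹ * z * y * (z * z) := by group
  have e2 : (y⁻¹ * (z * y * z))⁻¹ = z⁻¹ * y⁻¹ * z⁻¹ * y := by group
  rw [hzi, e, hz, mul_one, e2, hzi]

theorem aux {L : Type u} [Group L] [Finite L] (N H : Subgroup L) [hN : N.Normal]
    (hfpf : ∀ h ∈ H, h ≠ 1 → N ⊓ Subgroup.centralizer {h} = ⊥) (α β : L) (hαH : α ∈ H)
    (hα4 : α ^ 4 = 1) (hα2 : α ^ 2 ≠ 1) (hβ2 : β ^ 2 = α ^ 2) (hβα : β * α * β⁻¹ = α⁻¹) :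
    Odd (Nat.card N) ∧ IsSquare (Nat.card N) := by
  have hzH : α ^ 2 ∈ H := H.pow_mem hαH 2
  have hzz : α ^ 2 * α ^ 2 = 1 := by rw [← pow_add]; exact hα4
  have hzfix := hfpf (α ^ 2) hzH hα2
  have hcop := Cfsg.Agent.Helper1.fpf_coprime_sub N H hfpf H le_rfl
  have ho2 : orderOf (α ^ 2) = 2 := orderOf_eq_prime (by rw [pow_two]; exact hzz) hα2
  have h2H : 2 ∣ Nat.card H := by rw [← ho2]; exact Subgroup.orderOf_dvd_natCard H hzH
  have hoddN : Odd (Nat.card N) := by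
    rw [← Nat.not_even_iff_odd]
    intro he
    have h2 := Nat.dvd_gcd h2H he.two_dvd
    rw [Nat.Coprime.gcd_eq_one hcop] at h2
    omega
  have hinv : ∀ n ∈ N, α ^ 2 * n * (α ^ 2)⁻¹ = n⁻¹ := by
    have hφinj : Function.Injective (fun n : N =>
        (⟨(n : L)⁻¹ * (α ^ 2 * n * (α ^ 2)⁻¹),
          N.mul_mem (N.inv_mem n.2) (hN.conj_mem n n.2 (α ^ 2))⟩ : N)) := by
      intro n1 n2 h
      have h' : (n1 : L)⁻¹ * (α ^ 2 * n1 * (α ^ 2)⁻¹) = (n2 : L)⁻¹ * (α ^ 2 * n2 * (α ^ 2)⁻¹) :=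
        Subtype.ext_iff.mp h
      have h'' : (n2 : L) * (n1 : L)⁻¹ * α ^ 2 = α ^ 2 * ((n2 : L) * (n1 : L)⁻¹) := by
        calc (n2 : L) * (n1 : L)⁻¹ * α ^ 2
            = n2 * ((n1 : L)⁻¹ * (α ^ 2 * n1 * (α ^ 2)⁻¹)) * (α ^ 2 * (n1 : L)⁻¹) := by group
          _ = n2 * ((n2 : L)⁻¹ * (α ^ 2 * n2 * (α ^ 2)⁻¹)) * (α ^ 2 * (n1 : L)⁻¹) := by rw [h']
          _ = α ^ 2 * ((n2 : L) * (n1 : L)⁻¹) := by group
      have hmem : (n2 : L) * (n1 : L)⁻¹ ∈ N ⊓ Subgroup.centralizer {α ^ 2} := by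
        rw [Subgroup.mem_inf]
        refine ⟨N.mul_mem n2.2 (N.inv_mem n1.2), ?_⟩
        rw [Subgroup.mem_centralizer_iff]
        intro h hh
        rw [Set.mem_singleton_iff] at hh
        rw [hh]
        exact h''.symm
      rw [hzfix, Subgroup.mem_bot] at hmem
      apply Subtype.ext
      exact (mul_inv_eq_one.mp hmem).symm
    have hφsurj := Finite.injective_iff_surjective.mp hφinj
    intro n hn
    obtain ⟨y, hy⟩ := hφsurj ⟨n, hn⟩
    have hy' : (y : L)⁻¹ * (α ^ 2 * y * (α ^ 2)⁻¹) = n := Subtype.ext_iff.mp hy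
    subst hy'
    exact conj_inv_aux (α ^ 2) (y : L) hzz
  have hNcomm : ∀ a b : N, a * b = b * a := by
    intro a b
    apply Subtype.ext
    have h1 := hinv ((a : L) * (b : L)) (N.mul_mem a.2 b.2)
    have h4 : α ^ 2 * ((a : L) * (b : L)) * (α ^ 2)⁻¹ = (a : L)⁻¹ * (b : L)⁻¹ := by
      rw [← hinv a a.2, ← hinv b b.2]; group
    rw [h4, mul_inv_rev] at h1
    have h5 := congrArg Inv.inv h1
    rw [Subgroup.coe_mul, Subgroup.coe_mul]
    simpa [mul_inv_rev] using h5.symm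
  have h3 : α ^ 3 = α⁻¹ := by rw [eq_inv_iff_mul_eq_one, ← pow_succ]; exact hα4
  have hβα' : β * α = α⁻¹ * β := by rw [← hβα]; group
  let f : N →* N := (MulAut.conjNormal α : MulAut N).toMonoidHom
  let g : N →* N := (MulAut.conjNormal β : MulAut N).toMonoidHom
  have hfv : ∀ v : N, ((f v : N) : L) = α * v * α⁻¹ := fun v => MulAut.conjNormal_apply α v
  have hgv : ∀ v : N, ((g v : N) : L) = β * v * β⁻¹ := fun v => MulAut.conjNormal_apply β v
  have hf : ∀ v, f (f v) = v⁻¹ := by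
    intro v
    apply Subtype.ext
    rw [hfv, hfv, Subgroup.coe_inv]
    have e : α * (α * (v : L) * α⁻¹) * α⁻¹ = α ^ 2 * v * (α ^ 2)⁻¹ := by
      simp only [pow_two, mul_inv_rev, mul_assoc]
    rw [e]; exact hinv v v.2
  have hg : ∀ v, g (g v) = v⁻¹ := by
    intro v
    apply Subtype.ext
    rw [hgv, hgv, Subgroup.coe_inv]
    have e : β * (β * (v : L) * β⁻¹) * β⁻¹ = β ^ 2 * v * (β ^ 2)⁻¹ := by
      simp only [pow_two, mul_inv_rev, mul_assoc]
    rw [e, hβ2]; exact hinv v v.2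
  have hgf : ∀ v, g (f v) = (f (g v))⁻¹ := by
    intro v
    apply Subtype.ext
    rw [hgv, hfv, Subgroup.coe_inv, hfv, hgv]
    have hu : β * (v : L) * β⁻¹ ∈ N := hN.conj_mem v v.2 β
    calc β * (α * (v : L) * α⁻¹) * β⁻¹ = (β * α) * (v : L) * (β * α)⁻¹ := by group
      _ = (α⁻¹ * β) * (v : L) * (α⁻¹ * β)⁻¹ := by rw [hβα']
      _ = α⁻¹ * (β * (v : L) * β⁻¹) * α := by group
      _ = α ^ 3 * (β * (v : L) * β⁻¹) * (α ^ 3)⁻¹ := by rw [h3, inv_inv]
      _ = α * (α ^ 2 * (β * (v : L) * β⁻¹) * (α ^ 2)⁻¹) * α⁻¹ := by group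
      _ = α * (β * (v : L) * β⁻¹)⁻¹ * α⁻¹ := by rw [hinv _ hu]
      _ = (α * (β * (v : L) * β⁻¹) * α⁻¹)⁻¹ := by group
  exact ⟨hoddN, sq_mul hNcomm hoddN f g hf hg hgf⟩

/-- Let H be a Frobenius complement in a finite group, and suppose some Sylow subgroup of H is not cyclic. Then the number of elements of the Frobenius kernel (the identity together with the elements lying in no conjugate of H) is an odd perfect square. -/
theorem result {L : Type*} [Group L] [Finite L] (H : Subgroup L) (hF : Cfsg.IsFrobeniusComplement H)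
    (hZ : ∃ (p : ℕ) (_ : Fact p.Prime) (P : Sylow p H), ¬ IsCyclic P) :
    Odd (Nat.card (Cfsg.frobeniusKernel H)) ∧ IsSquare (Nat.card (Cfsg.frobeniusKernel H)) := by
  obtain ⟨N, hNK, hNn, hc, hNne, hfpf, -⟩ := Cfsg.Agent.Helper1.frob_data H hF
  have := hNn
  obtain ⟨p, hp, P, hPnc⟩ := hZ
  have := hp
  have hcard : Nat.card (Cfsg.frobeniusKernel H) = Nat.card N := by
    rw [← hNK]; rfl
  rw [hcard]
  by_cases hp2 : p = 2
  swap
  · exact absurd (Cfsg.Agent.Helper1.fpf_sylow_cyclic_odd N H hNne hfpf p hp2 P) hPnc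
  subst hp2
  obtain ⟨m, a, x, hm, hoa, -, -, hxa, hx2⟩ :=
    Cfsg.Agent.Helper1.quat_structure P.isPGroup'
      (Cfsg.Agent.Helper1.fpf_sylow_unique N H hNne hfpf 2 P) hPnc
  obtain ⟨m', rfl⟩ : ∃ m', m = m' + 2 := ⟨m - 2, by omega⟩
  obtain ⟨ι, hιdef⟩ : ∃ ι : ↥(P : Subgroup H) →* L, ι = H.subtype.comp (P : Subgroup H).subtype :=
    ⟨_, rfl⟩
  have hιinj : Function.Injective ι := by
    rw [hιdef]
    exact H.subtype_injective.comp (P : Subgroup H).subtype_injective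
  have hιH : ∀ y, ι y ∈ H := by
    intro y; rw [hιdef]; exact (((P : Subgroup H).subtype y) : H).2
  have e1 : m' + 2 - 1 = m' + 1 := by omega
  rw [e1] at hx2
  have ha2 : (a ^ 2 ^ m') ^ 2 = x ^ 2 := by rw [hx2, ← pow_mul, ← pow_succ]
  have ha4 : (a ^ 2 ^ m') ^ 4 = 1 := by
    rw [← pow_mul]
    have e2 : 2 ^ m' * 4 = 2 ^ (m' + 2) := by ring
    rw [e2, ← hoa]; exact pow_orderOf_eq_one a
  have hane : (a ^ 2 ^ m') ^ 2 ≠ 1 := by
    rw [← pow_mul, ← pow_succ]
    intro h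
    have h1 := orderOf_dvd_of_pow_eq_one h
    rw [hoa] at h1
    have h2 := Nat.le_of_dvd (by positivity) h1
    have h3 : 2 ^ (m' + 1) < 2 ^ (m' + 2) := Nat.pow_lt_pow_right (by norm_num) (by omega)
    omega
  have hxa0 : x * a ^ 2 ^ m' * x⁻¹ = (a ^ 2 ^ m')⁻¹ := by rw [← conj_pow, hxa, inv_pow]
  exact aux N H hfpf (ι (a ^ 2 ^ m')) (ι x) (hιH _)
    (by have h := congrArg ι ha4; simpa only [map_pow, map_one] using h)
    (by intro h; apply hane; apply hιinj; rw [map_pow, h, map_one])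
    (by have h := congrArg ι ha2; simpa only [map_pow] using h.symm)
    (by have h := congrArg ι hxa0; simpa only [map_mul, map_inv] using h)

end Cfsg.Agent.S4296
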