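import Mathlib
import Cfsg.Statements.S4295
import Cfsg.Agent.S4296
import Cfsg.Agent.S4293
import Cfsg.Agent.Helper1.QuatSL
import Cfsg.Agent.Helper1.Frob

set_option autoImplicit false
open Cfsg

namespace Cfsg.Agent.S4295

open SemidirectProduct

theorem exists_sq_add_sq_neg_one (r : ℕ) (hr : Odd r) : ∃ s t : ZMod r, s ^ 2 + t ^ 2 = -1 := by
  obtain ⟨j, rfl⟩ := hr
  have hcop : (4 * j + 1).Coprime (4 * (2 * j + 1)) := by
    apply Nat.coprime_of_mul_modEq_one (4 * j + 1)
    have e : (4 * j + 1) * (4 * j + 1) = 1 + 4 * (2 * j + 1) * (2 * j) := by ring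
    unfold Nat.ModEq
    rw [e, Nat.add_mul_mod_self_left]
  obtain ⟨P, -, hP, hPmod⟩ :=
    Nat.forall_exists_prime_gt_and_modEq 0 (q := 4 * (2 * j + 1)) (a := 4 * j + 1) (by omega) hcop
  have : Fact P.Prime := ⟨hP⟩
  have hP4 : P % 4 ≠ 3 := by
    have h1 : P ≡ 4 * j + 1 [MOD 4] := Nat.ModEq.of_mul_right (2 * j + 1) hPmod
    unfold Nat.ModEq at h1
    omega
  obtain ⟨s, t, hst⟩ := Nat.Prime.sq_add_sq hP4
  have h3 : P ≡ 4 * j + 1 [MOD 2 * j + 1] := Nat.ModEq.of_mul_left 4 hPmod
  have h4 : ((P : ℕ) : ZMod (2 * j + 1)) = ((4 * j + 1 : ℕ) : ZMod (2 * j + 1)) :=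
    (ZMod.natCast_eq_natCast_iff _ _ _).mpr h3
  have h5 : ((4 * j + 1 : ℕ) : ZMod (2 * j + 1)) = -1 := by
    rw [eq_neg_iff_add_eq_zero]
    have h6 : ((4 * j + 1 : ℕ) : ZMod (2 * j + 1)) + 1 =
        ((2 * (2 * j + 1) : ℕ) : ZMod (2 * j + 1)) := by
      push_cast; ring
    rw [h6, Nat.cast_mul, ZMod.natCast_self, mul_zero]
  refine ⟨(s : ZMod (2 * j + 1)), (t : ZMod (2 * j + 1)), ?_⟩
  rw [← h5, ← h4, ← hst, Nat.cast_add, Nat.cast_pow, Nat.cast_pow]

section act

variable (R : Type) [CommRing R]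

/-- `(u, v) ↦ (-v, u)` -/
def rotA : (R × R) ≃+ (R × R) where
  toFun p := (-p.2, p.1)
  invFun p := (p.2, -p.1)
  left_inv p := by simp
  right_inv p := by simp
  map_add' p q := Prod.ext (neg_add _ _) rfl

/-- `(u, v) ↦ (s u + t v, t u - s v)` -/
def rotX (s t : R) (h : s ^ 2 + t ^ 2 = -1) : (R × R) ≃+ (R × R) where
  toFun p := (s * p.1 + t * p.2, t * p.1 - s * p.2)
  invFun p := (-(s * p.1 + t * p.2), -(t * p.1 - s * p.2))
  left_inv p := by
    apply Prod.ext
    · show -(s * (s * p.1 + t * p.2) + t * (t * p.1 - s * p.2)) = p.1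
      linear_combination (-p.1) * h
    · show -(t * (s * p.1 + t * p.2) - s * (t * p.1 - s * p.2)) = p.2
      linear_combination (-p.2) * h
  right_inv p := by
    apply Prod.ext
    · show s * -(s * p.1 + t * p.2) + t * -(t * p.1 - s * p.2) = p.1
      linear_combination (-p.1) * h
    · show t * -(s * p.1 + t * p.2) - s * -(t * p.1 - s * p.2) = p.2
      linear_combination (-p.2) * h
  map_add' p q := by
    apply Prod.ext
    · show s * (p.1 + q.1) + t * (p.2 + q.2) = (s * p.1 + t * p.2) + (s * q.1 + t * q.2)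
      ring
    · show t * (p.1 + q.1) - s * (p.2 + q.2) = (t * p.1 - s * p.2) + (t * q.1 - s * q.2)
      ring

theorem rotA_sq (p : R × R) : rotA R (rotA R p) = -p := Prod.ext rfl rfl

theorem rotX_sq (s t : R) (h : s ^ 2 + t ^ 2 = -1) (p : R × R) :
    rotX R s t h (rotX R s t h p) = -p := by
  apply Prod.ext
  · show s * (s * p.1 + t * p.2) + t * (t * p.1 - s * p.2) = -p.1
    linear_combination p.1 * h
  · show t * (s * p.1 + t * p.2) - s * (t * p.1 - s * p.2) = -p.2
    linear_combination p.2 * h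

theorem rotAXA (s t : R) (h : s ^ 2 + t ^ 2 = -1) (p : R × R) :
    rotA R (rotX R s t h (rotA R p)) = rotX R s t h p := by
  apply Prod.ext
  · show -(t * -p.2 - s * p.1) = s * p.1 + t * p.2
    ring
  · show s * -p.2 + t * p.1 = t * p.1 - s * p.2
    ring

end act

theorem exists_frob (r : ℕ) (hr : Odd r) (hr1 : 1 < r) (s t : ZMod r) (h : s ^ 2 + t ^ 2 = -1) :
    ∃ (L : Type) (_ : Group L) (_ : Finite L) (H : Subgroup L), Cfsg.IsFrobeniusComplement H ∧
      Nonempty (H ≃* QuaternionGroup 2) ∧ Nat.card (Cfsg.frobeniusKernel H) = r * r := by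
  have : Fact (1 < r) := ⟨hr1⟩
  have : NeZero r := ⟨by omega⟩
  obtain ⟨j, hj⟩ := hr
  have hn' : (2 * (j : ZMod r) + 1) = 0 := by
    have h0 : ((2 * j + 1 : ℕ) : ZMod r) = 0 := by rw [← hj]; exact ZMod.natCast_self r
    push_cast at h0; exact h0
  have h2 : ∀ u : ZMod r, -u = u → u = 0 := by
    intro u hu
    linear_combination (j : ZMod r) * hu + u * hn'
  let a0 : MulAut (Multiplicative (ZMod r × ZMod r)) := AddEquiv.toMultiplicative (rotA (ZMod r))
  let x0 : MulAut (Multiplicative (ZMod r × ZMod r)) :=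
    AddEquiv.toMultiplicative (rotX (ZMod r) s t h)
  have hsq : a0 * a0 = x0 * x0 := MulEquiv.ext (fun n => by
    show Multiplicative.ofAdd (rotA (ZMod r) (rotA (ZMod r) (Multiplicative.toAdd n))) =
      Multiplicative.ofAdd (rotX (ZMod r) s t h (rotX (ZMod r) s t h (Multiplicative.toAdd n)))
    rw [rotA_sq, rotX_sq])
  have hA4 : a0 ^ (2 * 2) = 1 := by
    have e : a0 ^ (2 * 2) = (a0 * a0) * (a0 * a0) := by
      rw [show 2 * 2 = 2 + 2 from rfl, pow_add, pow_two]
    rw [e]
    exact MulEquiv.ext (fun n => by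
      show Multiplicative.ofAdd (rotA (ZMod r) (rotA (ZMod r) (rotA (ZMod r) (rotA (ZMod r)
        (Multiplicative.toAdd n))))) = n
      rw [rotA_sq, rotA_sq, neg_neg, ofAdd_toAdd])
  have hR1 : a0 * x0 * a0 = x0 := MulEquiv.ext (fun n => by
    show Multiplicative.ofAdd (rotA (ZMod r) (rotX (ZMod r) s t h (rotA (ZMod r)
      (Multiplicative.toAdd n)))) =
      Multiplicative.ofAdd (rotX (ZMod r) s t h (Multiplicative.toAdd n))
    rw [rotAXA])
  have hxa : x0 * a0 * x0⁻¹ = a0⁻¹ := by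
    rw [mul_inv_eq_iff_eq_mul, eq_inv_mul_iff_mul_eq, ← mul_assoc]; exact hR1
  have hx2 : x0 ^ 2 = a0 ^ 2 := by rw [pow_two, pow_two]; exact hsq.symm
  obtain ⟨F, hFa, -⟩ := Cfsg.Agent.Helper1.quat_hom 2 a0 x0 hA4 hxa hx2
  have hF2 : ∀ n : Multiplicative (ZMod r × ZMod r), F (QuaternionGroup.a 2) n =
      Multiplicative.ofAdd (-(Multiplicative.toAdd n)) := by
    intro n
    have hv : ((2 : ZMod (2 * 2))).val = 2 := rfl
    rw [hFa 2, hv, pow_two]
    show Multiplicative.ofAdd (rotA (ZMod r) (rotA (ZMod r) (Multiplicative.toAdd n))) = _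
    rw [rotA_sq]
  have hcases : ∀ g : QuaternionGroup 2, g ≠ 1 →
      g = QuaternionGroup.a 2 ∨ g ^ 2 = QuaternionGroup.a 2 := by decide
  have hfpf : ∀ g : QuaternionGroup 2, g ≠ 1 → ∀ n : Multiplicative (ZMod r × ZMod r),
      F g n = n → n = 1 := by
    intro g hg n hn
    have hfix : F (QuaternionGroup.a 2) n = n := by
      rcases hcases g hg with h1 | h1
      · rw [← h1]; exact hn
      · rw [← h1, map_pow, pow_two]
        show F g (F g n) = n
        rw [hn, hn]
    rw [hF2] at hfix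
    have hfix' : -(Multiplicative.toAdd n) = Multiplicative.toAdd n :=
      congrArg Multiplicative.toAdd hfix
    have hz : Multiplicative.toAdd n = 0 :=
      Prod.ext (h2 _ (congrArg Prod.fst hfix')) (h2 _ (congrArg Prod.snd hfix'))
    exact congrArg Multiplicative.ofAdd hz
  have hH : ∃ g : QuaternionGroup 2, g ≠ 1 := ⟨QuaternionGroup.a 1, by decide⟩
  have hN : ∃ n : Multiplicative (ZMod r × ZMod r), n ≠ 1 := by
    refine ⟨Multiplicative.ofAdd ((1 : ZMod r), (0 : ZMod r)), fun hone => ?_⟩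
    have h1 : ((1 : ZMod r), (0 : ZMod r)) = 0 := congrArg Multiplicative.toAdd hone
    exact one_ne_zero (congrArg Prod.fst h1)
  have hC := Cfsg.Agent.S4293.frob_of_fpf F hH hN hfpf
  have hfin : Finite (Multiplicative (ZMod r × ZMod r) ⋊[F] QuaternionGroup 2) :=
    Finite.of_equiv _ SemidirectProduct.equivProd.symm
  refine ⟨Multiplicative (ZMod r × ZMod r) ⋊[F] QuaternionGroup 2, inferInstance, hfin,
    (inr : QuaternionGroup 2 →* Multiplicative (ZMod r × ZMod r) ⋊[F] QuaternionGroup 2).range, hC,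
    ⟨(MonoidHom.ofInjective SemidirectProduct.inr_injective).symm⟩, ?_⟩
  rw [Cfsg.Agent.Helper1.card_frobeniusKernel _ hC.2.2]
  have hidx := Subgroup.index_mul_card
    (inr : QuaternionGroup 2 →* Multiplicative (ZMod r × ZMod r) ⋊[F] QuaternionGroup 2).range
  have hCc : Nat.card
      (inr : QuaternionGroup 2 →* Multiplicative (ZMod r × ZMod r) ⋊[F] QuaternionGroup 2).range
      = Nat.card (QuaternionGroup 2) :=
    Nat.card_congr (MonoidHom.ofInjective SemidirectProduct.inr_injective).symm.toEquiv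
  have hNc : Nat.card (Multiplicative (ZMod r × ZMod r)) = r * r := by
    show Nat.card (ZMod r × ZMod r) = r * r
    rw [Nat.card_prod, Nat.card_zmod]
  rw [SemidirectProduct.card, hCc, hNc] at hidx
  exact Nat.eq_of_mul_eq_mul_right Nat.card_pos hidx

/-- For a natural number m the following are equivalent: (a) some finite group has a Frobenius complement isomorphic to the quaternion group of order 8 whose Frobenius kernel (the identity together with the elements lying in no conjugate of the complement) has exactly m elements; (b) m is an odd perfect square greater than 1. -/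
theorem result (m : ℕ) :
    (∃ (L : Type) (_ : Group L) (_ : Finite L) (H : Subgroup L), Cfsg.IsFrobeniusComplement H ∧
        Nonempty (H ≃* QuaternionGroup 2) ∧ Nat.card (Cfsg.frobeniusKernel H) = m) ↔
    (Odd m ∧ IsSquare m ∧ 1 < m) := by
  constructor
  · rintro ⟨L, hG, hfin, H, hF, ⟨e⟩, hm⟩
    obtain ⟨P⟩ := (inferInstance : Nonempty (Sylow 2 H))
    have hcardH : Nat.card H = 4 * 2 := by
      rw [Nat.card_congr e.toEquiv, Nat.card_eq_fintype_card, QuaternionGroup.card]
    have hpH : IsPGroup 2 H := IsPGroup.of_card (n := 3) (hcardH.trans (by norm_num))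
    have hPtop : (P : Subgroup H) = ⊤ := (P.is_maximal' (hpH.to_subgroup ⊤) le_top).symm
    have hPnc : ¬ IsCyclic P := by
      intro hcyc
      have hab : ∀ a b : H, a * b = b * a := by
        intro a b
        have ha : a ∈ (P : Subgroup H) := by rw [hPtop]; exact Subgroup.mem_top a
        have hb : b ∈ (P : Subgroup H) := by rw [hPtop]; exact Subgroup.mem_top b
        have h1 := (IsCyclic.commGroup (α := ↥P)).mul_comm ⟨a, ha⟩ ⟨b, hb⟩
        exact congrArg Subtype.val h1
      have h3 := hab (e.symm (QuaternionGroup.a 1)) (e.symm (QuaternionGroup.xa 0))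
      rw [← map_mul, ← map_mul] at h3
      have h4 := e.symm.injective h3
      exact absurd h4 (by decide)
    obtain ⟨hodd, hsq⟩ := Cfsg.Agent.S4296.result H hF ⟨2, ⟨Nat.prime_two⟩, P, hPnc⟩
    rw [hm] at hodd hsq
    refine ⟨hodd, hsq, ?_⟩
    have hk := Cfsg.Agent.Helper1.card_frobeniusKernel H hF.2.2
    have h1 : H.index ≠ 1 := fun h => hF.2.1 (Subgroup.index_eq_one.mp h)
    have h0 : H.index ≠ 0 := Subgroup.index_ne_zero_of_finite
    omega
  · rintro ⟨hodd, ⟨r, rfl⟩, h1⟩
    have hrodd : Odd r := (Nat.odd_mul.mp hodd).1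
    have hr1 : 1 < r := by
      rcases Nat.lt_or_ge 1 r with h | h
      · exact h
      · exfalso
        interval_cases r <;> omega
    obtain ⟨s, t, hst⟩ := exists_sq_add_sq_neg_one r hrodd
    exact exists_frob r hrodd hr1 s t hst

end Cfsg.Agent.S4295
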