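import Mathlib
import Cfsg.Statements.S4297
import Cfsg.Agent.S4293

set_option autoImplicit false
open Cfsg

namespace Cfsg.Agent.S4297

open QuaternionGroup

section lift

variable {G : Type*} [Group G] {n : ℕ} [NeZero n] (u y : G)

theorem pow_val_add (h1 : u ^ (2 * n) = 1) (i j : ZMod (2 * n)) :
    u ^ (i + j).val = u ^ i.val * u ^ j.val := by
  rw [ZMod.val_add, ← pow_eq_pow_mod _ h1, pow_add]

theorem pow_val_neg (h1 : u ^ (2 * n) = 1) (i : ZMod (2 * n)) :
    u ^ (-i).val = (u ^ i.val)⁻¹ := by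
  have h := pow_val_add u h1 i (-i)
  rw [add_neg_cancel, ZMod.val_zero, pow_zero] at h
  exact (inv_eq_of_mul_eq_one_right h.symm).symm

theorem pow_val_sub (h1 : u ^ (2 * n) = 1) (i j : ZMod (2 * n)) :
    u ^ (j - i).val = u ^ j.val * (u ^ i.val)⁻¹ := by
  rw [sub_eq_add_neg, pow_val_add u h1, pow_val_neg u h1]

omit [NeZero n] in
theorem pow_mul_y (h3 : u * y * u = y) (k : ℕ) : u ^ k * y = y * (u ^ k)⁻¹ := by
  induction k with
  | zero => rw [pow_zero, one_mul, inv_one, mul_one]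
  | succ k ih =>
    have h3' : u * y = y * u⁻¹ := by rw [eq_mul_inv_iff_mul_eq]; exact h3
    rw [pow_succ, mul_assoc, h3', ← mul_assoc, ih, mul_assoc, ← mul_inv_rev, pow_mul_comm']

/-- the lifted map -/
def liftFun (g : QuaternionGroup n) : G :=
  match g with
  | a i => u ^ i.val
  | xa i => y * u ^ i.val

theorem liftFun_mul (h1 : u ^ (2 * n) = 1) (h2 : y * y = u ^ n) (h3 : u * y * u = y)
    (g g' : QuaternionGroup n) : liftFun u y (g * g') = liftFun u y g * liftFun u y g' := by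
  have hcomm : ∀ k m : ℕ, u ^ k * (u ^ m)⁻¹ = (u ^ m)⁻¹ * u ^ k := by
    intro k m
    have hc : Commute (u ^ k) (u ^ m) := (Commute.refl u).pow_pow k m
    exact (hc.inv_right).eq
  rcases g with i | i <;> rcases g' with j | j
  · rw [a_mul_a]
    exact pow_val_add u h1 i j
  · rw [a_mul_xa]
    show y * u ^ (j - i).val = u ^ i.val * (y * u ^ j.val)
    rw [pow_val_sub u h1, ← mul_assoc (u ^ i.val), pow_mul_y u y h3, mul_assoc, hcomm]
  · rw [xa_mul_a]
    show y * u ^ (i + j).val = y * u ^ i.val * u ^ j.val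
    rw [pow_val_add u h1, mul_assoc]
  · rw [xa_mul_xa]
    show u ^ ((n : ZMod (2 * n)) + j - i).val = y * u ^ i.val * (y * u ^ j.val)
    have hn : ((n : ℕ) : ZMod (2 * n)).val = n :=
      ZMod.val_natCast_of_lt (by have := NeZero.pos n; omega)
    rw [pow_val_sub u h1, pow_val_add u h1, hn, mul_assoc y, ← mul_assoc (u ^ i.val),
      pow_mul_y u y h3, mul_assoc y, ← mul_assoc y, h2, ← hcomm, mul_assoc]

theorem exists_lift (hn : 2 ≤ n) (ho : orderOf u = 2 * n) (h2 : y * y = u ^ n)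
    (h3 : u * y * u = y) : ∃ f : QuaternionGroup n →* G, Function.Injective f := by
  have h1 : u ^ (2 * n) = 1 := by rw [← ho]; exact pow_orderOf_eq_one u
  refine ⟨MonoidHom.mk' (liftFun u y) (liftFun_mul u y h1 h2 h3), ?_⟩
  rw [injective_iff_map_eq_one]
  intro g hg
  have hg' : liftFun u y g = 1 := hg
  rcases g with i | i
  · have h4 : u ^ i.val = 1 := hg'
    have h5 : orderOf u ∣ i.val := orderOf_dvd_of_pow_eq_one h4
    rw [ho] at h5
    have h6 : i.val = 0 := Nat.eq_zero_of_dvd_of_lt h5 (ZMod.val_lt i)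
    have h7 : i = 0 := (ZMod.val_eq_zero i).mp h6
    rw [h7, a_zero]
  · exfalso
    have h4 : y * u ^ i.val = 1 := hg'
    have h5 : y = (u ^ i.val)⁻¹ := eq_inv_of_mul_eq_one_left h4
    have h6 : u * y = y * u := by
      rw [h5]
      exact ((Commute.refl u).pow_right i.val).inv_right.eq
    have h7 : u * y = y * u⁻¹ := by rw [eq_mul_inv_iff_mul_eq]; exact h3
    have h8 : u = u⁻¹ := mul_left_cancel (h6.symm.trans h7)
    have h9 : u ^ 2 = 1 := by
      rw [pow_two]; exact mul_eq_one_iff_eq_inv.mpr h8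
    have h10 := orderOf_dvd_of_pow_eq_one h9
    rw [ho] at h10
    have h11 := Nat.le_of_dvd (by norm_num) h10
    omega

end lift

section quat

open Quaternion

theorem qmul_complex (a b c d : ℝ) :
    (⟨a, b, 0, 0⟩ : ℍ[ℝ]) * ⟨c, d, 0, 0⟩ = ⟨a * c - b * d, a * d + b * c, 0, 0⟩ := by
  ext <;> simp <;> ring1

theorem de_moivre (θ : ℝ) (k : ℕ) :
    (⟨Real.cos θ, Real.sin θ, 0, 0⟩ : ℍ[ℝ]) ^ k =
      ⟨Real.cos (k * θ), Real.sin (k * θ), 0, 0⟩ := by
  induction k with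
  | zero =>
    rw [pow_zero]
    ext <;> simp
  | succ k ih =>
    rw [pow_succ, ih, qmul_complex]
    have e : ((k + 1 : ℕ) : ℝ) * θ = k * θ + θ := by push_cast; ring
    rw [e, Real.cos_add, Real.sin_add]
    ext <;> simp <;> ring1

theorem exists_quat_embedding (n : ℕ) (hn : 2 ≤ n) :
    ∃ f : QuaternionGroup n →* (ℍ[ℝ])ˣ, Function.Injective f := by
  have hn0 : NeZero n := ⟨by omega⟩
  have hnR : (n : ℝ) ≠ 0 := by exact_mod_cast (by omega : n ≠ 0)
  obtain ⟨θ, hθ⟩ : ∃ θ : ℝ, θ = Real.pi / n := ⟨_, rfl⟩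
  have hcs : Real.cos θ * Real.cos θ + Real.sin θ * Real.sin θ = 1 := by
    rw [← sq, ← sq]; exact Real.cos_sq_add_sin_sq θ
  have hUU' : (⟨Real.cos θ, Real.sin θ, 0, 0⟩ : ℍ[ℝ]) * ⟨Real.cos θ, -Real.sin θ, 0, 0⟩ = 1 := by
    rw [qmul_complex]
    ext <;> simp <;> first | ring1 | linarith
  have hY : (⟨0, 0, 1, 0⟩ : ℍ[ℝ]) * ⟨0, 0, 1, 0⟩ = -1 := by
    ext <;> simp
  have hY0 : (⟨0, 0, 1, 0⟩ : ℍ[ℝ]) ≠ 0 := by
    intro h
    have h' := congrArg (fun q : ℍ[ℝ] => q.imJ) h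
    simp at h'
  let u : (ℍ[ℝ])ˣ := Units.mk0 ⟨Real.cos θ, Real.sin θ, 0, 0⟩ (left_ne_zero_of_mul_eq_one hUU')
  let y : (ℍ[ℝ])ˣ := Units.mk0 ⟨0, 0, 1, 0⟩ hY0
  have hupow : ∀ k : ℕ, ((u ^ k : (ℍ[ℝ])ˣ) : ℍ[ℝ]) =
      ⟨Real.cos (k * θ), Real.sin (k * θ), 0, 0⟩ := by
    intro k
    rw [Units.val_pow_eq_pow_val]
    exact de_moivre θ k
  have hnθ : (n : ℝ) * θ = Real.pi := by rw [hθ]; field_simp
  have h2 : y * y = u ^ n := by
    apply Units.ext
    rw [Units.val_mul, hupow, hnθ, Real.cos_pi, Real.sin_pi]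
    show (⟨0, 0, 1, 0⟩ : ℍ[ℝ]) * ⟨0, 0, 1, 0⟩ = ⟨-1, 0, 0, 0⟩
    rw [hY]
    ext <;> simp
  have h3 : u * y * u = y := by
    apply Units.ext
    show (⟨Real.cos θ, Real.sin θ, 0, 0⟩ : ℍ[ℝ]) * ⟨0, 0, 1, 0⟩ *
      ⟨Real.cos θ, Real.sin θ, 0, 0⟩ = ⟨0, 0, 1, 0⟩
    ext <;> simp <;> first | ring1 | linarith
  have ho : orderOf u = 2 * n := by
    rw [orderOf_eq_iff (by omega)]
    constructor
    · apply Units.ext
      rw [hupow]
      have e : ((2 * n : ℕ) : ℝ) * θ = 2 * Real.pi := by push_cast; rw [mul_assoc, hnθ]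
      rw [e, Real.cos_two_pi, Real.sin_two_pi]
      ext <;> simp
    · intro m hm hm0 hum
      have h1 := congrArg (fun q : (ℍ[ℝ])ˣ => (q : ℍ[ℝ]).re) hum
      simp only [hupow] at h1
      have h1' : Real.cos (m * θ) = 1 := by simpa using h1
      obtain ⟨z, hz⟩ := (Real.cos_eq_one_iff _).mp h1'
      have hz' : (2 * (n : ℝ) * z) * Real.pi = (m : ℝ) * Real.pi := by
        have e1 : (2 * (n : ℝ) * z) * Real.pi = (z * (2 * Real.pi)) * n := by ring
        have e2 : (m : ℝ) * (Real.pi / n) * n = m * Real.pi := by field_simp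
        rw [e1, hz, hθ, e2]
      have hz2 : 2 * (n : ℝ) * z = m := mul_right_cancel₀ Real.pi_ne_zero hz'
      have hz3 : 2 * (n : ℤ) * z = m := by exact_mod_cast hz2
      have hm0' : (0 : ℤ) < m := by exact_mod_cast hm0
      have hm' : (m : ℤ) < 2 * n := by exact_mod_cast hm
      rcases le_or_gt z 0 with hz0 | hz0
      · have h4 : (n : ℤ) * z ≤ 0 :=
          mul_nonpos_of_nonneg_of_nonpos (Int.natCast_nonneg n) hz0
        linarith
      · have hz1 : 1 ≤ z := by omega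
        have h4 : (n : ℤ) * 1 ≤ n * z :=
          mul_le_mul_of_nonneg_left hz1 (Int.natCast_nonneg n)
        linarith
  exact exists_lift u y hn ho h2 h3

end quat

/-- For every n ≥ 2 the dicyclic group of order 4n (generated by an element a of order 2n and an element x with x² = aⁿ and x a x⁻¹ = a⁻¹) occurs as a Frobenius complement of some finite Frobenius group. -/
theorem result (n : ℕ) (hn : 2 ≤ n) :
    ∃ (L : Type) (_ : Group L) (_ : Finite L) (H : Subgroup L), Cfsg.IsFrobeniusComplement H ∧ Nonempty (H ≃* QuaternionGroup n) := by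
  have hn0 : NeZero n := ⟨by omega⟩
  obtain ⟨f, hf⟩ := exists_quat_embedding n hn
  have hfin : Finite f.range := Finite.of_equiv _ (MonoidHom.ofInjective hf).toEquiv
  have hne : f.range ≠ ⊥ := by
    intro hbot
    have h1 : f (a 1) ∈ f.range := ⟨a 1, rfl⟩
    rw [hbot, Subgroup.mem_bot] at h1
    have h2 : (a 1 : QuaternionGroup n) = 1 := hf (by rw [h1, map_one])
    have h3 := orderOf_a_one (n := n)
    rw [h2, orderOf_one] at h3
    omega
  obtain ⟨L, iG, iF, C, hC, ⟨e⟩⟩ := Cfsg.Agent.S4293.result f.range hne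
  exact ⟨L, iG, iF, C, hC, ⟨e.symm.trans (MonoidHom.ofInjective hf).symm⟩⟩

end Cfsg.Agent.S4297
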