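import Mathlib
import Cfsg.Statements.S4298
import Cfsg.Agent.S4293

set_option autoImplicit false
open Cfsg

namespace Cfsg.Agent.S4298

open Matrix

/-- lookup table of an embedding `SL(2,3) → SL(2,5)` (entries of the image matrix). -/
def tbl : List (ZMod 5 × ZMod 5 × ZMod 5 × ZMod 5) :=
  [(1, 0, 0, 1), (1, 0, 0, 1), (1, 0, 0, 1), (1, 0, 0, 1), (1, 0, 0, 1), (1, 0, 0, 1), (1, 0, 0, 1), (1, 0, 0, 1), (1, 0, 0, 1), (1, 0, 0, 1), (1, 0, 0, 1), (1, 0, 0, 1), (1, 0, 0, 1), (1, 0, 0, 1), (1, 0, 0, 1), (3, 0, 0, 2), (4, 2, 1, 2), (3, 3, 4, 1), (1, 0, 0, 1), (1, 0, 0, 1), (1, 0, 0, 1), (2, 0, 0, 3), (2, 2, 1, 4), (1, 3, 4, 3), (1, 0, 0, 1), (1, 0, 0, 1), (1, 0, 0, 1), (1, 0, 0, 1), (1, 0, 0, 1), (1, 0, 0, 1), (1, 0, 0, 1), (3, 1, 2, 1), (1, 0, 0, 1), (1, 0, 0, 1), (1, 4, 3, 3), (1, 0, 0, 1), (1, 0, 0, 1), (1, 1, 2, 3), (1, 0, 0, 1), (1, 0, 0, 1), (1, 0, 0, 1), (0, 1, 4, 0), (4, 3, 4, 2), (1, 0, 0, 1), (1, 0,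 0, 1), (1, 0, 0, 1), (3, 4, 3, 1), (1, 0, 0, 1), (2, 3, 4, 4), (1, 0, 0, 1), (1, 0, 0, 1), (1, 0, 0, 1), (1, 0, 0, 1), (0, 3, 3, 0), (1, 0, 0, 1), (1, 0, 0, 1), (4, 0, 0, 4), (1, 0, 0, 1), (1, 0, 0, 1), (4, 1, 2, 2), (1, 0, 0, 1), (1, 0, 0, 1), (2, 4, 3, 4), (1, 0, 0, 1), (1, 0, 0, 1), (2, 1, 2, 4), (1, 0, 0, 1), (0, 2, 2, 0), (1, 0, 0, 1), (3, 2, 1, 1), (1, 0, 0, 1), (1, 0, 0, 1), (1, 0, 0, 1), (1, 0, 0, 1), (4, 4, 3, 2), (1, 2, 1, 3), (1, 0, 0, 1), (1, 0, 0, 1), (1, 0, 0, 1), (0, 4, 1, 0), (1, 0, 0, 1)]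

/-- table lookup -/
def tab (a b c d : ZMod 3) : ZMod 5 × ZMod 5 × ZMod 5 × ZMod 5 :=
  tbl.getD (27 * a.val + 9 * b.val + 3 * c.val + d.val) (1, 0, 0, 1)

theorem tab_one : tab 1 0 0 1 = (1, 0, 0, 1) := by decide +kernel

theorem tab_mul : ∀ a b c d a' b' c' d' : ZMod 3, a * d - b * c = 1 → a' * d' - b' * c' = 1 →
    tab (a * a' + b * c') (a * b' + b * d') (c * a' + d * c') (c * b' + d * d') =
      ((tab a b c d).1 * (tab a' b' c' d').1 + (tab a b c d).2.1 * (tab a' b' c' d').2.2.1,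
       (tab a b c d).1 * (tab a' b' c' d').2.1 + (tab a b c d).2.1 * (tab a' b' c' d').2.2.2,
       (tab a b c d).2.2.1 * (tab a' b' c' d').1 + (tab a b c d).2.2.2 * (tab a' b' c' d').2.2.1,
       (tab a b c d).2.2.1 * (tab a' b' c' d').2.1 +
        (tab a b c d).2.2.2 * (tab a' b' c' d').2.2.2) := by
  decide +kernel

set_option synthInstance.maxSize 4000 in
theorem tab_fpf : ∀ a b c d : ZMod 3, a * d - b * c = 1 → ∀ x y : ZMod 5,
    (tab a b c d).1 * x + (tab a b c d).2.1 * y = x →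
    (tab a b c d).2.2.1 * x + (tab a b c d).2.2.2 * y = y →
    (x = 0 ∧ y = 0) ∨ (a = 1 ∧ b = 0 ∧ c = 0 ∧ d = 1) := by
  decide +kernel

/-- the action of `SL(2,3)` on pairs over `ZMod 5` through the table -/
def act (M : SpecialLinearGroup (Fin 2) (ZMod 3)) (v : ZMod 5 × ZMod 5) : ZMod 5 × ZMod 5 :=
  ((tab (M.1 0 0) (M.1 0 1) (M.1 1 0) (M.1 1 1)).1 * v.1 +
      (tab (M.1 0 0) (M.1 0 1) (M.1 1 0) (M.1 1 1)).2.1 * v.2,
   (tab (M.1 0 0) (M.1 0 1) (M.1 1 0) (M.1 1 1)).2.2.1 * v.1 +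
      (tab (M.1 0 0) (M.1 0 1) (M.1 1 0) (M.1 1 1)).2.2.2 * v.2)

theorem det_eq (M : SpecialLinearGroup (Fin 2) (ZMod 3)) :
    M.1 0 0 * M.1 1 1 - M.1 0 1 * M.1 1 0 = 1 := by
  have h := M.2
  rw [Matrix.det_fin_two] at h
  exact h

theorem act_one (v : ZMod 5 × ZMod 5) : act 1 v = v := by
  have h00 : (1 : SpecialLinearGroup (Fin 2) (ZMod 3)).1 0 0 = 1 := rfl
  have h01 : (1 : SpecialLinearGroup (Fin 2) (ZMod 3)).1 0 1 = 0 := rfl
  have h10 : (1 : SpecialLinearGroup (Fin 2) (ZMod 3)).1 1 0 = 0 := rfl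
  have h11 : (1 : SpecialLinearGroup (Fin 2) (ZMod 3)).1 1 1 = 1 := rfl
  unfold act
  rw [h00, h01, h10, h11, tab_one]
  ext <;> simp

theorem act_mul (M M' : SpecialLinearGroup (Fin 2) (ZMod 3)) (v : ZMod 5 × ZMod 5) :
    act (M * M') v = act M (act M' v) := by
  have hm : (M * M').1 = M.1 * M'.1 := rfl
  have h00 : (M * M').1 0 0 = M.1 0 0 * M'.1 0 0 + M.1 0 1 * M'.1 1 0 := by
    rw [hm, Matrix.mul_apply, Fin.sum_univ_two]
  have h01 : (M * M').1 0 1 = M.1 0 0 * M'.1 0 1 + M.1 0 1 * M'.1 1 1 := by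
    rw [hm, Matrix.mul_apply, Fin.sum_univ_two]
  have h10 : (M * M').1 1 0 = M.1 1 0 * M'.1 0 0 + M.1 1 1 * M'.1 1 0 := by
    rw [hm, Matrix.mul_apply, Fin.sum_univ_two]
  have h11 : (M * M').1 1 1 = M.1 1 0 * M'.1 0 1 + M.1 1 1 * M'.1 1 1 := by
    rw [hm, Matrix.mul_apply, Fin.sum_univ_two]
  have ht := tab_mul _ _ _ _ _ _ _ _ (det_eq M) (det_eq M')
  unfold act
  rw [h00, h01, h10, h11, ht]
  ext
  · dsimp only; ring
  · dsimp only; ring

theorem act_add (M : SpecialLinearGroup (Fin 2) (ZMod 3)) (v w : ZMod 5 × ZMod 5) :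
    act M (v + w) = act M v + act M w := by
  unfold act
  ext
  · simp only [Prod.fst_add, Prod.snd_add]; ring
  · simp only [Prod.fst_add, Prod.snd_add]; ring

/-- the automorphism of the additive group of pairs induced by an element of `SL(2,3)` -/
def actEquiv (M : SpecialLinearGroup (Fin 2) (ZMod 3)) :
    MulAut (Multiplicative (ZMod 5 × ZMod 5)) where
  toFun v := Multiplicative.ofAdd (act M (Multiplicative.toAdd v))
  invFun v := Multiplicative.ofAdd (act M⁻¹ (Multiplicative.toAdd v))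
  left_inv v := by
    have h : act M⁻¹ (act M (Multiplicative.toAdd v)) = Multiplicative.toAdd v := by
      rw [← act_mul, inv_mul_cancel, act_one]
    exact congrArg (fun x => Multiplicative.ofAdd x) h
  right_inv v := by
    have h : act M (act M⁻¹ (Multiplicative.toAdd v)) = Multiplicative.toAdd v := by
      rw [← act_mul, mul_inv_cancel, act_one]
    exact congrArg (fun x => Multiplicative.ofAdd x) h
  map_mul' v w := congrArg (fun x => Multiplicative.ofAdd x)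
    (act_add M (Multiplicative.toAdd v) (Multiplicative.toAdd w))

/-- the action homomorphism -/
def phi : SpecialLinearGroup (Fin 2) (ZMod 3) →* MulAut (Multiplicative (ZMod 5 × ZMod 5)) where
  toFun := actEquiv
  map_one' := by
    refine MulEquiv.ext (fun v => ?_)
    exact congrArg (fun x => Multiplicative.ofAdd x) (act_one (Multiplicative.toAdd v))
  map_mul' M M' := by
    refine MulEquiv.ext (fun v => ?_)
    exact congrArg (fun x => Multiplicative.ofAdd x) (act_mul M M' (Multiplicative.toAdd v))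

theorem phi_fpf : ∀ h : SpecialLinearGroup (Fin 2) (ZMod 3), h ≠ 1 →
    ∀ n : Multiplicative (ZMod 5 × ZMod 5), phi h n = n → n = 1 := by
  intro M hM n hn
  have h1 : act M (Multiplicative.toAdd n) = Multiplicative.toAdd n := hn
  have h2 := tab_fpf _ _ _ _ (det_eq M) (Multiplicative.toAdd n).1 (Multiplicative.toAdd n).2
    (congrArg Prod.fst h1) (congrArg Prod.snd h1)
  rcases h2 with ⟨hx, hy⟩ | ⟨ha, hb, hc, hd⟩
  · have h3 : Multiplicative.toAdd n = 0 := Prod.ext hx hy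
    exact h3
  · exfalso
    apply hM
    apply Subtype.ext
    have e : M.1 = !![M.1 0 0, M.1 0 1; M.1 1 0, M.1 1 1] := Matrix.eta_fin_two M.1
    rw [e, ha, hb, hc, hd]
    exact Matrix.one_fin_two.symm

/-- The group SL(2,3) of order 24 (the binary tetrahedral group) occurs as a Frobenius complement of some finite Frobenius group. -/
theorem result :
    ∃ (L : Type) (_ : Group L) (_ : Finite L) (H : Subgroup L), Cfsg.IsFrobeniusComplement H ∧ Nonempty (H ≃* Matrix.SpecialLinearGroup (Fin 2) (ZMod 3)) := by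
  have hH : ∃ h : SpecialLinearGroup (Fin 2) (ZMod 3), h ≠ 1 := by
    refine ⟨⟨!![1, 1; 0, 1], by rw [Matrix.det_fin_two_of]; norm_num⟩, ?_⟩
    intro h
    have h2 : (1 : ZMod 3) = 0 :=
      congrArg (fun A : SpecialLinearGroup (Fin 2) (ZMod 3) => A.1 0 1) h
    exact absurd h2 (by decide)
  have hN : ∃ n : Multiplicative (ZMod 5 × ZMod 5), n ≠ 1 := by
    refine ⟨Multiplicative.ofAdd (1, 0), ?_⟩
    intro h
    have h2 : (1 : ZMod 5) = 0 :=
      congrArg (fun x : Multiplicative (ZMod 5 × ZMod 5) => (Multiplicative.toAdd x).1) h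
    exact absurd h2 (by decide)
  have hC := Cfsg.Agent.S4293.frob_of_fpf phi hH hN phi_fpf
  refine ⟨Multiplicative (ZMod 5 × ZMod 5) ⋊[phi] SpecialLinearGroup (Fin 2) (ZMod 3), inferInstance,
    Finite.of_equiv _ SemidirectProduct.equivProd.symm,
    (SemidirectProduct.inr : SpecialLinearGroup (Fin 2) (ZMod 3) →*
      Multiplicative (ZMod 5 × ZMod 5) ⋊[phi] SpecialLinearGroup (Fin 2) (ZMod 3)).range, hC, ⟨?_⟩⟩
  exact (MonoidHom.ofInjective SemidirectProduct.inr_injective).symm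

end Cfsg.Agent.S4298
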