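import Mathlib
import Cfsg.Statements.S4299
import Cfsg.Agent.S4293

set_option autoImplicit false
open Cfsg

namespace Cfsg.Agent.S4299

/-- Every nontrivial finite cyclic group occurs as a Frobenius complement of some finite Frobenius group. -/
theorem result {C : Type*} [Group C] [Finite C] [IsCyclic C] [Nontrivial C] :
    ∃ (L : Type) (_ : Group L) (_ : Finite L) (H : Subgroup L), Cfsg.IsFrobeniusComplement H ∧ Nonempty (C ≃* H) := by
  have hn : 1 < Nat.card C := Finite.one_lt_card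
  obtain ⟨p, hp, -, hpmod⟩ := Nat.exists_prime_gt_modEq_one (k := Nat.card C) 0 (by omega)
  have hfact : Fact p.Prime := ⟨hp⟩
  have hdvd : Nat.card C ∣ p - 1 := (Nat.modEq_iff_dvd' hp.one_le).mp hpmod.symm
  obtain ⟨g, hg⟩ := IsCyclic.exists_generator (α := (ZMod p)ˣ)
  have hord : orderOf g = p - 1 := by
    rw [orderOf_eq_card_of_forall_mem_zpowers hg, Nat.card_eq_fintype_card, ZMod.card_units]
  have hp1 : p - 1 ≠ 0 := by have := hp.two_le; omega
  obtain ⟨d, hd⟩ : ∃ d, d = (p - 1) / Nat.card C := ⟨_, rfl⟩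
  have hd0 : d ≠ 0 := by
    rw [hd]
    exact (Nat.div_pos (Nat.le_of_dvd (by omega) hdvd) (by omega)).ne'
  have hdd : d ∣ orderOf g := by rw [hord, hd]; exact Nat.div_dvd_of_dvd hdvd
  have hu : orderOf (g ^ d) = Nat.card C := by
    rw [orderOf_pow_of_dvd hd0 hdd, hord, hd, Nat.div_div_self hdvd hp1]
  have hcard : Nat.card (Subgroup.zpowers (g ^ d)) = Nat.card C := by
    rw [Nat.card_zpowers, hu]
  have hne : Subgroup.zpowers (g ^ d) ≠ ⊥ := by
    intro hbot
    rw [hbot, Subgroup.card_bot] at hcard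
    omega
  obtain ⟨L, iG, iF, K, hK, ⟨e⟩⟩ :=
    Cfsg.Agent.S4293.result (D := ZMod p) (Subgroup.zpowers (g ^ d)) hne
  exact ⟨L, iG, iF, K, hK, ⟨(mulEquivOfCyclicCardEq hcard.symm).trans e⟩⟩

end Cfsg.Agent.S4299
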