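import Cfsg.Statements.S4300

set_option autoImplicit false
open Cfsg

namespace Cfsg.Agent.S4300

/-- Let G act faithfully and primitively on a set X, and suppose the stabilizer of some point is a simple group. Then either G is simple, or G has a normal subgroup, neither trivial nor the whole group, that acts regularly on X (transitively with trivial point stabilizers). -/
theorem result {G : Type*} [Group G] {X : Type*} [MulAction G X] [FaithfulSMul G X]
    (hprim : MulAction.IsPreprimitive G X) (x : X) (hsimple : IsSimpleGroup (MulAction.stabilizer G x)) :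
    IsSimpleGroup G ∨ ∃ N : Subgroup G, N.Normal ∧ N ≠ ⊥ ∧ N ≠ ⊤ ∧
      MulAction.IsPretransitive N X ∧ ∀ y : X, MulAction.stabilizer N y = ⊥ := by
  by_cases hs : IsSimpleGroup G
  · exact Or.inl hs
  right
  have hnt : Nontrivial G := by
    obtain ⟨a, b, hab⟩ := hsimple.toNontrivial
    exact ⟨⟨(a : G), (b : G), fun h => hab (Subtype.ext h)⟩⟩
  have hex : ∃ N : Subgroup G, N.Normal ∧ N ≠ ⊥ ∧ N ≠ ⊤ := by
    by_contra hcon
    apply hs
    refine ⟨fun N hN => ?_⟩
    by_contra h2
    push Not at h2
    exact hcon ⟨N, hN, h2.1, h2.2⟩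
  obtain ⟨N, hN, hNbot, hNtop⟩ := hex
  have hfix : MulAction.fixedPoints N X ≠ Set.univ := by
    intro hfix
    apply hNbot
    rw [Subgroup.eq_bot_iff_forall]
    intro n hn
    apply FaithfulSMul.eq_of_smul_eq_smul (α := X)
    intro y
    have hy : y ∈ MulAction.fixedPoints N X := by rw [hfix]; trivial
    have := hy ⟨n, hn⟩
    simpa using this
  have htrans : MulAction.IsPretransitive N X :=
    MulAction.IsQuasiPreprimitive.isPretransitive_of_normal hfix
  have hK : (N.subgroupOf (MulAction.stabilizer G x)).Normal := inferInstance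
  have hdisj : N ⊓ MulAction.stabilizer G x = ⊥ := by
    rcases hsimple.eq_bot_or_eq_top_of_normal _ hK with h | h
    · rw [Subgroup.subgroupOf_eq_bot] at h
      exact disjoint_iff.1 h
    · exfalso
      rw [Subgroup.subgroupOf_eq_top] at h
      apply hNtop
      rw [eq_top_iff]
      intro g _
      obtain ⟨n, hn⟩ := htrans.exists_smul_eq x (g • x)
      have h1 : (n : G)⁻¹ * g ∈ MulAction.stabilizer G x := by
        rw [MulAction.mem_stabilizer_iff, mul_smul, ← hn]
        show (n : G)⁻¹ • ((n : G) • x) = x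
        rw [inv_smul_smul]
      have h2 : (n : G)⁻¹ * g ∈ N := h h1
      have h3 := N.mul_mem n.2 h2
      simpa using h3
  refine ⟨N, hN, hNbot, hNtop, htrans, ?_⟩
  intro y
  rw [Subgroup.eq_bot_iff_forall]
  intro n hn
  obtain ⟨g, rfl⟩ := MulAction.exists_smul_eq G x y
  rw [MulAction.mem_stabilizer_iff] at hn
  have hn' : (n : G) • (g • x) = g • x := hn
  have h1 : g⁻¹ * (n : G) * g ∈ MulAction.stabilizer G x := by
    rw [MulAction.mem_stabilizer_iff, mul_smul, mul_smul, hn', inv_smul_smul]
  have h2 : g⁻¹ * (n : G) * g ∈ N := by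
    have := hN.conj_mem (n : G) n.2 g⁻¹
    simpa using this
  have h3 : g⁻¹ * (n : G) * g ∈ N ⊓ MulAction.stabilizer G x := ⟨h2, h1⟩
  rw [hdisj, Subgroup.mem_bot] at h3
  have h4 : (n : G) = 1 := by
    have : (n : G) = g * (g⁻¹ * (n : G) * g) * g⁻¹ := by group
    rw [this, h3]; group
  exact Subtype.ext h4

end Cfsg.Agent.S4300
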