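import Cfsg.Statements.S4301
import Mathlib

set_option autoImplicit false
open Cfsg

namespace Cfsg.Agent.S4301

open Equiv

/-- One-point extension of a multiply transitive group. Let X be a set and G a group of permutations of Option X (the set X with one extra point ∗ = none) all of whose elements fix ∗, such that G is k-transitive on the points of X for some k ≥ 2, X having at least k points. Suppose a permutation h of Option X and an element g of G satisfy: h interchanges ∗ with a point x of X and fixes a point y of X; g interchanges x and y; (g h)³ and h² lie in G; and for every f in G fixing x, the product h f h lies in G and fixes x. Then an element of the group generated by G and h fixes ∗ exactly when it lies in G, and that group acts (k+1)-transitively on Option X. -/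
theorem result {X : Type*} (G : Subgroup (Equiv.Perm (Option X))) (hfix : ∀ f ∈ G, f none = none)
    (k : ℕ) (hk : 2 ≤ k) (hkX : Nonempty (Fin k ↪ X))
    (htrans : ∀ a b : Fin k ↪ X, ∃ f ∈ G, ∀ i, f (some (a i)) = some (b i))
    (h g : Equiv.Perm (Option X)) (hg : g ∈ G) (x y : X)
    (h1 : h none = some x) (h2 : h (some x) = none) (h3 : h (some y) = some y)
    (h4 : g (some x) = some y) (h5 : g (some y) = some x)
    (h6 : (g * h) ^ 3 ∈ G) (h7 : h ^ 2 ∈ G)
    (h8 : ∀ f ∈ G, f (some x) = some x → h * f * h ∈ G ∧ (h * f * h) (some x) = some x) :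
    (∀ f ∈ Subgroup.closure ((G : Set (Equiv.Perm (Option X))) ∪ {h}), f none = none ↔ f ∈ G) ∧
      MulAction.IsMultiplyPretransitive (Subgroup.closure ((G : Set (Equiv.Perm (Option X))) ∪ {h})) (Option X) (k + 1) := by
  classical
  have hxy : x ≠ y := by
    rintro rfl
    rw [h2] at h3
    exact absurd h3 (by simp)
  -- two-point transitivity
  have hT2 : ∀ z w z' w' : X, z ≠ w → z' ≠ w' →
      ∃ f ∈ G, f (some z) = some z' ∧ f (some w) = some w' := by
    obtain ⟨e₀⟩ := hkX
    have key : ∀ z w : X, z ≠ w →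
        ∃ a : Fin k ↪ X, a ⟨0, by omega⟩ = z ∧ a ⟨1, by omega⟩ = w := by
      intro z w hzw
      set p0 : Fin k := ⟨0, by omega⟩ with hp0
      set p1 : Fin k := ⟨1, by omega⟩ with hp1
      have hp01 : p1 ≠ p0 := by
        intro h
        have := congrArg Fin.val h
        simp [hp0, hp1] at this
      set σ₁ : Perm X := swap (e₀ p0) z with hσ₁
      set u := σ₁ (e₀ p1) with hu
      have hσ₁0 : σ₁ (e₀ p0) = z := swap_apply_left _ _
      have huz : u ≠ z := by
        intro h
        have h' : σ₁ (e₀ p1) = σ₁ (e₀ p0) := by rw [hσ₁0]; exact h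
        exact hp01 (e₀.injective (σ₁.injective h'))
      set σ₂ : Perm X := swap u w with hσ₂
      refine ⟨e₀.trans (σ₁.trans σ₂).toEmbedding, ?_, ?_⟩
      · show σ₂ (σ₁ (e₀ p0)) = z
        rw [hσ₁0, hσ₂]
        exact swap_apply_of_ne_of_ne (Ne.symm huz) hzw
      · show σ₂ (σ₁ (e₀ p1)) = w
        rw [hσ₂]
        exact swap_apply_left _ _
    intro z w z' w' hzw hzw'
    obtain ⟨a, ha0, ha1⟩ := key z w hzw
    obtain ⟨b, hb0, hb1⟩ := key z' w' hzw'
    obtain ⟨f, hf, hfi⟩ := htrans a b
    exact ⟨f, hf, by rw [← ha0, ← hb0]; exact hfi _, by rw [← ha1, ← hb1]; exact hfi _⟩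
  set γ := h ^ 2 with hγ
  have hγ' : γ = h * h := pow_two h
  set δ := (g * h) ^ 3 with hδ
  have hδ' : δ = g * h * (g * h) * (g * h) := by rw [hδ, pow_succ, pow_two]
  have hsome : ∀ f ∈ G, ∀ z : X, ∃ z', f (some z) = some z' := by
    intro f hf z
    rcases hfz : f (some z) with _ | z'
    · exfalso
      have := f.injective (hfz.trans (hfix f hf).symm)
      exact absurd this (by simp)
    · exact ⟨z', rfl⟩
  -- the key claim
  have key : ∀ e ∈ G, h * e * h ∈ G ∨ ∃ a ∈ G, ∃ b ∈ G, h * e * h = a * h * b := by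
    intro e he
    by_cases hex : e (some x) = some x
    · exact Or.inl (h8 e he hex).1
    · right
      obtain ⟨z, hz⟩ := hsome e he x
      have hzx : z ≠ x := by
        rintro rfl
        exact hex hz
      obtain ⟨η, hη, hηx, hηy⟩ := hT2 x y x z hxy (Ne.symm hzx)
      set η₂ := g⁻¹ * η⁻¹ * e with hη₂
      have hη₂G : η₂ ∈ G := G.mul_mem (G.mul_mem (G.inv_mem hg) (G.inv_mem hη)) he
      have hη₂x : η₂ (some x) = some x := by
        rw [hη₂, Perm.mul_apply, Perm.mul_apply, hz, ← hηy, ← h4]
        simp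
      have he' : e = η * g * η₂ := by rw [hη₂]; group
      obtain ⟨hA, -⟩ := h8 η hη hηx
      obtain ⟨hB, -⟩ := h8 η₂ hη₂G hη₂x
      refine ⟨(h * η * h) * γ⁻¹ * g⁻¹ * δ * γ⁻¹,
        G.mul_mem (G.mul_mem (G.mul_mem (G.mul_mem hA (G.inv_mem h7)) (G.inv_mem hg)) h6)
          (G.inv_mem h7),
        g⁻¹ * γ⁻¹ * (h * η₂ * h), G.mul_mem (G.mul_mem (G.inv_mem hg) (G.inv_mem h7)) hB, ?_⟩
      rw [he', hδ', hγ']
      group
  -- the subgroup `G ∪ G h G`
  let S : Subgroup (Perm (Option X)) :=
    { carrier := {f | f ∈ G ∨ ∃ a ∈ G, ∃ b ∈ G, f = a * h * b}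
      mul_mem' := by
        rintro f f' (hf | ⟨a, ha, b, hb, rfl⟩) (hf' | ⟨c, hc, d, hd, rfl⟩)
        · exact Or.inl (G.mul_mem hf hf')
        · exact Or.inr ⟨f * c, G.mul_mem hf hc, d, hd, by group⟩
        · exact Or.inr ⟨a, ha, b * f', G.mul_mem hb hf', by group⟩
        · rcases key (b * c) (G.mul_mem hb hc) with h1' | ⟨a', ha', b', hb', h1'⟩
          · left
            have : a * h * b * (c * h * d) = a * (h * (b * c) * h) * d := by group
            rw [this]
            exact G.mul_mem (G.mul_mem ha h1') hd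
          · right
            refine ⟨a * a', G.mul_mem ha ha', b' * d, G.mul_mem hb' hd, ?_⟩
            have : a * h * b * (c * h * d) = a * (h * (b * c) * h) * d := by group
            rw [this, h1']; group
      one_mem' := Or.inl G.one_mem
      inv_mem' := by
        rintro f (hf | ⟨a, ha, b, hb, rfl⟩)
        · exact Or.inl (G.inv_mem hf)
        · refine Or.inr ⟨b⁻¹ * γ⁻¹, G.mul_mem (G.inv_mem hb) (G.inv_mem h7), a⁻¹, G.inv_mem ha, ?_⟩
          rw [hγ']; group }
  set K := Subgroup.closure ((G : Set (Equiv.Perm (Option X))) ∪ {h}) with hK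
  have hKS : ∀ f ∈ K, f ∈ G ∨ ∃ a ∈ G, ∃ b ∈ G, f = a * h * b := by
    have hle : K ≤ S := by
      rw [hK, Subgroup.closure_le]
      rintro f (hf | hf)
      · exact Or.inl hf
      · rw [Set.mem_singleton_iff] at hf
        exact Or.inr ⟨1, G.one_mem, 1, G.one_mem, by rw [hf]; group⟩
    intro f hf
    exact hle hf
  have hGK : G ≤ K := by
    intro f hf
    exact Subgroup.subset_closure (Or.inl hf)
  have hhK : h ∈ K := Subgroup.subset_closure (Or.inr rfl)
  have hmove : ∀ p : Option X, ∃ f ∈ K, f p = none := by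
    intro p
    cases p with
    | none => exact ⟨1, K.one_mem, rfl⟩
    | some z =>
      by_cases hzx : z = x
      · subst hzx
        exact ⟨h, hhK, h2⟩
      · obtain ⟨f₀, hf₀, hf₀z, -⟩ := hT2 z x x z hzx (Ne.symm hzx)
        exact ⟨h * f₀, K.mul_mem hhK (hGK hf₀), by rw [Perm.mul_apply, hf₀z, h2]⟩
  have htail : ∀ (w : Fin (k + 1) ↪ Option X) (f : Perm (Option X)), f (w 0) = none →
      ∃ a : Fin k ↪ X, ∀ i : Fin k, f (w i.succ) = some (a i) := by
    intro w f hf0
    have hne : ∀ i : Fin k, ∃ z, f (w i.succ) = some z := by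
      intro i
      rcases hfz : f (w i.succ) with _ | z
      · exfalso
        have := w.injective (f.injective (hfz.trans hf0.symm))
        exact Fin.succ_ne_zero i this
      · exact ⟨z, rfl⟩
    choose a ha using hne
    refine ⟨⟨a, ?_⟩, ha⟩
    intro i j hij
    have : f (w i.succ) = f (w j.succ) := by rw [ha i, ha j, hij]
    exact Fin.succ_injective _ (w.injective (f.injective this))
  refine ⟨?_, ⟨?_⟩⟩
  · intro f hf
    constructor
    · intro hfn
      rcases hKS f hf with hfG | ⟨a, ha, b, hb, rfl⟩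
      · exact hfG
      · exfalso
        rw [Perm.mul_apply, Perm.mul_apply, hfix b hb, h1] at hfn
        have := a.injective (hfn.trans (hfix a ha).symm)
        exact absurd this (by simp)
    · intro hfG
      exact hfix f hfG
  · intro u v
    obtain ⟨fu, hfu, hfu0⟩ := hmove (u 0)
    obtain ⟨fv, hfv, hfv0⟩ := hmove (v 0)
    obtain ⟨a, ha⟩ := htail u fu hfu0
    obtain ⟨b, hb⟩ := htail v fv hfv0
    obtain ⟨f, hf, hfab⟩ := htrans a b
    refine ⟨⟨fv⁻¹ * f * fu, K.mul_mem (K.mul_mem (K.inv_mem hfv) (hGK hf)) hfu⟩, ?_⟩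
    refine Function.Embedding.ext (fun i => ?_)
    show fv⁻¹ (f (fu (u i))) = v i
    rw [Perm.inv_eq_iff_eq]
    refine Fin.cases ?_ (fun j => ?_) i
    · rw [hfu0, hfv0, hfix f hf]
    · rw [ha j, hb j, hfab j]

end Cfsg.Agent.S4301
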