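import Cfsg.Statements.S4309

set_option autoImplicit false
open Cfsg

namespace Cfsg.Agent.S4309

theorem relIndex_mul_card_inf {G : Type*} [Group G] (H K : Subgroup G) :
    H.relIndex K * Nat.card ↥(H ⊓ K) = Nat.card K := by
  have h1 := (H.subgroupOf K).index_mul_card
  have h2 : Nat.card (H.subgroupOf K) = Nat.card ↥(H ⊓ K) := by
    rw [← Subgroup.inf_subgroupOf_right]
    exact Nat.card_congr (Subgroup.subgroupOfEquivOfLe inf_le_right).toEquiv
  rw [h2] at h1
  exact h1

theorem relIndex_dvd_index_of_normal_right {G : Type*} [Group G] [Finite G] (H A : Subgroup G)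
    [A.Normal] : H.relIndex A ∣ H.index := by
  have h1 := relIndex_mul_card_inf H A
  have h2 := relIndex_mul_card_inf A H
  have h3 := relIndex_mul_card_inf A (H ⊔ A)
  have h4 := relIndex_mul_card_inf H (H ⊔ A)
  rw [Subgroup.relIndex_sup_right] at h3
  rw [inf_of_le_left (le_sup_right : A ≤ H ⊔ A)] at h3
  rw [inf_of_le_left (le_sup_left : H ≤ H ⊔ A)] at h4
  rw [inf_comm] at h2
  have hpos : 0 < Nat.card H := Nat.card_pos
  have h5 : H.relIndex (H ⊔ A) * Nat.card H = H.relIndex A * Nat.card H := by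
    rw [h4, ← h3, ← h1, ← h2]
    ring
  have h6 : H.relIndex (H ⊔ A) = H.relIndex A := Nat.eq_of_mul_eq_mul_right hpos h5
  rw [← h6]
  exact Subgroup.relIndex_dvd_index_of_le le_sup_left

/-- Let `π` be a set of primes, `G` a finite group with a Hall `π`-subgroup `H` (every prime divisor of the order of `H` lies in `π` and no prime of `π` divides its index), and `A` a normal subgroup of `G`. Then `H ∩ A` is a Hall `π`-subgroup of `A` and the image of `H` in `G/A` is a Hall `π`-subgroup of `G/A`. -/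
theorem result {G : Type*} [Group G] [Finite G] (π : Set ℕ)
    (H A : Subgroup G) [A.Normal] (hH : Cfsg.IsPiHall π H) :
    Cfsg.IsPiHall π ((H ⊓ A).subgroupOf A) ∧ Cfsg.IsPiHall π (H.map (QuotientGroup.mk' A)) := by
  obtain ⟨hH1, hH2⟩ := hH
  refine ⟨⟨?_, ?_⟩, ⟨?_, ?_⟩⟩
  · intro p hp hdvd
    apply hH1 p hp
    have h1 : Nat.card ((H ⊓ A).subgroupOf A) = Nat.card ↥(H ⊓ A) :=
      Nat.card_congr (Subgroup.subgroupOfEquivOfLe inf_le_right).toEquiv
    rw [h1] at hdvd
    exact dvd_trans hdvd (Subgroup.card_dvd_of_le inf_le_left)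
  · intro p hp hpπ hdvd
    apply hH2 p hp hpπ
    have h1 : ((H ⊓ A).subgroupOf A).index = H.relIndex A := by
      rw [Subgroup.inf_subgroupOf_right]; rfl
    rw [h1] at hdvd
    exact dvd_trans hdvd (relIndex_dvd_index_of_normal_right H A)
  · intro p hp hdvd
    exact hH1 p hp (dvd_trans hdvd (Subgroup.card_map_dvd H _))
  · intro p hp hpπ hdvd
    apply hH2 p hp hpπ
    rw [Subgroup.index_map, QuotientGroup.ker_mk', MonoidHom.range_eq_top.2 (QuotientGroup.mk'_surjective A),
      Subgroup.index_top, mul_one] at hdvd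
    exact dvd_trans hdvd (Subgroup.index_dvd_of_le le_sup_left)

end Cfsg.Agent.S4309
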