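import Mathlib
import Cfsg.Statements.S4314

set_option autoImplicit false
open Cfsg

namespace Cfsg.Agent.S4314

section aux

variable {G : Type*} [Group G]

theorem mem_cent {x g : G} : g ∈ Subgroup.centralizer ({x} : Set G) ↔ g * x = x * g := by
  rw [Subgroup.mem_centralizer_iff]
  constructor
  · intro h; exact (h x rfl).symm
  · intro h y hy; rw [Set.mem_singleton_iff] at hy; rw [hy]; exact h.symm

theorem eq_of_le_of_prime_index {H K : Subgroup G} (hHK : H ≤ K) (hH : H.index.Prime)
    (hK : K ≠ ⊤) : H = K := by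
  have h1 := Subgroup.relIndex_mul_index hHK
  have h2 : K.index ≠ 1 := fun h => hK (Subgroup.index_eq_one.mp h)
  have h3 : K.index ∣ H.index := Dvd.intro_left _ h1
  have h4 : K.index = H.index := ((Nat.dvd_prime hH).mp h3).resolve_left h2
  rw [h4] at h1
  have h5 : H.relIndex K = 1 := by
    have hpos : 0 < H.index := hH.pos
    exact Nat.eq_of_mul_eq_mul_right hpos (by rw [h1, one_mul])
  exact le_antisymm hHK (Subgroup.relIndex_eq_one.mp h5)

theorem cent_ne_top {x : G} (hx : x ∉ Subgroup.center G) :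
    Subgroup.centralizer ({x} : Set G) ≠ ⊤ := by
  intro h2
  rw [Subgroup.centralizer_eq_top_iff_subset] at h2
  exact hx (h2 (Set.mem_singleton x))

theorem index_prime_of_not_mem_center
    (h : ∀ x : G, (Subgroup.centralizer ({x} : Set G)).index = 1 ∨
      ((Subgroup.centralizer ({x} : Set G)).index).Prime)
    {x : G} (hx : x ∉ Subgroup.center G) :
    ((Subgroup.centralizer ({x} : Set G)).index).Prime := by
  rcases h x with h1 | h1
  · exact absurd (Subgroup.index_eq_one.mp h1) (cent_ne_top hx)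
  · exact h1

theorem cent_eq_of_coprime
    (h : ∀ x : G, (Subgroup.centralizer ({x} : Set G)).index = 1 ∨
      ((Subgroup.centralizer ({x} : Set G)).index).Prime)
    {x y : G} (hxy : x * y = y * x)
    (hco : (orderOf x).Coprime (orderOf y)) (hx : x ∉ Subgroup.center G)
    (hy : y ∉ Subgroup.center G) :
    Subgroup.centralizer ({x} : Set G) = Subgroup.centralizer ({y} : Set G) := by
  have hcomm : Commute x y := hxy
  have key : ∀ g : G, g * (x * y) = (x * y) * g → g * x = x * g ∧ g * y = y * g := by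
    intro g hg
    have hg' : Commute g (x * y) := hg
    have hx' : ∃ n : ℕ, (x * y) ^ n = x := by
      obtain ⟨m, hm⟩ := exists_pow_eq_self_of_coprime (x := x) hco.symm
      refine ⟨orderOf y * m, ?_⟩
      rw [pow_mul, hcomm.mul_pow, pow_orderOf_eq_one, mul_one, hm]
    have hy' : ∃ n : ℕ, (x * y) ^ n = y := by
      obtain ⟨m, hm⟩ := exists_pow_eq_self_of_coprime (x := y) hco
      refine ⟨orderOf x * m, ?_⟩
      rw [pow_mul, hcomm.mul_pow, pow_orderOf_eq_one, one_mul, hm]
    obtain ⟨n, hn⟩ := hx'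
    obtain ⟨n', hn'⟩ := hy'
    constructor
    · have h1 := hg'.pow_right n
      rw [hn] at h1
      exact h1
    · have h1 := hg'.pow_right n'
      rw [hn'] at h1
      exact h1
  have hxyc : x * y ∉ Subgroup.center G := by
    intro hc
    apply hx
    rw [Subgroup.mem_center_iff] at hc ⊢
    intro g
    exact (key g (hc g)).1
  have hp := index_prime_of_not_mem_center h hxyc
  have h1 : Subgroup.centralizer ({x * y} : Set G) ≤ Subgroup.centralizer ({x} : Set G) := by
    intro g hg
    rw [mem_cent] at hg ⊢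
    exact (key g hg).1
  have h2 : Subgroup.centralizer ({x * y} : Set G) ≤ Subgroup.centralizer ({y} : Set G) := by
    intro g hg
    rw [mem_cent] at hg ⊢
    exact (key g hg).2
  rw [← eq_of_le_of_prime_index h1 hp (cent_ne_top hx),
    ← eq_of_le_of_prime_index h2 hp (cent_ne_top hy)]

theorem mem_of_pow_mem_of_coprime (S : Subgroup G) {x : G} {a b : ℕ} (hab : a.Coprime b)
    (ha : x ^ a ∈ S) (hb : x ^ b ∈ S) : x ∈ S := by
  have h1 : (x ^ (a : ℤ)) ^ (Nat.gcdA a b) * (x ^ (b : ℤ)) ^ (Nat.gcdB a b) = x := by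
    rw [← zpow_mul, ← zpow_mul, ← zpow_add, ← Nat.gcd_eq_gcd_ab, hab.gcd_eq_one]
    simp
  rw [← h1]
  exact S.mul_mem (S.zpow_mem (by rw [zpow_natCast]; exact ha) _)
    (S.zpow_mem (by rw [zpow_natCast]; exact hb) _)

theorem exists_primePow_pow_not_mem [Finite G] (S : Subgroup G) :
    ∀ (n : ℕ) (x : G), orderOf x = n → x ∉ S →
      ∃ (q : ℕ) (m : ℕ) (j : ℕ), q.Prime ∧ orderOf (x ^ m) = q ^ j ∧ x ^ m ∉ S := by
  intro n
  induction n using Nat.strong_induction_on with
  | _ n ih =>
    intro x hx hxS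
    have hn0 : n ≠ 0 := by rw [← hx]; exact (orderOf_pos x).ne'
    have hn1 : n ≠ 1 := by
      intro h1
      rw [h1, orderOf_eq_one_iff] at hx
      exact hxS (hx ▸ S.one_mem)
    obtain ⟨q, hq, hqn⟩ := Nat.exists_prime_and_dvd hn1
    obtain ⟨j, m, hm, hnm⟩ := Nat.exists_eq_pow_mul_and_not_dvd hn0 q hq.ne_one
    have hm0 : m ≠ 0 := by rintro rfl; exact hm (dvd_zero q)
    by_cases hm1 : m = 1
    · refine ⟨q, 1, j, hq, ?_, ?_⟩
      · rw [pow_one, hx, hnm, hm1, mul_one]
      · rw [pow_one]; exact hxS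
    · have hj : j ≠ 0 := by
        intro hj0
        rw [hj0, pow_zero, one_mul] at hnm
        exact hm (hnm ▸ hqn)
      have hqj0 : q ^ j ≠ 0 := pow_ne_zero j hq.ne_zero
      have hcop : (q ^ j).Coprime m :=
        Nat.Coprime.pow_left j ((Nat.Prime.coprime_iff_not_dvd hq).mpr hm)
      have ho1 : orderOf (x ^ m) = q ^ j := by
        rw [orderOf_pow_of_dvd hm0 (by rw [hx, hnm]; exact dvd_mul_left m _), hx, hnm]
        exact Nat.mul_div_cancel _ (Nat.pos_of_ne_zero hm0)
      have ho2 : orderOf (x ^ (q ^ j)) = m := by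
        rw [orderOf_pow_of_dvd hqj0 (by rw [hx, hnm]; exact dvd_mul_right _ m), hx, hnm]
        exact Nat.mul_div_cancel_left _ (Nat.pos_of_ne_zero hqj0)
      by_cases h1 : x ^ m ∈ S
      · have h2 : x ^ (q ^ j) ∉ S := fun h2 =>
          hxS (mem_of_pow_mem_of_coprime S hcop h2 h1)
        have hlt : m < n := by
          rw [hnm]
          exact lt_mul_of_one_lt_left (Nat.pos_of_ne_zero hm0) (Nat.one_lt_pow hj hq.one_lt)
        obtain ⟨q', m', j', hq', ho, hnS⟩ := ih m hlt (x ^ (q ^ j)) ho2 h2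
        refine ⟨q', q ^ j * m', j', hq', ?_, ?_⟩
        · rw [pow_mul]; exact ho
        · rw [pow_mul]; exact hnS
      · exact ⟨q, m, j, hq, ho1, h1⟩

theorem mem_core_of_pElement [Finite G] {p : ℕ} [Fact p.Prime] (M : Subgroup G)
    (hM : M.index = p) {z : G} (hz : ∃ j : ℕ, orderOf z = p ^ j) (hzM : z ∈ M) :
    z ∈ M.normalCore := by
  obtain ⟨j, hj⟩ := hz
  have hP : IsPGroup p (Subgroup.zpowers z) := by
    apply IsPGroup.of_card (n := j)
    rw [Nat.card_zpowers, hj]
  have hmod := hP.card_modEq_card_fixedPoints (G ⧸ M)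
  have hcard : Nat.card (G ⧸ M) = p := hM
  rw [hcard] at hmod
  have hdvd : p ∣ Nat.card (MulAction.fixedPoints (Subgroup.zpowers z) (G ⧸ M)) :=
    (hmod.dvd_iff dvd_rfl).mp dvd_rfl
  have h1mem : ((1 : G) : G ⧸ M) ∈ MulAction.fixedPoints (Subgroup.zpowers z) (G ⧸ M) := by
    intro s
    show (((s : G) * 1 : G) : G ⧸ M) = ((1 : G) : G ⧸ M)
    rw [QuotientGroup.eq]
    have hs : (s : G) ∈ M := (Subgroup.zpowers_le.mpr hzM) s.2
    simpa using M.inv_mem hs
  have hpos : 0 < Nat.card (MulAction.fixedPoints (Subgroup.zpowers z) (G ⧸ M)) :=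
    Nat.card_pos_iff.mpr ⟨⟨⟨_, h1mem⟩⟩, inferInstance⟩
  have hge := Nat.le_of_dvd hpos hdvd
  have huniv : MulAction.fixedPoints (Subgroup.zpowers z) (G ⧸ M) = Set.univ := by
    by_contra hne
    have h1 := Set.ncard_lt_ncard (Set.ssubset_univ_iff.mpr hne)
    rw [Set.ncard_univ, hcard, ← Nat.card_coe_set_eq] at h1
    omega
  show ∀ b : G, b * z * b⁻¹ ∈ M
  intro b
  have hb : ((b⁻¹ : G) : G ⧸ M) ∈ MulAction.fixedPoints (Subgroup.zpowers z) (G ⧸ M) := by
    rw [huniv]; exact Set.mem_univ _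
  have h2 := hb ⟨z, Subgroup.mem_zpowers z⟩
  have h3 : ((z * b⁻¹ : G) : G ⧸ M) = ((b⁻¹ : G) : G ⧸ M) := h2
  rw [QuotientGroup.eq] at h3
  have h4 := M.inv_mem h3
  have h5 : ((z * b⁻¹)⁻¹ * b⁻¹)⁻¹ = b * z * b⁻¹ := by group
  rw [h5] at h4
  exact h4

theorem exists_mem_zpowers_mul [Finite G] {p : ℕ} [Fact p.Prime] (M : Subgroup G)
    (hM : M.index = p) {y : G} (hy : ∃ j : ℕ, orderOf y = p ^ j) (hyM : y ∉ M) (b : G) :
    ∃ s ∈ Subgroup.zpowers y, s⁻¹ * b ∈ M := by
  obtain ⟨j, hj⟩ := hy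
  have hp : p.Prime := Fact.out
  have hcard : Nat.card (G ⧸ M) = p := hM
  have hdvd : (MulAction.orbit (Subgroup.zpowers y) ((1 : G) : G ⧸ M)).ncard ∣ p ^ j := by
    rw [← MulAction.index_stabilizer, ← hj, ← Nat.card_zpowers]
    exact Subgroup.index_dvd_card _
  obtain ⟨i, hi, hci⟩ := (Nat.dvd_prime_pow hp).mp hdvd
  have huniv : MulAction.orbit (Subgroup.zpowers y) ((1 : G) : G ⧸ M) = Set.univ := by
    by_contra hne
    have h1 := Set.ncard_lt_ncard (Set.ssubset_univ_iff.mpr hne)
    rw [Set.ncard_univ, hcard, hci] at h1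
    have hi0 : i = 0 := by
      by_contra hi0
      have h2 : p ^ 1 ≤ p ^ i := Nat.pow_le_pow_right hp.pos (Nat.one_le_iff_ne_zero.mpr hi0)
      rw [pow_one] at h2
      omega
    rw [hi0, pow_zero] at hci
    obtain ⟨a, ha⟩ := Set.ncard_eq_one.mp hci
    have h2 : (⟨y, Subgroup.mem_zpowers y⟩ : Subgroup.zpowers y) • ((1 : G) : G ⧸ M) ∈
        MulAction.orbit (Subgroup.zpowers y) ((1 : G) : G ⧸ M) := MulAction.mem_orbit _ _
    have h2' : ((1 : G) : G ⧸ M) ∈ MulAction.orbit (Subgroup.zpowers y) ((1 : G) : G ⧸ M) :=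
      MulAction.mem_orbit_self _
    rw [ha, Set.mem_singleton_iff] at h2 h2'
    have h3 : ((y * 1 : G) : G ⧸ M) = ((1 : G) : G ⧸ M) := h2.trans h2'.symm
    rw [QuotientGroup.eq] at h3
    apply hyM
    have h4 := M.inv_mem h3
    simpa using h4
  have hb : ((b : G) : G ⧸ M) ∈ MulAction.orbit (Subgroup.zpowers y) ((1 : G) : G ⧸ M) := by
    rw [huniv]; exact Set.mem_univ _
  obtain ⟨s, hs⟩ := hb
  refine ⟨s, s.2, ?_⟩
  have h3 : (((s : G) * 1 : G) : G ⧸ M) = ((b : G) : G ⧸ M) := hs
  rw [QuotientGroup.eq] at h3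
  simpa using h3

theorem normal_of_quotient_comm (M K : Subgroup G) [K.Normal] (hKM : K ≤ M)
    (hcomm : ∀ u v : G ⧸ K, u * v = v * u) : M.Normal := by
  constructor
  intro n hn g
  have h1 : n⁻¹ * g * n * g⁻¹ ∈ K := by
    rw [← QuotientGroup.eq_one_iff]
    simp only [QuotientGroup.mk_mul, QuotientGroup.mk_inv]
    rw [mul_assoc ((n : G ⧸ K))⁻¹, hcomm (g : G ⧸ K) (n : G ⧸ K)]
    group
  have h2 : g * n * g⁻¹ = n * (n⁻¹ * g * n * g⁻¹) := by group
  rw [h2]
  exact M.mul_mem hn (hKM h1)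

theorem transport (K : Subgroup G) [K.Normal] (Z : Subgroup G) [Z.Normal]
    (hKZ : K = Z) (p s : ℕ) (hcard : Nat.card (G ⧸ K) = p * s)
    (hnc : ¬ ∀ u v : G ⧸ K, u * v = v * u) :
    Nat.card (G ⧸ Z) = p * s ∧ ¬ IsMulCommutative (G ⧸ Z) := by
  subst hKZ
  refine ⟨hcard, ?_⟩
  intro hc
  apply hnc
  intro u v
  exact hc.is_comm.comm u v

end aux

/-- Let `G` be a finite group every conjugacy class of which has size 1 or a prime. Then either `G` is nilpotent of class at most 2, or `G/Z(G)` is a non-abelian group of order `pq` for distinct primes `p, q` (a Frobenius group of order `pq`). -/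
theorem result {G : Type*} [Group G] [Finite G]
    (h : ∀ x : G, (Subgroup.centralizer ({x} : Set G)).index = 1 ∨ ((Subgroup.centralizer ({x} : Set G)).index).Prime) :
    Subgroup.upperCentralSeries G 2 = ⊤ ∨
      ∃ p q : ℕ, p.Prime ∧ q.Prime ∧ p ≠ q ∧ Nat.card (G ⧸ Subgroup.center G) = p * q ∧ ¬ IsMulCommutative (G ⧸ Subgroup.center G) := by
  classical
  by_cases hall : ∀ x : G, (Subgroup.centralizer ({x} : Set G)).Normal
  · left
    have hcomm : ∀ a b : G, a * b * a⁻¹ * b⁻¹ ∈ Subgroup.center G := by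
      intro a b
      rw [Subgroup.mem_center_iff]
      intro g
      have hg : a * b * a⁻¹ * b⁻¹ ∈ Subgroup.centralizer ({g} : Set G) := by
        have hn := hall g
        rcases h g with h1 | h1
        · rw [Subgroup.index_eq_one.mp h1]; exact Subgroup.mem_top _
        · have hfact : Fact ((Subgroup.centralizer ({g} : Set G)).index).Prime := ⟨h1⟩
          have hcyc : IsCyclic (G ⧸ Subgroup.centralizer ({g} : Set G)) :=
            isCyclic_of_prime_card (p := (Subgroup.centralizer ({g} : Set G)).index) rfl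
          obtain ⟨c, hc⟩ := hcyc.exists_generator
          have hcm : ∀ u v : G ⧸ Subgroup.centralizer ({g} : Set G), u * v = v * u := by
            intro u v
            obtain ⟨i, rfl⟩ := Subgroup.mem_zpowers_iff.mp (hc u)
            obtain ⟨j, rfl⟩ := Subgroup.mem_zpowers_iff.mp (hc v)
            exact zpow_mul_comm c i j
          rw [← QuotientGroup.eq_one_iff]
          simp only [QuotientGroup.mk_mul, QuotientGroup.mk_inv]
          rw [hcm (a : G ⧸ Subgroup.centralizer ({g} : Set G))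
            (b : G ⧸ Subgroup.centralizer ({g} : Set G))]
          group
      exact (mem_cent.mp hg).symm
    rw [eq_top_iff]
    intro x _
    rw [Subgroup.mem_upperCentralSeries_succ_iff]
    intro y
    rw [Subgroup.upperCentralSeries_one, commutatorElement_def]
    exact hcomm x y
  · right
    push Not at hall
    obtain ⟨x, hxn⟩ := hall
    obtain ⟨M, hMdef⟩ : ∃ M : Subgroup G, M = Subgroup.centralizer ({x} : Set G) := ⟨_, rfl⟩
    rw [← hMdef] at hxn
    have hxZ : x ∉ Subgroup.center G := by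
      intro hx
      apply hxn
      have h1 : M = ⊤ := by
        rw [hMdef]
        exact Subgroup.centralizer_eq_top_iff_subset.mpr
          (by intro y hy; rw [Set.mem_singleton_iff.mp hy]; exact hx)
      rw [h1]; infer_instance
    have hMp : M.index.Prime := by rw [hMdef]; exact index_prime_of_not_mem_center h hxZ
    obtain ⟨p, hpdef⟩ : ∃ p, p = M.index := ⟨_, rfl⟩
    have hp : p.Prime := hpdef ▸ hMp
    have hpF : Fact p.Prime := ⟨hp⟩
    obtain ⟨K, hKdef⟩ : ∃ K : Subgroup G, K = M.normalCore := ⟨_, rfl⟩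
    have hKM : K ≤ M := by rw [hKdef]; exact Subgroup.normalCore_le M
    have hKn : K.Normal := by rw [hKdef]; exact Subgroup.normalCore_normal M
    have hZK : Subgroup.center G ≤ K := by
      rw [hKdef, Subgroup.normal_le_normalCore]
      intro z hz
      rw [hMdef, mem_cent]
      exact (Subgroup.mem_center_iff.mp hz x).symm
    have hpK : p ∣ Nat.card (G ⧸ K) := by
      have h1 : p ∣ K.index := by rw [hpdef]; exact Subgroup.index_dvd_of_le hKM
      exact h1
    obtain ⟨ybar, hybar⟩ := exists_prime_orderOf_dvd_card' p hpK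
    obtain ⟨y0, rfl⟩ := QuotientGroup.mk_surjective ybar
    obtain ⟨e, m, hm, hom⟩ := Nat.exists_eq_pow_mul_and_not_dvd (orderOf_pos y0).ne' p hp.ne_one
    have hm0 : m ≠ 0 := by rintro rfl; exact hm (dvd_zero p)
    obtain ⟨y, hydef⟩ : ∃ y, y = y0 ^ m := ⟨_, rfl⟩
    have hyoe : orderOf y = p ^ e := by
      rw [hydef, orderOf_pow_of_dvd hm0 (by rw [hom]; exact dvd_mul_left m _), hom]
      exact Nat.mul_div_cancel _ (Nat.pos_of_ne_zero hm0)
    have hyo : ∃ j : ℕ, orderOf y = p ^ j := ⟨e, hyoe⟩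
    have hyb' : orderOf ((y : G) : G ⧸ K) = p := by
      rw [hydef, QuotientGroup.mk_pow,
        Nat.Coprime.orderOf_pow (by rw [hybar]; exact (Nat.Prime.coprime_iff_not_dvd hp).mpr hm),
        hybar]
    have hyK : y ∉ K := by
      intro hy
      have h1 : ((y : G) : G ⧸ K) = 1 := (QuotientGroup.eq_one_iff y).mpr hy
      rw [h1, orderOf_one] at hyb'
      exact hp.one_lt.ne hyb'
    have hcore : ∀ z : G, (∃ j : ℕ, orderOf z = p ^ j) → z ∈ M → z ∈ K := by
      intro z hz hzM
      rw [hKdef]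
      exact mem_core_of_pElement M hpdef.symm hz hzM
    have hyM : y ∉ M := fun hy => hyK (hcore y hyo hy)
    have hyZ : y ∉ Subgroup.center G := fun hy => hyK (hZK hy)
    obtain ⟨Y, hYdef⟩ : ∃ Y : Subgroup G,
        Y = (Subgroup.zpowers ((y : G) : G ⧸ K)).comap (QuotientGroup.mk' K) := ⟨_, rfl⟩
    have hKY : K ≤ Y := by
      intro k hk
      rw [hYdef, Subgroup.mem_comap]
      have h1 : (QuotientGroup.mk' K) k = 1 := (QuotientGroup.eq_one_iff k).mpr hk
      rw [h1]; exact Subgroup.one_mem _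
    have hyY : y ∈ Y := by
      rw [hYdef, Subgroup.mem_comap]; exact Subgroup.mem_zpowers _
    have hCY : Subgroup.centralizer ({y} : Set G) ≤ Y := by
      intro c hc
      rw [mem_cent] at hc
      have hcy : Commute c y := hc
      obtain ⟨s, hs, hsc⟩ := exists_mem_zpowers_mul M hpdef.symm hyo hyM c
      obtain ⟨n, rfl⟩ := Subgroup.mem_zpowers_iff.mp hs
      have hdK : (y ^ n)⁻¹ * c ∈ K := by
        rw [hKdef]
        show ∀ b : G, b * ((y ^ n)⁻¹ * c) * b⁻¹ ∈ M
        intro b
        obtain ⟨t, ht, htb⟩ := exists_mem_zpowers_mul M hpdef.symm hyo hyM b⁻¹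
        obtain ⟨n', rfl⟩ := Subgroup.mem_zpowers_iff.mp ht
        have hdt : Commute ((y ^ n)⁻¹ * c) (y ^ n') :=
          Commute.mul_left (((Commute.refl y).zpow_zpow n n').inv_left) (hcy.zpow_right n')
        have h1 : y ^ n' * ((y ^ n)⁻¹ * c) * (y ^ n')⁻¹ = (y ^ n)⁻¹ * c := by
          rw [← hdt.eq, mul_inv_cancel_right]
        have h2 : b * ((y ^ n)⁻¹ * c) * b⁻¹ =
            ((y ^ n')⁻¹ * b⁻¹)⁻¹ * ((y ^ n)⁻¹ * c) * ((y ^ n')⁻¹ * b⁻¹) := by
          have h3 : ((y ^ n')⁻¹ * b⁻¹)⁻¹ * ((y ^ n)⁻¹ * c) * ((y ^ n')⁻¹ * b⁻¹) =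
              b * (y ^ n' * ((y ^ n)⁻¹ * c) * (y ^ n')⁻¹) * b⁻¹ := by group
          rw [h3, h1]
        rw [h2]
        exact M.mul_mem (M.mul_mem (M.inv_mem htb) hsc) htb
      rw [hYdef, Subgroup.mem_comap]
      have h1 : (QuotientGroup.mk' K) c = (QuotientGroup.mk' K) (y ^ n) := by
        have h2 : (QuotientGroup.mk' K) ((y ^ n)⁻¹ * c) = 1 := (QuotientGroup.eq_one_iff _).mpr hdK
        rw [map_mul, map_inv] at h2
        exact (inv_mul_eq_one.mp h2).symm
      rw [h1, map_zpow]
      exact Subgroup.zpow_mem_zpowers _ n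
    have hnc : ¬ ∀ u v : G ⧸ K, u * v = v * u :=
      fun hc => hxn (normal_of_quotient_comm M K hKM hc)
    have hYtop : Y ≠ ⊤ := by
      intro hY
      apply hnc
      intro u v
      obtain ⟨a, rfl⟩ := QuotientGroup.mk_surjective u
      obtain ⟨b, rfl⟩ := QuotientGroup.mk_surjective v
      have ha : a ∈ Y := by rw [hY]; exact Subgroup.mem_top a
      have hb : b ∈ Y := by rw [hY]; exact Subgroup.mem_top b
      rw [hYdef, Subgroup.mem_comap] at ha hb
      obtain ⟨i, hi⟩ := Subgroup.mem_zpowers_iff.mp ha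
      obtain ⟨j, hj⟩ := Subgroup.mem_zpowers_iff.mp hb
      show (QuotientGroup.mk' K) a * (QuotientGroup.mk' K) b =
        (QuotientGroup.mk' K) b * (QuotientGroup.mk' K) a
      rw [← hi, ← hj]
      exact zpow_mul_comm _ i j
    have hCyY : Subgroup.centralizer ({y} : Set G) = Y :=
      eq_of_le_of_prime_index hCY (index_prime_of_not_mem_center h hyZ) hYtop
    obtain ⟨s, hsdef⟩ : ∃ s, s = Y.index := ⟨_, rfl⟩
    have hs : s.Prime := by
      rw [hsdef, ← hCyY]; exact index_prime_of_not_mem_center h hyZ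
    have hcardGK : Nat.card (G ⧸ K) = p * s := by
      have h1 := Subgroup.card_mul_index (Subgroup.zpowers ((y : G) : G ⧸ K))
      rw [Nat.card_zpowers, hyb'] at h1
      have h2 : Y.index = (Subgroup.zpowers ((y : G) : G ⧸ K)).index := by
        rw [hYdef]
        exact Subgroup.index_comap_of_surjective _ (QuotientGroup.mk'_surjective K)
      rw [← h1, hsdef, h2]
    have hps : p ≠ s := by
      intro hps
      apply hnc
      have h1 : Nat.card (G ⧸ K) = p ^ 2 := by rw [hcardGK, ← hps, sq]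
      exact (IsPGroup.isMulCommutative_of_card_eq_prime_sq h1).is_comm.comm
    -- an element of `M` outside `Y`
    have hMY : ¬ M ≤ Y := by
      intro hMY
      have h1 := eq_of_le_of_prime_index hMY hMp hYtop
      exact hyM (h1 ▸ hyY)
    obtain ⟨w, hwM, hwY⟩ := SetLike.not_le_iff_exists.mp hMY
    obtain ⟨q', m', j', hq', ho', hw'⟩ := exists_primePow_pow_not_mem Y _ w rfl hwY
    have hu1M : w ^ m' ∈ M := M.pow_mem hwM m'
    have hq'p : q' ≠ p := by
      intro hqp
      apply hw'
      exact hKY (hcore _ ⟨j', by rw [ho', hqp]⟩ hu1M)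
    have hu1Z : w ^ m' ∉ Subgroup.center G := fun hz => hw' (hKY (hZK hz))
    obtain ⟨r, mx, jx, hr, hox, hx'Z⟩ :=
      exists_primePow_pow_not_mem (Subgroup.center G) _ x rfl hxZ
    have hCx' : Subgroup.centralizer ({x ^ mx} : Set G) = M := by
      symm
      apply eq_of_le_of_prime_index _ hMp (cent_ne_top hx'Z)
      intro g hg
      rw [hMdef, mem_cent] at hg
      rw [mem_cent]
      have hgx : Commute g x := hg
      exact (hgx.pow_right mx).eq
    have hu : ∃ u : G, u ∈ M ∧ u ∉ Y ∧ Subgroup.centralizer ({u} : Set G) = M ∧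
        (orderOf u).Coprime p := by
      by_cases hrp : r = p
      · refine ⟨w ^ m', hu1M, hw', ?_, ?_⟩
        · rw [← hCx']
          apply cent_eq_of_coprime h _ _ hu1Z hx'Z
          · have h1 : w ^ m' ∈ Subgroup.centralizer ({x ^ mx} : Set G) := by
              rw [hCx']; exact hu1M
            exact mem_cent.mp h1
          · rw [ho', hox, hrp]
            exact Nat.Coprime.pow _ _ ((Nat.coprime_primes hq' hp).mpr hq'p)
        · rw [ho']
          exact Nat.Coprime.pow_left _ ((Nat.coprime_primes hq' hp).mpr hq'p)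
      · refine ⟨x ^ mx, ?_, ?_, hCx', ?_⟩
        · rw [hMdef, mem_cent]
          exact ((Commute.refl x).pow_left mx).eq
        · intro hxY
          rw [← hCyY, mem_cent] at hxY
          have h1 := cent_eq_of_coprime h hxY
            (by rw [hox, hyoe]; exact Nat.Coprime.pow _ _ ((Nat.coprime_primes hr hp).mpr hrp))
            hx'Z hyZ
          rw [hCx', hCyY] at h1
          exact hyM (h1 ▸ hyY)
        · rw [hox]
          exact Nat.Coprime.pow_left _ ((Nat.coprime_primes hr hp).mpr hrp)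
    obtain ⟨u, huM, huY, hCu, hup⟩ := hu
    have huZ : u ∉ Subgroup.center G := fun hz => huY (hKY (hZK hz))
    have hKZ : K ≤ Subgroup.center G := by
      intro k hk
      by_contra hkZ
      obtain ⟨q, mk, jk, hq, hok, hk'Z⟩ :=
        exists_primePow_pow_not_mem (Subgroup.center G) _ k rfl hkZ
      have hk'K : k ^ mk ∈ K := K.pow_mem hk mk
      have hk'u : k ^ mk * u = u * k ^ mk := by
        have h1 : k ^ mk ∈ Subgroup.centralizer ({u} : Set G) := by
          rw [hCu]; exact hKM hk'K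
        exact mem_cent.mp h1
      have hk'y : k ^ mk * y = y * k ^ mk := by
        have h1 : k ^ mk ∈ Subgroup.centralizer ({y} : Set G) := by
          rw [hCyY]; exact hKY hk'K
        exact mem_cent.mp h1
      by_cases hqp : q = p
      · have h1 := cent_eq_of_coprime h hk'u
          (by rw [hok, hqp]; exact Nat.Coprime.pow_left _ hup.symm) hk'Z huZ
        have h2 : y ∈ Subgroup.centralizer ({k ^ mk} : Set G) := mem_cent.mpr hk'y.symm
        rw [h1, hCu] at h2
        exact hyM h2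
      · have h1 := cent_eq_of_coprime h hk'y
          (by rw [hok, hyoe]; exact Nat.Coprime.pow _ _ ((Nat.coprime_primes hq hp).mpr hqp))
          hk'Z hyZ
        have h2 : u ∈ Subgroup.centralizer ({k ^ mk} : Set G) := mem_cent.mpr hk'u.symm
        rw [h1, hCyY] at h2
        exact huY h2
    have hKeq : K = Subgroup.center G := le_antisymm hKZ hZK
    obtain ⟨h1, h2⟩ := transport K (Subgroup.center G) hKeq p s hcardGK hnc
    exact ⟨p, s, hp, hs, hps, h1, h2⟩

end Cfsg.Agent.S4314
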