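import Cfsg.Statements.S4421

set_option autoImplicit false
open Cfsg

namespace Cfsg.Agent.S4421

theorem cmap_mul {G : Type*} [Group G] (a b : G) (K : Subgroup G) :
    (K.map (MulAut.conj b).toMonoidHom).map (MulAut.conj a).toMonoidHom =
      K.map (MulAut.conj (a * b)).toMonoidHom := by
  rw [Subgroup.map_map]
  congr 1
  ext t
  simp [mul_assoc]

theorem cmap_one {G : Type*} [Group G] (K : Subgroup G) :
    K.map (MulAut.conj (1 : G)).toMonoidHom = K := by
  ext t
  simp

theorem mem_normalizer_iff_cmap {G : Type*} [Group G] (x : G) (K : Subgroup G) :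
    x ∈ Subgroup.normalizer (K : Set G) ↔ K.map (MulAut.conj x).toMonoidHom = K := by
  rw [Subgroup.mem_normalizer_iff]
  constructor
  · intro h
    ext y
    constructor
    · rintro ⟨k, hk, rfl⟩
      exact (h k).1 hk
    · intro hy
      refine ⟨x⁻¹ * y * x, ?_, ?_⟩
      · have := (h (x⁻¹ * y * x)).2
        apply this
        simpa [mul_assoc] using hy
      · simp [mul_assoc]
  · intro h k
    constructor
    · intro hk
      rw [← h]
      exact ⟨k, hk, by simp⟩
    · intro hk
      rw [← h] at hk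
      obtain ⟨k', hk', he⟩ := hk
      have : k' = k := by
        simpa using he
      exact this ▸ hk'

/-- A factorization of a normalizer from two-step control of fusion. Let `G` be a finite group and `A ≤ S ≤ H` subgroups of `G` such that: (i) `S` controls the `G`-fusion of `A` in the sense that every `G`-conjugate of `A` lying in `S` is an `S`-conjugate of `A`; (ii) `H` controls the `G`-fusion of `S` in the same sense; (iii) every conjugate of `S` by an element of the normalizer of `A` lies in `H`. Then `N_G(A) = N_H(A) · (N_G(S) ∩ N_G(A))`: every element of the normalizer of `A` is a product of an element of `H` normalizing `A` and an element normalizing both `S` and `A`. -/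
theorem result {G : Type*} [Group G] [Finite G] (A S H : Subgroup G)
    (hAS : A ≤ S) (hSH : S ≤ H)
    (h1 : ∀ g : G, A.map (MulAut.conj g).toMonoidHom ≤ S → ∃ s ∈ S, A.map (MulAut.conj g).toMonoidHom = A.map (MulAut.conj s).toMonoidHom)
    (h2 : ∀ g : G, S.map (MulAut.conj g).toMonoidHom ≤ H → ∃ y ∈ H, S.map (MulAut.conj g).toMonoidHom = S.map (MulAut.conj y).toMonoidHom)
    (h3 : ∀ x ∈ Subgroup.normalizer (A : Set G), S.map (MulAut.conj x).toMonoidHom ≤ H) :
    ∀ x ∈ Subgroup.normalizer (A : Set G), ∃ y ∈ H ⊓ Subgroup.normalizer (A : Set G),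
      ∃ z ∈ Subgroup.normalizer (S : Set G) ⊓ Subgroup.normalizer (A : Set G), x = y * z := by
  intro x hx
  have hxA : A.map (MulAut.conj x).toMonoidHom = A := (mem_normalizer_iff_cmap x A).1 hx
  obtain ⟨y, hyH, hy⟩ := h2 x (h3 x hx)
  have hyxS : S.map (MulAut.conj (y⁻¹ * x)).toMonoidHom = S := by
    rw [← cmap_mul, hy, cmap_mul]
    simpa using cmap_one S
  have hyA : A.map (MulAut.conj y⁻¹).toMonoidHom ≤ S := by
    have h4 : A.map (MulAut.conj y⁻¹).toMonoidHom = A.map (MulAut.conj (y⁻¹ * x)).toMonoidHom := by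
      rw [← cmap_mul, hxA]
    rw [h4, ← hyxS]
    exact Subgroup.map_mono hAS
  obtain ⟨s, hsS, hs⟩ := h1 y⁻¹ hyA
  have hysA : A.map (MulAut.conj (y * s)).toMonoidHom = A := by
    rw [← cmap_mul, ← hs, cmap_mul]
    simpa using cmap_one A
  have hsNS : s ∈ Subgroup.normalizer (S : Set G) := Subgroup.le_normalizer hsS
  have hyxNS : y⁻¹ * x ∈ Subgroup.normalizer (S : Set G) := (mem_normalizer_iff_cmap _ S).2 hyxS
  have hysNA : y * s ∈ Subgroup.normalizer (A : Set G) := (mem_normalizer_iff_cmap _ A).2 hysA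
  refine ⟨y * s, ⟨H.mul_mem hyH (hSH hsS), hysNA⟩, (y * s)⁻¹ * x, ⟨?_, ?_⟩, by group⟩
  · have : (y * s)⁻¹ * x = s⁻¹ * (y⁻¹ * x) := by group
    rw [this]
    exact Subgroup.mul_mem _ (Subgroup.inv_mem _ hsNS) hyxNS
  · exact Subgroup.mul_mem _ (Subgroup.inv_mem _ hysNA) hx

end Cfsg.Agent.S4421
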