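import Cfsg.Statements.S4422

set_option autoImplicit false
open Cfsg

namespace Cfsg.Agent.S4422

theorem modEq_one_of_primes (e : ℕ) :
    ∀ m : ℕ, m ≠ 0 → (∀ r : ℕ, r.Prime → r ∣ m → r ≡ 1 [MOD e]) → m ≡ 1 [MOD e] := by
  intro m
  induction m using Nat.strong_induction_on with
  | _ m ih =>
    intro hm0 hr
    by_cases h1 : m = 1
    · subst h1; exact Nat.ModEq.refl _
    · obtain ⟨r, hrp, hrm⟩ := Nat.exists_prime_and_dvd h1
      obtain ⟨k, rfl⟩ := hrm
      have hk0 : k ≠ 0 := by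
        rintro rfl
        simp at hm0
      have hklt : k < r * k := by
        have := hrp.two_le
        nlinarith [Nat.pos_of_ne_zero hk0]
      have hk : k ≡ 1 [MOD e] := ih k hklt hk0 (fun s hs hsk => hr s hs (Dvd.dvd.mul_left hsk r))
      have hr1 : r ≡ 1 [MOD e] := hr r hrp (Dvd.intro k rfl)
      simpa using hr1.mul hk

/-- Primitive divisors of `q^e - 1` are congruent to 1 modulo `e`. Let `q ≥ 2` and `e ≥ 1` be natural numbers and let `m` be a divisor of `q^e - 1` that is coprime to `q^i - 1` for every `1 ≤ i < e` (so `m` divides the primitive part of `q^e - 1`, the largest such divisor). Then `m ≡ 1 (mod e)`. -/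
theorem result (q e m : ℕ) (hq : 2 ≤ q) (he : 1 ≤ e)
    (hm : m ∣ q ^ e - 1) (hcop : ∀ i : ℕ, 1 ≤ i → i < e → Nat.Coprime m (q ^ i - 1)) :
    m % e = 1 % e := by
  have hqe : 2 ≤ q ^ e := by
    calc 2 ≤ q := hq
      _ = q ^ 1 := (pow_one q).symm
      _ ≤ q ^ e := Nat.pow_le_pow_right (by omega) he
  have hm0 : m ≠ 0 := by
    rintro rfl
    have := Nat.eq_zero_of_zero_dvd hm
    omega
  refine modEq_one_of_primes e m hm0 ?_
  intro r hrp hrm
  have : Fact r.Prime := ⟨hrp⟩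
  have hrq : r ∣ q ^ e - 1 := dvd_trans hrm hm
  have hqpow : ∀ j : ℕ, 1 ≤ q ^ j := fun j => Nat.one_le_pow _ _ (by omega)
  have hqe1 : ((q : ZMod r)) ^ e = 1 := by
    have h0 : ((q ^ e - 1 : ℕ) : ZMod r) = 0 := (ZMod.natCast_eq_zero_iff _ _).2 hrq
    rw [Nat.cast_sub (hqpow e)] at h0
    push_cast at h0
    exact sub_eq_zero.1 h0
  have hq0 : (q : ZMod r) ≠ 0 := by
    intro h0
    rw [h0, zero_pow (by omega)] at hqe1
    exact zero_ne_one hqe1
  have hd : orderOf (q : ZMod r) ∣ e := orderOf_dvd_of_pow_eq_one hqe1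
  have hd0 : orderOf (q : ZMod r) ≠ 0 := by
    intro h0
    rw [h0] at hd
    have := Nat.eq_zero_of_zero_dvd hd
    omega
  have hdle : orderOf (q : ZMod r) ≤ e := Nat.le_of_dvd (by omega) hd
  have hde : orderOf (q : ZMod r) = e := by
    by_contra hne
    have hlt : orderOf (q : ZMod r) < e := lt_of_le_of_ne hdle hne
    have hc := hcop (orderOf (q : ZMod r)) (Nat.pos_of_ne_zero hd0) hlt
    have hr2 : r ∣ q ^ orderOf (q : ZMod r) - 1 := by
      apply (ZMod.natCast_eq_zero_iff _ _).1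
      rw [Nat.cast_sub (hqpow _)]
      push_cast
      rw [pow_orderOf_eq_one]
      simp
    have hc' : Nat.Coprime r (q ^ orderOf (q : ZMod r) - 1) := Nat.Coprime.coprime_dvd_left hrm hc
    have := Nat.Coprime.eq_one_of_dvd hc' hr2
    exact hrp.one_lt.ne' this
  have hfermat : (q : ZMod r) ^ (r - 1) = 1 := ZMod.pow_card_sub_one_eq_one hq0
  have he_dvd : e ∣ r - 1 := hde ▸ orderOf_dvd_of_pow_eq_one hfermat
  exact ((Nat.modEq_iff_dvd' hrp.one_lt.le).2 he_dvd).symm

end Cfsg.Agent.S4422
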