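import Cfsg.Statements.S4424
import Cfsg.Agent.Helper6.PRegChar
import Cfsg.Agent.Helper10.VirtualChar
import Cfsg.Agent.Helper25.BlockOrth2
open Cfsg.Agent.Helper25

set_option autoImplicit false
open Cfsg

namespace Cfsg.Agent.S4424

/-- Let χ be an irreducible character of the finite group G lying in the p-block B (relative to a maximal ideal M of the algebraic integers containing p), and let p^a be the p-part of the order of G. Then the class function that equals p^a · χ on the p-regular elements and vanishes on the p-singular elements is an integer combination of the irreducible characters in B: there are integers a_ψ, zero for ψ outside B, with that function equal to Σ a_ψ ψ. -/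
theorem result {G : Type*} [Group G] [Finite G] (p : ℕ) [Fact p.Prime] (M : Ideal Cfsg.AlgInt) (hM : Cfsg.IsPModular p M) (B : Set (Cfsg.IrrCharacter G)) (hB : Cfsg.IsPBlock M B) (χ : Cfsg.IrrCharacter G) (hχ : χ ∈ B) : ∃ a : Cfsg.IrrCharacter G → ℤ, (∀ ψ, ψ ∉ B → a ψ = 0) ∧ (fun x : G => if p ∣ orderOf x then (0 : ℂ) else ((p ^ (Nat.card G).factorization p : ℕ) : ℂ) * (χ : G → ℂ) x) = fun x => ∑ᶠ ψ : Cfsg.IrrCharacter G, (a ψ : ℂ) * (ψ : G → ℂ) x := by
  classical
  have : Fintype G := Fintype.ofFinite G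
  have hMp : M.IsPrime := hM.2.1.isPrime
  have := Helper24.finite_irrCharacter (G := G)
  have : Fintype (IrrCharacter G) := Fintype.ofFinite _
  have hgen := Cfsg.Agent.Helper6.PRegChar.p_regular_gen_char p (χ : G → ℂ)
    (Helper24.isCharacter_of_irr χ.2)
  obtain ⟨θ, hθ⟩ : ∃ θ : G → ℂ, θ = fun x : G => if p ∣ orderOf x then (0 : ℂ) else
      ((p ^ (Nat.card G).factorization p : ℕ) : ℂ) * (χ : G → ℂ) x := ⟨_, rfl⟩
  rw [← hθ] at hgen ⊢
  have hθx : ∀ x : G, θ x = if p ∣ orderOf x then (0 : ℂ) else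
      ((p ^ (Nat.card G).factorization p : ℕ) : ℂ) * (χ : G → ℂ) x := fun x => by rw [hθ]
  refine ⟨fun ψ => Cfsg.Agent.Helper10.irrCoeff θ (ψ : G → ℂ), ?_, ?_⟩
  · intro ψ hψ
    have h1 := Cfsg.Agent.Helper10.irrCoeff_spec hgen ψ.2
    have h2 : classInner θ (ψ : G → ℂ) = 0 := by
      have hns : ¬ SameBlock M (χ : G → ℂ) (ψ : G → ℂ) := by
        intro hs
        apply hψ
        obtain ⟨χ₁, hχ₁⟩ := id hB
        rw [hχ₁] at hχ ⊢
        exact sameBlock_trans hMp hχ hs
      have hw := weak_block_orthogonality hM χ ψ hns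
      rw [finsum_mem_eq_sum_ite] at hw
      unfold classInner
      have h3 : ∑ x : G, θ x * (starRingEnd ℂ) ((ψ : G → ℂ) x)
          = ((p ^ (Nat.card G).factorization p : ℕ) : ℂ)
            * ∑ x : G, if x ∈ {x : G | ¬ p ∣ orderOf x} then
              (χ : G → ℂ) x * (starRingEnd ℂ) ((ψ : G → ℂ) x) else 0 := by
        rw [Finset.mul_sum]
        refine Finset.sum_congr rfl fun x _ => ?_
        rw [hθx x]
        by_cases hx : p ∣ orderOf x
        · rw [if_pos hx, if_neg (show ¬ x ∈ {x : G | ¬ p ∣ orderOf x} from fun h => h hx)]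
          ring
        · rw [if_neg hx, if_pos (show x ∈ {x : G | ¬ p ∣ orderOf x} from hx)]
          ring
      rw [h3, hw, mul_zero, mul_zero]
    rw [h2] at h1
    show Cfsg.Agent.Helper10.irrCoeff θ (ψ : G → ℂ) = 0
    exact_mod_cast h1.symm
  · have hexp := Cfsg.Agent.Helper10.gen_expansion hgen
    funext x
    rw [finsum_eq_sum_of_fintype]
    have h4 := congrFun hexp x
    rw [Finset.sum_apply] at h4
    simpa using h4

end Cfsg.Agent.S4424
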