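import Cfsg.Statements.S4435
import Cfsg.Agent.Helper25.FongReynolds
open Cfsg.Agent.Helper25
open Cfsg.Agent

set_option autoImplicit false
open Cfsg

namespace Cfsg.Agent.S4435

/-- Let N be a normal subgroup of the finite group G, b a block of N (relative to a maximal ideal M of the algebraic integers containing p), and T the stabilizer of b in G (the elements g such that conjugating any member of b by g gives a member of b); N ≤ T. Say that a block of T (or of G) covers b when some member has a constituent in b on restriction to N. Then: (i) every block B′ of T covering b induces a block B of G, B covers b, every ψ ∈ B′ induces to an irreducible character of G, and B consists exactly of the characters induced from members of B′; (ii) distinct blocks of T covering b induce distinct blocks of G; (iii) every block of G covering b is induced by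 some block of T covering b. -/
theorem result {G : Type*} [Group G] [Fintype G] (p : ℕ) [Fact p.Prime] (M : Ideal Cfsg.AlgInt) (hM : Cfsg.IsPModular p M) (N : Subgroup G) [hN : N.Normal] [Fintype N] (b : Set (Cfsg.IrrCharacter N)) (hb : Cfsg.IsPBlock M b) (T : Subgroup G) [Fintype T] (hT : ∀ g : G, g ∈ T ↔ ∀ θ ∈ b, ∀ θ' : Cfsg.IrrCharacter N, (∀ n : N, (θ' : N → ℂ) n = (θ : N → ℂ) ⟨g * n * g⁻¹, hN.conj_mem n n.2 g⟩) → θ' ∈ b) (hNT : N ≤ T) : (∀ B' : Set (Cfsg.IrrCharacter T), Cfsg.IsPBlock M B' → (∃ ψ ∈ B', ∃ θ ∈ b, Cfsg.classInner (fun n : N => (ψ : T → ℂ) ⟨(n : G), hNT n.2⟩) (θ : N → ℂ) ≠ 0) → ∃ B : Set (Cfsg.IrrCharacter G), Cfsg.IsInducedBlock M T B' B ∧ (∃ χ ∈ B, ∃ θ ∈ b, Cfsg.classInner (fun n : N => (χ : G → ℂ) n) (θ : N → ℂ) ≠ 0) ∧ (∀ ψ ∈ B', Cfsg.IsIrrCharacter G (Cfsg.indFun T (ψ : T → ℂ))) ∧ ∀ χ : Cfsg.IrrCharacter G, χ ∈ B ↔ ∃ ψ ∈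 B', (χ : G → ℂ) = Cfsg.indFun T (ψ : T → ℂ)) ∧ (∀ B'₁ B'₂ : Set (Cfsg.IrrCharacter T), Cfsg.IsPBlock M B'₁ → Cfsg.IsPBlock M B'₂ → (∃ ψ ∈ B'₁, ∃ θ ∈ b, Cfsg.classInner (fun n : N => (ψ : T → ℂ) ⟨(n : G), hNT n.2⟩) (θ : N → ℂ) ≠ 0) → (∃ ψ ∈ B'₂, ∃ θ ∈ b, Cfsg.classInner (fun n : N => (ψ : T → ℂ) ⟨(n : G), hNT n.2⟩) (θ : N → ℂ) ≠ 0) → ∀ B : Set (Cfsg.IrrCharacter G), Cfsg.IsInducedBlock M T B'₁ B → Cfsg.IsInducedBlock M T B'₂ B → B'₁ = B'₂) ∧ (∀ B : Set (Cfsg.IrrCharacter G), Cfsg.IsPBlock M B → (∃ χ ∈ B, ∃ θ ∈ b, Cfsg.classInner (fun n : N => (χ : G → ℂ) n) (θ : N → ℂ) ≠ 0) → ∃ B' : Set (Cfsg.IrrCharacter T), Cfsg.IsPBlock M B' ∧ (∃ ψ ∈ B', ∃ θ ∈ b, Cfsg.classInner (fun n : N => (ψ : T → ℂ) ⟨(n : G), hNT n.2⟩) (θ : N → ℂ) ≠ 0) ∧ Cfsg.IsInducedBlock M T B' B) := by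
  classical
  have := Helper24.finite_irrCharacter (G := G)
  have : Fintype (IrrCharacter G) := Fintype.ofFinite _
  have := Helper24.finite_irrCharacter (G := T)
  have : Fintype (IrrCharacter T) := Fintype.ofFinite _
  have hpM := hM
  have hMp := hM.2.1.isPrime
  have hT' := stab_conv N T b hT
  refine ⟨?_, ?_, ?_⟩
  · intro B' hB' hcov
    obtain ⟨ψ₀, hψ₀, hov₀⟩ := hcov
    have hirr₀ := fr_irr_of_over N b T hMp hb hNT hT' ψ₀ hov₀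
    have hB'eq := block_eq_blockOf_of_mem hMp hB' hψ₀
    have hall := fr_block_over N b T hMp hb hNT hT' hB' ⟨ψ₀, hψ₀, hov₀⟩
    obtain ⟨χ₀, hχ₀e⟩ : ∃ χ₀ : IrrCharacter G, (χ₀ : G → ℂ) = indFun T (ψ₀ : T → ℂ) :=
      ⟨⟨_, hirr₀⟩, rfl⟩
    have hcovB : ∃ χ ∈ blockOf M (χ₀ : G → ℂ), ∃ θ ∈ b,
        classInner (fun n : N => (χ : G → ℂ) n) (θ : N → ℂ) ≠ 0 :=
      ⟨χ₀, mem_blockOf_self hMp.ne_top χ₀, fr_over_ind N b T hMp hb hNT hT' ψ₀ hov₀ χ₀ hχ₀e⟩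
    refine ⟨blockOf M (χ₀ : G → ℂ), ?_, hcovB, ?_, ?_⟩
    · rw [hB'eq, hχ₀e]
      exact isInducedBlock_of_irr_ind hpM T ψ₀ hirr₀
    · intro ψ hψ
      exact fr_irr_of_over N b T hMp hb hNT hT' ψ (hall ψ hψ)
    · intro χ
      constructor
      · intro hχ
        have hov := fr_G_block_over N b hMp hb ⟨χ₀, rfl⟩ hcovB χ hχ
        obtain ⟨ψ, hψov, hψ⟩ := fr_exists_of_over N b T hMp hb hNT hT' χ hov
        refine ⟨ψ, ?_, hψ⟩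
        rw [hB'eq]
        exact fr_sameBlock N b T hMp hb hNT hT' ψ₀ ψ hov₀ hψov χ₀ χ hχ₀e hψ hχ
      · rintro ⟨ψ, hψ, h⟩
        rw [hB'eq] at hψ
        have hs : SameBlock M (ψ₀ : T → ℂ) (ψ : T → ℂ) := hψ
        show SameBlock M (χ₀ : G → ℂ) (χ : G → ℂ)
        intro g
        rw [h, hχ₀e, ← inducedCentralChar_eq, ← inducedCentralChar_eq]
        exact inducedCentralChar_sub_mem hMp T ψ₀ ψ hs g
  · intro B'₁ B'₂ hB'₁ hB'₂ hcov₁ hcov₂ B hind₁ hind₂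
    obtain ⟨ψ₁, hψ₁, hov₁⟩ := hcov₁
    obtain ⟨ψ₂, hψ₂, hov₂⟩ := hcov₂
    have hirr₁ := fr_irr_of_over N b T hMp hb hNT hT' ψ₁ hov₁
    have hirr₂ := fr_irr_of_over N b T hMp hb hNT hT' ψ₂ hov₂
    obtain ⟨χ₁, e₁⟩ : ∃ χ₁ : IrrCharacter G, (χ₁ : G → ℂ) = indFun T (ψ₁ : T → ℂ) :=
      ⟨⟨_, hirr₁⟩, rfl⟩
    obtain ⟨χ₂, e₂⟩ : ∃ χ₂ : IrrCharacter G, (χ₂ : G → ℂ) = indFun T (ψ₂ : T → ℂ) :=
      ⟨⟨_, hirr₂⟩, rfl⟩
    obtain ⟨χ₀, hχ₀⟩ := hind₁.2.1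
    have hχ₀mem : χ₀ ∈ B := by
      rw [hχ₀]
      exact mem_blockOf_self hMp.ne_top _
    have s1 : SameBlock M (χ₁ : G → ℂ) (χ₀ : G → ℂ) := by
      intro g
      rw [e₁, ← inducedCentralChar_eq]
      exact hind₁.2.2 ψ₁ hψ₁ χ₀ hχ₀mem g
    have s2 : SameBlock M (χ₂ : G → ℂ) (χ₀ : G → ℂ) := by
      intro g
      rw [e₂, ← inducedCentralChar_eq]
      exact hind₂.2.2 ψ₂ hψ₂ χ₀ hχ₀mem g
    have s3 := fr_sameBlock N b T hMp hb hNT hT' ψ₁ ψ₂ hov₁ hov₂ χ₁ χ₂ e₁ e₂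
      (sameBlock_trans hMp s1 (sameBlock_symm s2))
    have h1 : ψ₁ ∈ B'₂ := by
      rw [block_eq_blockOf_of_mem hMp hB'₂ hψ₂]
      exact sameBlock_symm s3
    rw [block_eq_blockOf_of_mem hMp hB'₁ hψ₁]
    exact (block_eq_blockOf_of_mem hMp hB'₂ h1).symm
  · intro B hB hcov
    obtain ⟨χ, hχ, hov⟩ := hcov
    obtain ⟨ψ, hψov, hψ⟩ := fr_exists_of_over N b T hMp hb hNT hT' χ hov
    refine ⟨blockOf M (ψ : T → ℂ), ⟨ψ, rfl⟩, ⟨ψ, mem_blockOf_self hMp.ne_top _, hψov⟩, ?_⟩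
    rw [block_eq_blockOf_of_mem hMp hB hχ, hψ]
    exact isInducedBlock_of_irr_ind hpM T ψ (hψ ▸ χ.2)

end Cfsg.Agent.S4435
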