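import Cfsg.Statements.S4436
import Cfsg.Agent.Helper25.FongReynolds
open Cfsg.Agent.Helper25
open Cfsg.Agent

set_option autoImplicit false
open Cfsg

namespace Cfsg.Agent.S4436

/-- Let N be a normal subgroup of the finite group G, b a block of N (relative to a maximal ideal M of the algebraic integers containing p), T the stabilizer of b in G, N ≤ T, and B′ a block of T covering b (some member of B′ has a constituent in b on restriction to N) that induces the block B of G. Then every defect group of B′ is a defect group of B, and for every ψ ∈ B′ the induced character ψ^G is an irreducible character of G lying in B with the same height as ψ. -/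
theorem result {G : Type*} [Group G] [Fintype G] (p : ℕ) [Fact p.Prime] (M : Ideal Cfsg.AlgInt) (hM : Cfsg.IsPModular p M) (N : Subgroup G) [hN : N.Normal] [Fintype N] (b : Set (Cfsg.IrrCharacter N)) (hb : Cfsg.IsPBlock M b) (T : Subgroup G) [Fintype T] (hT : ∀ g : G, g ∈ T ↔ ∀ θ ∈ b, ∀ θ' : Cfsg.IrrCharacter N, (∀ n : N, (θ' : N → ℂ) n = (θ : N → ℂ) ⟨g * n * g⁻¹, hN.conj_mem n n.2 g⟩) → θ' ∈ b) (hNT : N ≤ T) (B' : Set (Cfsg.IrrCharacter T)) (hB' : Cfsg.IsPBlock M B') (hcov : (∃ ψ ∈ B', ∃ θ ∈ b, Cfsg.classInner (fun n : N => (ψ : T → ℂ) ⟨(n : G), hNT n.2⟩) (θ : N → ℂ) ≠ 0)) (B : Set (Cfsg.IrrCharacter G)) (hind : Cfsg.IsInducedBlock M T B' B) : (∀ D : Subgroup T, Cfsg.IsDefectGroup p M B' D → Cfsg.IsDefectGroup p M B (D.map T.subtype)) ∧ ∀ ψ ∈ B', ∃ χ ∈ B, (χ : G → ℂ) = Cfsg.indFun T (ψ : T → ℂ) ∧ Cfsg.blockHeight p B (χ : G → ℂ) = Cfsg.blockHeight p B' (ψ : T → ℂ) := by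
  classical
  have := Helper24.finite_irrCharacter (G := G)
  have : Fintype (IrrCharacter G) := Fintype.ofFinite _
  have := Helper24.finite_irrCharacter (G := T)
  have : Fintype (IrrCharacter T) := Fintype.ofFinite _
  have hMp := hM.2.1.isPrime
  have hT' := stab_conv N T b hT
  obtain ⟨ψ₀, hψ₀, hov₀⟩ := hcov
  have hall := fr_block_over N b T hMp hb hNT hT' hB' ⟨ψ₀, hψ₀, hov₀⟩
  have hirr : ∀ ψ ∈ B', IsIrrCharacter G (indFun T (ψ : T → ℂ)) := fun ψ hψ =>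
    fr_irr_of_over N b T hMp hb hNT hT' ψ (hall ψ hψ)
  have hBblock : IsPBlock M B := hind.2.1
  obtain ⟨χ₀, hχ₀e⟩ : ∃ χ₀ : IrrCharacter G, (χ₀ : G → ℂ) = indFun T (ψ₀ : T → ℂ) :=
    ⟨⟨_, hirr ψ₀ hψ₀⟩, rfl⟩
  have hχ₀ : χ₀ ∈ B := by
    obtain ⟨χ₁, hχ₁⟩ := hBblock
    have hχ₁mem : χ₁ ∈ B := by
      rw [hχ₁]
      exact mem_blockOf_self hMp.ne_top _
    rw [hχ₁]
    show SameBlock M (χ₁ : G → ℂ) (χ₀ : G → ℂ)
    apply sameBlock_symm
    intro g
    rw [hχ₀e, ← inducedCentralChar_eq]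
    exact hind.2.2 ψ₀ hψ₀ χ₁ hχ₁mem g
  have hBeq := block_eq_blockOf_of_mem hMp hBblock hχ₀
  have hB'eq := block_eq_blockOf_of_mem hMp hB' hψ₀
  have hBmem : ∀ χ : IrrCharacter G, χ ∈ B ↔ ∃ ψ ∈ B', (χ : G → ℂ) = indFun T (ψ : T → ℂ) := by
    intro χ
    constructor
    · intro hχ
      have hov := fr_G_block_over N b hMp hb hBblock
        ⟨χ₀, hχ₀, fr_over_ind N b T hMp hb hNT hT' ψ₀ hov₀ χ₀ hχ₀e⟩ χ hχ
      obtain ⟨ψ, hψov, hψ⟩ := fr_exists_of_over N b T hMp hb hNT hT' χ hov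
      refine ⟨ψ, ?_, hψ⟩
      rw [hB'eq]
      rw [hBeq] at hχ
      exact fr_sameBlock N b T hMp hb hNT hT' ψ₀ ψ hov₀ hψov χ₀ χ hχ₀e hψ hχ
    · rintro ⟨ψ, hψ, h⟩
      rw [hBeq]
      rw [hB'eq] at hψ
      have hs : SameBlock M (ψ₀ : T → ℂ) (ψ : T → ℂ) := hψ
      show SameBlock M (χ₀ : G → ℂ) (χ : G → ℂ)
      intro g
      rw [h, hχ₀e, ← inducedCentralChar_eq, ← inducedCentralChar_eq]
      exact inducedCentralChar_sub_mem hMp T ψ₀ ψ hs g
  obtain ⟨hdef, hht⟩ := fr_defect_height (p := p) T B' B ⟨ψ₀, hψ₀⟩ hirr hBmem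
  constructor
  · intro D hD
    obtain ⟨E, hE, hDE⟩ := induced_defectGroup_le hM T hB' hBblock hind D hD
    have hcD := card_defectGroup hM hB' D hD
    have hcE := card_defectGroup hM hBblock E hE
    have hmap : Nat.card (D.map T.subtype) = Nat.card D :=
      Subgroup.card_map_of_injective T.subtype_injective
    have hDE' : D.map T.subtype = E :=
      Subgroup.eq_of_le_of_card_ge hDE (by rw [hmap, hcD, hcE, hdef])
    rw [hDE']
    exact hE
  · intro ψ hψ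
    obtain ⟨χ, hχe⟩ : ∃ χ : IrrCharacter G, (χ : G → ℂ) = indFun T (ψ : T → ℂ) :=
      ⟨⟨_, hirr ψ hψ⟩, rfl⟩
    exact ⟨χ, (hBmem χ).2 ⟨ψ, hψ, hχe⟩, hχe, hht ψ hψ χ hχe⟩

end Cfsg.Agent.S4436
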