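import Cfsg.Statements.S4447
import Cfsg.Agent.Helper6.InvConst

set_option autoImplicit false
open Cfsg

namespace Cfsg.Agent.S4447

open Cfsg.Agent Cfsg.Agent.Helper6 in
/-- Inside a finite group Γ let S normalise G and also normalise a normal subgroup N of G, with the order of S coprime to the index of N in G and S or G/N solvable. Then for every S-invariant irreducible character χ of G, the restriction of χ to N has an S-invariant irreducible constituent. -/
theorem result {Γ : Type*} [Group Γ] [Fintype Γ] (G S N : Subgroup Γ) [Fintype G] [Fintype N] (hnorm : ∀ s ∈ S, ∀ g ∈ G, s * g * s⁻¹ ∈ G) (hNG : N ≤ G) [hNn : (N.subgroupOf G).Normal] (hNS : ∀ s ∈ S, ∀ n ∈ N, s * n * s⁻¹ ∈ N) (hcop : (N.relIndex G).Coprime (Nat.card S)) (hsolv : Group.IsSolvable S ∨ Group.IsSolvable (G ⧸ N.subgroupOf G)) (χ : Cfsg.IrrCharacter G) (hinv : (∀ s ∈ S, ∀ g g' : G, (g' : Γ) = s * g * s⁻¹ → (χ : G → ℂ) g' = (χ : G → ℂ) g)) : ∃ θ : Cfsg.IrrCharacter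 N, Cfsg.classInner (fun n : N => (χ : G → ℂ) ⟨n, hNG n.2⟩) (θ : N → ℂ) ≠ 0 ∧ (∀ s ∈ S, ∀ g g' : N, (g' : Γ) = s * g * s⁻¹ → (θ : N → ℂ) g' = (θ : N → ℂ) g) := by
  classical
  have hSG : S ≤ Subgroup.normalizer (G : Set Γ) := InvConst.le_normalizer_of_conj_mem S G hnorm
  have hSN : S ≤ Subgroup.normalizer (N : Set Γ) := InvConst.le_normalizer_of_conj_mem S N hNS
  obtain ⟨θ, hθ, hne, hθinv⟩ := InvConst.exists_invariant_below G S N hSG hNG hSN hcop hsolv χ.2 hinv
  refine ⟨⟨θ, hθ⟩, hne, ?_⟩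
  intro s hs g g' hgg'
  have h1 := congrFun (hθinv s hs) g
  rw [InvConst.cjN_apply] at h1
  show θ g' = θ g
  rw [← h1]
  congr 1
  exact Subtype.ext hgg'

end Cfsg.Agent.S4447
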