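import Cfsg.Statements.S4448
import Cfsg.Agent.Helper6.InvAbove

set_option autoImplicit false
open Cfsg

namespace Cfsg.Agent.S4448

open Cfsg.Agent Cfsg.Agent.Helper6 in
/-- Inside a finite group Γ let S normalise G and also normalise a normal subgroup N of G, with the order of S coprime to the index of N in G and G/N solvable. Then for every S-invariant irreducible character ϑ of N, the induced character ϑ^G has an S-invariant irreducible constituent. -/
theorem result {Γ : Type*} [Group Γ] [Fintype Γ] (G S N : Subgroup Γ) [Fintype G] [Fintype N] (hnorm : ∀ s ∈ S, ∀ g ∈ G, s * g * s⁻¹ ∈ G) (hNG : N ≤ G) [hNn : (N.subgroupOf G).Normal] (hNS : ∀ s ∈ S, ∀ n ∈ N, s * n * s⁻¹ ∈ N) (hcop : (N.relIndex G).Coprime (Nat.card S)) (hsolv : Group.IsSolvable (G ⧸ N.subgroupOf G)) (θ : Cfsg.IrrCharacter N) (hinv : (∀ s ∈ S, ∀ g g' : N, (g' : Γ) = s * g * s⁻¹ → (θ : N → ℂ) g' = (θ : N → ℂ) g)) : ∃ χ : Cfsg.IrrCharacter G, Cfsg.classInner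 (fun n : N => (χ : G → ℂ) ⟨n, hNG n.2⟩) (θ : N → ℂ) ≠ 0 ∧ (∀ s ∈ S, ∀ g g' : G, (g' : Γ) = s * g * s⁻¹ → (χ : G → ℂ) g' = (χ : G → ℂ) g) := by
  classical
  have hSG := InvConst.le_normalizer_of_conj_mem S G hnorm
  have hSN := InvConst.le_normalizer_of_conj_mem S N hNS
  have hθinv : ∀ s (hs : s ∈ S), InvConst.cjN N s (hSN hs) (θ : N → ℂ) = θ := by
    intro s hs
    funext n
    rw [InvConst.cjN_apply]
    exact hinv s hs n ⟨s * n * s⁻¹, _⟩ rfl
  obtain ⟨χ, hχ, hne, hχinv⟩ := InvAbove.exists_invariant_above_aux S _ G N hSG hNG hSN rfl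
    hcop.symm hsolv θ.2 hθinv
  refine ⟨⟨χ, hχ⟩, hne, ?_⟩
  intro s hs g g' hgg'
  have h1 := congrFun (hχinv s hs) g
  rw [InvConst.cjN_apply] at h1
  show χ g' = χ g
  rw [← h1]
  congr 1
  exact Subtype.ext hgg'

end Cfsg.Agent.S4448
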