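import Cfsg.Statements.S4451
import Cfsg.Agent.Helper21.TIMain

set_option autoImplicit false
open Cfsg

namespace Cfsg.Agent.S4451

/-- Let the finite group Γ be generated by a normal subgroup G and a cyclic subgroup S of coprime orders such that every non-identity element of S has the same centraliser C = G ⊓ C(S) in G. Let χ be an S-invariant irreducible character of G, χ̂ its canonical extension to Γ (determinantal order coprime to the order of S), and β the irreducible character of C with χ̂(c s) = ε₀ β(c) for c ∈ C and generators s of S (ε₀ = ±1). Then there are a sign ε = ±1, which may differ from ε₀, and a linear character μ of S with μ² = 1, such that: (a) χ̂(c x) = ε β(c) μ(x) for all c ∈ C and all x ∈ S other than 1; (b) the restriction of χ to C equals |S|·ϑ + ε β for some character ϑ of C or ϑ = 0; (c) |S| divides χ(1) − ε β(1). -/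
theorem result {Γ : Type*} [Group Γ] [Fintype Γ] (G S : Subgroup Γ) [Fintype G] (hnorm : ∀ s ∈ S, ∀ g ∈ G, s * g * s⁻¹ ∈ G) (hcop : (Nat.card G).Coprime (Nat.card S)) (htop : G ⊔ S = ⊤) (hcyc : IsCyclic S) (C : Subgroup Γ) [Fintype C] (hC : C = G ⊓ Subgroup.centralizer (S : Set Γ)) (hCG : C ≤ G) (hfpf : ∀ x ∈ S, x ≠ 1 → G ⊓ Subgroup.centralizer ({x} : Set Γ) = C) (χ : Cfsg.IrrCharacter G) (hinv : (∀ s ∈ S, ∀ g g' : G, (g' : Γ) = s * g * s⁻¹ → (χ : G → ℂ) g' = (χ : G → ℂ) g)) (χh : Cfsg.IrrCharacter Γ) (hext : (∀ g : G, (χh : Γ → ℂ) g = (χ : G → ℂ) g)) (hdet : (Cfsg.detOrder (χh : Γ → ℂ)).Coprime (Nat.card S)) (β : Cfsg.IrrCharacter C) (ε₀ : ℤ) (hε₀ : ε₀ = 1 ∨ ε₀ = -1) (hβ : ∀ c : C, ∀ s : Γ, Subgroup.zpowers s = S → (χh : Γ → ℂ) ((c : Γ) * s) = (ε₀ : ℂ) * (β : C → ℂ) c) : ∃ ε : ℤ, (ε = 1 ∨ ε = -1) ∧ (∃ μ : S → ℂ, Cfsg.IsCharacter S μ ∧ μ 1 = 1 ∧ (∀ x : S, μ x * μ x = 1) ∧ ∀ c : C, ∀ x : S, x ≠ 1 → (χh : Γ → ℂ) ((c : Γ) * x) = (ε : ℂ)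 * (β : C → ℂ) c * μ x) ∧ (∃ ϑ : C → ℂ, Cfsg.IsCharacter C ϑ ∧ (fun c : C => (χ : G → ℂ) ⟨c, hCG c.2⟩) = fun c => (Nat.card S : ℂ) * ϑ c + (ε : ℂ) * (β : C → ℂ) c) ∧ (Nat.card S : ℤ) ∣ (Cfsg.charDegree (χ : G → ℂ) : ℤ) - ε * (Cfsg.charDegree (β : C → ℂ) : ℤ) := by
  classical
  haveI hGn : G.Normal := by
    rw [← Subgroup.normalizer_eq_top_iff, eq_top_iff, ← htop]
    refine sup_le Subgroup.le_normalizer ?_
    intro s hs
    rw [Subgroup.mem_normalizer_iff]
    intro h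
    constructor
    · intro hh
      exact hnorm s hs h hh
    · intro hh
      have := hnorm s⁻¹ (S.inv_mem hs) _ hh
      simpa [mul_assoc] using this
  obtain ⟨g, hg⟩ := hcyc.exists_generator
  have hord : orderOf (g : Γ) = Nat.card S := by
    rw [Subgroup.orderOf_coe]
    exact orderOf_eq_card_of_forall_mem_zpowers hg
  have hpow : ∀ y : S, ∃ i : ℕ, y = g ^ i := by
    intro y
    have h1 := (mem_powers_iff_mem_zpowers (x := g) (y := y)).2 (hg y)
    obtain ⟨i, hi⟩ := (Submonoid.mem_powers_iff y g).1 h1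
    exact ⟨i, hi.symm⟩
  have hycoe : ∀ (y : S) (i : ℕ), y = g ^ i → (y : Γ) = (g : Γ) ^ i := by
    intro y i hi
    rw [hi]
    simp
  have hpow' : ∀ y ∈ S, ∃ i : ℕ, y = (g : Γ) ^ i := by
    intro y hy
    obtain ⟨i, hi⟩ := hpow ⟨y, hy⟩
    exact ⟨i, hycoe ⟨y, hy⟩ i hi⟩
  have hzp : Subgroup.zpowers (g : Γ) = S := by
    apply le_antisymm
    · rw [Subgroup.zpowers_le]
      exact g.2
    · intro y hy
      obtain ⟨i, hi⟩ := hpow' y hy
      rw [hi]
      exact Subgroup.pow_mem _ (Subgroup.mem_zpowers _) i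
  have hgen : ∀ γ : Γ, ∃ k ∈ G, ∃ i : ℕ, γ = k * (g : Γ) ^ i := by
    intro γ
    have h1 : γ ∈ G ⊔ S := by
      rw [htop]
      exact Subgroup.mem_top γ
    obtain ⟨k, hk, s, hs, hks⟩ := Subgroup.mem_sup_of_normal_left.1 h1
    obtain ⟨i, hi⟩ := hpow' s hs
    exact ⟨k, hk, i, by rw [← hks, hi]⟩
  have hχh := χh.2
  have hβi := β.2
  rcases Nat.lt_or_ge 1 (Nat.card S) with hN | hN
  · have hg1 : (g : Γ) ≠ 1 := by
      intro h
      rw [h, orderOf_one] at hord
      omega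
    have hC' : ∀ c, c ∈ C ↔ c ∈ G ∧ c * (g : Γ) = (g : Γ) * c := by
      intro c
      rw [← hfpf (g : Γ) g.2 hg1, Subgroup.mem_inf, Subgroup.mem_centralizer_iff]
      constructor
      · rintro ⟨h1, h2⟩
        exact ⟨h1, (h2 _ (Set.mem_singleton _)).symm⟩
      · rintro ⟨h1, h2⟩
        refine ⟨h1, ?_⟩
        intro h hh
        rw [Set.mem_singleton_iff] at hh
        rw [hh]
        exact h2.symm
    have hfpf' : ∀ i : ℕ, ¬ Nat.card S ∣ i → ∀ k ∈ G,
        (g : Γ) ^ i * k = k * (g : Γ) ^ i → (g : Γ) * k = k * (g : Γ) := by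
      intro i hi k hk hcomm
      have h1 : (g : Γ) ^ i ≠ 1 := by
        intro h
        apply hi
        rw [← hord]
        exact orderOf_dvd_of_pow_eq_one h
      have h2 : k ∈ G ⊓ Subgroup.centralizer ({(g : Γ) ^ i} : Set Γ) := by
        refine Subgroup.mem_inf.2 ⟨hk, ?_⟩
        rw [Subgroup.mem_centralizer_iff]
        intro h hh
        rw [Set.mem_singleton_iff] at hh
        rw [hh]
        exact hcomm
      rw [hfpf _ (S.pow_mem g.2 i) h1] at h2
      exact ((hC' k).1 h2).2.symm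
    obtain ⟨ε, η, hε, hη, hval, ϑ, hϑ, hres⟩ :=
      Helper21.ti_main G (g : Γ) (Nat.card S) hord hN hcop hgen C hC' hfpf' hχh hβi ε₀ hε₀
        (fun c => hβ c (g : Γ) hzp)
    refine ⟨ε, hε, ?_, ⟨ϑ, hϑ, ?_⟩, ?_⟩
    · have hyne : ∀ (y : S) (i : ℕ), y = g ^ i → y ≠ 1 → ¬ Nat.card S ∣ i := by
        intro y i hi hy hdvd
        apply hy
        rw [hi]
        rw [← hord, Subgroup.orderOf_coe] at hdvd
        exact orderOf_dvd_iff_pow_eq_one.1 hdvd
      rcases hη with hη | ⟨hη, h2⟩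
      · refine ⟨fun _ => 1, Helper2.isCharacter_one, rfl, fun _ => by norm_num, ?_⟩
        intro c y hy
        obtain ⟨i, hi⟩ := hpow y
        show (χh : Γ → ℂ) ((c : Γ) * (y : Γ)) = (ε : ℂ) * (β : C → ℂ) c * 1
        rw [hycoe y i hi, hval c i (hyne y i hi hy), hη, one_pow]
      · have hdvd : orderOf (-1 : ℂˣ) ∣ orderOf g := by
          have h1 : orderOf (-1 : ℂˣ) ∣ 2 := orderOf_dvd_of_pow_eq_one (by simp)
          rw [← Subgroup.orderOf_coe, hord]
          exact h1.trans h2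
        obtain ⟨f, hf⟩ : ∃ f : S →* ℂˣ, f = monoidHomOfForallMemZpowers hg hdvd := ⟨_, rfl⟩
        have hfg : f g = -1 := by
          rw [hf]
          exact monoidHomOfForallMemZpowers_apply_gen hg hdvd
        have hfy : ∀ (y : S) (i : ℕ), y = g ^ i → ((f y : ℂˣ) : ℂ) = (-1) ^ i := by
          intro y i hi
          rw [hi, map_pow, hfg]
          simp
        refine ⟨fun y => ((f y : ℂˣ) : ℂ), Helper2.isCharacter_of_hom f, ?_, ?_, ?_⟩
        · simp
        · intro y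
          obtain ⟨i, hi⟩ := hpow y
          show ((f y : ℂˣ) : ℂ) * ((f y : ℂˣ) : ℂ) = 1
          rw [hfy y i hi, ← pow_add, ← two_mul, pow_mul]
          norm_num
        · intro c y hy
          obtain ⟨i, hi⟩ := hpow y
          show (χh : Γ → ℂ) ((c : Γ) * (y : Γ)) = (ε : ℂ) * (β : C → ℂ) c * ((f y : ℂˣ) : ℂ)
          rw [hfy y i hi, hycoe y i hi, hval c i (hyne y i hi hy), hη]
    · funext c
      rw [← hext ⟨c, hCG c.2⟩]
      exact hres c
    · have h1 := hres 1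
      have hχc := Helper24.charDegree_spec (Helper24.isCharacter_of_irr χ.2)
      have hβc := Helper24.charDegree_spec (Helper24.isCharacter_of_irr β.2)
      have hϑc := Helper24.charDegree_spec hϑ
      have h2 := hext 1
      rw [Subgroup.coe_one] at h1 h2
      rw [h2, hχc, hβc, hϑc] at h1
      refine ⟨(Cfsg.charDegree ϑ : ℤ), ?_⟩
      have h3 : ((Cfsg.charDegree (χ : G → ℂ) : ℤ) : ℂ)
          = (((Nat.card S : ℤ) * (Cfsg.charDegree ϑ : ℤ)
            + ε * (Cfsg.charDegree (β : C → ℂ) : ℤ) : ℤ) : ℂ) := by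
        push_cast
        exact h1
      have h4 := Int.cast_injective h3
      rw [h4]
      ring
  · have hN1 : Nat.card S = 1 := by
      have : 0 < Nat.card S := Nat.card_pos
      omega
    have hg1 : (g : Γ) = 1 := by
      rw [← orderOf_eq_one_iff, hord, hN1]
    have hall : ∀ y : S, y = 1 := by
      intro y
      obtain ⟨i, hi⟩ := hpow y
      rw [hi]
      have : g = 1 := Subtype.ext hg1
      rw [this, one_pow]
    have hval : ∀ c : C, (χh : Γ → ℂ) (c : Γ) = (ε₀ : ℂ) * (β : C → ℂ) c := by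
      intro c
      have := hβ c (g : Γ) hzp
      rwa [hg1, mul_one] at this
    refine ⟨ε₀, hε₀, ⟨fun _ => 1, Helper2.isCharacter_one, rfl, fun _ => by norm_num, ?_⟩,
      ⟨0, Helper2.isCharacter_zero, ?_⟩, ?_⟩
    · intro c y hy
      exact absurd (hall y) hy
    · funext c
      rw [← hext ⟨c, hCG c.2⟩]
      simp only [Pi.zero_apply, mul_zero, zero_add]
      exact hval c
    · rw [hN1, Nat.cast_one]
      exact one_dvd _

end Cfsg.Agent.S4451
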