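import Cfsg.Statements.S4464
-- import your own Cfsg.Agent.* helpers here
import Cfsg.Agent.Helper24.DegLtP

set_option autoImplicit false
open Cfsg

namespace Cfsg.Agent.S4464

open Cfsg.Agent.Helper24

/-- Let p be a prime and G a finite group all of whose irreducible character degrees are less than p. Then G has a normal abelian Sylow p-subgroup. -/
theorem result {G : Type*} [Group G] [Finite G] (p : ℕ) (hp : p.Prime) (hb : ∀ χ : Cfsg.IrrCharacter G, Cfsg.charDegree (χ : G → ℂ) < p) : ∃ P : Subgroup G, P.Normal ∧ (∀ x ∈ P, ∀ y ∈ P, x * y = y * x) ∧ IsPGroup p P ∧ ¬ p ∣ P.index := by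
  classical
  haveI : Fact p.Prime := ⟨hp⟩
  obtain ⟨Q, hQn, hQp, hQi⟩ := exists_normal_sylow_of_degree_lt p (Nat.card G) rfl hb
  refine ⟨Q, hQn, ?_, hQp, hQi⟩
  intro x hx y hy
  have := comm_of_pgroup_degree_lt p hQp (degree_lt_subgroup p hb Q) ⟨x, hx⟩ ⟨y, hy⟩
  exact congrArg Subtype.val this

end Cfsg.Agent.S4464
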