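import Cfsg.Statements.S4474
-- import your own Cfsg.Agent.* helpers here
import Cfsg.Agent.Helper24.RealRep

set_option autoImplicit false
open Cfsg

namespace Cfsg.Agent.S4474

open Cfsg.Agent.Helper24 Cfsg.Agent.Helper25 Matrix
open scoped ComplexOrder

/-- Let χ be an irreducible character of the finite group G. Then the Frobenius–Schur indicator of χ (the average over s ∈ G of χ(s²)) equals 1 if and only if χ is afforded by a real representation: there is a representation of G on a real coordinate space whose trace function, viewed in ℂ, is χ. -/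
theorem result {G : Type*} [Group G] [Fintype G] (χ : Cfsg.IrrCharacter G) : ((Nat.card G : ℂ)⁻¹ * ∑ s : G, (χ : G → ℂ) (s * s)) = 1 ↔ ∃ (n : ℕ) (ρ : Representation ℝ G (Fin n → ℝ)), ∀ g : G, ((LinearMap.trace ℝ (Fin n → ℝ) (ρ g) : ℝ) : ℂ) = (χ : G → ℂ) g := by
  classical
  have hirrχ : IsIrrCharacter G (χ : G → ℂ) := χ.2
  constructor
  · intro hν
    obtain ⟨n, ρ, hirr, hχ⟩ := χ.2
    have hreal : ∀ g, ((χ : G → ℂ) g).im = 0 := by
      by_contra hcon
      push_neg at hcon
      have h0 := (fs_indicator hirrχ).2 hcon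
      rw [h0] at hν
      exact zero_ne_one hν
    obtain ⟨X, hXdef⟩ : ∃ X : G → Matrix (Fin n) (Fin n) ℂ,
        X = fun g => LinearMap.toMatrix' (ρ g) := ⟨_, rfl⟩
    have hXapp : ∀ g, X g = LinearMap.toMatrix' (ρ g) := fun g => by rw [hXdef]
    have hXmul : ∀ g h, X (g * h) = X g * X h := by
      intro g h
      rw [hXapp, hXapp, hXapp, map_mul, LinearMap.toMatrix'_mul]
    have hX1 : X 1 = 1 := by
      rw [hXapp, map_one]; exact LinearMap.toMatrix'_one
    have htr : ∀ g, (X g).trace = (χ : G → ℂ) g := by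
      intro g
      rw [hXapp, ← hχ]
      show (LinearMap.toMatrix' (ρ g)).trace = LinearMap.trace ℂ (Fin n → ℂ) (ρ g)
      rw [LinearMap.trace_eq_matrix_trace ℂ (Pi.basisFun ℂ (Fin n)),
        LinearMap.toMatrix_eq_toMatrix']
    obtain ⟨⟨B, hB0, hBinv⟩, hsymm⟩ := fs_form X hXmul hirrχ htr hreal
    have hBsymm : Bᵀ = B := by
      rw [hsymm B hBinv, hν, one_smul]
    have hschur : ∀ A : Matrix (Fin n) (Fin n) ℂ, (∀ g, A * X g = X g * A) →
        ∃ c : ℂ, A = c • (1 : Matrix (Fin n) (Fin n) ℂ) := by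
      intro A hA
      apply schur_matrix ρ hirr A
      intro g
      have := hA g
      rw [hXapp] at this
      exact this
    obtain ⟨Y, hYmul, hY1, hYtr⟩ := real_form_of_symm X hXmul hX1 hschur B hB0 hBsymm hBinv
    refine ⟨n, { toFun := fun g => Matrix.toLin' (Y g)
                 map_one' := by rw [hY1]; exact Matrix.toLin'_one
                 map_mul' := fun g h => by rw [hYmul]; exact Matrix.toLin'_mul _ _ },
      fun g => ?_⟩
    show ((LinearMap.trace ℝ (Fin n → ℝ) (Matrix.toLin' (Y g)) : ℝ) : ℂ) = _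
    rw [Matrix.trace_toLin'_eq, hYtr, htr]
  · rintro ⟨n, ρr, htr⟩
    obtain ⟨X, hXdef⟩ : ∃ X : G → Matrix (Fin n) (Fin n) ℂ,
        X = fun g => (LinearMap.toMatrix' (ρr g)).map Complex.ofRealHom := ⟨_, rfl⟩
    have hXapp : ∀ g, X g = (LinearMap.toMatrix' (ρr g)).map Complex.ofRealHom :=
      fun g => by rw [hXdef]
    have hXmul : ∀ g h, X (g * h) = X g * X h := by
      intro g h
      rw [hXapp, hXapp, hXapp, map_mul, LinearMap.toMatrix'_mul, Matrix.map_mul]
    have hX1 : X 1 = 1 := by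
      rw [hXapp, map_one]
      have : LinearMap.toMatrix' (1 : Module.End ℝ (Fin n → ℝ)) = 1 := LinearMap.toMatrix'_one
      rw [this, Matrix.map_one _ (map_zero _) (map_one _)]
    have hXtr : ∀ g, (X g).trace = (χ : G → ℂ) g := by
      intro g
      rw [← htr g, hXapp, LinearMap.trace_eq_matrix_trace ℝ (Pi.basisFun ℝ (Fin n)),
        LinearMap.toMatrix_eq_toMatrix']
      exact (AddMonoidHom.map_trace Complex.ofRealHom.toAddMonoidHom _).symm
    have hreal : ∀ g, ((χ : G → ℂ) g).im = 0 := by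
      intro g; rw [← htr g]; exact Complex.ofReal_im _
    obtain ⟨-, hsymm⟩ := fs_form X hXmul hirrχ hXtr hreal
    have hXT : ∀ g, (X g)ᴴ = (X g)ᵀ := by
      intro g
      rw [hXapp]
      ext i j
      simp [Matrix.conjTranspose_apply, Matrix.transpose_apply]
    obtain ⟨hSpd, hSinv⟩ := posDef_gram X hXmul hX1
    have hSinv' : ∀ g, (X g)ᵀ * (∑ k : G, (X k)ᴴ * X k) * X g = ∑ k : G, (X k)ᴴ * X k := by
      intro g; rw [← hXT g]; exact hSinv g
    have hST : (∑ k : G, (X k)ᴴ * X k)ᵀ = ∑ k : G, (X k)ᴴ * X k := by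
      rw [Matrix.transpose_sum]
      refine Finset.sum_congr rfl fun g _ => ?_
      rw [hXT, Matrix.transpose_mul, Matrix.transpose_transpose]
    have h1 := hsymm _ hSinv'
    rw [hST] at h1
    have hn : n ≠ 0 := by
      intro hn0
      have h := hXtr 1
      rw [hX1, Matrix.trace_one, Fintype.card_fin, hn0, Nat.cast_zero] at h
      exact irr_one_ne_zero hirrχ h.symm
    have hn' : 0 < n := Nat.pos_of_ne_zero hn
    have hdiag : (0 : ℂ) < (∑ k : G, (X k)ᴴ * X k) ⟨0, hn'⟩ ⟨0, hn'⟩ := hSpd.diag_pos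
    have h2 := congrFun (congrFun h1 ⟨0, hn'⟩) ⟨0, hn'⟩
    rw [Matrix.smul_apply, smul_eq_mul] at h2
    have h3 : ((Nat.card G : ℂ)⁻¹ * ∑ s : G, (χ : G → ℂ) (s * s) - 1) *
        (∑ k : G, (X k)ᴴ * X k) ⟨0, hn'⟩ ⟨0, hn'⟩ = 0 := by
      rw [sub_mul, one_mul, ← h2, sub_self]
    rcases mul_eq_zero.mp h3 with h | h
    · exact sub_eq_zero.mp h
    · exact absurd h hdiag.ne'

end Cfsg.Agent.S4474
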