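import Cfsg.Statements.S4475
-- import your own Cfsg.Agent.* helpers here
import Cfsg.Agent.Helper25.FSIndicator

set_option autoImplicit false
open Cfsg

namespace Cfsg.Agent.S4475

open Cfsg.Agent.Helper24 Cfsg.Agent.Helper25 Matrix

/-- Let ρ be an irreducible representation of the finite group G on the coordinate space Fin n → ℂ whose character χ is real-valued, and let ν be the Frobenius–Schur indicator of χ (the average of χ(s²)). Writing X(g) for the matrix of ρ(g), there is a nonzero matrix M with X(g)ᵀ M X(g) = M for all g ∈ G; and every such M (zero or not) satisfies Mᵀ = ν·M. -/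
theorem result {G : Type*} [Group G] [Fintype G] (n : ℕ) (ρ : Representation ℂ G (Fin n → ℂ)) (hirr : ρ.IsIrreducible) (hreal : ∀ g : G, (ρ.character g).im = 0) : (∃ M : Matrix (Fin n) (Fin n) ℂ, M ≠ 0 ∧ ∀ g : G, (LinearMap.toMatrix' (ρ g)).transpose * M * LinearMap.toMatrix' (ρ g) = M) ∧ ∀ M : Matrix (Fin n) (Fin n) ℂ, (∀ g : G, (LinearMap.toMatrix' (ρ g)).transpose * M * LinearMap.toMatrix' (ρ g) = M) → M.transpose = ((Nat.card G : ℂ)⁻¹ * ∑ s : G, ρ.character (s * s)) • M := by
  classical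
  have hne : (Nat.card G : ℂ) ≠ 0 := by exact_mod_cast Nat.card_pos.ne'
  have hirrχ : IsIrrCharacter G ρ.character := ⟨n, ρ, hirr, rfl⟩
  have hchar := isCharacter_of_irr hirrχ
  have hXmul : ∀ g h : G, LinearMap.toMatrix' (ρ (g * h)) =
      LinearMap.toMatrix' (ρ g) * LinearMap.toMatrix' (ρ h) := fun g h => by
    rw [map_mul, LinearMap.toMatrix'_mul]
  have htr : ∀ g : G, (LinearMap.toMatrix' (ρ g)).trace = ρ.character g := by
    intro g
    show _ = LinearMap.trace ℂ (Fin n → ℂ) (ρ g)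
    rw [LinearMap.trace_eq_matrix_trace ℂ (Pi.basisFun ℂ (Fin n)),
      LinearMap.toMatrix_eq_toMatrix']
  have hconj : ∀ g, (starRingEnd ℂ) (ρ.character g) = ρ.character g :=
    fun g => Complex.conj_eq_iff_im.mpr (hreal g)
  obtain ⟨D, hD⟩ : ∃ D : G → Matrix (Fin n) (Fin n) ℂ,
      D = fun g => (LinearMap.toMatrix' (ρ g⁻¹))ᵀ := ⟨_, rfl⟩
  have hDmul : ∀ g h, D (g * h) = D g * D h := by
    intro g h
    rw [hD]
    show (LinearMap.toMatrix' (ρ (g * h)⁻¹))ᵀ =
      (LinearMap.toMatrix' (ρ g⁻¹))ᵀ * (LinearMap.toMatrix' (ρ h⁻¹))ᵀ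
    rw [_root_.mul_inv_rev, hXmul, Matrix.transpose_mul]
  have hDtr : ∀ g, (D g).trace = ρ.character g := by
    intro g
    rw [hD]
    show ((LinearMap.toMatrix' (ρ g⁻¹))ᵀ).trace = _
    rw [Matrix.trace_transpose, htr, char_inv hchar, hconj]
  have hDDtr : ∀ g, (D g * D g).trace = ρ.character (g * g) := by
    intro g
    rw [← hDmul, hDtr]
  have hDconj : ∀ (g : G) (M : Matrix (Fin n) (Fin n) ℂ),
      conjT (D g) M = (LinearMap.toMatrix' (ρ g⁻¹))ᵀ * M * LinearMap.toMatrix' (ρ g⁻¹) := by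
    intro g M
    rw [conjT_apply, hD]
    show (LinearMap.toMatrix' (ρ g⁻¹))ᵀ * M * ((LinearMap.toMatrix' (ρ g⁻¹))ᵀ)ᵀ = _
    rw [Matrix.transpose_transpose]
  obtain ⟨P, hP⟩ : ∃ P : Module.End ℂ (Matrix (Fin n) (Fin n) ℂ),
      P = (Nat.card G : ℂ)⁻¹ • ∑ g : G, conjT (D g) := ⟨_, rfl⟩
  have hcomp : ∀ g h : G, conjT (D h) * conjT (D g) = conjT (D (h * g)) := by
    intro g h
    apply LinearMap.ext
    intro X
    simp only [Module.End.mul_apply, conjT_apply, hDmul, Matrix.transpose_mul, Matrix.mul_assoc]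
  have hinv : ∀ h : G, conjT (D h) * P = P := by
    intro h
    rw [hP, mul_smul_comm, Finset.mul_sum]
    congr 1
    simp only [hcomp]
    exact Fintype.sum_equiv (Equiv.mulLeft h) _ _ (fun g => rfl)
  have hidem : P * P = P := by
    calc P * P = ((Nat.card G : ℂ)⁻¹ • ∑ g : G, conjT (D g)) * P := by rw [← hP]
      _ = (Nat.card G : ℂ)⁻¹ • ∑ g : G, conjT (D g) * P := by
          rw [smul_mul_assoc, Finset.sum_mul]
      _ = (Nat.card G : ℂ)⁻¹ • ∑ _g : G, P := by simp only [hinv]
      _ = P := by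
          rw [Finset.sum_const, Finset.card_univ, ← Nat.card_eq_fintype_card,
            ← Nat.cast_smul_eq_nsmul ℂ, smul_smul, inv_mul_cancel₀ hne, one_smul]
  have hcomm : ∀ g : G, conjT (D g) * transT n = transT n * conjT (D g) := by
    intro g
    apply LinearMap.ext
    intro X
    simp only [Module.End.mul_apply, conjT_apply, transT_apply, Matrix.transpose_mul,
      Matrix.transpose_transpose, Matrix.mul_assoc]
  have hPT : P * transT n = transT n * P := by
    rw [hP, smul_mul_assoc, mul_smul_comm, Finset.sum_mul, Finset.mul_sum]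
    simp only [hcomm]
  have htrP : LinearMap.trace ℂ _ P = 1 := by
    rw [hP, map_smul, map_sum]
    simp only [trace_conjT, smul_eq_mul]
    have h1 := Helper2.classInner_irr hirrχ hirrχ
    rw [if_pos rfl] at h1
    rw [← h1]
    unfold classInner
    congr 1
    refine Finset.sum_congr rfl fun g _ => ?_
    rw [hDtr, hconj, pow_two]
  have htrPT : LinearMap.trace ℂ _ (P * transT n)
      = (Nat.card G : ℂ)⁻¹ * ∑ s : G, ρ.character (s * s) := by
    rw [hP, smul_mul_assoc, Finset.sum_mul, map_smul, map_sum]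
    simp only [trace_conjT_transT, smul_eq_mul, hDDtr]
  have hidem' : IsIdempotentElem P := hidem
  have hproj := LinearMap.IsIdempotentElem.isProj_range P hidem'
  have hfr : Module.finrank ℂ (LinearMap.range P) = 1 := by
    have h1 := hproj.trace
    rw [htrP] at h1
    exact_mod_cast h1.symm
  obtain ⟨⟨B, hB⟩, hB0, hspan⟩ := finrank_eq_one_iff'.mp hfr
  have hPB : P B = B := hproj.map_id B hB
  have hB0' : B ≠ 0 := fun h => hB0 (Subtype.ext h)
  -- invariance ↔ fixed by P
  have hfix_of_inv : ∀ M : Matrix (Fin n) (Fin n) ℂ,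
      (∀ g : G, (LinearMap.toMatrix' (ρ g)).transpose * M * LinearMap.toMatrix' (ρ g) = M) →
      P M = M := by
    intro M hM
    rw [hP, LinearMap.smul_apply, LinearMap.sum_apply]
    have : ∀ g : G, conjT (D g) M = M := fun g => by rw [hDconj]; exact hM g⁻¹
    rw [Finset.sum_congr rfl (fun g _ => this g), Finset.sum_const, Finset.card_univ,
      ← Nat.card_eq_fintype_card, ← Nat.cast_smul_eq_nsmul ℂ, smul_smul, inv_mul_cancel₀ hne,
      one_smul]
  have hinv_of_fix : ∀ M : Matrix (Fin n) (Fin n) ℂ, P M = M →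
      ∀ g : G, (LinearMap.toMatrix' (ρ g)).transpose * M * LinearMap.toMatrix' (ρ g) = M := by
    intro M hM g
    have h1 : conjT (D g⁻¹) (P M) = P M := by
      rw [← Module.End.mul_apply, hinv]
    rw [hM, hDconj, inv_inv] at h1
    exact h1
  have hTB : transT n B ∈ LinearMap.range P :=
    ⟨transT n B, by rw [← Module.End.mul_apply, hPT, Module.End.mul_apply, hPB]⟩
  obtain ⟨ε, hε⟩ := hspan ⟨transT n B, hTB⟩
  have hε' : ε • B = transT n B := congrArg Subtype.val hε
  have hPTε : P * transT n = ε • P := by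
    apply LinearMap.ext
    intro X
    rw [hPT, Module.End.mul_apply, LinearMap.smul_apply]
    obtain ⟨c, hc⟩ := hspan ⟨P X, LinearMap.mem_range_self P X⟩
    have hc' : c • B = P X := congrArg Subtype.val hc
    rw [← hc', map_smul, ← hε', smul_comm]
  have hεν : ε = (Nat.card G : ℂ)⁻¹ * ∑ s : G, ρ.character (s * s) := by
    rw [← htrPT, hPTε, map_smul, htrP, smul_eq_mul, mul_one]
  refine ⟨⟨B, hB0', hinv_of_fix B hPB⟩, ?_⟩
  intro M hM
  have hPM := hfix_of_inv M hM
  obtain ⟨c, hc⟩ := hspan ⟨M, ⟨M, hPM⟩⟩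
  have hc' : c • B = M := congrArg Subtype.val hc
  rw [← hεν, ← hc', Matrix.transpose_smul]
  have : Bᵀ = ε • B := by rw [hε']; rfl
  rw [this, smul_comm]

end Cfsg.Agent.S4475
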