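import Cfsg.Statements.S4479
import Cfsg.Agent.Helper6.KleinOrder2

set_option autoImplicit false
open Cfsg

namespace Cfsg.Agent.S4479

open Cfsg.Agent Cfsg.Agent.Helper6 in
/-- An order formula from the principal 2-block. Let G be a finite group of order 4·g₀ with g₀ odd having no normal 2-complement (no normal subgroup of order g₀); let P be a Sylow 2-subgroup, J an involution of P, and fix a maximal ideal M of the algebraic integers containing 2. Suppose the principal 2-block consists of the principal character and three further distinct characters χ₁, χ₂, χ₃ of degrees x₁, x₂, x₃, with χ_i(J) = ε_i = ±1. Then, writing c(J) and c(P) for the orders of the centralizers of J and of P, the order of G equals 8·α·c(J)³/c(P)² with α = x₁x₂x₃ / ((x₁ + ε₁)(x₂ + ε₂)(x₃ + ε₃)). -/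
theorem result {G : Type*} [Group G] [Finite G] (M : Ideal Cfsg.AlgInt) (hM : Cfsg.IsPModular 2 M) (g₀ : ℕ) (hg₀ : Odd g₀) (hG : Nat.card G = 4 * g₀) (hnc : ¬ ∃ N : Subgroup G, N.Normal ∧ Nat.card N = g₀) (P : Sylow 2 G) (J : G) (hJ : J ∈ (P : Subgroup G)) (hJ2 : orderOf J = 2) (χ₁ χ₂ χ₃ : Cfsg.IrrCharacter G) (ε₁ ε₂ ε₃ : ℤ) (hB : Cfsg.principalBlock M G = {χ : Cfsg.IrrCharacter G | (χ : G → ℂ) = (fun _ => 1) ∨ χ = χ₁ ∨ χ = χ₂ ∨ χ = χ₃}) (hdist : (χ₁ : G → ℂ) ≠ (fun _ => 1) ∧ (χ₂ : G → ℂ) ≠ (fun _ => 1) ∧ (χ₃ : G → ℂ) ≠ (fun _ => 1) ∧ χ₁ ≠ χ₂ ∧ χ₁ ≠ χ₃ ∧ χ₂ ≠ χ₃) (hε : (ε₁ = 1 ∨ ε₁ = -1) ∧ (ε₂ = 1 ∨ ε₂ = -1) ∧ (ε₃ = 1 ∨ ε₃ = -1)) (hval : (χ₁ : G → ℂ) J = ε₁ ∧ (χ₂ : G → ℂ) J = ε₂ ∧ (χ₃ : G → ℂ) J = ε₃) : (Nat.card G : ℚ) = 8 * (((Cfsg.charDegree (χ₁ : G → ℂ) : ℚ) * Cfsg.charDegree (χ₂ : G → ℂ) * Cfsg.charDegree (χ₃ : G → ℂ)) / ((Cfsg.charDegree (χ₁ : G → ℂ) + ε₁) * (Cfsg.charDegree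 (χ₂ : G → ℂ) + ε₂) * (Cfsg.charDegree (χ₃ : G → ℂ) + ε₃))) * (Nat.card (Subgroup.centralizer ({J} : Set G)) : ℚ) ^ 3 / (Nat.card (Subgroup.centralizer ((P : Subgroup G) : Set G)) : ℚ) ^ 2 := by
  classical
  haveI : Fact (Nat.Prime 2) := ⟨Nat.prime_two⟩
  haveI : Fintype G := Fintype.ofFinite G
  have := Helper24.finite_irrCharacter (G := G)
  haveI : Fintype (IrrCharacter G) := Fintype.ofFinite _
  obtain ⟨hε₁, hε₂, hε₃⟩ := hε
  obtain ⟨hv₁, hv₂, hv₃⟩ := hval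
  obtain ⟨hn1, hn2, hn3, h12, h13, h23⟩ := hdist
  have hg0ne : g₀ ≠ 0 := by
    rintro rfl
    exact (Nat.not_odd_iff_even.2 (by decide : Even 0)) hg₀
  have h2g : ¬ 2 ∣ g₀ := fun h => (Nat.not_even_iff_odd.2 hg₀) (even_iff_two_dvd.2 h)
  have hfac : (Nat.card G).factorization 2 = 2 := by
    have h4 : (4 : ℕ) = 2 ^ 2 := by norm_num
    rw [hG, h4, Nat.factorization_mul (by norm_num) hg0ne, Finsupp.add_apply,
      Nat.Prime.factorization_pow Nat.prime_two, Finsupp.single_eq_same,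
      Nat.factorization_eq_zero_of_not_dvd h2g]
  have hP4 : Nat.card P = 4 := by
    rw [Sylow.card_eq_multiplicity P, hfac]
    norm_num
  have hidxP : (P : Subgroup G).index = g₀ := by
    have h := (P : Subgroup G).card_mul_index
    have hP4' : Nat.card (P : Subgroup G) = 4 := hP4
    rw [hP4', hG] at h
    omega
  have hnoc : ¬ ∃ N : Subgroup G, N.Normal ∧ N.IsComplement' (P : Subgroup G) := by
    rintro ⟨N, hN, hc⟩
    apply hnc
    refine ⟨N, hN, ?_⟩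
    rw [← hidxP]
    exact hc.index_eq_card.symm
  have hncyc : ¬ IsCyclic P := by
    intro hcyc
    obtain ⟨K, hKn, -, hKc, -⟩ := TwoCompl.exists_odd_complement P hcyc
    exact hnoc ⟨K, hKn, hKc⟩
  have hexp : ∀ x : P, x * x = 1 := by
    intro x
    have h1 : orderOf x ∣ 2 ^ 2 := (orderOf_dvd_natCard x).trans (dvd_of_eq hP4)
    obtain ⟨k, hk, hk'⟩ := (Nat.dvd_prime_pow Nat.prime_two).1 h1
    have hk1 : k ≤ 1 := by
      by_contra hlt
      have hk2 : k = 2 := by omega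
      apply hncyc
      apply isCyclic_of_orderOf_eq_card x
      have h24 : 2 ^ k = 4 := by
        rw [hk2]
        norm_num
      exact (hk'.trans h24).trans hP4.symm
    have h2 : orderOf x ∣ 2 := by
      rw [hk']
      exact pow_dvd_pow 2 hk1 |>.trans (by norm_num)
    rw [← pow_two]
    exact orderOf_dvd_iff_pow_eq_one.1 h2
  haveI hVP : IsKleinFour (P : Subgroup G) :=
    Helper18.KleinCount.kc_isKleinFour _ hP4 (fun x hx => congrArg Subtype.val (hexp ⟨x, hx⟩))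
  have hPconj : ∀ a b : G, a ∈ (P : Subgroup G) → b ∈ (P : Subgroup G) → a ≠ 1 → b ≠ 1 →
      IsConj a b := by
    rw [Cfsg.Agent.S0071.result P] at hnoc
    push Not at hnoc
    obtain ⟨Q, hQP, g, hg, hcop, hgc⟩ := hnoc
    rw [Subgroup.mem_centralizer_iff] at hgc
    push Not at hgc
    obtain ⟨q, hq, hqg⟩ := hgc
    have hr : g * q * g⁻¹ ∈ Q := (Subgroup.mem_set_normalizer_iff.1 hg q).1 hq
    have hne : q ≠ g * q * g⁻¹ := by
      intro h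
      apply hqg
      calc q * g = g * q * g⁻¹ * g := by rw [← h]
        _ = g * q := by group
    have hq1 : q ≠ 1 := by
      rintro rfl
      exact hqg (by rw [one_mul, mul_one])
    have hr1 : g * q * g⁻¹ ≠ 1 := by
      intro h
      apply hq1
      have h2 : q = g⁻¹ * (g * q * g⁻¹) * g := by group
      rw [h2, h]
      group
    intro a b ha hb ha1 hb1
    exact Helper2.klein_all_conj P q (g * q * g⁻¹) (hQP hq) (hQP hr) hq1 hr1 hne
      (isConj_iff.2 ⟨g, rfl⟩) a b ha hb ha1 hb1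
  have hone : ∀ s t : G, orderOf s = 2 → orderOf t = 2 → IsConj s t := by
    intro s t hs ht
    obtain ⟨g, hg⟩ := Helper2.exists_conj_mem_sylow P s hs
    obtain ⟨h, hh⟩ := Helper2.exists_conj_mem_sylow P t ht
    have hs1 : g * s * g⁻¹ ≠ 1 := by
      intro h1
      have h2 : s = g⁻¹ * (g * s * g⁻¹) * g := by group
      rw [h2, h1] at hs
      simp at hs
    have ht1 : h * t * h⁻¹ ≠ 1 := by
      intro h1
      have h2 : t = h⁻¹ * (h * t * h⁻¹) * h := by group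
      rw [h2, h1] at ht
      simp at ht
    have h3 := hPconj _ _ hg hh hs1 ht1
    exact ((isConj_iff.2 ⟨g, rfl⟩).trans h3).trans (isConj_iff.2 ⟨h, rfl⟩).symm
  have hBiff : ∀ φ : IrrCharacter G, φ ∈ principalBlock M G ↔
      φ = Helper25.oneIrr G ∨ φ = χ₁ ∨ φ = χ₂ ∨ φ = χ₃ := by
    intro φ
    rw [hB, Set.mem_setOf_eq]
    constructor
    · rintro (h | h | h | h)
      · exact Or.inl (Subtype.ext h)
      · exact Or.inr (Or.inl h)
      · exact Or.inr (Or.inr (Or.inl h))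
      · exact Or.inr (Or.inr (Or.inr h))
    · rintro (h | h | h | h)
      · exact Or.inl (by rw [h]; rfl)
      · exact Or.inr (Or.inl h)
      · exact Or.inr (Or.inr (Or.inl h))
      · exact Or.inr (Or.inr (Or.inr h))
  have hd1 : χ₁ ≠ Helper25.oneIrr G := fun h => hn1 (by rw [h]; rfl)
  have hd2 : χ₂ ≠ Helper25.oneIrr G := fun h => hn2 (by rw [h]; rfl)
  have hd3 : χ₃ ≠ Helper25.oneIrr G := fun h => hn3 (by rw [h]; rfl)
  obtain ⟨R1, R2⟩ := ko_main hM P hP4 hexp hone J hJ hJ2 χ₁ χ₂ χ₃ ε₁ ε₂ ε₃ hd1 hd2 hd3 h12 h13 h23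
    hBiff hε₁ hε₂ hε₃ hv₁ hv₂ hv₃
  rw [Helper25.irr_one_eq_degree χ₁, Helper25.irr_one_eq_degree χ₂,
    Helper25.irr_one_eq_degree χ₃] at R1 R2
  have R1q : (1 : ℚ) + (ε₁ : ℚ) * (charDegree (χ₁ : G → ℂ) : ℚ)
      + (ε₂ : ℚ) * (charDegree (χ₂ : G → ℂ) : ℚ) + (ε₃ : ℚ) * (charDegree (χ₃ : G → ℂ) : ℚ) = 0 := by
    exact_mod_cast R1
  have R2q : (Nat.card (Subgroup.centralizer ((P : Subgroup G) : Set G)) : ℚ) ^ 2
      * (Nat.card G : ℚ) *
      ((charDegree (χ₁ : G → ℂ) : ℚ) * (charDegree (χ₂ : G → ℂ) : ℚ)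
          * (charDegree (χ₃ : G → ℂ) : ℚ)
        + (ε₁ : ℚ) * ((charDegree (χ₂ : G → ℂ) : ℚ) * (charDegree (χ₃ : G → ℂ) : ℚ))
        + (ε₂ : ℚ) * ((charDegree (χ₁ : G → ℂ) : ℚ) * (charDegree (χ₃ : G → ℂ) : ℚ))
        + (ε₃ : ℚ) * ((charDegree (χ₁ : G → ℂ) : ℚ) * (charDegree (χ₂ : G → ℂ) : ℚ)))
      = 8 * (Nat.card (Subgroup.centralizer ({J} : Set G)) : ℚ) ^ 3
        * ((charDegree (χ₁ : G → ℂ) : ℚ) * (charDegree (χ₂ : G → ℂ) : ℚ)
          * (charDegree (χ₃ : G → ℂ) : ℚ)) := by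
    exact_mod_cast R2
  have hkdeg : ∀ (χ : IrrCharacter G) (ε : ℤ), (ε = 1 ∨ ε = -1) → (χ : G → ℂ) J = ε →
      (charDegree (χ : G → ℂ) : ℚ) + (ε : ℚ) ≠ 0 := by
    intro χ ε hε hv
    have hk : ∀ z : G, orderOf z = 2 → (χ : G → ℂ) z = (ε : ℂ) := by
      intro z hz
      rw [← hv]
      exact Helper2.IsClassFunction.apply_eq_of_isConj
        (Helper2.IsIrrCharacter.isClassFunction χ.2) (hone z J hz hJ2)
    obtain ⟨k, hk4⟩ := kf_deg P hP4 hexp χ ε hk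
    intro h0
    have h0' : (charDegree (χ : G → ℂ) : ℤ) + ε = 0 := by exact_mod_cast h0
    rcases hε with h | h <;> omega
  have hne₁ := hkdeg χ₁ ε₁ hε₁ hv₁
  have hne₂ := hkdeg χ₂ ε₂ hε₂ hv₂
  have hne₃ := hkdeg χ₃ ε₃ hε₃ hv₃
  have hcP : (Nat.card (Subgroup.centralizer ((P : Subgroup G) : Set G)) : ℚ) ≠ 0 :=
    Nat.cast_ne_zero.2 Nat.card_pos.ne'
  have e₁ : (ε₁ : ℚ) * ε₁ = 1 := by
    rcases hε₁ with h | h <;> rw [h] <;> norm_num
  have e₂ : (ε₂ : ℚ) * ε₂ = 1 := by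
    rcases hε₂ with h | h <;> rw [h] <;> norm_num
  have e₃ : (ε₃ : ℚ) * ε₃ = 1 := by
    rcases hε₃ with h | h <;> rw [h] <;> norm_num
  have key : (Nat.card G : ℚ) * (((charDegree (χ₁ : G → ℂ) : ℚ) + ε₁)
        * ((charDegree (χ₂ : G → ℂ) : ℚ) + ε₂) * ((charDegree (χ₃ : G → ℂ) : ℚ) + ε₃))
        * (Nat.card (Subgroup.centralizer ((P : Subgroup G) : Set G)) : ℚ) ^ 2
      = 8 * ((charDegree (χ₁ : G → ℂ) : ℚ) * (charDegree (χ₂ : G → ℂ) : ℚ)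
          * (charDegree (χ₃ : G → ℂ) : ℚ))
        * (Nat.card (Subgroup.centralizer ({J} : Set G)) : ℚ) ^ 3 := by
    linear_combination R2q
      + (Nat.card G : ℚ) * (Nat.card (Subgroup.centralizer ((P : Subgroup G) : Set G)) : ℚ) ^ 2
        * ε₁ * ε₂ * ε₃ * R1q
      - (Nat.card G : ℚ) * (Nat.card (Subgroup.centralizer ((P : Subgroup G) : Set G)) : ℚ) ^ 2
        * ε₁ * ε₂ * (charDegree (χ₃ : G → ℂ) : ℚ) * e₃
      - (Nat.card G : ℚ) * (Nat.card (Subgroup.centralizer ((P : Subgroup G) : Set G)) : ℚ) ^ 2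
        * ε₁ * ε₃ * (charDegree (χ₂ : G → ℂ) : ℚ) * e₂
      - (Nat.card G : ℚ) * (Nat.card (Subgroup.centralizer ((P : Subgroup G) : Set G)) : ℚ) ^ 2
        * ε₂ * ε₃ * (charDegree (χ₁ : G → ℂ) : ℚ) * e₁
  field_simp
  linear_combination key

end Cfsg.Agent.S4479
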