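import Cfsg.Statements.S4480
import Cfsg.Agent.Helper6.KleinOrder3

set_option autoImplicit false
open Cfsg

namespace Cfsg.Agent.S4480

open Cfsg.Agent Cfsg.Agent.Helper6 in
/-- Same setting as the Klein-four order formula: G of order 4·g₀ (g₀ odd) with no normal 2-complement, P a Sylow 2-subgroup, J an involution of P, M over 2, principal 2-block {1, χ₁, χ₂, χ₃} with χ_i(J) = ε_i = ±1. Suppose ε₁ε₂ε₃ = −1 and ε₃ = −1, and put q = x₃ = χ₃(1). Then there is a natural number m with 4·c(J) = m·c(P)·(q + 1), and the order of G equals (m³·c(P)/4)·(q³ − q)/2, that is 8·#G = m³·c(P)·(q³ − q). -/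
theorem result {G : Type*} [Group G] [Finite G] (M : Ideal Cfsg.AlgInt) (hM : Cfsg.IsPModular 2 M) (g₀ : ℕ) (hg₀ : Odd g₀) (hG : Nat.card G = 4 * g₀) (hnc : ¬ ∃ N : Subgroup G, N.Normal ∧ Nat.card N = g₀) (P : Sylow 2 G) (J : G) (hJ : J ∈ (P : Subgroup G)) (hJ2 : orderOf J = 2) (χ₁ χ₂ χ₃ : Cfsg.IrrCharacter G) (ε₁ ε₂ ε₃ : ℤ) (hB : Cfsg.principalBlock M G = {χ : Cfsg.IrrCharacter G | (χ : G → ℂ) = (fun _ => 1) ∨ χ = χ₁ ∨ χ = χ₂ ∨ χ = χ₃}) (hdist : (χ₁ : G → ℂ) ≠ (fun _ => 1) ∧ (χ₂ : G → ℂ) ≠ (fun _ => 1) ∧ (χ₃ : G → ℂ) ≠ (fun _ => 1) ∧ χ₁ ≠ χ₂ ∧ χ₁ ≠ χ₃ ∧ χ₂ ≠ χ₃) (hε : (ε₁ = 1 ∨ ε₁ = -1) ∧ (ε₂ = 1 ∨ ε₂ = -1) ∧ (ε₃ = 1 ∨ ε₃ = -1)) (hval : (χ₁ : G → ℂ) J = ε₁ ∧ (χ₂ : G → ℂ) J = ε₂ ∧ (χ₃ : G → ℂ) J = ε₃) (hprod : ε₁ * ε₂ * ε₃ = -1) (hε₃ : ε₃ = -1) : ∃ m : ℕ, 4 * Nat.card (Subgroup.centralizer ({J} : Set G)) = m * Nat.card (Subgroup.centralizer ((P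 : Subgroup G) : Set G)) * (Cfsg.charDegree (χ₃ : G → ℂ) + 1) ∧ 8 * Nat.card G = m ^ 3 * Nat.card (Subgroup.centralizer ((P : Subgroup G) : Set G)) * (Cfsg.charDegree (χ₃ : G → ℂ) ^ 3 - Cfsg.charDegree (χ₃ : G → ℂ)) := by
  classical
  haveI : Fact (Nat.Prime 2) := ⟨Nat.prime_two⟩
  haveI : Fintype G := Fintype.ofFinite G
  have := Helper24.finite_irrCharacter (G := G)
  haveI : Fintype (IrrCharacter G) := Fintype.ofFinite _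
  obtain ⟨hε₁, hε₂, -⟩ := hε
  obtain ⟨hv₁, hv₂, hv₃⟩ := hval
  obtain ⟨hn1, hn2, hn3, h12, h13, h23⟩ := hdist
  obtain ⟨hP4, hexp, hone⟩ := ko_setup g₀ hg₀ hG hnc P
  have hBiff : ∀ φ : IrrCharacter G, φ ∈ principalBlock M G ↔
      φ = Helper25.oneIrr G ∨ φ = χ₁ ∨ φ = χ₂ ∨ φ = χ₃ := by
    intro φ
    rw [hB, Set.mem_setOf_eq]
    constructor
    · rintro (h | h | h | h)
      · exact Or.inl (Subtype.ext h)
      · exact Or.inr (Or.inl h)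
      · exact Or.inr (Or.inr (Or.inl h))
      · exact Or.inr (Or.inr (Or.inr h))
    · rintro (h | h | h | h)
      · exact Or.inl (by rw [h]; rfl)
      · exact Or.inr (Or.inl h)
      · exact Or.inr (Or.inr (Or.inl h))
      · exact Or.inr (Or.inr (Or.inr h))
  have hd1 : χ₁ ≠ Helper25.oneIrr G := fun h => hn1 (by rw [h]; rfl)
  have hd2 : χ₂ ≠ Helper25.oneIrr G := fun h => hn2 (by rw [h]; rfl)
  have hd3 : χ₃ ≠ Helper25.oneIrr G := fun h => hn3 (by rw [h]; rfl)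
  obtain ⟨R1, R2⟩ := ko_main hM P hP4 hexp hone J hJ hJ2 χ₁ χ₂ χ₃ ε₁ ε₂ ε₃ hd1 hd2 hd3 h12 h13 h23
    hBiff hε₁ hε₂ (Or.inr hε₃) hv₁ hv₂ hv₃
  rw [Helper25.irr_one_eq_degree χ₁, Helper25.irr_one_eq_degree χ₂,
    Helper25.irr_one_eq_degree χ₃] at R1 R2
  have R1z : (1 : ℤ) + ε₁ * (charDegree (χ₁ : G → ℂ) : ℤ)
      + ε₂ * (charDegree (χ₂ : G → ℂ) : ℤ) + ε₃ * (charDegree (χ₃ : G → ℂ) : ℤ) = 0 := by
    exact_mod_cast R1
  have R2z : (Nat.card (Subgroup.centralizer ((P : Subgroup G) : Set G)) : ℤ) ^ 2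
      * (Nat.card G : ℤ) *
      ((charDegree (χ₁ : G → ℂ) : ℤ) * (charDegree (χ₂ : G → ℂ) : ℤ)
          * (charDegree (χ₃ : G → ℂ) : ℤ)
        + ε₁ * ((charDegree (χ₂ : G → ℂ) : ℤ) * (charDegree (χ₃ : G → ℂ) : ℤ))
        + ε₂ * ((charDegree (χ₁ : G → ℂ) : ℤ) * (charDegree (χ₃ : G → ℂ) : ℤ))
        + ε₃ * ((charDegree (χ₁ : G → ℂ) : ℤ) * (charDegree (χ₂ : G → ℂ) : ℤ)))
      = 8 * (Nat.card (Subgroup.centralizer ({J} : Set G)) : ℤ) ^ 3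
        * ((charDegree (χ₁ : G → ℂ) : ℤ) * (charDegree (χ₂ : G → ℂ) : ℤ)
          * (charDegree (χ₃ : G → ℂ) : ℤ)) := by
    exact_mod_cast R2
  have hkdeg : ∀ (χ : IrrCharacter G) (ε : ℤ), (χ : G → ℂ) J = ε →
      (4 : ℤ) ∣ (charDegree (χ : G → ℂ) : ℤ) - ε := by
    intro χ ε hv
    have hk : ∀ z : G, orderOf z = 2 → (χ : G → ℂ) z = (ε : ℂ) := by
      intro z hz
      rw [← hv]
      exact Helper2.IsClassFunction.apply_eq_of_isConj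
        (Helper2.IsIrrCharacter.isClassFunction χ.2) (hone z J hz hJ2)
    exact kf_deg P hP4 hexp χ ε hk
  obtain ⟨k₁, hk₁⟩ := hkdeg χ₁ ε₁ hv₁
  obtain ⟨k₂, hk₂⟩ := hkdeg χ₂ ε₂ hv₂
  obtain ⟨k₃, hk₃⟩ := hkdeg χ₃ ε₃ hv₃
  subst hε₃
  have h12e : ε₁ = 1 ∧ ε₂ = 1 := by
    rcases hε₁ with h | h <;> rcases hε₂ with h' | h'
    · exact ⟨h, h'⟩
    · exfalso
      rw [h, h'] at hprod
      norm_num at hprod
    · exfalso
      rw [h, h'] at hprod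
      norm_num at hprod
    · exfalso
      rw [h] at R1z hk₁
      rw [h'] at R1z hk₂
      omega
  obtain ⟨rfl, rfl⟩ := h12e
  have ho1 : Odd (charDegree (χ₁ : G → ℂ)) := by
    rw [Nat.odd_iff]
    omega
  have ho2 : Odd (charDegree (χ₂ : G → ℂ)) := by
    rw [Nat.odd_iff]
    omega
  have ho3 : Odd (charDegree (χ₃ : G → ℂ)) := by
    rw [Nat.odd_iff]
    omega
  have hv₁' : (χ₁ : G → ℂ) J = 1 := by
    rw [hv₁]
    norm_num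
  have hv₂' : (χ₂ : G → ℂ) J = 1 := by
    rw [hv₂]
    norm_num
  have hv₃' : (χ₃ : G → ℂ) J = -1 := by
    rw [hv₃]
    norm_num
  have heq := ko_deg_eq hM P hexp J hJ2 χ₁ χ₂ χ₃ hd1 hd2 hd3 h12 h13 h23 hBiff hv₁' hv₂' hv₃'
    ho1 ho2 ho3
  have hx3 : charDegree (χ₃ : G → ℂ) = 2 * charDegree (χ₁ : G → ℂ) + 1 := by omega
  obtain ⟨k, hk⟩ : ∃ k : ℕ, charDegree (χ₁ : G → ℂ) = 4 * k + 1 :=
    ⟨(charDegree (χ₁ : G → ℂ) - 1) / 4, by omega⟩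
  have hdv := ko_dvd χ₃ J hv₃' (by omega)
  have hcard := (Subgroup.centralizer ({J} : Set G)).card_mul_index
  have hle : Subgroup.centralizer ((P : Subgroup G) : Set G)
      ≤ Subgroup.centralizer ({J} : Set G) :=
    Subgroup.centralizer_le (Set.singleton_subset_iff.2 hJ)
  have hcPdvd := Subgroup.card_dvd_of_le hle
  have hform : Nat.card (Subgroup.centralizer ((P : Subgroup G) : Set G)) ^ 2 * Nat.card G
        * (2 * charDegree (χ₁ : G → ℂ) * (charDegree (χ₁ : G → ℂ) + 1) ^ 2)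
      = 8 * Nat.card (Subgroup.centralizer ({J} : Set G)) ^ 3
        * (charDegree (χ₁ : G → ℂ) * charDegree (χ₁ : G → ℂ)
          * (2 * charDegree (χ₁ : G → ℂ) + 1)) := by
    rw [← heq, hx3] at R2z
    have h5 : (Nat.card (Subgroup.centralizer ((P : Subgroup G) : Set G)) : ℤ) ^ 2
        * (Nat.card G : ℤ)
        * (2 * (charDegree (χ₁ : G → ℂ) : ℤ) * ((charDegree (χ₁ : G → ℂ) : ℤ) + 1) ^ 2)
      = 8 * (Nat.card (Subgroup.centralizer ({J} : Set G)) : ℤ) ^ 3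
        * ((charDegree (χ₁ : G → ℂ) : ℤ) * (charDegree (χ₁ : G → ℂ) : ℤ)
          * (2 * (charDegree (χ₁ : G → ℂ) : ℤ) + 1)) := by
      push_cast at R2z
      linear_combination R2z
    exact_mod_cast h5
  rw [hx3] at hdv ⊢
  exact ko_arith _ _ _ _ _ k Nat.card_pos hcPdvd hcard hk hdv hform

end Cfsg.Agent.S4480
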