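import Cfsg.Statements.S4483
import Cfsg.Agent.Helper25.BlockRegChar
open Cfsg.Agent.Helper25

set_option autoImplicit false
open Cfsg

namespace Cfsg.Agent.S4483

/-- Let G be a finite group of order 2^n·g₀ with g₀ odd, and M a maximal ideal of the algebraic integers containing 2. Every real-valued irreducible character of G of odd degree lies in the principal 2-block; consequently G has at most 2^(2n) real-valued irreducible characters of odd degree. -/
theorem result {G : Type*} [Group G] [Finite G] (M : Ideal Cfsg.AlgInt) (hM : Cfsg.IsPModular 2 M) : (∀ χ : Cfsg.IrrCharacter G, (∀ g : G, ((χ : G → ℂ) g).im = 0) → Odd (Cfsg.charDegree (χ : G → ℂ)) → χ ∈ Cfsg.principalBlock M G) ∧ Nat.card {χ : Cfsg.IrrCharacter G // (∀ g : G, ((χ : G → ℂ) g).im = 0) ∧ Odd (Cfsg.charDegree (χ : G → ℂ))} ≤ 2 ^ (2 * (Nat.card G).factorization 2) := by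
  classical
  have : Fintype G := Fintype.ofFinite G
  have hMp : M.IsPrime := hM.2.1.isPrime
  have part1 : ∀ χ : IrrCharacter G, (∀ g : G, ((χ : G → ℂ) g).im = 0) →
      Odd (charDegree (χ : G → ℂ)) → χ ∈ principalBlock M G := by
    intro χ hreal hodd
    rw [mem_principal_iff hM χ]
    have hχc := Helper24.isCharacter_of_irr χ.2
    have hd := Helper24.charDegree_spec hχc
    have hdinv : MemLocalRing M ((χ : G → ℂ) 1)⁻¹ := by
      rw [hd]
      refine MemLocalRing.inv (memLocalRing_natCast hMp.ne_top _) (fun h => ?_)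
      have h2 := (memLocalIdeal_natCast_iff hM _).mp h
      exact (Nat.not_even_iff_odd.mpr hodd) (even_iff_two_dvd.mpr h2)
    have hχ1 : (χ : G → ℂ) 1 ≠ 0 := irr_one_ne_zero χ.2
    have hinv : ∀ g : G, (χ : G → ℂ) g⁻¹ = (χ : G → ℂ) g := by
      intro g
      rw [← char_conj_eq_inv χ g]
      exact Complex.conj_eq_iff_im.mpr (hreal g)
    have hJ : MemLocalIdeal M (∑ g : G, (if (2 ∣ orderOf g ∨ g = 1) then 0 else
        (χ : G → ℂ) g / (χ : G → ℂ) 1)) := by
      refine invol_sum_mem (fun g : G => g⁻¹) inv_inv (localIdeal M hMp) _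
        (fun g hg => ?_) (fun g hg => ?_)
      · show (if (2 ∣ orderOf g ∨ g = 1) then (0 : ℂ) else (χ : G → ℂ) g / (χ : G → ℂ) 1)
          + (if (2 ∣ orderOf g⁻¹ ∨ g⁻¹ = 1) then (0 : ℂ) else
            (χ : G → ℂ) g⁻¹ / (χ : G → ℂ) 1) ∈ localIdeal M hMp
        rw [orderOf_inv, inv_eq_one, hinv]
        by_cases hcond : (2 ∣ orderOf g ∨ g = 1)
        · rw [if_pos hcond, add_zero]
          exact MemLocalIdeal.zero hMp.ne_top
        · rw [if_neg hcond]
          have e : (χ : G → ℂ) g / (χ : G → ℂ) 1 + (χ : G → ℂ) g / (χ : G → ℂ) 1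
              = ((2 : ℕ) : ℂ) * ((χ : G → ℂ) g * ((χ : G → ℂ) 1)⁻¹) := by
            push_cast
            ring
          rw [e]
          exact MemLocalIdeal.mul_right hMp ((memLocalIdeal_natCast_iff hM 2).mpr (dvd_refl 2))
            (MemLocalRing.mul hMp (memLocalRing_of_isIntegral hMp.ne_top
              (Helper2.IsCharacter.isIntegral hχc g)) hdinv)
      · show (if (2 ∣ orderOf g ∨ g = 1) then (0 : ℂ) else (χ : G → ℂ) g / (χ : G → ℂ) 1)
          ∈ localIdeal M hMp
        have hg' : g⁻¹ = g := hg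
        have hcond : 2 ∣ orderOf g ∨ g = 1 := by
          have h2 : g ^ 2 = 1 := by
            rw [pow_two]
            nth_rewrite 1 [← hg']
            exact inv_mul_cancel g
          have h3 := orderOf_dvd_of_pow_eq_one h2
          rcases (Nat.dvd_prime Nat.prime_two).mp h3 with h | h
          · right
            exact orderOf_eq_one_iff.mp h
          · left
            rw [h]
        rw [if_pos hcond]
        exact MemLocalIdeal.zero hMp.ne_top
    intro hcon
    have e : ∑ g : G, (if 2 ∣ orderOf g then 0 else (χ : G → ℂ) g / (χ : G → ℂ) 1)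
        = 1 + ∑ g : G, (if (2 ∣ orderOf g ∨ g = 1) then 0 else
          (χ : G → ℂ) g / (χ : G → ℂ) 1) := by
      have e1 : (1 : ℂ) = ∑ g : G, (if g = 1 then (1 : ℂ) else 0) := by
        rw [Finset.sum_ite_eq' Finset.univ (1 : G) (fun _ => (1 : ℂ)), if_pos (Finset.mem_univ _)]
      rw [e1, ← Finset.sum_add_distrib]
      refine Finset.sum_congr rfl (fun g _ => ?_)
      by_cases hg1 : g = 1
      · subst hg1
        rw [if_pos rfl, if_pos (Or.inr rfl), add_zero, orderOf_one, if_neg (by decide),
          div_self hχ1]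
      · by_cases h2 : 2 ∣ orderOf g
        · rw [if_pos h2, if_neg hg1, if_pos (Or.inl h2), add_zero]
        · rw [if_neg h2, if_neg hg1, if_neg (not_or.2 ⟨h2, hg1⟩), zero_add]
    rw [e] at hcon
    apply not_memLocalIdeal_one (M := M)
    have e2 : (1 : ℂ) = (1 + ∑ g : G, (if (2 ∣ orderOf g ∨ g = 1) then 0 else
          (χ : G → ℂ) g / (χ : G → ℂ) 1))
        - ∑ g : G, (if (2 ∣ orderOf g ∨ g = 1) then 0 else
          (χ : G → ℂ) g / (χ : G → ℂ) 1) := by ring
    rw [e2]
    exact MemLocalIdeal.sub hMp hcon hJ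
  refine ⟨part1, ?_⟩
  have h1 := card_principalBlock_le (G := G) 2 hM
  refine le_trans ?_ h1
  have := Helper24.finite_irrCharacter (G := G)
  exact Nat.card_le_card_of_injective
    (fun χ => (⟨χ.1, part1 χ.1 χ.2.1 χ.2.2⟩ : principalBlock M G))
    (fun a b hab => Subtype.ext (show (a : IrrCharacter G) = b from
      congrArg (fun x : principalBlock M G => (x : IrrCharacter G)) hab))

end Cfsg.Agent.S4483
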