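import Cfsg.Statements.S4487
import Cfsg.Agent.Helper25.BlockQuot
import Cfsg.Agent.Helper16.PCore
open Cfsg.Agent.Helper25

set_option autoImplicit false
open Cfsg

namespace Cfsg.Agent.S4487

/-- Let G be a finite group and p a prime such that G has no non-trivial normal subgroup of order prime to p and C_G(O_p(G)) ≤ O_p(G). Then G has a single p-block: any two irreducible characters lie in the same block relative to every maximal ideal M of the algebraic integers containing p. -/
theorem result {G : Type*} [Group G] [Finite G] (p : ℕ) [Fact p.Prime] (M : Ideal Cfsg.AlgInt) (hM : Cfsg.IsPModular p M) (hcore : Cfsg.pPrimeCore p G = ⊥) (hconstr : Subgroup.centralizer ((Cfsg.pCore p G) : Set G) ≤ Cfsg.pCore p G) (χ ψ : Cfsg.IrrCharacter G) : Cfsg.SameBlock M (χ : G → ℂ) (ψ : G → ℂ) := by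
  classical
  have : Fintype G := Fintype.ofFinite G
  have hn : (Cfsg.pCore p G).Normal := Helper16.pCore_normal p G
  have hp : IsPGroup p (Cfsg.pCore p G) := Helper16.pCore_isPGroup p G
  refine sameBlock_of_centralizer_pgroup hM (Cfsg.pCore p G) hp ?_ χ ψ
  intro g hg hreg
  have hgQ := hconstr hg
  obtain ⟨k, hk⟩ := hp ⟨g, hgQ⟩
  have hk' : g ^ p ^ k = 1 := by
    have := congrArg Subtype.val hk
    simpa using this
  obtain ⟨j, hj, hj2⟩ := (Nat.dvd_prime_pow (Fact.out : p.Prime)).1
    (orderOf_dvd_of_pow_eq_one hk')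
  have hj0 : j = 0 := by
    by_contra h
    apply hreg
    rw [hj2]
    exact dvd_pow_self p h
  rw [hj0, pow_zero] at hj2
  exact orderOf_eq_one_iff.1 hj2

end Cfsg.Agent.S4487
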