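import Mathlib
import Cfsg.Statements.S4488
import Cfsg.Agent.Helper24.GaloisChar
import Cfsg.Agent.Helper2.CharDecomp
import Cfsg.Agent.Helper2.CharLinear
import Cfsg.Agent.Helper2.CharBound
import Cfsg.Agent.Helper25.Frobenius

set_option autoImplicit false
open Cfsg

namespace Cfsg.Agent.S4488

/-- The fixed field of a ring automorphism of the complex numbers, as an intermediate field
over the rationals. -/
noncomputable def fixInt (σ : ℂ ≃+* ℂ) : IntermediateField ℚ ℂ where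
  carrier := {z | σ z = z}
  mul_mem' := fun {a b} ha hb => by
    have ha' : σ a = a := ha
    have hb' : σ b = b := hb
    show σ (a * b) = a * b
    rw [map_mul, ha', hb']
  one_mem' := map_one σ
  add_mem' := fun {a b} ha hb => by
    have ha' : σ a = a := ha
    have hb' : σ b = b := hb
    show σ (a + b) = a + b
    rw [map_add, ha', hb']
  zero_mem' := map_zero σ
  algebraMap_mem' := fun q => by
    show σ (algebraMap ℚ ℂ q) = algebraMap ℚ ℂ q
    rw [eq_ratCast, map_ratCast]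
  inv_mem' := fun a ha => by
    have ha' : σ a = a := ha
    show σ a⁻¹ = a⁻¹
    rw [map_inv₀, ha']

theorem fix_of_mem_adjoin (σ : ℂ ≃+* ℂ) (ω : ℂ) (hω : σ ω = ω) (z : ℂ)
    (hz : z ∈ IntermediateField.adjoin ℚ ({ω} : Set ℂ)) : σ z = z := by
  have hle : IntermediateField.adjoin ℚ ({ω} : Set ℂ) ≤ fixInt σ := by
    rw [IntermediateField.adjoin_le_iff]
    intro x hx
    rw [Set.mem_singleton_iff] at hx
    rw [hx]
    exact hω
  exact hle hz

/-- Galois invariance: a `p`-rational character takes the same value on `g` and on `g ^ a`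
when `g` is a `p`-element and `a` is prime to `p`. -/
theorem char_pow_coprime {G : Type*} [Group G] (p : ℕ) (hp : p.Prime) (χ : G → ℂ)
    (hχ : IsCharacter G χ) (r : ℕ) (hr : 0 < r) (hpr : ¬ p ∣ r)
    (hrat : ∀ g : G, χ g ∈ IntermediateField.adjoin ℚ
      ({Complex.exp (2 * Real.pi * Complex.I / r)} : Set ℂ))
    (g : G) (k : ℕ) (hg : g ^ (p ^ k) = 1) (a : ℕ) (ha : ¬ p ∣ a) : χ (g ^ a) = χ g := by
  have hpk : 0 < p ^ k := pow_pos hp.pos k
  have hcop : Nat.Coprime r (p ^ k) :=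
    Nat.Coprime.pow_right k (Nat.Coprime.symm ((Nat.Prime.coprime_iff_not_dvd hp).mpr hpr))
  obtain ⟨b, hb1, hb2⟩ : ∃ b : ℕ, b ≡ 1 [MOD r] ∧ b ≡ a [MOD p ^ k] :=
    ⟨(Nat.chineseRemainder hcop 1 a : ℕ), (Nat.chineseRemainder hcop 1 a).2.1,
      (Nat.chineseRemainder hcop 1 a).2.2⟩
  have hb1' : b % r = 1 % r := hb1
  have hb2' : b % (p ^ k) = a % (p ^ k) := hb2
  have hbr : Nat.Coprime b r := by
    have h := hb1.gcd_eq
    rw [Nat.gcd_one_left] at h
    exact h
  have hbp : Nat.Coprime b (p ^ k) := by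
    have h := hb2.gcd_eq
    have h2 : Nat.Coprime a (p ^ k) :=
      Nat.Coprime.pow_right k (Nat.Coprime.symm ((Nat.Prime.coprime_iff_not_dvd hp).mpr ha))
    have h3 : Nat.gcd a (p ^ k) = 1 := h2
    rw [h3] at h
    exact h
  obtain ⟨N, hN⟩ : ∃ N : ℕ, N = r * p ^ k := ⟨_, rfl⟩
  have hNpos : 0 < N := by rw [hN]; exact Nat.mul_pos hr hpk
  have hbN : Nat.Coprime b N := by rw [hN]; exact Nat.Coprime.mul_right hbr hbp
  have hζ : IsPrimitiveRoot (Complex.exp (2 * Real.pi * Complex.I / N)) N :=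
    Complex.isPrimitiveRoot_exp N hNpos.ne'
  obtain ⟨ζ, hζdef⟩ : ∃ ζ : ℂ, ζ = Complex.exp (2 * Real.pi * Complex.I / N) := ⟨_, rfl⟩
  rw [← hζdef] at hζ
  have hr0 : (r : ℂ) ≠ 0 := Nat.cast_ne_zero.mpr hr.ne'
  have hp0 : (p : ℂ) ≠ 0 := Nat.cast_ne_zero.mpr hp.ne_zero
  have hpk0 : (p : ℂ) ^ k ≠ 0 := pow_ne_zero k hp0
  have hω : Complex.exp (2 * Real.pi * Complex.I / r) = ζ ^ (p ^ k) := by
    rw [hζdef, ← Complex.exp_nat_mul]
    congr 1
    rw [hN]
    push_cast
    field_simp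
  obtain ⟨σ, hσ⟩ := Helper24.exists_ringEquiv_complex_pow N b hNpos hbN ζ hζ
  have hωr : (ζ ^ (p ^ k)) ^ r = 1 := by
    rw [← pow_mul, mul_comm, ← hN]
    exact hζ.pow_eq_one
  have hσω : σ (ζ ^ (p ^ k)) = ζ ^ (p ^ k) := by
    have e1 : σ (ζ ^ (p ^ k)) = (ζ ^ (p ^ k)) ^ b := by
      rw [map_pow, hσ]
      exact pow_right_comm ζ b (p ^ k)
    have e2 : (ζ ^ (p ^ k)) ^ b = (ζ ^ (p ^ k)) ^ (b % r) := pow_eq_pow_mod b hωr
    have e3 : (ζ ^ (p ^ k)) ^ 1 = (ζ ^ (p ^ k)) ^ (1 % r) := pow_eq_pow_mod 1 hωr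
    rw [e1, e2, hb1', ← e3, pow_one]
  have hfix : ∀ h : G, σ (χ h) = χ h := by
    intro h
    apply fix_of_mem_adjoin σ (Complex.exp (2 * Real.pi * Complex.I / r)) _ (χ h) (hrat h)
    rw [hω]
    exact hσω
  have hζ' : IsPrimitiveRoot (ζ ^ r) (p ^ k) := hζ.pow hNpos hN
  obtain ⟨d, hd⟩ := Helper24.char_pow_expansion hχ g (p ^ k) hpk hg (ζ ^ r) hζ'
  have hgb : g ^ b = g ^ a := by
    rw [pow_eq_pow_mod b hg, pow_eq_pow_mod a hg, hb2']
  have h1 : χ g = χ (g ^ b) := by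
    have e1 := hd 1
    have e2 := hd b
    rw [pow_one] at e1
    have e3 : σ (χ g) = χ (g ^ b) := by
      rw [e2]
      conv_lhs => rw [e1]
      rw [map_sum]
      apply Finset.sum_congr rfl
      intro j _
      rw [map_mul, map_natCast, map_pow, map_pow, hσ]
      congr 1
      simp only [← pow_mul]
      congr 1
      ring
    rw [← e3, hfix g]
  rw [← hgb, ← h1]

/-- The sum of a character over the powers of an element is the order times a multiplicity
bounded by the degree. -/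
theorem sum_pow_eq {G : Type*} [Group G] (χ : G → ℂ) (hχ : IsCharacter G χ) (g : G) (N : ℕ)
    (hN : 0 < N) (hg : g ^ N = 1) (n : ℕ) (hn : χ 1 = n) :
    ∃ d : ℕ, d ≤ n ∧ ∑ j ∈ Finset.range N, χ (g ^ j) = (N : ℂ) * d := by
  have hζ := Complex.isPrimitiveRoot_exp N hN.ne'
  obtain ⟨ζ, hζdef⟩ : ∃ ζ : ℂ, ζ = Complex.exp (2 * Real.pi * Complex.I / N) := ⟨_, rfl⟩
  rw [← hζdef] at hζ
  obtain ⟨d, hd⟩ := Helper24.char_pow_expansion hχ g N hN hg ζ hζ
  refine ⟨d 0, ?_, ?_⟩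
  · have h0 := hd 0
    rw [pow_zero, hn] at h0
    have h1 : (n : ℂ) = ((∑ j ∈ Finset.range N, d j : ℕ) : ℂ) := by
      rw [h0]
      simp
    have h2 : n = ∑ j ∈ Finset.range N, d j := by exact_mod_cast h1
    rw [h2]
    exact Finset.single_le_sum (fun _ _ => Nat.zero_le _) (Finset.mem_range.mpr hN)
  · have e : ∀ k : ℕ, χ (g ^ k) = ∑ j ∈ Finset.range N, (d j : ℂ) * ζ ^ (j * k) := hd
    rw [Finset.sum_congr rfl (fun k _ => e k), Finset.sum_comm, Finset.sum_eq_single 0]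
    · simp
    · intro j hj hj0
      rw [← Finset.mul_sum]
      have hj' : j < N := Finset.mem_range.mp hj
      have hne : ζ ^ j ≠ 1 := hζ.pow_ne_one_of_pos_of_lt hj0 hj'
      have hz : ∑ k ∈ Finset.range N, ζ ^ (j * k) = 0 := by
        have e2 : ∀ k : ℕ, ζ ^ (j * k) = (ζ ^ j) ^ k := fun k => pow_mul ζ j k
        rw [Finset.sum_congr rfl (fun k _ => e2 k), geom_sum_eq hne, pow_right_comm,
          hζ.pow_eq_one, one_pow, sub_self, zero_div]
      rw [hz, mul_zero]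
    · intro h
      exact absurd (Finset.mem_range.mpr hN) h

theorem sum_range_mul (f : ℕ → ℂ) (p M : ℕ) :
    ∑ j ∈ Finset.range (p * M), f j =
      ∑ c ∈ Finset.range M, ∑ t ∈ Finset.range p, f (p * c + t) := by
  induction M with
  | zero => simp
  | succ M ih =>
    rw [Nat.mul_succ, Finset.sum_range_add, ih, Finset.sum_range_succ]

/-- A faithful `p`-rational character takes integer values on `p`-elements, and these
values are at most `n / (p - 1)` below the degree `n`. -/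
theorem char_val_int {G : Type*} [Group G] [Finite G] (p : ℕ) (hp : p.Prime) (χ : G → ℂ)
    (hχ : IsCharacter G χ) (hfaith : ∀ g : G, χ g = χ 1 → g = 1)
    (r : ℕ) (hr : 0 < r) (hpr : ¬ p ∣ r)
    (hrat : ∀ g : G, χ g ∈ IntermediateField.adjoin ℚ
      ({Complex.exp (2 * Real.pi * Complex.I / r)} : Set ℂ))
    (n : ℕ) (hn : χ 1 = n) (g : G) (k : ℕ) (hg : g ^ (p ^ (k + 1)) = 1) (hg1 : g ≠ 1) :
    ∃ z : ℤ, χ g = z ∧ 1 ≤ (n : ℤ) - z ∧ ((n : ℤ) - z) * ((p : ℤ) - 1) ≤ (n : ℤ) * p := by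
  obtain ⟨q, rfl⟩ : ∃ q, p = q + 1 := ⟨p - 1, by have := hp.pos; omega⟩
  have hq1 : 1 ≤ q := by have := hp.two_le; omega
  have hA : ∀ a : ℕ, ¬ (q + 1) ∣ a → χ (g ^ a) = χ g := fun a ha =>
    char_pow_coprime (q + 1) hp χ hχ r hr hpr hrat g (k + 1) hg a ha
  obtain ⟨M, hM⟩ : ∃ M : ℕ, M = (q + 1) ^ k := ⟨_, rfl⟩
  have hMpos : 0 < M := by rw [hM]; exact pow_pos (Nat.succ_pos q) k
  have hg' : g ^ ((q + 1) * M) = 1 := by
    rw [hM, ← pow_succ']
    exact hg
  have hgp : (g ^ (q + 1)) ^ M = 1 := by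
    rw [← pow_mul]
    exact hg'
  have hinner : ∀ c : ℕ, ∑ t ∈ Finset.range (q + 1), χ (g ^ ((q + 1) * c + t)) =
      χ ((g ^ (q + 1)) ^ c) + (q : ℂ) * χ g := by
    intro c
    rw [Finset.sum_range_succ']
    have e1 : ∑ t ∈ Finset.range q, χ (g ^ ((q + 1) * c + (t + 1))) =
        ∑ t ∈ Finset.range q, χ g := by
      apply Finset.sum_congr rfl
      intro t ht
      apply hA
      intro hdvd
      have h1 : (q + 1) ∣ (t + 1) := (Nat.dvd_add_right (dvd_mul_right (q + 1) c)).mp hdvd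
      have h2 := Nat.le_of_dvd (Nat.succ_pos t) h1
      have h3 := Finset.mem_range.mp ht
      omega
    rw [e1, Finset.sum_const, Finset.card_range, nsmul_eq_mul, add_zero, pow_mul]
    exact add_comm _ _
  obtain ⟨m0, hm0, hs0⟩ := sum_pow_eq χ hχ g ((q + 1) * M) (Nat.mul_pos (Nat.succ_pos q) hMpos)
    hg' n hn
  obtain ⟨m1, hm1, hs1⟩ := sum_pow_eq χ hχ (g ^ (q + 1)) M hMpos hgp n hn
  have hsum : ∑ j ∈ Finset.range ((q + 1) * M), χ (g ^ j) =
      (M : ℂ) * m1 + (M : ℂ) * ((q : ℂ) * χ g) := by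
    have hR : ∑ j ∈ Finset.range ((q + 1) * M), χ (g ^ j) =
        ∑ c ∈ Finset.range M, ∑ t ∈ Finset.range (q + 1), χ (g ^ ((q + 1) * c + t)) :=
      sum_range_mul (fun j => χ (g ^ j)) (q + 1) M
    have hR2 : ∑ c ∈ Finset.range M, ∑ t ∈ Finset.range (q + 1), χ (g ^ ((q + 1) * c + t)) =
        ∑ c ∈ Finset.range M, (χ ((g ^ (q + 1)) ^ c) + (q : ℂ) * χ g) :=
      Finset.sum_congr rfl (fun c _ => hinner c)
    rw [hR, hR2, Finset.sum_add_distrib, hs1, Finset.sum_const, Finset.card_range, nsmul_eq_mul]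
  have hM0 : (M : ℂ) ≠ 0 := Nat.cast_ne_zero.mpr hMpos.ne'
  have hq0 : (q : ℂ) ≠ 0 := Nat.cast_ne_zero.mpr (by omega)
  have hmain : ((q : ℂ) + 1) * m0 = m1 + q * χ g := by
    rw [hs0] at hsum
    push_cast at hsum
    apply mul_left_cancel₀ hM0
    linear_combination hsum
  have hint : IsIntegral ℤ (χ g) := Helper2.IsCharacter.isIntegral hχ g
  obtain ⟨w, hw⟩ : ∃ w : ℚ, χ g = algebraMap ℚ ℂ w := by
    refine ⟨(((q : ℚ) + 1) * m0 - m1) / q, ?_⟩
    rw [eq_ratCast]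
    push_cast
    rw [eq_div_iff hq0]
    linear_combination (-1 : ℂ) * hmain
  obtain ⟨z, hz⟩ : ∃ z : ℤ, χ g = (z : ℂ) := by
    rw [hw] at hint
    have h2 : IsIntegral ℤ w := (isIntegral_algebraMap_iff (algebraMap ℚ ℂ).injective).mp hint
    obtain ⟨z, hz⟩ := IsIntegrallyClosed.isIntegral_iff.mp h2
    refine ⟨z, ?_⟩
    rw [hw, ← hz]
    simp
  have hZ : ((q : ℤ) + 1) * m0 = m1 + q * z := by
    rw [hz] at hmain
    exact_mod_cast hmain
  have hzn : z ≤ (n : ℤ) := by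
    have h := Helper25.char_norm_le hχ g
    rw [hz, hn, Complex.norm_intCast, Complex.norm_natCast] at h
    have h' : (z : ℝ) ≤ n := le_trans (le_abs_self _) h
    exact_mod_cast h'
  have hzne : z ≠ (n : ℤ) := by
    intro h
    apply hg1
    apply hfaith
    rw [hz, hn, h]
    simp
  refine ⟨z, hz, by omega, ?_⟩
  have h0 : (0 : ℤ) ≤ ((q : ℤ) + 1) * m0 := by positivity
  have hm1' : (m1 : ℤ) ≤ n := by exact_mod_cast hm1
  push_cast
  nlinarith [hZ, h0, hm1']

/-- Blichfeldt's divisibility: if a character of degree `n` takes integer values, and the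
values at the non-identity elements lie in the finite set `A`, then the group order divides
the product of the `n - α` for `α ∈ A`. -/
theorem blichfeldt {H : Type*} [Group H] [Finite H] (θ : H → ℂ) (hθ : IsCharacter H θ) (n : ℕ)
    (hn : θ 1 = n) (val : H → ℤ) (hval : ∀ x, θ x = val x) (A : Finset ℤ)
    (hA : ∀ x : H, x ≠ 1 → val x ∈ A) :
    (Nat.card H : ℤ) ∣ ∏ α ∈ A, ((n : ℤ) - α) := by
  classical
  letI : Fintype H := Fintype.ofFinite H
  have hpow : ∀ j : ℕ, IsCharacter H (θ ^ j) := by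
    intro j
    induction j with
    | zero =>
      have h1 : IsCharacter H (fun _ => (1 : ℂ)) :=
        Helper24.isCharacter_of_irr Helper2.isIrrCharacter_one_fun
      have e : (θ ^ 0 : H → ℂ) = fun _ => (1 : ℂ) := by
        funext x
        simp
      rw [e]
      exact h1
    | succ j ih =>
      rw [pow_succ]
      exact Helper2.IsCharacter.mul ih hθ
  have hsumj : ∀ j : ℕ, (Nat.card H : ℤ) ∣ ∑ x : H, (val x) ^ j := by
    intro j
    obtain ⟨m, hm⟩ := Helper24.sum_character_eq (hpow j)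
    refine ⟨(m : ℤ), ?_⟩
    have h : ((∑ x : H, (val x) ^ j : ℤ) : ℂ) = (((Nat.card H : ℤ) * (m : ℤ) : ℤ) : ℂ) := by
      push_cast
      rw [← hm]
      apply Finset.sum_congr rfl
      intro x _
      rw [Pi.pow_apply, hval x]
    exact_mod_cast h
  obtain ⟨f, hf⟩ : ∃ f : Polynomial ℤ, f = ∏ α ∈ A, (Polynomial.X - Polynomial.C α) :=
    ⟨_, rfl⟩
  have heval : ∀ y : ℤ, f.eval y = ∏ α ∈ A, (y - α) := by
    intro y
    rw [hf]
    simp only [Polynomial.eval_prod, Polynomial.eval_sub, Polynomial.eval_X, Polynomial.eval_C]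
  have hval1 : val 1 = (n : ℤ) := by
    have h := hval 1
    rw [hn] at h
    exact_mod_cast h.symm
  have h1 : ∑ x : H, f.eval (val x) = ∏ α ∈ A, ((n : ℤ) - α) := by
    rw [Finset.sum_eq_single (1 : H)]
    · rw [heval, hval1]
    · intro x _ hx
      rw [heval]
      exact Finset.prod_eq_zero (hA x hx) (sub_self _)
    · intro h
      exact absurd (Finset.mem_univ _) h
  rw [← h1]
  have h2 : ∀ x : H, f.eval (val x) =
      ∑ j ∈ Finset.range (f.natDegree + 1), f.coeff j * (val x) ^ j := by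
    intro x
    rw [Polynomial.eval_eq_sum_range]
  rw [Finset.sum_congr rfl (fun x _ => h2 x), Finset.sum_comm]
  apply Finset.dvd_sum
  intro j _
  rw [← Finset.mul_sum]
  exact Dvd.dvd.mul_left (hsumj j) _

/-- Let the finite group G have a faithful p-rational character χ of degree n (all values of χ lie in the field generated over ℚ by a root of unity of order prime to p), and let p^a be the order of a Sylow p-subgroup of G. Then a ≤ Σ_{i ≥ 0} ⌊n / ((p − 1)·p^i)⌋ (a finite sum; the terms vanish once (p − 1)p^i > n). -/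
theorem result {G : Type*} [Group G] [Finite G] (p : ℕ) (hp : p.Prime) (χ : G → ℂ) (hχ : Cfsg.IsCharacter G χ) (hfaith : ∀ g : G, χ g = χ 1 → g = 1) (hrat : (∃ r : ℕ, 0 < r ∧ ¬ p ∣ r ∧ ∀ g : G, χ g ∈ IntermediateField.adjoin ℚ ({Complex.exp (2 * Real.pi * Complex.I / r)} : Set ℂ))) (n : ℕ) (hn : Cfsg.charDegree χ = n) : (Nat.card G).factorization p ≤ ∑ i ∈ Finset.range (n + 1), n / ((p - 1) * p ^ i) := by
  classical
  obtain ⟨r, hr, hpr, hrat'⟩ := hrat
  have hfact : Fact p.Prime := ⟨hp⟩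
  have hχ1 : χ 1 = (n : ℂ) := by
    rw [← hn]
    exact Helper24.charDegree_spec hχ
  obtain ⟨P⟩ : Nonempty (Sylow p G) := inferInstance
  obtain ⟨Q, hQdef⟩ : ∃ Q : Subgroup G, Q = (P : Subgroup G) := ⟨_, rfl⟩
  have hQcard : Nat.card Q = p ^ (Nat.card G).factorization p := by
    rw [hQdef]
    exact Sylow.card_eq_multiplicity P
  have hQ : IsPGroup p Q := by
    rw [hQdef]
    exact P.isPGroup'
  letI : Fintype Q := Fintype.ofFinite Q
  have hp1 : 0 < p - 1 := by
    have := hp.two_le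
    omega
  have key : ∀ x : Q, x ≠ 1 → ∃ z : ℤ, χ (x : G) = z ∧ 1 ≤ (n : ℤ) - z ∧
      ((n : ℤ) - z) * ((p : ℤ) - 1) ≤ (n : ℤ) * p := by
    intro x hx
    obtain ⟨k, hk⟩ := hQ x
    have hxG : (x : G) ≠ 1 := fun h => hx (Subtype.ext h)
    have hkG : (x : G) ^ (p ^ k) = 1 := by
      have h := congrArg Subtype.val hk
      simpa using h
    cases k with
    | zero =>
      exfalso
      apply hxG
      simpa using hkG
    | succ k => exact char_val_int p hp χ hχ hfaith r hr hpr hrat' n hχ1 (x : G) k hkG hxG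
  have key' : ∀ x : Q, ∃ z : ℤ, χ (x : G) = z ∧ (x ≠ 1 → 1 ≤ (n : ℤ) - z ∧
      ((n : ℤ) - z) * ((p : ℤ) - 1) ≤ (n : ℤ) * p) := by
    intro x
    by_cases hx : x = 1
    · refine ⟨n, ?_, fun h => absurd hx h⟩
      rw [hx]
      simpa using hχ1
    · obtain ⟨z, h1, h2⟩ := key x hx
      exact ⟨z, h1, fun _ => h2⟩
  choose val hval hval2 using key'
  obtain ⟨A, hAdef⟩ : ∃ A : Finset ℤ,
      A = (Finset.univ.filter (fun x : Q => x ≠ 1)).image val := ⟨_, rfl⟩
  have hA : ∀ x : Q, x ≠ 1 → val x ∈ A := by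
    intro x hx
    rw [hAdef]
    exact Finset.mem_image_of_mem val (Finset.mem_filter.mpr ⟨Finset.mem_univ x, hx⟩)
  have hAprop : ∀ α ∈ A, 1 ≤ (n : ℤ) - α ∧ ((n : ℤ) - α) * ((p : ℤ) - 1) ≤ (n : ℤ) * p := by
    intro α hα
    rw [hAdef] at hα
    obtain ⟨x, hx, rfl⟩ := Finset.mem_image.mp hα
    exact hval2 x (Finset.mem_filter.mp hx).2
  have hθ1 : (fun x : Q => χ (x : G)) 1 = (n : ℂ) := by
    show χ ((1 : Q) : G) = n
    simpa using hχ1
  have hdiv : (Nat.card Q : ℤ) ∣ ∏ α ∈ A, ((n : ℤ) - α) :=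
    blichfeldt (fun x : Q => χ (x : G)) (Helper24.isCharacter_restrict Q hχ) n hθ1 val hval A hA
  obtain ⟨X, hX⟩ : ∃ X : ℕ, X = n * p / (p - 1) := ⟨_, rfl⟩
  have hprod : ∏ α ∈ A, ((n : ℤ) - α) = ((∏ α ∈ A, ((n : ℤ) - α).toNat : ℕ) : ℤ) := by
    rw [Nat.cast_prod]
    apply Finset.prod_congr rfl
    intro α hα
    have h1 := (hAprop α hα).1
    rw [Int.toNat_of_nonneg (by omega)]
  have hdvdfact : (∏ α ∈ A, ((n : ℤ) - α).toNat) ∣ X.factorial := by
    have hinj : Set.InjOn (fun α : ℤ => ((n : ℤ) - α).toNat - 1) (A : Set ℤ) := by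
      intro a ha b hb hab
      have h1 := (hAprop a (Finset.mem_coe.mp ha)).1
      have h2 := (hAprop b (Finset.mem_coe.mp hb)).1
      have hab' : ((n : ℤ) - a).toNat - 1 = ((n : ℤ) - b).toNat - 1 := hab
      omega
    have e1 : ∏ i ∈ A.image (fun α : ℤ => ((n : ℤ) - α).toNat - 1), (i + 1) =
        ∏ α ∈ A, ((n : ℤ) - α).toNat := by
      rw [Finset.prod_image hinj]
      apply Finset.prod_congr rfl
      intro α hα
      have h1 := (hAprop α hα).1
      omega
    rw [← e1, ← Finset.prod_range_add_one_eq_factorial]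
    apply Finset.prod_dvd_prod_of_subset
    intro i hi
    obtain ⟨α, hα, rfl⟩ := Finset.mem_image.mp hi
    obtain ⟨h1, h2⟩ := hAprop α hα
    rw [Finset.mem_range]
    show ((n : ℤ) - α).toNat - 1 < X
    have hle : ((n : ℤ) - α).toNat ≤ X := by
      rw [hX, Nat.le_div_iff_mul_le hp1]
      have e : (((n : ℤ) - α).toNat : ℤ) = (n : ℤ) - α := Int.toNat_of_nonneg (by omega)
      have hcast : ((p - 1 : ℕ) : ℤ) = (p : ℤ) - 1 := Nat.cast_pred hp.pos
      have h3 : ((((n : ℤ) - α).toNat * (p - 1) : ℕ) : ℤ) ≤ ((n * p : ℕ) : ℤ) := by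
        rw [Nat.cast_mul, Nat.cast_mul, hcast, e]
        exact h2
      exact Nat.cast_le.mp h3
    have h4 : 1 ≤ ((n : ℤ) - α).toNat := by omega
    omega
  have h3 : p ^ (Nat.card G).factorization p ∣ X.factorial := by
    have h4 : ((Nat.card Q : ℕ) : ℤ) ∣ ((X.factorial : ℕ) : ℤ) := by
      refine dvd_trans hdiv ?_
      rw [hprod]
      exact Int.natCast_dvd_natCast.mpr hdvdfact
    rw [← hQcard]
    exact Int.natCast_dvd_natCast.mp h4
  have h5 : (Nat.card G).factorization p ≤ (X.factorial).factorization p :=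
    (hp.pow_dvd_iff_le_factorization (Nat.factorial_ne_zero X)).mp h3
  have hlog : Nat.log p X < n + 2 := by
    rcases Nat.eq_zero_or_pos X with h0 | hpos
    · rw [h0, Nat.log_zero_right]
      omega
    · apply Nat.log_lt_of_lt_pow hpos.ne'
      have hX2 : X ≤ 2 * n := by
        rw [hX]
        apply Nat.div_le_of_le_mul
        obtain ⟨s, hs, hs1⟩ : ∃ s, p = s + 1 ∧ 1 ≤ s := ⟨p - 1, by omega, by omega⟩
        rw [hs, Nat.add_sub_cancel]
        nlinarith [Nat.mul_le_mul_left n hs1]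
      have h2 : 2 * n < 2 ^ (n + 2) := by
        have h := @Nat.lt_two_pow_self n
        rw [pow_succ, pow_succ]
        omega
      have h6 : 2 ^ (n + 2) ≤ p ^ (n + 2) := Nat.pow_le_pow_left hp.two_le _
      omega
  have hterm : ∀ i : ℕ, X / p ^ (1 + i) = n / ((p - 1) * p ^ i) := by
    intro i
    rw [hX, Nat.div_div_eq_div_mul]
    have e : (p - 1) * p ^ (1 + i) = (p - 1) * p ^ i * p := by
      rw [pow_add, pow_one]
      ring
    rw [e, Nat.mul_div_mul_right _ _ hp.pos]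
  rw [Nat.factorization_factorial hp hlog, Finset.sum_Ico_eq_sum_range] at h5
  have e : n + 2 - 1 = n + 1 := by omega
  rw [e] at h5
  calc (Nat.card G).factorization p ≤ ∑ k ∈ Finset.range (n + 1), X / p ^ (1 + k) := h5
    _ = ∑ i ∈ Finset.range (n + 1), n / ((p - 1) * p ^ i) :=
      Finset.sum_congr rfl (fun i _ => hterm i)

end Cfsg.Agent.S4488
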