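import Cfsg.Statements.S4490
import Cfsg.Agent.Helper25.BlockReal
open Cfsg.Agent.Helper25

set_option autoImplicit false
open Cfsg

namespace Cfsg.Agent.S4490

/-- Let G be a finite group and M a maximal ideal of the algebraic integers containing 2. Every 2-block B of G whose defect groups are the Sylow 2-subgroups of G (a block of full defect) and which is not the principal block is different from its complex-conjugate block, the block formed by the complex conjugates of the members of B. -/
theorem result {G : Type*} [Group G] [Finite G] (M : Ideal Cfsg.AlgInt) (hM : Cfsg.IsPModular 2 M) (B : Set (Cfsg.IrrCharacter G)) (hB : Cfsg.IsPBlock M B) (P : Sylow 2 G) (hfull : Cfsg.IsDefectGroup 2 M B (P : Subgroup G)) (hnp : B ≠ Cfsg.principalBlock M G) : {ψ : Cfsg.IrrCharacter G | ∃ χ ∈ B, (ψ : G → ℂ) = fun g => (starRingEnd ℂ) ((χ : G → ℂ) g)} ≠ B := by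
  classical
  have : Fintype G := Fintype.ofFinite G
  have hM' := hM.2.1.isPrime
  have : Fact (Nat.Prime 2) := ⟨Nat.prime_two⟩
  intro hEq
  apply hnp
  have hreal : ∀ χ ∈ B, barIrr χ ∈ B := by
    intro χ hχ
    rw [← hEq]
    exact ⟨χ, hχ, rfl⟩
  have hcard := card_defectGroup hM hB (P : Subgroup G) hfull
  have hP : Nat.card (P : Subgroup G) = 2 ^ (Nat.card G).factorization 2 :=
    Sylow.card_eq_multiplicity P
  have hdef : blockDefect 2 B = (Nat.card G).factorization 2 := by
    rw [hP] at hcard
    exact (Nat.pow_right_injective (le_refl 2) hcard).symm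
  have h1 := mem_of_real_full_defect hM hB hreal hdef
  obtain ⟨χ₁, rfl⟩ := hB
  have h2 : blockOf M (χ₁ : G → ℂ) = blockOf M ((oneIrr G : IrrCharacter G) : G → ℂ) :=
    blockOf_eq_of_mem hM' h1
  rw [h2]
  rfl

end Cfsg.Agent.S4490
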