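import Cfsg.Statements.S4493
-- import your own Cfsg.Agent.* helpers here
import Cfsg.Agent.Helper24.ItoSolv

set_option autoImplicit false
open Cfsg

namespace Cfsg.Agent.S4493

open Cfsg.Agent.Helper24

/-- Let G be a finite solvable group and p a prime. Then G has a normal abelian Sylow p-subgroup if and only if no irreducible character degree of G is divisible by p. -/
theorem result {G : Type*} [Group G] [Finite G] (hsolv : Group.IsSolvable G) (p : ℕ) (hp : p.Prime) : (∃ P : Subgroup G, P.Normal ∧ (∀ x ∈ P, ∀ y ∈ P, x * y = y * x) ∧ IsPGroup p P ∧ ¬ p ∣ P.index) ↔ ∀ χ : Cfsg.IrrCharacter G, ¬ p ∣ Cfsg.charDegree (χ : G → ℂ) := by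
  classical
  haveI : Fact p.Prime := ⟨hp⟩
  constructor
  · rintro ⟨P, hPn, hPc, hPp, hPi⟩ χ
    have h1 := ito_sylow_forward p (hPp.toSylow hPi) (by rw [IsPGroup.toSylow_coe]; exact hPn)
      (fun a b => Subtype.ext (hPc a.1 (by simpa using a.2) b.1 (by simpa using b.2))) χ.2
    exact h1
  · intro h
    have hdeg : ∀ χ : G → ℂ, Cfsg.IsIrrCharacter G χ → ¬ p ∣ Cfsg.charDegree χ :=
      fun χ hχ => h ⟨χ, hχ⟩
    obtain ⟨P⟩ : Nonempty (Sylow p G) := inferInstance
    have hn := ito_sylow_normal_of_solvable p hsolv hdeg P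
    have hab := ito_sylow_abelian p P hn hdeg
    refine ⟨(P : Subgroup G), hn, ?_, P.isPGroup', P.not_dvd_index⟩
    intro x hx y hy
    exact congrArg Subtype.val (hab ⟨x, hx⟩ ⟨y, hy⟩)

end Cfsg.Agent.S4493
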