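import Cfsg.Statements.S4498
import Cfsg.Agent.S0925
import Cfsg.Agent.Helper25.BlockOrth2
import Cfsg.Agent.Helper25.SectionSum
import Cfsg.Agent.Helper25.BlockPPrime
import Cfsg.Agent.Helper24.CharBasic

set_option autoImplicit false
open Cfsg

namespace Cfsg.Agent.S4498

open Cfsg.Agent Cfsg.Agent.Helper6 in
/-- Let p and q be distinct primes dividing the order of the finite group G, and suppose G has no element of order p·q. Fix maximal ideals M_p over p and M_q over q of the algebraic integers. Then the principal p-block and the principal q-block of G have a non-principal irreducible character in common. -/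
theorem result {G : Type*} [Group G] [Finite G] (p q : ℕ) [Fact p.Prime] [Fact q.Prime] (hpq : p ≠ q) (hp : p ∣ Nat.card G) (hq : q ∣ Nat.card G) (hno : ∀ g : G, orderOf g ≠ p * q) (Mp Mq : Ideal Cfsg.AlgInt) (hMp : Cfsg.IsPModular p Mp) (hMq : Cfsg.IsPModular q Mq) : ∃ χ : Cfsg.IrrCharacter G, (χ : G → ℂ) ≠ (fun _ => 1) ∧ χ ∈ Cfsg.principalBlock Mp G ∧ χ ∈ Cfsg.principalBlock Mq G := by
  classical
  haveI : Fintype G := Fintype.ofFinite G
  haveI := Helper24.finite_irrCharacter (G := G)
  haveI : Fintype (IrrCharacter G) := Fintype.ofFinite _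
  have hp' := (Fact.out : p.Prime)
  have hq' := (Fact.out : q.Prime)
  obtain ⟨x, hx⟩ := exists_prime_orderOf_dvd_card' p hp
  obtain ⟨y, hy⟩ := exists_prime_orderOf_dvd_card' q hq
  have hBp : IsPBlock Mp (principalBlock Mp G) := ⟨Helper25.oneIrr G, rfl⟩
  have hBq : IsPBlock Mq (principalBlock Mq G) := ⟨Helper25.oneIrr G, rfl⟩
  have hmemp : Helper25.oneIrr G ∈ principalBlock Mp G :=
    Helper25.mem_blockOf_self hMp.2.1.isPrime.ne_top (Helper25.oneIrr G)
  have hmemq : Helper25.oneIrr G ∈ principalBlock Mq G :=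
    Helper25.mem_blockOf_self hMq.2.1.isPrime.ne_top (Helper25.oneIrr G)
  by_contra hcon
  push Not at hcon
  have hone : ∀ χ : IrrCharacter G, (χ ∈ principalBlock Mp G ∧ χ ∈ principalBlock Mq G) ↔
      χ = Helper25.oneIrr G := by
    intro χ
    constructor
    · rintro ⟨h1, h2⟩
      by_contra hne
      exact hcon χ (fun h => hne (Subtype.ext h)) h1 h2
    · rintro rfl
      exact ⟨hmemp, hmemq⟩
  -- the two section functions
  have hPx : IsPPart p x x := ⟨1, mul_one x, Commute.one_right x, ⟨1, by rw [hx, pow_one]⟩,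
    by rw [orderOf_one]; exact hp'.one_lt.ne' ∘ Nat.dvd_one.1⟩
  have hPy : IsPPart q y y := ⟨1, mul_one y, Commute.one_right y, ⟨1, by rw [hy, pow_one]⟩,
    by rw [orderOf_one]; exact hq'.one_lt.ne' ∘ Nat.dvd_one.1⟩
  have key : ∀ g : G,
      (∑ χ : IrrCharacter G, if χ ∈ principalBlock Mp G then (χ : G → ℂ) x * (χ : G → ℂ) g⁻¹ else 0)
      * (∑ ψ : IrrCharacter G, if ψ ∈ principalBlock Mq G then (ψ : G → ℂ) g * (ψ : G → ℂ) y⁻¹ else 0)
      = 0 := by
    intro g
    obtain ⟨u, hu⟩ := Helper25.exists_isPPart p g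
    obtain ⟨w, hw⟩ := Helper25.exists_isPPart q g
    by_cases h1 : IsConj x u
    · by_cases h2 : IsConj w y
      · exfalso
        -- p and q both divide the order of g
        have hou : orderOf u = p := by
          obtain ⟨c, hc⟩ := isConj_iff.1 h1
          have e0 : orderOf (c * x * c⁻¹) = orderOf x := (MulAut.conj c).orderOf_eq x
          rw [← hc, e0, hx]
        have how : orderOf w = q := by
          obtain ⟨c, hc⟩ := isConj_iff.1 h2
          have e0 : orderOf (c * w * c⁻¹) = orderOf w := (MulAut.conj c).orderOf_eq w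
          rw [← e0, hc, hy]
        obtain ⟨v, hv1, hv2, -, hv4⟩ := hu
        obtain ⟨v', hv1', hv2', -, hv4'⟩ := hw
        have hpg : p ∣ orderOf g := by
          have hcop : (orderOf u).Coprime (orderOf v) := by
            rw [hou]
            exact (Nat.Prime.coprime_iff_not_dvd hp').2 hv4
          have := hv2.orderOf_mul_eq_mul_orderOf_of_coprime hcop
          rw [hv1, hou] at this
          rw [this]
          exact dvd_mul_right _ _
        have hqg : q ∣ orderOf g := by
          have hcop : (orderOf w).Coprime (orderOf v') := by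
            rw [how]
            exact (Nat.Prime.coprime_iff_not_dvd hq').2 hv4'
          have := hv2'.orderOf_mul_eq_mul_orderOf_of_coprime hcop
          rw [hv1', how] at this
          rw [this]
          exact dvd_mul_right _ _
        have hpq' : p * q ∣ orderOf g :=
          Nat.Coprime.mul_dvd_of_dvd_of_dvd ((Nat.coprime_primes hp' hq').2 hpq) hpg hqg
        obtain ⟨m, hm⟩ := hpq'
        have hg0 : 0 < orderOf g := orderOf_pos g
        have hm0 : 0 < m := by
          rcases Nat.eq_zero_or_pos m with h0 | h0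
          · rw [h0, mul_zero] at hm
            omega
          · exact h0
        apply hno (g ^ m)
        rw [orderOf_pow' g hm0.ne', hm, Nat.gcd_mul_left_left, Nat.mul_div_cancel _ hm0]
      · have o := (Cfsg.Agent.S0925.result (G := G) q Mq hMq).2 g y w y hw hPy h2
          (principalBlock Mq G) hBq
        rw [Helper25.finsum_mem_eq_sum_ite] at o
        rw [o, mul_zero]
    · have o := (Cfsg.Agent.S0925.result (G := G) p Mp hMp).2 x g x u hPx hu h1
        (principalBlock Mp G) hBp
      rw [Helper25.finsum_mem_eq_sum_ite] at o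
      rw [o, zero_mul]
  have hsum : ∑ g : G,
      (∑ χ : IrrCharacter G, if χ ∈ principalBlock Mp G then (χ : G → ℂ) x * (χ : G → ℂ) g⁻¹ else 0)
      * (∑ ψ : IrrCharacter G, if ψ ∈ principalBlock Mq G then (ψ : G → ℂ) g * (ψ : G → ℂ) y⁻¹ else 0)
      = 0 := Finset.sum_eq_zero fun g _ => key g
  have hG0 : (Nat.card G : ℂ) ≠ 0 := by exact_mod_cast Nat.card_pos.ne'
  have horth : ∀ χ ψ : IrrCharacter G, ∑ g : G, (ψ : G → ℂ) g * (χ : G → ℂ) g⁻¹
      = if ψ = χ then (Nat.card G : ℂ) else 0 := by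
    intro χ ψ
    have h := Helper24.irr_orthonormal ψ.2 χ.2
    have h2 : ∑ g : G, (ψ : G → ℂ) g * (χ : G → ℂ) g⁻¹
        = (Nat.card G : ℂ) * (if (ψ : G → ℂ) = (χ : G → ℂ) then 1 else 0) := by
      rw [← h, ← mul_assoc, mul_inv_cancel₀ hG0, one_mul]
    rw [h2]
    by_cases hψχ : ψ = χ
    · rw [if_pos hψχ, if_pos (congrArg Subtype.val hψχ), mul_one]
    · rw [if_neg hψχ, if_neg (fun h => hψχ (Subtype.ext h)), mul_zero]
  have hexp : ∑ g : G,
      (∑ χ : IrrCharacter G, if χ ∈ principalBlock Mp G then (χ : G → ℂ) x * (χ : G → ℂ) g⁻¹ else 0)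
      * (∑ ψ : IrrCharacter G, if ψ ∈ principalBlock Mq G then (ψ : G → ℂ) g * (ψ : G → ℂ) y⁻¹ else 0)
      = ∑ χ : IrrCharacter G, ∑ ψ : IrrCharacter G,
          (if χ ∈ principalBlock Mp G then if ψ ∈ principalBlock Mq G then
            (χ : G → ℂ) x * (ψ : G → ℂ) y⁻¹ * ∑ g : G, (ψ : G → ℂ) g * (χ : G → ℂ) g⁻¹ else 0 else 0) := by
    have e1 : ∀ g : G,
        (∑ χ : IrrCharacter G, if χ ∈ principalBlock Mp G then (χ : G → ℂ) x * (χ : G → ℂ) g⁻¹ else 0)
        * (∑ ψ : IrrCharacter G, if ψ ∈ principalBlock Mq G then (ψ : G → ℂ) g * (ψ : G → ℂ) y⁻¹ else 0)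
        = ∑ χ : IrrCharacter G, ∑ ψ : IrrCharacter G,
          (if χ ∈ principalBlock Mp G then if ψ ∈ principalBlock Mq G then
            (χ : G → ℂ) x * (ψ : G → ℂ) y⁻¹ * ((ψ : G → ℂ) g * (χ : G → ℂ) g⁻¹) else 0 else 0) := by
      intro g
      rw [Finset.sum_mul_sum]
      refine Finset.sum_congr rfl fun χ _ => Finset.sum_congr rfl fun ψ _ => ?_
      by_cases h1 : χ ∈ principalBlock Mp G
      · by_cases h2 : ψ ∈ principalBlock Mq G
        · rw [if_pos h1, if_pos h2, if_pos h1, if_pos h2]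
          ring
        · rw [if_pos h1, if_neg h2, if_pos h1, if_neg h2, mul_zero]
      · rw [if_neg h1, if_neg h1, zero_mul]
    rw [Finset.sum_congr rfl fun g _ => e1 g, Finset.sum_comm]
    refine Finset.sum_congr rfl fun χ _ => ?_
    rw [Finset.sum_comm]
    refine Finset.sum_congr rfl fun ψ _ => ?_
    by_cases h1 : χ ∈ principalBlock Mp G
    · by_cases h2 : ψ ∈ principalBlock Mq G
      · simp only [if_pos h1, if_pos h2]
        rw [Finset.mul_sum]
      · simp only [if_pos h1, if_neg h2]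
        exact Finset.sum_const_zero
    · simp only [if_neg h1]
      exact Finset.sum_const_zero
  rw [hexp] at hsum
  have hfin : ∑ χ : IrrCharacter G, ∑ ψ : IrrCharacter G,
          (if χ ∈ principalBlock Mp G then if ψ ∈ principalBlock Mq G then
            (χ : G → ℂ) x * (ψ : G → ℂ) y⁻¹ * ∑ g : G, (ψ : G → ℂ) g * (χ : G → ℂ) g⁻¹ else 0 else 0)
      = (Nat.card G : ℂ) := by
    have e2 : ∀ χ : IrrCharacter G, ∑ ψ : IrrCharacter G,
          (if χ ∈ principalBlock Mp G then if ψ ∈ principalBlock Mq G then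
            (χ : G → ℂ) x * (ψ : G → ℂ) y⁻¹ * ∑ g : G, (ψ : G → ℂ) g * (χ : G → ℂ) g⁻¹ else 0 else 0)
        = if χ = Helper25.oneIrr G then (Nat.card G : ℂ) else 0 := by
      intro χ
      have e3 : ∀ ψ : IrrCharacter G,
          (if χ ∈ principalBlock Mp G then if ψ ∈ principalBlock Mq G then
            (χ : G → ℂ) x * (ψ : G → ℂ) y⁻¹ * ∑ g : G, (ψ : G → ℂ) g * (χ : G → ℂ) g⁻¹ else 0 else 0)
          = if ψ = χ then (if χ = Helper25.oneIrr G then (Nat.card G : ℂ) else 0) else 0 := by
        intro ψ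
        rw [horth χ ψ]
        by_cases hψχ : ψ = χ
        · subst hψχ
          rw [if_pos rfl]
          by_cases h1 : ψ = Helper25.oneIrr G
          · rw [if_pos h1, if_pos ((hone ψ).2 h1).1, if_pos ((hone ψ).2 h1).2, h1,
              Helper25.oneIrr_apply, Helper25.oneIrr_apply, one_mul, one_mul, if_pos rfl]
          · rw [if_neg h1]
            by_cases h2 : ψ ∈ principalBlock Mp G
            · have h3 : ψ ∉ principalBlock Mq G := fun h3 => h1 ((hone ψ).1 ⟨h2, h3⟩)
              rw [if_pos h2, if_neg h3, if_pos rfl]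
            · rw [if_neg h2, if_pos rfl]
        · rw [if_neg hψχ, if_neg hψχ, mul_zero]
          split_ifs <;> rfl
      rw [Finset.sum_congr rfl fun ψ _ => e3 ψ, Finset.sum_ite_eq' Finset.univ χ, if_pos (Finset.mem_univ _)]
    rw [Finset.sum_congr rfl fun χ _ => e2 χ, Finset.sum_ite_eq' Finset.univ (Helper25.oneIrr G),
      if_pos (Finset.mem_univ _)]
  rw [hfin] at hsum
  exact hG0 hsum

end Cfsg.Agent.S4498
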