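import Cfsg.Statements.S4506
import Cfsg.Agent.Helper6.PConj

set_option autoImplicit false
open Cfsg

namespace Cfsg.Agent.S4506

open Cfsg.Agent Cfsg.Agent.Helper6 in
/-- Let G be a finite group, p a prime, p^a the p-part of the order of G and g′ its p′-part. Call two irreducible characters p-conjugate when one is obtained from the other by applying a field automorphism of ℂ that fixes the g′-th roots of unity, and let r be the number of characters p-conjugate to the irreducible character χ (χ included). Then the exponent of p in r·χ(1) is at most a; and if p^a divides r·χ(1) then p^a already divides χ(1). -/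
theorem result {G : Type*} [Group G] [Finite G] (p : ℕ) (hp : p.Prime) (χ : Cfsg.IrrCharacter G) (r : ℕ) (hr : Nat.card {ψ : Cfsg.IrrCharacter G // ∃ σ : ℂ ≃+* ℂ, σ (Complex.exp (2 * Real.pi * Complex.I / ((Nat.card G / p ^ (Nat.card G).factorization p) : ℕ))) = Complex.exp (2 * Real.pi * Complex.I / ((Nat.card G / p ^ (Nat.card G).factorization p) : ℕ)) ∧ (ψ : G → ℂ) = fun g => σ ((χ : G → ℂ) g)} = r) : (r * Cfsg.charDegree (χ : G → ℂ)).factorization p ≤ (Nat.card G).factorization p ∧ (p ^ (Nat.card G).factorization p ∣ r * Cfsg.charDegree (χ : G → ℂ) → p ^ (Nat.card G).factorization p ∣ Cfsg.charDegree (χ : G → ℂ)) := by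
  classical
  haveI : Fintype G := Fintype.ofFinite G
  haveI : Fact p.Prime := ⟨hp⟩
  obtain ⟨M, hM⟩ := Helper6.PowCongr.exists_pModular p hp
  have := Helper24.finite_irrCharacter (G := G)
  haveI : Fintype (IrrCharacter G) := Fintype.ofFinite _
  obtain ⟨g', hg'⟩ : ∃ g' : ℕ, g' = Nat.card G / p ^ (Nat.card G).factorization p := ⟨_, rfl⟩
  rw [← hg'] at hr
  have hg'0 : g' ≠ 0 := by
    rw [hg']
    exact (Nat.div_pos (Nat.le_of_dvd Nat.card_pos (Nat.ordProj_dvd _ p)) (pow_pos hp.pos _)).ne'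
  have hmul : p ^ (Nat.card G).factorization p * g' = Nat.card G := by
    rw [hg']
    exact Nat.ordProj_mul_ordCompl_eq_self _ p
  obtain ⟨ζ, hζdef⟩ : ∃ ζ : ℂ, ζ = Complex.exp (2 * Real.pi * Complex.I / ((g' : ℕ) : ℂ)) :=
    ⟨_, rfl⟩
  rw [← hζdef] at hr
  have hζ : IsPrimitiveRoot ζ g' := by
    rw [hζdef]
    exact Complex.isPrimitiveRoot_exp g' hg'0
  obtain ⟨S, hSdef⟩ : ∃ S : Finset (IrrCharacter G), S = Finset.univ.filter
      (fun ψ : IrrCharacter G => ∃ σ : ℂ ≃+* ℂ, σ ζ = ζ ∧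
        (ψ : G → ℂ) = fun g => σ ((χ : G → ℂ) g)) := ⟨_, rfl⟩
  have hcard : S.card = r := by
    rw [← hr, hSdef, Nat.card_eq_fintype_card, Fintype.card_subtype]
  have hχc := Helper24.isCharacter_of_irr χ.2
  have hχS : χ ∈ S := by
    rw [hSdef]
    exact Finset.mem_filter.2 ⟨Finset.mem_univ _, RingEquiv.refl ℂ, rfl, rfl⟩
  have hS : ∀ ψ ∈ S, ∀ x : G, ¬ p ∣ orderOf x → (ψ : G → ℂ) x = (χ : G → ℂ) x := by
    intro ψ hψ x hx
    rw [hSdef] at hψ
    obtain ⟨σ, hσ, hψσ⟩ := (Finset.mem_filter.1 hψ).2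
    have hxg : x ^ g' = 1 := by
      apply orderOf_dvd_iff_pow_eq_one.1
      have h1 : orderOf x ∣ p ^ (Nat.card G).factorization p * g' := by
        rw [hmul]
        exact orderOf_dvd_natCard x
      exact Nat.Coprime.dvd_of_dvd_mul_left
        (Nat.Coprime.pow_right _ ((Nat.Prime.coprime_iff_not_dvd hp).2 hx).symm) h1
    obtain ⟨d, hd⟩ := Helper24.char_pow_expansion hχc x g' (Nat.pos_of_ne_zero hg'0) hxg ζ hζ
    have h1 := hd 1
    rw [pow_one] at h1
    rw [hψσ]
    show σ ((χ : G → ℂ) x) = _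
    rw [h1, map_sum]
    refine Finset.sum_congr rfl fun j _ => ?_
    rw [map_mul, map_natCast, map_pow, hσ]
  obtain ⟨P⟩ : Nonempty (Sylow p G) := inferInstance
  haveI : Fintype (P : Subgroup G) := Fintype.ofFinite _
  have hSP : ∀ ψ ∈ S, ∑ x : (P : Subgroup G), (ψ : G → ℂ) x
      = ∑ x : (P : Subgroup G), (χ : G → ℂ) x := by
    intro ψ hψ
    rw [hSdef] at hψ
    obtain ⟨σ, hσ, hψσ⟩ := (Finset.mem_filter.1 hψ).2
    obtain ⟨m, hm⟩ := Helper6.pconj_sum_nat (P : Subgroup G) χ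
    have h1 : ∑ x : (P : Subgroup G), (ψ : G → ℂ) x
        = σ (∑ x : (P : Subgroup G), (χ : G → ℂ) x) := by
      rw [map_sum, hψσ]
    rw [h1, hm, map_mul, map_natCast, map_natCast]
  have hmain := Helper6.pconj_main hM χ S hχS hS P hSP
  rw [hcard] at hmain
  exact hmain

end Cfsg.Agent.S4506
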