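import Cfsg.Statements.S4508
-- import your own Cfsg.Agent.* helpers here
import Cfsg.Agent.Helper13.SelfCentP

set_option autoImplicit false
open Cfsg

namespace Cfsg.Agent.S4508

/-- Let the finite group G contain an element x of prime order p with C_G(x) = ⟨x⟩, and let t be the number of conjugacy classes of elements of order p. If G has an irreducible character of degree p − 1, then t is even or the commutator subgroup has even index. -/
theorem result {G : Type*} [Group G] [Finite G] (p : ℕ) (hp : p.Prime) (x : G) (hx : orderOf x = p) (hC : Subgroup.centralizer ({x} : Set G) = Subgroup.zpowers x) (t : ℕ) (ht : Nat.card {C : ConjClasses G // ∃ g ∈ C.carrier, orderOf g = p} = t) (χ : Cfsg.IrrCharacter G) (hχ : Cfsg.charDegree (χ : G → ℂ) + 1 = p) : Even t ∨ Even (commutator G).index := by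
  classical
  haveI := Fintype.ofFinite G
  obtain ⟨χ, hχirr⟩ := χ
  have hχ : Cfsg.charDegree χ + 1 = p := hχ
  have hchar := Helper24.isCharacter_of_irr hχirr
  have hdeg1 : χ 1 = ((p - 1 : ℕ) : ℂ) := by
    rw [Helper24.charDegree_spec hchar]
    congr 1
    omega
  by_cases hp2 : p = 2
  · right
    rw [hp2] at hx
    exact Helper13.SelfCentP.even_of_two hx hC
  by_contra hcon
  rw [not_or] at hcon
  obtain ⟨hto, hio⟩ := hcon
  have hmul := Helper13.SelfCentP.card_classes_mul hp hx hC
  rw [ht] at hmul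
  have hPN : Subgroup.zpowers x
      ≤ Subgroup.normalizer ((Subgroup.zpowers x : Subgroup G) : Set G) :=
    Subgroup.le_normalizer
  have hpdvd : p ∣ Nat.card (Subgroup.normalizer ((Subgroup.zpowers x : Subgroup G) : Set G)) := by
    have h1 := Subgroup.card_dvd_of_le hPN
    rwa [Nat.card_zpowers, hx] at h1
  obtain ⟨e, he⟩ := hpdvd
  have hte : t * e = p - 1 := by
    rw [he] at hmul
    have h1 : p * (t * e) = p * (p - 1) := by
      rw [← hmul]
      ring
    exact Nat.eq_of_mul_eq_mul_left hp.pos h1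
  have hpodd : Odd p := hp.odd_of_ne_two hp2
  have hp1 := hp.one_lt
  have hpm1 : Even (p - 1) := by
    obtain ⟨j, hj⟩ := hpodd
    exact ⟨j, by omega⟩
  have he0 : e ≠ 0 := by
    intro h
    rw [h, mul_zero] at hte
    omega
  have hcop : Nat.Coprime p e := by
    rw [Nat.Prime.coprime_iff_not_dvd hp]
    intro h
    have h1 : e ∣ p - 1 := ⟨t, by rw [← hte]; ring⟩
    have h2 := Nat.le_of_dvd (by omega) (h.trans h1)
    omega
  obtain ⟨m₀, hm₀⟩ := Helper2.classInner_char_nat
    (Helper24.isCharacter_restrict (Subgroup.zpowers x) hchar)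
    (Helper24.isCharacter_of_irr (Helper2.isIrrCharacter_one_fun (G := Subgroup.zpowers x)))
  have hbound := Helper13.SelfCentP.mult_bound hp hx hC hχirr hdeg1 m₀ e hm₀ he
  have hcardP : Nat.card (Subgroup.zpowers x) = p := by rw [Nat.card_zpowers, hx]
  have hp0 : (p : ℂ) ≠ 0 := Nat.cast_ne_zero.2 hp.ne_zero
  have hsumP : ∑ a : Subgroup.zpowers x, χ a = (p : ℂ) * m₀ := by
    have h1 := hm₀
    unfold classInner at h1
    simp only [map_one, mul_one] at h1
    rw [hcardP] at h1
    rw [← h1, ← mul_assoc, mul_inv_cancel₀ hp0, one_mul]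
  have hdvd := Helper13.SelfCentP.index_dvd hp hx hC hchar m₀ (p - 1) e hsumP hdeg1 he hcop
  have hem : e ∣ m₀ := by
    have h1 : (e : ℤ) ∣ ((p - 1 : ℕ) : ℤ) := by
      rw [← hte]
      push_cast
      exact Dvd.intro_left _ rfl
    have h2 : (e : ℤ) ∣ (m₀ : ℤ) := by
      have h3 := dvd_sub h1 hdvd
      simpa using h3
    exact Int.natCast_dvd_natCast.1 h2
  have hm0 : m₀ = 0 := by
    by_contra hne
    obtain ⟨j, hj⟩ := hem
    have hj0 : j ≠ 0 := by
      intro h
      rw [h, mul_zero] at hj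
      exact hne hj
    have he1 : e = 1 := by
      by_contra he1
      have he2 : 2 ≤ e := by omega
      have h1 : e ≤ m₀ := by
        rw [hj]
        exact Nat.le_mul_of_pos_right e (by omega)
      have h2 : 2 * m₀ ≤ m₀ * m₀ := Nat.mul_le_mul_right m₀ (le_trans he2 h1)
      omega
    rw [he1, mul_one] at hte
    rw [hte] at hto
    exact hto hpm1
  rw [hm0] at hsumP
  simp only [Nat.cast_zero, mul_zero] at hsumP
  have hvan : ∀ u : G, u ∈ Subgroup.normalizer ((Subgroup.zpowers x : Subgroup G) : Set G) →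
      u ∉ Subgroup.zpowers x → χ u = 0 := by
    intro u hu hu'
    have h1 := Helper13.SelfCentP.sum_coset_eq_zero (Subgroup.zpowers x) hchar hsumP u
    have h2 : ∀ a : Subgroup.zpowers x, χ ((a : G) * u) = χ u := by
      intro a
      obtain ⟨b, hb⟩ := Helper13.SelfCentP.exists_conj_of_mem_normalizer hp hx hC a.2 hu hu'
      rw [hb]
      exact Helper2.IsCharacter.isClassFunction hchar _ _
    rw [Finset.sum_congr rfl (fun a _ => h2 a), Finset.sum_const, Finset.card_univ,
      nsmul_eq_mul, ← Nat.card_eq_fintype_card, hcardP] at h1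
    rcases mul_eq_zero.1 h1 with h | h
    · exact absurd h hp0
    · exact h
  obtain ⟨y, hyN, hoy, hyP⟩ := Helper13.SelfCentP.exists_two_elt hp hp2 hx hC
  obtain ⟨a, ha⟩ : ∃ a : ℕ, a = (Nat.card (Subgroup.normalizer
      ((Subgroup.zpowers x : Subgroup G) : Set G))).factorization 2 := ⟨_, rfl⟩
  rw [← ha] at hoy
  have hee : Even e := by
    have h1 : Even (t * e) := by
      rw [hte]
      exact hpm1
    rcases Nat.even_mul.1 h1 with h | h
    · exact absurd h hto
    · exact h
  have hN0 : Nat.card (Subgroup.normalizer ((Subgroup.zpowers x : Subgroup G) : Set G)) ≠ 0 :=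
    Nat.card_pos.ne'
  have h2N : 2 ∣ Nat.card (Subgroup.normalizer ((Subgroup.zpowers x : Subgroup G) : Set G)) := by
    rw [he]
    exact Dvd.dvd.mul_left (even_iff_two_dvd.1 hee) p
  have ha1 : 1 ≤ a := by
    rw [ha]
    exact Nat.Prime.factorization_pos_of_dvd Nat.prime_two hN0 h2N
  have h2a_dvd : 2 ^ a ∣ e := by
    have h1 : 2 ^ a ∣ Nat.card (Subgroup.normalizer
        ((Subgroup.zpowers x : Subgroup G) : Set G)) := by
      rw [ha]
      exact Nat.ordProj_dvd _ _
    rw [he] at h1
    have h2 : Nat.Coprime (2 ^ a) p :=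
      Nat.Coprime.pow_left a ((Nat.coprime_primes Nat.prime_two hp).2 (Ne.symm hp2))
    exact h2.dvd_of_dvd_mul_left h1
  obtain ⟨e', he'⟩ := h2a_dvd
  have he'odd : Odd e' := by
    rw [← Nat.not_even_iff_odd]
    intro hev
    obtain ⟨s, hs⟩ := hev
    have h4 : 2 ^ ((Nat.card (Subgroup.normalizer
        ((Subgroup.zpowers x : Subgroup G) : Set G))).factorization 2 + 1)
        ∣ Nat.card (Subgroup.normalizer ((Subgroup.zpowers x : Subgroup G) : Set G)) := by
      rw [← ha, he, he', hs]
      exact ⟨p * s, by ring⟩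
    exact Nat.pow_succ_factorization_not_dvd hN0 Nat.prime_two h4
  have htodd : Odd t := Nat.not_even_iff_odd.1 hto
  obtain ⟨n, ρ, -, hρ⟩ := id hχirr
  have h2M : 2 * 2 ^ (a - 1) = 2 ^ a := by
    rw [← pow_succ']
    congr 1
    omega
  apply hio
  apply Helper13.SelfCentP.even_index_of_rep ρ y (2 ^ (a - 1)) (t * e') (by positivity)
  · rw [h2M, ← hoy]
    exact pow_orderOf_eq_one y
  · intro m hm1 hm2
    rw [hρ]
    rw [h2M, ← hoy] at hm2
    have hne : y ^ m ≠ 1 := pow_ne_one_of_lt_orderOf hm1.ne' hm2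
    apply hvan _ (Subgroup.pow_mem _ hyN m)
    intro hmem
    exact hne (hyP m hmem)
  · have h1 := Representation.char_one ρ
    rw [hρ, hdeg1] at h1
    have h2 := Nat.cast_injective (R := ℂ) h1
    rw [← h2, h2M, ← hte, he']
    ring
  · exact Nat.odd_mul.2 ⟨htodd, he'odd⟩

end Cfsg.Agent.S4508
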