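import Cfsg.Statements.S4509
-- import your own Cfsg.Agent.* helpers here
import Cfsg.Agent.Helper13.SelfCentP2

set_option autoImplicit false
open Cfsg

namespace Cfsg.Agent.S4509

/-- Let the finite group G contain an element x of prime order p with C_G(x) = ⟨x⟩; let t be the number of conjugacy classes of elements of order p and 1 + n·p the number of subgroups of order p. Then G has a normal subgroup of order 1 + n·p if and only if either t = p − 1, or t < p − 1 and G″ ≠ G′. Moreover, if t = p − 1 then G′ has order 1 + n·p and G/G′ is cyclic of order p; and if t < p − 1 and G″ ≠ G′ then G″ has order 1 + n·p and G′ has order p·(1 + n·p). -/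
theorem result {G : Type*} [Group G] [Finite G] (p : ℕ) (hp : p.Prime) (x : G) (hx : orderOf x = p) (hC : Subgroup.centralizer ({x} : Set G) = Subgroup.zpowers x) (t : ℕ) (ht : Nat.card {C : ConjClasses G // ∃ g ∈ C.carrier, orderOf g = p} = t) (n : ℕ) (hn : Nat.card {H : Subgroup G // Nat.card H = p} = 1 + n * p) : ((∃ S : Subgroup G, S.Normal ∧ Nat.card S = 1 + n * p) ↔ (t = p - 1 ∨ (t < p - 1 ∧ derivedSeries G 2 ≠ derivedSeries G 1))) ∧ (t = p - 1 → Nat.card (commutator G) = 1 + n * p ∧ IsCyclic (G ⧸ commutator G) ∧ (commutator G).index = p) ∧ (t < p - 1 → derivedSeries G 2 ≠ derivedSeries G 1 → Nat.card (derivedSeries G 2) = 1 + n * p ∧ Nat.card (commutator G) = p * (1 + n * p)) := by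
  classical
  haveI := Fintype.ofFinite G
  have hmul := Helper13.SelfCentP.card_classes_mul hp hx hC
  rw [ht] at hmul
  have hPN : Subgroup.zpowers x
      ≤ Subgroup.normalizer ((Subgroup.zpowers x : Subgroup G) : Set G) :=
    Subgroup.le_normalizer
  have hcardP : Nat.card (Subgroup.zpowers x) = p := by rw [Nat.card_zpowers, hx]
  have hpdvd : p ∣ Nat.card (Subgroup.normalizer ((Subgroup.zpowers x : Subgroup G) : Set G)) := by
    have h1 := Subgroup.card_dvd_of_le hPN
    rwa [hcardP] at h1
  obtain ⟨e, he⟩ := hpdvd
  have hte : t * e = p - 1 := by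
    rw [he] at hmul
    have h1 : p * (t * e) = p * (p - 1) := by
      rw [← hmul]
      ring
    exact Nat.eq_of_mul_eq_mul_left hp.pos h1
  have hp1 := hp.one_lt
  have he0 : e ≠ 0 := by
    intro h
    rw [h, mul_zero] at hte
    omega
  have hidxN : (Subgroup.normalizer ((Subgroup.zpowers x : Subgroup G) : Set G)).index
      = 1 + n * p := by
    rw [← Helper13.SelfCentP.card_subgroups_eq_index hp hx hC, hn]
  have hGcard : Nat.card G = (1 + n * p) * (p * e) := by
    rw [← hidxN, ← he]
    exact (Subgroup.index_mul_card _).symm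
  have hx1 : x ≠ 1 := Helper13.SelfCentP.ne_one_of_order hp hx
  have hcase1 : e = 1 → Nat.card (commutator G) = 1 + n * p ∧ IsCyclic (G ⧸ commutator G)
      ∧ (commutator G).index = p := by
    intro he1
    have hNle : Subgroup.normalizer ((Subgroup.zpowers x : Subgroup G) : Set G)
        ≤ Subgroup.zpowers x := by
      have h1 := Subgroup.eq_of_le_of_card_ge hPN (by rw [he, he1, mul_one, hcardP])
      exact h1.ge
    obtain ⟨h1, h2, h3⟩ := Helper13.SelfCentP.prime_case hp hx hC hNle
    refine ⟨?_, h2, h3⟩
    rw [hGcard, he1, mul_one] at h1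
    exact Nat.eq_of_mul_eq_mul_right hp.pos h1
  have hcase2 : e ≠ 1 → Subgroup.zpowers x ≤ commutator G := by
    intro he1
    have hex : ∃ u : G, u ∈ Subgroup.normalizer ((Subgroup.zpowers x : Subgroup G) : Set G)
        ∧ u ∉ Subgroup.zpowers x := by
      by_contra hcon
      have hNle : Subgroup.normalizer ((Subgroup.zpowers x : Subgroup G) : Set G)
          ≤ Subgroup.zpowers x := by
        intro u hu
        by_contra hu'
        exact hcon ⟨u, hu, hu'⟩
      have h1 := Subgroup.card_le_of_le hNle
      rw [he, hcardP] at h1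
      have h2 : e ≤ 1 := by
        by_contra h3
        have h4 : 2 ≤ e := by omega
        have h5 : p * 2 ≤ p * e := Nat.mul_le_mul_left p h4
        omega
      omega
    obtain ⟨u, hu, hu'⟩ := hex
    exact Helper13.SelfCentP.zpowers_le_commutator hp hx hC ⊤ hu hu' (Subgroup.mem_top u)
      (Subgroup.mem_top x)
  have ht1 : t = p - 1 ↔ e = 1 := by
    constructor
    · intro h
      rw [h] at hte
      have hpos : 0 < p - 1 := by omega
      exact Nat.eq_of_mul_eq_mul_left hpos (by rw [hte, mul_one])
    · intro h
      rw [h, mul_one] at hte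
      exact hte
  have htle : t ≤ p - 1 := by
    rw [← hte]
    exact Nat.le_mul_of_pos_right t (Nat.pos_of_ne_zero he0)
  have htlt : t < p - 1 ↔ e ≠ 1 := by
    constructor
    · intro h h1
      have h2 := ht1.2 h1
      omega
    · intro h
      have h2 : t ≠ p - 1 := fun h1 => h (ht1.1 h1)
      omega
  have hd1 : derivedSeries G 1 = commutator G := rfl
  have hd2 : derivedSeries G 2 = ⁅commutator G, commutator G⁆ := rfl
  have hcase3 : e ≠ 1 → derivedSeries G 2 ≠ derivedSeries G 1 →
      Nat.card (derivedSeries G 2) = 1 + n * p ∧ Nat.card (commutator G) = p * (1 + n * p) := by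
    intro he1 hne
    have hPD := hcase2 he1
    rw [hd2, hd1] at hne
    have hND : ∀ u : G, u ∈ Subgroup.normalizer ((Subgroup.zpowers x : Subgroup G) : Set G) →
        u ∈ commutator G → u ∈ Subgroup.zpowers x := by
      intro u hu huD
      by_contra hu'
      apply hne
      have hP2 := Helper13.SelfCentP.zpowers_le_commutator hp hx hC (commutator G) hu hu' huD
        (hPD (Subgroup.mem_zpowers x))
      have hle := Helper13.SelfCentP.commutator_le_of_le hp hx hC
        ⁅commutator G, commutator G⁆ hP2
      exact le_antisymm (Subgroup.commutator_le_left _ _) hle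
    have hD := Helper13.SelfCentP.card_commutator_of_normalizer_inf hp hx hC (commutator G)
      hPD hND
    have hsup := Helper13.SelfCentP.normalizer_sup_eq_top hp hx hC (commutator G) hPD
    have hidx : (commutator G).index = e := by
      have h1 : (commutator G).relIndex
          (Subgroup.normalizer ((Subgroup.zpowers x : Subgroup G) : Set G) ⊔ commutator G)
          = (commutator G).relIndex
            (Subgroup.normalizer ((Subgroup.zpowers x : Subgroup G) : Set G)) :=
        Subgroup.relIndex_sup_right _ _
      rw [sup_comm, hsup, Subgroup.relIndex_top_right] at h1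
      have h2 : commutator G ⊓ Subgroup.normalizer ((Subgroup.zpowers x : Subgroup G) : Set G)
          = Subgroup.zpowers x :=
        le_antisymm (fun u hu => hND u hu.2 hu.1) (le_inf hPD hPN)
      rw [← Subgroup.inf_relIndex_right, h2] at h1
      have h3 := Subgroup.card_mul_index ((Subgroup.zpowers x).subgroupOf
        (Subgroup.normalizer ((Subgroup.zpowers x : Subgroup G) : Set G)))
      rw [Nat.card_congr (Subgroup.subgroupOfEquivOfLe hPN).toEquiv, hcardP, he] at h3
      have h4 : (Subgroup.zpowers x).relIndex
          (Subgroup.normalizer ((Subgroup.zpowers x : Subgroup G) : Set G)) = e :=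
        Nat.eq_of_mul_eq_mul_left hp.pos h3
      rw [h1, h4]
    have hcG' : Nat.card (commutator G) = p * (1 + n * p) := by
      have h1 := Subgroup.card_mul_index (commutator G)
      rw [hidx, hGcard] at h1
      have h2 : Nat.card (commutator G) * e = (p * (1 + n * p)) * e := by
        rw [h1]
        ring
      exact Nat.eq_of_mul_eq_mul_right (Nat.pos_of_ne_zero he0) h2
    refine ⟨?_, hcG'⟩
    rw [hd2]
    rw [hcG'] at hD
    exact Nat.eq_of_mul_eq_mul_right hp.pos (by rw [hD]; ring)
  refine ⟨⟨?_, ?_⟩, ?_, ?_⟩
  · rintro ⟨S, hSn, hScard⟩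
    by_cases he1 : e = 1
    · left
      exact ht1.2 he1
    · right
      refine ⟨htlt.2 he1, ?_⟩
      haveI := hSn
      have hPD := hcase2 he1
      have hSP : ∀ z : G, z ∈ S → z ∈ Subgroup.zpowers x → z = 1 := by
        intro z hzS hzP
        by_contra hz1
        have ho := Helper13.SelfCentP.order_of_mem hp hx hzP hz1
        have hdvd : orderOf z ∣ Nat.card S := Subgroup.orderOf_dvd_natCard S hzS
        rw [ho, hScard] at hdvd
        have h1 : p ∣ 1 := (Nat.dvd_add_left (Dvd.intro_left n rfl)).1 hdvd
        exact hp.one_lt.ne' (Nat.dvd_one.1 h1)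
      have hSN : Disjoint S (Subgroup.normalizer ((Subgroup.zpowers x : Subgroup G) : Set G)) := by
        rw [Subgroup.disjoint_def]
        intro s hsS hsN
        have hc : s * x * s⁻¹ * x⁻¹ ∈ Subgroup.zpowers x :=
          Subgroup.mul_mem _ ((Subgroup.mem_normalizer_iff.1 hsN x).1 (Subgroup.mem_zpowers x))
            (Subgroup.inv_mem _ (Subgroup.mem_zpowers x))
        have hc' : s * x * s⁻¹ * x⁻¹ ∈ S := by
          have h1 : s * x * s⁻¹ * x⁻¹ = s * (x * s⁻¹ * x⁻¹) := by group
          rw [h1]
          exact Subgroup.mul_mem _ hsS (hSn.conj_mem _ (Subgroup.inv_mem _ hsS) x)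
        have h2 := hSP _ hc' hc
        have h3 : s ∈ Subgroup.zpowers x := by
          rw [← hC, Subgroup.mem_centralizer_iff]
          intro y hy
          rw [Set.mem_singleton_iff] at hy
          rw [hy]
          have h4 : s * x = x * s := by
            calc s * x = (s * x * s⁻¹ * x⁻¹) * (x * s) := by group
              _ = x * s := by rw [h2, one_mul]
          exact h4.symm
        exact hSP s hsS h3
      have hcompl : Subgroup.IsComplement' S
          (Subgroup.normalizer ((Subgroup.zpowers x : Subgroup G) : Set G)) :=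
        Subgroup.isComplement'_of_card_mul_and_disjoint (by rw [hScard, he, hGcard]) hSN
      have hsup := hcompl.sup_eq_top
      have h1 := Helper13.SelfCentP.comm_sup_le S
        (Subgroup.normalizer ((Subgroup.zpowers x : Subgroup G) : Set G)) (Subgroup.zpowers x)
        (fun a ha b hb => Helper13.SelfCentP.commutator_mem_of_normalizer hC ha hb)
      rw [hsup] at h1
      have h2 := Helper13.SelfCentP.comm_sup_le S (Subgroup.zpowers x) ⊥ (fun a ha b hb => by
        rw [Subgroup.mem_bot, commutatorElement_eq_one_iff_mul_comm]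
        exact Helper13.SelfCentP.comm_of_mem ha hb)
      rw [sup_bot_eq] at h2
      have h3 : ⁅commutator G, commutator G⁆ ≤ S := (Subgroup.commutator_mono h1 h1).trans h2
      intro heq
      rw [hd2, hd1] at heq
      have hxS : x ∈ S := h3 (by rw [heq]; exact hPD (Subgroup.mem_zpowers x))
      exact hx1 (hSP x hxS (Subgroup.mem_zpowers x))
  · rintro (h | ⟨h, hne⟩)
    · obtain ⟨h1, -, -⟩ := hcase1 (ht1.1 h)
      exact ⟨commutator G, inferInstance, h1⟩
    · obtain ⟨h1, -⟩ := hcase3 (htlt.1 h) hne
      exact ⟨derivedSeries G 2, derivedSeries_normal G 2, h1⟩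
  · intro h
    exact hcase1 (ht1.1 h)
  · intro h hne
    exact hcase3 (htlt.1 h) hne

end Cfsg.Agent.S4509
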