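import Cfsg.Statements.S4510
import Cfsg.Agent.Helper25.BlockMinMax
open Cfsg.Agent.Helper25

set_option autoImplicit false
open Cfsg

namespace Cfsg.Agent.S4510

/-- Let G be a finite group, p a prime, M a maximal ideal of the algebraic integers containing p, and call the defect of a conjugacy class the exponent of p in the order of the centralizer of its elements. Two irreducible characters lying in p-blocks of defect exactly d lie in the same block if and only if their central characters (class size times χ(x)/χ(1)) agree modulo the local ideal at M at every p-regular element x whose class has defect exactly d. -/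
theorem result {G : Type*} [Group G] [Finite G] (p : ℕ) [Fact p.Prime] (M : Ideal Cfsg.AlgInt) (hM : Cfsg.IsPModular p M) (d : ℕ) (χ ψ : Cfsg.IrrCharacter G) (hχ : Cfsg.blockDefect p (Cfsg.blockOf M (χ : G → ℂ)) = d) (hψ : Cfsg.blockDefect p (Cfsg.blockOf M (ψ : G → ℂ)) = d) : Cfsg.SameBlock M (χ : G → ℂ) (ψ : G → ℂ) ↔ ∀ x : G, ¬ p ∣ orderOf x → (Nat.card (Subgroup.centralizer ({x} : Set G))).factorization p = d → Cfsg.MemLocalIdeal M (Cfsg.centralChar (χ : G → ℂ) x - Cfsg.centralChar (ψ : G → ℂ) x) := by
  classical
  have : Fintype G := Fintype.ofFinite G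
  have hMp := hM.2.1.isPrime
  constructor
  · intro hs x _ _
    exact hs x
  · intro h
    apply sameBlock_of_coeff hMp
    intro g
    have hB : IsPBlock M (blockOf M (χ : G → ℂ)) := ⟨χ, rfl⟩
    have hB' : IsPBlock M (blockOf M (ψ : G → ℂ)) := ⟨ψ, rfl⟩
    have hR : MemLocalRing M (centralChar (χ : G → ℂ) g - centralChar (ψ : G → ℂ) g) :=
      MemLocalRing.sub hMp (memLocalRing_of_isIntegral hMp.ne_top (centralChar_isIntegral χ g))
        (memLocalRing_of_isIntegral hMp.ne_top (centralChar_isIntegral ψ g))
    have hcR : MemLocalRing M (blockCoeff (blockOf M (χ : G → ℂ)) g) :=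
      blockCoeff_memLocalRing hMp hB g
    by_cases hreg : p ∣ orderOf g
    · rw [osima hM hB g hreg, zero_mul]
      exact MemLocalIdeal.zero hMp.ne_top
    · rcases lt_trichotomy ((Nat.card (Subgroup.centralizer ({g} : Set G))).factorization p) d
        with hlt | heq | hgt
      · have h1 : MemLocalIdeal M (centralChar (χ : G → ℂ) g) := by
          by_contra hc
          have h3 := blockDefect_le_of_centralChar hM hB χ (mem_blockOf_self hMp.ne_top χ) g hc
          omega
        have h2 : MemLocalIdeal M (centralChar (ψ : G → ℂ) g) := by
          by_contra hc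
          have h3 := blockDefect_le_of_centralChar hM hB' ψ (mem_blockOf_self hMp.ne_top ψ) g hc
          omega
        exact MemLocalIdeal.mul_left hMp hcR (MemLocalIdeal.sub hMp h1 h2)
      · exact MemLocalIdeal.mul_left hMp hcR (h g hreg heq)
      · have h1 : MemLocalIdeal M (blockCoeff (blockOf M (χ : G → ℂ)) g) := by
          by_contra hc
          have h3 := le_blockDefect_of_coeff hM hB g hc
          omega
        exact MemLocalIdeal.mul_right hMp h1 hR

end Cfsg.Agent.S4510
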