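import Cfsg.Statements.S4512
import Cfsg.Agent.Helper6.KleinFour

set_option autoImplicit false
open Cfsg

namespace Cfsg.Agent.S4512

open Cfsg.Agent Cfsg.Agent.Helper6 in
/-- If G is a finite group with a Sylow 2-subgroup that is a Klein four-group and a single conjugacy class of involutions, then its principal 2-block (relative to a maximal ideal M of the algebraic integers containing 2) has 2-regular rank 3: the restrictions of its irreducible characters to the elements of odd order span a space of dimension 3 (it has three irreducible Brauer characters). -/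
theorem result {G : Type*} [Group G] [Finite G] (M : Ideal Cfsg.AlgInt) (hM : Cfsg.IsPModular 2 M) (P : Sylow 2 G)
    (hP : Nat.card P = 4) (hexp : ∀ x : P, x * x = 1)
    (hone : ∀ s t : G, orderOf s = 2 → orderOf t = 2 → IsConj s t) :
    Cfsg.blockRank 2 (Cfsg.principalBlock M G) = 3 := by
  classical
  haveI : Fintype G := Fintype.ofFinite G
  have := Helper24.finite_irrCharacter (G := G)
  haveI : Fintype (IrrCharacter G) := Fintype.ofFinite _
  obtain ⟨J, -, hJ, ha, haC, hsec⟩ := kf_setup P hP hexp hone
  obtain ⟨ψ₁, ψ₂, ψ₃, k₁, k₂, k₃, -, -, -, -, -, -, -, -, -, -, -, -, -, -, hrank⟩ :=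
    kf_main hM J hJ ha haC hsec
  exact hrank

end Cfsg.Agent.S4512
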