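import Cfsg.Statements.S4636
-- import your own Cfsg.Agent.* helpers here

set_option autoImplicit false
open scoped Pointwise
open Cfsg

namespace Cfsg.Agent.S4636

open scoped Pointwise in
theorem unique_sub {G : Type*} [Group G] [Finite G] (p : ℕ) (hp : 0 < p) (P : Subgroup G)
    (hcyc : IsCyclic P) (Z W : Subgroup G) (hZ : Z ≤ P) (hW : W ≤ P)
    (hZc : Nat.card Z = p) (hWc : Nat.card W = p) : W = Z := by
  classical
  have := Fintype.ofFinite G
  have : Fintype P := Fintype.ofFinite P
  have hle := IsCyclic.card_pow_eq_one_le (α := P) hp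
  set S : Finset P := Finset.univ.filter (fun a : P => a ^ p = 1) with hS
  have key : ∀ H : Subgroup G, H ≤ P → Nat.card H = p →
      ∀ x : P, x ∈ S → (x : G) ∈ H := by
    intro H hH hHc
    set T : Finset P := Finset.univ.filter (fun a : P => (a : G) ∈ H) with hT
    have hTS : T ⊆ S := by
      intro a ha
      simp only [hT, Finset.mem_filter, Finset.mem_univ, true_and] at ha
      simp only [hS, Finset.mem_filter, Finset.mem_univ, true_and]
      have : (⟨(a : G), ha⟩ : H) ^ p = 1 := by
        rw [← hHc]; exact pow_card_eq_one'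
      have h2 : ((a : G)) ^ p = 1 := by
        have := congrArg (fun z : H => (z : G)) this
        simpa using this
      ext
      simpa using h2
    have hTc : T.card = p := by
      rw [← hHc, Nat.card_eq_fintype_card, hT, ← Fintype.card_subtype]
      apply Fintype.card_congr
      exact
        { toFun := fun a => ⟨(a.1 : G), a.2⟩
          invFun := fun h => ⟨⟨(h : G), hH h.2⟩, h.2⟩
          left_inv := fun a => rfl
          right_inv := fun a => rfl }
    have hTS' : T = S := Finset.eq_of_subset_of_card_le hTS (by rw [hTc]; exact hle)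
    intro x hx
    rw [← hTS'] at hx
    simpa [hT] using hx
  apply le_antisymm
  · intro x hx
    have hxP : x ∈ P := hW hx
    have : (⟨x, hxP⟩ : P) ∈ S := by
      simp only [hS, Finset.mem_filter, Finset.mem_univ, true_and]
      have : (⟨x, hx⟩ : W) ^ p = 1 := by rw [← hWc]; exact pow_card_eq_one'
      have h2 := congrArg (fun z : W => (z : G)) this
      ext
      simpa using h2
    exact key Z hZ hZc ⟨x, hxP⟩ this
  · intro x hx
    have hxP : x ∈ P := hZ hx
    have : (⟨x, hxP⟩ : P) ∈ S := by
      simp only [hS, Finset.mem_filter, Finset.mem_univ, true_and]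
      have : (⟨x, hx⟩ : Z) ^ p = 1 := by rw [← hZc]; exact pow_card_eq_one'
      have h2 := congrArg (fun z : Z => (z : G)) this
      ext
      simpa using h2
    exact key W hW hWc ⟨x, hxP⟩ this

/-- Let P be a nontrivial cyclic p-subgroup of the finite group G and Z its subgroup of order p. For every x outside N_G(Z), P meets its conjugate xPx⁻¹ trivially; consequently N_G(Q) ≤ N_G(Z) for every nontrivial subgroup Q of P. -/
theorem result {G : Type*} [Group G] [Finite G] (p : ℕ) [Fact p.Prime] (P : Subgroup G) (hP : IsPGroup p P) (hP1 : P ≠ ⊥) (hcyc : IsCyclic P) (Z : Subgroup G) (hZ : Z ≤ P) (hZcard : Nat.card Z = p) : (∀ x : G, x ∉ Subgroup.normalizer (Z : Set G) → P ⊓ MulAut.conj x • P = ⊥) ∧ ∀ Q : Subgroup G, Q ≤ P → Q ≠ ⊥ → Subgroup.normalizer (Q : Set G) ≤ Subgroup.normalizer (Z : Set G) := by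
  have hp : 0 < p := (Fact.out : p.Prime).pos
  have lemA : ∀ H : Subgroup G, H ≤ P → H ≠ ⊥ → Z ≤ H := by
    intro H hH hH1
    have hHp : IsPGroup p H := hP.to_le hH
    obtain ⟨n, hn⟩ := hHp.exists_card_eq
    have hn0 : n ≠ 0 := by
      rintro rfl
      apply hH1
      rw [pow_zero] at hn
      exact (Subgroup.card_eq_one).mp hn
    have hdvd : p ∣ Nat.card H := by rw [hn]; exact dvd_pow_self p hn0
    obtain ⟨h, hh⟩ := exists_prime_orderOf_dvd_card' p hdvd
    have hW : Subgroup.zpowers (h : G) ≤ H := by
      rw [Subgroup.zpowers_le]; exact h.2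
    have hWc : Nat.card (Subgroup.zpowers (h : G)) = p := by
      rw [Nat.card_zpowers, Subgroup.orderOf_coe, hh]
    have := unique_sub p hp P hcyc Z (Subgroup.zpowers (h : G)) hZ (hW.trans hH) hZcard hWc
    rw [← this]; exact hW
  have lemB : ∀ x : G, MulAut.conj x • Z ≤ P → x ∈ Subgroup.normalizer (Z : Set G) := by
    intro x hx
    have hc : Nat.card (MulAut.conj x • Z : Subgroup G) = p := by
      rw [← hZcard]; exact (Nat.card_congr (Subgroup.equivSMul (MulAut.conj x) Z).toEquiv).symm
    have := unique_sub p hp P hcyc Z (MulAut.conj x • Z) hZ hx hZcard hc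
    rw [Subgroup.mem_normalizer_iff_map_conj_eq]
    exact this
  have lemC : ∀ x : G, Z ≤ MulAut.conj x • P → x ∈ Subgroup.normalizer (Z : Set G) := by
    intro x hx
    have h1 : (MulAut.conj x)⁻¹ • Z ≤ P := Subgroup.subset_pointwise_smul_iff.mp hx
    have h2 : MulAut.conj x⁻¹ • Z ≤ P := by simpa using h1
    have h3 := lemB x⁻¹ h2
    simpa using inv_mem h3
  refine ⟨?_, ?_⟩
  · intro x hx
    by_contra hne
    exact hx (lemC x ((lemA _ inf_le_left hne).trans inf_le_right))
  · intro Q hQ hQ1 g hg
    apply lemB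
    have h1 : Z ≤ Q := lemA Q hQ hQ1
    have h2 : MulAut.conj g • Q = Q := by
      rw [Subgroup.mem_normalizer_iff_map_conj_eq] at hg
      exact hg
    calc MulAut.conj g • Z ≤ MulAut.conj g • Q := Subgroup.pointwise_smul_le_pointwise_smul_iff.mpr h1
      _ = Q := h2
      _ ≤ P := hQ

end Cfsg.Agent.S4636
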