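import Cfsg.Statements.S4663
import Cfsg.Agent.Helper25.BlockBrauer
open Cfsg.Agent.Helper25

set_option autoImplicit false
open Cfsg

namespace Cfsg.Agent.S4663

/-- Fix a prime p and a maximal ideal M of the algebraic integers containing p. Brauer's Third Main Theorem in the language of Brauer pairs: for the principal p-block B₀ of the finite group G and any p-subgroup Q, a p-block e of C_G(Q) makes (Q, e) a Brauer pair of B₀ if and only if e is the principal p-block of C_G(Q). Equivalently, modulo M the truncation to C_G(Q) of the idempotent of B₀ is the idempotent of the principal block of C_G(Q). -/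
theorem result {G : Type*} [Group G] [Fintype G] (p : ℕ) [Fact p.Prime] (M : Ideal Cfsg.AlgInt) (hM : Cfsg.IsPModular p M) (Q : Subgroup G) (hQ : IsPGroup p Q) (e : Set (Cfsg.IrrCharacter (Subgroup.centralizer (Q : Set G)))) (he : Cfsg.IsPBlock M e) : Cfsg.IsBrauerPairOf p M (Cfsg.principalBlock M G) Q e ↔ e = Cfsg.principalBlock M (Subgroup.centralizer (Q : Set G)) := by
  classical
  have hM' := hM.2.1.isPrime
  have := Helper24.finite_irrCharacter (G := G)
  have : Fintype (IrrCharacter G) := Fintype.ofFinite _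
  have : Fintype (Subgroup.centralizer (Q : Set G)) := Fintype.ofFinite _
  have : Nonempty (IrrCharacter G) := ⟨oneIrr G⟩
  have hB0 : IsPBlock M (principalBlock M G) := ⟨oneIrr G, rfl⟩
  have h1G : oneIrr G ∈ principalBlock M G := sameBlock_refl hM'.ne_top _
  obtain ⟨ΦB, hΦBdef⟩ : ∃ ΦB : IrrCharacter G → ℂ,
      ΦB = fun χ => if χ ∈ principalBlock M G then (1 : ℂ) else 0 := ⟨_, rfl⟩
  have hΦB : ΦB ∈ specRing G M hM' := by
    rw [hΦBdef]
    exact block_indicator_mem hM' hB0
  have hcoef : ∀ g, coeffT ΦB g = blockCoeff (principalBlock M G) g := by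
    intro g
    rw [hΦBdef]
    exact (blockCoeff_eq_coeffT _ g).symm
  have haR : ∀ g, MemLocalRing M (blockCoeff (principalBlock M G) g) :=
    blockCoeff_memLocalRing hM' hB0
  have hacl : IsClassFunction G (blockCoeff (principalBlock M G)) := by
    intro g k
    rw [← hcoef, ← hcoef]
    exact coeffT_isClassFunction ΦB g k
  have hsum1 : ∑ g : G, blockCoeff (principalBlock M G) g = 1 := by
    have h := spec_eq_sum ΦB (oneIrr G)
    have h1 : ΦB (oneIrr G) = 1 := by
      rw [hΦBdef]
      exact if_pos h1G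
    rw [h1] at h
    rw [h]
    refine Finset.sum_congr rfl fun g _ => ?_
    rw [hcoef, oneIrr_apply, oneIrr_apply, div_one, mul_one]
  have hLone : MemLocalIdeal M (∑ x : Subgroup.centralizer (Q : Set G),
      blockCoeff (principalBlock M G) (x : G) - 1) := by
    have h := sum_eq_sum_centralizer_add Q (blockCoeff (principalBlock M G))
    rw [hsum1] at h
    have hoff := sum_off_centralizer_mem hM Q hQ (blockCoeff (principalBlock M G))
      (fun u _ y => hacl y u) haR
    have e : ∑ x : Subgroup.centralizer (Q : Set G), blockCoeff (principalBlock M G) (x : G) - 1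
        = -(∑ y : G, (if y ∈ Subgroup.centralizer (Q : Set G) then 0
          else blockCoeff (principalBlock M G) y)) := by
      rw [h]
      ring
    rw [e]
    exact MemLocalIdeal.neg hoff
  constructor
  · intro hbp
    obtain ⟨_, _, hom⟩ := hbp
    obtain ⟨ξ₀, he0⟩ := id he
    have hξ₀ : ξ₀ ∈ e := by
      rw [he0]
      exact mem_blockOf_self hM'.ne_top ξ₀
    have hL := hom ξ₀ hξ₀
    rw [brauerOmega_eq_sum] at hL
    obtain ⟨s, hsdef⟩ : ∃ s : G → ℂ, s = fun g => if p ∣ orderOf g then (0 : ℂ) else 1 :=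
      ⟨_, rfl⟩
    have hscl : IsClassFunction G s := by
      intro g k
      rw [hsdef]
      show (if p ∣ orderOf (k * g * k⁻¹) then (0 : ℂ) else 1) = _
      rw [orderOf_conj']
    obtain ⟨ΦS, hΦSdef⟩ : ∃ ΦS : IrrCharacter G → ℂ,
        ΦS = fun χ : IrrCharacter G => ∑ h : G, s h * ((χ : G → ℂ) h / (χ : G → ℂ) 1) :=
      ⟨_, rfl⟩
    have hcoefS : ∀ g, coeffT ΦS g = s g := by
      intro g
      rw [hΦSdef]
      exact coeffT_forward s hscl g
    have hΦS : ΦS ∈ specRing G M hM' := by
      intro g
      rw [hcoefS, hsdef]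
      show MemLocalRing M (if p ∣ orderOf g then (0 : ℂ) else 1)
      split_ifs
      · exact MemLocalRing.zero hM'.ne_top
      · exact MemLocalRing.one hM'.ne_top
    have hΦSval : ∀ χ : IrrCharacter G, ΦS χ
        = ∑ g : G, (if p ∣ orderOf g then 0 else (χ : G → ℂ) g / (χ : G → ℂ) 1) := by
      intro χ
      rw [hΦSdef, hsdef]
      refine Finset.sum_congr rfl fun g _ => ?_
      show (if p ∣ orderOf g then (0 : ℂ) else 1) * _ = _
      split_ifs
      · rw [zero_mul]
      · rw [one_mul]
    obtain ⟨n, hndef⟩ : ∃ n : ℕ, n = Nat.card {g : G // ¬ p ∣ orderOf g} := ⟨_, rfl⟩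
    obtain ⟨Ψ, hΨdef⟩ : ∃ Ψ : IrrCharacter G → ℂ, Ψ = ΦS - (fun _ => (n : ℂ)) * ΦB := ⟨_, rfl⟩
    have hΨ : Ψ ∈ specRing G M hM' := by
      rw [hΨdef]
      exact Subring.sub_mem _ hΦS (Subring.mul_mem _
        (const_mem_specRing hM' (memLocalRing_natCast hM'.ne_top n)) hΦB)
    have hΨval : ∀ χ, MemLocalIdeal M (Ψ χ) := by
      intro χ
      rw [hΨdef]
      simp only [Pi.sub_apply, Pi.mul_apply]
      have hΦBval : ΦB χ = if χ ∈ principalBlock M G then (1 : ℂ) else 0 := by rw [hΦBdef]
      rw [hΦSval, hΦBval]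
      by_cases hχ : χ ∈ principalBlock M G
      · rw [if_pos hχ, mul_one, hndef]
        exact regSum_sub_mem hM χ hχ
      · rw [if_neg hχ, mul_zero, sub_zero, regSum_div, regSum_eq_zero hM χ hχ, zero_div]
        exact MemLocalIdeal.zero hM'.ne_top
    have hpow := pow_mem_specJ hM' hΨ hΨval
    obtain ⟨N, hN⟩ : ∃ N, Fintype.card (IrrCharacter G) = N + 1 :=
      Nat.exists_eq_succ_of_ne_zero Fintype.card_ne_zero
    rw [hN] at hpow
    have h1 := omega_mem_ideal hM' ξ₀
      (fun x : Subgroup.centralizer (Q : Set G) => coeffT (Ψ ^ (N + 1)) (x : G))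
      (isClassFunction_restrict _ _ (coeffT_isClassFunction _)) (fun x => hpow (x : G))
    have h2 := brauer_pow hM Q hQ ξ₀ Ψ hΨ N
    have hLΨR := omega_mem_ring hM' ξ₀
      (fun x : Subgroup.centralizer (Q : Set G) => coeffT Ψ (x : G))
      (isClassFunction_restrict _ _ (coeffT_isClassFunction Ψ)) (fun x => hΨ (x : G))
    have h3 : MemLocalIdeal M ((∑ x : Subgroup.centralizer (Q : Set G), coeffT Ψ (x : G)
        * ((ξ₀ : Subgroup.centralizer (Q : Set G) → ℂ) x
          / (ξ₀ : Subgroup.centralizer (Q : Set G) → ℂ) 1)) ^ (N + 1)) := by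
      have h := MemLocalIdeal.sub hM' h1 h2
      convert h using 1
      ring
    have h4 := MemLocalIdeal.of_pow hM' hLΨR N h3
    have hΨcoef : ∀ g, coeffT Ψ g = s g - (n : ℂ) * blockCoeff (principalBlock M G) g := by
      intro g
      rw [hΨdef, coeffT_sub, coeffT_const_mul, hcoefS, hcoef]
    have h5 : ∑ x : Subgroup.centralizer (Q : Set G), coeffT Ψ (x : G)
        * ((ξ₀ : Subgroup.centralizer (Q : Set G) → ℂ) x
          / (ξ₀ : Subgroup.centralizer (Q : Set G) → ℂ) 1)
        = ∑ x : Subgroup.centralizer (Q : Set G), s (x : G)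
          * ((ξ₀ : Subgroup.centralizer (Q : Set G) → ℂ) x
            / (ξ₀ : Subgroup.centralizer (Q : Set G) → ℂ) 1)
          - (n : ℂ) * ∑ x : Subgroup.centralizer (Q : Set G),
            blockCoeff (principalBlock M G) (x : G)
            * ((ξ₀ : Subgroup.centralizer (Q : Set G) → ℂ) x
              / (ξ₀ : Subgroup.centralizer (Q : Set G) → ℂ) 1) := by
      rw [Finset.mul_sum, ← Finset.sum_sub_distrib]
      refine Finset.sum_congr rfl fun x _ => ?_
      rw [hΨcoef]
      ring
    rw [h5] at h4
    have h6 : MemLocalIdeal M (∑ x : Subgroup.centralizer (Q : Set G), s (x : G)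
          * ((ξ₀ : Subgroup.centralizer (Q : Set G) → ℂ) x
            / (ξ₀ : Subgroup.centralizer (Q : Set G) → ℂ) 1) - (n : ℂ)) := by
      have h7 := MemLocalIdeal.mul_left hM' (memLocalRing_natCast hM'.ne_top n) hL
      have h8 := MemLocalIdeal.add hM' h4 h7
      convert h8 using 1
      ring
    have hξ₀p : ξ₀ ∈ principalBlock M (Subgroup.centralizer (Q : Set G)) := by
      rw [mem_principal_iff hM ξ₀]
      intro hc
      apply regCount_not_mem (G := G) hM
      rw [← hndef]
      have e : ∑ x : Subgroup.centralizer (Q : Set G), (if p ∣ orderOf x then 0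
            else (ξ₀ : Subgroup.centralizer (Q : Set G) → ℂ) x
              / (ξ₀ : Subgroup.centralizer (Q : Set G) → ℂ) 1)
          = ∑ x : Subgroup.centralizer (Q : Set G), s (x : G)
            * ((ξ₀ : Subgroup.centralizer (Q : Set G) → ℂ) x
              / (ξ₀ : Subgroup.centralizer (Q : Set G) → ℂ) 1) := by
        refine Finset.sum_congr rfl fun x _ => ?_
        rw [hsdef]
        show _ = (if p ∣ orderOf (x : G) then (0 : ℂ) else 1) * _
        rw [Subgroup.orderOf_coe]
        split_ifs
        · rw [zero_mul]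
        · rw [one_mul]
      rw [e] at hc
      have e2 : (n : ℂ) = ∑ x : Subgroup.centralizer (Q : Set G), s (x : G)
            * ((ξ₀ : Subgroup.centralizer (Q : Set G) → ℂ) x
              / (ξ₀ : Subgroup.centralizer (Q : Set G) → ℂ) 1)
          - (∑ x : Subgroup.centralizer (Q : Set G), s (x : G)
            * ((ξ₀ : Subgroup.centralizer (Q : Set G) → ℂ) x
              / (ξ₀ : Subgroup.centralizer (Q : Set G) → ℂ) 1) - (n : ℂ)) := by ring
      rw [e2]
      exact MemLocalIdeal.sub hM' hc h6
    rw [he0]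
    exact (blockOf_eq_of_mem hM' hξ₀p).symm
  · intro heq
    refine ⟨⟨hQ, he⟩, hB0, fun ξ hξ => ?_⟩
    rw [brauerOmega_eq_sum]
    rw [heq] at hξ
    have hs : SameBlock M (ξ : Subgroup.centralizer (Q : Set G) → ℂ)
        ((oneIrr (Subgroup.centralizer (Q : Set G)) :
          IrrCharacter (Subgroup.centralizer (Q : Set G))) :
            Subgroup.centralizer (Q : Set G) → ℂ) := sameBlock_symm hξ
    have h1 := omega_sub_mem hM' ξ (oneIrr _) hs
      (fun x : Subgroup.centralizer (Q : Set G) => blockCoeff (principalBlock M G) (x : G))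
      (isClassFunction_restrict _ _ hacl) (fun x => haR (x : G))
    have e3 : ∑ x : Subgroup.centralizer (Q : Set G), blockCoeff (principalBlock M G) (x : G)
        * (((oneIrr (Subgroup.centralizer (Q : Set G)) :
          IrrCharacter (Subgroup.centralizer (Q : Set G))) :
            Subgroup.centralizer (Q : Set G) → ℂ) x
          / ((oneIrr (Subgroup.centralizer (Q : Set G)) :
          IrrCharacter (Subgroup.centralizer (Q : Set G))) :
            Subgroup.centralizer (Q : Set G) → ℂ) 1)
        = ∑ x : Subgroup.centralizer (Q : Set G), blockCoeff (principalBlock M G) (x : G) := by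
      refine Finset.sum_congr rfl fun x _ => ?_
      rw [oneIrr_apply, oneIrr_apply, div_one, mul_one]
    rw [e3] at h1
    have h9 := MemLocalIdeal.add hM' h1 hLone
    convert h9 using 1
    ring

end Cfsg.Agent.S4663
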