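import Cfsg.Statements.S4646
import Cfsg.Agent.Helper25.BrauerPrincipal
import Cfsg.Agent.S4663
import Cfsg.Agent.Lead.Frobenius
import Cfsg.Prelude.Def_BlockRank
open Cfsg.Agent.Helper25

set_option autoImplicit false
open Cfsg

namespace Cfsg.Agent.S4646

/-- For a finite group G, a prime p and a maximal ideal M of the algebraic integers containing p: the principal block of G is nilpotent if and only if its p-regular rank is 1 (the trivial Brauer character is its only irreducible Brauer character). -/
theorem result {G : Type*} [Group G] [Finite G] (p : ℕ) [Fact p.Prime] (M : Ideal Cfsg.AlgInt) (hM : Cfsg.IsPModular p M) : Cfsg.IsNilpotentBlock p M (Cfsg.principalBlock M G) ↔ Cfsg.blockRank p (Cfsg.principalBlock M G) = 1 := by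
  classical
  have : Fintype G := Fintype.ofFinite G
  have hMp : M.IsPrime := hM.2.1.isPrime
  have hp : p.Prime := Fact.out
  have hB0 : IsPBlock M (principalBlock M G) := ⟨oneIrr G, rfl⟩
  have h1G : oneIrr G ∈ principalBlock M G := sameBlock_refl hMp.ne_top _
  obtain ⟨v, hv⟩ : ∃ v : G → ℂ, v = pRegularPart p (fun _ => (1 : ℂ)) := ⟨_, rfl⟩
  have hv1 : v 1 = 1 := by
    rw [hv]
    unfold pRegularPart
    rw [if_pos]
    show ¬ p ∣ orderOf (1 : G)
    rw [orderOf_one]
    exact hp.one_lt.ne' ∘ Nat.dvd_one.mp
  have hv0 : v ≠ 0 := by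
    intro h
    rw [h] at hv1
    exact zero_ne_one hv1
  have hvmem : v ∈ (fun χ : IrrCharacter G => pRegularPart p (χ : G → ℂ)) '' principalBlock M G :=
    ⟨oneIrr G, h1G, hv.symm⟩
  -- key reformulation: the rank is one iff all members are constant on `p`-regular elements
  have hkey : (∀ χ ∈ principalBlock M G, ∀ g : G, ¬ p ∣ orderOf g →
      (χ : G → ℂ) g = (χ : G → ℂ) 1) → blockRank p (principalBlock M G) = 1 := by
    intro h
    unfold blockRank
    have hspan : Submodule.span ℂ
        ((fun χ : IrrCharacter G => pRegularPart p (χ : G → ℂ)) '' principalBlock M G)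
        = Submodule.span ℂ {v} := by
      apply le_antisymm
      · rw [Submodule.span_le]
        rintro w ⟨χ, hχ, rfl⟩
        have e : pRegularPart p (χ : G → ℂ) = (χ : G → ℂ) 1 • v := by
          funext g
          rw [hv]
          unfold pRegularPart
          by_cases hg : IsPRegular p g
          · simp only [Pi.smul_apply, smul_eq_mul]
            rw [if_pos hg, if_pos hg, mul_one]
            exact h χ hχ g hg
          · simp only [Pi.smul_apply, smul_eq_mul]
            rw [if_neg hg, if_neg hg, mul_zero]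
        show pRegularPart p (χ : G → ℂ) ∈ Submodule.span ℂ {v}
        rw [e]
        exact Submodule.smul_mem _ _ (Submodule.mem_span_singleton_self v)
      · rw [Submodule.span_le, Set.singleton_subset_iff]
        exact Submodule.subset_span hvmem
    rw [hspan]
    exact finrank_span_singleton hv0
  have hkey' : blockRank p (principalBlock M G) = 1 → ∀ χ ∈ principalBlock M G, ∀ g : G,
      ¬ p ∣ orderOf g → (χ : G → ℂ) g = (χ : G → ℂ) 1 := by
    intro h χ hχ g hg
    unfold blockRank at h
    have hvW : v ∈ Submodule.span ℂ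
        ((fun χ : IrrCharacter G => pRegularPart p (χ : G → ℂ)) '' principalBlock M G) :=
      Submodule.subset_span hvmem
    have hχW : pRegularPart p (χ : G → ℂ) ∈ Submodule.span ℂ
        ((fun χ : IrrCharacter G => pRegularPart p (χ : G → ℂ)) '' principalBlock M G) :=
      Submodule.subset_span ⟨χ, hχ, rfl⟩
    have h2 := (finrank_eq_one_iff_of_nonzero' (⟨v, hvW⟩ : Submodule.span ℂ
        ((fun χ : IrrCharacter G => pRegularPart p (χ : G → ℂ)) '' principalBlock M G))
        (by
          intro h0
          exact hv0 (congrArg Subtype.val h0))).mp h ⟨_, hχW⟩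
    obtain ⟨c, hc⟩ := h2
    have hc' : c • v = pRegularPart p (χ : G → ℂ) := congrArg Subtype.val hc
    have e1 := congrFun hc' 1
    have e2 := congrFun hc' g
    have hreg1 : IsPRegular p (1 : G) := by
      show ¬ p ∣ orderOf (1 : G)
      rw [orderOf_one]
      exact hp.one_lt.ne' ∘ Nat.dvd_one.mp
    have hg' : IsPRegular p g := hg
    have hvg : v g = 1 := by
      rw [hv]
      unfold pRegularPart
      rw [if_pos hg']
    simp only [Pi.smul_apply, smul_eq_mul] at e1 e2
    rw [hv1, mul_one] at e1
    rw [hvg, mul_one] at e2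
    unfold pRegularPart at e1 e2
    rw [if_pos hreg1] at e1
    rw [if_pos hg'] at e2
    rw [← e2, ← e1]
  constructor
  · intro hnil
    apply hkey
    have hF : Cfsg.Agent.Lead.FrobHyp p G := by
      intro X hX g hg hcop
      refine hnil.2 X (principalBlock M (Subgroup.centralizer (X : Set G)))
        ((Cfsg.Agent.S4663.result p M hM X hX _ ⟨oneIrr _, rfl⟩).mpr rfl) g hg
        (stabilizesBlock_principal X g hg) ?_
      show ¬ p ∣ orderOf g
      exact (Nat.Prime.coprime_iff_not_dvd hp).mp hcop.symm
    obtain ⟨P, N, hNn, hNc⟩ := Cfsg.Agent.Lead.frobHyp_iff.mp hF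
    have hidx : N.index = Nat.card (P : Subgroup G) := hNc.symm.index_eq_card
    have hcard : Nat.card N * Nat.card (P : Subgroup G) = Nat.card G := hNc.card_mul_card
    have hPcard : Nat.card (P : Subgroup G) = p ^ (Nat.card G).factorization p :=
      Sylow.card_eq_multiplicity P
    have hNp : ¬ p ∣ Nat.card N := by
      intro hd
      obtain ⟨m, hm⟩ := hd
      have h1 : p ^ ((Nat.card G).factorization p + 1) ∣ Nat.card G := by
        obtain ⟨a, ha⟩ : ∃ a, a = (Nat.card G).factorization p := ⟨_, rfl⟩
        rw [← ha] at hPcard ⊢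
        refine ⟨m, ?_⟩
        rw [← hcard, hPcard, hm, pow_succ]
        ring
      have h2 := (Nat.Prime.pow_dvd_iff_le_factorization hp Nat.card_pos.ne').mp h1
      omega
    intro χ hχ g hg
    have hgN : g ∈ N := regular_mem_of_index hp N ⟨_, hidx.trans hPcard⟩ g hg
    have hover1 : classInner (fun n : N => ((oneIrr G : IrrCharacter G) : G → ℂ) n)
        (oneIrr N : N → ℂ) ≠ 0 := by
      rw [over_one_iff]
      intro n _
      rw [oneIrr_apply, oneIrr_apply]
    have hover := over_of_sameBlock_pprime hM N hNp (oneIrr G) χ hχ (oneIrr N) hover1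
    rw [over_one_iff] at hover
    exact hover g hgN
  · intro hrank
    have hreg := hkey' hrank
    refine ⟨hB0, ?_⟩
    intro Q e hbp x hxN _ hxreg
    have hQ : IsPGroup p Q := hbp.1.1
    have hKp : ¬ p ∣ Nat.card (blockKerSubgroup (principalBlock M G)) := blockKer_pprime hM hB0
    have hxK : x ∈ blockKerSubgroup (principalBlock M G) := by
      rw [mem_blockKerSubgroup]
      intro χ hχ
      exact hreg χ hχ x hxreg
    rw [Subgroup.mem_centralizer_iff]
    intro q hq
    -- the commutator lies in `Q ∩ K`
    have hc1 : x * q * x⁻¹ * q⁻¹ ∈ Q :=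
      Q.mul_mem ((Subgroup.mem_normalizer_iff.mp hxN q).mp hq) (Q.inv_mem hq)
    have hc2 : x * q * x⁻¹ * q⁻¹ ∈ blockKerSubgroup (principalBlock M G) := by
      have h1 : q * x⁻¹ * q⁻¹ ∈ blockKerSubgroup (principalBlock M G) :=
        (blockKerSubgroup_normal _).conj_mem _ (Subgroup.inv_mem _ hxK) q
      have h2 := Subgroup.mul_mem _ hxK h1
      have e : x * (q * x⁻¹ * q⁻¹) = x * q * x⁻¹ * q⁻¹ := by group
      rwa [e] at h2
    have hc3 : x * q * x⁻¹ * q⁻¹ = 1 := by
      obtain ⟨k, hk⟩ := hQ ⟨_, hc1⟩
      have hk' : (x * q * x⁻¹ * q⁻¹) ^ p ^ k = 1 := congrArg Subtype.val hk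
      have ho1 : orderOf (x * q * x⁻¹ * q⁻¹) ∣ p ^ k := orderOf_dvd_of_pow_eq_one hk'
      have ho2 : orderOf (x * q * x⁻¹ * q⁻¹)
          ∣ Nat.card (blockKerSubgroup (principalBlock M G)) := by
        have h3 := orderOf_dvd_natCard (⟨_, hc2⟩ : blockKerSubgroup (principalBlock M G))
        rwa [Subgroup.orderOf_mk] at h3
      have hcop : Nat.Coprime (p ^ k) (Nat.card (blockKerSubgroup (principalBlock M G))) :=
        Nat.Coprime.pow_left k ((Nat.Prime.coprime_iff_not_dvd hp).mpr hKp)
      have h4 := Nat.eq_one_of_dvd_coprimes hcop ho1 ho2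
      exact orderOf_eq_one_iff.mp h4
    have e : q * x = (x * q * x⁻¹ * q⁻¹)⁻¹ * (x * q) := by group
    rw [e, hc3, inv_one, one_mul]

end Cfsg.Agent.S4646
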