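import Cfsg.Statements.S4652
import Cfsg.Agent.Helper25.BlockMinMax3
open Cfsg.Agent.Helper25

set_option autoImplicit false
open Cfsg

namespace Cfsg.Agent.S4652

/-- Fix a prime p and a maximal ideal M of the algebraic integers containing p. The defect groups of the principal p-block of a finite group G are exactly the Sylow p-subgroups of G: a subgroup D is a defect group of the principal block if and only if D is a Sylow p-subgroup. -/
theorem result {G : Type*} [Group G] [Fintype G] (p : ℕ) [Fact p.Prime] (M : Ideal Cfsg.AlgInt) (hM : Cfsg.IsPModular p M) (D : Subgroup G) : Cfsg.IsDefectGroup p M (Cfsg.principalBlock M G) D ↔ ∃ S : Sylow p G, (S : Subgroup G) = D := by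
  classical
  have hMp := hM.2.1.isPrime
  have hB : IsPBlock M (principalBlock M G) := ⟨oneIrr G, rfl⟩
  have hdef : blockDefect p (principalBlock M G) = (Nat.card G).factorization p := by
    rw [blockDefect_eq_sub]
    have h0 : sInf ((fun χ : IrrCharacter G => (charDegree (χ : G → ℂ)).factorization p) ''
        principalBlock M G) = 0 := by
      apply Nat.eq_zero_of_le_zero
      apply Nat.sInf_le
      refine ⟨oneIrr G, mem_blockOf_self hMp.ne_top (oneIrr G), ?_⟩
      have h1 : charDegree (oneIrr G : G → ℂ) = 1 := by
        unfold charDegree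
        simp [oneIrr_apply]
      simp only [h1]
      simp
    rw [h0, Nat.sub_zero]
  constructor
  · intro hD
    have hcard := card_defectGroup hM hB D hD
    rw [hdef] at hcard
    exact ⟨Sylow.ofCard D hcard, Sylow.coe_ofCard D hcard⟩
  · rintro ⟨S, rfl⟩
    obtain ⟨g, hg⟩ := exists_defectClass hMp hB
    obtain ⟨P⟩ : Nonempty (Sylow p (Subgroup.centralizer ({g} : Set G))) := inferInstance
    have hD₀ : IsDefectGroup p M (principalBlock M G)
        ((P : Subgroup (Subgroup.centralizer ({g} : Set G))).map
          (Subgroup.centralizer ({g} : Set G)).subtype) := ⟨g, hg, P, rfl⟩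
    have hcard := card_defectGroup hM hB _ hD₀
    rw [hdef] at hcard
    obtain ⟨x, hx⟩ := MulAction.exists_smul_eq G (Sylow.ofCard _ hcard) S
    have h2 := isDefectGroup_conj hD₀ x
    rw [← hx, Helper17.sylow_smul_coe, Sylow.coe_ofCard]
    exact h2

end Cfsg.Agent.S4652
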