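import Cfsg.Statements.S4656
import Cfsg.Agent.Helper25.RelBrauer
open Cfsg.Agent.Helper25
open Cfsg.Agent

set_option autoImplicit false
open Cfsg

namespace Cfsg.Agent.S4656

/-- Fix a prime p and a maximal ideal M of the algebraic integers containing p. Let (P, e) be a Brauer pair of the finite group G and Q a normal subgroup of P. Then there is exactly one p-block f of C_G(Q) that is stable under conjugation by P and such that e occurs in the Brauer-map image at P of the idempotent of f; that is, exactly one f with (Q, f) normally below (P, e). -/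
theorem result {G : Type*} [Group G] [Fintype G] (p : ℕ) [Fact p.Prime] (M : Ideal Cfsg.AlgInt) (hM : Cfsg.IsPModular p M) (P Q : Subgroup G) (e : Set (Cfsg.IrrCharacter (Subgroup.centralizer (P : Set G)))) (hPe : Cfsg.IsBrauerPair p M P e) (hQP : Q ≤ P) (hPN : P ≤ Subgroup.normalizer (Q : Set G)) : ∃! f : Set (Cfsg.IrrCharacter (Subgroup.centralizer (Q : Set G))), Cfsg.IsNormalSubpair p M Q f P e := by
  classical
  have hMp := hM.2.1.isPrime
  have : Fintype (Subgroup.centralizer (Q : Set G)) := Fintype.ofFinite _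
  have := Helper24.finite_irrCharacter (G := Subgroup.centralizer (Q : Set G))
  have : Fintype (IrrCharacter (Subgroup.centralizer (Q : Set G))) := Fintype.ofFinite _
  have : Fintype (Subgroup.centralizer (P : Set G)) := Fintype.ofFinite _
  have := Helper24.finite_irrCharacter (G := Subgroup.centralizer (P : Set G))
  have : Fintype (IrrCharacter (Subgroup.centralizer (P : Set G))) := Fintype.ofFinite _
  obtain ⟨hP, he⟩ := hPe
  have hQ : IsPGroup p Q := hP.to_le hQP
  have hCK : Subgroup.centralizer (P : Set G) ≤ Subgroup.centralizer (Q : Set G) :=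
    Subgroup.centralizer_le hQP
  have hPNK := le_trans hPN (normalizer_le_normalizer_centralizer' Q)
  obtain ⟨ξ₀, hξ₀⟩ := block_nonempty hMp he
  obtain ⟨f, hf, hfs, hf1⟩ :=
    exists_stable_block (Subgroup.centralizer (Q : Set G)) P hM hP hPNK hCK ξ₀
  have hfin : ∀ f' : Set (IrrCharacter (Subgroup.centralizer (Q : Set G))), IsPBlock M f' →
      (∀ n : Subgroup.normalizer ((Subgroup.centralizer (Q : Set G) : Subgroup G) : Set G),
        (n : G) ∈ P → ∀ θ, nAct (Subgroup.centralizer (Q : Set G)) n θ ∈ f' ↔ θ ∈ f') →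
      MemLocalIdeal M (rtrunc (Subgroup.centralizer (Q : Set G)) P (ind f') ξ₀ - 1) →
      IsNormalSubpair p M Q f' P e := by
    intro f' hf' hs' h1
    refine ⟨⟨hQ, hf'⟩, ⟨hP, he⟩, hQP, hPN,
      (stabilizes_iff (Subgroup.centralizer (Q : Set G)) P hPNK f').2 hs', fun ξ hξ => ?_⟩
    rw [brauerOmega_subgroupBlockCoeff (Subgroup.centralizer (Q : Set G)) P hCK]
    have h2 := spec_sub_mem hMp (rtrunc_mem_specRing (Subgroup.centralizer (Q : Set G)) P hMp hCK
      (ind_mem_specRing (Subgroup.centralizer (Q : Set G)) hMp hf'))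
      (sameBlock_of_mem_block hMp he hξ hξ₀)
    have h3 := MemLocalIdeal.add hMp h2 h1
    rwa [sub_add_sub_cancel] at h3
  refine ⟨f, hfin f hf hfs hf1, ?_⟩
  rintro f' ⟨⟨-, hf'⟩, -, -, -, hst', h1'⟩
  have hs' := (stabilizes_iff (Subgroup.centralizer (Q : Set G)) P hPNK f').1 hst'
  have h2 := h1' ξ₀ hξ₀
  rw [brauerOmega_subgroupBlockCoeff (Subgroup.centralizer (Q : Set G)) P hCK] at h2
  exact stable_block_unique (Subgroup.centralizer (Q : Set G)) P hM hP hPNK hCK ξ₀ hf' hf hs' hfs
    h2 hf1

end Cfsg.Agent.S4656
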