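import Cfsg.Statements.S4664
import Cfsg.Agent.Helper25.BlockOrth2
import Cfsg.Agent.Helper24.CharValues
import Cfsg.Agent.Helper24.CharInv
open Cfsg.Agent.Helper25
open Cfsg.Agent

set_option autoImplicit false
open Cfsg

namespace Cfsg.Agent.S4664

/-- Fix a prime p and a maximal ideal M of the algebraic integers containing p, and let B be a p-block of the finite group G. Let m be the p'-part of the order of G and η = exp(2πi/m). Then every coefficient of the idempotent of B lies in the cyclotomic field ℚ(η). -/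
theorem result {G : Type*} [Group G] [Fintype G] (p : ℕ) [Fact p.Prime] (M : Ideal Cfsg.AlgInt) (hM : Cfsg.IsPModular p M) (B : Set (Cfsg.IrrCharacter G)) (hB : Cfsg.IsPBlock M B) (g : G) : Cfsg.blockCoeff B g ∈ IntermediateField.adjoin ℚ ({Complex.exp (2 * Real.pi * Complex.I / ((Nat.card G / p ^ (Nat.card G).factorization p : ℕ) : ℂ))} : Set ℂ) := by
  classical
  by_cases hp : p ∣ orderOf g
  · rw [osima hM hB g hp]
    exact zero_mem _
  have hpp : p.Prime := Fact.out
  obtain ⟨N, hNdef⟩ : ∃ N, N = Nat.card G / p ^ (Nat.card G).factorization p := ⟨_, rfl⟩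
  rw [← hNdef]
  have hN : 0 < N := hNdef ▸ Nat.ordCompl_pos p Nat.card_pos.ne'
  have hdvd : orderOf g ∣ N := by
    have h1 : orderOf g ∣ p ^ (Nat.card G).factorization p * N := by
      rw [hNdef, Nat.ordProj_mul_ordCompl_eq_self]
      exact orderOf_dvd_natCard g
    have h2 : (orderOf g).Coprime (p ^ (Nat.card G).factorization p) :=
      Nat.Coprime.pow_right _ ((Nat.Prime.coprime_iff_not_dvd hpp).2 hp).symm
    exact h2.dvd_of_dvd_mul_left h1
  have hgN : g⁻¹ ^ N = 1 := by
    rw [inv_pow, inv_eq_one]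
    exact orderOf_dvd_iff_pow_eq_one.mp hdvd
  obtain ⟨ζ, hζdef⟩ : ∃ ζ : ℂ, ζ = Complex.exp (2 * Real.pi * Complex.I / (N : ℂ)) := ⟨_, rfl⟩
  rw [← hζdef]
  have hζ : IsPrimitiveRoot ζ N := hζdef ▸ Complex.isPrimitiveRoot_exp N hN.ne'
  have hζK : ζ ∈ IntermediateField.adjoin ℚ ({ζ} : Set ℂ) :=
    IntermediateField.mem_adjoin_simple_self ℚ ζ
  unfold blockCoeff
  refine mul_mem (inv_mem (natCast_mem _ _)) ?_
  refine finsum_mem_induction (· ∈ IntermediateField.adjoin ℚ ({ζ} : Set ℂ)) (zero_mem _)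
    (fun x y hx hy => add_mem hx hy) ?_
  intro χ hχ
  have hχc := Helper24.isCharacter_of_irr χ.2
  obtain ⟨d, hd⟩ := Helper24.char_pow_expansion hχc g⁻¹ N hN hgN ζ hζ
  have h1 := hd 1
  rw [pow_one] at h1
  rw [← Helper24.char_inv hχc g, h1, Helper24.charDegree_spec hχc]
  exact mul_mem (natCast_mem _ _)
    (sum_mem fun j _ => mul_mem (natCast_mem _ _) (pow_mem hζK _))

end Cfsg.Agent.S4664
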