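import Cfsg.Statements.S4665
-- import your own Cfsg.Agent.* helpers here
import Cfsg.Agent.Helper24.CharBasic

set_option autoImplicit false
open Cfsg

namespace Cfsg.Agent.S4665

/-- Fix a prime p, a maximal ideal M of the algebraic integers containing p, and a p-block B of the finite group G, and let p^a be the p-part of the order of G. Let χ be an integer combination of the irreducible characters in B. If the function that agrees with χ on p-regular elements and vanishes on p-singular elements is again an integer combination of the irreducible characters in B, then p^a divides χ(1). -/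
theorem result {G : Type*} [Group G] [Fintype G] (p : ℕ) [Fact p.Prime] (M : Ideal Cfsg.AlgInt) (hM : Cfsg.IsPModular p M) (B : Set (Cfsg.IrrCharacter G)) (hB : Cfsg.IsPBlock M B) (χ : G → ℂ) (hχ : (∃ n : Cfsg.IrrCharacter G → ℤ, ∀ g : G, χ g = ∑ᶠ ψ ∈ B, (n ψ : ℂ) * (ψ : G → ℂ) g)) (h0 : (∃ n : Cfsg.IrrCharacter G → ℤ, ∀ g : G, Cfsg.pRegularPart p χ g = ∑ᶠ ψ ∈ B, (n ψ : ℂ) * (ψ : G → ℂ) g)) : ∃ k : ℤ, χ 1 = (p ^ (Nat.card G).factorization p : ℂ) * k := by
  classical
  obtain ⟨n, hn⟩ := h0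
  obtain ⟨P⟩ : Nonempty (Sylow p G) := inferInstance
  have hPcard : Nat.card P = p ^ (Nat.card G).factorization p := P.card_eq_multiplicity
  have hp : p.Prime := Fact.out
  have h1 : ∑ x : (P : Subgroup G), Cfsg.pRegularPart p χ (x : G) = χ 1 := by
    rw [Finset.sum_eq_single (1 : (P : Subgroup G))]
    · have hp1 : p ≠ 1 := hp.one_lt.ne'
      simp [Cfsg.pRegularPart, Cfsg.IsPRegular, hp1]
    · intro x _ hx
      have hx1 : (x : G) ≠ 1 := fun h => hx (Subtype.ext h)
      have hdvd : p ∣ orderOf x := by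
        obtain ⟨k, hk⟩ := (IsPGroup.iff_orderOf.mp P.isPGroup') x
        rw [hk]
        have hk0 : k ≠ 0 := by
          rintro rfl
          rw [pow_zero, orderOf_eq_one_iff] at hk
          exact hx hk
        exact dvd_pow_self p hk0
      simp [Cfsg.pRegularPart, Cfsg.IsPRegular, hdvd]
    · simp
  have hfin : Finite (Cfsg.IrrCharacter G) := Cfsg.Agent.Helper24.finite_irrCharacter
  have h2 : ∀ ψ : Cfsg.IrrCharacter G, ∃ m : ℕ,
      ∑ x : (P : Subgroup G), (ψ : G → ℂ) x = (Nat.card (P : Subgroup G) : ℂ) * m :=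
    fun ψ => Cfsg.Agent.Helper24.sum_character_eq
      (Cfsg.Agent.Helper24.isCharacter_restrict _ (Cfsg.Agent.Helper24.isCharacter_of_irr ψ.2))
  choose m hm using h2
  have hBfin : B.Finite := Set.toFinite B
  refine ⟨∑ ψ ∈ hBfin.toFinset, n ψ * (m ψ : ℤ), ?_⟩
  rw [← h1]
  have h3 : ∀ x : (P : Subgroup G), Cfsg.pRegularPart p χ (x : G)
      = ∑ ψ ∈ hBfin.toFinset, (n ψ : ℂ) * (ψ : G → ℂ) x := by
    intro x
    rw [hn, finsum_mem_eq_finite_toFinset_sum _ hBfin]
  rw [Finset.sum_congr rfl (fun x _ => h3 x), Finset.sum_comm]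
  have h4 : ∀ ψ ∈ hBfin.toFinset, ∑ x : (P : Subgroup G), (n ψ : ℂ) * (ψ : G → ℂ) x
      = (p ^ (Nat.card G).factorization p : ℂ) * ((n ψ * (m ψ : ℤ) : ℤ) : ℂ) := by
    intro ψ _
    rw [← Finset.mul_sum, hm ψ]
    have : (Nat.card (P : Subgroup G) : ℂ) = (p : ℂ) ^ (Nat.card G).factorization p := by
      rw [hPcard]; push_cast; rfl
    rw [this]; push_cast; ring
  rw [Finset.sum_congr rfl h4, ← Finset.mul_sum]
  push_cast
  rfl

end Cfsg.Agent.S4665
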