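import Cfsg.Statements.S4666
import Cfsg.Agent.Helper25.HeightZero2
open Cfsg.Agent.Helper25

set_option autoImplicit false
open Cfsg

namespace Cfsg.Agent.S4666

/-- Fix a prime p and a maximal ideal M of the algebraic integers containing p, and a p-block B of the finite group G of defect d. For every integer combination χ of the irreducible characters in B, p^d times the function that agrees with χ on p-regular elements and vanishes elsewhere is again an integer combination of the irreducible characters in B. -/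
theorem result {G : Type*} [Group G] [Fintype G] (p : ℕ) [Fact p.Prime] (M : Ideal Cfsg.AlgInt) (hM : Cfsg.IsPModular p M) (B : Set (Cfsg.IrrCharacter G)) (hB : Cfsg.IsPBlock M B) (χ : G → ℂ) (hχ : (∃ n : Cfsg.IrrCharacter G → ℤ, ∀ g : G, χ g = ∑ᶠ ψ ∈ B, (n ψ : ℂ) * (ψ : G → ℂ) g)) : (∃ n : Cfsg.IrrCharacter G → ℤ, ∀ g : G, (p ^ Cfsg.blockDefect p B : ℂ) * Cfsg.pRegularPart p χ g = ∑ᶠ ψ ∈ B, (n ψ : ℂ) * (ψ : G → ℂ) g) := by
  classical
  have hMp := hM.2.1.isPrime
  have hp := hM.1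
  have hp0 : (p : ℂ) ≠ 0 := by exact_mod_cast hp.ne_zero
  have := Helper24.finite_irrCharacter (G := G)
  have : Fintype (IrrCharacter G) := Fintype.ofFinite _
  obtain ⟨n, hn⟩ := hχ
  obtain ⟨a, ha⟩ : ∃ a, a = (Nat.card G).factorization p := ⟨_, rfl⟩
  obtain ⟨s, hs⟩ : ∃ s, s = sInf ((fun χ : IrrCharacter G =>
    (charDegree (χ : G → ℂ)).factorization p) '' B) := ⟨_, rfl⟩
  have hd : blockDefect p B = a - s := by
    unfold blockDefect
    rw [ha, hs]
  obtain ⟨t, ht⟩ : ∃ t, t = a - (a - s) := ⟨_, rfl⟩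
  have hts : t ≤ s := by omega
  have hta : t + (a - s) = a := by omega
  have hzero : ∀ ψ ∈ B, ∀ ξ : IrrCharacter G, ξ ∉ B →
      Cfsg.Agent.Helper10.irrCoeff (tildeFun p (ψ : G → ℂ)) (ξ : G → ℂ) = 0 := by
    intro ψ hψ ξ hξ
    have hns : ¬ SameBlock M (ψ : G → ℂ) (ξ : G → ℂ) :=
      fun hs' => hξ (mem_block_of_sameBlock hMp hB hψ hs')
    have h1 := classInner_tildeFun_eq_zero hM ψ ξ hns
    rw [tildeFun_inner] at h1
    exact_mod_cast h1
  have hdiv : ∀ ψ ∈ B, ∀ ξ : IrrCharacter G, ((p : ℤ) ^ t)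
      ∣ Cfsg.Agent.Helper10.irrCoeff (tildeFun p (ψ : G → ℂ)) (ξ : G → ℂ) := by
    intro ψ hψ ξ
    by_cases hξ : ξ ∈ B
    · by_cases h0 : Cfsg.Agent.Helper10.irrCoeff (tildeFun p (ψ : G → ℂ)) (ξ : G → ℂ) = 0
      · rw [h0]
        exact dvd_zero _
      · have hR := tildeRatio_memLocalRing hM ψ ξ
        rw [tildeRatio_eq] at hR
        have hle := int_ratio_val_le hM _ h0 _ (charDegree_irr_ne_zero ξ) hR
        rw [padicValInt_dvd_iff]
        right
        have h2 : s ≤ (charDegree (ξ : G → ℂ)).factorization p := by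
          rw [hs]
          exact Nat.sInf_le ⟨ξ, hξ, rfl⟩
        omega
    · rw [hzero ψ hψ ξ hξ]
      exact dvd_zero _
  refine ⟨fun ξ => ∑ ψ : IrrCharacter G, if ψ ∈ B then
    n ψ * (Cfsg.Agent.Helper10.irrCoeff (tildeFun p (ψ : G → ℂ)) (ξ : G → ℂ) / (p : ℤ) ^ t)
    else 0, ?_⟩
  intro g
  rw [finsum_mem_eq_sum_ite]
  have hpt : (p : ℂ) ^ t ≠ 0 := pow_ne_zero _ hp0
  apply mul_left_cancel₀ hpt
  have hL : (p : ℂ) ^ t * ((p : ℂ) ^ blockDefect p B * pRegularPart p χ g)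
      = ∑ ψ : IrrCharacter G, if ψ ∈ B then (n ψ : ℂ) * tildeFun p (ψ : G → ℂ) g else 0 := by
    rw [← mul_assoc, ← pow_add, hd, hta]
    unfold pRegularPart tildeFun IsPRegular
    by_cases hg : p ∣ orderOf g
    · simp [hg]
    · rw [if_pos hg, hn g, finsum_mem_eq_sum_ite, Finset.mul_sum]
      refine Finset.sum_congr rfl fun ψ _ => ?_
      rw [if_neg hg]
      split_ifs
      · rw [← ha]
        push_cast
        ring
      · ring
  rw [hL, Finset.mul_sum]
  have hR : ∀ ξ : IrrCharacter G, (p : ℂ) ^ t * (if ξ ∈ B then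
      ((∑ ψ : IrrCharacter G, if ψ ∈ B then n ψ
        * (Cfsg.Agent.Helper10.irrCoeff (tildeFun p (ψ : G → ℂ)) (ξ : G → ℂ) / (p : ℤ) ^ t)
        else 0 : ℤ) : ℂ) * (ξ : G → ℂ) g else 0)
      = ∑ ψ : IrrCharacter G, if ψ ∈ B then (n ψ : ℂ)
        * ((Cfsg.Agent.Helper10.irrCoeff (tildeFun p (ψ : G → ℂ)) (ξ : G → ℂ) : ℂ)
          * (ξ : G → ℂ) g) else 0 := by
    intro ξ
    by_cases hξ : ξ ∈ B
    · rw [if_pos hξ]
      push_cast
      rw [Finset.sum_mul, Finset.mul_sum]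
      refine Finset.sum_congr rfl fun ψ _ => ?_
      by_cases hψ : ψ ∈ B
      · rw [if_pos hψ, if_pos hψ]
        have h1 := Int.mul_ediv_cancel' (hdiv ψ hψ ξ)
        have h2 : ((p : ℂ) ^ t) * ((Cfsg.Agent.Helper10.irrCoeff (tildeFun p (ψ : G → ℂ))
            (ξ : G → ℂ) / (p : ℤ) ^ t : ℤ) : ℂ)
            = (Cfsg.Agent.Helper10.irrCoeff (tildeFun p (ψ : G → ℂ)) (ξ : G → ℂ) : ℂ) := by
          exact_mod_cast h1
        rw [← h2]
        push_cast
        ring
      · rw [if_neg hψ, if_neg hψ]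
        ring
    · rw [if_neg hξ, mul_zero]
      symm
      apply Finset.sum_eq_zero
      intro ψ _
      by_cases hψ : ψ ∈ B
      · rw [if_pos hψ, hzero ψ hψ ξ hξ]
        simp
      · rw [if_neg hψ]
  rw [Finset.sum_congr rfl fun ξ _ => hR ξ, Finset.sum_comm]
  refine Finset.sum_congr rfl fun ψ _ => ?_
  by_cases hψ : ψ ∈ B
  · simp only [if_pos hψ]
    rw [← Finset.mul_sum]
    congr 1
    have h1 := congrFun (Cfsg.Agent.Helper10.gen_expansion (tildeFun_gen (p := p) ψ)) g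
    rw [Finset.sum_apply] at h1
    rw [h1]
    refine Finset.sum_congr rfl fun ξ _ => ?_
    simp
  · simp only [if_neg hψ]
    simp

end Cfsg.Agent.S4666
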