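import Cfsg.Statements.S4668
import Cfsg.Agent.Helper25.BlockQuot
import Cfsg.Agent.Helper25.BlockOrth2
import Cfsg.Agent.Helper9.ABLemma
open Cfsg.Agent.Helper25
open Cfsg.Agent

set_option autoImplicit false
open Cfsg

namespace Cfsg.Agent.S4668

/-- Fix a prime p and a maximal ideal M of the algebraic integers containing p. Let Q₀ < Q₁ < ⋯ < Q_m be a strictly increasing chain of p-subgroups of the finite group G and N the intersection of their normalizers. Then every block idempotent of N is supported on C_G(Q_m): for every p-block E of N, the idempotent coefficient of E vanishes at every element of N outside C_G(Q_m). -/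
theorem result {G : Type*} [Group G] [Fintype G] (p : ℕ) [Fact p.Prime] (M : Ideal Cfsg.AlgInt) (hM : Cfsg.IsPModular p M) (m : ℕ) (Q : Fin (m + 1) → Subgroup G) (hQ : StrictMono Q) (hQp : ∀ i, IsPGroup p (Q i)) (N : Subgroup G) (hN : ∀ g : G, g ∈ N ↔ ∀ i, g ∈ Subgroup.normalizer (Q i : Set G)) (E : Set (Cfsg.IrrCharacter N)) (hE : Cfsg.IsPBlock M E) (n : N) (hn : (n : G) ∉ Subgroup.centralizer (Q (Fin.last m) : Set G)) : Cfsg.blockCoeff E n = 0 := by
  classical
  have : Fintype N := Fintype.ofFinite _
  by_cases hp : p ∣ orderOf n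
  · exact osima hM hE n hp
  by_contra hne
  have hmono : Monotone Q := hQ.monotone
  have hpp : p.Prime := Fact.out
  have hRn : ((Q (Fin.last m)).subgroupOf N).Normal := by
    refine ⟨fun r hr g => ?_⟩
    rw [Subgroup.mem_subgroupOf] at hr ⊢
    exact (Subgroup.mem_normalizer_iff.mp ((hN g).mp g.2 (Fin.last m)) r).mp hr
  have hRp : IsPGroup p ((Q (Fin.last m)).subgroupOf N) :=
    (hQp (Fin.last m)).comap_of_injective N.subtype N.subtype_injective
  have hcen : n ∈ Subgroup.centralizer (((Q (Fin.last m)).subgroupOf N : Subgroup N) : Set N) := by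
    by_contra hcon
    exact hne (blockCoeff_eq_zero_of_not_centralizer hM _ hRp hE n hcon)
  have hkey : ∀ x ∈ Q (Fin.last m), x ∈ N → (n : G) * x = x * (n : G) := by
    intro x hx hxN
    have h1 := (Subgroup.mem_centralizer_iff.mp hcen) ⟨x, hxN⟩
      (by rw [SetLike.mem_coe, Subgroup.mem_subgroupOf]; exact hx)
    have h2 := congrArg (Subtype.val) h1
    simpa using h2.symm
  have hcop : (orderOf (n : G)).Coprime p := by
    rw [Subgroup.orderOf_coe]
    exact ((Nat.Prime.coprime_iff_not_dvd hpp).2 hp).symm
  have hind : ∀ i : Fin (m + 1), ∀ x ∈ Q i, (n : G) * x = x * (n : G) := by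
    intro i
    induction i using Fin.induction with
    | zero =>
      intro x hx
      refine hkey x (hmono (Fin.zero_le _) hx) ((hN x).mpr fun j => ?_)
      exact Subgroup.le_normalizer (hmono (Fin.zero_le j) hx)
    | succ i ih =>
      refine Helper9.thompson_AxB_elt p (n : G) hcop (Q i.castSucc) (Q i.succ) (hQp _) (hQp _)
        ih ?_ ((hN n).mp n.2 _) ?_
      · exact (hmono (Fin.castSucc_le_succ i)).trans Subgroup.le_normalizer
      · intro x hx
        refine hkey x (hmono (Fin.le_last _) hx.1) ((hN x).mpr fun j => ?_)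
        by_cases hj : j ≤ i.castSucc
        · have h3 : x ∈ Subgroup.centralizer (Q j : Set G) :=
            Subgroup.centralizer_le (hmono hj) hx.2
          exact Subgroup.centralizer_le_normalizer _ h3
        · have h4 : i.succ ≤ j := Fin.castSucc_lt_iff_succ_le.mp (not_le.mp hj)
          exact Subgroup.le_normalizer (hmono h4 hx.1)
  apply hn
  rw [Subgroup.mem_centralizer_iff]
  intro x hx
  exact (hind (Fin.last m) x hx).symm

end Cfsg.Agent.S4668
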