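import Cfsg.Statements.S4669
import Cfsg.Agent.Helper25.DCBlock
import Cfsg.Agent.Helper25.BlockRankZero
open Cfsg.Agent.Helper25
open Cfsg.Agent

set_option autoImplicit false
open Cfsg

namespace Cfsg.Agent.S4669

/-- Fix a prime p and a maximal ideal M of the algebraic integers containing p. If the p-block B of the finite group G has a defect group P contained in the centre of G, then B has p-regular rank one (a single irreducible Brauer character). -/
theorem result {G : Type*} [Group G] [Fintype G] (p : ℕ) [Fact p.Prime] (M : Ideal Cfsg.AlgInt) (hM : Cfsg.IsPModular p M) (B : Set (Cfsg.IrrCharacter G)) (hB : Cfsg.IsPBlock M B) (P : Subgroup G) (hD : Cfsg.IsDefectGroup p M B P) (hPZ : P ≤ Subgroup.center G) : Cfsg.blockRank p B = 1 := by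
  classical
  have := Helper24.finite_irrCharacter (G := G)
  have : Fintype (IrrCharacter G) := Fintype.ofFinite _
  have : Fintype P := Fintype.ofFinite _
  have hp : p.Prime := Fact.out
  have hcent : Subgroup.centralizer (P : Set G) = ⊤ :=
    Subgroup.centralizer_eq_top_iff_subset.2 hPZ
  have hG : P ⊔ Subgroup.centralizer (P : Set G) = ⊤ := by
    rw [hcent]
    exact sup_top_eq _
  haveI hPn : P.Normal := normal_of_sup_centralizer P hG
  have hP : IsPGroup p P := IsPGroup.of_card (card_defectGroup hM hB P hD)
  obtain ⟨θ, hθ, hker, hu⟩ := exists_canonical_char hM P hP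
    (centralizer_index_pow P hP hG) B hB hD
  obtain ⟨h1, h2, h3⟩ := dc_block_main hM P hP hG hB hD θ hθ hker
  unfold blockRank
  have hspan : Submodule.span ℂ ((fun χ : IrrCharacter G => pRegularPart p (χ : G → ℂ)) '' B)
      = Submodule.span ℂ {pRegularPart p (θ : G → ℂ)} := by
    apply le_antisymm
    · rw [Submodule.span_le]
      rintro _ ⟨χ, hχ, rfl⟩
      obtain ⟨ζ, hζ⟩ := h2 χ hχ
      rw [SetLike.mem_coe, Submodule.mem_span_singleton]
      refine ⟨(ζ : P → ℂ) 1, ?_⟩
      funext g
      simp only [Pi.smul_apply, smul_eq_mul]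
      by_cases hg : p ∣ orderOf g
      · rw [pRegularPart_sing _ hg, pRegularPart_sing _ hg, mul_zero]
      · rw [pRegularPart_reg _ hg, pRegularPart_reg _ hg]
        have h4 := hζ 1 g hg
        rw [Subgroup.coe_one, one_mul] at h4
        rw [h4]
    · rw [Submodule.span_le, Set.singleton_subset_iff]
      exact Submodule.subset_span ⟨θ, hθ, rfl⟩
  rw [hspan]
  apply finrank_span_singleton
  intro h0
  have h5 := congrFun h0 1
  have hp1 : ¬ p ∣ orderOf (1 : G) := by
    rw [orderOf_one]
    exact fun h => hp.one_lt.ne' (Nat.dvd_one.1 h)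
  rw [pRegularPart_reg _ hp1] at h5
  exact irr_one_ne_zero' θ h5

end Cfsg.Agent.S4669
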