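import Cfsg.Statements.S4670
import Cfsg.Agent.Helper25.BrauerCorr
open Cfsg.Agent.Helper25
open Cfsg.Agent

set_option autoImplicit false
open Cfsg

namespace Cfsg.Agent.S4670

/-- Fix a prime p and a maximal ideal M of the algebraic integers containing p. Let P be a p-subgroup of the finite group G and H a subgroup containing N_G(P). For every p-block B of G with defect group P there is exactly one p-block c of H with defect group P whose idempotent agrees with that of B, modulo the local ideal at M, at every element of C_G(P) (their Brauer-map images at P coincide); and every p-block c of H with defect group P arises in this way from exactly one such B. This is the Brauer correspondence over H. -/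
theorem result {G : Type*} [Group G] [Fintype G] (p : ℕ) [Fact p.Prime] (M : Ideal Cfsg.AlgInt) (hM : Cfsg.IsPModular p M) (P H : Subgroup G) (hP : IsPGroup p P) (hH : Subgroup.normalizer (P : Set G) ≤ H) : (∀ B : Set (Cfsg.IrrCharacter G), Cfsg.IsPBlock M B → Cfsg.IsDefectGroup p M B P → ∃! c : Set (Cfsg.IrrCharacter H), Cfsg.IsPBlock M c ∧ Cfsg.IsDefectGroup p M c (P.subgroupOf H) ∧ ∀ x : G, x ∈ Subgroup.centralizer (P : Set G) → Cfsg.MemLocalIdeal M (Cfsg.blockCoeff B x - Cfsg.subgroupBlockCoeff H c x)) ∧ (∀ c : Set (Cfsg.IrrCharacter H), Cfsg.IsPBlock M c → Cfsg.IsDefectGroup p M c (P.subgroupOf H) → ∃! B : Set (Cfsg.IrrCharacter G), Cfsg.IsPBlock M B ∧ Cfsg.IsDefectGroup p M B P ∧ ∀ x : G, x ∈ Subgroup.centralizer (P : Set G) → Cfsg.MemLocalIdeal M (Cfsg.blockCoeff B x - Cfsg.subgroupBlockCoeff H c x)) := by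
  classical
  have hMp := hM.2.1.isPrime
  have : Fintype H := Fintype.ofFinite _
  have hPH : P ≤ H := le_trans Subgroup.le_normalizer hH
  have hP' : IsPGroup p (P.subgroupOf H) := hP.comap_subtype
  have hNeq : (Subgroup.normalizer (P : Set G)).subgroupOf H
      = Subgroup.normalizer ((P.subgroupOf H : Subgroup H) : Set H) :=
    Subgroup.subgroupOf_normalizer_eq hPH
  obtain ⟨φ, hφ⟩ : ∃ φ : Subgroup.normalizer ((P.subgroupOf H : Subgroup H) : Set H)
      ≃* Subgroup.normalizer (P : Set G),
      ∀ n' : Subgroup.normalizer ((P.subgroupOf H : Subgroup H) : Set H),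
        ((φ n' : Subgroup.normalizer (P : Set G)) : G) = ((n' : H) : G) :=
    ⟨(MulEquiv.subgroupCongr hNeq.symm).trans (Subgroup.subgroupOfEquivOfLe hH), fun n' => rfl⟩
  have hQ : IsPGroup p ((P.subgroupOf H).subgroupOf
      (Subgroup.normalizer ((P.subgroupOf H : Subgroup H) : Set H))) := hP'.comap_subtype
  have hQ' : IsPGroup p (P.subgroupOf (Subgroup.normalizer (P : Set G))) := hP.comap_subtype
  have hcard : Nat.card ((P.subgroupOf H).subgroupOf
      (Subgroup.normalizer ((P.subgroupOf H : Subgroup H) : Set H)))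
      = Nat.card (P.subgroupOf (Subgroup.normalizer (P : Set G))) := by
    rw [Nat.card_congr (Subgroup.subgroupOfEquivOfLe
        (Subgroup.le_normalizer : P.subgroupOf H ≤ _)).toEquiv,
      Nat.card_congr (Subgroup.subgroupOfEquivOfLe hPH).toEquiv,
      Nat.card_congr (Subgroup.subgroupOfEquivOfLe
        (Subgroup.le_normalizer : P ≤ Subgroup.normalizer (P : Set G))).toEquiv]
  have hC' : ∀ h : H, h ∈ Subgroup.centralizer ((P.subgroupOf H : Subgroup H) : Set H)
      ↔ (h : G) ∈ Subgroup.centralizer (P : Set G) := by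
    intro h
    rw [Subgroup.mem_centralizer_iff, Subgroup.mem_centralizer_iff]
    constructor
    · intro hh u hu
      have h1 := hh ⟨u, hPH hu⟩ (Subgroup.mem_subgroupOf.2 hu)
      exact congrArg Subtype.val h1
    · intro hh u hu
      apply Subtype.ext
      exact hh (u : G) (Subgroup.mem_subgroupOf.1 hu)
  have hsb : ∀ (c : Set (IrrCharacter H)) (y : H),
      subgroupBlockCoeff H c (y : G) = blockCoeff c y := by
    intro c y
    unfold subgroupBlockCoeff
    rw [dif_pos y.2]
  have hchain : ∀ (B : Set (IrrCharacter G))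
      (b : Set (IrrCharacter (Subgroup.normalizer (P : Set G))))
      (b' : Set (IrrCharacter (Subgroup.normalizer ((P.subgroupOf H : Subgroup H) : Set H))))
      (c : Set (IrrCharacter H)),
      (∀ n : Subgroup.normalizer (P : Set G),
        ((n : G) ∈ Subgroup.centralizer (P : Set G) →
          MemLocalIdeal M (blockCoeff B (n : G) - blockCoeff b n)) ∧
        ((n : G) ∉ Subgroup.centralizer (P : Set G) → MemLocalIdeal M (blockCoeff b n))) →
      (∀ n : Subgroup.normalizer ((P.subgroupOf H : Subgroup H) : Set H),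
        ((n : H) ∈ Subgroup.centralizer ((P.subgroupOf H : Subgroup H) : Set H) →
          MemLocalIdeal M (blockCoeff c (n : H) - blockCoeff b' n)) ∧
        ((n : H) ∉ Subgroup.centralizer ((P.subgroupOf H : Subgroup H) : Set H) →
          MemLocalIdeal M (blockCoeff b' n))) →
      (∀ n' : Subgroup.normalizer ((P.subgroupOf H : Subgroup H) : Set H),
        blockCoeff b' n' = blockCoeff b (φ n')) →
      ∀ x : G, x ∈ Subgroup.centralizer (P : Set G) →
        MemLocalIdeal M (blockCoeff B x - subgroupBlockCoeff H c x) := by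
    intro B b b' c hα hβ hτ x hx
    have hxN : x ∈ Subgroup.normalizer (P : Set G) :=
      Subgroup.centralizer_le_normalizer (P : Set G) hx
    have hxH : x ∈ H := hH hxN
    have hxN' : (⟨x, hxH⟩ : H) ∈ Subgroup.normalizer ((P.subgroupOf H : Subgroup H) : Set H) := by
      rw [← hNeq, Subgroup.mem_subgroupOf]
      exact hxN
    have e1 : φ ⟨⟨x, hxH⟩, hxN'⟩ = ⟨x, hxN⟩ := Subtype.ext (hφ _)
    have h1 := (hα ⟨x, hxN⟩).1 hx
    have h2 := (hβ ⟨⟨x, hxH⟩, hxN'⟩).1 ((hC' ⟨x, hxH⟩).2 hx)
    rw [hτ, e1] at h2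
    have h3 := MemLocalIdeal.sub hMp h1 h2
    have e2 := hsb c ⟨x, hxH⟩
    simp only at e2 h1 h2 h3
    rw [e2]
    have e3 : ∀ u v w : ℂ, u - v - (w - v) = u - w := fun u v w => by ring
    rw [e3] at h3
    exact h3
  refine ⟨?_, ?_⟩
  · intro B hB hD
    obtain ⟨b, hb, hbD, -, hα⟩ := brauerCorr_local hM P hP B hB hD
    obtain ⟨b', hb', hbD', hτ⟩ := block_transport hM φ
      ((P.subgroupOf H).subgroupOf (Subgroup.normalizer ((P.subgroupOf H : Subgroup H) : Set H)))
      hQ (P.subgroupOf (Subgroup.normalizer (P : Set G))) hcard b hb hbD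
    obtain ⟨c, hc, hcD, hβ⟩ := brauerCorr_global hM (P.subgroupOf H) hP' b' hb' hbD'
    have hcc := hchain B b b' c hα hβ hτ
    refine ⟨c, ⟨hc, hcD, hcc⟩, ?_⟩
    rintro c₂ ⟨hc₂, hcD₂, hcong₂⟩
    apply brauerCorr_inj hM (P.subgroupOf H) hP' c₂ c hc₂ hc hcD₂ hcD
    intro y hy
    have hyC := (hC' y).1 hy
    have h1 := hcong₂ (y : G) hyC
    have h2 := hcc (y : G) hyC
    rw [hsb] at h1 h2
    have h3 := MemLocalIdeal.sub hMp h2 h1
    have e3 : ∀ u v w : ℂ, u - v - (u - w) = w - v := fun u v w => by ring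
    rw [e3] at h3
    exact h3
  · intro c hc hcD
    obtain ⟨b', hb', hbD', -, hβ⟩ := brauerCorr_local hM (P.subgroupOf H) hP' c hc hcD
    obtain ⟨b, hb, hbD, hτ'⟩ := block_transport hM φ.symm
      (P.subgroupOf (Subgroup.normalizer (P : Set G))) hQ'
      ((P.subgroupOf H).subgroupOf (Subgroup.normalizer ((P.subgroupOf H : Subgroup H) : Set H)))
      hcard.symm b' hb' hbD'
    obtain ⟨B, hB, hBD, hα⟩ := brauerCorr_global hM P hP b hb hbD
    have hτ : ∀ n' : Subgroup.normalizer ((P.subgroupOf H : Subgroup H) : Set H),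
        blockCoeff b' n' = blockCoeff b (φ n') := by
      intro n'
      rw [hτ' (φ n'), MulEquiv.symm_apply_apply]
    have hcc := hchain B b b' c hα hβ hτ
    refine ⟨B, ⟨hB, hBD, hcc⟩, ?_⟩
    rintro B₂ ⟨hB₂, hBD₂, hcong₂⟩
    apply brauerCorr_inj hM P hP B₂ B hB₂ hB hBD₂ hBD
    intro x hx
    have h3 := MemLocalIdeal.sub hMp (hcong₂ x hx) (hcc x hx)
    have e3 : ∀ u v w : ℂ, u - w - (v - w) = u - v := fun u v w => by ring
    rw [e3] at h3
    exact h3

end Cfsg.Agent.S4670
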