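import Cfsg.Statements.S4672
import Cfsg.Agent.Helper25.FongDefect
open Cfsg.Agent.Helper25
open Cfsg.Agent

set_option autoImplicit false
open Cfsg

namespace Cfsg.Agent.S4672

/-- Fix a prime p and a maximal ideal M of the algebraic integers containing p. Let N be a normal subgroup of the finite group G of p-power index and c a p-block of N stable under conjugation by G. Then the idempotent of c is a block idempotent of G: there is a p-block B of G whose idempotent coefficients agree with those of c on N and vanish off N; and for every defect group P of such a block B, G = NP and P ∩ N is a defect group of c. -/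
theorem result {G : Type*} [Group G] [Fintype G] (p : ℕ) [Fact p.Prime] (M : Ideal Cfsg.AlgInt) (hM : Cfsg.IsPModular p M) (N : Subgroup G) [N.Normal] (hN : ∃ k : ℕ, N.index = p ^ k) (c : Set (Cfsg.IrrCharacter N)) (hc : Cfsg.IsPBlock M c) (hst : ∀ x : G, Cfsg.StabilizesBlock N c x) : (∃ B : Set (Cfsg.IrrCharacter G), Cfsg.IsPBlock M B ∧ ∀ g : G, Cfsg.blockCoeff B g = Cfsg.subgroupBlockCoeff N c g) ∧ ∀ B : Set (Cfsg.IrrCharacter G), Cfsg.IsPBlock M B → (∀ g : G, Cfsg.blockCoeff B g = Cfsg.subgroupBlockCoeff N c g) → ∀ P : Subgroup G, Cfsg.IsDefectGroup p M B P → N ⊔ P = ⊤ ∧ Cfsg.IsDefectGroup p M c ((P ⊓ N).subgroupOf N) := by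
  classical
  have hMp := hM.2.1.isPrime
  have : Fintype N := Fintype.ofFinite _
  have := Helper24.finite_irrCharacter (G := G)
  have : Fintype (IrrCharacter G) := Fintype.ofFinite _
  have := Helper24.finite_irrCharacter (G := N)
  have : Fintype (IrrCharacter N) := Fintype.ofFinite _
  have hinv : ∀ (g : G) (θ : IrrCharacter N), θ ∈ c → conjIrr N g θ ∈ c := by
    intro g θ hθ
    obtain ⟨χ', hχ', hconj⟩ := (hst g⁻¹).2 θ hθ
    have h1 : conjIrr N g θ = χ' := by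
      apply Subtype.ext
      funext n
      rw [conjIrr_coe, Helper6.conjFun_apply]
      refine (hconj ⟨g * n * g⁻¹, ‹N.Normal›.conj_mem n n.2 g⟩ n ?_).symm
      simp only
      group
    rw [h1]
    exact hχ'
  have hinv0 : ∀ g : G, ∀ θ ∈ c, ∀ θ' : IrrCharacter N,
      (∀ n : N, (θ' : N → ℂ) n = (θ : N → ℂ) ⟨g * n * g⁻¹, ‹N.Normal›.conj_mem n n.2 g⟩) →
      θ' ∈ c := by
    intro g θ hθ θ' h
    have h1 : θ' = conjIrr N g θ := by
      apply Subtype.ext
      funext n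
      rw [conjIrr_coe, Helper6.conjFun_apply]
      exact h n
    rw [h1]
    exact hinv g θ hθ
  have hreg : ∀ g : G, ¬ p ∣ orderOf g → g ∈ N := by
    intro g hg
    obtain ⟨k, hk⟩ := hN
    have h1 : orderOf (QuotientGroup.mk' N g) ∣ orderOf g := orderOf_map_dvd _ g
    have h2 : orderOf (QuotientGroup.mk' N g) ∣ p ^ k := by
      rw [← hk, Subgroup.index_eq_card]
      exact orderOf_dvd_natCard _
    obtain ⟨j, -, hj⟩ := (Nat.dvd_prime_pow Fact.out).1 h2
    have hj0 : j = 0 := by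
      by_contra hne
      exact hg (dvd_trans (by rw [hj]; exact dvd_pow_self p hne) h1)
    rw [hj0, pow_zero, orderOf_eq_one_iff] at hj
    exact (QuotientGroup.eq_one_iff g).1 hj
  have hsame : ∀ χ χ' : IrrCharacter G,
      (∃ θ ∈ c, classInner (fun n : N => (χ : G → ℂ) n) (θ : N → ℂ) ≠ 0) →
      (∃ θ ∈ c, classInner (fun n : N => (χ' : G → ℂ) n) (θ : N → ℂ) ≠ 0) →
      SameBlock M (χ : G → ℂ) (χ' : G → ℂ) := by
    rintro χ χ' ⟨θ, hθ, h1⟩ ⟨θ', hθ', h2⟩
    refine sameBlock_of_regular hM χ χ' fun g hg => ?_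
    have hgN := hreg g hg
    have e1 := (constituent_iff_centralChar N χ θ).1 h1 ⟨g, hgN⟩
    have e2 := (constituent_iff_centralChar N χ' θ').1 h2 ⟨g, hgN⟩
    simp only at e1 e2
    rw [e1, e2]
    have hs : SameBlock M (θ : N → ℂ) (θ' : N → ℂ) := by
      obtain ⟨θ₀, rfl⟩ := hc
      exact sameBlock_trans hMp (sameBlock_symm hθ) hθ'
    exact inducedCentralChar_sub_mem hMp N θ θ' hs g
  obtain ⟨θ₀, hθ₀⟩ := block_nonempty hMp hc
  obtain ⟨χ₀, hχ₀⟩ := exists_over N θ₀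
  have hB₀ : IsPBlock M (blockOf M (χ₀ : G → ℂ)) := ⟨χ₀, rfl⟩
  have hcov₀ : ∃ χ ∈ blockOf M (χ₀ : G → ℂ), ∃ θ ∈ c,
      classInner (fun n : N => (χ : G → ℂ) n) (θ : N → ℂ) ≠ 0 :=
    ⟨χ₀, mem_blockOf_self hMp.ne_top χ₀, θ₀, hθ₀, hχ₀⟩
  have hmem : ∀ χ : IrrCharacter G, χ ∈ blockOf M (χ₀ : G → ℂ) ↔
      ∃ θ ∈ c, classInner (fun n : N => (χ : G → ℂ) n) (θ : N → ℂ) ≠ 0 := by
    intro χ
    constructor
    · intro hχ
      exact fr_G_block_over N c hMp hc hB₀ hcov₀ χ hχ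
    · intro h
      exact hsame χ₀ χ ⟨θ₀, hθ₀, hχ₀⟩ h
  obtain ⟨Φc, hΦc⟩ : ∃ Φc : IrrCharacter N → ℂ, Φc = fun θ => if θ ∈ c then (1 : ℂ) else 0 :=
    ⟨_, rfl⟩
  have hΦinv : ∀ (g : G) (θ : IrrCharacter N), Φc (conjIrr N g θ) = Φc θ := by
    intro g θ
    rw [hΦc]
    simp only
    have h1 : conjIrr N g θ ∈ c ↔ θ ∈ c := by
      constructor
      · intro h
        have h2 := hinv g⁻¹ _ h
        rwa [conjIrr_mul, mul_inv_cancel, conjIrr_one] at h2
      · exact hinv g θ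
    simp only [h1]
  have hspec : ∀ χ : IrrCharacter G,
      ∑ h : G, extendByZero N (coeffT Φc) h * ((χ : G → ℂ) h / (χ : G → ℂ) 1)
        = if χ ∈ blockOf M (χ₀ : G → ℂ) then (1 : ℂ) else 0 := by
    intro χ
    obtain ⟨θ, hθ⟩ := exists_under N χ
    rw [spec_extend_over N Φc hΦinv χ θ hθ, hΦc]
    simp only
    by_cases hθc : θ ∈ c
    · rw [if_pos hθc, if_pos ((hmem χ).2 ⟨θ, hθc, hθ⟩)]
    · rw [if_neg hθc, if_neg]
      intro hχ
      obtain ⟨θ', hθ', hne'⟩ := (hmem χ).1 hχ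
      obtain ⟨g, θ₂, hθ₂, rfl⟩ := cover_conj hMp N hc (sameBlock_refl hMp.ne_top _) hθ' hne' hθ
      exact hθc (hinv g θ₂ hθ₂)
  have hcoef : ∀ g : G,
      blockCoeff (blockOf M (χ₀ : G → ℂ)) g = subgroupBlockCoeff N c g := by
    intro g
    rw [blockCoeff_eq_coeffT]
    have h1 := coeffT_forward (extendByZero N (coeffT Φc))
      (isClassFunction_extend_coeffT N Φc hΦinv) g
    rw [funext hspec] at h1
    rw [h1]
    unfold subgroupBlockCoeff
    by_cases hg : g ∈ N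
    · rw [Helper2.extendByZero_apply_mem N _ hg, dif_pos hg, blockCoeff_eq_coeffT, hΦc]
    · rw [Helper2.extendByZero_apply_not_mem N _ hg, dif_neg hg]
  refine ⟨⟨_, hB₀, hcoef⟩, ?_⟩
  intro B hB hBc P hP
  have hBeq : B = blockOf M (χ₀ : G → ℂ) := by
    ext χ
    have h1 := spec_ext (Φ := fun χ : IrrCharacter G => if χ ∈ B then (1 : ℂ) else 0)
      (Ψ := fun χ : IrrCharacter G => if χ ∈ blockOf M (χ₀ : G → ℂ) then (1 : ℂ) else 0)
      (fun g => by rw [← blockCoeff_eq_coeffT, ← blockCoeff_eq_coeffT, hBc g, hcoef g]) χ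
    by_cases hχ : χ ∈ B <;> by_cases hχ' : χ ∈ blockOf M (χ₀ : G → ℂ)
    · exact ⟨fun _ => hχ', fun _ => hχ⟩
    · rw [if_pos hχ, if_neg hχ'] at h1
      exact absurd h1 one_ne_zero
    · rw [if_neg hχ, if_pos hχ'] at h1
      exact absurd h1.symm one_ne_zero
    · exact ⟨fun h => absurd h hχ, fun h => absurd h hχ'⟩
  subst hBeq
  have hF := fong_max_defect hM N c hc hinv0 _ hB₀ hcov₀ (fun B' hB' hcov' => by
    obtain ⟨χ', hχ', θ', hθ', hne'⟩ := hcov'
    have h1 : B' = blockOf M (χ₀ : G → ℂ) := by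
      rw [block_eq_blockOf_of_mem hMp hB' hχ']
      exact (blockOf_eq_of_mem hMp ((hmem χ').2 ⟨θ', hθ', hne'⟩)).symm
    rw [h1]) P hP
  refine ⟨?_, hF.2.1⟩
  have h1 : (P ⊔ N).index ∣ N.index := Subgroup.index_dvd_of_le le_sup_right
  obtain ⟨k, hk⟩ := hN
  rw [hk] at h1
  obtain ⟨j, -, hj⟩ := (Nat.dvd_prime_pow Fact.out).1 h1
  have hj0 : j = 0 := by
    by_contra hne
    apply hF.1
    rw [hj]
    exact dvd_pow_self p hne
  rw [hj0, pow_zero] at hj
  rw [sup_comm]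
  exact Subgroup.index_eq_one.1 hj

end Cfsg.Agent.S4672
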