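import Cfsg.Statements.S4675
import Cfsg.Agent.Helper6.GcdBezout
import Cfsg.Agent.S0908
import Cfsg.Agent.S4666
import Cfsg.Agent.S4491
import Cfsg.Agent.S0925
import Cfsg.Agent.Helper25.InducedPart2
import Cfsg.Agent.Helper25.BlockDegSq
import Cfsg.Agent.Helper25.BlockRankZero
import Cfsg.Agent.Helper25.SectionSum
import Cfsg.Agent.Helper25.HeightZero2

set_option autoImplicit false
open Cfsg

namespace Cfsg.Agent.S4675

open Cfsg.Agent Cfsg.Agent.Helper6 in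
/-- Fix a prime p and a maximal ideal M of the algebraic integers containing p. Let B be a p-block of the finite group G with defect group P and p-regular rank one (a single irreducible Brauer character). Then there are a function φ on G that is, on the p-regular elements, an integer combination of the members of B, and natural numbers d_χ (χ ∈ B), such that every χ ∈ B agrees with d_χ·φ on the p-regular elements and Σ_{χ ∈ B} d_χ² equals the order of P (the single Cartan invariant of B is the order of P). -/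
theorem result {G : Type*} [Group G] [Fintype G] (p : ℕ) [Fact p.Prime] (M : Ideal Cfsg.AlgInt) (hM : Cfsg.IsPModular p M) (B : Set (Cfsg.IrrCharacter G)) (hB : Cfsg.IsPBlock M B) (P : Subgroup G) (hP : Cfsg.IsDefectGroup p M B P) (hl : Cfsg.blockRank p B = 1) : ∃ φ : G → ℂ, ∃ d : Cfsg.IrrCharacter G → ℕ, (∃ n : Cfsg.IrrCharacter G → ℤ, ∀ x : G, Cfsg.IsPRegular p x → φ x = ∑ᶠ ψ ∈ B, (n ψ : ℂ) * (ψ : G → ℂ) x) ∧ (∀ χ ∈ B, ∀ x : G, Cfsg.IsPRegular p x → (χ : G → ℂ) x = (d χ : ℂ) * φ x) ∧ ∑ᶠ χ ∈ B, d χ ^ 2 = Nat.card P := by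
  classical
  haveI : Finite (IrrCharacter G) := Helper24.finite_irrCharacter
  haveI : Fintype (IrrCharacter G) := Fintype.ofFinite _
  have hp : p.Prime := hM.1
  have hMp := hM.2.1.isPrime
  have hdeg : ∀ χ : IrrCharacter G, (χ : G → ℂ) 1 = (charDegree (χ : G → ℂ) : ℂ) :=
    fun χ => Helper24.charDegree_spec (Helper24.isCharacter_of_irr χ.2)
  have hdeg0 : ∀ χ : IrrCharacter G, charDegree (χ : G → ℂ) ≠ 0 :=
    Helper25.charDegree_irr_ne_zero
  obtain ⟨χ₁, hχ₁⟩ := Helper25.block_nonempty hMp hB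
  have h1reg : ¬ p ∣ orderOf (1 : G) := by
    rw [orderOf_one]
    exact fun h => hp.one_lt.ne' (Nat.dvd_one.1 h)
  have hprop : ∀ χ ∈ B, ∀ x : G, ¬ p ∣ orderOf x →
      (χ : G → ℂ) x * (charDegree (χ₁ : G → ℂ) : ℂ)
        = (charDegree (χ : G → ℂ) : ℂ) * (χ₁ : G → ℂ) x := by
    intro χ hχ x hx
    unfold blockRank at hl
    have hv1 : pRegularPart p (χ₁ : G → ℂ) ∈ Submodule.span ℂ
        ((fun χ : IrrCharacter G => pRegularPart p (χ : G → ℂ)) '' B) :=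
      Submodule.subset_span ⟨χ₁, hχ₁, rfl⟩
    have hv : pRegularPart p (χ : G → ℂ) ∈ Submodule.span ℂ
        ((fun χ : IrrCharacter G => pRegularPart p (χ : G → ℂ)) '' B) :=
      Submodule.subset_span ⟨χ, hχ, rfl⟩
    have hne : (⟨_, hv1⟩ : ↥(Submodule.span ℂ
        ((fun χ : IrrCharacter G => pRegularPart p (χ : G → ℂ)) '' B))) ≠ 0 := by
      intro h0
      have h2 : pRegularPart p (χ₁ : G → ℂ) 1 = 0 := congrFun (congrArg Subtype.val h0) 1
      rw [Helper25.pRegularPart_reg _ h1reg, hdeg] at h2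
      exact hdeg0 χ₁ (by exact_mod_cast h2)
    obtain ⟨c, hc⟩ := (finrank_eq_one_iff_of_nonzero' _ hne).1 hl ⟨_, hv⟩
    have hc' : c • pRegularPart p (χ₁ : G → ℂ) = pRegularPart p (χ : G → ℂ) :=
      congrArg Subtype.val hc
    have e1 := congrFun hc' 1
    have ex := congrFun hc' x
    rw [Pi.smul_apply, Helper25.pRegularPart_reg _ h1reg, Helper25.pRegularPart_reg _ h1reg,
      hdeg, hdeg, smul_eq_mul] at e1
    rw [Pi.smul_apply, Helper25.pRegularPart_reg _ hx, Helper25.pRegularPart_reg _ hx,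
      smul_eq_mul] at ex
    rw [← ex, ← e1]
    ring
  obtain ⟨Bs, hBs⟩ : ∃ Bs : Finset (IrrCharacter G), Bs = Finset.univ.filter (· ∈ B) :=
    ⟨_, rfl⟩
  have hmemBs : ∀ χ, χ ∈ Bs ↔ χ ∈ B := by
    intro χ
    rw [hBs]
    simp
  have hfin : ∀ f : IrrCharacter G → ℂ, ∑ᶠ χ ∈ B, f χ = ∑ χ ∈ Bs, f χ := by
    intro f
    rw [Helper25.finsum_mem_eq_sum_ite, hBs, Finset.sum_filter]
  have hfinN : ∀ f : IrrCharacter G → ℕ, ∑ᶠ χ ∈ B, f χ = ∑ χ ∈ Bs, f χ := by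
    intro f
    rw [Helper25.finsum_mem_eq_sum_ite_nat, hBs, Finset.sum_filter]
  obtain ⟨gg, hgg⟩ : ∃ gg : ℕ, gg = Bs.gcd (fun χ => charDegree (χ : G → ℂ)) := ⟨_, rfl⟩
  have hgdvd : ∀ χ ∈ B, gg ∣ charDegree (χ : G → ℂ) := by
    intro χ hχ
    rw [hgg]
    exact Finset.gcd_dvd ((hmemBs χ).2 hχ)
  have hg0 : gg ≠ 0 := by
    intro h0
    have := hgdvd χ₁ hχ₁
    rw [h0, zero_dvd_iff] at this
    exact hdeg0 χ₁ this
  obtain ⟨n, hn⟩ := finset_nat_gcd_bezout Bs (fun χ => charDegree (χ : G → ℂ))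
  rw [← hgg] at hn
  obtain ⟨dd, hdd⟩ : ∃ dd : IrrCharacter G → ℕ,
      dd = fun χ : IrrCharacter G => charDegree (χ : G → ℂ) / gg := ⟨_, rfl⟩
  have hddg : ∀ χ ∈ B, charDegree (χ : G → ℂ) = dd χ * gg := by
    intro χ hχ
    rw [hdd]
    exact (Nat.div_mul_cancel (hgdvd χ hχ)).symm
  have hddgC : ∀ χ ∈ B, (charDegree (χ : G → ℂ) : ℂ) = (dd χ : ℂ) * (gg : ℂ) := by
    intro χ hχ
    have := congrArg (Nat.cast : ℕ → ℂ) (hddg χ hχ)
    rw [this]
    push_cast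
    ring
  have hgC : (gg : ℂ) ≠ 0 := Nat.cast_ne_zero.2 hg0
  have hd1C : (charDegree (χ₁ : G → ℂ) : ℂ) ≠ 0 := Nat.cast_ne_zero.2 (hdeg0 χ₁)
  obtain ⟨φ, hφ⟩ : ∃ φ : G → ℂ,
      φ = fun x => (gg : ℂ) * (χ₁ : G → ℂ) x / (charDegree (χ₁ : G → ℂ) : ℂ) := ⟨_, rfl⟩
  have hχφ : ∀ χ ∈ B, ∀ x : G, ¬ p ∣ orderOf x → (χ : G → ℂ) x = (dd χ : ℂ) * φ x := by
    intro χ hχ x hx
    have h1 := hprop χ hχ x hx
    have h2 := hddgC χ hχ
    rw [hφ]
    beta_reduce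
    rw [eq_comm, ← mul_div_assoc, div_eq_iff hd1C, h1, h2]
    ring
  have hnC : ∑ χ ∈ Bs, (n χ : ℂ) * (charDegree (χ : G → ℂ) : ℂ) = (gg : ℂ) := by
    have := congrArg (Int.cast : ℤ → ℂ) hn
    push_cast at this
    exact this
  have hφn : ∀ x : G, IsPRegular p x → φ x = ∑ᶠ ψ ∈ B, (n ψ : ℂ) * (ψ : G → ℂ) x := by
    intro x hx
    rw [hfin, hφ]
    beta_reduce
    rw [← hnC, Finset.sum_mul, Finset.sum_div]
    refine Finset.sum_congr rfl fun ψ hψ => ?_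
    have h1 := hprop ψ ((hmemBs ψ).1 hψ) x hx
    rw [div_eq_iff hd1C, mul_assoc, mul_assoc, h1]
  refine ⟨φ, dd, ⟨n, hφn⟩, hχφ, ?_⟩
  obtain ⟨c, hc⟩ : ∃ c : ℕ, c = ∑ χ ∈ Bs, dd χ ^ 2 := ⟨_, rfl⟩
  rw [hfinN, ← hc, Cfsg.Agent.S0908.result p M hM B hB P hP]
  obtain ⟨d, hd⟩ : ∃ d, d = blockDefect p B := ⟨_, rfl⟩
  rw [← hd]
  obtain ⟨θ, hθ⟩ : ∃ θ : G → ℂ, θ = fun x => ∑ᶠ ψ ∈ B, (n ψ : ℂ) * (ψ : G → ℂ) x :=
    ⟨_, rfl⟩
  obtain ⟨m, hm⟩ := Cfsg.Agent.S4666.result p M hM B hB θ ⟨n, fun g => by rw [hθ]⟩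
  rw [← hd] at hm
  have hΦ : ∀ x : G, ∑ χ ∈ Bs, (dd χ : ℂ) * (χ : G → ℂ) x
      = (c : ℂ) * pRegularPart p θ x := by
    intro x
    by_cases hx : p ∣ orderOf x
    · rw [Helper25.pRegularPart_sing _ hx, mul_zero]
      obtain ⟨u, hu⟩ := Helper25.exists_isPPart p x
      have h1 : IsPPart p (1 : G) 1 :=
        ⟨1, one_mul 1, Commute.one_left 1, ⟨0, by rw [orderOf_one, pow_zero]⟩, h1reg⟩
      have hnc : ¬ IsConj u 1 := by
        intro hcj
        have hu1 : u = 1 := isConj_one_left.1 hcj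
        obtain ⟨y, hy1, _, _, hy2⟩ := hu
        rw [hu1, one_mul] at hy1
        rw [hy1] at hy2
        exact hy2 hx
      have h2 := (Cfsg.Agent.S0925.result p M hM).2 x 1 u 1 hu h1 hnc B hB
      rw [hfin] at h2
      have h3 : (gg : ℂ) * ∑ χ ∈ Bs, (dd χ : ℂ) * (χ : G → ℂ) x = 0 := by
        rw [← h2, Finset.mul_sum]
        refine Finset.sum_congr rfl fun χ hχ => ?_
        rw [inv_one, hdeg, hddgC χ ((hmemBs χ).1 hχ)]
        ring
      rcases mul_eq_zero.1 h3 with h | h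
      · exact absurd h hgC
      · exact h
    · rw [Helper25.pRegularPart_reg _ hx, hθ]
      beta_reduce
      rw [← hφn x hx, hc]
      push_cast
      rw [Finset.sum_mul]
      refine Finset.sum_congr rfl fun χ hχ => ?_
      rw [hχφ χ ((hmemBs χ).1 hχ) x hx]
      ring
  have hli := Helper24.irr_linearIndependent (G := G)
  have hcoef : ∀ χ ∈ B, ((p : ℂ) ^ d) * (dd χ : ℂ) = (c : ℂ) * (m χ : ℂ) := by
    have hzero : ∑ χ : IrrCharacter G,
        (if χ ∈ B then ((p : ℂ) ^ d) * (dd χ : ℂ) - (c : ℂ) * (m χ : ℂ) else 0)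
          • (χ : G → ℂ) = 0 := by
      funext x
      rw [Finset.sum_apply, Pi.zero_apply]
      have h1 := hm x
      rw [hfin] at h1
      have h2 := hΦ x
      have h3 : ∑ χ : IrrCharacter G,
          ((if χ ∈ B then ((p : ℂ) ^ d) * (dd χ : ℂ) - (c : ℂ) * (m χ : ℂ) else 0)
            • (χ : G → ℂ)) x
          = ((p : ℂ) ^ d) * ∑ χ ∈ Bs, (dd χ : ℂ) * (χ : G → ℂ) x
            - (c : ℂ) * ∑ χ ∈ Bs, (m χ : ℂ) * (χ : G → ℂ) x := by
        rw [Finset.mul_sum, Finset.mul_sum, ← Finset.sum_sub_distrib, hBs, Finset.sum_filter]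
        refine Finset.sum_congr rfl fun χ _ => ?_
        by_cases hχ : χ ∈ B
        · rw [if_pos hχ, if_pos hχ, Pi.smul_apply, smul_eq_mul]
          ring
        · rw [if_neg hχ, if_neg hχ, Pi.smul_apply, zero_smul]
      rw [h3, h2, ← h1]
      ring
    have h4 := (Fintype.linearIndependent_iff.1 hli) _ hzero
    intro χ hχ
    have h5 := h4 χ
    rw [if_pos hχ] at h5
    exact sub_eq_zero.1 h5
  have hcdvd : c ∣ p ^ d := by
    have h2 : ((p : ℂ) ^ d) = (c : ℂ) * ∑ χ ∈ Bs, (n χ : ℂ) * (m χ : ℂ) := by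
      have h3 : (gg : ℂ) * ((p : ℂ) ^ d)
          = (gg : ℂ) * ((c : ℂ) * ∑ χ ∈ Bs, (n χ : ℂ) * (m χ : ℂ)) := by
        calc (gg : ℂ) * ((p : ℂ) ^ d)
            = (∑ χ ∈ Bs, (n χ : ℂ) * (charDegree (χ : G → ℂ) : ℂ)) * ((p : ℂ) ^ d) := by
              rw [hnC]
          _ = ∑ χ ∈ Bs, (gg : ℂ) * ((c : ℂ) * ((n χ : ℂ) * (m χ : ℂ))) := by
              rw [Finset.sum_mul]
              refine Finset.sum_congr rfl fun χ hχ => ?_
              have hχB := (hmemBs χ).1 hχ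
              rw [hddgC χ hχB]
              have e2 := hcoef χ hχB
              linear_combination ((n χ : ℂ) * (gg : ℂ)) * e2
          _ = _ := by
              rw [← Finset.mul_sum, ← Finset.mul_sum]
      exact mul_left_cancel₀ hgC h3
    have h1 : ((p ^ d : ℕ) : ℤ) = (c : ℤ) * ∑ χ ∈ Bs, n χ * m χ := by
      have h4 : (((p ^ d : ℕ) : ℤ) : ℂ) = (((c : ℤ) * ∑ χ ∈ Bs, n χ * m χ : ℤ) : ℂ) := by
        push_cast
        exact h2
      exact_mod_cast h4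
    exact Int.natCast_dvd_natCast.1 ⟨_, h1⟩
  have hc0 : c ≠ 0 := by
    intro h0
    rw [h0, zero_dvd_iff] at hcdvd
    exact pow_ne_zero d hp.ne_zero hcdvd
  have hsq : ∑ χ ∈ Bs, charDegree (χ : G → ℂ) ^ 2 = gg ^ 2 * c := by
    rw [hc, Finset.mul_sum]
    refine Finset.sum_congr rfl fun χ hχ => ?_
    rw [hddg χ ((hmemBs χ).1 hχ)]
    ring
  have h4491 := Cfsg.Agent.S4491.result p M hM B hB
  rw [hfinN, hsq, Nat.factorization_mul (pow_ne_zero 2 hg0) hc0, Nat.factorization_pow] at h4491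
  simp only [Finsupp.coe_add, Finsupp.coe_smul, Pi.add_apply, Pi.smul_apply, smul_eq_mul]
    at h4491
  obtain ⟨mm, hmm⟩ : ∃ mm, mm = sInf ((fun χ : IrrCharacter G =>
      (charDegree (χ : G → ℂ)).factorization p) '' B) := ⟨_, rfl⟩
  have hne : ((fun χ : IrrCharacter G =>
      (charDegree (χ : G → ℂ)).factorization p) '' B).Nonempty := ⟨_, χ₁, hχ₁, rfl⟩
  obtain ⟨χ₀, hχ₀, hχ₀m⟩ := Nat.sInf_mem hne
  rw [← hmm] at hχ₀m
  have hνg : gg.factorization p ≤ mm := by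
    rw [← hχ₀m]
    exact (Nat.factorization_le_iff_dvd hg0 (hdeg0 χ₀)).2 (hgdvd χ₀ hχ₀) p
  have hdm : d = (Nat.card G).factorization p - mm := by
    rw [hd, hmm]
    rfl
  obtain ⟨j, hj, hcj⟩ := (Nat.dvd_prime_pow hp).1 hcdvd
  have hνc : c.factorization p = j := by
    rw [hcj, hp.factorization_pow]
    simp
  rw [← hd] at h4491
  have hjd : j = d := by omega
  rw [hcj, hjd]

end Cfsg.Agent.S4675
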