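import Cfsg.Statements.S4681
import Cfsg.Agent.Helper25.BrauerPrincipal
import Cfsg.Agent.S4663
open Cfsg.Agent.Helper25

set_option autoImplicit false
open Cfsg

namespace Cfsg.Agent.S4681

/-- Fix a prime p and a maximal ideal M of the algebraic integers containing p. Let B₀ be the principal p-block of the finite group G, P a Sylow p-subgroup and e₀ the principal p-block of C_G(P). Then (P, e₀) is a maximal Brauer pair of B₀, and the fusion system of B₀ on (P, e₀) is the fusion system of G on P: its maps from each subgroup of P are exactly the conjugation maps into P by elements of G. -/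
theorem result {G : Type*} [Group G] [Fintype G] (p : ℕ) [Fact p.Prime] (M : Ideal Cfsg.AlgInt) (hM : Cfsg.IsPModular p M) (S : Sylow p G) : Cfsg.IsMaximalBrauerPair p M (Cfsg.principalBlock M G) (S : Subgroup G) (Cfsg.principalBlock M (Subgroup.centralizer ((S : Subgroup G) : Set G))) ∧ ∀ F : Cfsg.FusionSystem (S : Subgroup G), Cfsg.IsBlockFusionSystemOn p M (Cfsg.principalBlock M G) (S : Subgroup G) (Cfsg.principalBlock M (Subgroup.centralizer ((S : Subgroup G) : Set G))) F → ∀ Q : Subgroup G, F.Hom Q = (Cfsg.groupFusionSystem (S : Subgroup G)).Hom Q := by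
  classical
  have hSp : IsPGroup p (S : Subgroup G) := S.isPGroup'
  have hmax : IsMaximalBrauerPair p M (principalBlock M G) (S : Subgroup G)
      (principalBlock M (Subgroup.centralizer ((S : Subgroup G) : Set G))) := by
    refine ⟨(Cfsg.Agent.S4663.result p M hM (S : Subgroup G) hSp _ ⟨oneIrr _, rfl⟩).mpr rfl, ?_⟩
    intro R g hR hle
    exact S.is_maximal' hR.1.1 (subpairLE_le_princ hle)
  refine ⟨hmax, ?_⟩
  intro F hF Q
  ext φ
  rw [hF.2 Q φ]
  constructor
  · rintro ⟨hQS, g, hg, hmap, _⟩
    refine ⟨hQS, fun x => ?_, g, hg⟩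
    apply hmap
    refine Subgroup.mem_map.mpr ⟨(x : G), x.2, ?_⟩
    rw [hg x]
    rfl
  · rintro ⟨hQS, hφS, g, hg⟩
    have hmap : Q.map (MulAut.conj g).toMonoidHom ≤ (S : Subgroup G) := by
      intro y hy
      obtain ⟨q, hq, rfl⟩ := Subgroup.mem_map.mp hy
      have h1 := hφS ⟨q, hq⟩
      rw [hg ⟨q, hq⟩] at h1
      exact h1
    refine ⟨hQS, g, hg, hmap,
      principalBlock M (Subgroup.centralizer (Q : Set G)), ?_, ?_⟩
    · exact subpairLE_principal hM (S : Subgroup G) hSp Q hQS
    · rw [conjBlock_principal]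
      exact subpairLE_principal hM (S : Subgroup G) hSp _ hmap

end Cfsg.Agent.S4681
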