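import Cfsg.Statements.S4682
import Cfsg.Agent.Helper25.AbelFus
open Cfsg.Agent.Helper25
open Cfsg.Agent

set_option autoImplicit false
open Cfsg

namespace Cfsg.Agent.S4682

/-- Fix a prime p and a maximal ideal M of the algebraic integers containing p, a p-block B of the finite group G with maximal Brauer pair (P, e), P abelian, and a Brauer pair (Q, f) ≤ (P, e). Let T_Q be the stabilizer of f in N_G(Q) and T_P the stabilizer of e in N_G(P). Then every element of T_Q is a product of an element of T_P and an element of C_G(Q); and the index of C_G(Q) in T_Q equals the index of T_P ∩ C_G(Q) in T_P ∩ N_G(Q). -/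
theorem result {G : Type*} [Group G] [Fintype G] (p : ℕ) [Fact p.Prime] (M : Ideal Cfsg.AlgInt) (hM : Cfsg.IsPModular p M) (B : Set (Cfsg.IrrCharacter G)) (P : Subgroup G) (e : Set (Cfsg.IrrCharacter (Subgroup.centralizer (P : Set G)))) (hmax : Cfsg.IsMaximalBrauerPair p M B P e) (hab : ∀ x ∈ P, ∀ y ∈ P, x * y = y * x) (Q : Subgroup G) (f : Set (Cfsg.IrrCharacter (Subgroup.centralizer (Q : Set G)))) (hQP : Q ≤ P) (hf : Cfsg.IsPBlock M f) (hle : Cfsg.SubpairLE p M Q f P e) (TQ : Subgroup G) (hTQ : ∀ y : G, y ∈ TQ ↔ y ∈ Subgroup.normalizer (Q : Set G) ∧ Cfsg.StabilizesBlock (Subgroup.centralizer (Q : Set G)) f y) (TP : Subgroup G) (hTP : ∀ y : G, y ∈ TP ↔ y ∈ Subgroup.normalizer (P : Set G) ∧ Cfsg.StabilizesBlock (Subgroup.centralizer (P : Set G)) e y) : (∀ x ∈ TQ, ∃ y ∈ TP, ∃ c ∈ Subgroup.centralizer (Q : Set G), x = y * c) ∧ ((Subgroup.centralizer (Q : Set G)).subgroupOf TQ).index = ((TP ⊓ Subgroup.centralizer (Q : Set G)).subgroupOf (TP ⊓ Subgroup.normalizer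 (Q : Set G))).index := by
  classical
  have hMp := hM.2.1.isPrime
  have hPe : IsBrauerPair p M P e := hmax.1.1
  have he : IsPBlock M e := hPe.2
  have hpart1 : ∀ x ∈ TQ, ∃ y ∈ TP, ∃ c ∈ Subgroup.centralizer (Q : Set G), x = y * c := by
    intro x hx
    obtain ⟨hxN, hxs⟩ := (hTQ x).1 hx
    obtain ⟨y, hyN, hys, c, hc, hxy⟩ :=
      abelian_fusion_control hM B P e hmax hab Q f hQP hf hle x hxN hxs
    exact ⟨y, (hTP y).2 ⟨hyN, hys⟩, c, hc, hxy⟩
  refine ⟨hpart1, ?_⟩
  have hHT : Subgroup.centralizer (Q : Set G) ≤ TQ := cent_le_stab Q f TQ hTQ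
  have hTN : TQ ≤ Subgroup.normalizer (Q : Set G) := fun y hy => ((hTQ y).1 hy).1
  have hAT : TP ⊓ Subgroup.normalizer (Q : Set G) ≤ TQ := by
    rintro y ⟨hyT, hyN⟩
    obtain ⟨hyNP, hys⟩ := (hTP y).1 hyT
    have hys' := stabilizes_inv hMp _ e he y hys
    have hpc := pair_conj_eq_of_stab P e y hyNP hys hys'
    have h1 := subpairLE_conj hMp y hle
    have h1' : Relation.ReflTransGen (NormalSubpairRel p M)
        (⟨Q.map (MulAut.conj y).toMonoidHom, conjBlock Q y f⟩ : BrauerPairIdx G)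
        ⟨P.map (MulAut.conj y).toMonoidHom, conjBlock P y e⟩ := h1
    rw [hpc] at h1'
    have h2 := subpair_unique' hM P e hPe _ _ h1' hle (map_conj_eq_of_mem_normalizer' Q hyN)
    exact (hTQ y).2 (stab_of_pair_conj_eq Q f y h2)
  have hnorm : ((Subgroup.centralizer (Q : Set G)).subgroupOf TQ).Normal :=
    (Subgroup.normal_subgroupOf_iff_le_normalizer hHT).2
      (hTN.trans (normalizer_le_normalizer_centralizer' Q))
  have hsup : (TP ⊓ Subgroup.normalizer (Q : Set G)).subgroupOf TQ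
      ⊔ (Subgroup.centralizer (Q : Set G)).subgroupOf TQ = ⊤ := by
    rw [eq_top_iff]
    intro t _
    obtain ⟨y, hy, c, hc, hxy⟩ := hpart1 t t.2
    have hyT : y ∈ TQ := by
      have e1 : y = t * c⁻¹ := by
        rw [hxy]
        group
      rw [e1]
      exact TQ.mul_mem t.2 (TQ.inv_mem (hHT hc))
    have ht : t = ⟨y, hyT⟩ * ⟨c, hHT hc⟩ := Subtype.ext hxy
    rw [ht]
    exact Subgroup.mul_mem_sup (Subgroup.mem_subgroupOf.2 ⟨hy, hTN hyT⟩)
      (Subgroup.mem_subgroupOf.2 hc)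
  have h3 := Subgroup.relIndex_sup_right
    ((TP ⊓ Subgroup.normalizer (Q : Set G)).subgroupOf TQ)
    ((Subgroup.centralizer (Q : Set G)).subgroupOf TQ)
  rw [hsup, Subgroup.relIndex_top_right, Subgroup.relIndex_subgroupOf hAT] at h3
  rw [h3]
  have h4 : TP ⊓ Subgroup.centralizer (Q : Set G)
      = Subgroup.centralizer (Q : Set G) ⊓ (TP ⊓ Subgroup.normalizer (Q : Set G)) := by
    ext u
    simp only [Subgroup.mem_inf]
    constructor
    · rintro ⟨h1, h2⟩
      exact ⟨h2, h1, Subgroup.centralizer_le_normalizer _ h2⟩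
    · rintro ⟨h1, h2, -⟩
      exact ⟨h2, h1⟩
  show _ = (TP ⊓ Subgroup.centralizer (Q : Set G)).relIndex
    (TP ⊓ Subgroup.normalizer (Q : Set G))
  rw [h4, Subgroup.inf_relIndex_right]

end Cfsg.Agent.S4682
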