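import Cfsg.Statements.S4687
import Cfsg.Agent.Helper25.AbelFus
open Cfsg.Agent.Helper25
open Cfsg.Agent

set_option autoImplicit false
open Cfsg

namespace Cfsg.Agent.S4687

/-- Fix a prime p and a maximal ideal M of the algebraic integers containing p, and a p-block B of the finite group G with maximal Brauer pair (P, e), P abelian. Then B is nilpotent if and only if its inertial quotient is trivial: every element of N_G(P) stabilizing e centralizes P. -/
theorem result {G : Type*} [Group G] [Fintype G] (p : ℕ) [Fact p.Prime] (M : Ideal Cfsg.AlgInt) (hM : Cfsg.IsPModular p M) (B : Set (Cfsg.IrrCharacter G)) (P : Subgroup G) (e : Set (Cfsg.IrrCharacter (Subgroup.centralizer (P : Set G)))) (hmax : Cfsg.IsMaximalBrauerPair p M B P e) (hab : ∀ x ∈ P, ∀ y ∈ P, x * y = y * x) : Cfsg.IsNilpotentBlock p M B ↔ ∀ x : G, x ∈ Subgroup.normalizer (P : Set G) → Cfsg.StabilizesBlock (Subgroup.centralizer (P : Set G)) e x → x ∈ Subgroup.centralizer (P : Set G) := by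
  classical
  have hMp := hM.2.1.isPrime
  have hBe := hmax.1
  have he : IsPBlock M e := hBe.1.2
  constructor
  · intro hnil x hxN hxs
    obtain ⟨T, hT⟩ := exists_stabSubgroup hMp P e he
    have hndvd := abelian_inertial_index hM B P e hmax hab T hT
    have hxT : x ∈ T := (hT x).2 ⟨hxN, hxs⟩
    have hHT : Subgroup.centralizer (P : Set G) ≤ T := cent_le_stab P e T hT
    have hTN : T ≤ Subgroup.normalizer (P : Set G) := fun y hy => ((hT y).1 hy).1
    have hnorm : ((Subgroup.centralizer (P : Set G)).subgroupOf T).Normal :=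
      (Subgroup.normal_subgroupOf_iff_le_normalizer hHT).2
        (hTN.trans (normalizer_le_normalizer_centralizer' P))
    have ho : orderOf x ≠ 0 := (orderOf_pos x).ne'
    have hu : x ^ (p ^ (orderOf x).factorization p) ∈ Subgroup.centralizer (P : Set G) := by
      have huT : x ^ (p ^ (orderOf x).factorization p) ∈ T := T.pow_mem hxT _
      obtain ⟨huN, hus⟩ := (hT _).1 huT
      refine hnil.2 P e hBe _ huN hus ?_
      show ¬ p ∣ orderOf (x ^ (p ^ (orderOf x).factorization p))
      rw [orderOf_pow x, Nat.gcd_eq_right (Nat.ordProj_dvd _ _)]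
      exact Nat.not_dvd_ordCompl Fact.out ho
    have hk : x ^ (Subgroup.centralizer (P : Set G)).relIndex T
        ∈ Subgroup.centralizer (P : Set G) :=
      Subgroup.pow_index_mem ((Subgroup.centralizer (P : Set G)).subgroupOf T) (⟨x, hxT⟩ : T)
    have hcop : Nat.Coprime (p ^ (orderOf x).factorization p)
        ((Subgroup.centralizer (P : Set G)).relIndex T) :=
      Nat.Coprime.pow_left _ ((Nat.Prime.coprime_iff_not_dvd Fact.out).2 hndvd)
    obtain ⟨s, t, hst⟩ := Nat.isCoprime_iff_coprime.2 hcop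
    have hx1 : x = (x ^ (p ^ (orderOf x).factorization p)) ^ s
        * (x ^ (Subgroup.centralizer (P : Set G)).relIndex T) ^ t := by
      rw [← zpow_natCast x (p ^ (orderOf x).factorization p),
        ← zpow_natCast x ((Subgroup.centralizer (P : Set G)).relIndex T), ← zpow_mul', ← zpow_mul',
        ← zpow_add, hst, zpow_one]
    rw [hx1]
    exact Subgroup.mul_mem _ (Subgroup.zpow_mem _ hu s) (Subgroup.zpow_mem _ hk t)
  · intro hcond
    refine ⟨hBe.2.1, fun Q₀ f₀ hQf x₀ hx₀N hx₀s _ => ?_⟩
    obtain ⟨z, hz⟩ := conj_below_maximal hM B P Q₀ e f₀ hmax hQf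
    have hQP := subpairLE_le hz
    have hf := isPBlock_conjBlock hMp Q₀ z hQf.1.2
    have hxN := (mem_normalizer_map_conj_iff Q₀ z x₀).2 hx₀N
    have hxs := (stabilizes_conj_iff Q₀ z f₀ x₀).2 hx₀s
    obtain ⟨y, hyN, hys, c, hc, hxy⟩ :=
      abelian_fusion_control hM B P e hmax hab _ _ hQP hf hz _ hxN hxs
    have hyC := hcond y hyN hys
    have hyC' : y ∈ Subgroup.centralizer
        ((Q₀.map (MulAut.conj z).toMonoidHom : Subgroup G) : Set G) :=
      Subgroup.centralizer_le (SetLike.coe_subset_coe.2 hQP) hyC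
    have hxC : z * x₀ * z⁻¹ ∈ Subgroup.centralizer
        ((Q₀.map (MulAut.conj z).toMonoidHom : Subgroup G) : Set G) := by
      rw [hxy]
      exact Subgroup.mul_mem _ hyC' hc
    have h1 := (mem_centralizer_map_conj_iff Q₀ z _).1 hxC
    have e1 : z⁻¹ * (z * x₀ * z⁻¹) * z = x₀ := by group
    rwa [e1] at h1

end Cfsg.Agent.S4687
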