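import Cfsg.Statements.S4691
import Cfsg.Agent.Helper25.BlockAut
import Cfsg.Agent.Lead.Frobenius
import Cfsg.Agent.S4663
open Cfsg.Agent.Helper25

set_option autoImplicit false
open Cfsg

namespace Cfsg.Agent.S4691

/-- Fix a prime p and a maximal ideal M of the algebraic integers containing p. A finite group G has a normal p-complement if and only if its principal p-block is nilpotent. -/
theorem result {G : Type*} [Group G] [Fintype G] (p : ℕ) [Fact p.Prime] (M : Ideal Cfsg.AlgInt) (hM : Cfsg.IsPModular p M) : Cfsg.HasNormalPComplement p G ↔ Cfsg.IsNilpotentBlock p M (Cfsg.principalBlock M G) := by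
  classical
  have hp : p.Prime := Fact.out
  rw [← Cfsg.Agent.Lead.frobHyp_iff]
  constructor
  · intro hF
    refine ⟨⟨oneIrr G, rfl⟩, ?_⟩
    intro Q e hbp x hx _ hreg
    exact hF Q hbp.1.1 x hx ((Nat.Prime.coprime_iff_not_dvd hp).mpr hreg).symm
  · intro hnil X hX g hg hcop
    have hbp : IsBrauerPairOf p M (principalBlock M G) X
        (principalBlock M (Subgroup.centralizer (X : Set G))) :=
      (Cfsg.Agent.S4663.result p M hM X hX _ ⟨oneIrr _, rfl⟩).2 rfl
    exact hnil.2 X _ hbp g hg (stabilizesBlock_principal X g hg)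
      ((Nat.Prime.coprime_iff_not_dvd hp).mp hcop.symm)

end Cfsg.Agent.S4691
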