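import Cfsg.Statements.S4708
import Cfsg.Agent.Helper6.PrincipalSq

set_option autoImplicit false
open Cfsg

namespace Cfsg.Agent.S4708

open Cfsg.Agent Cfsg.Agent.Helper6 in
/-- Let p be a prime, M a maximal ideal of the algebraic integers containing p, G a finite group and H a normal subgroup. Write λ(X) for the sum of the squares of the degrees of the irreducible characters in the principal p-block of a group X. Then λ(H) ≤ λ(G) ≤ [G : H]·λ(H). -/
theorem result {G : Type*} [Group G] [Finite G] (p : ℕ) [Fact p.Prime] (M : Ideal Cfsg.AlgInt) (hM : Cfsg.IsPModular p M) (H : Subgroup G) [H.Normal] : (∑ᶠ θ ∈ Cfsg.principalBlock M H, Cfsg.charDegree (θ : H → ℂ) ^ 2) ≤ (∑ᶠ χ ∈ Cfsg.principalBlock M G, Cfsg.charDegree (χ : G → ℂ) ^ 2) ∧ (∑ᶠ χ ∈ Cfsg.principalBlock M G, Cfsg.charDegree (χ : G → ℂ) ^ 2) ≤ H.index * ∑ᶠ θ ∈ Cfsg.principalBlock M H, Cfsg.charDegree (θ : H → ℂ) ^ 2 := by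
  classical
  have : Fintype G := Fintype.ofFinite G
  have : Fintype H := Fintype.ofFinite H
  have := Helper24.finite_irrCharacter (G := G)
  have : Fintype (Cfsg.IrrCharacter G) := Fintype.ofFinite _
  have := Helper24.finite_irrCharacter (G := H)
  have : Fintype (Cfsg.IrrCharacter H) := Fintype.ofFinite _
  rw [Helper25.finsum_mem_eq_sum_ite_nat, Helper25.finsum_mem_eq_sum_ite_nat]
  exact psq_main hM H

end Cfsg.Agent.S4708
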