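import Cfsg.Statements.S4710
import Cfsg.Agent.Helper6.BrauerFeit2

set_option autoImplicit false
open Cfsg

namespace Cfsg.Agent.S4710

open Cfsg.Agent Cfsg.Agent.Helper6 in
/-- Let p be a prime, M a maximal ideal of the algebraic integers containing p, and B a p-block of defect d of the finite group G containing k irreducible characters. If B contains a character of positive height then 2k ≤ p^(2d − 2); and every character in B has height 0 when d ≤ 1 and height at most d − 2 when d ≥ 2. -/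
theorem result {G : Type*} [Group G] [Finite G] (p : ℕ) [Fact p.Prime] (M : Ideal Cfsg.AlgInt) (hM : Cfsg.IsPModular p M) (B : Set (Cfsg.IrrCharacter G)) (hB : Cfsg.IsPBlock M B) (d : ℕ) (hd : Cfsg.blockDefect p B = d) : ((∃ χ ∈ B, 0 < Cfsg.blockHeight p B (χ : G → ℂ)) → 2 * Nat.card B ≤ p ^ (2 * d - 2)) ∧ ∀ χ ∈ B, (d ≤ 1 → Cfsg.blockHeight p B (χ : G → ℂ) = 0) ∧ (2 ≤ d → Cfsg.blockHeight p B (χ : G → ℂ) ≤ d - 2) := by
  classical
  haveI : Fintype G := Fintype.ofFinite G
  have := Helper24.finite_irrCharacter (G := G)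
  haveI : Fintype (IrrCharacter G) := Fintype.ofFinite _
  have hp : p.Prime := Fact.out
  have hM' := hM.2.1.isPrime
  have hw := Helper6.bf2_weighted hM B hB
  rw [hd] at hw
  obtain ⟨χ₀, hχ₀, h0, hda, hval⟩ := Helper6.bf2_setup hM B hB
  rw [hd] at hda
  obtain ⟨F, hF⟩ : ∃ F : Finset (IrrCharacter G), F = Finset.univ.filter (· ∈ B) := ⟨_, rfl⟩
  rw [← hF] at hw
  have hχ₀F : χ₀ ∈ F := by
    rw [hF]
    exact Finset.mem_filter.2 ⟨Finset.mem_univ _, hχ₀⟩
  have hpos_bound : ∀ ψ : IrrCharacter G, ψ ∈ B → 0 < blockHeight p B (ψ : G → ℂ) →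
      4 * p ^ (2 * blockHeight p B (ψ : G → ℂ)) ≤ p ^ (2 * d) := by
    intro ψ hψ hpos
    have hψF : ψ ∈ F := by
      rw [hF]
      exact Finset.mem_filter.2 ⟨Finset.mem_univ _, hψ⟩
    have hne : ψ ≠ χ₀ := by
      rintro rfl
      omega
    have h1 : p ^ (2 * blockHeight p B (χ₀ : G → ℂ)) + p ^ (2 * blockHeight p B (ψ : G → ℂ))
        ≤ ∑ ξ ∈ F, p ^ (2 * blockHeight p B (ξ : G → ℂ)) := by
      rw [← Finset.add_sum_erase F _ hχ₀F]
      apply Nat.add_le_add_left
      exact Finset.single_le_sum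
        (f := fun ξ : IrrCharacter G => p ^ (2 * blockHeight p B (ξ : G → ℂ)))
        (fun _ _ => Nat.zero_le _) (Finset.mem_erase.2 ⟨hne, hψF⟩)
    rw [h0, mul_zero, pow_zero] at h1
    omega
  constructor
  · rintro ⟨ψ, hψ, hpos⟩
    obtain ⟨hd1, hk0⟩ := Helper6.bf2_k0 hM B hB ψ hψ hpos
    rw [hd] at hd1 hk0
    obtain ⟨F₀, hF₀⟩ : ∃ F₀ : Finset (IrrCharacter G), F₀ = Finset.univ.filter
        (fun ξ : IrrCharacter G => ξ ∈ B ∧ blockHeight p B (ξ : G → ℂ) = 0) := ⟨_, rfl⟩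
    rw [← hF₀] at hk0
    obtain ⟨F₁, hF₁⟩ : ∃ F₁ : Finset (IrrCharacter G), F₁ = Finset.univ.filter
        (fun ξ : IrrCharacter G => ξ ∈ B ∧ 0 < blockHeight p B (ξ : G → ℂ)) := ⟨_, rfl⟩
    have hcardF : Nat.card B = F.card := by
      rw [hF, Nat.card_eq_fintype_card, Fintype.card_subtype]
    have hunion : F = F₀ ∪ F₁ := by
      rw [hF, hF₀, hF₁]
      ext ξ
      simp only [Finset.mem_filter, Finset.mem_univ, true_and, Finset.mem_union]
      constructor
      · intro h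
        rcases Nat.eq_zero_or_pos (blockHeight p B (ξ : G → ℂ)) with h' | h'
        · exact Or.inl ⟨h, h'⟩
        · exact Or.inr ⟨h, h'⟩
      · rintro (h | h)
        · exact h.1
        · exact h.1
    have hdisj : Disjoint F₀ F₁ := by
      rw [hF₀, hF₁, Finset.disjoint_filter]
      rintro ξ _ ⟨_, h1⟩ ⟨_, h2⟩
      omega
    have hcard : F.card = F₀.card + F₁.card := by
      rw [hunion, Finset.card_union_of_disjoint hdisj]
    have hF₁sub : F₁ ⊆ F.erase χ₀ := by
      intro ξ hξ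
      rw [hF₁] at hξ
      obtain ⟨hξB, hξpos⟩ := (Finset.mem_filter.1 hξ).2
      refine Finset.mem_erase.2 ⟨?_, by rw [hF]; exact Finset.mem_filter.2 ⟨Finset.mem_univ _, hξB⟩⟩
      rintro rfl
      omega
    have hsum1 : F₁.card * p ^ 2
        ≤ ∑ ξ ∈ F.erase χ₀, p ^ (2 * blockHeight p B (ξ : G → ℂ)) := by
      calc F₁.card * p ^ 2 = ∑ ξ ∈ F₁, p ^ 2 := by rw [Finset.sum_const, smul_eq_mul]
        _ ≤ ∑ ξ ∈ F₁, p ^ (2 * blockHeight p B (ξ : G → ℂ)) := by
            apply Finset.sum_le_sum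
            intro ξ hξ
            rw [hF₁] at hξ
            obtain ⟨hξB, hξpos⟩ := (Finset.mem_filter.1 hξ).2
            exact Nat.pow_le_pow_right hp.pos (by omega)
        _ ≤ ∑ ξ ∈ F.erase χ₀, p ^ (2 * blockHeight p B (ξ : G → ℂ)) :=
            Finset.sum_le_sum_of_subset_of_nonneg hF₁sub (fun _ _ _ => Nat.zero_le _)
    have hsum2 : ∑ ξ ∈ F, p ^ (2 * blockHeight p B (ξ : G → ℂ))
        = 1 + ∑ ξ ∈ F.erase χ₀, p ^ (2 * blockHeight p B (ξ : G → ℂ)) := by
      rw [← Finset.add_sum_erase F _ hχ₀F, h0, mul_zero, pow_zero]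
    have h3 : 4 * (F₁.card * p ^ 2) ≤ p ^ (2 * d) := by
      rw [hsum2] at hw
      omega
    have h4 : p ^ (2 * d) = p ^ (2 * d - 2) * p ^ 2 := by
      rw [← pow_add]
      congr 1
      omega
    rw [h4] at h3
    have h5 : 4 * F₁.card ≤ p ^ (2 * d - 2) := by
      have hp2 : 0 < p ^ 2 := pow_pos hp.pos 2
      have h6 : (4 * F₁.card) * p ^ 2 ≤ p ^ (2 * d - 2) * p ^ 2 := by
        rw [mul_assoc]
        exact h3
      exact Nat.le_of_mul_le_mul_right h6 hp2
    rw [hcardF, hcard]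
    omega
  · intro χ hχ
    constructor
    · intro hd1
      by_contra hne
      have hpos : 0 < blockHeight p B (χ : G → ℂ) := Nat.pos_of_ne_zero hne
      have h1 := hpos_bound χ hχ hpos
      have h2 : p ^ (2 * d) ≤ p ^ (2 * blockHeight p B (χ : G → ℂ)) :=
        Nat.pow_le_pow_right hp.pos (by omega)
      have h3 : 0 < p ^ (2 * blockHeight p B (χ : G → ℂ)) := pow_pos hp.pos _
      omega
    · intro hd2
      by_contra hcon
      push_neg at hcon
      have hv := hval χ hχ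
      have hdiv : p ^ ((Nat.card G).factorization p - 1) ∣ charDegree (χ : G → ℂ) := by
        rw [hp.pow_dvd_iff_le_factorization (Helper25.charDegree_irr_ne_zero χ)]
        omega
      have hsame : SameBlock M (χ : G → ℂ) (χ₀ : G → ℂ) :=
        Helper25.sameBlock_of_mem_block hM' hB hχ hχ₀
      have h1 := Helper6.hb_main hM χ χ₀ hsame hdiv
      rw [hp.pow_dvd_iff_le_factorization (Helper25.charDegree_irr_ne_zero χ₀)] at h1
      omega

end Cfsg.Agent.S4710
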