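import Cfsg.Statements.S4714
import Cfsg.Agent.Helper25.DCBlock
open Cfsg.Agent.Helper25
open Cfsg.Agent

set_option autoImplicit false
open Cfsg

namespace Cfsg.Agent.S4714

/-- Let p be a prime, M a maximal ideal of the algebraic integers containing p, D a p-subgroup of the finite group G with G = D·C_G(D), and B a p-block with defect group D. Let χ be a member of B having D in its kernel (there is exactly one, the canonical character of B). Then the irreducible characters in B are exactly the functions θ on G for which there is an irreducible character ζ of D such that θ(yx) = ζ(y)χ(x) whenever y ∈ D, x has order prime to p and x commutes with y, and θ(z) = 0 whenever the p-part of z does not lie in D. -/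
theorem result {G : Type*} [Group G] [Finite G] (p : ℕ) [Fact p.Prime] (M : Ideal Cfsg.AlgInt) (hM : Cfsg.IsPModular p M) (D : Subgroup G) (hD : IsPGroup p D) (hG : D ⊔ Subgroup.centralizer (D : Set G) = ⊤) (B : Set (Cfsg.IrrCharacter G)) (hB : Cfsg.IsPBlock M B) (hBD : Cfsg.IsDefectGroup p M B D) (χ : Cfsg.IrrCharacter G) (hχ : χ ∈ B) (hχD : ∀ y ∈ D, (χ : G → ℂ) y = (χ : G → ℂ) 1) : (∀ θ : Cfsg.IrrCharacter G, θ ∈ B ↔ ∃ ζ : Cfsg.IrrCharacter D, (∀ (y : D) (x : G), ¬ p ∣ orderOf x → Commute (y : G) x → (θ : G → ℂ) ((y : G) * x) = (ζ : D → ℂ) y * (χ : G → ℂ) x) ∧ (∀ z : G, (∀ y : G, Cfsg.IsPPart p z y → y ∉ D) → (θ : G → ℂ) z = 0)) ∧ ∀ ζ : Cfsg.IrrCharacter D, ∃ θ ∈ B, (∀ (y : D) (x : G), ¬ p ∣ orderOf x → Commute (y : G) x → (θ : G → ℂ) ((y : G) * x) = (ζ : D → ℂ) y * (χ : G → ℂ) x) ∧ (∀ z : G, (∀ y : G, Cfsg.IsPPart p z y → y ∉ D) → (θ : G → ℂ) z = 0) := by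
  classical
  have : Fintype G := Fintype.ofFinite G
  have := Helper24.finite_irrCharacter (G := G)
  have : Fintype (IrrCharacter G) := Fintype.ofFinite _
  have : Fintype D := Fintype.ofFinite _
  haveI hDn : D.Normal := normal_of_sup_centralizer D hG
  obtain ⟨h1, h2, h3⟩ := dc_block_main hM D hD hG hB hBD χ hχ hχD
  have hvan : ∀ θ ∈ B, ∀ z : G, (∀ y : G, IsPPart p z y → y ∉ D) → (θ : G → ℂ) z = 0 := by
    intro θ hθ z hz
    obtain ⟨y, hy⟩ := exists_isPPart p z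
    exact h3 θ hθ z y hy (hz y hy)
  have hfwd : ∀ ζ : IrrCharacter D, ∃ θ ∈ B,
      (∀ (y : D) (x : G), ¬ p ∣ orderOf x → Commute (y : G) x →
        (θ : G → ℂ) ((y : G) * x) = (ζ : D → ℂ) y * (χ : G → ℂ) x) ∧
      (∀ z : G, (∀ y : G, IsPPart p z y → y ∉ D) → (θ : G → ℂ) z = 0) := by
    intro ζ
    obtain ⟨θ, hθ, hf⟩ := h1 ζ
    exact ⟨θ, hθ, fun y x hx _ => hf y x hx, hvan θ hθ⟩
  refine ⟨fun θ => ⟨?_, ?_⟩, hfwd⟩
  · intro hθ
    obtain ⟨ζ, hf⟩ := h2 θ hθ
    exact ⟨ζ, fun y x hx _ => hf y x hx, hvan θ hθ⟩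
  · rintro ⟨ζ, hf, hv⟩
    obtain ⟨θ₁, hθ₁, hf₁, hv₁⟩ := hfwd ζ
    have heq : θ = θ₁ := by
      apply Subtype.ext
      funext g
      obtain ⟨y, hy⟩ := exists_isPPart p g
      by_cases hyD : y ∈ D
      · obtain ⟨x, hyx, hcomm, -, hx⟩ := hy
        rw [← hyx]
        exact (hf ⟨y, hyD⟩ x hx hcomm).trans (hf₁ ⟨y, hyD⟩ x hx hcomm).symm
      · have hall : ∀ y' : G, IsPPart p g y' → y' ∉ D := fun y' hy' => by
          rw [isPPart_unique hy' hy]
          exact hyD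
        rw [hv g hall, hv₁ g hall]
    rw [heq]
    exact hθ₁

end Cfsg.Agent.S4714
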