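import Cfsg.Statements.S4730
import Cfsg.Agent.Helper25.BlockFaithful
open Cfsg.Agent.Helper25

set_option autoImplicit false
open Cfsg

namespace Cfsg.Agent.S4730

/-- Let p be a prime, M a maximal ideal of the algebraic integers containing p, and G a finite group with trivial centre, Sylow p-subgroup P of order p^a and centre Z(P) of order p^b. If χ is a faithful irreducible character of G whose degree is a power of p, then the p-block of χ has defect at most a − b; in particular, if P is abelian then χ lies in a block of defect zero. -/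
theorem result {G : Type*} [Group G] [Finite G] (p : ℕ) [Fact p.Prime] (M : Ideal Cfsg.AlgInt) (hM : Cfsg.IsPModular p M) (hZ : Subgroup.center G = ⊥) (P : Sylow p G) (a b : ℕ) (ha : Nat.card P = p ^ a) (hb : Nat.card (Subgroup.center ↥(P : Subgroup G)) = p ^ b) (χ : Cfsg.IrrCharacter G) (hfaith : ∀ g : G, (χ : G → ℂ) g = (χ : G → ℂ) 1 → g = 1) (n : ℕ) (hdeg : Cfsg.charDegree (χ : G → ℂ) = p ^ n) : Cfsg.blockDefect p (Cfsg.blockOf M (χ : G → ℂ)) ≤ a - b ∧ (IsMulCommutative ↥(P : Subgroup G) → Cfsg.blockDefect p (Cfsg.blockOf M (χ : G → ℂ)) = 0) := by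
  classical
  cases nonempty_fintype G
  have hMp : M.IsPrime := hM.2.1.isPrime
  have hp : p.Prime := Fact.out
  have key : ∀ ψ ∈ blockOf M (χ : G → ℂ), b ≤ (charDegree (ψ : G → ℂ)).factorization p := by
    intro ψ hψ
    have hcard : Nat.card ((Subgroup.center (P : Subgroup G)).map (P : Subgroup G).subtype) = p ^ b := by
      rw [← hb]
      exact Nat.card_congr ((Subgroup.center (P : Subgroup G)).equivMapOfInjective _
        (Subgroup.subtype_injective _)).symm.toEquiv
    refine le_factorization_of_vanish p hM _ b hcard ψ ?_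
    rintro z ⟨z', hz', rfl⟩ hz1
    obtain ⟨z, hz⟩ := z'
    have hzc : ¬ p ∣ (Subgroup.centralizer ({z} : Set G)).index := by
      intro hdvd
      have hle : (P : Subgroup G) ≤ Subgroup.centralizer ({z} : Set G) := by
        intro x hx
        rw [Subgroup.mem_centralizer_iff]
        intro y hy
        rw [Set.mem_singleton_iff] at hy
        rw [hy]
        have h1 := Subgroup.mem_center_iff.mp hz' ⟨x, hx⟩
        have h2 := congrArg Subtype.val h1
        exact h2.symm
      exact P.not_dvd_index (dvd_trans hdvd (Subgroup.index_dvd_of_le hle))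
    have hχz : (χ : G → ℂ) z = 0 := burnside_vanish p hZ χ hfaith n hdeg z hz1 hzc
    have h1 := hψ z
    have e : centralChar (χ : G → ℂ) z - centralChar (ψ : G → ℂ) z
        = -(((Subgroup.centralizer ({z} : Set G)).index : ℂ) * ((ψ : G → ℂ) z / (ψ : G → ℂ) 1)) := by
      unfold centralChar
      rw [hχz]
      ring
    rw [e] at h1
    have h2 := MemLocalIdeal.neg h1
    rw [neg_neg] at h2
    rcases MemLocalIdeal.of_mul hMp (memLocalRing_natCast hMp.ne_top _) h2 with h3 | h3
    · exact absurd ((memLocalIdeal_natCast_iff hM _).mp h3) hzc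
    · exact h3
  have ha' : (Nat.card G).factorization p = a := by
    have h1 := P.card_eq_multiplicity
    rw [ha] at h1
    exact (Nat.pow_right_injective hp.two_le h1).symm
  have hinf : b ≤ sInf ((fun χ : IrrCharacter G => (charDegree (χ : G → ℂ)).factorization p) ''
      (blockOf M (χ : G → ℂ))) := by
    apply le_csInf
    · exact ⟨_, χ, mem_blockOf_self hMp.ne_top χ, rfl⟩
    · rintro _ ⟨ψ, hψ, rfl⟩
      exact key ψ hψ
  refine ⟨?_, fun hab => ?_⟩
  · unfold blockDefect
    rw [ha']
    omega
  · have hba : b = a := by
      have h1 : Subgroup.center (P : Subgroup G) = ⊤ := by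
        rw [eq_top_iff]
        intro x _
        rw [Subgroup.mem_center_iff]
        intro y
        exact hab.is_comm.comm y x
      rw [h1, Subgroup.card_top, ha] at hb
      exact (Nat.pow_right_injective hp.two_le hb).symm
    unfold blockDefect
    rw [ha']
    omega

end Cfsg.Agent.S4730
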