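import Cfsg.Statements.S4731
import Cfsg.Agent.Helper25.PQFree
open Cfsg.Agent.Helper25
open Cfsg.Agent

set_option autoImplicit false
open Cfsg

namespace Cfsg.Agent.S4731

/-- Let p ≠ q be primes, M_p and M_q maximal ideals of the algebraic integers containing p and q respectively, and G a finite group with no element of order pq; let q^b be the q-part of the order of G. For a p-block B_p (relative to M_p), a q-block B_q (relative to M_q) and a p-singular element y, the sum of χ(1)χ(y) over the irreducible characters χ lying in both B_p and B_q is q^b times an algebraic integer. -/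
theorem result {G : Type*} [Group G] [Finite G] (p q : ℕ) [Fact p.Prime] [Fact q.Prime] (hpq : p ≠ q) (Mp Mq : Ideal Cfsg.AlgInt) (hMp : Cfsg.IsPModular p Mp) (hMq : Cfsg.IsPModular q Mq) (hno : ∀ g : G, orderOf g ≠ p * q) (b : ℕ) (hb : (Nat.card G).factorization q = b) (Bp : Set (Cfsg.IrrCharacter G)) (hBp : Cfsg.IsPBlock Mp Bp) (Bq : Set (Cfsg.IrrCharacter G)) (hBq : Cfsg.IsPBlock Mq Bq) (y : G) (hy : p ∣ orderOf y) : ∃ ω : Cfsg.AlgInt, ∑ᶠ χ ∈ Bp ∩ Bq, (Cfsg.charDegree (χ : G → ℂ) : ℂ) * (χ : G → ℂ) y = (q : ℂ) ^ b * (ω : ℂ) := by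
  classical
  have : Fintype G := Fintype.ofFinite G
  have := Helper24.finite_irrCharacter (G := G)
  have : Fintype (IrrCharacter G) := Fintype.ofFinite _
  obtain ⟨N, hNdef⟩ : ∃ N, N = Nat.card G := ⟨_, rfl⟩
  have hN : 0 < N := hNdef ▸ Nat.card_pos
  obtain ⟨ζ, hζdef⟩ : ∃ ζ : ℂ, ζ = Complex.exp (2 * Real.pi * Complex.I / N) := ⟨_, rfl⟩
  have hζ : IsPrimitiveRoot ζ N := hζdef ▸ Complex.isPrimitiveRoot_exp N hN.ne'
  have hyN : y ^ N = 1 := by
    rw [hNdef]
    exact pow_card_eq_one'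
  have hexp := fun χ : IrrCharacter G =>
    Helper24.char_pow_expansion (Helper24.isCharacter_of_irr χ.2) y N hN hyN ζ hζ
  choose d hd using hexp
  obtain ⟨F, hFdef⟩ : ∃ F : G → ℂ, F = fun g =>
      ∑ᶠ χ ∈ Bp ∩ Bq, (charDegree (χ : G → ℂ) : ℂ) * (χ : G → ℂ) g := ⟨_, rfl⟩
  obtain ⟨R, hRdef⟩ : ∃ R : Polynomial ℚ, R = ∑ j ∈ Finset.range N,
      Polynomial.C ((∑ χ : IrrCharacter G,
        if χ ∈ Bp ∩ Bq then charDegree (χ : G → ℂ) * d χ j else 0 : ℕ) : ℚ)
        * Polynomial.X ^ j := ⟨_, rfl⟩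
  have hR : ∀ k : ℕ, Polynomial.aeval (ζ ^ k) R = F (y ^ k) := by
    intro k
    rw [hRdef, hFdef, map_sum]
    simp only [map_mul, map_pow, Polynomial.aeval_C, Polynomial.aeval_X, eq_ratCast]
    rw [finsum_mem_eq_sum_ite]
    have h1 : ∀ χ : IrrCharacter G,
        (if χ ∈ Bp ∩ Bq then (charDegree (χ : G → ℂ) : ℂ) * (χ : G → ℂ) (y ^ k) else 0)
          = ∑ j ∈ Finset.range N,
            ((if χ ∈ Bp ∩ Bq then charDegree (χ : G → ℂ) * d χ j else 0 : ℕ) : ℂ)
              * (ζ ^ k) ^ j := by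
      intro χ
      split_ifs with h
      · rw [hd χ k, Finset.mul_sum]
        refine Finset.sum_congr rfl fun j _ => ?_
        rw [← pow_mul, mul_comm k j]
        push_cast
        ring
      · simp
    rw [Finset.sum_congr rfl fun χ _ => h1 χ, Finset.sum_comm]
    refine Finset.sum_congr rfl fun j _ => ?_
    rw [← Finset.sum_mul]
    congr 1
    push_cast
    exact Finset.sum_congr rfl fun χ _ => by split_ifs <;> simp
  have hFint : ∀ g : G, IsIntegral ℤ (F g) := by
    intro g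
    rw [hFdef]
    simp only []
    rw [finsum_mem_eq_sum_ite]
    refine IsIntegral.sum _ fun χ _ => ?_
    split_ifs
    · have h2 : IsIntegral ℤ ((charDegree (χ : G → ℂ) : ℕ) : ℂ) := by
        have h3 := isIntegral_algebraMap (R := ℤ) (A := ℂ) (x := (charDegree (χ : G → ℂ) : ℤ))
        simpa using h3
      exact h2.mul (Helper2.IsCharacter.isIntegral (Helper24.isCharacter_of_irr χ.2) g)
    · exact isIntegral_zero
  have hα : F y = Polynomial.aeval ζ R := by
    have h1 := hR 1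
    rw [pow_one, pow_one] at h1
    exact h1.symm
  have hmain := exists_eq_pow_mul_of_roots_local hMq b ⟨F y, hFint y⟩ (by
    intro β hβ
    change Polynomial.aeval β (minpoly ℚ (F y)) = 0 at hβ
    rw [hα] at hβ
    obtain ⟨k, hk, rfl⟩ := root_minpoly_aeval_primitiveRoot N hN ζ hζ R β hβ
    rw [hR k, hFdef, ← hb]
    have hyk : p ∣ orderOf (y ^ k) := by
      have hcop : (orderOf y).Coprime k :=
        (hk.coprime_dvd_right (hNdef ▸ orderOf_dvd_natCard y)).symm
      rw [hcop.orderOf_pow]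
      exact hy
    exact pq_local p q hpq Mp Mq hMp hMq hno Bp hBp Bq hBq (y ^ k) hyk)
  obtain ⟨ω, hω⟩ := hmain
  change F y = _ at hω
  rw [hFdef] at hω
  exact ⟨ω, hω⟩

end Cfsg.Agent.S4731
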