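import Cfsg.Statements.S4736
import Cfsg.Agent.Helper25.FongPrincipal
import Cfsg.Agent.Helper25.HeightZero2
import Cfsg.Agent.Helper24.ItoPSolv
import Cfsg.Agent.Helper16.PCore
import Cfsg.Agent.Helper4.HallHigman
open Cfsg.Agent.Helper25
open Cfsg.Agent

set_option autoImplicit false
open Cfsg

namespace Cfsg.Agent.S4736

/-- Let p be a prime, M a maximal ideal of the algebraic integers containing p, and G a finite p-solvable group with Sylow p-subgroup P. Then P is abelian if and only if every irreducible character in the principal p-block of G has height zero. -/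
theorem result {G : Type*} [Group G] [Finite G] (p : ℕ) [Fact p.Prime] (M : Ideal Cfsg.AlgInt) (hM : Cfsg.IsPModular p M) (hsolv : Cfsg.IsPSolvable p G) (P : Sylow p G) : IsMulCommutative P ↔ ∀ χ ∈ Cfsg.principalBlock M G, Cfsg.blockHeight p (Cfsg.principalBlock M G) (χ : G → ℂ) = 0 := by
  classical
  have : Fintype G := Fintype.ofFinite G
  have hpp : p.Prime := Fact.out
  have hN : (pPrimeCore p G).Normal := Helper11.pPrimeCore_normal p G
  have hNcop := Helper9.pPrimeCore_coprime (G := G) p
  have hsolv' : IsPSolvable p (G ⧸ pPrimeCore p G) := Helper20.isPSolvable_quotient p hsolv _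
  have hcore' : pPrimeCore p (G ⧸ pPrimeCore p G) = ⊥ := pPrimeCore_quotient_eq_bot
  have hone : (oneIrr G) ∈ principalBlock M G := sameBlock_refl hM.2.1.ne_top _
  have hinf : sInf ((fun ψ : IrrCharacter G => (charDegree (ψ : G → ℂ)).factorization p)
      '' principalBlock M G) = 0 := by
    apply Nat.eq_zero_of_le_zero
    apply Nat.sInf_le
    refine ⟨oneIrr G, hone, ?_⟩
    show (charDegree ((oneIrr G : IrrCharacter G) : G → ℂ)).factorization p = 0
    have h1 : charDegree ((oneIrr G : IrrCharacter G) : G → ℂ) = 1 := by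
      unfold charDegree
      rw [oneIrr_apply]
      simp
    rw [h1]
    simp
  have hheight : ∀ χ : IrrCharacter G,
      blockHeight p (principalBlock M G) (χ : G → ℂ) = 0 ↔ ¬ p ∣ charDegree (χ : G → ℂ) := by
    intro χ
    unfold blockHeight
    rw [hinf, Nat.sub_zero]
    constructor
    · intro h hdvd
      rcases (Nat.factorization_eq_zero_iff _ _).mp h with h1 | h1 | h1
      · exact h1 hpp
      · exact h1 hdvd
      · exact charDegree_irr_ne_zero χ h1
    · intro h
      exact Nat.factorization_eq_zero_of_not_dvd h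
  obtain ⟨Pb, hPb⟩ : ∃ Pb : Sylow p (G ⧸ pPrimeCore p G),
      (Pb : Subgroup (G ⧸ pPrimeCore p G)) = (P : Subgroup G).map (QuotientGroup.mk' _) :=
    ⟨P.mapSurjective (QuotientGroup.mk'_surjective _), rfl⟩
  constructor
  · intro hab χ hχ
    rw [hheight]
    have habP : ∀ a b : (Pb : Subgroup (G ⧸ pPrimeCore p G)), a * b = b * a := by
      intro a b
      have hamem : (a : G ⧸ pPrimeCore p G)
          ∈ (P : Subgroup G).map (QuotientGroup.mk' (pPrimeCore p G)) := by
        rw [← hPb]
        exact a.2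
      have hbmem : (b : G ⧸ pPrimeCore p G)
          ∈ (P : Subgroup G).map (QuotientGroup.mk' (pPrimeCore p G)) := by
        rw [← hPb]
        exact b.2
      obtain ⟨x, hx, hxa⟩ := hamem
      obtain ⟨y, hy, hyb⟩ := hbmem
      have hxy : x * y = y * x :=
        congrArg Subtype.val (hab.is_comm.comm (⟨x, hx⟩ : P) ⟨y, hy⟩)
      apply Subtype.ext
      rw [Subgroup.coe_mul, Subgroup.coe_mul, ← hxa, ← hyb, ← map_mul, ← map_mul, hxy]
    have hPn : (Pb : Subgroup (G ⧸ pPrimeCore p G)).Normal := by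
      have hle : pCore p (G ⧸ pPrimeCore p G) ≤ (Pb : Subgroup (G ⧸ pPrimeCore p G)) :=
        Helper16.pCore_le_sylow Pb
      have hHH := Helper4.centralizer_pCore_le_of_psolvable p hsolv' hcore'
      have hge : (Pb : Subgroup (G ⧸ pPrimeCore p G)) ≤ pCore p (G ⧸ pPrimeCore p G) := by
        intro a ha
        apply hHH
        rw [Subgroup.mem_centralizer_iff]
        intro v hv
        exact congrArg Subtype.val (habP ⟨v, hle hv⟩ ⟨a, ha⟩)
      rw [le_antisymm hge hle]
      exact Helper16.pCore_normal p _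
    obtain ⟨β, hβ⟩ := exists_deflation_of_ker (pPrimeCore p G) χ (principalBlock_ker hM χ hχ)
    have h1 := Helper24.ito_sylow_forward p Pb hPn habP β.2
    have h2 : charDegree (χ : G → ℂ) = charDegree (β : G ⧸ pPrimeCore p G → ℂ) := by
      unfold charDegree
      rw [hβ]
      rfl
    rw [h2]
    exact h1
  · intro hall
    have hdeg : ∀ β' : G ⧸ pPrimeCore p G → ℂ, IsIrrCharacter (G ⧸ pPrimeCore p G) β' →
        ¬ p ∣ charDegree β' := by
      intro β' hβ'
      have hχ : inflIrr (pPrimeCore p G) ⟨β', hβ'⟩ ∈ principalBlock M G := by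
        apply mem_principalBlock_of_ker hM hsolv
        intro n hn
        rw [inflIrr_coe]
        simp only [Function.comp_apply]
        rw [(QuotientGroup.eq_one_iff n).mpr hn, QuotientGroup.mk_one]
      have h1 := (hheight _).mp (hall _ hχ)
      have h2 : charDegree (inflIrr (pPrimeCore p G) ⟨β', hβ'⟩ : G → ℂ) = charDegree β' := by
        unfold charDegree
        rw [inflIrr_coe]
        rfl
      rwa [h2] at h1
    have hPn : (Pb : Subgroup (G ⧸ pPrimeCore p G)).Normal :=
      Helper24.ito_sylow_normal_aux p (Nat.card (G ⧸ pPrimeCore p G)) (G ⧸ pPrimeCore p G) le_rfl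
        hsolv' hdeg Pb
    have habP := Helper24.ito_sylow_abelian p Pb hPn hdeg
    refine ⟨⟨fun a b => ?_⟩⟩
    apply Subtype.ext
    have ha' : (QuotientGroup.mk' (pPrimeCore p G)) (a : G)
        ∈ (Pb : Subgroup (G ⧸ pPrimeCore p G)) := by
      rw [hPb]
      exact Subgroup.mem_map_of_mem _ a.2
    have hb' : (QuotientGroup.mk' (pPrimeCore p G)) (b : G)
        ∈ (Pb : Subgroup (G ⧸ pPrimeCore p G)) := by
      rw [hPb]
      exact Subgroup.mem_map_of_mem _ b.2
    have hcomm := congrArg Subtype.val (habP ⟨_, ha'⟩ ⟨_, hb'⟩)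
    simp only [Subgroup.coe_mul] at hcomm
    rw [← map_mul, ← map_mul] at hcomm
    have hmem : ((a : G) * (b : G)) * ((b : G) * (a : G))⁻¹ ∈ pPrimeCore p G := by
      have h1 : (QuotientGroup.mk' (pPrimeCore p G)) (((a : G) * (b : G)) * ((b : G) * (a : G))⁻¹)
          = 1 := by
        rw [map_mul, map_inv, hcomm, mul_inv_cancel]
      exact (QuotientGroup.eq_one_iff _).mp h1
    have hmemP : ((a : G) * (b : G)) * ((b : G) * (a : G))⁻¹ ∈ (P : Subgroup G) :=
      (P : Subgroup G).mul_mem ((P : Subgroup G).mul_mem a.2 b.2)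
        ((P : Subgroup G).inv_mem ((P : Subgroup G).mul_mem b.2 a.2))
    obtain ⟨k, hk⟩ := P.isPGroup' ⟨_, hmemP⟩
    have hk' : (((a : G) * (b : G)) * ((b : G) * (a : G))⁻¹) ^ p ^ k = 1 := by
      simpa using congrArg Subtype.val hk
    have hd1 : orderOf (((a : G) * (b : G)) * ((b : G) * (a : G))⁻¹) ∣ p ^ k :=
      orderOf_dvd_of_pow_eq_one hk'
    have hd2 : orderOf (((a : G) * (b : G)) * ((b : G) * (a : G))⁻¹)
        ∣ Nat.card (pPrimeCore p G) := Subgroup.orderOf_dvd_natCard _ hmem
    have hcop : (p ^ k).Coprime (Nat.card (pPrimeCore p G)) :=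
      Nat.Coprime.pow_left k hNcop.symm
    have hone' : orderOf (((a : G) * (b : G)) * ((b : G) * (a : G))⁻¹) = 1 :=
      Nat.dvd_one.mp (hcop.gcd_eq_one ▸ Nat.dvd_gcd hd1 hd2)
    rw [orderOf_eq_one_iff] at hone'
    exact mul_inv_eq_one.mp hone'

end Cfsg.Agent.S4736
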