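import Mathlib
import Cfsg.Agent.S0172
import Cfsg.Statements.S4956
-- import your own Cfsg.Agent.* helpers here

set_option autoImplicit false
open Cfsg

namespace Cfsg.Agent.S4956

/-- If the commutator `e = g b g⁻¹ b⁻¹` commutes with `g` and `g ^ m = 1` then `e ^ m = 1`. -/
theorem comm_pow_eq_one {X : Type*} [Group X] (g b : X) (m : ℕ) (hm : g ^ m = 1)
    (hcomm : g * (g * b * g⁻¹ * b⁻¹) = (g * b * g⁻¹ * b⁻¹) * g) :
    (g * b * g⁻¹ * b⁻¹) ^ m = 1 := by
  have key : ∀ i : ℕ, g ^ i * b * (g ^ i)⁻¹ = (g * b * g⁻¹ * b⁻¹) ^ i * b := by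
    intro i
    induction i with
    | zero => simp
    | succ i ih =>
      have h1 : g ^ (i + 1) * b * (g ^ (i + 1))⁻¹ = g * (g ^ i * b * (g ^ i)⁻¹) * g⁻¹ := by
        rw [pow_succ']
        simp only [mul_inv_rev, mul_assoc]
      have h2 : g * (g * b * g⁻¹ * b⁻¹) ^ i = (g * b * g⁻¹ * b⁻¹) ^ i * g := by
        have hc : Commute g (g * b * g⁻¹ * b⁻¹) := hcomm
        exact (hc.pow_right i).eq
      rw [h1, ih, pow_succ]
      generalize (g * b * g⁻¹ * b⁻¹) ^ i = E at h2 ⊢
      calc g * (E * b) * g⁻¹ = (g * E) * b * g⁻¹ := by simp only [mul_assoc]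
        _ = E * g * b * g⁻¹ := by rw [h2]
        _ = E * (g * b * g⁻¹ * b⁻¹) * b := by group
  have h := key m
  rw [hm, one_mul, inv_one, mul_one] at h
  exact mul_eq_right.mp h.symm

/-- Coprime action: a commutator `g b g⁻¹ b⁻¹` (with `b` in the normal subgroup `V`, the order
of `g` coprime to `|V|`) which is centralized by `g` is trivial. -/
theorem comm_eq_one {X : Type*} [Group X] [Finite X] (V : Subgroup X) [V.Normal] (g b : X)
    (hb : b ∈ V) (hcop : (orderOf g).Coprime (Nat.card V))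
    (hcomm : g * (g * b * g⁻¹ * b⁻¹) = (g * b * g⁻¹ * b⁻¹) * g) : g * b * g⁻¹ * b⁻¹ = 1 := by
  have h1 := comm_pow_eq_one g b (orderOf g) (pow_orderOf_eq_one g) hcomm
  have heV : g * b * g⁻¹ * b⁻¹ ∈ V :=
    V.mul_mem (Subgroup.Normal.conj_mem inferInstance b hb g) (V.inv_mem hb)
  have h2 : (g * b * g⁻¹ * b⁻¹) ^ Nat.card V = 1 := by
    have h3 := pow_card_eq_one' (G := V) (x := ⟨_, heV⟩)
    exact congrArg Subtype.val h3
  have h3 : orderOf (g * b * g⁻¹ * b⁻¹) ∣ Nat.gcd (orderOf g) (Nat.card V) :=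
    Nat.dvd_gcd (orderOf_dvd_of_pow_eq_one h1) (orderOf_dvd_of_pow_eq_one h2)
  rw [Nat.Coprime] at hcop
  rw [hcop, Nat.dvd_one, orderOf_eq_one_iff] at h3
  exact h3

/-- Indicator sums over a group are sums over the subgroup. -/
theorem sum_ite_mem {X : Type*} [Group X] [Fintype X] (H : Subgroup X) [DecidablePred (· ∈ H)]
    [Fintype H] (F : X → ℕ) : ∑ x : X, (if x ∈ H then F x else 0) = ∑ x : H, F x := by
  rw [← Finset.sum_filter]
  exact Finset.sum_subtype (Finset.univ.filter (· ∈ H)) (fun x => by simp) F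

/-- Summation along a complement of the range of an endomorphism `δ` with `ker δ ∩ range δ = 1`. -/
theorem sum_eq_card_range_mul {A : Type*} [Group A] [Fintype A] [DecidableEq A] (δ : A →* A)
    (hδ : ∀ a : A, δ (δ a) = 1 → δ a = 1) (F : A → ℕ) (hF : ∀ a v : A, F (a * δ v) = F a) :
    ∑ a : A, F a = Nat.card δ.range * ∑ c : A, (if δ c = 1 then F c else 0) ∧
      (∑ c : A, (if δ c = 1 then 1 else 0)) * Nat.card δ.range = Nat.card A := by
  classical
  have hcard : Nat.card δ.ker * Nat.card δ.range = Nat.card A := by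
    rw [← Subgroup.index_ker, Subgroup.card_mul_index]
  have hdisj : Disjoint δ.ker δ.range := by
    rw [Subgroup.disjoint_def]
    rintro x hxk ⟨a, rfl⟩
    exact hδ a (MonoidHom.mem_ker.mp hxk)
  have hcompl : Subgroup.IsComplement' δ.ker δ.range :=
    Subgroup.isComplement'_of_card_mul_and_disjoint hcard hdisj
  have hker : ∀ G : A → ℕ, ∑ c : A, (if δ c = 1 then G c else 0) = ∑ c : δ.ker, G c := by
    intro G
    have h1 := sum_ite_mem δ.ker G
    rw [← h1]
    apply Finset.sum_congr rfl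
    intro c _
    simp only [MonoidHom.mem_ker]
  constructor
  · rw [hker F]
    let e : δ.ker × δ.range ≃ A := Equiv.ofBijective _ hcompl
    rw [← Equiv.sum_comp e F, Fintype.sum_prod_type, Finset.mul_sum]
    apply Finset.sum_congr rfl
    intro c _
    have h1 : ∀ i : δ.range, F (e (c, i)) = F c := by
      rintro ⟨i, v, rfl⟩
      exact hF c v
    rw [Finset.sum_congr rfl (fun i _ => h1 i), Finset.sum_const, Finset.card_univ, smul_eq_mul,
      Nat.card_eq_fintype_card]
  · rw [hker (fun _ => 1), Finset.sum_const, Finset.card_univ, smul_eq_mul, mul_one,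
      ← Nat.card_eq_fintype_card]
    exact hcard

/-- Let X be a finite group, V an abelian normal subgroup of X (any two elements of V commute) and G a complement to V in X whose order is coprime to that of V. Let S be a set of representatives of the orbits of G on V under conjugation: S lies in V and every element of V is conjugate under G to exactly one member of S. Then the number of conjugacy classes of X equals the sum, over s in S, of the number of conjugacy classes of the centralizer of s in G. -/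
theorem result {X : Type*} [Group X] [Finite X] (V : Subgroup X) [V.Normal] (hab : ∀ a ∈ V, ∀ b ∈ V, a * b = b * a) (G : Subgroup X) (hGV : Subgroup.IsComplement' V G) (hcop : (Nat.card V).Coprime (Nat.card G)) (S : Finset X) (hSV : ∀ s ∈ S, s ∈ V) (hrep : ∀ v ∈ V, ∃! s, s ∈ S ∧ ∃ g ∈ G, g * v * g⁻¹ = s) : Nat.card (ConjClasses X) = ∑ s ∈ S, Nat.card (ConjClasses ↥(G ⊓ Subgroup.centralizer ({s} : Set X))) := by
  classical
  have := Fintype.ofFinite X
  obtain ⟨n, hn⟩ : ∃ n : X → ℕ, ∀ x, n x = ∑ y : X, if x * y = y * x then 1 else 0 :=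
    ⟨_, fun _ => rfl⟩
  have hCX : Nat.card (ConjClasses X) * Nat.card X = ∑ x : X, n x := by
    rw [← card_comm_eq_card_conjClasses_mul_card]
    have h1 := Cfsg.Agent.S0172.card_pairs_eq_sum (fun x y : X => x * y = y * x)
    rw [Finset.sum_congr rfl (fun x _ => hn x)]
    exact h1
  have hCL : ∀ L : Subgroup X, Nat.card (ConjClasses L) * Nat.card L =
      ∑ x : X, ∑ y : X, if x ∈ L ∧ y ∈ L ∧ x * y = y * x then 1 else 0 := by
    intro L
    rw [← card_comm_eq_card_conjClasses_mul_card, Cfsg.Agent.S0172.card_commPairs_subgroup]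
    exact Cfsg.Agent.S0172.card_pairs_eq_sum (fun x y => x ∈ L ∧ y ∈ L ∧ x * y = y * x)
  have hn_conj : ∀ k h : X, n (k * h * k⁻¹) = n h := by
    intro k h
    rw [hn, hn]
    apply Fintype.sum_equiv (MulAut.conj k⁻¹).toEquiv
    intro y
    have hiff : (k * h * k⁻¹) * y = y * (k * h * k⁻¹) ↔
        h * ((MulAut.conj k⁻¹).toEquiv y) = ((MulAut.conj k⁻¹).toEquiv y) * h := by
      simp only [MulEquiv.toEquiv_eq_coe, MulEquiv.coe_toEquiv, MulAut.conj_apply, inv_inv]
      constructor
      · intro h1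
        calc h * (k⁻¹ * y * k) = k⁻¹ * ((k * h * k⁻¹) * y) * k := by group
          _ = k⁻¹ * (y * (k * h * k⁻¹)) * k := by rw [h1]
          _ = k⁻¹ * y * k * h := by group
      · intro h1
        calc (k * h * k⁻¹) * y = k * (h * (k⁻¹ * y * k)) * k⁻¹ := by group
          _ = k * ((k⁻¹ * y * k) * h) * k⁻¹ := by rw [h1]
          _ = y * (k * h * k⁻¹) := by group
    by_cases hc : (k * h * k⁻¹) * y = y * (k * h * k⁻¹)
    · rw [if_pos hc, if_pos (hiff.mp hc)]
    · rw [if_neg hc, if_neg (fun h' => hc (hiff.mpr h'))]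
  have hinf : ∀ x : X, x ∈ V → x ∈ G → x = 1 := by
    intro x hxV hxG
    exact Subgroup.disjoint_def.mp hGV.disjoint hxV hxG
  have hcard : Nat.card X = Nat.card V * Nat.card G := hGV.card_mul_card.symm
  have huniq : ∀ a1 ∈ V, ∀ g1 ∈ G, ∀ a2 ∈ V, ∀ g2 ∈ G, a1 * g1 = a2 * g2 →
      a1 = a2 ∧ g1 = g2 := by
    intro a1 ha1 g1 hg1 a2 ha2 g2 hg2 h
    have h1 : a2⁻¹ * a1 = g2 * g1⁻¹ := by
      calc a2⁻¹ * a1 = a2⁻¹ * (a1 * g1) * g1⁻¹ := by group
        _ = a2⁻¹ * (a2 * g2) * g1⁻¹ := by rw [h]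
        _ = g2 * g1⁻¹ := by group
    have h2 : a2⁻¹ * a1 = 1 := hinf _ (V.mul_mem (V.inv_mem ha2) ha1)
      (by rw [h1]; exact G.mul_mem hg2 (G.inv_mem hg1))
    have h3 : a1 = a2 := (inv_mul_eq_one.mp h2).symm
    refine ⟨h3, ?_⟩
    subst h3
    exact mul_left_cancel h
  let e : V × G ≃ X := Equiv.ofBijective _ hGV
  have hsumX : ∀ F : X → ℕ, ∑ x : X, F x = ∑ g : G, ∑ a : V, F ((a : X) * (g : X)) := by
    intro F
    rw [← Equiv.sum_comp e F, Fintype.sum_prod_type, Finset.sum_comm]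
    rfl
  have hord : ∀ g ∈ G, (orderOf g).Coprime (Nat.card V) := by
    intro g hg
    have h1 : orderOf g ∣ Nat.card G := by
      have h2 := orderOf_dvd_natCard (⟨g, hg⟩ : G)
      rwa [Subgroup.orderOf_mk] at h2
    exact hcop.symm.coprime_dvd_left h1
  have hB : ∀ g ∈ G, ∀ c ∈ V, g * c = c * g → ∀ b ∈ V, ∀ h ∈ G,
      ((c * g) * (b * h) = (b * h) * (c * g) ↔
        (g * b = b * g ∧ g * h = h * g ∧ h * c = c * h)) := by
    intro g hg c hc hgc b hb h hh
    constructor
    · intro heq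
      have e1 : (c * g) * (b * h) = (c * (g * b * g⁻¹)) * (g * h) := by group
      have e2 : (b * h) * (c * g) = (b * (h * c * h⁻¹)) * (h * g) := by group
      rw [e1, e2] at heq
      have hgbV : g * b * g⁻¹ ∈ V := Subgroup.Normal.conj_mem inferInstance b hb g
      have hhcV : h * c * h⁻¹ ∈ V := Subgroup.Normal.conj_mem inferInstance c hc h
      obtain ⟨h1, h2⟩ := huniq _ (V.mul_mem hc hgbV) _ (G.mul_mem hg hh) _ (V.mul_mem hb hhcV) _
        (G.mul_mem hh hg) heq
      have h3 : g * b * g⁻¹ * b⁻¹ = h * c * h⁻¹ * c⁻¹ := by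
        have h4 : g * b * g⁻¹ = c⁻¹ * (b * (h * c * h⁻¹)) := by rw [← h1]; group
        rw [h4, hab _ (V.inv_mem hc) _ (V.mul_mem hb hhcV), hab _ hb _ hhcV]
        have hbc := hab _ hb _ (V.inv_mem hc)
        calc h * c * h⁻¹ * b * c⁻¹ * b⁻¹ = h * c * h⁻¹ * (b * c⁻¹) * b⁻¹ := by group
          _ = h * c * h⁻¹ * (c⁻¹ * b) * b⁻¹ := by rw [hbc]
          _ = h * c * h⁻¹ * c⁻¹ := by group
      have h5 : g * (g * b * g⁻¹ * b⁻¹) = (g * b * g⁻¹ * b⁻¹) * g := by
        rw [h3]
        have hgc' : g * c⁻¹ = c⁻¹ * g := by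
          calc g * c⁻¹ = c⁻¹ * (c * g) * c⁻¹ := by group
            _ = c⁻¹ * (g * c) * c⁻¹ := by rw [hgc]
            _ = c⁻¹ * g := by group
        have hgh' : g * h⁻¹ = h⁻¹ * g := by
          calc g * h⁻¹ = h⁻¹ * (h * g) * h⁻¹ := by group
            _ = h⁻¹ * (g * h) * h⁻¹ := by rw [h2]
            _ = h⁻¹ * g := by group
        calc g * (h * c * h⁻¹ * c⁻¹) = (g * h) * c * h⁻¹ * c⁻¹ := by group
          _ = (h * g) * c * h⁻¹ * c⁻¹ := by rw [h2]
          _ = h * (g * c) * h⁻¹ * c⁻¹ := by group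
          _ = h * (c * g) * h⁻¹ * c⁻¹ := by rw [hgc]
          _ = h * c * (g * h⁻¹) * c⁻¹ := by group
          _ = h * c * (h⁻¹ * g) * c⁻¹ := by rw [hgh']
          _ = h * c * h⁻¹ * (g * c⁻¹) := by group
          _ = h * c * h⁻¹ * (c⁻¹ * g) := by rw [hgc']
          _ = (h * c * h⁻¹ * c⁻¹) * g := by group
      have h6 := comm_eq_one V g b hb (hord g hg) h5
      refine ⟨?_, h2, ?_⟩
      · calc g * b = (g * b * g⁻¹ * b⁻¹) * b * g := by group
          _ = b * g := by rw [h6, one_mul]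
      · rw [h3] at h6
        calc h * c = (h * c * h⁻¹ * c⁻¹) * c * h := by group
          _ = c * h := by rw [h6, one_mul]
    · rintro ⟨h1, h2, h3⟩
      have hbc := hab _ hb _ hc
      calc (c * g) * (b * h) = c * (g * b) * h := by group
        _ = c * (b * g) * h := by rw [h1]
        _ = (c * b) * (g * h) := by group
        _ = (b * c) * (h * g) := by rw [hbc, h2]
        _ = b * (c * h) * g := by group
        _ = b * (h * c) * g := by rw [h3]
        _ = (b * h) * (c * g) := by group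
  have hperg : ∀ g : G, ∑ a : V, n ((a : X) * (g : X)) =
      Nat.card V * ∑ c : V, ∑ h : G,
        if (g : X) * c = c * g ∧ (g : X) * h = h * g ∧ (h : X) * c = c * h then 1 else 0 := by
    intro g
    obtain ⟨g, hg⟩ := g
    simp only
    have hδmem : ∀ v : V, (v : X) * (g * v * g⁻¹)⁻¹ ∈ V := fun v =>
      V.mul_mem v.2 (V.inv_mem (Subgroup.Normal.conj_mem inferInstance (v : X) v.2 g))
    let δ : V →* V := MonoidHom.mk' (fun v => ⟨(v : X) * (g * v * g⁻¹)⁻¹, hδmem v⟩) (by
      intro a b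
      apply Subtype.ext
      show ((a : X) * b) * (g * ((a : X) * b) * g⁻¹)⁻¹ =
        ((a : X) * (g * a * g⁻¹)⁻¹) * ((b : X) * (g * b * g⁻¹)⁻¹)
      have hgaV : (g * (a : X) * g⁻¹)⁻¹ ∈ V :=
        V.inv_mem (Subgroup.Normal.conj_mem inferInstance (a : X) a.2 g)
      have hgbV : (g * (b : X) * g⁻¹)⁻¹ ∈ V :=
        V.inv_mem (Subgroup.Normal.conj_mem inferInstance (b : X) b.2 g)
      have h1 := hab _ (V.mul_mem b.2 hgbV) _ hgaV
      calc ((a : X) * b) * (g * ((a : X) * b) * g⁻¹)⁻¹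
          = (a : X) * (((b : X) * (g * b * g⁻¹)⁻¹) * (g * a * g⁻¹)⁻¹) := by group
        _ = (a : X) * ((g * a * g⁻¹)⁻¹ * ((b : X) * (g * b * g⁻¹)⁻¹)) := by rw [h1]
        _ = _ := by group)
    have hδval : ∀ v : V, ((δ v : V) : X) = (v : X) * (g * v * g⁻¹)⁻¹ := fun v => rfl
    have hδ1 : ∀ c : V, δ c = 1 ↔ g * (c : X) = c * g := by
      intro c
      constructor
      · intro h
        have h1 : (c : X) * (g * c * g⁻¹)⁻¹ = 1 := congrArg Subtype.val h
        have h2 : (c : X) = g * c * g⁻¹ := mul_inv_eq_one.mp h1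
        calc g * (c : X) = (g * c * g⁻¹) * g := by group
          _ = c * g := by rw [← h2]
      · intro h
        apply Subtype.ext
        rw [hδval]
        show (c : X) * (g * c * g⁻¹)⁻¹ = 1
        rw [h]; group
    have hδδ : ∀ a : V, δ (δ a) = 1 → δ a = 1 := by
      intro a h
      have h1 := (hδ1 (δ a)).mp h
      rw [hδval] at h1
      have h3 : g * (g * (a : X) * g⁻¹ * (a : X)⁻¹) = (g * a * g⁻¹ * (a : X)⁻¹) * g := by
        have e1 : g * (a : X) * g⁻¹ * (a : X)⁻¹ = ((a : X) * (g * a * g⁻¹)⁻¹)⁻¹ := by group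
        rw [e1]
        generalize (a : X) * (g * a * g⁻¹)⁻¹ = y at h1
        calc g * y⁻¹ = y⁻¹ * (y * g) * y⁻¹ := by group
          _ = y⁻¹ * (g * y) * y⁻¹ := by rw [h1]
          _ = y⁻¹ * g := by group
      have h4 := comm_eq_one V g a a.2 (hord g hg) h3
      apply Subtype.ext
      rw [hδval]
      show (a : X) * (g * a * g⁻¹)⁻¹ = 1
      have e2 : (a : X) * (g * a * g⁻¹)⁻¹ = (g * a * g⁻¹ * (a : X)⁻¹)⁻¹ := by group
      rw [e2, h4, inv_one]
    have hFinv : ∀ a v : V, n (((a * δ v : V) : X) * g) = n ((a : X) * g) := by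
      intro a v
      have h1 : ((a * δ v : V) : X) * g = (v : X) * ((a : X) * g) * (v : X)⁻¹ := by
        show (a : X) * ((v : X) * (g * v * g⁻¹)⁻¹) * g = _
        rw [← mul_assoc, hab _ a.2 _ v.2]
        group
      rw [h1, hn_conj]
    obtain ⟨hS2, hS2'⟩ := sum_eq_card_range_mul δ hδδ (fun a : V => n ((a : X) * g)) hFinv
    have hS3 : ∀ c : V, g * (c : X) = c * g → n ((c : X) * g) =
        (∑ b : V, if δ b = 1 then 1 else 0) *
          ∑ h : G, if g * (h : X) = h * g ∧ (h : X) * c = c * h then 1 else 0 := by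
      intro c hc
      rw [hn, hsumX, Finset.mul_sum]
      apply Finset.sum_congr rfl
      intro h _
      rw [Finset.sum_mul]
      apply Finset.sum_congr rfl
      intro b _
      have hiff := hB g hg c c.2 hc b b.2 h h.2
      by_cases hb1 : g * (b : X) = b * g
      · by_cases hh1 : g * (h : X) = h * g ∧ (h : X) * c = c * h
        · rw [if_pos (hiff.mpr ⟨hb1, hh1.1, hh1.2⟩), if_pos ((hδ1 b).mpr hb1), if_pos hh1, mul_one]
        · rw [if_neg (fun hx => hh1 ⟨(hiff.mp hx).2.1, (hiff.mp hx).2.2⟩), if_neg hh1, mul_zero]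
      · rw [if_neg (fun hx => hb1 (hiff.mp hx).1), if_neg (fun hx => hb1 ((hδ1 b).mp hx)),
          zero_mul]
    rw [hS2]
    have h1 : ∑ c : V, (if δ c = 1 then n ((c : X) * g) else 0) =
        (∑ b : V, if δ b = 1 then 1 else 0) * ∑ c : V, ∑ h : G,
          if g * (c : X) = c * g ∧ g * (h : X) = h * g ∧ (h : X) * c = c * h then 1 else 0 := by
      rw [Finset.mul_sum]
      apply Finset.sum_congr rfl
      intro c _
      by_cases hc : g * (c : X) = c * g
      · rw [if_pos ((hδ1 c).mpr hc), hS3 c hc]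
        congr 1
        apply Finset.sum_congr rfl
        intro h _
        simp only [hc, true_and]
      · rw [if_neg (fun hx => hc ((hδ1 c).mp hx))]
        symm
        rw [mul_eq_zero]
        right
        apply Finset.sum_eq_zero
        intro h _
        rw [if_neg (fun hx => hc hx.1)]
    rw [h1, ← mul_assoc, mul_comm (Nat.card δ.range), hS2']
  obtain ⟨Fc, hFc⟩ : ∃ Fc : X → ℕ, ∀ c : X, Fc c = ∑ g : G, ∑ h : G,
      if (g : X) * c = c * g ∧ (g : X) * h = h * g ∧ (h : X) * c = c * h then 1 else 0 :=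
    ⟨_, fun _ => rfl⟩
  have hM1 : ∑ x : X, n x = Nat.card V * ∑ c : V, Fc c := by
    rw [hsumX, Finset.sum_congr rfl (fun g _ => hperg g), ← Finset.mul_sum, Finset.sum_comm]
    congr 1
    apply Finset.sum_congr rfl
    intro c _
    rw [hFc]
  have hFcL : ∀ c : X, Fc c =
      Nat.card (ConjClasses ↥(G ⊓ Subgroup.centralizer ({c} : Set X))) *
        Nat.card ↥(G ⊓ Subgroup.centralizer ({c} : Set X)) := by
    intro c
    rw [hCL, hFc]
    rw [← sum_ite_mem G (fun x => ∑ h : G,
      if x * c = c * x ∧ x * (h : X) = h * x ∧ (h : X) * c = c * h then 1 else 0)]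
    apply Finset.sum_congr rfl
    intro x _
    by_cases hx : x ∈ G
    · rw [if_pos hx, ← sum_ite_mem G (fun y =>
        if x * c = c * x ∧ x * y = y * x ∧ y * c = c * y then 1 else 0)]
      apply Finset.sum_congr rfl
      intro y _
      simp only [Subgroup.mem_inf, Subgroup.mem_centralizer_singleton_iff, hx, true_and]
      by_cases hy : y ∈ G
      · simp only [hy, true_and, if_true]
        by_cases hP : x * c = c * x ∧ x * y = y * x ∧ y * c = c * y
        · rw [if_pos hP, if_pos ⟨hP.1, hP.2.2, hP.2.1⟩]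
        · rw [if_neg hP, if_neg (fun hx' => hP ⟨hx'.1, hx'.2.2, hx'.2.1⟩)]
      · simp [hy]
    · rw [if_neg hx]
      symm
      apply Finset.sum_eq_zero
      intro y _
      rw [if_neg (fun h => hx h.1.1)]
  have hFc_conj : ∀ g0 ∈ G, ∀ c : X, Fc (g0 * c * g0⁻¹) = Fc c := by
    intro g0 hg0 c
    rw [hFc, hFc]
    let φ : G ≃ G := (MulAut.conj (⟨g0, hg0⟩ : G)).toEquiv
    have hφ : ∀ u : G, ((φ u : G) : X) = g0 * u * g0⁻¹ := fun u => rfl
    have key : ∀ a b : X, (g0 * a * g0⁻¹) * (g0 * b * g0⁻¹) = (g0 * b * g0⁻¹) * (g0 * a * g0⁻¹) ↔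
        a * b = b * a := by
      intro a b
      constructor
      · intro h1
        have h2 : g0 * (a * b) * g0⁻¹ = g0 * (b * a) * g0⁻¹ := by
          calc g0 * (a * b) * g0⁻¹ = (g0 * a * g0⁻¹) * (g0 * b * g0⁻¹) := by group
            _ = (g0 * b * g0⁻¹) * (g0 * a * g0⁻¹) := h1
            _ = g0 * (b * a) * g0⁻¹ := by group
        exact mul_left_cancel (mul_right_cancel h2)
      · intro h1
        calc (g0 * a * g0⁻¹) * (g0 * b * g0⁻¹) = g0 * (a * b) * g0⁻¹ := by group
          _ = g0 * (b * a) * g0⁻¹ := by rw [h1]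
          _ = _ := by group
    rw [← Equiv.sum_comp φ]
    apply Finset.sum_congr rfl
    intro g _
    rw [← Equiv.sum_comp φ]
    apply Finset.sum_congr rfl
    intro h _
    rw [hφ, hφ, key, key, key]
  obtain ⟨orb, horb⟩ : ∃ orb : X → ℕ, ∀ s : X, orb s =
      ∑ c : V, if ∃ g ∈ G, g * (c : X) * g⁻¹ = s then 1 else 0 := ⟨_, fun _ => rfl⟩
  have hgroup : ∑ c : V, Fc c = ∑ s ∈ S, orb s * Fc s := by
    have h1 : ∀ c : V, Fc c = ∑ s ∈ S, if ∃ g ∈ G, g * (c : X) * g⁻¹ = s then Fc s else 0 := by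
      intro c
      obtain ⟨s0, ⟨hs0, g0, hg0, hgs⟩, huniq0⟩ := hrep c c.2
      rw [Finset.sum_eq_single_of_mem s0 hs0]
      · rw [if_pos ⟨g0, hg0, hgs⟩, ← hgs, hFc_conj g0 hg0]
      · intro s hs hne
        rw [if_neg]
        intro hex
        exact hne (huniq0 s ⟨hs, hex⟩)
    rw [Finset.sum_congr rfl (fun c _ => h1 c), Finset.sum_comm]
    apply Finset.sum_congr rfl
    intro s _
    rw [horb, Finset.sum_mul]
    apply Finset.sum_congr rfl
    intro c _
    split_ifs <;> simp
  have horbstab : ∀ s ∈ S,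
      orb s * Nat.card ↥(G ⊓ Subgroup.centralizer ({s} : Set X)) = Nat.card G := by
    intro s hs
    have hsV := hSV s hs
    have hL : Nat.card ↥(G ⊓ Subgroup.centralizer ({s} : Set X)) =
        ∑ u : G, if (u : X) * s = s * u then 1 else 0 := by
      rw [Nat.card_eq_fintype_card, Fintype.card_subtype, Finset.card_filter,
        ← sum_ite_mem G (fun u => if u * s = s * u then 1 else 0)]
      apply Finset.sum_congr rfl
      intro x _
      simp only [Subgroup.mem_inf, Subgroup.mem_centralizer_singleton_iff]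
      by_cases hx : x ∈ G <;> simp [hx]
    have h1 : ∑ g : G, ∑ c : V, (if (g : X) * c * (g : X)⁻¹ = s then 1 else 0) = Nat.card G := by
      rw [Nat.card_eq_fintype_card, ← Finset.card_univ, Finset.card_eq_sum_ones]
      apply Finset.sum_congr rfl
      intro g _
      have hmem : (g : X)⁻¹ * s * (g : X) ∈ V := by
        have h2 := Subgroup.Normal.conj_mem (inferInstance : V.Normal) s hsV (g : X)⁻¹
        rwa [inv_inv] at h2
      rw [Finset.sum_eq_single (⟨(g : X)⁻¹ * s * g, hmem⟩ : V)]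
      · rw [if_pos]
        group
      · intro c _ hne
        rw [if_neg]
        intro hc
        apply hne
        apply Subtype.ext
        show (c : X) = (g : X)⁻¹ * s * g
        rw [← hc]
        group
      · intro h
        exact absurd (Finset.mem_univ _) h
    rw [Finset.sum_comm] at h1
    rw [← h1, horb, Finset.sum_mul]
    apply Finset.sum_congr rfl
    intro c _
    by_cases hex : ∃ g ∈ G, g * (c : X) * g⁻¹ = s
    · rw [if_pos hex, one_mul, hL]
      obtain ⟨g0, hg0, hgs⟩ := hex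
      rw [← Equiv.sum_comp (Equiv.mulRight (⟨g0, hg0⟩ : G))
        (fun g : G => if (g : X) * c * (g : X)⁻¹ = s then 1 else 0)]
      apply Finset.sum_congr rfl
      intro u _
      have hu : (((Equiv.mulRight (⟨g0, hg0⟩ : G)) u : G) : X) = (u : X) * g0 := rfl
      rw [hu]
      have hiff : ((u : X) * g0) * (c : X) * ((u : X) * g0)⁻¹ = s ↔ (u : X) * s = s * u := by
        have e1 : ((u : X) * g0) * (c : X) * ((u : X) * g0)⁻¹ =
            (u : X) * (g0 * c * g0⁻¹) * (u : X)⁻¹ := by group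
        rw [e1, hgs]
        constructor
        · intro h
          calc (u : X) * s = ((u : X) * s * (u : X)⁻¹) * u := by group
            _ = s * u := by rw [h]
        · intro h
          rw [h]
          group
      by_cases hc : (u : X) * s = s * u
      · rw [if_pos hc, if_pos (hiff.mpr hc)]
      · rw [if_neg hc, if_neg (fun hx => hc (hiff.mp hx))]
    · rw [if_neg hex, zero_mul]
      symm
      apply Finset.sum_eq_zero
      intro g _
      rw [if_neg]
      intro hc
      exact hex ⟨g, g.2, hc⟩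
  have hfinal : Nat.card (ConjClasses X) * Nat.card X =
      (∑ s ∈ S, Nat.card (ConjClasses ↥(G ⊓ Subgroup.centralizer ({s} : Set X)))) *
        Nat.card X := by
    rw [hCX, hM1, hgroup, hcard, Finset.sum_mul, Finset.mul_sum]
    apply Finset.sum_congr rfl
    intro s hs
    rw [hFcL s, ← horbstab s hs]
    ring
  exact Nat.eq_of_mul_eq_mul_right Nat.card_pos hfinal

end Cfsg.Agent.S4956
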