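import Cfsg.Statements.S4964
import Cfsg.Agent.Helper6.BlockDer

set_option autoImplicit false
open Cfsg

namespace Cfsg.Agent.S4964

open Cfsg.Agent Cfsg.Agent.Helper6 in
/-- Let D be a normal p-subgroup of the finite group G, let D′ be its commutator subgroup (normal in G), and fix a maximal ideal M of the algebraic integers containing p. Then (i) two irreducible characters of G ⧸ D′ lie in the same p-block if and only if their inflations to G do, and (ii) every p-block of G contains the inflation of some irreducible character of G ⧸ D′; so inflation induces a bijection between the p-blocks of G ⧸ D′ and the p-blocks of G. -/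
theorem result {G : Type*} [Group G] [Finite G] (p : ℕ) [Fact p.Prime] (M : Ideal Cfsg.AlgInt) (hM : Cfsg.IsPModular p M) (D : Subgroup G) [D.Normal] (hD : IsPGroup p D) : (∀ χ ψ : Cfsg.IrrCharacter (G ⧸ ⁅D, D⁆), Cfsg.SameBlock M (χ : G ⧸ ⁅D, D⁆ → ℂ) (ψ : G ⧸ ⁅D, D⁆ → ℂ) ↔ Cfsg.SameBlock M ((χ : G ⧸ ⁅D, D⁆ → ℂ) ∘ QuotientGroup.mk) ((ψ : G ⧸ ⁅D, D⁆ → ℂ) ∘ QuotientGroup.mk)) ∧ ∀ B : Set (Cfsg.IrrCharacter G), Cfsg.IsPBlock M B → ∃ χ : Cfsg.IrrCharacter (G ⧸ ⁅D, D⁆), ∃ θ ∈ B, (θ : G → ℂ) = (χ : G ⧸ ⁅D, D⁆ → ℂ) ∘ QuotientGroup.mk := by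
  classical
  have : Fintype G := Fintype.ofFinite G
  have hD' : IsPGroup p ↥⁅D, D⁆ := hD.to_le (Subgroup.commutator_le_left D D)
  refine ⟨fun χ ψ => ⟨fun h => Helper25.sameBlock_inflate hM.2.1.isPrime ⁅D, D⁆ χ ψ h,
    fun h => ?_⟩, ?_⟩
  · have : Fintype (G ⧸ ⁅D, D⁆) := Fintype.ofFinite _
    haveI hDn : (D.map (QuotientGroup.mk' ⁅D, D⁆)).Normal :=
      Subgroup.Normal.map inferInstance _ (QuotientGroup.mk'_surjective _)
    have hDbar : IsPGroup p ↥(D.map (QuotientGroup.mk' ⁅D, D⁆)) := hD.map _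
    apply Helper25.sameBlock_of_regular hM
    intro x hx
    by_cases hxC : x ∈ Subgroup.centralizer
        ((D.map (QuotientGroup.mk' ⁅D, D⁆) : Subgroup (G ⧸ ⁅D, D⁆)) : Set (G ⧸ ⁅D, D⁆))
    · obtain ⟨g, hg, rfl⟩ := Helper25.exists_regular_lift hM.1 ⁅D, D⁆ x hx
      have hgD : ∀ q ∈ D, q * g = g * q := by
        apply Helper6.BlockDer.centralizes_of_trivial_on_abelianization D hD g hg
        intro q hq
        have h1 := Subgroup.mem_centralizer_iff.1 hxC (QuotientGroup.mk' _ q)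
          (Subgroup.mem_map_of_mem _ hq)
        have h1' : (q : G ⧸ ⁅D, D⁆) * (g : G ⧸ ⁅D, D⁆) = (g : G ⧸ ⁅D, D⁆) * (q : G ⧸ ⁅D, D⁆) := h1
        have h2 : ((q⁻¹ * g * q * g⁻¹ : G) : G ⧸ ⁅D, D⁆) = 1 := by
          have e : ((q⁻¹ * g * q * g⁻¹ : G) : G ⧸ ⁅D, D⁆)
              = (q : G ⧸ ⁅D, D⁆)⁻¹ * ((g : G ⧸ ⁅D, D⁆) * (q : G ⧸ ⁅D, D⁆))
                * (g : G ⧸ ⁅D, D⁆)⁻¹ := by
            simp only [QuotientGroup.mk_mul, QuotientGroup.mk_inv, mul_assoc]
          rw [e, ← h1']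
          group
        exact (QuotientGroup.eq_one_iff _).1 h2
      have hgC : g ∈ Subgroup.centralizer ((⁅D, D⁆ : Subgroup G) : Set G) := by
        rw [Subgroup.mem_centralizer_iff]
        intro n hn
        exact hgD n (Subgroup.commutator_le_left D D hn)
      have h1 := h g
      rw [Helper25.centralChar_inflate, Helper25.centralChar_inflate,
        Helper25.fibIdx_eq_one ⁅D, D⁆ hD' g hgC hg, Nat.cast_one, one_mul, one_mul] at h1
      exact h1
    · exact Helper25.MemLocalIdeal.sub hM.2.1.isPrime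
        (Helper25.centralChar_mem_of_not_centralizer hM _ hDbar χ x hxC)
        (Helper25.centralChar_mem_of_not_centralizer hM _ hDbar ψ x hxC)
  · intro B hB
    obtain ⟨θ, hθ, hker⟩ := Helper25.exists_mem_block_ker hM ⁅D, D⁆ hD' hB
    obtain ⟨β, hβ⟩ := Helper25.exists_deflation_of_ker ⁅D, D⁆ θ hker
    exact ⟨β, θ, hθ, hβ⟩

end Cfsg.Agent.S4964
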