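import Mathlib
import Cfsg.Statements.S4965
-- import your own Cfsg.Agent.* helpers here

set_option autoImplicit false
open Cfsg

namespace Cfsg.Agent.S4965

/-- Let X be a finite group with an abelian normal subgroup V (any two elements of V commute), and let φ be the action of X ⧸ V on V induced by conjugation (well defined because V is abelian; the hypothesis hφ says that the class of x acts as conjugation by x). Then X has at most as many conjugacy classes as the semidirect product of V by X ⧸ V formed with this action: the split extension has the largest class number among extensions with the given action. -/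
theorem result {X : Type*} [Group X] [Finite X] (V : Subgroup X) [V.Normal] (hab : ∀ a ∈ V, ∀ b ∈ V, a * b = b * a) (φ : X ⧸ V →* MulAut ↥V) (hφ : ∀ (x : X) (v : ↥V), ((φ (QuotientGroup.mk x) v : ↥V) : X) = x * v * x⁻¹) : Nat.card (ConjClasses X) ≤ Nat.card (ConjClasses (SemidirectProduct ↥V (X ⧸ V) φ)) := by
  classical
  have hfinY : Finite (SemidirectProduct ↥V (X ⧸ V) φ) :=
    Finite.of_equiv _ SemidirectProduct.equivProd.symm
  have hex : ∀ q : (X ⧸ V) × (X ⧸ V), ∃ r : X × X,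
      (∃ p : X × X, Commute p.1 p.2 ∧ (p.1 : X ⧸ V) = q.1 ∧ (p.2 : X ⧸ V) = q.2) →
      (Commute r.1 r.2 ∧ (r.1 : X ⧸ V) = q.1 ∧ (r.2 : X ⧸ V) = q.2) := by
    intro q
    by_cases h : ∃ p : X × X, Commute p.1 p.2 ∧ (p.1 : X ⧸ V) = q.1 ∧ (p.2 : X ⧸ V) = q.2
    · obtain ⟨p, hp⟩ := h
      exact ⟨p, fun _ => hp⟩
    · exact ⟨(1, 1), fun h' => absurd h' h⟩
  choose r hr using hex
  have hmemV : ∀ x x0 : X, (x0 : X ⧸ V) = (x : X ⧸ V) → x * x0⁻¹ ∈ V := by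
    intro x x0 h
    rw [← QuotientGroup.eq_one_iff, QuotientGroup.mk_mul, QuotientGroup.mk_inv, h, mul_inv_cancel]
  have hrp : ∀ p : {p : X × X // Commute p.1 p.2},
      Commute (r ((p.1.1 : X ⧸ V), (p.1.2 : X ⧸ V))).1 (r ((p.1.1 : X ⧸ V), (p.1.2 : X ⧸ V))).2 ∧
      ((r ((p.1.1 : X ⧸ V), (p.1.2 : X ⧸ V))).1 : X ⧸ V) = (p.1.1 : X ⧸ V) ∧
      ((r ((p.1.1 : X ⧸ V), (p.1.2 : X ⧸ V))).2 : X ⧸ V) = (p.1.2 : X ⧸ V) :=
    fun p => hr _ ⟨p.1, p.2, rfl, rfl⟩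
  let g : {p : X × X // Commute p.1 p.2} →
      SemidirectProduct ↥V (X ⧸ V) φ × SemidirectProduct ↥V (X ⧸ V) φ := fun p =>
    (⟨⟨p.1.1 * (r ((p.1.1 : X ⧸ V), (p.1.2 : X ⧸ V))).1⁻¹, hmemV _ _ (hrp p).2.1⟩,
        (p.1.1 : X ⧸ V)⟩,
     ⟨⟨p.1.2 * (r ((p.1.1 : X ⧸ V), (p.1.2 : X ⧸ V))).2⁻¹, hmemV _ _ (hrp p).2.2⟩,
        (p.1.2 : X ⧸ V)⟩)
  have hcomm : ∀ p, Commute (g p).1 (g p).2 := by
    intro p
    obtain ⟨⟨x, y⟩, hxy⟩ := p
    have hxy' : x * y = y * x := hxy.eq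
    obtain ⟨h0, h1, h2⟩ := hrp ⟨(x, y), hxy⟩
    simp only at h0 h1 h2
    obtain ⟨x0, hx0⟩ : ∃ x0 : X, x0 = (r ((x : X ⧸ V), (y : X ⧸ V))).1 := ⟨_, rfl⟩
    obtain ⟨y0, hy0⟩ : ∃ y0 : X, y0 = (r ((x : X ⧸ V), (y : X ⧸ V))).2 := ⟨_, rfl⟩
    rw [← hx0] at h0 h1
    rw [← hy0] at h0 h2
    have h0' : x0 * y0 = y0 * x0 := h0.eq
    have haV : x * x0⁻¹ ∈ V := hmemV _ _ h1
    have hbV : y * y0⁻¹ ∈ V := hmemV _ _ h2
    have huV : x * (y * y0⁻¹) * x⁻¹ ∈ V := Subgroup.Normal.conj_mem inferInstance _ hbV x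
    have hwV : y * (x * x0⁻¹) * y⁻¹ ∈ V := Subgroup.Normal.conj_mem inferInstance _ haV y
    have key : (x * x0⁻¹) * (x * (y * y0⁻¹) * x⁻¹) = (y * y0⁻¹) * (y * (x * x0⁻¹) * y⁻¹) := by
      have e1 : (x * x0⁻¹)⁻¹ * (x * (y * y0⁻¹) * x⁻¹)⁻¹ * (x * y) = x0 * y0 := by group
      have e2 : (y * y0⁻¹)⁻¹ * (y * (x * x0⁻¹) * y⁻¹)⁻¹ * (y * x) = y0 * x0 := by group
      have e3 : (x * x0⁻¹)⁻¹ * (x * (y * y0⁻¹) * x⁻¹)⁻¹ =
          (y * y0⁻¹)⁻¹ * (y * (x * x0⁻¹) * y⁻¹)⁻¹ := by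
        apply mul_right_cancel (b := x * y)
        rw [e1, h0', ← e2, hxy']
      have e4 : (x * (y * y0⁻¹) * x⁻¹) * (x * x0⁻¹) = (y * (x * x0⁻¹) * y⁻¹) * (y * y0⁻¹) := by
        rw [← mul_inv_rev, ← mul_inv_rev] at e3
        exact inv_injective e3
      rw [hab _ haV _ huV, e4, hab _ hwV _ hbV]
    show (g ⟨(x, y), hxy⟩).1 * (g ⟨(x, y), hxy⟩).2 = (g ⟨(x, y), hxy⟩).2 * (g ⟨(x, y), hxy⟩).1
    apply SemidirectProduct.ext
    · rw [SemidirectProduct.mul_left, SemidirectProduct.mul_left]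
      apply Subtype.ext
      simp only [g, Subgroup.coe_mul, hφ]
      rw [← hx0, ← hy0]
      exact key
    · rw [SemidirectProduct.mul_right, SemidirectProduct.mul_right]
      show (x : X ⧸ V) * (y : X ⧸ V) = (y : X ⧸ V) * (x : X ⧸ V)
      rw [← QuotientGroup.mk_mul, ← QuotientGroup.mk_mul, hxy']
  have hinj : Function.Injective (fun p => (⟨g p, hcomm p⟩ :
      {q : SemidirectProduct ↥V (X ⧸ V) φ × SemidirectProduct ↥V (X ⧸ V) φ // Commute q.1 q.2})) := by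
    intro p p' hpp
    have h1 : g p = g p' := congrArg Subtype.val hpp
    obtain ⟨⟨x, y⟩, hxy⟩ := p
    obtain ⟨⟨x', y'⟩, hxy'⟩ := p'
    have hq1 : (x : X ⧸ V) = (x' : X ⧸ V) := congrArg (fun q => q.1.right) h1
    have hq2 : (y : X ⧸ V) = (y' : X ⧸ V) := congrArg (fun q => q.2.right) h1
    have hl1 : x * (r ((x : X ⧸ V), (y : X ⧸ V))).1⁻¹ = x' * (r ((x' : X ⧸ V), (y' : X ⧸ V))).1⁻¹ :=
      congrArg (fun q => (q.1.left : X)) h1
    have hl2 : y * (r ((x : X ⧸ V), (y : X ⧸ V))).2⁻¹ = y' * (r ((x' : X ⧸ V), (y' : X ⧸ V))).2⁻¹ :=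
      congrArg (fun q => (q.2.left : X)) h1
    rw [← hq1, ← hq2] at hl1 hl2
    have ex : x = x' := mul_right_cancel hl1
    have ey : y = y' := mul_right_cancel hl2
    subst ex; subst ey
    rfl
  have hle := Nat.card_le_card_of_injective _ hinj
  rw [card_comm_eq_card_conjClasses_mul_card, card_comm_eq_card_conjClasses_mul_card] at hle
  have hY : Nat.card (SemidirectProduct ↥V (X ⧸ V) φ) = Nat.card X := by
    rw [SemidirectProduct.card, ← Subgroup.index_eq_card, Subgroup.card_mul_index]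
  rw [hY] at hle
  exact Nat.le_of_mul_le_mul_right hle Nat.card_pos

end Cfsg.Agent.S4965
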