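import Cfsg.Statements.S5015
import Cfsg.Agent.Helper25.RankOne
open Cfsg.Agent.Helper25

set_option autoImplicit false
open Cfsg

namespace Cfsg.Agent.S5015

/-- Let a group Y act doubly transitively on a set Ω with at least three points, and suppose that the stabilizer of a point α contains a nilpotent subgroup A, normalized by that stabilizer, which acts regularly on the points other than α. Then for any y in Y moving α, the subgroups A and y A y⁻¹ are the unipotent subgroups of a rank one group, and the normal closure of A in Y (the subgroup generated by all conjugates of A) is generated by A and y A y⁻¹ alone. -/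
theorem result {Y Ω : Type*} [Group Y] [MulAction Y Ω]
    (h2 : MulAction.IsMultiplyPretransitive Y Ω 2) (hΩ : 3 ≤ ENat.card Ω) (α : Ω) (A : Subgroup Y)
    (hA : A ≤ MulAction.stabilizer Y α) (hAn : ∀ y ∈ MulAction.stabilizer Y α, Cfsg.conjBy A y = A)
    (hnil : Group.IsNilpotent A) (hreg : ∀ β γ : Ω, β ≠ α → γ ≠ α → ∃! a : Y, a ∈ A ∧ a • β = γ)
    (y : Y) (hy : y ∉ MulAction.stabilizer Y α) :
    Cfsg.IsRankOnePair A (Cfsg.conjBy A y) ∧ Subgroup.normalClosure (A : Set Y) = A ⊔ Cfsg.conjBy A y := by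
  have hαβ : y • α ≠ α := fun h => hy (MulAction.mem_stabilizer_iff.mpr h)
  have hfix : ∀ a ∈ A, a • α = α := fun a ha => MulAction.mem_stabilizer_iff.mp (hA ha)
  have F1 : ∀ g g' : Y, g • α = g' • α → conjBy A g = conjBy A g' := by
    intro g g' hgg
    have hs : g⁻¹ * g' ∈ MulAction.stabilizer Y α := by
      rw [MulAction.mem_stabilizer_iff, mul_smul, ← hgg, inv_smul_smul]
    have h1 := hAn _ hs
    calc conjBy A g = conjBy (conjBy A (g⁻¹ * g')) g := by rw [h1]
      _ = conjBy A g' := by rw [conjBy_conjBy]; simp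
  obtain ⟨γ, hγα, hγβ⟩ : ∃ γ : Ω, γ ≠ α ∧ γ ≠ y • α := by
    by_contra hcon
    push Not at hcon
    have hsub : (Set.univ : Set Ω) ⊆ {α, y • α} := by
      intro x _
      by_cases hx : x = α
      · left; exact hx
      · right; exact hcon x hx
    have h1 := Set.encard_le_encard hsub
    rw [Set.encard_univ] at h1
    have h3 := Set.encard_pair hαβ.symm
    rw [h3] at h1
    have h4 : (3 : ℕ∞) ≤ 2 := le_trans hΩ h1
    exact absurd h4 (by decide)
  have hBfix : ∀ b ∈ conjBy A y, b • (y • α) = y • α := by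
    intro b hb
    rw [mem_conjBy] at hb
    have h1 := hfix _ hb
    rw [mul_smul, mul_smul, inv_smul_eq_iff] at h1
    exact h1
  have hBreg : ∀ δ ε : Ω, δ ≠ y • α → ε ≠ y • α → ∃! b : Y, b ∈ conjBy A y ∧ b • δ = ε := by
    intro δ ε hδ hε
    have h1 : y⁻¹ • δ ≠ α := by
      intro h; apply hδ; rw [← h, smul_inv_smul]
    have h2 : y⁻¹ • ε ≠ α := by
      intro h; apply hε; rw [← h, smul_inv_smul]
    obtain ⟨a, ⟨ha, hae⟩, huniq⟩ := hreg _ _ h1 h2
    refine ⟨y * a * y⁻¹, ⟨conj_mem_conjBy ha, ?_⟩, ?_⟩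
    · rw [mul_smul, mul_smul, hae, smul_inv_smul]
    · rintro b ⟨hb, hbe⟩
      rw [mem_conjBy] at hb
      have h3 := huniq (y⁻¹ * b * y) ⟨hb, by rw [mul_smul, mul_smul, smul_inv_smul, hbe]⟩
      rw [← h3]; group
  have hpair : Cfsg.IsRankOnePair A (Cfsg.conjBy A y) := by
    refine ⟨?_, hnil, ?_, ?_, ?_⟩
    · intro hAB
      obtain ⟨a, ⟨ha, haγ⟩, _⟩ := hreg (y • α) γ hαβ hγα
      rw [hAB] at ha
      exact hγβ (haγ ▸ hBfix a ha)
    · exact Group.nilpotent_of_mulEquiv ((MulAut.conj y).subgroupMap A)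
    · intro a ha ha1
      have h1 : a⁻¹ • (y • α) ≠ y • α := by
        intro h
        obtain ⟨a₀, _, huniq⟩ := hreg (y • α) (y • α) hαβ hαβ
        have e1 := huniq a⁻¹ ⟨inv_mem ha, h⟩
        have e2 := huniq 1 ⟨one_mem _, one_smul _ _⟩
        exact ha1 (inv_eq_one.mp (e1.trans e2.symm))
      obtain ⟨b', ⟨hb', hb'e⟩, _⟩ := hBreg α (a⁻¹ • (y • α)) hαβ.symm h1
      refine ⟨b'⁻¹, inv_mem hb', ?_, ?_⟩
      · intro hb1
        rw [inv_eq_one] at hb1
        rw [hb1, one_smul] at hb'e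
        apply hαβ
        have h5 : a • α = y • α := by
          conv_lhs => rw [hb'e]
          rw [smul_inv_smul]
        rw [← h5, hfix a ha]
      · rw [inv_inv, conjBy_conjBy]
        apply F1
        rw [hb'e, mul_smul]
    · intro b hb hb1
      have h1 : b⁻¹ • α ≠ α := by
        intro h
        obtain ⟨b₀, _, huniq⟩ := hBreg α α hαβ.symm hαβ.symm
        have e1 := huniq b⁻¹ ⟨inv_mem hb, h⟩
        have e2 := huniq 1 ⟨one_mem _, one_smul _ _⟩
        exact hb1 (inv_eq_one.mp (e1.trans e2.symm))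
      have h2 : b⁻¹ • α ≠ y • α := by
        intro h
        have h3 := hBfix b⁻¹ (inv_mem hb)
        rw [← h3] at h
        exact hαβ (smul_left_cancel _ h).symm
      obtain ⟨a', ⟨ha', ha'e⟩, _⟩ := hreg (y • α) (b⁻¹ • α) hαβ h1
      refine ⟨a'⁻¹, inv_mem ha', ?_, ?_⟩
      · intro ha1
        rw [inv_eq_one] at ha1
        rw [ha1, one_smul] at ha'e
        exact h2 ha'e.symm
      · rw [inv_inv, conjBy_conjBy]
        apply F1
        rw [mul_smul, ha'e]
  refine ⟨hpair, le_antisymm ?_ ?_⟩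
  · have htrans : ∀ δ : Ω, ∃ x ∈ A ⊔ conjBy A y, x • α = δ := by
      intro δ
      by_cases hδ : δ = y • α
      · obtain ⟨a₁, ⟨ha₁, ha₁e⟩, _⟩ := hreg γ (y • α) hγα hαβ
        obtain ⟨b₁, ⟨hb₁, hb₁e⟩, _⟩ := hBreg α γ hαβ.symm hγβ
        refine ⟨a₁ * b₁, mul_mem (Subgroup.mem_sup_left ha₁) (Subgroup.mem_sup_right hb₁), ?_⟩
        rw [mul_smul, hb₁e, ha₁e, hδ]
      · obtain ⟨b₁, ⟨hb₁, hb₁e⟩, _⟩ := hBreg α δ hαβ.symm hδ
        exact ⟨b₁, Subgroup.mem_sup_right hb₁, hb₁e⟩
    unfold Subgroup.normalClosure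
    rw [Subgroup.closure_le]
    intro x hx
    rw [Group.mem_conjugatesOfSet_iff] at hx
    obtain ⟨a, ha, hax⟩ := hx
    rw [isConj_iff] at hax
    obtain ⟨c, rfl⟩ := hax
    obtain ⟨x₀, hx₀, hx₀e⟩ := htrans (c • α)
    have h1 : c * a * c⁻¹ ∈ conjBy A c := conj_mem_conjBy ha
    rw [← F1 x₀ c hx₀e] at h1
    exact conjBy_le_of_mem le_sup_left hx₀ h1
  · refine sup_le Subgroup.le_normalClosure ?_
    intro x hx
    rw [mem_conjBy] at hx
    have h1 : y⁻¹ * x * y ∈ Subgroup.normalClosure (A : Set Y) := Subgroup.le_normalClosure hx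
    have h2 := Subgroup.normalClosure_normal.conj_mem _ h1 y
    have h3 : y * (y⁻¹ * x * y) * y⁻¹ = x := by group
    rw [h3] at h2
    exact h2

end Cfsg.Agent.S5015
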