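import Cfsg.Statements.S5017
import Cfsg.Agent.Helper25.RankOne2
open Cfsg.Agent.Helper25

set_option autoImplicit false
open Cfsg

namespace Cfsg.Agent.S5017

/-- Let X be a rank one group with unipotent subgroups A and B and N a normal subgroup of X. Then either X = N A or N lies in the centre of X. Consequently a perfect rank one group is quasisimple. -/
theorem result {X : Type*} [Group X] {A B : Subgroup X} (h : Cfsg.IsRankOneGroup X A B) :
    (∀ N : Subgroup X, N.Normal → N ⊔ A = ⊤ ∨ N ≤ Subgroup.center X) ∧
    (Group.IsPerfect X → Cfsg.IsQuasisimple X) := by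
  obtain ⟨htop, hp⟩ := h
  have part1 : ∀ N : Subgroup X, N.Normal → N ⊔ A = ⊤ ∨ N ≤ Subgroup.center X := by
    intro N hN
    have hN' : ∀ n ∈ N, ∀ x ∈ A ⊔ B, x * n * x⁻¹ ∈ N := fun n hn x _ => hN.conj_mem n hn x
    by_cases hmove : ∃ n ∈ N, conjBy A n ≠ A
    · left
      obtain ⟨n, hn, hne⟩ := hmove
      have hB := rankOne_le_sup_of_moves hp hN' (by rw [htop]; exact le_top) hn hne
      rw [eq_top_iff, ← htop]
      exact sup_le le_sup_right hB
    · right
      push Not at hmove
      have hB : ∀ n ∈ N, conjBy B n = B :=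
        rankOne_normalizes_unipotent hN' hmove (rankOne_right_mem_unipotent hp)
      intro n hn
      rw [Subgroup.mem_center_iff]
      intro x
      exact (rankOne_central_of_normalizes hp hN' hmove hB n hn x (by rw [htop]; trivial)).symm
  refine ⟨part1, ?_⟩
  intro hperf
  refine ⟨hperf, ?_⟩
  obtain ⟨b, hb, hb1⟩ := exists_ne_one_of_ne_bot (rankOne_ne_bot_right hp)
  have hbZ : b ∉ Subgroup.center X := by
    intro hbz
    apply hb1
    apply rankOne_eq_one_of_conjBy_eq (RankOnePair_symm hp) hb
    apply conjBy_eq_self_of_comm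
    intro a _
    exact (Subgroup.mem_center_iff.mp hbz a).symm
  have hnt : Nontrivial (X ⧸ Subgroup.center X) := by
    refine nontrivial_of_ne (b : X ⧸ Subgroup.center X) 1 ?_
    rw [Ne, QuotientGroup.eq_one_iff]
    exact hbZ
  refine @IsSimpleGroup.mk _ _ hnt ?_
  intro M hM
  have hNn : (M.comap (QuotientGroup.mk' (Subgroup.center X))).Normal := hM.comap _
  rcases part1 _ hNn with h1 | h1
  · right
    have hsurj : Function.Surjective
        ((QuotientGroup.mk' (M.comap (QuotientGroup.mk' (Subgroup.center X)))).comp A.subtype) := by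
      rw [← MonoidHom.range_eq_top, MonoidHom.range_comp, Subgroup.range_subtype]
      have h2 : (M.comap (QuotientGroup.mk' (Subgroup.center X)) ⊔ A).map
          (QuotientGroup.mk' (M.comap (QuotientGroup.mk' (Subgroup.center X)))) = ⊤ := by
        rw [h1]
        exact Subgroup.map_top_of_surjective _ (QuotientGroup.mk'_surjective _)
      rw [Subgroup.map_sup, QuotientGroup.map_mk'_self, bot_sup_eq] at h2
      exact h2
    haveI := hp.nilpotent_left
    have hnil : Group.IsNilpotent (X ⧸ (M.comap (QuotientGroup.mk' (Subgroup.center X)))) :=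
      Group.nilpotent_of_surjective _ hsurj
    have hsub : Subsingleton (X ⧸ (M.comap (QuotientGroup.mk' (Subgroup.center X)))) := by
      by_contra hns
      rw [not_subsingleton_iff_nontrivial] at hns
      exact Group.IsPerfect.not_isNilpotent
        (X ⧸ (M.comap (QuotientGroup.mk' (Subgroup.center X)))) hnil
    have hNtop := QuotientGroup.subgroup_eq_top_of_subsingleton _ hsub
    rw [eq_top_iff]
    intro x _
    obtain ⟨x', rfl⟩ := QuotientGroup.mk'_surjective (Subgroup.center X) x
    have h3 : x' ∈ M.comap (QuotientGroup.mk' (Subgroup.center X)) := by rw [hNtop]; trivial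
    exact h3
  · left
    rw [eq_bot_iff]
    intro x hx
    obtain ⟨x', rfl⟩ := QuotientGroup.mk'_surjective (Subgroup.center X) x
    have h3 : x' ∈ M.comap (QuotientGroup.mk' (Subgroup.center X)) := hx
    rw [Subgroup.mem_bot]
    exact (QuotientGroup.eq_one_iff x').mpr (h1 h3)

end Cfsg.Agent.S5017
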