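import Cfsg.Statements.S5018
import Cfsg.Agent.Helper25.RankOne2
open Cfsg.Agent.Helper25
open scoped commutatorElement

set_option autoImplicit false
open Cfsg

namespace Cfsg.Agent.S5018

/-- A rank one group is not nilpotent, and its second centre equals its centre. -/
theorem result {X : Type*} [Group X] {A B : Subgroup X} (h : Cfsg.IsRankOneGroup X A B) :
    Subgroup.upperCentralSeries X 2 = Subgroup.center X ∧ ¬ Group.IsNilpotent X := by
  obtain ⟨htop, hp⟩ := h
  have hnorm : ∀ {A B : Subgroup X}, IsRankOnePair A B → A ⊔ B = ⊤ →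
      ∀ z ∈ Subgroup.upperCentralSeries X 2, conjBy A z = A := by
    intro A B hp htop z hz
    by_contra hne
    have hD : conjBy A z ∈ unipotentSubgroups A B := ⟨z, by rw [htop]; trivial, rfl⟩
    obtain ⟨a, ha, ha1⟩ := exists_ne_one_of_ne_bot (rankOne_ne_bot_left hp)
    apply ha1
    apply rankOne_eq_one_of_conjBy_unipotent hp hD hne ha
    have hc : ⁅z, a⁆⁻¹ ∈ Subgroup.center X := by
      have := (Subgroup.mem_upperCentralSeries_succ_iff (n := 1)).mp hz a
      rw [Subgroup.upperCentralSeries_one X] at this
      exact inv_mem this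
    have haz : a * z = ⁅z, a⁆⁻¹ * (z * a) := by
      rw [commutatorElement_def]; group
    rw [conjBy_conjBy, haz, ← conjBy_conjBy, ← conjBy_conjBy, conjBy_of_mem ha]
    apply conjBy_eq_self_of_comm
    intro x _
    exact (Subgroup.mem_center_iff.mp hc x).symm
  have hZ2 : Subgroup.upperCentralSeries X 2 ≤ Subgroup.center X := by
    intro z hz
    rw [Subgroup.mem_center_iff]
    intro x
    have hN' : ∀ n ∈ Subgroup.upperCentralSeries X 2, ∀ x ∈ A ⊔ B,
        x * n * x⁻¹ ∈ Subgroup.upperCentralSeries X 2 :=
      fun n hn x _ => (inferInstance : (Subgroup.upperCentralSeries X 2).Normal).conj_mem n hn x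
    exact (rankOne_central_of_normalizes hp hN' (hnorm hp htop)
      (hnorm (RankOnePair_symm hp) (by rw [sup_comm]; exact htop)) z hz x
      (by rw [htop]; trivial)).symm
  have hEq : Subgroup.upperCentralSeries X 2 = Subgroup.center X :=
    le_antisymm hZ2 (by
      rw [← Subgroup.upperCentralSeries_one X]
      exact Subgroup.upperCentralSeries_mono X (by norm_num))
  refine ⟨hEq, ?_⟩
  intro hnil
  have hall : ∀ n, Subgroup.upperCentralSeries X (n + 1) = Subgroup.center X := by
    intro n
    induction n with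
    | zero => exact Subgroup.upperCentralSeries_one X
    | succ n ih =>
      ext x
      rw [Subgroup.mem_upperCentralSeries_succ_iff, ih]
      have h2 : x ∈ Subgroup.upperCentralSeries X 2 ↔ ∀ y : X, ⁅x, y⁆ ∈ Subgroup.center X := by
        rw [show (2 : ℕ) = 1 + 1 from rfl, Subgroup.mem_upperCentralSeries_succ_iff,
          Subgroup.upperCentralSeries_one X]
      rw [← h2, hEq]
  obtain ⟨n, hn⟩ := hnil.nilpotent
  have hcen : Subgroup.center X = ⊤ := by
    rw [← hall n]
    exact eq_top_iff.mpr (hn ▸ Subgroup.upperCentralSeries_mono X (Nat.le_succ n))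
  obtain ⟨b, hb, hb1⟩ := exists_ne_one_of_ne_bot (rankOne_ne_bot_right hp)
  apply hb1
  apply rankOne_eq_one_of_conjBy_eq (RankOnePair_symm hp) hb
  apply conjBy_eq_self_of_comm
  intro a _
  have : b ∈ Subgroup.center X := by rw [hcen]; trivial
  exact (Subgroup.mem_center_iff.mp this a).symm

end Cfsg.Agent.S5018
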