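import Cfsg.Statements.S5019
import Mathlib
import Cfsg.Agent.S5017

set_option autoImplicit false
open Cfsg
open Cfsg.Agent.Helper25

namespace Cfsg.Agent.S5019

section ringpart

variable {R : Type*} [Ring R]

-- the ring identity behind the argument
theorem ring_key (α β ξ : R) (hαα : α * α = 0) (hββ : β * β = 0) (hαξ : α * ξ = 0)
    (hI : (1 - α) * β * (1 + α) * ((1 - β) * ξ * (1 + β)) = 0) :
    ((1 - β) * α * (1 + β) + (1 - α) * β * (1 + α)) * ξ = 0 := by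
  have h1 : β * (1 + α) * (1 - β) * ξ = 0 := by
    have e : β * (1 + α) * (1 - β) * ξ
        = (1 + α) * ((1 - α) * β * (1 + α) * ((1 - β) * ξ * (1 + β))) * (1 - β)
          + β * (1 + α) * (1 - β) * ξ * (β * β) + (α * α) * β * (1 + α) * (1 - β) * ξ
          - (α * α) * β * (1 + α) * (1 - β) * ξ * (β * β) := by noncomm_ring
    rw [e, hI, hαα, hββ]; simp
  have e2 : ((1 - β) * α * (1 + β) + (1 - α) * β * (1 + α)) * ξ
      = β * (1 + α) * (1 - β) * ξ + (1 - α * β - β) * (α * ξ) + (β * β) * ξ := by noncomm_ring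
  rw [e2, h1, hαξ, hββ]; simp

variable {X : Type*} [Group X] (ρ : X →* R)

theorem rho_inv_mul (x : X) : ρ x⁻¹ * ρ x = 1 := by rw [← map_mul, inv_mul_cancel, map_one]

theorem rho_mul_inv (x : X) : ρ x * ρ x⁻¹ = 1 := by rw [← map_mul, mul_inv_cancel, map_one]

theorem rho_mul_sub (x y : X) : ρ (x * y) - 1 = (ρ x - 1) * ρ y + (ρ y - 1) := by
  rw [map_mul]; noncomm_ring

theorem rho_conj_sub (g x : X) : ρ (g * x * g⁻¹) - 1 = ρ g * (ρ x - 1) * ρ g⁻¹ := by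
  have h := rho_mul_inv ρ g
  rw [map_mul, map_mul]
  calc ρ g * ρ x * ρ g⁻¹ - 1 = ρ g * ρ x * ρ g⁻¹ - ρ g * ρ g⁻¹ := by rw [h]
    _ = ρ g * (ρ x - 1) * ρ g⁻¹ := by noncomm_ring

theorem rho_conj_sub' (g x : X) : ρ (g⁻¹ * x * g) - 1 = ρ g⁻¹ * (ρ x - 1) * ρ g := by
  have h := rho_conj_sub ρ g⁻¹ x
  rwa [inv_inv] at h

theorem rho_inv_eq (g : X) (h : (ρ g - 1) * (ρ g - 1) = 0) : ρ g⁻¹ = 1 - (ρ g - 1) := by
  have h1 := rho_inv_mul ρ g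
  calc ρ g⁻¹ = ρ g⁻¹ * (1 - (ρ g - 1) * (ρ g - 1)) := by rw [h]; simp
    _ = (ρ g⁻¹ * ρ g) * (1 - (ρ g - 1)) := by noncomm_ring
    _ = 1 - (ρ g - 1) := by rw [h1, one_mul]

theorem rho_conjT (g x : X) (h : (ρ g - 1) * (ρ g - 1) = 0) :
    ρ (g⁻¹ * x * g) - 1 = (1 - (ρ g - 1)) * (ρ x - 1) * (1 + (ρ g - 1)) := by
  rw [rho_conj_sub', rho_inv_eq ρ g h]
  congr 1
  abel

-- the elements acting trivially on all commutator images
def quadKer : Subgroup X where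
  carrier := {g | ∀ x, (ρ g - 1) * (ρ x - 1) = 0}
  mul_mem' := by
    intro g g' hg hg' x
    have e : (ρ (g * g') - 1) * (ρ x - 1)
        = (ρ g - 1) * ((ρ g' - 1) * (ρ x - 1)) + (ρ g - 1) * (ρ x - 1)
          + (ρ g' - 1) * (ρ x - 1) := by
      rw [map_mul]; noncomm_ring
    rw [e, hg' x, hg x]; simp
  one_mem' := by
    intro x; simp
  inv_mem' := by
    intro g hg x
    have e : (ρ g⁻¹ - 1) * (ρ x - 1) = -(ρ g⁻¹ * ((ρ g - 1) * (ρ x - 1))) := by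
      have h := rho_inv_mul ρ g
      calc (ρ g⁻¹ - 1) * (ρ x - 1) = (ρ g⁻¹ - ρ g⁻¹ * ρ g) * (ρ x - 1) := by rw [h]
        _ = -(ρ g⁻¹ * ((ρ g - 1) * (ρ x - 1))) := by noncomm_ring
    rw [e, hg x]; simp

theorem mem_quadKer {g : X} : g ∈ quadKer ρ ↔ ∀ x, (ρ g - 1) * (ρ x - 1) = 0 := Iff.rfl

theorem quadKer_normal : (quadKer ρ).Normal := by
  refine ⟨fun g hg y => (mem_quadKer ρ).2 fun x => ?_⟩
  rw [mem_quadKer] at hg
  have e : (ρ (y * g * y⁻¹) - 1) * (ρ x - 1)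
      = ρ y * ((ρ g - 1) * (ρ (y⁻¹ * x) - 1)) - ρ y * ((ρ g - 1) * (ρ y⁻¹ - 1)) := by
    rw [rho_conj_sub, map_mul]; noncomm_ring
  rw [e, hg, hg]; simp

theorem main {A B : Subgroup X} (h : Cfsg.IsRankOneGroup X A B)
    (QA : ∀ a ∈ A, ∀ a' ∈ A, (ρ a - 1) * (ρ a' - 1) = 0)
    (hX : ∃ x y : X, (ρ y - 1) * (ρ x - 1) ≠ 0) : Cfsg.IsSpecialRankOnePair A B := by
  obtain ⟨htop, hp⟩ := h
  refine ⟨hp, ?_⟩
  intro a ha ha1 b hb hb1 hR
  by_contra hne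
  have QC : ∀ g : X, ∀ c ∈ conjBy A g, ∀ c' ∈ conjBy A g, (ρ c - 1) * (ρ c' - 1) = 0 := by
    intro g c hc c' hc'
    rw [mem_conjBy] at hc hc'
    have e1 := rho_conj_sub ρ g (g⁻¹ * c * g)
    have ec : g * (g⁻¹ * c * g) * g⁻¹ = c := by group
    rw [ec] at e1
    have e1' := rho_conj_sub ρ g (g⁻¹ * c' * g)
    have ec' : g * (g⁻¹ * c' * g) * g⁻¹ = c' := by group
    rw [ec'] at e1'
    rw [e1, e1']
    have e : ρ g * (ρ (g⁻¹ * c * g) - 1) * ρ g⁻¹ * (ρ g * (ρ (g⁻¹ * c' * g) - 1) * ρ g⁻¹)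
        = ρ g * ((ρ (g⁻¹ * c * g) - 1) * (ρ g⁻¹ * ρ g) * (ρ (g⁻¹ * c' * g) - 1)) * ρ g⁻¹ := by
      noncomm_ring
    rw [e, rho_inv_mul, mul_one, QA _ hc _ hc']; simp
  obtain ⟨x₀, -, hBx⟩ := rankOne_exists_conj_eq hp
  have QB : ∀ b ∈ B, ∀ b' ∈ B, (ρ b - 1) * (ρ b' - 1) = 0 := by
    intro b₁ hb₁ b₂ hb₂
    rw [hBx] at hb₁ hb₂
    exact QC x₀ b₁ hb₁ b₂ hb₂
  have hαα : (ρ a - 1) * (ρ a - 1) = 0 := QA a ha a ha
  have hββ : (ρ b - 1) * (ρ b - 1) = 0 := QB b hb b hb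
  have memA : ∀ a' ∈ A, b⁻¹ * a' * b ∈ conjBy A b⁻¹ := by
    intro a' ha'
    rw [mem_conjBy]
    have e : b⁻¹⁻¹ * (b⁻¹ * a' * b) * b⁻¹ = a' := by group
    rw [e]; exact ha'
  have memB : ∀ b' ∈ B, a⁻¹ * b' * a ∈ conjBy A b⁻¹ := by
    intro b' hb'
    rw [hR, mem_conjBy]
    have e : a⁻¹⁻¹ * (a⁻¹ * b' * a) * a⁻¹ = b' := by group
    rw [e]; exact hb'
  have hγ : ∀ a' : X, ρ (b⁻¹ * a' * b) - 1
      = (1 - (ρ b - 1)) * (ρ a' - 1) * (1 + (ρ b - 1)) :=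
    fun a' => rho_conjT ρ b a' hββ
  have hδ : ∀ b' : X, ρ (a⁻¹ * b' * a) - 1
      = (1 - (ρ a - 1)) * (ρ b' - 1) * (1 + (ρ a - 1)) :=
    fun b' => rho_conjT ρ a b' hαα
  have hz : ρ ((b⁻¹ * a * b) * (a⁻¹ * b * a)) - 1
      = (1 - (ρ b - 1)) * (ρ a - 1) * (1 + (ρ b - 1))
        + (1 - (ρ a - 1)) * (ρ b - 1) * (1 + (ρ a - 1)) := by
    have h0 := QC b⁻¹ _ (memA a ha) _ (memB b hb)
    rw [rho_mul_sub]
    have e : (ρ (b⁻¹ * a * b) - 1) * ρ (a⁻¹ * b * a) + (ρ (a⁻¹ * b * a) - 1)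
        = (ρ (b⁻¹ * a * b) - 1) * (ρ (a⁻¹ * b * a) - 1) + (ρ (b⁻¹ * a * b) - 1)
          + (ρ (a⁻¹ * b * a) - 1) := by
      noncomm_ring
    rw [e, h0, zero_add, hγ, hδ]
  have hzA : ∀ a' ∈ A, (ρ ((b⁻¹ * a * b) * (a⁻¹ * b * a)) - 1) * (ρ a' - 1) = 0 := by
    intro a' ha'
    rw [hz]
    apply ring_key _ _ _ hαα hββ (QA a ha a' ha')
    have h0 := QC b⁻¹ _ (memB b hb) _ (memA a' ha')
    rw [hδ, hγ] at h0
    exact h0
  have hzB : ∀ b' ∈ B, (ρ ((b⁻¹ * a * b) * (a⁻¹ * b * a)) - 1) * (ρ b' - 1) = 0 := by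
    intro b' hb'
    rw [hz, add_comm ((1 - (ρ b - 1)) * (ρ a - 1) * (1 + (ρ b - 1)))]
    apply ring_key _ _ _ hββ hαα (QB b hb b' hb')
    have h0 := QC b⁻¹ _ (memA a ha) _ (memB b' hb')
    rw [hγ, hδ] at h0
    exact h0
  have hgen : ∀ y : X, (∀ a' ∈ A, (ρ y - 1) * (ρ a' - 1) = 0) →
      (∀ b' ∈ B, (ρ y - 1) * (ρ b' - 1) = 0) → y ∈ quadKer ρ := by
    intro y hA hB
    rw [mem_quadKer]
    intro x
    have hx : x ∈ A ⊔ B := by rw [htop]; trivial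
    refine sup_induction' (p := fun x => (ρ y - 1) * (ρ x - 1) = 0) hA hB ?_ hx
    intro x₁ x₂ h₁ h₂
    show (ρ y - 1) * (ρ (x₁ * x₂) - 1) = 0
    have e : (ρ y - 1) * (ρ (x₁ * x₂) - 1)
        = (ρ y - 1) * (ρ x₁ - 1) * ρ x₂ + (ρ y - 1) * (ρ x₂ - 1) := by
      rw [map_mul]; noncomm_ring
    rw [e, h₁, h₂]; simp
  obtain ⟨z, hzdef⟩ : ∃ z : X, z = (b⁻¹ * a * b) * (a⁻¹ * b * a) := ⟨_, rfl⟩
  rw [← hzdef] at hzA hzB
  have hzK : z ∈ quadKer ρ := hgen z hzA hzB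
  have hzC : z ∈ conjBy A b⁻¹ := by
    rw [hzdef]; exact Subgroup.mul_mem _ (memA a ha) (memB b hb)
  have hz1 : z ≠ 1 := by
    intro h1
    apply hne
    rw [hzdef] at h1
    have h2 := eq_inv_of_mul_eq_one_left h1
    rw [h2]; group
  have hzcen : z ∉ Subgroup.center X := by
    intro hc
    apply hz1
    have hzA' : z ∈ A := by
      rw [mem_conjBy] at hzC
      have e : b⁻¹⁻¹ * z * b⁻¹ = z := by
        rw [Subgroup.mem_center_iff] at hc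
        rw [inv_inv, hc b, mul_inv_cancel_right]
      rwa [e] at hzC
    exact rankOne_eq_one_of_mem_normalizer hp hzA' (Subgroup.center_le_normalizer _ hc)
  have hK := quadKer_normal ρ
  have hKA : quadKer ρ ⊔ A = ⊤ := by
    rcases (Cfsg.Agent.S5017.result (⟨htop, hp⟩ : Cfsg.IsRankOneGroup X A B)).1 _ hK with h1 | h1
    · exact h1
    · exact absurd (h1 hzK) hzcen
  have hKB : quadKer ρ ⊔ B = ⊤ := by
    rcases (Cfsg.Agent.S5017.result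
      (⟨by rw [sup_comm]; exact htop, RankOnePair_symm hp⟩ : Cfsg.IsRankOneGroup X B A)).1 _ hK
      with h1 | h1
    · exact h1
    · exact absurd (h1 hzK) hzcen
  have h3a : ∀ a₁ ∈ A, ∀ b₁ ∈ B, (ρ a₁ - 1) * (ρ b₁ - 1) = 0 := by
    intro a₁ ha₁ b₁ hb₁
    have hmem : a₁ ∈ quadKer ρ ⊔ B := by rw [hKB]; trivial
    haveI := hK
    rw [Subgroup.mem_sup_of_normal_left] at hmem
    obtain ⟨g, hg, b₂, hb₂, rfl⟩ := hmem
    rw [mem_quadKer] at hg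
    have e : (ρ (g * b₂) - 1) * (ρ b₁ - 1)
        = (ρ g - 1) * (ρ (b₂ * b₁) - 1) - (ρ g - 1) * (ρ b₂ - 1)
          + (ρ b₂ - 1) * (ρ b₁ - 1) := by
      rw [map_mul, map_mul]; noncomm_ring
    rw [e, hg, hg, QB b₂ hb₂ b₁ hb₁]; simp
  have h3b : ∀ b₁ ∈ B, ∀ a₁ ∈ A, (ρ b₁ - 1) * (ρ a₁ - 1) = 0 := by
    intro b₁ hb₁ a₁ ha₁
    have hmem : b₁ ∈ quadKer ρ ⊔ A := by rw [hKA]; trivial
    haveI := hK
    rw [Subgroup.mem_sup_of_normal_left] at hmem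
    obtain ⟨g, hg, a₂, ha₂, rfl⟩ := hmem
    rw [mem_quadKer] at hg
    have e : (ρ (g * a₂) - 1) * (ρ a₁ - 1)
        = (ρ g - 1) * (ρ (a₂ * a₁) - 1) - (ρ g - 1) * (ρ a₂ - 1)
          + (ρ a₂ - 1) * (ρ a₁ - 1) := by
      rw [map_mul, map_mul]; noncomm_ring
    rw [e, hg, hg, QA a₂ ha₂ a₁ ha₁]; simp
  have hAK : A ≤ quadKer ρ := fun a₁ ha₁ => hgen a₁ (QA a₁ ha₁) (h3a a₁ ha₁)
  have hBK : B ≤ quadKer ρ := fun b₁ hb₁ => hgen b₁ (h3b b₁ hb₁) (QB b₁ hb₁)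
  obtain ⟨x, y, hxy⟩ := hX
  apply hxy
  have hy : y ∈ quadKer ρ := by
    have hy' : y ∈ A ⊔ B := by rw [htop]; trivial
    exact (sup_le hAK hBK) hy'
  exact hy x

end ringpart

theorem end_apply {X N : Type*} [Group X] [AddCommGroup N] [DistribMulAction X N] (x y : X)
    (n : N) :
    ((DistribMulAction.toAddMonoidEnd X N y - 1) * (DistribMulAction.toAddMonoidEnd X N x - 1)) n
      = y • (x • n - n) - (x • n - n) := rfl

/-- Let X be a rank one group with abelian unipotent subgroups A and B, and suppose X acts on an abelian group N (written additively) in such a way that A acts quadratically, meaning a' • (a • n − n) = a • n − n for all a, a' in A and n in N, while X as a whole does not: y • (x • n − n) ≠ x • n − n for some x, y in X and n in N. Then X is a special rank one group. -/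
theorem result {X : Type*} [Group X] {A B : Subgroup X} (h : Cfsg.IsRankOneGroup X A B)
    (hab : Cfsg.HasAbelianUnipotents A B) {N : Type*} [AddCommGroup N] [DistribMulAction X N]
    (hq : ∀ a ∈ A, ∀ a' ∈ A, ∀ n : N, a' • (a • n - n) = a • n - n)
    (hX : ∃ x y : X, ∃ n : N, y • (x • n - n) ≠ x • n - n) : Cfsg.IsSpecialRankOnePair A B := by
  refine main (DistribMulAction.toAddMonoidEnd X N) h ?_ ?_
  · intro a ha a' ha'
    ext n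
    rw [end_apply]
    have h1 := hq a' ha' a ha n
    rw [h1, sub_self]
    rfl
  · obtain ⟨x, y, n, hn⟩ := hX
    refine ⟨x, y, fun h0 => hn ?_⟩
    have h1 := DFunLike.congr_fun h0 n
    rw [end_apply] at h1
    exact sub_eq_zero.mp h1

end Cfsg.Agent.S5019
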