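import Cfsg.Statements.S5021
import Mathlib
import Cfsg.Agent.S5013

set_option autoImplicit false
open Cfsg

namespace Cfsg.Agent.S5021

open Cfsg.Agent.Helper25

-- the relation `b⁻¹ A b = a⁻¹ B a` between non-identity elements `a ∈ A`, `b ∈ B`
def RelR {G : Type*} [Group G] (A B : Subgroup G) (a b : G) : Prop :=
  a ∈ A ∧ a ≠ 1 ∧ b ∈ B ∧ b ≠ 1 ∧ conjBy A b⁻¹ = conjBy B a⁻¹

theorem rel_symm {G : Type*} [Group G] {A B : Subgroup G} {a b : G} (hr : RelR A B a b) :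
    RelR B A b a :=
  ⟨hr.2.2.1, hr.2.2.2.1, hr.1, hr.2.1, hr.2.2.2.2.symm⟩

theorem rel_unique_right {G : Type*} [Group G] {A B : Subgroup G} (h : IsRankOnePair A B)
    {a b b' : G} (hr : RelR A B a b) (hr' : RelR A B a b') : b = b' :=
  ((Cfsg.Agent.S5013.result h).1 a hr.1 hr.2.1).unique ⟨hr.2.2.1, hr.2.2.2.1, hr.2.2.2.2⟩
    ⟨hr'.2.2.1, hr'.2.2.2.1, hr'.2.2.2.2⟩

theorem rel_unique_left {G : Type*} [Group G] {A B : Subgroup G} (h : IsRankOnePair A B)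
    {a a' b : G} (hr : RelR A B a b) (hr' : RelR A B a' b) : a = a' :=
  ((Cfsg.Agent.S5013.result h).2.1 b hr.2.2.1 hr.2.2.2.1).unique ⟨hr.1, hr.2.1, hr.2.2.2.2⟩
    ⟨hr'.1, hr'.2.1, hr'.2.2.2.2⟩

theorem rel_exists_right {G : Type*} [Group G] {A B : Subgroup G} (h : IsRankOnePair A B)
    {a : G} (ha : a ∈ A) (ha1 : a ≠ 1) : ∃ b, RelR A B a b := by
  obtain ⟨b, hb, hb1, hab⟩ := h.cond_left a ha ha1
  exact ⟨b, ha, ha1, hb, hb1, hab⟩

theorem rel_exists_left {G : Type*} [Group G] {A B : Subgroup G} (h : IsRankOnePair A B)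
    {b : G} (hb : b ∈ B) (hb1 : b ≠ 1) : ∃ a, RelR A B a b := by
  obtain ⟨a, ha, ha1, hab⟩ := h.cond_right b hb hb1
  exact ⟨a, ha, ha1, hb, hb1, hab.symm⟩

-- in a special rank one group, `b(a⁻¹) = b(a)⁻¹`
theorem rel_inv {G : Type*} [Group G] {A B : Subgroup G} (h : IsRankOnePair A B)
    (hsp : ∀ a b, RelR A B a b → b⁻¹ * a * b = a⁻¹ * b⁻¹ * a) {a b : G} (hr : RelR A B a b) :
    RelR A B a⁻¹ b⁻¹ := by
  have hsp1 := hsp a b hr
  obtain ⟨ha, ha1, hb, hb1, hR⟩ := hr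
  have hQ : conjBy (conjBy A (a⁻¹ * b)) b⁻¹ = conjBy A (a⁻¹ * b) := by
    have e : b⁻¹ * (a⁻¹ * b) = a⁻¹ * b * a := by
      calc b⁻¹ * (a⁻¹ * b) = (b⁻¹ * a * b)⁻¹ := by group
        _ = (a⁻¹ * b⁻¹ * a)⁻¹ := by rw [hsp1]
        _ = a⁻¹ * b * a := by group
    calc conjBy (conjBy A (a⁻¹ * b)) b⁻¹ = conjBy A (b⁻¹ * (a⁻¹ * b)) := conjBy_conjBy A _ _
      _ = conjBy A (a⁻¹ * b * a) := by rw [e]
      _ = conjBy (conjBy A a) (a⁻¹ * b) := (conjBy_conjBy A (a⁻¹ * b) a).symm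
      _ = conjBy A (a⁻¹ * b) := by rw [conjBy_of_mem ha]
  have hQB : conjBy A (a⁻¹ * b) = B := by
    by_contra hne
    have hmem : conjBy A (a⁻¹ * b) ∈ unipotentSubgroups B A := by
      rw [← rankOne_unipotent_symm h]
      exact ⟨a⁻¹ * b, mul_mem (Subgroup.mem_sup_left (inv_mem ha)) (Subgroup.mem_sup_right hb),
        rfl⟩
    have h1 := rankOne_eq_one_of_conjBy_unipotent (RankOnePair_symm h) hmem hne (inv_mem hb) hQ
    exact hb1 (inv_eq_one.1 h1)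
  refine ⟨inv_mem ha, inv_ne_one.2 ha1, inv_mem hb, inv_ne_one.2 hb1, ?_⟩
  rw [inv_inv, inv_inv]
  calc conjBy A b = conjBy A (a * (a⁻¹ * b)) := by rw [mul_inv_cancel_left]
    _ = conjBy (conjBy A (a⁻¹ * b)) a := (conjBy_conjBy A a (a⁻¹ * b)).symm
    _ = conjBy B a := by rw [hQB]

-- the element `m = x⁻¹ y x⁻¹` conjugates `x` to `y⁻¹` and `B` to `A`
theorem rel_conj {G : Type*} [Group G] {A B : Subgroup G} (h : IsRankOnePair A B)
    (hsp : ∀ a b, RelR A B a b → b⁻¹ * a * b = a⁻¹ * b⁻¹ * a) {x y : G} (hr : RelR A B x y) :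
    (x⁻¹ * y * x⁻¹) * x * (x⁻¹ * y * x⁻¹)⁻¹ = y⁻¹ ∧ conjBy B (x⁻¹ * y * x⁻¹) = A := by
  have hinv := rel_inv h hsp hr
  have hsp2 := hsp x⁻¹ y⁻¹ hinv
  rw [inv_inv, inv_inv] at hsp2
  constructor
  · have e : y * x * y⁻¹ = x * y⁻¹ * x⁻¹ := by
      calc y * x * y⁻¹ = (y * x⁻¹ * y⁻¹)⁻¹ := by group
        _ = (x * y * x⁻¹)⁻¹ := by rw [hsp2]
        _ = x * y⁻¹ * x⁻¹ := by group
    calc (x⁻¹ * y * x⁻¹) * x * (x⁻¹ * y * x⁻¹)⁻¹ = x⁻¹ * (y * x * y⁻¹) * x := by group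
      _ = x⁻¹ * (x * y⁻¹ * x⁻¹) * x := by rw [e]
      _ = y⁻¹ := by group
  · obtain ⟨ha, ha1, hb, hb1, hR⟩ := hr
    calc conjBy B (x⁻¹ * y * x⁻¹) = conjBy (conjBy (conjBy B x⁻¹) y) x⁻¹ := by
          rw [conjBy_conjBy (conjBy B x⁻¹) x⁻¹ y, conjBy_conjBy B (x⁻¹ * y) x⁻¹]
      _ = conjBy (conjBy (conjBy A y⁻¹) y) x⁻¹ := by rw [hR]
      _ = conjBy A x⁻¹ := by rw [conjBy_conjBy A y y⁻¹, mul_inv_cancel, conjBy_one]
      _ = A := conjBy_of_mem (inv_mem ha)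

theorem rel_order {G : Type*} [Group G] {A B : Subgroup G} (h : IsRankOnePair A B)
    (hsp : ∀ a b, RelR A B a b → b⁻¹ * a * b = a⁻¹ * b⁻¹ * a) {x y : G} (hr : RelR A B x y)
    (k : ℕ) : x ^ k = 1 ↔ y ^ k = 1 := by
  have hm := (rel_conj h hsp hr).1
  have hpow : (x⁻¹ * y * x⁻¹) * x ^ k * (x⁻¹ * y * x⁻¹)⁻¹ = (y⁻¹) ^ k := by
    rw [← conj_pow, hm]
  constructor
  · intro hx
    rw [hx, mul_one, mul_inv_cancel, inv_pow] at hpow
    exact inv_eq_one.1 hpow.symm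
  · intro hy
    rw [inv_pow, hy, inv_one] at hpow
    exact conj_eq_one_iff.1 hpow

theorem rel_star {G : Type*} [Group G] {A B : Subgroup G} (h : IsRankOnePair A B)
    (hsp : ∀ a b, RelR A B a b → b⁻¹ * a * b = a⁻¹ * b⁻¹ * a) {x y w u : G} {k : ℕ}
    (hxy : RelR A B x y) (hw : RelR A B (x ^ (k + 1)) w) (hu : RelR A B u ((y⁻¹) ^ k)) :
    RelR A B (u * x⁻¹) (w * y⁻¹) := by
  obtain ⟨hm, hBm⟩ := rel_conj h hsp hxy
  have hx := hxy.1
  have hy := hxy.2.2.1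
  have hpow : (x⁻¹ * y * x⁻¹) * x ^ k * (x⁻¹ * y * x⁻¹)⁻¹ = (y⁻¹) ^ k := by
    rw [← conj_pow, hm]
  have hkey : y * (x ^ (k + 1))⁻¹ = x * (y ^ k * (x⁻¹ * y * x⁻¹)) := by
    have h1 : y ^ k = (x⁻¹ * y * x⁻¹) * (x ^ k)⁻¹ * (x⁻¹ * y * x⁻¹)⁻¹ := by
      calc y ^ k = (((y⁻¹) ^ k))⁻¹ := by rw [inv_pow, inv_inv]
        _ = ((x⁻¹ * y * x⁻¹) * x ^ k * (x⁻¹ * y * x⁻¹)⁻¹)⁻¹ := by rw [hpow]
        _ = (x⁻¹ * y * x⁻¹) * (x ^ k)⁻¹ * (x⁻¹ * y * x⁻¹)⁻¹ := by group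
    rw [h1, pow_succ]
    group
  have hE : conjBy A (w * y⁻¹)⁻¹ = conjBy B (u * x⁻¹)⁻¹ := by
    have e1 : (w * y⁻¹)⁻¹ = y * w⁻¹ := by group
    have e2 : (u * x⁻¹)⁻¹ = x * u⁻¹ := by group
    have hRu : conjBy A (y ^ k) = conjBy B u⁻¹ := by
      have h3 := hu.2.2.2.2
      rwa [inv_pow, inv_inv] at h3
    rw [e1, e2]
    calc conjBy A (y * w⁻¹) = conjBy (conjBy A w⁻¹) y := (conjBy_conjBy A y w⁻¹).symm
      _ = conjBy (conjBy B (x ^ (k + 1))⁻¹) y := by rw [hw.2.2.2.2]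
      _ = conjBy B (y * (x ^ (k + 1))⁻¹) := conjBy_conjBy B y _
      _ = conjBy B (x * (y ^ k * (x⁻¹ * y * x⁻¹))) := by rw [hkey]
      _ = conjBy (conjBy (conjBy B (x⁻¹ * y * x⁻¹)) (y ^ k)) x := by
          rw [conjBy_conjBy (conjBy B (x⁻¹ * y * x⁻¹)) x (y ^ k),
            conjBy_conjBy B (x * y ^ k) (x⁻¹ * y * x⁻¹), mul_assoc x (y ^ k) (x⁻¹ * y * x⁻¹)]
      _ = conjBy (conjBy A (y ^ k)) x := by rw [hBm]
      _ = conjBy (conjBy B u⁻¹) x := by rw [hRu]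
      _ = conjBy B (x * u⁻¹) := conjBy_conjBy B x u⁻¹
  refine ⟨mul_mem hu.1 (inv_mem hx), ?_, mul_mem hw.2.2.1 (inv_mem hy), ?_, hE⟩
  · intro e
    rw [e, inv_one, conjBy_one] at hE
    exact rankOne_conjBy_ne_left (RankOnePair_symm h)
      (inv_mem (mul_mem hw.2.2.1 (inv_mem hy))) hE
  · intro e
    rw [e, inv_one, conjBy_one] at hE
    exact rankOne_conjBy_ne_left h (inv_mem (mul_mem hu.1 (inv_mem hx))) hE.symm

theorem pow_step {G : Type*} [Group G] {A B : Subgroup G} (h : IsRankOnePair A B)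
    (hsp : ∀ a b, RelR A B a b → b⁻¹ * a * b = a⁻¹ * b⁻¹ * a) (k : ℕ)
    (P : ∀ a b d, RelR A B a b → RelR A B (a ^ k) d → d ^ k = b)
    (P' : ∀ a b c, RelR A B a b → RelR A B c (b ^ k) → c ^ k = a) :
    ∀ a b d, RelR A B a b → RelR A B (a ^ (k + 1)) d → d ^ (k + 1) = b := by
  intro x y w hxy hw
  by_cases hxk : x ^ k = 1
  · have e1 : x ^ (k + 1) = x := by rw [pow_succ, hxk, one_mul]
    rw [e1] at hw
    have e2 : w = y := rel_unique_right h hw hxy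
    have e3 : y ^ k = 1 := (rel_order h hsp hxy k).1 hxk
    rw [e2, pow_succ, e3, one_mul]
  · have hyk : y ^ k ≠ 1 := fun e => hxk ((rel_order h hsp hxy k).2 e)
    have hyk' : (y⁻¹) ^ k ≠ 1 := by rw [inv_pow]; exact inv_ne_one.2 hyk
    obtain ⟨u, hu⟩ := rel_exists_left h (B.pow_mem (B.inv_mem hxy.2.2.1) k) hyk'
    have hinv := rel_inv h hsp hxy
    have huk : u ^ k = x⁻¹ := P' x⁻¹ y⁻¹ u hinv hu
    have hstar := rel_star h hsp hxy hw hu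
    have hz := rel_inv h hsp hstar
    have hzk : ((u * x⁻¹)⁻¹) ^ k = x ^ (k + 1) := by
      have e1 : u * x⁻¹ = u ^ (k + 1) := by rw [pow_succ', huk]
      rw [e1, inv_pow, ← pow_mul, mul_comm (k + 1) k, pow_mul, huk, inv_pow, inv_inv]
    have hw' : RelR A B (((u * x⁻¹)⁻¹) ^ k) w := by rw [hzk]; exact hw
    have e := P _ _ w hz hw'
    rw [pow_succ, e]
    group

theorem pow_rel {G : Type*} [Group G] {A B : Subgroup G} (h : IsRankOnePair A B)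
    (hsp : ∀ a b, RelR A B a b → b⁻¹ * a * b = a⁻¹ * b⁻¹ * a) (n : ℕ) (hn : 1 ≤ n) :
    (∀ a b d, RelR A B a b → RelR A B (a ^ n) d → d ^ n = b) ∧
    (∀ a b c, RelR A B a b → RelR A B c (b ^ n) → c ^ n = a) := by
  have h' := RankOnePair_symm h
  have hsp' : ∀ b a, RelR B A b a → a⁻¹ * b * a = b⁻¹ * a⁻¹ * b := by
    intro b a hr
    have e := hsp a b (rel_symm hr)
    calc a⁻¹ * b * a = (a⁻¹ * b⁻¹ * a)⁻¹ := by group
      _ = (b⁻¹ * a * b)⁻¹ := by rw [e]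
      _ = b⁻¹ * a⁻¹ * b := by group
  induction n, hn using Nat.le_induction with
  | base =>
    refine ⟨fun a b d hab hd => ?_, fun a b c hab hc => ?_⟩
    · rw [pow_one] at hd ⊢; exact rel_unique_right h hd hab
    · rw [pow_one] at hc ⊢; exact rel_unique_left h hc hab
  | succ k hk ih =>
    obtain ⟨P, P'⟩ := ih
    refine ⟨pow_step h hsp k P P', ?_⟩
    intro a b c hab hc
    exact pow_step h' hsp' k (fun b a c h1 h2 => P' a b c (rel_symm h1) (rel_symm h2))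
      (fun b a d h1 h2 => P a b d (rel_symm h1) (rel_symm h2)) b a c (rel_symm hab) (rel_symm hc)

/-- In a special rank one group with abelian unipotent subgroups A and B, either A is an elementary abelian p-group for some prime p, or A is torsion-free and divisible (every element of A has an n-th root in A for every positive n). -/
theorem result {X : Type*} [Group X] {A B : Subgroup X} (h : Cfsg.IsRankOneGroup X A B)
    (hs : Cfsg.IsSpecialRankOnePair A B) (hab : Cfsg.HasAbelianUnipotents A B) :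
    (∃ p : ℕ, p.Prime ∧ Cfsg.IsElementaryAbelian p A) ∨
    ((∀ a ∈ A, a ≠ 1 → ¬ IsOfFinOrder a) ∧ ∀ a ∈ A, ∀ n : ℕ, 0 < n → ∃ c ∈ A, c ^ n = a) := by
  obtain ⟨hp, hsp0⟩ := hs
  have hsp : ∀ a b, RelR A B a b → b⁻¹ * a * b = a⁻¹ * b⁻¹ * a :=
    fun a b hr => hsp0 a hr.1 hr.2.1 b hr.2.2.1 hr.2.2.2.1 hr.2.2.2.2
  have hP := pow_rel hp hsp
  have hcomm : ∀ a ∈ A, ∀ c ∈ A, a * c = c * a :=
    fun a ha c hc => congrArg Subtype.val (hab.1.is_comm.comm ⟨a, ha⟩ ⟨c, hc⟩)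
  by_cases hfin : ∃ a ∈ A, a ≠ 1 ∧ IsOfFinOrder a
  · left
    obtain ⟨a₀, ha₀, ha₀1, hfin₀⟩ := hfin
    have hm0 : 0 < orderOf a₀ := hfin₀.orderOf_pos
    have hm1 : orderOf a₀ ≠ 1 := fun e => ha₀1 (orderOf_eq_one_iff.1 e)
    have hpp : (orderOf a₀).minFac.Prime := Nat.minFac_prime hm1
    obtain ⟨k, hk⟩ := Nat.minFac_dvd (orderOf a₀)
    obtain ⟨p, hp_def⟩ : ∃ p, p = (orderOf a₀).minFac := ⟨_, rfl⟩
    rw [← hp_def] at hpp hk
    have hk0 : 0 < k := by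
      rcases Nat.eq_zero_or_pos k with h0 | h0
      · rw [h0, mul_zero] at hk; omega
      · exact h0
    have ha1 : a₀ ^ k ≠ 1 := by
      intro e
      have hd := orderOf_dvd_of_pow_eq_one e
      have hle := Nat.le_of_dvd hk0 hd
      have h2 := hpp.two_le
      nlinarith
    have hap : (a₀ ^ k) ^ p = 1 := by
      rw [← pow_mul, mul_comm k p, ← hk, pow_orderOf_eq_one]
    have hak : a₀ ^ k ∈ A := A.pow_mem ha₀ k
    refine ⟨p, hpp, hab.1, ?_⟩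
    intro c hc
    by_contra hcp
    have hc1 : c ≠ 1 := by
      intro e; rw [e, one_pow] at hcp; exact hcp rfl
    have hcpA : c ^ p ∈ A := A.pow_mem hc p
    have he : (a₀ ^ k * c) ^ p = c ^ p := by
      rw [(show Commute (a₀ ^ k) c from hcomm _ hak c hc).mul_pow, hap, one_mul]
    have heA : a₀ ^ k * c ∈ A := A.mul_mem hak hc
    have he1 : a₀ ^ k * c ≠ 1 := by
      intro e; rw [e, one_pow] at he; exact hcp he.symm
    obtain ⟨bc, hbc⟩ := rel_exists_right hp hc hc1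
    obtain ⟨be, hbe⟩ := rel_exists_right hp heA he1
    obtain ⟨d, hd⟩ := rel_exists_right hp hcpA hcp
    have hp1 : 1 ≤ p := hpp.one_lt.le
    have e1 := (hP p hp1).1 c bc d hbc hd
    have e2 := (hP p hp1).1 (a₀ ^ k * c) be d hbe (by rw [he]; exact hd)
    have e3 : be = bc := e2.symm.trans e1
    rw [e3] at hbe
    have e4 := rel_unique_left hp hbe hbc
    exact ha1 (by simpa using e4)
  · right
    have hfin' : ∀ a ∈ A, a ≠ 1 → ¬ IsOfFinOrder a :=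
      fun a ha ha1 hf => hfin ⟨a, ha, ha1, hf⟩
    refine ⟨hfin', ?_⟩
    intro a ha n hn
    by_cases ha1 : a = 1
    · exact ⟨1, A.one_mem, by rw [one_pow, ha1]⟩
    obtain ⟨b, hb⟩ := rel_exists_right hp ha ha1
    have han : a ^ n ≠ 1 :=
      fun e => hfin' a ha ha1 (isOfFinOrder_iff_pow_eq_one.2 ⟨n, hn, e⟩)
    have hbn : b ^ n ≠ 1 := fun e => han ((rel_order hp hsp hb n).2 e)
    obtain ⟨c, hc⟩ := rel_exists_left hp (B.pow_mem hb.2.2.1 n) hbn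
    exact ⟨c, hc.1, (hP n hn).2 a b c hb hc⟩

end Cfsg.Agent.S5021
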