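import Cfsg.Statements.S5024
import Cfsg.Agent.Helper25.RootSub2
open Cfsg.Agent.Helper25

set_option autoImplicit false
open Cfsg

namespace Cfsg.Agent.S5024

/-- Let S be a set of abstract root subgroups of G, A and C members of S, B a rank one partner of A in S and D a rank one partner of C in S. If the rank one group ⟨A, B⟩ is contained in ⟨C, D⟩ then the two coincide, and C and D are conjugates of A inside ⟨A, B⟩. -/
theorem result {G : Type*} [Group G] {S : Set (Subgroup G)} (hS : Cfsg.IsRootSubgroupSet S)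
    {A B C D : Subgroup G} (hA : A ∈ S) (hC : C ∈ S) (hB : B ∈ Cfsg.rankOnePartners S A) (hD : D ∈ Cfsg.rankOnePartners S C)
    (hle : A ⊔ B ≤ C ⊔ D) : A ⊔ B = C ⊔ D ∧ C ∈ Cfsg.unipotentSubgroups A B ∧ D ∈ Cfsg.unipotentSubgroups A B := by
  obtain ⟨hBS, hAB⟩ := hB
  obtain ⟨hDS, hCD⟩ := hD
  have hAle : A ≤ C ⊔ D := le_trans le_sup_left hle
  have hBle : B ≤ C ⊔ D := le_trans le_sup_right hle
  have hAΩ := root_mem_unipotent hS hA hBS hC hDS hAB hCD hAle hBle
  have hBΩ := root_mem_unipotent hS hBS hA hC hDS (RankOnePair_symm hAB) hCD hBle hAle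
  obtain ⟨x, hx, hxC, hxD⟩ := rankOne_two_trans hCD (rankOne_left_mem_unipotent C D)
    (rankOne_right_mem_unipotent hCD) hAΩ hBΩ hCD.ne hAB.ne
  have hEq : A ⊔ B = C ⊔ D := by
    rw [← hxC, ← hxD, ← conjBy_sup, conjBy_of_mem hx]
  refine ⟨hEq, ?_, ?_⟩
  · refine ⟨x⁻¹, by rw [hEq]; exact inv_mem hx, ?_⟩
    rw [← hxC, conjBy_conjBy]
    simp [conjBy_one]
  · have h1 : D = conjBy B x⁻¹ := by
      rw [← hxD, conjBy_conjBy]
      simp [conjBy_one]
    rw [h1]
    exact rankOne_conj_mem_unipotent (rankOne_right_mem_unipotent hAB)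
      (by rw [hEq]; exact inv_mem hx)

end Cfsg.Agent.S5024
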