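import Cfsg.Statements.S5026
import Cfsg.Agent.Helper25.RootSub2
open Cfsg.Agent.Helper25

set_option autoImplicit false
open Cfsg

namespace Cfsg.Agent.S5026

/-- Let S be a degenerate set of abstract root subgroups of G (a set of abstract transvection groups) and let a, b be commuting non-identity elements of members of S with a b ≠ 1. Then the members of S centralizing a b are exactly those centralizing both a and b. -/
theorem result {G : Type*} [Group G] {S : Set (Subgroup G)} (hS : Cfsg.IsRootSubgroupSet S) (hdeg : Cfsg.IsDegenerateRootSet S)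
    {a b : G} (ha : a ∈ Cfsg.rootElements S) (hb : b ∈ Cfsg.rootElements S) (hab : a * b = b * a) (hab1 : a * b ≠ 1) :
    Cfsg.centralizingMembers S (Subgroup.zpowers (a * b)) =
      Cfsg.centralizingMembers S (Subgroup.zpowers a) ∩ Cfsg.centralizingMembers S (Subgroup.zpowers b) := by
  obtain ⟨ha1, A, hA, haA⟩ := ha
  obtain ⟨hb1, B, hB, hbB⟩ := hb
  have key : ∀ (E : Subgroup G) (g : G),
      E ≤ Subgroup.centralizer ((Subgroup.zpowers g : Subgroup G) : Set G) ↔
        ∀ e ∈ E, e * g = g * e := by
    intro E g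
    constructor
    · intro h e he
      have h1 := Subgroup.mem_centralizer_iff.mp (h he) g (Subgroup.mem_zpowers g)
      exact h1.symm
    · intro h e he
      rw [Subgroup.mem_centralizer_iff]
      intro x hx
      obtain ⟨k, rfl⟩ := Subgroup.mem_zpowers_iff.mp hx
      have h1 : Commute e g := h e he
      exact ((h1.zpow_right k).eq).symm
  ext E
  simp only [centralizingMembers, Set.mem_ofPred_eq, Set.mem_inter_iff, key]
  constructor
  · rintro ⟨hE, hEc⟩
    have h1 : ⁅E, A⁆ = ⊥ := root_degenerate_comm hS hdeg hA hB hE haA ha1 hbB hb1 hab hab1 hEc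
    have h2 : ⁅E, B⁆ = ⊥ := root_degenerate_comm hS hdeg hB hA hE hbB hb1 haA ha1 hab.symm
      (hab ▸ hab1) (by intro e he; rw [← hab]; exact hEc e he)
    exact ⟨⟨hE, fun e he => comm_of_commutator_eq_bot h1 he haA⟩,
      ⟨hE, fun e he => comm_of_commutator_eq_bot h2 he hbB⟩⟩
  · rintro ⟨⟨hE, h1⟩, ⟨_, h2⟩⟩
    refine ⟨hE, fun e he => ?_⟩
    rw [← mul_assoc, h1 e he, mul_assoc, h2 e he, mul_assoc]

end Cfsg.Agent.S5026
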