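import Cfsg.Statements.S5078
-- import your own Cfsg.Agent.* helpers here
import Cfsg.Agent.Helper26.FusionBasic

set_option autoImplicit false
open Cfsg

namespace Cfsg.Agent.S5078

/-- In any fusion system over a finite subgroup S, a receptive subgroup is fully centralized. -/
theorem result {Ω : Type*} [Group Ω] {S : Subgroup Ω} [Finite S] (F : Cfsg.FusionSystem S) (P : Subgroup Ω) (hP : F.IsReceptive P) : F.IsFullyCentralized P := by
  obtain ⟨hPS, hrec⟩ := hP
  refine ⟨hPS, fun Q hPQ => ?_⟩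
  obtain ⟨χ, hχ, φ, hφ, h1, h2, h3, h4⟩ := (Helper26.isConj_iff_exists F).1 hPQ
  have hQS : Q ≤ S := (F.le_of_mem hφ).1
  have hrange : φ.range = P := by
    ext y; constructor
    · rintro ⟨x, rfl⟩; exact h2 x
    · intro hy; exact ⟨⟨χ ⟨y, hy⟩, h1 _⟩, h3 ⟨y, hy⟩ (h1 _)⟩
  obtain ⟨ψ, hψ, hext⟩ := hrec Q φ hφ hrange
  have hCN : FusionSystem.centralizerIn S Q ≤ FusionSystem.extender S Q φ := by
    intro g hg
    rw [Helper26.mem_centralizerIn] at hg
    apply Subgroup.subset_closure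
    have hgx : ∀ x : Ω, x ∈ Q → g * x * g⁻¹ = x := by
      intro x hx
      rw [← hg.2 x hx]; group
    refine ⟨hg.1, ?_, 1, S.one_mem, ?_⟩
    · rw [Subgroup.mem_normalizer_iff]
      intro x
      constructor
      · intro hx
        rw [hgx x hx]; exact hx
      · intro hx
        have e := hg.2 _ hx
        have e2 : x = g * x * g⁻¹ := by
          have : g * x = g * (g * x * g⁻¹) := by rw [← e]; group
          exact mul_left_cancel this
        rw [e2]; exact hx
    · intro x hx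
      have e : (⟨g * x * g⁻¹, hx⟩ : Q) = x := Subtype.ext (hgx x x.2)
      rw [e]; simp
  have hQN : Q ≤ FusionSystem.extender S Q φ := by
    intro g hg
    apply Subgroup.subset_closure
    refine ⟨hQS hg, Subgroup.le_normalizer hg, φ ⟨g, hg⟩, (F.le_of_mem hφ).2 _, ?_⟩
    intro x hx
    have : (⟨g * x * g⁻¹, hx⟩ : Q) = ⟨g, hg⟩ * x * ⟨g, hg⟩⁻¹ := Subtype.ext rfl
    rw [this, map_mul, map_mul, map_inv]
  have hmap : ∀ c : FusionSystem.centralizerIn S Q, ψ ⟨c, hCN c.2⟩ ∈ FusionSystem.centralizerIn S P := by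
    intro c
    rw [Helper26.mem_centralizerIn]
    refine ⟨(F.le_of_mem hψ).2 _, ?_⟩
    intro y hy
    have hx : χ ⟨y, hy⟩ ∈ Q := h1 _
    have hyx : y = ψ ⟨χ ⟨y, hy⟩, hQN hx⟩ := by
      rw [hext _ hx (hQN hx)]; exact (h3 ⟨y, hy⟩ hx).symm
    rw [hyx, ← map_mul, ← map_mul]
    congr 1
    apply Subtype.ext
    exact (Helper26.mem_centralizerIn.1 c.2).2 _ hx
  have : Finite (FusionSystem.centralizerIn S P) := Helper26.finite_of_le (Helper26.centralizerIn_le S P)
  refine Nat.card_le_card_of_injective (fun c => ⟨ψ ⟨c, hCN c.2⟩, hmap c⟩) ?_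
  intro c d hcd
  have e := F.injective_of_mem hψ (congrArg Subtype.val hcd)
  have e2 : (c : Ω) = (d : Ω) := Subtype.mk.inj e
  exact Subtype.ext e2

end Cfsg.Agent.S5078
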