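import Cfsg.Statements.S5100
-- import your own Cfsg.Agent.* helpers here
import Cfsg.Agent.Helper26.GroupFusion

set_option autoImplicit false
open Cfsg

namespace Cfsg.Agent.S5100

/-- In the fusion system of a finite group G on a Sylow p-subgroup S, a subgroup P ≤ S is fully normalized if and only if N_S(P) is a Sylow p-subgroup of N_G(P). -/
theorem result {G : Type*} [Group G] [Finite G] (p : ℕ) [Fact p.Prime] (S : Sylow p G) (P : Subgroup G) (hP : P ≤ S) : (Cfsg.groupFusionSystem (S : Subgroup G)).IsFullyNormalized P ↔ ∃ R : Sylow p ↥(Subgroup.normalizer (P : Set G)), (R : Subgroup ↥(Subgroup.normalizer (P : Set G))) = (Cfsg.FusionSystem.normalizerIn (S : Subgroup G) P).subgroupOf (Subgroup.normalizer (P : Set G)) := by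
  have hpS : IsPGroup p (S : Subgroup G) := S.isPGroup'
  have hNp : ∀ Q : Subgroup G, IsPGroup p (FusionSystem.normalizerIn (S : Subgroup G) Q) :=
    fun Q => hpS.to_le (Helper26.normalizerIn_le _ _)
  constructor
  · rintro ⟨-, hfn⟩
    apply Helper26.sylowIn_of_card_le (Helper26.normalizerIn_le_normalizer _ _) (hNp P)
    intro H' hH' hle hH'N
    obtain ⟨g, hg⟩ := Helper26.exists_conj_le_sylow S hH'
    have hPH' : P ≤ H' := (Helper26.le_normalizerIn hP).trans hle
    have hQS : P.map (MulAut.conj g).toMonoidHom ≤ (S : Subgroup G) :=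
      (Subgroup.map_mono hPH').trans hg
    have hconj : (Cfsg.groupFusionSystem (S : Subgroup G)).IsConj P
        (P.map (MulAut.conj g).toMonoidHom) :=
      Helper26.groupFusion_isConj_iff.2 ⟨hP, hQS, g, rfl⟩
    have h1 := hfn _ hconj
    have h2 : H'.map (MulAut.conj g).toMonoidHom ≤
        FusionSystem.normalizerIn (S : Subgroup G) (P.map (MulAut.conj g).toMonoidHom) := by
      refine le_inf hg ?_
      rw [← Helper26.map_conj_normalizer]
      exact Subgroup.map_mono hH'N
    calc Nat.card H' = Nat.card (H'.map (MulAut.conj g).toMonoidHom) :=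
          (Helper26.card_map_conj H' g).symm
      _ ≤ Nat.card (FusionSystem.normalizerIn (S : Subgroup G)
            (P.map (MulAut.conj g).toMonoidHom)) := Subgroup.card_le_of_le h2
      _ ≤ _ := h1
  · intro h
    refine ⟨hP, fun Q hPQ => ?_⟩
    obtain ⟨-, hQS, g, rfl⟩ := Helper26.groupFusion_isConj_iff.1 hPQ
    have h2 : (FusionSystem.normalizerIn (S : Subgroup G)
        (P.map (MulAut.conj g).toMonoidHom)).map (MulAut.conj g⁻¹).toMonoidHom ≤
        Subgroup.normalizer (P : Set G) := by
      have e : Subgroup.normalizer (P : Set G) =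
          (Subgroup.normalizer ((P.map (MulAut.conj g).toMonoidHom : Subgroup G) : Set G)).map
            (MulAut.conj g⁻¹).toMonoidHom := by
        rw [Helper26.map_conj_normalizer, Helper26.map_conj_map_conj_inv]
      rw [e]
      exact Subgroup.map_mono (Helper26.normalizerIn_le_normalizer _ _)
    have h3 := Helper26.card_le_of_sylowIn (Helper26.normalizerIn_le_normalizer _ _) h
      (Helper26.isPGroup_map_conj (hNp _) g⁻¹) h2
    rwa [Helper26.card_map_conj] at h3

end Cfsg.Agent.S5100
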