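import Cfsg.Statements.S5101
-- import your own Cfsg.Agent.* helpers here
import Cfsg.Agent.Helper26.GroupFusion

set_option autoImplicit false
open Cfsg

namespace Cfsg.Agent.S5101

/-- In the fusion system of a finite group G on a Sylow p-subgroup S, a subgroup P ≤ S is fully centralized if and only if C_S(P) is a Sylow p-subgroup of C_G(P). -/
theorem result {G : Type*} [Group G] [Finite G] (p : ℕ) [Fact p.Prime] (S : Sylow p G) (P : Subgroup G) (hP : P ≤ S) : (Cfsg.groupFusionSystem (S : Subgroup G)).IsFullyCentralized P ↔ ∃ R : Sylow p ↥(Subgroup.centralizer (P : Set G)), (R : Subgroup ↥(Subgroup.centralizer (P : Set G))) = (Cfsg.FusionSystem.centralizerIn (S : Subgroup G) P).subgroupOf (Subgroup.centralizer (P : Set G)) := by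
  have hpS : IsPGroup p (S : Subgroup G) := S.isPGroup'
  have hCp : ∀ Q : Subgroup G, IsPGroup p (FusionSystem.centralizerIn (S : Subgroup G) Q) :=
    fun Q => hpS.to_le (Helper26.centralizerIn_le _ _)
  constructor
  · rintro ⟨-, hfc⟩
    apply Helper26.sylowIn_of_card_le (Helper26.centralizerIn_le_centralizer _ _) (hCp P)
    intro H' hH' hle hH'C
    have hH'N : H' ≤ Subgroup.normalizer (P : Set G) :=
      hH'C.trans (Subgroup.centralizer_le_normalizer _)
    have hPp : IsPGroup p P := hpS.to_le hP
    have hsup : IsPGroup p (P ⊔ H' : Subgroup G) := hPp.to_sup_of_normal_left' hH' hH'N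
    obtain ⟨g, hg⟩ := Helper26.exists_conj_le_sylow S hsup
    have hQS : P.map (MulAut.conj g).toMonoidHom ≤ (S : Subgroup G) :=
      (Subgroup.map_mono le_sup_left).trans hg
    have hconj : (Cfsg.groupFusionSystem (S : Subgroup G)).IsConj P
        (P.map (MulAut.conj g).toMonoidHom) :=
      Helper26.groupFusion_isConj_iff.2 ⟨hP, hQS, g, rfl⟩
    have h1 := hfc _ hconj
    have h2 : H'.map (MulAut.conj g).toMonoidHom ≤
        FusionSystem.centralizerIn (S : Subgroup G) (P.map (MulAut.conj g).toMonoidHom) := by
      refine le_inf ((Subgroup.map_mono le_sup_right).trans hg) ?_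
      exact (Subgroup.map_mono hH'C).trans (Helper26.map_conj_centralizer_le P g)
    calc Nat.card H' = Nat.card (H'.map (MulAut.conj g).toMonoidHom) :=
          (Helper26.card_map_conj H' g).symm
      _ ≤ Nat.card (FusionSystem.centralizerIn (S : Subgroup G)
            (P.map (MulAut.conj g).toMonoidHom)) := Subgroup.card_le_of_le h2
      _ ≤ _ := h1
  · intro h
    refine ⟨hP, fun Q hPQ => ?_⟩
    obtain ⟨-, hQS, g, rfl⟩ := Helper26.groupFusion_isConj_iff.1 hPQ
    have h2 : (FusionSystem.centralizerIn (S : Subgroup G)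
        (P.map (MulAut.conj g).toMonoidHom)).map (MulAut.conj g⁻¹).toMonoidHom ≤
        Subgroup.centralizer (P : Set G) := by
      have h4 := Helper26.map_conj_centralizer_le (P.map (MulAut.conj g).toMonoidHom) g⁻¹
      rw [Helper26.map_conj_map_conj_inv] at h4
      exact (Subgroup.map_mono (Helper26.centralizerIn_le_centralizer _ _)).trans h4
    have h3 := Helper26.card_le_of_sylowIn (Helper26.centralizerIn_le_centralizer _ _) h
      (Helper26.isPGroup_map_conj (hCp _) g⁻¹) h2
    rwa [Helper26.card_map_conj] at h3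

end Cfsg.Agent.S5101
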