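import Cfsg.Statements.S5102
-- import your own Cfsg.Agent.* helpers here
import Cfsg.Agent.Helper26.GroupFusion

set_option autoImplicit false
open Cfsg

namespace Cfsg.Agent.S5102

/-- A normal p-subgroup of a finite group G is normal in the fusion system of G on a Sylow p-subgroup. -/
theorem result {G : Type*} [Group G] [Finite G] (p : ℕ) [Fact p.Prime] (S : Sylow p G) (R : Subgroup G) [R.Normal] (hR : IsPGroup p R) : (Cfsg.groupFusionSystem (S : Subgroup G)).IsNormal R := by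
  have hRS : R ≤ (S : Subgroup G) := hR.le_sylow_of_normal S
  refine ⟨hRS, ?_⟩
  rintro P φ ⟨hP, hφS, g, hg⟩
  have hPR : P ⊔ R ≤ (S : Subgroup G) := sup_le hP hRS
  have hRPR : R ≤ P ⊔ R := le_sup_right
  have hval : ∀ y : ↥(P ⊔ R), conjHom (P ⊔ R) g y ∈ (S : Subgroup G) := by
    apply Helper26.forall_sup_mem
    · intro a ha
      have h1 := hφS ⟨a, ha⟩
      rw [hg] at h1
      exact h1
    · intro b hb
      exact hRS (Subgroup.Normal.conj_mem ‹R.Normal› b hb g)
  refine ⟨conjHom (P ⊔ R) g, ⟨hPR, hval, g, fun x => rfl⟩, ?_, ?_⟩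
  · intro x; exact (hg x).symm
  · ext y; constructor
    · rintro ⟨z, hz, rfl⟩
      exact Subgroup.Normal.conj_mem ‹R.Normal› _ (Subgroup.mem_subgroupOf.1 hz) g
    · intro hy
      have h1 : g⁻¹ * y * g⁻¹⁻¹ ∈ R := Subgroup.Normal.conj_mem ‹R.Normal› y hy g⁻¹
      rw [inv_inv] at h1
      refine ⟨⟨g⁻¹ * y * g, hRPR h1⟩, Subgroup.mem_subgroupOf.2 h1, ?_⟩
      show g * (g⁻¹ * y * g) * g⁻¹ = y
      group

end Cfsg.Agent.S5102
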