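import Cfsg.Statements.S5104
-- import your own Cfsg.Agent.* helpers here
import Cfsg.Agent.Helper26.FusionBasic

set_option autoImplicit false
open Cfsg

namespace Cfsg.Agent.S5104

/-- In a saturated fusion system over a finite p-group S, a fully centralized subgroup U with C_S(U) ≤ U is centric. -/
theorem result {Ω : Type*} [Group Ω] {S : Subgroup Ω} [Finite S] (p : ℕ) [Fact p.Prime] (hS : IsPGroup p S) (F : Cfsg.FusionSystem S) (hF : F.IsSaturated p) (U : Subgroup Ω) (hU : F.IsFullyCentralized U) (hC : Cfsg.FusionSystem.centralizerIn S U ≤ U) : F.IsCentric U := by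
  obtain ⟨hUS, hfc⟩ := hU
  refine ⟨hUS, fun Q hUQ => ?_⟩
  obtain ⟨χ, hχ, φ, hφ, h1, h2, h3, h4⟩ := (Helper26.isConj_iff_exists F).1 hUQ
  have hQS : Q ≤ S := (F.le_of_mem hφ).1
  have hle := hfc Q hUQ
  have hZle : Q ⊓ Subgroup.centralizer (Q : Set Ω) ≤ FusionSystem.centralizerIn S Q :=
    inf_le_inf_right _ hQS
  have hmap : ∀ c : FusionSystem.centralizerIn S U,
      χ ⟨c, hC c.2⟩ ∈ Q ⊓ Subgroup.centralizer (Q : Set Ω) := by
    intro c
    refine Subgroup.mem_inf.2 ⟨h1 _, ?_⟩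
    rw [Subgroup.mem_centralizer_iff]
    intro y hy
    have hx : φ ⟨y, hy⟩ ∈ U := h2 _
    have hyx : y = χ ⟨φ ⟨y, hy⟩, hx⟩ := (h4 ⟨y, hy⟩ hx).symm
    rw [hyx, ← map_mul, ← map_mul]
    congr 1
    apply Subtype.ext
    exact (Helper26.mem_centralizerIn.1 c.2).2 _ hx
  have : Finite (FusionSystem.centralizerIn S Q) :=
    Helper26.finite_of_le (Helper26.centralizerIn_le S Q)
  have : Finite ↥(Q ⊓ Subgroup.centralizer (Q : Set Ω)) :=
    Helper26.finite_of_le (hZle.trans (Helper26.centralizerIn_le S Q))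
  have hcard : Nat.card (FusionSystem.centralizerIn S U) ≤
      Nat.card ↥(Q ⊓ Subgroup.centralizer (Q : Set Ω)) := by
    refine Nat.card_le_card_of_injective (fun c => ⟨χ ⟨c, hC c.2⟩, hmap c⟩) ?_
    intro c d hcd
    have e := F.injective_of_mem hχ (congrArg Subtype.val hcd)
    have e2 : (c : Ω) = (d : Ω) := Subtype.mk.inj e
    exact Subtype.ext e2
  have heq : Q ⊓ Subgroup.centralizer (Q : Set Ω) = FusionSystem.centralizerIn S Q :=
    Subgroup.eq_of_le_of_card_ge hZle (hle.trans hcard)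
  rw [← heq]; exact inf_le_left

end Cfsg.Agent.S5104
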