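import Cfsg.Statements.S5123
-- import your own Cfsg.Agent.* helpers here
import Cfsg.Agent.Helper26.AutInduced

set_option autoImplicit false
open Cfsg

namespace Cfsg.Agent.S5123

/-- Let G be a finite group with Sylow p-subgroup S, P, Q ≤ S and g ∈ G with gPg⁻¹ = Q, and suppose N_S(Q) is a Sylow p-subgroup of N_G(Q). Let N be the set of x ∈ N_S(P) with gxg⁻¹ ∈ N_S(Q)C_G(Q). Then some h ∈ C_G(Q) satisfies (hg)N(hg)⁻¹ ≤ S. -/
theorem result {G : Type*} [Group G] [Finite G] (p : ℕ) [Fact p.Prime] (S : Sylow p G) (P Q : Subgroup G) (hP : P ≤ S) (hQ : Q ≤ S) (g : G) (hg : P.map (MulAut.conj g).toMonoidHom = Q) (hN : (∃ R : Sylow p ↥(Subgroup.normalizer (Q : Set G)), (R : Subgroup ↥(Subgroup.normalizer (Q : Set G))) = (Cfsg.FusionSystem.normalizerIn (S : Subgroup G) Q).subgroupOf (Subgroup.normalizer (Q : Set G)))) : ∃ h ∈ Subgroup.centralizer (Q : Set G), ((Cfsg.FusionSystem.normalizerIn (S : Subgroup G) P) ⊓ (Cfsg.FusionSystem.normalizerIn (S : Subgroup G) Q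 ⊔ Subgroup.centralizer (Q : Set G)).comap (MulAut.conj g).toMonoidHom).map (MulAut.conj (h * g)).toMonoidHom ≤ S := by
  have hpS : IsPGroup p (S : Subgroup G) := S.isPGroup'
  have hNQp : IsPGroup p (FusionSystem.normalizerIn (S : Subgroup G) Q) :=
    hpS.to_le (Helper26.normalizerIn_le _ _)
  have hNQN : FusionSystem.normalizerIn (S : Subgroup G) Q ≤ Subgroup.normalizer (Q : Set G) :=
    Helper26.normalizerIn_le_normalizer _ _
  have hMN : FusionSystem.normalizerIn (S : Subgroup G) Q ⊔ Subgroup.centralizer (Q : Set G) ≤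
      Subgroup.normalizer (Q : Set G) :=
    sup_le hNQN (Subgroup.centralizer_le_normalizer _)
  have hsylM : ∃ R : Sylow p ↥(FusionSystem.normalizerIn (S : Subgroup G) Q ⊔
        Subgroup.centralizer (Q : Set G)),
      (R : Subgroup _) = (FusionSystem.normalizerIn (S : Subgroup G) Q).subgroupOf
        (FusionSystem.normalizerIn (S : Subgroup G) Q ⊔ Subgroup.centralizer (Q : Set G)) := by
    apply Helper26.sylowIn_of_card_le le_sup_left hNQp
    intro H' hH' _ hH'M
    exact Helper26.card_le_of_sylowIn hNQN hN hH' (hH'M.trans hMN)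
  obtain ⟨N, hNdef⟩ : ∃ N : Subgroup G, N = (FusionSystem.normalizerIn (S : Subgroup G) P) ⊓
      (FusionSystem.normalizerIn (S : Subgroup G) Q ⊔ Subgroup.centralizer (Q : Set G)).comap
        (MulAut.conj g).toMonoidHom := ⟨_, rfl⟩
  have hNp : IsPGroup p N := by
    rw [hNdef]
    exact hpS.to_le (inf_le_left.trans (Helper26.normalizerIn_le _ _))
  have hKp : IsPGroup p (N.map (MulAut.conj g).toMonoidHom) := Helper26.isPGroup_map_conj hNp g
  have hKM : N.map (MulAut.conj g).toMonoidHom ≤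
      FusionSystem.normalizerIn (S : Subgroup G) Q ⊔ Subgroup.centralizer (Q : Set G) := by
    rintro _ ⟨x, hx, rfl⟩
    rw [hNdef] at hx
    exact (Subgroup.mem_inf.1 hx).2
  obtain ⟨m, hm, hle⟩ := Helper26.exists_conj_le_of_sylowIn hsylM hKp hKM
  obtain ⟨s, hs, c, hc, rfl⟩ := Helper26.mem_sup_of_le_normalizer
    (hNQN.trans (Helper26.normalizer_le_normalizer_centralizer Q)) hm
  refine ⟨c, hc, ?_⟩
  rw [← hNdef, ← Helper26.map_conj_mul]
  intro y hy
  have h1 : s * y * s⁻¹ ∈ FusionSystem.normalizerIn (S : Subgroup G) Q := by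
    apply hle
    rw [← Helper26.map_conj_mul]
    exact ⟨y, hy, rfl⟩
  have h2 : s⁻¹ * (s * y * s⁻¹) * s ∈ FusionSystem.normalizerIn (S : Subgroup G) Q :=
    Subgroup.mul_mem _ (Subgroup.mul_mem _ (Subgroup.inv_mem _ hs) h1) hs
  have e : s⁻¹ * (s * y * s⁻¹) * s = y := by group
  rw [e] at h2
  exact Helper26.normalizerIn_le _ _ h2

end Cfsg.Agent.S5123
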