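import Cfsg.Statements.S5144
-- import your own Cfsg.Agent.* helpers here
import Cfsg.Agent.Helper26.FusionSup

set_option autoImplicit false
open Cfsg

namespace Cfsg.Agent.S5144

/-- For a fusion system over a finite subgroup S, the centre of the system (the join of all subgroups central in it) is itself central in the system, hence its largest central subgroup. -/
theorem result {Ω : Type*} [Group Ω] {S : Subgroup Ω} [Finite S] (F : Cfsg.FusionSystem S) : F.IsCentral F.center := by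
  unfold FusionSystem.center
  apply Helper26.sSup_mem_of_sup_closed S {Q | F.IsCentral Q}
  · intro Q hQ; exact hQ.1
  · refine ⟨bot_le, fun P φ hφ => ?_⟩
    have hle : P ⊔ ⊥ ≤ P := sup_le le_rfl bot_le
    refine ⟨φ.comp (Subgroup.inclusion hle), Helper26.restrict_mem F hφ hle (fun x => rfl),
      fun x => rfl, ?_⟩
    intro x
    have hx : (x : Ω) = 1 := Subgroup.mem_bot.1 x.2
    have hx1 : (Subgroup.inclusion (le_sup_right : ⊥ ≤ P ⊔ ⊥) x) = 1 := Subtype.ext hx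
    rw [hx1, map_one, hx]
  · intro Q₁ h₁ Q₂ h₂
    obtain ⟨hQ₁S, hext₁⟩ := h₁
    obtain ⟨hQ₂S, hext₂⟩ := h₂
    refine ⟨sup_le hQ₁S hQ₂S, fun P φ hφ => ?_⟩
    obtain ⟨ψ₁, hψ₁, hres₁, hfix₁⟩ := hext₁ P φ hφ
    obtain ⟨ψ₂, hψ₂, hres₂, hfix₂⟩ := hext₂ (P ⊔ Q₁) ψ₁ hψ₁
    have hle : P ⊔ (Q₁ ⊔ Q₂) ≤ (P ⊔ Q₁) ⊔ Q₂ := by rw [sup_assoc]
    have hle2 : Q₁ ⊔ Q₂ ≤ (P ⊔ Q₁) ⊔ Q₂ := sup_le_sup_right le_sup_right Q₂
    have hQ1P : Q₁ ≤ P ⊔ Q₁ := le_sup_right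
    refine ⟨ψ₂.comp (Subgroup.inclusion hle), Helper26.restrict_mem F hψ₂ hle (fun x => rfl),
      ?_, ?_⟩
    · intro x
      exact (hres₂ (Subgroup.inclusion le_sup_left x)).trans (hres₁ x)
    · intro x
      have key := Helper26.eqOn_sup (ψ₂.comp (Subgroup.inclusion hle2)) (Q₁ ⊔ Q₂).subtype ?_ ?_ x
      · exact key
      · intro a ha
        exact (hres₂ ⟨a, hQ1P ha⟩).trans (hfix₁ ⟨a, ha⟩)
      · intro b hb
        exact hfix₂ ⟨b, hb⟩

end Cfsg.Agent.S5144
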