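import Cfsg.Statements.S5344
import Cfsg.Agent.Helper27.Basic
import Cfsg.Agent.Helper27.S4Pres

set_option autoImplicit false
open Cfsg

namespace Cfsg.Agent.S5344

theorem braid_of_not_comm {G : Type*} [Group G] {a b : G} (ha : a * a = 1) (hb : b * b = 1)
    (h : (a * b) ^ 2 = 1 ∨ (a * b) ^ 3 = 1) (hab : ¬ Commute a b) :
    b * (a * b) = a * (b * a) := by
  have hai : a⁻¹ = a := inv_eq_of_mul_eq_one_right ha
  have hbi : b⁻¹ = b := inv_eq_of_mul_eq_one_right hb
  rcases h with h | h
  · exfalso
    apply hab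
    have h1 : a * b * (a * b) = 1 := by rw [← pow_two]; exact h
    have h2 : a * b = (a * b)⁻¹ := eq_inv_of_mul_eq_one_left h1
    rw [mul_inv_rev, hai, hbi] at h2
    exact h2
  · have h1 : a * b * (a * b) * (a * b) = 1 := by rw [← h, pow_succ, pow_two]
    have h2 : (a * (b * a)) * (b * (a * b)) = 1 := by
      rw [← h1]; group
    have h3 : b * (a * b) = (a * (b * a))⁻¹ := eq_inv_of_mul_eq_one_right h2
    rw [h3, mul_inv_rev, mul_inv_rev, hai, hbi, mul_assoc]

open Cfsg.Agent.Helper27 in
/-- In a set of 3-transpositions, let a, b, c be members with a and c different and commuting, while neither a nor c commutes with b (a 3-string). Then there is an injective homomorphism from the symmetric group of degree 4 into the ambient group sending the transpositions (0 1), (1 2), (2 3) to a, b, c; so a, b, c generate a copy of the symmetric group of degree 4 in which they are transpositions. -/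
theorem result {G : Type*} [Group G] {D : Set G} (hD : Cfsg.IsThreeTranspositionSet D) {a b c : G} (ha : a ∈ D) (hb : b ∈ D) (hc : c ∈ D) (hac : a ≠ c) (hac' : Commute a c) (hab : ¬ Commute a b) (hbc : ¬ Commute b c) : ∃ φ : Equiv.Perm (Fin 4) →* G, Function.Injective φ ∧ φ (Equiv.swap 0 1) = a ∧ φ (Equiv.swap 1 2) = b ∧ φ (Equiv.swap 2 3) = c := by
  have ha2 : a * a = 1 := mul_self_of_orderOf_two (hD.1 a ha)
  have hb2 : b * b = 1 := mul_self_of_orderOf_two (hD.1 b hb)
  have hc2 : c * c = 1 := mul_self_of_orderOf_two (hD.1 c hc)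
  have h1 := braid_of_not_comm ha2 hb2 (hD.2 a ha b hb) hab
  have h2 := braid_of_not_comm hb2 hc2 (hD.2 b hb c hc) hbc
  obtain ⟨φ, hφa, hφb, hφc⟩ := exists_hom_S4 a b c ha2 hb2 hc2 h1 h2 hac'.eq.symm
  refine ⟨φ, s4_hom_injective φ ?_, hφa, hφb, hφc⟩
  rw [hφa, hφc]
  exact hac

end Cfsg.Agent.S5344
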