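import Cfsg.Statements.S5345
import Cfsg.Agent.Helper27.Basic
import Cfsg.Agent.Helper27.SylowLemmas

set_option autoImplicit false
open Cfsg

namespace Cfsg.Agent.S5345

open Cfsg.Agent.Helper27 in
/-- Let D be a conjugation-invariant generating set of 3-transpositions of a finite group G and T a Sylow 2-subgroup of G. Then the members of D lying in T generate an abelian subgroup, and their number is the width of D (the largest number of pairwise commuting members of D). -/
theorem result {G : Type*} [Group G] [Finite G] {D : Set G} (hD : Cfsg.IsThreeTranspositionGroup D) (T : Sylow 2 G) : IsMulCommutative (Subgroup.closure {d : G | d ∈ D ∧ d ∈ T}) ∧ {d : G | d ∈ D ∧ d ∈ T}.ncard = Cfsg.commutingWidth D := by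
  have : Fact (Nat.Prime 2) := ⟨Nat.prime_two⟩
  obtain ⟨⟨hord, hprod⟩, hconj, -⟩ := hD
  have hsq : ∀ d ∈ D, d * d = 1 := fun d hd => mul_self_of_orderOf_two (hord d hd)
  have hinv : ∀ d ∈ D, d⁻¹ = d := fun d hd => inv_of_orderOf_two (hord d hd)
  have hcomm : ∀ a ∈ {d : G | d ∈ D ∧ d ∈ T}, ∀ b ∈ {d : G | d ∈ D ∧ d ∈ T}, a * b = b * a := by
    rintro a ⟨haD, haT⟩ b ⟨hbD, hbT⟩
    have habT : a * b ∈ (T : Subgroup G) := (T : Subgroup G).mul_mem haT hbT
    obtain ⟨m, hm⟩ := mem_two_pow_of_isPGroup T.isPGroup' habT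
    have h2 : (a * b) ^ 2 = 1 := by
      rcases hprod a haD b hbD with h | h
      · exact h
      · have h1 : orderOf (a * b) ∣ 3 := orderOf_dvd_of_pow_eq_one h
        have h2 : orderOf (a * b) ∣ 2 ^ m := orderOf_dvd_of_pow_eq_one hm
        have hcop : Nat.Coprime (2 ^ m) 3 := Nat.Coprime.pow_left m (by norm_num)
        have := Nat.eq_one_of_dvd_coprimes hcop h2 h1
        rw [orderOf_eq_one_iff.mp this, one_pow]
    rw [pow_two] at h2
    have : a * b = (a * b)⁻¹ := eq_inv_of_mul_eq_one_left h2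
    rw [this, mul_inv_rev, hinv a haD, hinv b hbD]
  refine ⟨isMulCommutative_closure_of_comm hcomm, ?_⟩
  have hfin : {d : G | d ∈ D ∧ d ∈ T}.Finite := Set.toFinite _
  unfold Cfsg.commutingWidth
  symm
  apply IsGreatest.csSup_eq
  constructor
  · exact ⟨{d : G | d ∈ D ∧ d ∈ T}, fun d hd => hd.1, hfin, fun a ha b hb => hcomm a ha b hb, rfl⟩
  · rintro n ⟨E, hED, hEfin, hEc, rfl⟩
    have hP : IsPGroup 2 (Subgroup.closure E) :=
      isPGroup_two_closure_of_comm_invol (fun x hx y hy => hEc x hx y hy)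
        (fun x hx => hsq x (hED hx))
    obtain ⟨P', hP'⟩ := hP.exists_le_sylow
    obtain ⟨w, hw⟩ := MulAction.exists_smul_eq G T P'
    refine Set.ncard_le_ncard_of_injOn (fun e => w⁻¹ * e * w) ?_ ?_ hfin
    · intro e he
      refine ⟨?_, ?_⟩
      · have := hconj w⁻¹ e (hED he)
        rwa [inv_inv] at this
      · have he' : e ∈ P' := hP' (Subgroup.subset_closure he)
        rw [← hw, mem_sylow_smul_iff] at he'
        exact he'
    · intro e _ e' _ hee
      have hee' : w⁻¹ * e * w = w⁻¹ * e' * w := hee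
      have : e = w * (w⁻¹ * e * w) * w⁻¹ := by group
      rw [this, hee']; group

end Cfsg.Agent.S5345
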