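import Cfsg.Statements.S5349
import Cfsg.Agent.Helper27.SameComm

set_option autoImplicit false
open Cfsg

namespace Cfsg.Agent.S5349

/-- Let D be a conjugacy class of 3-transpositions generating the finite group G, with at least two members, and d a member of D. Then the set of members of D commuting with exactly the same members of D as d coincides with the set of members of D lying in the coset of d modulo the largest normal 2-subgroup of G, and also with the orbit of d under conjugation by that normal 2-subgroup. -/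
theorem result {G : Type*} [Group G] [Finite G] {D : Set G} (hD : Cfsg.IsThreeTranspositionClass D) (hD2 : ∃ a ∈ D, ∃ b ∈ D, a ≠ b) {d : G} (hd : d ∈ D) : {v : G | v ∈ D ∧ ∀ e ∈ D, Commute v e ↔ Commute d e} = {v : G | v ∈ D ∧ d⁻¹ * v ∈ Cfsg.pCore 2 G} ∧ {v : G | v ∈ D ∧ ∀ e ∈ D, Commute v e ↔ Commute d e} = {v : G | ∃ g ∈ Cfsg.pCore 2 G, v = g * d * g⁻¹} := by
  obtain ⟨h3, ⟨d₀, hd₀, hDeq⟩, hgen⟩ := hD
  have hconj : ∀ g : G, ∀ x ∈ D, g * x * g⁻¹ ∈ D := by
    intro g x hx
    rw [hDeq] at hx ⊢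
    have hx' : IsConj d₀ x := hx
    show IsConj d₀ (g * x * g⁻¹)
    exact hx'.trans (isConj_iff.mpr ⟨g, rfl⟩)
  have htrans : ∀ x ∈ D, ∀ y ∈ D, ∃ g : G, g * x * g⁻¹ = y := by
    intro x hx y hy
    rw [hDeq] at hx hy
    have hx' : IsConj d₀ x := hx
    have hy' : IsConj d₀ y := hy
    exact isConj_iff.mp (hx'.symm.trans hy')
  have hN := Cfsg.Agent.Helper27.pCore_isPGroup 2 G
  haveI := Cfsg.Agent.Helper27.pCore_normal' 2 G
  have hA : {v : G | v ∈ D ∧ ∀ e ∈ D, Commute v e ↔ Commute d e} =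
      {v : G | v ∈ D ∧ d⁻¹ * v ∈ Cfsg.pCore 2 G} := by
    ext v
    constructor
    · rintro ⟨hv, h⟩
      exact ⟨hv, Cfsg.Agent.Helper27.sameComm_mem_pCore h3 hconj hd hv h⟩
    · rintro ⟨hv, h⟩
      exact ⟨hv, Cfsg.Agent.Helper27.coset_sameComm (Cfsg.pCore 2 G) hN h3 hd hv h⟩
  refine ⟨hA, ?_⟩
  rw [hA]
  ext v
  constructor
  · rintro ⟨hv, h⟩
    by_cases hvd : v = d
    · exact ⟨1, one_mem _, by rw [hvd]; group⟩
    · have hsc : Cfsg.Agent.Helper27.SameComm D d v :=
        Cfsg.Agent.Helper27.coset_sameComm (Cfsg.pCore 2 G) hN h3 hd hv h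
      obtain ⟨e, he, hnc⟩ : ∃ e ∈ D, ¬ Commute d e := by
        by_contra hall
        push_neg at hall
        have hcen : ∀ g : G, g * d = d * g := by
          have hle : Subgroup.closure D ≤ Subgroup.centralizer {d} := by
            rw [Subgroup.closure_le]
            intro e he
            rw [SetLike.mem_coe, Subgroup.mem_centralizer_iff]
            intro y hy
            rw [Set.mem_singleton_iff] at hy
            rw [hy]
            exact (hall e he).eq
          intro g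
          have hg : g ∈ Subgroup.centralizer {d} := hle (by rw [hgen]; exact Subgroup.mem_top g)
          exact (Subgroup.mem_centralizer_iff.1 hg d rfl).symm
        obtain ⟨a, ha, b, hb, hab⟩ := hD2
        obtain ⟨g1, hg1⟩ := htrans d hd a ha
        obtain ⟨g2, hg2⟩ := htrans d hd b hb
        apply hab
        rw [← hg1, ← hg2, hcen g1, hcen g2]
        group
      have hcdv : Commute d v := ((hsc d hd).2 (Commute.refl d)).symm
      obtain ⟨φ, -, h01, h12, h23⟩ := Cfsg.Agent.Helper27.PerpS4.s4_of_triple h3 hd he hv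
        (Ne.symm hvd) hcdv hnc (fun c => hnc ((hsc e he).1 c.symm))
      refine ⟨e * (d⁻¹ * v) * e⁻¹, Subgroup.Normal.conj_mem inferInstance _ h e, ?_⟩
      have e1 : e * (d⁻¹ * v) * e⁻¹ * d * (e * (d⁻¹ * v) * e⁻¹)⁻¹ =
          φ (Equiv.swap 1 2 * ((Equiv.swap 0 1)⁻¹ * Equiv.swap 2 3) * (Equiv.swap 1 2)⁻¹ *
            Equiv.swap 0 1 *
            (Equiv.swap 1 2 * ((Equiv.swap 0 1)⁻¹ * Equiv.swap 2 3) * (Equiv.swap 1 2)⁻¹)⁻¹) := by
        simp only [map_mul, map_inv, h01, h12, h23]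
      rw [e1]
      have e2 : v = φ (Equiv.swap 2 3) := h23.symm
      rw [e2]
      exact congrArg φ (by decide)
  · rintro ⟨g, hg, rfl⟩
    refine ⟨hconj g d hd, ?_⟩
    have e3 : d⁻¹ * (g * d * g⁻¹) = (d⁻¹ * g * d⁻¹⁻¹) * g⁻¹ := by group
    rw [e3]
    exact mul_mem (Subgroup.Normal.conj_mem inferInstance g hg d⁻¹) (inv_mem hg)

end Cfsg.Agent.S5349
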