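import Cfsg.Statements.S5355
import Cfsg.Agent.Helper27.PerpS4

set_option autoImplicit false
open Cfsg

namespace Cfsg.Agent.S5355

/-- Let D be a conjugacy class of 3-transpositions generating the finite group G, with at least two members, and d a member of D. Suppose that every member of D commuting with d commutes with exactly the same members of D as d does, and that exactly one member of D other than d commutes with d. Then G is isomorphic to the symmetric group of degree 4. -/
theorem result {G : Type*} [Group G] [Finite G] {D : Set G} (hD : Cfsg.IsThreeTranspositionClass D) (hD2 : ∃ a ∈ D, ∃ b ∈ D, a ≠ b) {d : G} (hd : d ∈ D) (hV : {y : G | y ∈ D ∧ Commute d y} = {v : G | v ∈ D ∧ ∀ e ∈ D, Commute v e ↔ Commute d e}) (hm : {y : G | y ∈ D ∧ Commute d y}.ncard = 2) : Nonempty (G ≃* Equiv.Perm (Fin 4)) := by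
  obtain ⟨h3, ⟨d₀, hd₀, hDeq⟩, hgen⟩ := hD
  have hconj : ∀ g : G, ∀ x ∈ D, g * x * g⁻¹ ∈ D := by
    intro g x hx
    rw [hDeq] at hx ⊢
    have hx' : IsConj d₀ x := hx
    show IsConj d₀ (g * x * g⁻¹)
    exact hx'.trans (isConj_iff.mpr ⟨g, rfl⟩)
  have htrans : ∀ x ∈ D, ∀ y ∈ D, ∃ g : G, g * x * g⁻¹ = y := by
    intro x hx y hy
    rw [hDeq] at hx hy
    have hx' : IsConj d₀ x := hx
    have hy' : IsConj d₀ y := hy
    exact isConj_iff.mp (hx'.symm.trans hy')
  have hdS : d ∈ {y : G | y ∈ D ∧ Commute d y} := ⟨hd, Commute.refl d⟩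
  obtain ⟨v, hvS, hvd, hall⟩ : ∃ v, v ∈ {y : G | y ∈ D ∧ Commute d y} ∧ v ≠ d ∧
      ∀ z ∈ {y : G | y ∈ D ∧ Commute d y}, z = d ∨ z = v := by
    obtain ⟨x, y, hxy, hS⟩ := Set.ncard_eq_two.mp hm
    rw [hS] at hdS ⊢
    rcases hdS with h | h
    · refine ⟨y, by simp, ?_, ?_⟩
      · rw [h]; exact fun h' => hxy h'.symm
      · intro z hz
        rcases hz with hz | hz
        · left; rw [hz, h]
        · right; exact hz
    · rw [Set.mem_singleton_iff] at h
      refine ⟨x, by simp, ?_, ?_⟩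
      · rw [h]; exact hxy
      · intro z hz
        rcases hz with hz | hz
        · right; exact hz
        · left; rw [Set.mem_singleton_iff] at hz; rw [hz, h]
  have hvV : v ∈ {v : G | v ∈ D ∧ ∀ e ∈ D, Commute v e ↔ Commute d e} := by
    rw [← hV]; exact hvS
  exact Cfsg.Agent.Helper27.PerpS4.main h3 hconj htrans hgen hd hvS.1 hvd hvS.2
    (fun y hy hc => hall y ⟨hy, hc⟩)
    (fun y hy hc => hall y ⟨hy, (hvV.2 y hy).mp hc⟩)

end Cfsg.Agent.S5355
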