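import Cfsg.Statements.S5358
import Cfsg.Agent.Helper27.Refl

set_option autoImplicit false
open scoped MatrixGroups
open Cfsg

namespace Cfsg.Agent.S5358

open Cfsg.Agent.Helper27 in
/-- Let Q be a non-degenerate quadratic form on the n-dimensional coordinate space over the field with three elements and u, v vectors of the same non-zero norm Q(u) = Q(v) spanning different lines (v ≠ u and v ≠ −u). Then the reflection matrices of u and v commute if and only if u and v are orthogonal for the polar form of Q. -/
theorem result (n : ℕ) (Q : QuadraticForm (ZMod 3) (Fin n → ZMod 3)) (hQ : (QuadraticMap.polarBilin Q).Nondegenerate) (u v : Fin n → ZMod 3) (hu : Q u ≠ 0) (huv : Q u = Q v) (h1 : v ≠ u) (h2 : v ≠ -u) : Commute (Cfsg.reflectionMatrix (⇑Q) u) (Cfsg.reflectionMatrix (⇑Q) v) ↔ QuadraticMap.polar (⇑Q) u v = 0 := by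
  have hsymm : QuadraticMap.polar (⇑Q) v u = QuadraticMap.polar (⇑Q) u v :=
    QuadraticMap.polar_comm _ _ _
  have haq : (Q u)⁻¹ * Q u = 1 := inv_mul_cancel₀ hu
  have hpuu : QuadraticMap.polar (⇑Q) u u = 2 * Q u := by
    rw [QuadraticMap.polar_self]; simp [two_mul]
  constructor
  · intro hc
    by_contra hne
    have h := congrArg (fun M => Matrix.mulVec M u) hc.eq
    simp only [← Matrix.mulVec_mulVec, reflectionMatrix_mulVec'] at h
    simp only [QuadraticMap.polar_sub_right, QuadraticMap.polar_smul_right, smul_eq_mul,
      hsymm, hpuu, ← huv] at h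
    have ht : (Q u)⁻¹ * QuadraticMap.polar (⇑Q) u v ≠ 0 := mul_ne_zero (inv_ne_zero hu) hne
    have key : ∀ i, ((Q u)⁻¹ * QuadraticMap.polar (⇑Q) u v) * u i = 2 * v i := by
      intro i
      have hi := congrFun h i
      simp only [Pi.sub_apply, Pi.smul_apply, smul_eq_mul] at hi
      have : ((Q u)⁻¹ * QuadraticMap.polar (⇑Q) u v) *
          (((Q u)⁻¹ * QuadraticMap.polar (⇑Q) u v) * u i - 2 * v i) = 0 := by
        linear_combination hi + 2 * (Q u)⁻¹ * QuadraticMap.polar (⇑Q) u v * v i * haq
      rcases mul_eq_zero.mp this with h0 | h0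
      · exact absurd h0 ht
      · exact sub_eq_zero.mp h0
    have hcases : ∀ t : ZMod 3, t ≠ 0 → t = 1 ∨ t = -1 := by decide
    have h21 : (2 : ZMod 3) = -1 := by decide
    rcases hcases _ ht with ht1 | ht1
    · apply h2
      funext i
      have := key i
      rw [ht1, h21] at this
      show v i = - u i
      linear_combination this
    · apply h1
      funext i
      have := key i
      rw [ht1, h21] at this
      linear_combination this
  · intro hf
    apply Matrix.mulVec_injective
    funext x
    simp only [← Matrix.mulVec_mulVec, reflectionMatrix_mulVec']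
    simp only [QuadraticMap.polar_sub_right, QuadraticMap.polar_smul_right, smul_eq_mul,
      hsymm, hf]
    funext i
    simp only [Pi.sub_apply, Pi.smul_apply, smul_eq_mul]
    ring

end Cfsg.Agent.S5358
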