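import Cfsg.Statements.S5363
import Cfsg.Agent.Helper27.Basic
import Cfsg.Agent.Helper27.Dihedral

set_option autoImplicit false
open Cfsg

namespace Cfsg.Agent.S5363

open Cfsg.Agent.Helper27 in
/-- Let D be a conjugation-invariant set of involutions of a finite group G. Then every product of two members of D has odd order or order 2 if and only if, for every a in D and every b in D different from a and commuting with a, the members of D commuting with a b are exactly those commuting with both a and b. -/
theorem result {G : Type*} [Group G] [Finite G] {D : Set G} (hinv : ∀ d ∈ D, orderOf d = 2) (hconj : ∀ g : G, ∀ d ∈ D, g * d * g⁻¹ ∈ D) : (∀ a ∈ D, ∀ b ∈ D, Odd (orderOf (a * b)) ∨ orderOf (a * b) = 2) ↔ ∀ a ∈ D, ∀ b ∈ D, b ≠ a → Commute a b → {y : G | y ∈ D ∧ Commute (a * b) y} = {y : G | y ∈ D ∧ Commute a y} ∩ {y : G | y ∈ D ∧ Commute b y} := by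
  have hsq : ∀ d ∈ D, d * d = 1 := fun d hd => mul_self_of_orderOf_two (hinv d hd)
  have hinv' : ∀ d ∈ D, d⁻¹ = d := fun d hd => inv_of_orderOf_two (hinv d hd)
  constructor
  · intro h a ha b hb hba hab
    ext y
    constructor
    · rintro ⟨hy, hty⟩
      have haa := hsq a ha
      have hbb := hsq b hb
      have hyy := hsq y hy
      set t := a * b with ht
      have htt : t * t = 1 := by
        calc a * b * (a * b) = a * (b * a) * b := by group
          _ = a * (a * b) * b := by rw [hab.eq]
          _ = (a * a) * (b * b) := by group
          _ = 1 := by rw [haa, hbb, one_mul]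
      have ht1 : t ≠ 1 := by
        intro h1
        apply hba
        have : b = a⁻¹ := eq_inv_of_mul_eq_one_right h1
        rw [this, hinv' a ha]
      have hta : Commute t a := by
        show a * b * a = a * (a * b)
        rw [mul_assoc, ← hab.eq]
      have htya : Commute t (y * a) := hty.mul_right hta
      have hyb : y * b = y * a * t := by
        rw [ht, mul_assoc y a, ← mul_assoc a a b, haa, one_mul]
      have hya : Commute y a := by
        rcases h y hy a ha with hodd | h2
        · rcases h y hy b hb with hodd' | h2'
          · exfalso
            apply ht1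
            obtain ⟨r, hr⟩ := hodd
            obtain ⟨r', hr'⟩ := hodd'
            have hNeq : orderOf (y * a) * orderOf (y * b) = 2 * (2 * r * r' + r + r') + 1 := by
              rw [hr, hr']; ring
            have hA : (y * a) ^ (2 * (2 * r * r' + r + r') + 1) = 1 := by
              rw [← hNeq, pow_mul, pow_orderOf_eq_one, one_pow]
            have hB : (y * b) ^ (2 * (2 * r * r' + r + r') + 1) = 1 := by
              rw [← hNeq, mul_comm, pow_mul, pow_orderOf_eq_one, one_pow]
            have hB' : (y * a * t) ^ (2 * (2 * r * r' + r + r') + 1) = 1 := by
              rw [← hyb]; exact hB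
            have ht2 : t ^ 2 = 1 := by rw [pow_two]; exact htt
            rw [htya.symm.mul_pow, hA, one_mul, pow_succ, pow_mul, ht2, one_pow, one_mul] at hB'
            exact hB'
          · have hp : (y * b) ^ 2 = 1 := by rw [← h2']; exact pow_orderOf_eq_one _
            rw [hyb, htya.symm.mul_pow] at hp
            have : t ^ 2 = 1 := by rw [pow_two]; exact htt
            rw [this, mul_one] at hp
            have hdvd : orderOf (y * a) ∣ 2 := orderOf_dvd_of_pow_eq_one hp
            have hone : orderOf (y * a) = 1 := by
              obtain ⟨r, hr⟩ := hodd
              have hle := Nat.le_of_dvd (by norm_num) hdvd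
              omega
            have hya1 : y * a = 1 := orderOf_eq_one_iff.mp hone
            have : y = a⁻¹ := eq_inv_of_mul_eq_one_left hya1
            rw [this, hinv' a ha]
        · have hp : (y * a) ^ 2 = 1 := by rw [← h2]; exact pow_orderOf_eq_one _
          rw [pow_two] at hp
          show y * a = a * y
          have : y * a = (y * a)⁻¹ := eq_inv_of_mul_eq_one_left hp
          rw [this, mul_inv_rev, hinv' a ha, hinv' y hy]
      refine ⟨⟨hy, hya.symm⟩, ⟨hy, ?_⟩⟩
      have hb_eq : b = a * t := by
        rw [ht, ← mul_assoc, haa, one_mul]
      rw [hb_eq]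
      exact (hya.symm).mul_left hty
    · rintro ⟨⟨hy, hay⟩, ⟨-, hby⟩⟩
      exact ⟨hy, hay.mul_left hby⟩
  · intro h2 a ha b hb
    have haa := hsq a ha
    have hbb := hsq b hb
    have hn0 : 0 < orderOf (a * b) := orderOf_pos (a * b)
    rcases Nat.even_or_odd' (orderOf (a * b)) with ⟨m, hm | hm⟩
    · by_cases hm1 : m = 1
      · right; rw [hm, hm1]
      · exfalso
        have hpow : (a * b) ^ (2 * m) = 1 := by rw [← hm]; exact pow_orderOf_eq_one _
        obtain ⟨huu, hau, hbu, g, hg⟩ := dih_central haa hbb m hpow
        set u := (a * b) ^ m with hu
        have hu1 : u ≠ 1 := by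
          intro h
          have hdvd : orderOf (a * b) ∣ m := orderOf_dvd_of_pow_eq_one h
          have hmpos : 0 < m := by omega
          have := Nat.le_of_dvd hmpos hdvd
          omega
        have hauD : a * u ∈ D := by
          rcases hg with hg | hg
          · rw [← hg]; exact hconj g a ha
          · rw [← hg]; exact hconj g b hb
        have hane : a * u ≠ a := by
          intro h
          apply hu1
          have : a * u = a * 1 := by rw [mul_one]; exact h
          exact mul_left_cancel this
        have hcomm : Commute a (a * u) := by
          show a * (a * u) = (a * u) * a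
          rw [mul_assoc, ← hau]
        have hset := h2 a ha (a * u) hauD hane hcomm
        have hbmem : b ∈ {y : G | y ∈ D ∧ Commute (a * (a * u)) y} := by
          refine ⟨hb, ?_⟩
          have : a * (a * u) = u := by rw [← mul_assoc, haa, one_mul]
          rw [this]
          exact hbu.symm
        rw [hset] at hbmem
        have hab : Commute a b := hbmem.1.2
        have hp2 : (a * b) ^ 2 = 1 := by
          rw [pow_two]
          calc a * b * (a * b) = a * (b * a) * b := by group
            _ = a * (a * b) * b := by rw [hab.eq]
            _ = (a * a) * (b * b) := by group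
            _ = 1 := by rw [haa, hbb, one_mul]
        have hdvd : orderOf (a * b) ∣ 2 := orderOf_dvd_of_pow_eq_one hp2
        have hle := Nat.le_of_dvd (by norm_num) hdvd
        omega
    · left; exact ⟨m, hm⟩

end Cfsg.Agent.S5363
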