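import Cfsg.Statements.S5364

set_option autoImplicit false
open Cfsg

namespace Cfsg.Agent.S5364

theorem sq_of_order_two {G : Type*} [Group G] {d : G} (h : orderOf d = 2) : d * d = 1 := by
  have := pow_orderOf_eq_one d
  rw [h, pow_two] at this
  exact this

theorem mem_zpowers_two {G : Type*} [Group G] {t x : G} (ht : orderOf t = 2)
    (hx : x ∈ Subgroup.zpowers t) : x = 1 ∨ x = t := by
  obtain ⟨k, rfl⟩ := Subgroup.mem_zpowers_iff.mp hx
  have h := zpow_mod_orderOf t k
  rw [ht] at h
  rcases Int.emod_two_eq_zero_or_one k with h0 | h1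
  · left
    rw [← h]
    simp [h0]
  · right
    rw [← h]
    simp [h1]

/-- Let D be a conjugation-invariant set of involutions of a finite group G and t an involution in the centre of G such that d t does not lie in D for any d in D. If the images of the members of D in G modulo the subgroup generated by t satisfy the 3-transposition order conditions (each has order 2 and any two have product of order at most 3), then so do the members of D. -/
theorem result {G : Type*} [Group G] [Finite G] {D : Set G} (hinv : ∀ d ∈ D, orderOf d = 2) (hconj : ∀ g : G, ∀ d ∈ D, g * d * g⁻¹ ∈ D) (t : G) (ht : orderOf t = 2) (htZ : t ∈ Subgroup.center G) (hDt : ∀ d ∈ D, d * t ∉ D) [(Subgroup.zpowers t).Normal] (himg : Cfsg.IsThreeTranspositionSet ((QuotientGroup.mk : G → G ⧸ Subgroup.zpowers t) '' D)) : Cfsg.IsThreeTranspositionSet D := by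
  refine ⟨hinv, fun d hd e he => ?_⟩
  have hdd : d * d = 1 := sq_of_order_two (hinv d hd)
  have hee : e * e = 1 := sq_of_order_two (hinv e he)
  have hdinv : d⁻¹ = d := inv_eq_of_mul_eq_one_left hdd
  have heinv : e⁻¹ = e := inv_eq_of_mul_eq_one_left hee
  have htc : ∀ g : G, g * t = t * g := fun g => Subgroup.mem_center_iff.mp htZ g
  rcases himg.2 _ ⟨d, hd, rfl⟩ _ ⟨e, he, rfl⟩ with h | h
  · have h' : (((d * e) ^ 2 : G) : G ⧸ Subgroup.zpowers t) = 1 := by
      simpa using h
    rw [QuotientGroup.eq_one_iff] at h'
    rcases mem_zpowers_two ht h' with h1 | h1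
    · exact Or.inl h1
    · exfalso
      apply hDt d hd
      have : d * t = e * d * e⁻¹ := by
        rw [← h1, heinv, pow_two]
        calc d * (d * e * (d * e)) = (d * d) * (e * d * e) := by group
          _ = e * d * e := by rw [hdd, one_mul]
      rw [this]
      exact hconj e d hd
  · have h' : (((d * e) ^ 3 : G) : G ⧸ Subgroup.zpowers t) = 1 := by
      simpa using h
    rw [QuotientGroup.eq_one_iff] at h'
    rcases mem_zpowers_two ht h' with h1 | h1
    · exact Or.inr h1
    · exfalso
      apply hDt e he
      have : e * t = (d * e) * d * (d * e)⁻¹ := by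
        rw [htc e, ← h1, mul_inv_rev, hdinv, heinv]
        calc (d * e) ^ 3 * e = d * e * d * e * d * (e * e) := by
              rw [pow_succ, pow_two]; group
          _ = d * e * d * (e * d) := by rw [hee, mul_one]; group
      rw [this]
      exact hconj (d * e) d hd

end Cfsg.Agent.S5364
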