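import Cfsg.Statements.S5393
import Cfsg.Agent.Helper3.GMod.Subsp

set_option autoImplicit false
open Cfsg

namespace Cfsg.Agent.S5393

open Cfsg.Agent.Helper3

/-- The length-24 code built from the squares modulo 23 contains the all-ones word, and the code modulo the all-ones word is an irreducible module over the field with two elements for the code's automorphism group: a subspace of the code that contains the all-ones word and is invariant under every coordinate permutation preserving the code is either the span of the all-ones word or the whole code. -/
theorem result : (fun _ : Cfsg.GolayPt => (1 : ZMod 2)) ∈ Cfsg.golayCode ∧ ∀ W : Submodule (ZMod 2) (Cfsg.GolayPt → ZMod 2), (fun _ => (1 : ZMod 2)) ∈ W → W ≤ Cfsg.golayCode → (∀ σ ∈ Cfsg.M24, ∀ w ∈ W, (fun p => w (σ.symm p)) ∈ W) → W = Submodule.span (ZMod 2) {fun _ => (1 : ZMod 2)} ∨ W = Cfsg.golayCode := by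
  refine ⟨Submodule.subset_span (Or.inr rfl), ?_⟩
  intro W h1 hsub hW
  by_cases h : ∀ w ∈ W, w = 0 ∨ w = fun _ => 1
  · left
    apply le_antisymm
    · intro w hw
      rcases h w hw with h0 | h0
      · rw [h0]
        exact Submodule.zero_mem _
      · rw [h0]
        exact Submodule.subset_span rfl
    · rw [Submodule.span_le]
      intro w hw
      rw [Set.mem_singleton_iff] at hw
      rw [hw]
      exact h1
  · right
    push Not at h
    obtain ⟨w, hw, h0, h1'⟩ := h
    exact le_antisymm hsub (golay_le_of_sub W hW hsub hw h0 h1')

end Cfsg.Agent.S5393
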