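import Cfsg.Statements.S5394
import Cfsg.Agent.Helper3.Cls.Inv

set_option autoImplicit false
open Cfsg

namespace Cfsg.Agent.S5394

open Cfsg.Agent.Helper3

/-- The automorphism group of the length-24 code built from the squares modulo 23 has exactly two conjugacy classes of involutions: an involution either fixes exactly the eight points of an octad or has no fixed points, both kinds occur, and any two involutions of the same kind are conjugate in the group. -/
theorem result : (∀ g ∈ Cfsg.M24, orderOf g = 2 → (Finset.univ.filter fun p => g p = p) ∈ Cfsg.octads ∨ ∀ p, g p ≠ p) ∧ (∃ g ∈ Cfsg.M24, orderOf g = 2 ∧ (Finset.univ.filter fun p => g p = p) ∈ Cfsg.octads) ∧ (∃ g ∈ Cfsg.M24, orderOf g = 2 ∧ ∀ p, g p ≠ p) ∧ ∀ g ∈ Cfsg.M24, ∀ h ∈ Cfsg.M24, orderOf g = 2 → orderOf h = 2 → ((∀ p, g p ≠ p) ↔ (∀ p, h p ≠ p)) → ∃ k ∈ Cfsg.M24, k * g * k⁻¹ = h := by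
  have key : ∀ g ∈ Cfsg.M24, orderOf g = 2 → ∃ k ∈ Cfsg.M24,
      k * g * k⁻¹ = gWordPerm invRA ∨ k * g * k⁻¹ = gWordPerm invRB :=
    fun g hg h => inv_class g hg (ord2_facts h).1 (ord2_facts h).2
  refine ⟨fun g hg h => inv_fix_cases g hg h,
    ⟨gWordPerm invRA, gWordPerm_mem_M24 _, invRA_ord, invRA_fix⟩,
    ⟨gWordPerm invRB, gWordPerm_mem_M24 _, invRB_ord, invRB_fpf⟩, ?_⟩
  intro g hg h hh og oh hiff
  obtain ⟨k, hk, h1 | h1⟩ := key g hg og <;> obtain ⟨k', hk', h2 | h2⟩ := key h hh oh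
  · exact ⟨k'⁻¹ * k, Cfsg.M24.mul_mem (Cfsg.M24.inv_mem hk') hk, conj_of_common h1 h2⟩
  · exfalso
    have hfg := hiff.2 (fpf_conj h2 invRB_fpf)
    have hc := octads_card (fixA_octad hk h1)
    rw [fpf_card_zero hfg] at hc
    exact absurd hc (by norm_num)
  · exfalso
    have hfh := hiff.1 (fpf_conj h1 invRB_fpf)
    have hc := octads_card (fixA_octad hk' h2)
    rw [fpf_card_zero hfh] at hc
    exact absurd hc (by norm_num)
  · exact ⟨k'⁻¹ * k, Cfsg.M24.mul_mem (Cfsg.M24.inv_mem hk') hk, conj_of_common h1 h2⟩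

end Cfsg.Agent.S5394
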