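import Cfsg.Statements.S5395
import Cfsg.Agent.Helper27.HomCount

set_option autoImplicit false
open Cfsg

namespace Cfsg.Agent.S5395

open Cfsg.Agent.Helper27 in
/-- For a finite extraspecial 2-group E, an automorphism of E that induces the identity on E modulo its centre is inner (so these automorphisms form exactly the inner automorphism group, an elementary abelian 2-group of order |E|/2). -/
theorem result {E : Type*} [Group E] [Finite E] (hE : Cfsg.IsExtraspecial 2 E) (φ : E ≃* E) (hφ : ∀ x : E, φ x * x⁻¹ ∈ Subgroup.center E) : ∃ g : E, ∀ x : E, φ x = g * x * g⁻¹ := by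
  obtain ⟨⟨-, -, hcomm⟩, hcard⟩ := hE
  let A : Set (MulAut E) := {ψ | ∀ x, ψ x * x⁻¹ ∈ Subgroup.center E}
  have hsub : ((MulAut.conj : E →* MulAut E).range : Set (MulAut E)) ⊆ A := by
    rintro _ ⟨g, rfl⟩ x
    show g * x * g⁻¹ * x⁻¹ ∈ Subgroup.center E
    rw [← hcomm, commutator_def, ← commutatorElement_def]
    exact Subgroup.commutator_mem_commutator (Subgroup.mem_top g) (Subgroup.mem_top x)
  have hfinhom : Finite (E →* Subgroup.center E) :=
    Finite.of_injective (fun f : E →* Subgroup.center E => (f : E → Subgroup.center E))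
      DFunLike.coe_injective
  have hfinhom2 : Finite ((E ⧸ Subgroup.center E) →* Subgroup.center E) :=
    Finite.of_injective (fun f : (E ⧸ Subgroup.center E) →* Subgroup.center E =>
      (f : (E ⧸ Subgroup.center E) → Subgroup.center E)) DFunLike.coe_injective
  -- |A| ≤ |Hom(E, Z)|
  have h1 : Nat.card A ≤ Nat.card (E →* Subgroup.center E) := by
    let Λ : A → (E →* Subgroup.center E) := fun ψ =>
      { toFun := fun x => ⟨ψ.1 x * x⁻¹, ψ.2 x⟩
        map_one' := by
          apply Subtype.ext
          simp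
        map_mul' := by
          intro x y
          apply Subtype.ext
          show ψ.1 (x * y) * (x * y)⁻¹ = ψ.1 x * x⁻¹ * (ψ.1 y * y⁻¹)
          have hc : x⁻¹ * (ψ.1 y * y⁻¹) = (ψ.1 y * y⁻¹) * x⁻¹ :=
            Subgroup.mem_center_iff.mp (ψ.2 y) x⁻¹
          rw [map_mul, mul_inv_rev]
          calc ψ.1 x * ψ.1 y * (y⁻¹ * x⁻¹) = ψ.1 x * ((ψ.1 y * y⁻¹) * x⁻¹) := by group
            _ = ψ.1 x * (x⁻¹ * (ψ.1 y * y⁻¹)) := by rw [hc]
            _ = ψ.1 x * x⁻¹ * (ψ.1 y * y⁻¹) := by group }
    apply Nat.card_le_card_of_injective Λ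
    intro ψ ψ' h
    apply Subtype.ext
    apply MulEquiv.ext
    intro x
    have h2 : (Λ ψ x : E) = (Λ ψ' x : E) := by rw [h]
    have h3 : ψ.1 x * x⁻¹ = ψ'.1 x * x⁻¹ := h2
    exact mul_right_cancel h3
  -- |Hom(E, Z)| ≤ |Hom(E/Z, Z)|
  have h2 : Nat.card (E →* Subgroup.center E) ≤ Nat.card ((E ⧸ Subgroup.center E) →* Subgroup.center E) := by
    have hker : ∀ μ : E →* Subgroup.center E, Subgroup.center E ≤ μ.ker := by
      intro μ
      refine le_trans hcomm.ge ?_
      rw [commutator_def, Subgroup.commutator_le]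
      intro a _ b _
      rw [MonoidHom.mem_ker, map_commutatorElement, commutatorElement_eq_one_iff_mul_comm]
      exact Subtype.ext (Subgroup.mem_center_iff.mp (μ b).2 (μ a))
    let Ψ : (E →* Subgroup.center E) → ((E ⧸ Subgroup.center E) →* Subgroup.center E) :=
      fun μ => QuotientGroup.lift (Subgroup.center E) μ (hker μ)
    apply Nat.card_le_card_of_injective Ψ
    intro μ μ' h
    ext x
    have h3 : Ψ μ (QuotientGroup.mk x) = Ψ μ' (QuotientGroup.mk x) := by rw [h]
    have h4 : μ x = μ' x := h3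
    rw [h4]
  have h3 : Nat.card ((E ⧸ Subgroup.center E) →* Subgroup.center E) ≤ Nat.card (E ⧸ Subgroup.center E) :=
    card_hom_le hcard
  have hker : (MulAut.conj : E →* MulAut E).ker = Subgroup.center E := by
    ext g
    rw [MonoidHom.mem_ker, Subgroup.mem_center_iff]
    constructor
    · intro h x
      have h5 : (MulAut.conj g) x = x := by rw [h]; rfl
      have h6 : g * x * g⁻¹ = x := h5
      calc x * g = (g * x * g⁻¹) * g := by rw [h6]
        _ = g * x := by group
    · intro h
      apply MulEquiv.ext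
      intro x
      show g * x * g⁻¹ = x
      rw [← h x]; group
  have hcardR : Nat.card ((MulAut.conj : E →* MulAut E).range) = Nat.card (E ⧸ Subgroup.center E) := by
    rw [← hker]
    exact (Nat.card_congr (QuotientGroup.quotientKerEquivRange (MulAut.conj : E →* MulAut E)).toEquiv).symm
  have heq : ((MulAut.conj : E →* MulAut E).range : Set (MulAut E)) = A := by
    apply Set.eq_of_subset_of_ncard_le hsub _ (Set.toFinite A)
    rw [← Nat.card_coe_set_eq, ← Nat.card_coe_set_eq]
    calc Nat.card A ≤ Nat.card (E ⧸ Subgroup.center E) := h1.trans (h2.trans h3)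
      _ = Nat.card ((MulAut.conj : E →* MulAut E).range) := hcardR.symm
  have hφA : φ ∈ A := hφ
  rw [← heq] at hφA
  obtain ⟨g, hg⟩ := hφA
  exact ⟨g, fun x => by rw [← hg]; rfl⟩

end Cfsg.Agent.S5395
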