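import Cfsg.Statements.S5396
-- import your own Cfsg.Agent.* helpers here
import Cfsg.Agent.Helper11.ExtraExist

set_option autoImplicit false
open Cfsg

namespace Cfsg.Agent.S5396

/-- For every n ≥ 1 there exist finite extraspecial 2-groups of order 2^(2n+1) whose 2-rank (the largest rank of an elementary abelian subgroup) is n, and ones whose 2-rank is n + 1 (so for each such order there are two non-isomorphic extraspecial 2-groups, told apart by their 2-rank). -/
theorem result (n : ℕ) (hn : 1 ≤ n) : ∀ r ∈ ({n, n + 1} : Set ℕ), ∃ (E : Type) (_ : Group E) (_ : Finite E), Cfsg.IsExtraspecial 2 E ∧ Nat.card E = 2 ^ (2 * n + 1) ∧ sSup {k : ℕ | ∃ A : Subgroup E, Cfsg.IsElementaryAbelian 2 A ∧ Nat.card A = 2 ^ k} = r := by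
  intro r hr
  rw [Set.mem_insert_iff, Set.mem_singleton_iff] at hr
  obtain ⟨h1, h2⟩ := Cfsg.Agent.Helper11.exists_extraspecial_rank n hn
  rcases hr with rfl | rfl
  · exact h1
  · exact h2

end Cfsg.Agent.S5396
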