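import Cfsg.Statements.S5420
import Cfsg.Agent.Helper27.Basic

set_option autoImplicit false
open Cfsg

namespace Cfsg.Agent.S5420

open Cfsg.Agent.Helper27 in
/-- Let Q be an extraspecial 2-subgroup of the finite group G whose centralizer in G is its centre Z and which is normal in the centralizer of Z. If Z lies in the largest normal 2-subgroup of G, then Q is a large extraspecial 2-subgroup of G: it normalizes no non-trivial subgroup of G of odd order. -/
theorem result {G : Type*} [Group G] [Finite G] (Q : Subgroup G) (hL1 : Cfsg.IsExtraspecial 2 ↥Q) (hL2 : Subgroup.centralizer (Q : Set G) = ((Subgroup.center ↥Q).map Q.subtype)) (hL3 : Subgroup.centralizer (((Subgroup.center ↥Q).map Q.subtype) : Set G) ≤ Subgroup.normalizer (Q : Set G)) (hZ : ((Subgroup.center ↥Q).map Q.subtype) ≤ Cfsg.pCore 2 G) : Cfsg.IsLargeExtraspecial Q := by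
  refine ⟨hL1, hL2, hL3, ?_⟩
  intro K hK hQK
  haveI : Fact (Nat.Prime 2) := ⟨Nat.prime_two⟩
  have hQ2 : IsPGroup 2 Q := hL1.1.1
  have hO2 : IsPGroup 2 (Cfsg.pCore 2 G) := pCore_isPGroup 2 G
  have hO2n : (Cfsg.pCore 2 G).Normal := pCore_normal' 2 G
  have hZQ : ((Subgroup.center ↥Q).map Q.subtype) ≤ Q := by
    rintro _ ⟨y, -, rfl⟩
    exact y.2
  have step1 : K ≤ Subgroup.centralizer (((Subgroup.center ↥Q).map Q.subtype) : Set G) := by
    intro k hk
    rw [Subgroup.mem_centralizer_iff]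
    intro z hz
    have hzK : z * k * z⁻¹ ∈ K := (Subgroup.mem_normalizer_iff.mp (hQK (hZQ hz)) k).mp hk
    have hcK : z * k * z⁻¹ * k⁻¹ ∈ K := K.mul_mem hzK (K.inv_mem hk)
    have hcO : z * k * z⁻¹ * k⁻¹ ∈ Cfsg.pCore 2 G := by
      have h1 : k * z⁻¹ * k⁻¹ ∈ Cfsg.pCore 2 G :=
        hO2n.conj_mem _ ((Cfsg.pCore 2 G).inv_mem (hZ hz)) k
      have e : z * k * z⁻¹ * k⁻¹ = z * (k * z⁻¹ * k⁻¹) := by group
      rw [e]
      exact (Cfsg.pCore 2 G).mul_mem (hZ hz) h1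
    obtain ⟨m, hm⟩ := mem_two_pow_of_isPGroup hO2 hcO
    have h1 := eq_one_of_odd_of_two_pow K hK hcK hm
    have : z * k = (z * k * z⁻¹ * k⁻¹) * (k * z) := by group
    rw [this, h1, one_mul]
  have step2 : K ≤ Subgroup.normalizer (Q : Set G) := step1.trans hL3
  have step3 : K ≤ Subgroup.centralizer (Q : Set G) := by
    intro k hk
    rw [Subgroup.mem_centralizer_iff]
    intro q hq
    have hqK : q * k * q⁻¹ ∈ K := (Subgroup.mem_normalizer_iff.mp (hQK hq) k).mp hk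
    have hcK : q * k * q⁻¹ * k⁻¹ ∈ K := K.mul_mem hqK (K.inv_mem hk)
    have hcQ : q * k * q⁻¹ * k⁻¹ ∈ Q := by
      have h1 : k * q⁻¹ * k⁻¹ ∈ Q :=
        (Subgroup.mem_normalizer_iff.mp (step2 hk) q⁻¹).mp (Q.inv_mem hq)
      have e : q * k * q⁻¹ * k⁻¹ = q * (k * q⁻¹ * k⁻¹) := by group
      rw [e]
      exact Q.mul_mem hq h1
    obtain ⟨m, hm⟩ := mem_two_pow_of_isPGroup hQ2 hcQ
    have h1 := eq_one_of_odd_of_two_pow K hK hcK hm
    have : q * k = (q * k * q⁻¹ * k⁻¹) * (k * q) := by group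
    rw [this, h1, one_mul]
  rw [eq_bot_iff]
  intro k hk
  have hkQ : k ∈ Q := hZQ (hL2 ▸ step3 hk)
  obtain ⟨m, hm⟩ := mem_two_pow_of_isPGroup hQ2 hkQ
  exact Subgroup.mem_bot.mpr (eq_one_of_odd_of_two_pow K hK hk hm)

end Cfsg.Agent.S5420
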