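import Cfsg.Statements.S5433
import Cfsg.Agent.Helper27.Basic

set_option autoImplicit false
open Cfsg

namespace Cfsg.Agent.S5433

/-- Let Q be a large extraspecial 2-subgroup of the finite group G (extraspecial; centralizer equal to its centre; normal in the centralizer of its centre; normalizing no non-trivial subgroup of odd order), and L a normal subgroup of G containing Q. Then G is the product of L and the normalizer of Q. -/
theorem result {G : Type*} [Group G] [Finite G] (Q : Subgroup G) (hQ : Cfsg.IsLargeExtraspecial Q) (L : Subgroup G) [L.Normal] (hQL : Q ≤ L) : L ⊔ Subgroup.normalizer (Q : Set G) = ⊤ := by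
  have : Fact (Nat.Prime 2) := ⟨Nat.prime_two⟩
  obtain ⟨hex, hcen, hnorm, -⟩ := hQ
  have hQ2 : IsPGroup 2 Q := hex.1.1
  have hcard : Nat.card (Subgroup.center Q) = 2 := hex.2
  have hQ2' : IsPGroup 2 (Q.subgroupOf L) :=
    hQ2.of_equiv (Subgroup.subgroupOfEquivOfLe hQL).symm
  obtain ⟨T, hT⟩ := hQ2'.exists_le_sylow
  set T' : Subgroup G := (T : Subgroup L).map L.subtype with hT'
  have hQT : Q ≤ T' := by
    intro q hq
    exact ⟨⟨q, hQL hq⟩, hT (Subgroup.mem_subgroupOf.mpr hq), rfl⟩
  have hT2 : IsPGroup 2 T' := T.isPGroup'.map _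
  have hfr : Subgroup.normalizer (T' : Set G) ⊔ L = ⊤ := Sylow.normalizer_sup_eq_top T
  -- uniqueness of the nonidentity element of the centre
  have huniq : ∀ y y' : Q, y ∈ Subgroup.center Q → y' ∈ Subgroup.center Q → y ≠ 1 → y' ≠ 1 → y = y' := by
    intro y y' hy hy' h1 h1'
    obtain ⟨w, -, hw⟩ := (Nat.card_eq_two_iff' (1 : Subgroup.center Q)).mp hcard
    have e1 : (⟨y, hy⟩ : Subgroup.center Q) = w := hw _ (fun h => h1 (by simpa using congrArg Subtype.val h))
    have e2 : (⟨y', hy'⟩ : Subgroup.center Q) = w := hw _ (fun h => h1' (by simpa using congrArg Subtype.val h))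
    have := e1.trans e2.symm
    simpa using congrArg Subtype.val this
  have huniq' : ∀ a b : G, a ∈ (Subgroup.center Q).map Q.subtype → b ∈ (Subgroup.center Q).map Q.subtype →
      a ≠ 1 → b ≠ 1 → a = b := by
    rintro _ _ ⟨y, hy, rfl⟩ ⟨y', hy', rfl⟩ h1 h1'
    have := huniq y y' hy hy' (fun h => h1 (by rw [h]; rfl)) (fun h => h1' (by rw [h]; rfl))
    rw [this]
  -- a nontrivial central element of T'
  have hTnt : Nontrivial T' := by
    have hcnt : Nontrivial (Subgroup.center Q) := by
      rw [← Finite.one_lt_card_iff_nontrivial, hcard]; norm_num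
    obtain ⟨a, b, hab⟩ := hcnt
    refine ⟨⟨⟨a.1.1, hQT a.1.2⟩, ⟨b.1.1, hQT b.1.2⟩, ?_⟩⟩
    intro h
    apply hab
    have : (a.1.1 : G) = b.1.1 := Subtype.mk.inj h
    exact Subtype.ext (Subtype.ext this)
  have hcT : Nontrivial (Subgroup.center T') := hT2.center_nontrivial
  obtain ⟨c, hc⟩ := exists_ne (1 : Subgroup.center T')
  set x : G := ((c : T') : G) with hx
  have hxT : x ∈ T' := (c : T').2
  have hx1 : x ≠ 1 := by
    intro h
    apply hc
    exact Subtype.ext (Subtype.ext h)
  have hxc : ∀ t ∈ T', t * x = x * t := by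
    intro t ht
    have := Subgroup.mem_center_iff.mp c.2 ⟨t, ht⟩
    exact congrArg Subtype.val this
  have hxZ : x ∈ (Subgroup.center Q).map Q.subtype := by
    rw [← hcen, Subgroup.mem_centralizer_iff]
    intro q hq
    exact hxc q (hQT hq)
  have key : Subgroup.normalizer (T' : Set G) ≤ Subgroup.normalizer (Q : Set G) := by
    intro g hg
    apply hnorm
    have hgx : g * x * g⁻¹ ∈ (Subgroup.center Q).map Q.subtype := by
      rw [← hcen, Subgroup.mem_centralizer_iff]
      intro q hq
      have hq' : g⁻¹ * q * g ∈ T' := by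
        have := (Subgroup.mem_normalizer_iff.mp (Subgroup.inv_mem _ hg) q).mp (hQT hq)
        simpa using this
      have h2 := hxc _ hq'
      calc q * (g * x * g⁻¹) = g * ((g⁻¹ * q * g) * x) * g⁻¹ := by group
        _ = g * (x * (g⁻¹ * q * g)) * g⁻¹ := by rw [h2]
        _ = g * x * g⁻¹ * q := by group
    have hgx1 : g * x * g⁻¹ ≠ 1 := by
      intro h
      apply hx1
      have : x = g⁻¹ * (g * x * g⁻¹) * g := by group
      rw [this, h]; group
    have hcomm : g * x * g⁻¹ = x := huniq' _ _ hgx hxZ hgx1 hx1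
    rw [Subgroup.mem_centralizer_iff]
    intro z hz
    by_cases hz1 : z = 1
    · rw [hz1]; group
    · have : z = x := huniq' _ _ hz hxZ hz1 hx1
      rw [this]
      calc x * g = (g * x * g⁻¹) * g := by rw [hcomm]
        _ = g * x := by group
  rw [eq_top_iff, ← hfr, sup_comm]
  exact sup_le_sup_left key L

end Cfsg.Agent.S5433
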