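import Cfsg.Statements.S5435
import Cfsg.Agent.Helper27.FZd
import Cfsg.Agent.Lead.PGroup

set_option autoImplicit false
open Cfsg

namespace Cfsg.Agent.S5435

/-- Let L be a finite non-abelian simple group with an involution z whose centralizer R is a Sylow 2-subgroup of L whose Frattini subgroup is the subgroup generated by z. Then R is dihedral of order 8. -/
theorem result {L : Type*} [Group L] [Finite L] [IsSimpleGroup L] (hL : ¬ IsMulCommutative L) (z : L) (hz : orderOf z = 2) (R : Sylow 2 L) (hR : (R : Subgroup L) = Subgroup.centralizer ({z} : Set L)) (hΦ : (frattini ↥(R : Subgroup L)).map (R : Subgroup L).subtype = Subgroup.zpowers z) : Nonempty (↥(R : Subgroup L) ≃* DihedralGroup 4) := by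
  haveI : Fact (Nat.Prime 2) := ⟨Nat.prime_two⟩
  have hzne : z ≠ 1 := by
    intro e; rw [e, orderOf_one] at hz; omega
  have hzsq : z * z = 1 := by
    have := pow_orderOf_eq_one z; rw [hz, pow_two] at this; exact this
  have hmemR : ∀ x, x ∈ R ↔ Commute x z := by
    intro x
    show x ∈ (R : Subgroup L) ↔ _
    rw [hR, Subgroup.mem_centralizer_singleton_iff]
    exact Iff.rfl
  have hzp : ∀ w ∈ Subgroup.zpowers z, w = 1 ∨ w = z := by
    intro w hw
    obtain ⟨k, rfl⟩ := Subgroup.mem_zpowers_iff.mp hw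
    exact Cfsg.Agent.Helper27.FZ.zpow_of_sq' hzsq k
  have hPG : IsPGroup 2 ↥(R : Subgroup L) := R.isPGroup'
  have hfr : ∀ w : ↥(R : Subgroup L), w ∈ frattini ↥(R : Subgroup L) →
      (w : L) = 1 ∨ (w : L) = z := by
    intro w hw
    apply hzp
    rw [← hΦ]
    exact ⟨w, hw, rfl⟩
  refine Cfsg.Agent.Helper27.FZ.main hL (z := z) (R := R) ⟨hzne, hzsq, hmemR, ?_, ?_, ?_⟩
  · intro x hx
    have h1 := Cfsg.Agent.Lead.pow_mem_frattini hPG ⟨x, hx⟩
    have h2 := hfr _ h1
    have h3 : (((⟨x, hx⟩ : ↥(R : Subgroup L)) ^ 2 : ↥(R : Subgroup L)) : L) = x * x := by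
      rw [pow_two]; rfl
    rw [h3] at h2
    exact h2
  · intro x hx y hy
    have h1 : ((⟨x, hx⟩ : ↥(R : Subgroup L)) * ⟨y, hy⟩ * (⟨x, hx⟩ : ↥(R : Subgroup L))⁻¹ *
        (⟨y, hy⟩ : ↥(R : Subgroup L))⁻¹) ∈ frattini ↥(R : Subgroup L) :=
      Cfsg.Agent.Lead.commutator_le_frattini hPG (by
        rw [commutator_def]
        exact Subgroup.commutator_mem_commutator (Subgroup.mem_top (⟨x, hx⟩ : ↥(R : Subgroup L)))
          (Subgroup.mem_top (⟨y, hy⟩ : ↥(R : Subgroup L))))
    have h2 := hfr _ h1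
    have h3 : (((⟨x, hx⟩ : ↥(R : Subgroup L)) * ⟨y, hy⟩ * (⟨x, hx⟩ : ↥(R : Subgroup L))⁻¹ *
        (⟨y, hy⟩ : ↥(R : Subgroup L))⁻¹ : ↥(R : Subgroup L)) : L) = x * y * x⁻¹ * y⁻¹ := rfl
    rw [h3] at h2
    have e : x * y = (x * y * x⁻¹ * y⁻¹) * (y * x) := by group
    rcases h2 with h2 | h2
    · left
      show x * y = y * x
      rw [e, h2, one_mul]
    · right
      rw [e, h2]
  · intro n hn
    let f : ↥(R : Subgroup L) →* ↥(R : Subgroup L) :=
      { toFun := fun x => ⟨n * x * n⁻¹, hn x x.2⟩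
        map_one' := Subtype.ext (by simp)
        map_mul' := fun a b => Subtype.ext (by simp [mul_assoc]) }
    have hinj : Function.Injective f := by
      intro a b hab
      have h1 : n * (a : L) * n⁻¹ = n * (b : L) * n⁻¹ := congrArg Subtype.val hab
      exact Subtype.ext (mul_left_cancel (mul_right_cancel h1))
    have hbij : Function.Bijective f := ⟨hinj, Finite.surjective_of_injective hinj⟩
    have hchar : (frattini ↥(R : Subgroup L)).Characteristic := inferInstance
    have hzR : z ∈ (R : Subgroup L) := (hmemR z).2 (Commute.refl z)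
    have hzF : (⟨z, hzR⟩ : ↥(R : Subgroup L)) ∈ frattini ↥(R : Subgroup L) := by
      have h1 : z ∈ (frattini ↥(R : Subgroup L)).map (R : Subgroup L).subtype := by
        rw [hΦ]; exact Subgroup.mem_zpowers z
      obtain ⟨w, hw, hwz⟩ := h1
      have : w = ⟨z, hzR⟩ := Subtype.ext hwz
      rw [← this]; exact hw
    have h2 : (MulEquiv.ofBijective f hbij) ⟨z, hzR⟩ ∈ frattini ↥(R : Subgroup L) := by
      have h3 := (Subgroup.characteristic_iff_map_eq.mp hchar) (MulEquiv.ofBijective f hbij)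
      rw [← h3]
      exact ⟨_, hzF, rfl⟩
    rcases hfr _ h2 with h4 | h4
    · exfalso
      have h5 : n * z * n⁻¹ = 1 := h4
      apply hzne
      have : z = n⁻¹ * (n * z * n⁻¹) * n := by group
      rw [this, h5]; group
    · exact h4

end Cfsg.Agent.S5435
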