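import Cfsg.Statements.S5437

set_option autoImplicit false
open Cfsg

namespace Cfsg.Agent.S5437

theorem mem_map_conj {G : Type*} [Group G] (H : Subgroup G) (g x : G) :
    x ∈ H.map (MulAut.conj g).toMonoidHom ↔ g⁻¹ * x * g ∈ H := by
  constructor
  · rintro ⟨y, hy, rfl⟩
    have : g⁻¹ * (MulAut.conj g).toMonoidHom y * g = y := by
      show g⁻¹ * (g * y * g⁻¹) * g = y
      group
    rw [this]; exact hy
  · intro h
    refine ⟨g⁻¹ * x * g, h, ?_⟩
    show g * (g⁻¹ * x * g) * g⁻¹ = x
    group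

theorem fix_iff {G : Type*} [Group G] (H : Subgroup G) (g x : G) :
    x • (QuotientGroup.mk g : G ⧸ H) = QuotientGroup.mk g ↔ g⁻¹ * x * g ∈ H := by
  rw [MulAction.Quotient.smul_mk, smul_eq_mul, QuotientGroup.eq]
  constructor
  · intro h
    have h2 := H.inv_mem h
    have e : ((x * g)⁻¹ * g)⁻¹ = g⁻¹ * x * g := by group
    rw [e] at h2; exact h2
  · intro h
    have h2 := H.inv_mem h
    have e : (g⁻¹ * x * g)⁻¹ = (x * g)⁻¹ * g := by group
    rw [e] at h2; exact h2

/-- Let I be a set of involutions of the finite group G closed under conjugation, and H a subgroup of G. The following are equivalent: (1) for every member x of I lying in H, the conjugates of x lying in H form a single H-class and the centralizer of x lies in H; (2) for every g outside H, no member of I lies in both H and g H g⁻¹; (3) every member of I lying in H fixes exactly one coset in the action of G on the cosets of H. -/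
theorem result {G : Type*} [Group G] [Finite G] (I : Set G) (hI : ∀ x ∈ I, orderOf x = 2) (hIc : ∀ g : G, ∀ x ∈ I, g * x * g⁻¹ ∈ I) (H : Subgroup G) : ((∀ x ∈ I, x ∈ H → (∀ g : G, g * x * g⁻¹ ∈ H → ∃ h ∈ H, h * x * h⁻¹ = g * x * g⁻¹) ∧ Subgroup.centralizer ({x} : Set G) ≤ H) ↔ (∀ g : G, g ∉ H → ∀ x ∈ I, ¬ (x ∈ H ∧ x ∈ (H : Subgroup G).map (MulAut.conj g).toMonoidHom))) ∧ ((∀ g : G, g ∉ H → ∀ x ∈ I, ¬ (x ∈ H ∧ x ∈ (H : Subgroup G).map (MulAut.conj g).toMonoidHom)) ↔ ∀ x ∈ I, x ∈ H → ∃! c : G ⧸ H, x • c = c) := by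
  refine ⟨⟨?_, ?_⟩, ⟨?_, ?_⟩⟩
  · intro h1 g hg x hxI ⟨hxH, hxm⟩
    rw [mem_map_conj] at hxm
    obtain ⟨hA, hC⟩ := h1 x hxI hxH
    have hxm' : g⁻¹ * x * g⁻¹⁻¹ ∈ H := by rw [inv_inv]; exact hxm
    obtain ⟨h, hh, hEq⟩ := hA g⁻¹ hxm'
    rw [inv_inv] at hEq
    have hcen : g * h ∈ Subgroup.centralizer ({x} : Set G) := by
      rw [Subgroup.mem_centralizer_iff]
      intro y hy
      rw [Set.mem_singleton_iff] at hy
      subst hy
      have e1 : g * h * y = g * (h * y * h⁻¹) * h := by group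
      rw [e1, hEq]
      group
    have hgh := hC hcen
    have : g = (g * h) * h⁻¹ := by group
    rw [this] at hg
    exact hg (H.mul_mem hgh (H.inv_mem hh))
  · intro h2 x hxI hxH
    refine ⟨?_, ?_⟩
    · intro g hgx
      have hgH : g ∈ H := by
        by_contra hg
        refine h2 g hg (g * x * g⁻¹) (hIc g x hxI) ⟨hgx, ?_⟩
        rw [mem_map_conj]
        have : g⁻¹ * (g * x * g⁻¹) * g = x := by group
        rw [this]; exact hxH
      exact ⟨g, hgH, rfl⟩
    · intro c hc
      by_contra hcH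
      refine h2 c hcH x hxI ⟨hxH, ?_⟩
      rw [mem_map_conj]
      rw [Subgroup.mem_centralizer_iff] at hc
      have hcx : x * c = c * x := hc x (Set.mem_singleton x)
      have : c⁻¹ * x * c = x := by
        rw [mul_assoc, hcx]; group
      rw [this]; exact hxH
  · intro h2 x hxI hxH
    refine ⟨(QuotientGroup.mk (1 : G) : G ⧸ H), ?_, ?_⟩
    · show x • (QuotientGroup.mk (1 : G) : G ⧸ H) = QuotientGroup.mk (1 : G)
      rw [fix_iff]
      simpa using hxH
    · intro c hc
      induction c using QuotientGroup.induction_on with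
      | H g =>
        have hc' : x • (QuotientGroup.mk g : G ⧸ H) = QuotientGroup.mk g := hc
        rw [fix_iff] at hc'
        have hgH : g ∈ H := by
          by_contra hg
          exact h2 g hg x hxI ⟨hxH, (mem_map_conj H g x).mpr hc'⟩
        show (QuotientGroup.mk g : G ⧸ H) = QuotientGroup.mk (1 : G)
        rw [QuotientGroup.eq]
        exact H.mul_mem (H.inv_mem hgH) H.one_mem
  · intro h3 g hg x hxI ⟨hxH, hxm⟩
    rw [mem_map_conj] at hxm
    obtain ⟨c, -, huniq⟩ := h3 x hxI hxH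
    have e1 : (QuotientGroup.mk g : G ⧸ H) = c := huniq _ ((fix_iff H g x).mpr hxm)
    have e2 : (QuotientGroup.mk (1 : G) : G ⧸ H) = c :=
      huniq _ ((fix_iff H 1 x).mpr (by simpa using hxH))
    have e3 : (QuotientGroup.mk (1 : G) : G ⧸ H) = QuotientGroup.mk g := e2.trans e1.symm
    rw [QuotientGroup.eq] at e3
    apply hg
    simpa using e3

end Cfsg.Agent.S5437
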