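import Cfsg.Statements.S5438
import Cfsg.Agent.Helper27.Basic
import Cfsg.Agent.Helper27.SylowLemmas

set_option autoImplicit false
open Cfsg

namespace Cfsg.Agent.S5438

open Cfsg.Agent.Helper27 in
/-- Let z be a 2-central involution of the finite group G (an involution central in some Sylow 2-subgroup) and H a subgroup containing z such that the coset H is the only coset of H fixed by z (in the action of G on the cosets of H). Then H has odd index in G, and for every 2-element x of H the conjugates of x lying in H form a single H-class. -/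
theorem result {G : Type*} [Group G] [Finite G] (z : G) (hz : Cfsg.IsTwoCentralInvolution z) (H : Subgroup G) (hzH : z ∈ H) (hfix : ∀ g : G, g⁻¹ * z * g ∈ H → g ∈ H) : Odd H.index ∧ ∀ x ∈ H, (∃ k : ℕ, orderOf x = 2 ^ k) → ∀ g : G, g * x * g⁻¹ ∈ H → ∃ h ∈ H, h * x * h⁻¹ = g * x * g⁻¹ := by
  have : Fact (Nat.Prime 2) := ⟨Nat.prime_two⟩
  obtain ⟨hz2, P, hzP, hPz⟩ := hz
  have hC : ∀ c : G, c * z = z * c → c ∈ H := by
    intro c hc
    apply hfix
    have : c⁻¹ * z * c = z := by rw [mul_assoc, ← hc]; group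
    rw [this]; exact hzH
  have hPH : (P : Subgroup G) ≤ H := fun x hx => hC x (hPz x hx)
  have hA : ∀ R : Subgroup G, IsPGroup 2 R → z ∈ R → R ≤ H := by
    intro R hR hzR
    obtain ⟨P', hP'⟩ := hR.exists_le_sylow
    obtain ⟨w, hw⟩ := MulAction.exists_smul_eq G P P'
    have hz' : ∀ y ∈ P', y * (w * z * w⁻¹) = (w * z * w⁻¹) * y := by
      intro y hy
      rw [← hw, mem_sylow_smul_iff] at hy
      have := hPz _ hy
      calc y * (w * z * w⁻¹) = w * ((w⁻¹ * y * w) * z) * w⁻¹ := by group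
        _ = w * (z * (w⁻¹ * y * w)) * w⁻¹ := by rw [this]
        _ = (w * z * w⁻¹) * y := by group
    have h1 : (w * z * w⁻¹) * z = z * (w * z * w⁻¹) := (hz' z (hP' hzR)).symm
    have h2 : w * z * w⁻¹ ∈ H := hC _ h1
    have hwH : w⁻¹ ∈ H := by
      apply hfix
      simpa using h2
    have hwH' : w ∈ H := by simpa using H.inv_mem hwH
    intro r hr
    have hr' : r ∈ P' := hP' hr
    rw [← hw, mem_sylow_smul_iff] at hr'
    have hr'' := hPH hr'
    have e : r = w * (w⁻¹ * r * w) * w⁻¹ := by group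
    rw [e]
    exact H.mul_mem (H.mul_mem hwH' hr'') hwH
  refine ⟨?_, ?_⟩
  · have hdvd : H.index ∣ (P : Subgroup G).index := Subgroup.index_dvd_of_le hPH
    have hnd : ¬ 2 ∣ (P : Subgroup G).index := P.not_dvd_index
    rw [← Nat.not_even_iff_odd, even_iff_two_dvd]
    intro h
    exact hnd (dvd_trans h hdvd)
  · intro x hx hx2 g hgx
    have hy2 : ∃ k : ℕ, orderOf (g * x * g⁻¹) = 2 ^ k := by
      obtain ⟨k, hk⟩ := hx2
      exact ⟨k, by rw [orderOf_conj', hk]⟩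
    obtain ⟨h₁, hh₁, hx₁⟩ := exists_conj_mem_sylow_of_le P H hPH hx hx2
    obtain ⟨h₂, hh₂, hy₁⟩ := exists_conj_mem_sylow_of_le P H hPH hgx hy2
    have hvx : (h₂⁻¹ * g * h₁) * (h₁⁻¹ * x * h₁) * (h₂⁻¹ * g * h₁)⁻¹ = h₂⁻¹ * (g * x * g⁻¹) * h₂ := by
      group
    generalize hx₁def : h₁⁻¹ * x * h₁ = x₁ at hx₁ hvx
    generalize hy₁def : h₂⁻¹ * (g * x * g⁻¹) * h₂ = y₁ at hy₁ hvx
    generalize hv : h₂⁻¹ * g * h₁ = v at hvx
    have hzx₁ : x₁ * z = z * x₁ := hPz x₁ hx₁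
    have hzy₁ : y₁ * z = z * y₁ := hPz y₁ hy₁
    have hzC : z ∈ Subgroup.centralizer ({y₁} : Set G) := by
      rw [Subgroup.mem_centralizer_iff]
      intro t ht
      rw [Set.mem_singleton_iff] at ht
      subst ht
      exact hzy₁
    have hz₂C : v * z * v⁻¹ ∈ Subgroup.centralizer ({y₁} : Set G) := by
      rw [Subgroup.mem_centralizer_iff]
      intro t ht
      rw [Set.mem_singleton_iff] at ht
      subst ht
      rw [← hvx]
      calc v * x₁ * v⁻¹ * (v * z * v⁻¹) = v * (x₁ * z) * v⁻¹ := by group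
        _ = v * (z * x₁) * v⁻¹ := by rw [hzx₁]
        _ = v * z * v⁻¹ * (v * x₁ * v⁻¹) := by group
    have hzord : ∃ k : ℕ, orderOf z = 2 ^ k := ⟨1, by rw [hz2]; norm_num⟩
    have hz₂ord : ∃ k : ℕ, orderOf (v * z * v⁻¹) = 2 ^ k :=
      ⟨1, by rw [orderOf_conj', hz2]; norm_num⟩
    obtain ⟨c, hcC, R, hR, -, hzR, hcR⟩ :=
      exists_conj_mem_common_pgroup (p := 2) _ hzC hz₂C hzord hz₂ord
    have hRH := hA R hR hzR
    have h3 : c⁻¹ * (v * z * v⁻¹) * c ∈ H := hRH hcR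
    have hkH : (c⁻¹ * v)⁻¹ ∈ H := by
      apply hfix
      have e : ((c⁻¹ * v)⁻¹)⁻¹ * z * (c⁻¹ * v)⁻¹ = c⁻¹ * (v * z * v⁻¹) * c := by group
      rw [e]; exact h3
    have hkH' : c⁻¹ * v ∈ H := by simpa using H.inv_mem hkH
    have hcy : y₁ * c = c * y₁ :=
      (Subgroup.mem_centralizer_iff.mp hcC) y₁ (Set.mem_singleton _)
    refine ⟨h₂ * (c⁻¹ * v) * h₁⁻¹, H.mul_mem (H.mul_mem hh₂ hkH') (H.inv_mem hh₁), ?_⟩
    have e1 : h₂ * (c⁻¹ * v) * h₁⁻¹ * x * (h₂ * (c⁻¹ * v) * h₁⁻¹)⁻¹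
        = h₂ * (c⁻¹ * (v * (h₁⁻¹ * x * h₁) * v⁻¹) * c) * h₂⁻¹ := by
      group
    rw [e1, hx₁def, hvx]
    have e2 : c⁻¹ * y₁ * c = y₁ := by
      rw [mul_assoc, hcy]; group
    rw [e2, ← hy₁def]; group

end Cfsg.Agent.S5438
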