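import Cfsg.Statements.S5439
import Cfsg.Agent.Helper27.Basic
import Cfsg.Agent.Helper27.Dihedral

set_option autoImplicit false
open Cfsg

namespace Cfsg.Agent.S5439

open Cfsg.Agent.Helper27 in
/-- Let I and J be two different conjugacy classes of involutions of the finite group G and H a subgroup such that every member of I ∪ J fixes exactly one coset in the action on the cosets of H, and such that for every a in I ∩ H and every b in (I ∪ J) ∩ H different from a and commuting with it, the centralizer of a b lies in H. Then H = G. -/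
theorem result {G : Type*} [Group G] [Finite G] (I J : Set G) (a₀ b₀ : G) (ha₀ : orderOf a₀ = 2) (hb₀ : orderOf b₀ = 2) (hI : I = {x | IsConj a₀ x}) (hJ : J = {x | IsConj b₀ x}) (hIJ : I ≠ J) (H : Subgroup G) (hfix : ∀ x ∈ I ∪ J, ∃! c : G ⧸ H, x • c = c) (hcent : ∀ a ∈ I, a ∈ H → ∀ b ∈ I ∪ J, b ∈ H → a ≠ b → a * b = b * a → Subgroup.centralizer ({a * b} : Set G) ≤ H) : H = ⊤ := by
  have ha₀I : a₀ ∈ I := by rw [hI]; exact IsConj.refl a₀
  have hb₀J : b₀ ∈ J := by rw [hJ]; exact IsConj.refl b₀
  have hIconj : ∀ x ∈ I, ∀ g : G, g * x * g⁻¹ ∈ I := by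
    intro x hx g
    rw [hI] at hx ⊢
    exact hx.trans (isConj_iff.mpr ⟨g, rfl⟩)
  have hJconj : ∀ x ∈ J, ∀ g : G, g * x * g⁻¹ ∈ J := by
    intro x hx g
    rw [hJ] at hx ⊢
    exact hx.trans (isConj_iff.mpr ⟨g, rfl⟩)
  have hnc : ¬ IsConj a₀ b₀ := by
    intro h
    apply hIJ
    rw [hI, hJ]
    ext x
    exact ⟨fun hx => h.symm.trans hx, fun hx => h.trans hx⟩
  have hIsq : ∀ x ∈ I, x * x = 1 := by
    intro x hx
    rw [hI] at hx
    obtain ⟨c, rfl⟩ := isConj_iff.mp hx
    have := mul_self_of_orderOf_two ha₀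
    calc c * a₀ * c⁻¹ * (c * a₀ * c⁻¹) = c * (a₀ * a₀) * c⁻¹ := by group
      _ = 1 := by rw [this]; group
  have hJsq : ∀ x ∈ J, x * x = 1 := by
    intro x hx
    rw [hJ] at hx
    obtain ⟨c, rfl⟩ := isConj_iff.mp hx
    have := mul_self_of_orderOf_two hb₀
    calc c * b₀ * c⁻¹ * (c * b₀ * c⁻¹) = c * (b₀ * b₀) * c⁻¹ := by group
      _ = 1 := by rw [this]; group
  -- an element of I in H
  obtain ⟨a, haI, haH⟩ : ∃ a ∈ I, a ∈ H := by
    obtain ⟨c, hc, -⟩ := hfix a₀ (Or.inl ha₀I)
    induction c using QuotientGroup.induction_on with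
    | H g =>
      rw [smul_mk_eq_iff] at hc
      refine ⟨g⁻¹ * a₀ * g, ?_, hc⟩
      have := hIconj a₀ ha₀I g⁻¹
      rwa [inv_inv] at this
  have haa : a * a = 1 := hIsq a haI
  have hafix1 : a • (QuotientGroup.mk (1 : G) : G ⧸ H) = QuotientGroup.mk (1 : G) := by
    rw [smul_mk_eq_iff]; simpa using haH
  -- every element of J lies in H
  have hJH : ∀ b ∈ J, b ∈ H := by
    intro b hbJ
    have hbb : b * b = 1 := hJsq b hbJ
    have hncab : ∀ g : G, g * b * g⁻¹ ≠ a := by
      intro g hg
      apply hnc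
      have h1 : IsConj a₀ a := by rw [hI] at haI; exact haI
      have h2 : IsConj b₀ b := by rw [hJ] at hbJ; exact hbJ
      have h3 : IsConj b a := isConj_iff.mpr ⟨g, hg⟩
      exact h1.trans (h3.symm.trans h2.symm)
    have hn0 : 0 < orderOf (a * b) := orderOf_pos (a * b)
    rcases Nat.even_or_odd' (orderOf (a * b)) with ⟨m, hm | hm⟩
    · -- even order 2m
      have hpow : (a * b) ^ (2 * m) = 1 := by rw [← hm]; exact pow_orderOf_eq_one _
      obtain ⟨huu, hau, hbu, g, hg⟩ := dih_central haa hbb m hpow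
      set u := (a * b) ^ m with hu
      have hu1 : u ≠ 1 := by
        intro h
        have hdvd : orderOf (a * b) ∣ m := orderOf_dvd_of_pow_eq_one h
        have hmpos : 0 < m := by omega
        have := Nat.le_of_dvd hmpos hdvd
        omega
      have hauIJ : a * u ∈ I ∪ J := by
        rcases hg with hg | hg
        · left; rw [← hg]; exact hIconj a haI g
        · right; rw [← hg]; exact hJconj b hbJ g
      have hane : a ≠ a * u := by
        intro h
        apply hu1
        have : a * u = a * 1 := by rw [mul_one]; exact h.symm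
        exact mul_left_cancel this
      have hcomm : a * (a * u) = (a * u) * a := by
        rw [mul_assoc, ← hau]
      have hauH : a * u ∈ H := by
        obtain ⟨c, -, huniq⟩ := hfix a (Or.inl haI)
        have e1 : (QuotientGroup.mk (1 : G) : G ⧸ H) = c := huniq _ hafix1
        have e2 : (a * u) • (QuotientGroup.mk (1 : G) : G ⧸ H) = c := by
          apply huniq
          rw [← mul_smul, hcomm, mul_smul, hafix1]
        have e3 : (a * u) • (QuotientGroup.mk (1 : G) : G ⧸ H) = QuotientGroup.mk (1 : G) :=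
          e2.trans e1.symm
        rw [smul_mk_eq_iff] at e3
        simpa using e3
      have hle := hcent a haI haH (a * u) hauIJ hauH hane hcomm
      apply hle
      rw [Subgroup.mem_centralizer_iff]
      intro h hh
      rw [Set.mem_singleton_iff] at hh
      subst hh
      have : a * (a * u) = u := by rw [← mul_assoc, haa, one_mul]
      rw [this]
      exact hbu.symm
    · exfalso
      have hpow : (a * b) ^ (2 * m + 1) = 1 := by rw [← hm]; exact pow_orderOf_eq_one _
      obtain ⟨g, hg⟩ := dih_conj_of_odd haa hbb m hpow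
      exact hncab g hg
  -- conclude
  rw [eq_top_iff]
  intro g _
  obtain ⟨c, -, huniq⟩ := hfix b₀ (Or.inr hb₀J)
  have e1 : (QuotientGroup.mk (1 : G) : G ⧸ H) = c := by
    apply huniq
    rw [smul_mk_eq_iff]
    simpa using hJH b₀ hb₀J
  have e2 : (QuotientGroup.mk g : G ⧸ H) = c := by
    apply huniq
    rw [smul_mk_eq_iff]
    have := hJconj b₀ hb₀J g⁻¹
    rw [inv_inv] at this
    exact hJH _ this
  have e3 : (QuotientGroup.mk (1 : G) : G ⧸ H) = QuotientGroup.mk g := e1.trans e2.symm
  rw [QuotientGroup.eq] at e3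
  simpa using e3

end Cfsg.Agent.S5439
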