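import Cfsg.Statements.S5459
import Cfsg.Agent.Helper27.Basic

set_option autoImplicit false
open Cfsg

namespace Cfsg.Agent.S5459

open scoped commutatorElement

theorem mem_conj_iff {G : Type*} [Group G] (d x : G) :
    x ∈ conjugatesOf d ↔ ∃ g : G, g * d * g⁻¹ = x := by
  show IsConj d x ↔ _
  rw [isConj_iff]

theorem conj_mem_conj {G : Type*} [Group G] (d : G) {x : G} (hx : x ∈ conjugatesOf d) (g : G) :
    g * x * g⁻¹ ∈ conjugatesOf d := by
  rw [mem_conj_iff] at hx ⊢
  obtain ⟨h, rfl⟩ := hx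
  exact ⟨g * h, by group⟩

/-- conjugation as a map on the conjugacy class. -/
def cj {G : Type*} [Group G] (d : G) (g : G) (x : conjugatesOf d) : conjugatesOf d :=
  ⟨g * x.1 * g⁻¹, conj_mem_conj d x.2 g⟩

theorem cj_adj {G : Type*} [Group G] (d g : G) (a b : conjugatesOf d)
    (h : (Cfsg.commutingGraph (conjugatesOf d)).Adj a b) :
    (Cfsg.commutingGraph (conjugatesOf d)).Adj (cj d g a) (cj d g b) := by
  unfold Cfsg.commutingGraph at h ⊢
  rw [SimpleGraph.fromRel_adj] at h ⊢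
  obtain ⟨hne, hc⟩ := h
  have hc' : (a : G) * b = b * a := by
    rcases hc with hc | hc
    · exact hc
    · exact hc.symm
  refine ⟨?_, Or.inl ?_⟩
  · intro he
    apply hne
    apply Subtype.ext
    have he' : g * (a : G) * g⁻¹ = g * b * g⁻¹ := congrArg Subtype.val he
    exact mul_left_cancel (mul_right_cancel he')
  · show g * (a : G) * g⁻¹ * (g * b * g⁻¹) = g * b * g⁻¹ * (g * a * g⁻¹)
    calc g * (a : G) * g⁻¹ * (g * b * g⁻¹) = g * (a * b) * g⁻¹ := by group
      _ = g * (b * a) * g⁻¹ := by rw [hc']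
      _ = g * b * g⁻¹ * (g * a * g⁻¹) := by group

theorem cj_reachable {G : Type*} [Group G] (d g : G) (a b : conjugatesOf d)
    (h : (Cfsg.commutingGraph (conjugatesOf d)).Reachable a b) :
    (Cfsg.commutingGraph (conjugatesOf d)).Reachable (cj d g a) (cj d g b) := by
  rw [SimpleGraph.reachable_iff_reflTransGen] at h ⊢
  exact Relation.ReflTransGen.lift (cj d g) (fun a b hab => cj_adj d g a b hab) _ _ h

theorem cj_mul {G : Type*} [Group G] (d g h : G) (a : conjugatesOf d) :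
    cj d (g * h) a = cj d g (cj d h a) := by
  apply Subtype.ext
  show g * h * (a : G) * (g * h)⁻¹ = g * (h * a * h⁻¹) * g⁻¹
  group

theorem cj_one {G : Type*} [Group G] (d : G) (a : conjugatesOf d) : cj d 1 a = a := by
  apply Subtype.ext
  show 1 * (a : G) * 1⁻¹ = a
  group

/-- the subgroup of elements `g` such that `g d g⁻¹` is reachable from `d`. -/
def reachSubgroup {G : Type*} [Group G] (d : G) : Subgroup G where
  carrier := {g | (Cfsg.commutingGraph (conjugatesOf d)).Reachable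
    (⟨d, mem_conjugatesOf_self⟩ : conjugatesOf d) (cj d g ⟨d, mem_conjugatesOf_self⟩)}
  one_mem' := by
    show (Cfsg.commutingGraph (conjugatesOf d)).Reachable _ (cj d 1 ⟨d, mem_conjugatesOf_self⟩)
    rw [cj_one]
  mul_mem' := by
    intro a b ha hb
    show (Cfsg.commutingGraph (conjugatesOf d)).Reachable _ (cj d (a * b) ⟨d, mem_conjugatesOf_self⟩)
    rw [cj_mul]
    exact SimpleGraph.Reachable.trans ha (cj_reachable d a _ _ hb)
  inv_mem' := by
    intro a ha
    show (Cfsg.commutingGraph (conjugatesOf d)).Reachable _ (cj d a⁻¹ ⟨d, mem_conjugatesOf_self⟩)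
    have h1 := cj_reachable d a⁻¹ _ _ ha
    rw [← cj_mul, inv_mul_cancel, cj_one] at h1
    exact h1.symm

theorem mem_reachSubgroup {G : Type*} [Group G] (d g : G) :
    g ∈ reachSubgroup d ↔ (Cfsg.commutingGraph (conjugatesOf d)).Reachable
      (⟨d, mem_conjugatesOf_self⟩ : conjugatesOf d) (cj d g ⟨d, mem_conjugatesOf_self⟩) := Iff.rfl

open Cfsg.Agent.Helper27 in
/-- Let G be a finite group with a quasisimple normal subgroup L and an involution d such that G is generated by L and d, the centre of L has odd order, and d inverts every element of the centre of L. If the commuting graph on the conjugacy class of the image of d in G modulo the centre of L is connected, then the commuting graph on the conjugacy class of d is connected. -/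
theorem result {G : Type*} [Group G] [Finite G] (L : Subgroup G) [L.Normal] (hL : Cfsg.IsQuasisimple ↥L) (d : G) (hd : orderOf d = 2) (hgen : L ⊔ Subgroup.zpowers d = ⊤) (hodd : Odd (Nat.card ↥(Subgroup.center ↥L))) (hinv : ∀ c ∈ (Subgroup.center ↥L).map L.subtype, d * c * d⁻¹ = c⁻¹) [hn : ((Subgroup.center ↥L).map L.subtype).Normal] (hconn : (Cfsg.commutingGraph (conjugatesOf (QuotientGroup.mk d : G ⧸ (Subgroup.center ↥L).map L.subtype))).Connected) : (Cfsg.commutingGraph (conjugatesOf d)).Connected := by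
  have hZL : (Subgroup.center ↥L).map L.subtype ≤ L := by
    rintro _ ⟨y, -, rfl⟩
    exact y.2
  have hcen : ∀ w ∈ (Subgroup.center ↥L).map L.subtype, ∀ l ∈ L, w * l = l * w := by
    rintro _ ⟨c, hc, rfl⟩ l hl
    have := Subgroup.mem_center_iff.mp hc ⟨l, hl⟩
    exact (congrArg Subtype.val this).symm
  -- elements of the class invert Z
  have hZinv : ∀ x ∈ conjugatesOf d, ∀ c ∈ (Subgroup.center ↥L).map L.subtype, x * c * x⁻¹ = c⁻¹ := by
    intro x hx c hc
    rw [mem_conj_iff] at hx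
    obtain ⟨g, rfl⟩ := hx
    have hc1 : g⁻¹ * c * g ∈ (Subgroup.center ↥L).map L.subtype := by
      have := hn.conj_mem c hc g⁻¹
      rwa [inv_inv] at this
    have h1 := hinv _ hc1
    calc g * d * g⁻¹ * c * (g * d * g⁻¹)⁻¹ = g * (d * (g⁻¹ * c * g) * d⁻¹) * g⁻¹ := by group
      _ = g * (g⁻¹ * c * g)⁻¹ * g⁻¹ := by rw [h1]
      _ = c⁻¹ := by group
  -- square roots in Z
  have hroot : ∀ c ∈ (Subgroup.center ↥L).map L.subtype, ∃ w ∈ (Subgroup.center ↥L).map L.subtype, w * w = c := by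
    intro c hc
    obtain ⟨k, hk⟩ := hodd
    have hcard : Nat.card ((Subgroup.center ↥L).map L.subtype) = 2 * k + 1 := by
      rw [Subgroup.card_map_of_injective L.subtype_injective, hk]
    have hpow : c ^ (2 * k + 1) = 1 := by
      have h1 : (⟨c, hc⟩ : (Subgroup.center ↥L).map L.subtype) ^ (2 * k + 1) = 1 := by
        rw [← hcard]; exact pow_card_eq_one'
      have := congrArg Subtype.val h1
      simpa using this
    refine ⟨c ^ (k + 1), Subgroup.pow_mem _ hc _, ?_⟩
    rw [← pow_add]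
    have : k + 1 + (k + 1) = (2 * k + 1) + 1 := by ring
    rw [this, pow_succ, hpow, one_mul]
  have hxc : ∀ x ∈ conjugatesOf d, ∀ c ∈ (Subgroup.center ↥L).map L.subtype, x * c = c⁻¹ * x := by
    intro x hx c hc
    have := hZinv x hx c hc
    calc x * c = (x * c * x⁻¹) * x := by group
      _ = c⁻¹ * x := by rw [this]
  have hconjZ : ∀ x ∈ conjugatesOf d, ∀ w ∈ (Subgroup.center ↥L).map L.subtype, w * x * w⁻¹ = w * w * x := by
    intro x hx w hw
    have := hxc x hx w⁻¹ (Subgroup.inv_mem _ hw)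
    rw [inv_inv] at this
    rw [mul_assoc, this, mul_assoc]
  have hmulZ : ∀ x ∈ conjugatesOf d, ∀ c ∈ (Subgroup.center ↥L).map L.subtype, c * x ∈ conjugatesOf d := by
    intro x hx c hc
    obtain ⟨w, hw, hww⟩ := hroot c hc
    rw [← hww, ← hconjZ x hx w hw]
    exact conj_mem_conj d hx w
  -- path lifting
  have hlift : ∀ v : conjugatesOf (QuotientGroup.mk d : G ⧸ (Subgroup.center ↥L).map L.subtype),
      (Cfsg.commutingGraph (conjugatesOf (QuotientGroup.mk d : G ⧸ (Subgroup.center ↥L).map L.subtype))).Reachable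
        ⟨QuotientGroup.mk d, mem_conjugatesOf_self⟩ v →
      ∃ x : conjugatesOf d, (QuotientGroup.mk (x : G) : G ⧸ (Subgroup.center ↥L).map L.subtype) = v ∧
        (Cfsg.commutingGraph (conjugatesOf d)).Reachable ⟨d, mem_conjugatesOf_self⟩ x := by
    intro v hv
    rw [SimpleGraph.reachable_iff_reflTransGen] at hv
    induction hv with
    | refl => exact ⟨⟨d, mem_conjugatesOf_self⟩, rfl, SimpleGraph.Reachable.refl _⟩
    | @tail b c _ hbc ih =>
      obtain ⟨x, hxb, hxr⟩ := ih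
      have hc2 := c.2
      rw [mem_conj_iff] at hc2
      obtain ⟨γ, hγ⟩ := hc2
      obtain ⟨g, rfl⟩ := QuotientGroup.mk_surjective γ
      have hy₀ : g * d * g⁻¹ ∈ conjugatesOf d := (mem_conj_iff d _).mpr ⟨g, rfl⟩
      have hmk₀ : (QuotientGroup.mk (g * d * g⁻¹) : G ⧸ (Subgroup.center ↥L).map L.subtype) = c := by
        rw [← hγ]; simp
      unfold Cfsg.commutingGraph at hbc
      rw [SimpleGraph.fromRel_adj] at hbc
      obtain ⟨hne, hcomm⟩ := hbc
      have hcomm' : (b : G ⧸ (Subgroup.center ↥L).map L.subtype) * c = c * b := by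
        rcases hcomm with h | h
        · exact h
        · exact h.symm
      rw [← hxb, ← hmk₀] at hcomm'
      have hmk1 : (QuotientGroup.mk (g * d * g⁻¹) : G ⧸ (Subgroup.center ↥L).map L.subtype) =
          QuotientGroup.mk ((x : G) * (g * d * g⁻¹) * (x : G)⁻¹) := by
        have e : (QuotientGroup.mk ((x : G) * (g * d * g⁻¹) * (x : G)⁻¹) : G ⧸ (Subgroup.center ↥L).map L.subtype)
            = QuotientGroup.mk (x : G) * QuotientGroup.mk (g * d * g⁻¹) * (QuotientGroup.mk (x : G))⁻¹ := by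
          simp
        rw [e, hcomm']
        group
      rw [QuotientGroup.eq] at hmk1
      obtain ⟨z, hz, hzz⟩ := hroot _ hmk1
      have hyD : g * d * g⁻¹ * z ∈ conjugatesOf d := by
        rw [hxc _ hy₀ z hz]
        exact hmulZ _ hy₀ _ (Subgroup.inv_mem _ hz)
      have hfix : (x : G) * (g * d * g⁻¹ * z) * (x : G)⁻¹ = g * d * g⁻¹ * z := by
        have h1 := hZinv x x.2 z hz
        calc (x : G) * (g * d * g⁻¹ * z) * (x : G)⁻¹
            = (g * d * g⁻¹) * ((g * d * g⁻¹)⁻¹ * ((x : G) * (g * d * g⁻¹) * (x : G)⁻¹)) * ((x : G) * z * (x : G)⁻¹) := by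
              group
          _ = (g * d * g⁻¹) * (z * z) * z⁻¹ := by rw [hzz, h1]
          _ = g * d * g⁻¹ * z := by group
      refine ⟨⟨g * d * g⁻¹ * z, hyD⟩, ?_, ?_⟩
      · show (QuotientGroup.mk (g * d * g⁻¹ * z) : G ⧸ (Subgroup.center ↥L).map L.subtype) = c
        rw [QuotientGroup.mk_mul, hmk₀, (QuotientGroup.eq_one_iff z).mpr hz, mul_one]
      · refine hxr.trans (SimpleGraph.Adj.reachable ?_)
        unfold Cfsg.commutingGraph
        rw [SimpleGraph.fromRel_adj]
        refine ⟨?_, Or.inl ?_⟩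
        · intro he
          apply hne
          apply Subtype.ext
          rw [← hxb, ← hmk₀]
          have he' : (x : G) = g * d * g⁻¹ * z := congrArg Subtype.val he
          rw [he', QuotientGroup.mk_mul, (QuotientGroup.eq_one_iff z).mpr hz, mul_one]
        · show (x : G) * (g * d * g⁻¹ * z) = g * d * g⁻¹ * z * x
          calc (x : G) * (g * d * g⁻¹ * z) = ((x : G) * (g * d * g⁻¹ * z) * (x : G)⁻¹) * x := by group
            _ = g * d * g⁻¹ * z * x := by rw [hfix]
  -- G = Z K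
  have hZK : ∀ g : G, ∃ w ∈ (Subgroup.center ↥L).map L.subtype, w * g ∈ reachSubgroup d := by
    intro g
    have hy₀ : g * d * g⁻¹ ∈ conjugatesOf d := (mem_conj_iff d _).mpr ⟨g, rfl⟩
    have hv : (QuotientGroup.mk (g * d * g⁻¹) : G ⧸ (Subgroup.center ↥L).map L.subtype) ∈
        conjugatesOf (QuotientGroup.mk d : G ⧸ (Subgroup.center ↥L).map L.subtype) := by
      rw [mem_conj_iff]
      exact ⟨QuotientGroup.mk g, by simp⟩
    obtain ⟨x, hxv, hxr⟩ := hlift ⟨_, hv⟩ (hconn.preconnected _ _)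
    have hxv' : (QuotientGroup.mk (g * d * g⁻¹) : G ⧸ (Subgroup.center ↥L).map L.subtype) =
        QuotientGroup.mk (x : G) := hxv.symm
    rw [QuotientGroup.eq] at hxv'
    obtain ⟨w, hw, hww⟩ := hroot _ (Subgroup.inv_mem _ hxv')
    refine ⟨w, hw, ?_⟩
    rw [mem_reachSubgroup]
    have hx : cj d (w * g) ⟨d, mem_conjugatesOf_self⟩ = x := by
      apply Subtype.ext
      show w * g * d * (w * g)⁻¹ = x
      have h1 : w * g * d * (w * g)⁻¹ = w * (g * d * g⁻¹) * w⁻¹ := by group
      rw [h1, hconjZ _ hy₀ w hw, hww]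
      have h2 := hxc _ hy₀ _ hxv'
      rw [← h2]
      group
    rw [hx]
    exact hxr
  -- L ≤ K
  have hLK : L ≤ reachSubgroup d := by
    have hperf : ⁅L, L⁆ = L := (Subgroup.isPerfect_iff).mp hL.1
    rw [← hperf, Subgroup.commutator_le]
    intro a ha b hb
    obtain ⟨w₁, hw₁, hk₁⟩ := hZK a
    obtain ⟨w₂, hw₂, hk₂⟩ := hZK b
    have hA : w₁ * a ∈ L := L.mul_mem (hZL hw₁) ha
    have c1 : (w₁ * a) * w₂ * (w₁ * a)⁻¹ = w₂ := by
      rw [← hcen w₂ hw₂ _ hA]; group
    have c2 : (w₁ * a) * b * (w₁ * a)⁻¹ = a * b * a⁻¹ := by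
      have h1 : w₁ * (a * b * a⁻¹) = (a * b * a⁻¹) * w₁ :=
        hcen w₁ hw₁ _ (L.mul_mem (L.mul_mem ha hb) (L.inv_mem ha))
      calc (w₁ * a) * b * (w₁ * a)⁻¹ = (w₁ * (a * b * a⁻¹)) * w₁⁻¹ := by group
        _ = (a * b * a⁻¹) * w₁ * w₁⁻¹ := by rw [h1]
        _ = a * b * a⁻¹ := by group
    have c3 : w₂ * (a * b * a⁻¹ * b⁻¹) = (a * b * a⁻¹ * b⁻¹) * w₂ :=
      hcen w₂ hw₂ _ (L.mul_mem (L.mul_mem (L.mul_mem ha hb) (L.inv_mem ha)) (L.inv_mem hb))
    have e : ⁅w₁ * a, w₂ * b⁆ = ⁅a, b⁆ := by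
      calc ⁅w₁ * a, w₂ * b⁆
          = ((w₁ * a) * w₂ * (w₁ * a)⁻¹) * ((w₁ * a) * b * (w₁ * a)⁻¹) * b⁻¹ * w₂⁻¹ := by
            rw [commutatorElement_def]; group
        _ = w₂ * (a * b * a⁻¹) * b⁻¹ * w₂⁻¹ := by rw [c1, c2]
        _ = (w₂ * (a * b * a⁻¹ * b⁻¹)) * w₂⁻¹ := by group
        _ = (a * b * a⁻¹ * b⁻¹) * w₂ * w₂⁻¹ := by rw [c3]
        _ = ⁅a, b⁆ := by rw [commutatorElement_def]; group
    rw [← e, commutatorElement_def]
    exact Subgroup.mul_mem _ (Subgroup.mul_mem _ (Subgroup.mul_mem _ hk₁ hk₂)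
      (Subgroup.inv_mem _ hk₁)) (Subgroup.inv_mem _ hk₂)
  have hdK : d ∈ reachSubgroup d := by
    rw [mem_reachSubgroup]
    have : cj d d ⟨d, mem_conjugatesOf_self⟩ = ⟨d, mem_conjugatesOf_self⟩ := by
      apply Subtype.ext
      show d * d * d⁻¹ = d
      group
    rw [this]
  have hKtop : reachSubgroup d = ⊤ := by
    rw [eq_top_iff, ← hgen]
    exact sup_le hLK ((Subgroup.zpowers_le).mpr hdK)
  have hall : ∀ u : conjugatesOf d, (Cfsg.commutingGraph (conjugatesOf d)).Reachable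
      ⟨d, mem_conjugatesOf_self⟩ u := by
    intro u
    have hu := u.2
    rw [mem_conj_iff] at hu
    obtain ⟨g, hg⟩ := hu
    have hgK : g ∈ reachSubgroup d := by rw [hKtop]; exact Subgroup.mem_top g
    rw [mem_reachSubgroup] at hgK
    have : cj d g ⟨d, mem_conjugatesOf_self⟩ = u := Subtype.ext hg
    rw [this] at hgK
    exact hgK
  have hne : Nonempty (conjugatesOf d) := ⟨⟨d, mem_conjugatesOf_self⟩⟩
  exact ⟨fun u v => (hall u).symm.trans (hall v)⟩

end Cfsg.Agent.S5459
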