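import Cfsg.Statements.S5541
-- import your own Cfsg.Agent.* helpers here

set_option autoImplicit false
open Cfsg

namespace Cfsg.Agent.S5541

set_option linter.unusedSectionVars false

section
variable {H : Type*} [Group H] {U : Type*} [AddCommGroup U] [Module ℝ U] [FiniteDimensional ℝ U]

theorem rho_inv_apply (ρ : Representation ℝ H U) (g : H) (w : U) : ρ g (ρ g⁻¹ w) = w := by
  rw [← Module.End.mul_apply, ← map_mul, mul_inv_cancel, map_one, Module.End.one_apply]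

theorem nondeg (ρ : Representation ℝ H U)
    (hirr : ∀ W : Submodule ℝ U, (∀ g : H, W.map (ρ g) ≤ W) → W = ⊥ ∨ W = ⊤)
    (B : LinearMap.BilinForm ℝ U) (hB0 : B ≠ 0) (hBs : ∀ u v, B u v = B v u)
    (hBi : ∀ (g : H) (u v : U), B (ρ g u) (ρ g v) = B u v) : B.Nondegenerate := by
  have hker : LinearMap.ker B = ⊥ := by
    rcases hirr (LinearMap.ker B) (by
      intro g
      rintro _ ⟨u, hu, rfl⟩
      rw [SetLike.mem_coe, LinearMap.mem_ker] at hu
      rw [LinearMap.mem_ker]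
      ext v
      have h1 := hBi g u (ρ g⁻¹ v)
      rw [rho_inv_apply] at h1
      rw [h1, hu]
      rfl) with h | h
    · exact h
    · exfalso
      apply hB0
      ext u v
      have : u ∈ LinearMap.ker B := by rw [h]; trivial
      rw [LinearMap.mem_ker] at this
      rw [this]
      rfl
  have hleft : LinearMap.SeparatingLeft B := by
    intro x hx
    have : x ∈ LinearMap.ker B := by
      rw [LinearMap.mem_ker]
      ext y
      exact hx y
    rw [hker] at this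
    exact (Submodule.mem_bot ℝ).1 this
  refine ⟨hleft, ?_⟩
  intro y hy
  exact hleft y (fun x => by rw [hBs]; exact hy x)

theorem eq_of_forall_B (B : LinearMap.BilinForm ℝ U) (hB : B.Nondegenerate) (x y : U)
    (h : ∀ w, B x w = B y w) : x = y := by
  have : x - y = 0 := hB.1 (x - y) (fun w => by rw [map_sub, LinearMap.sub_apply, h w, sub_self])
  exact sub_eq_zero.1 this

/-- symmetric in first two, antisymmetric in last two forces zero -/
theorem sym_asym_zero (t : U → U → U → ℝ) (h12 : ∀ u v w, t u v w = t v u w)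
    (h23 : ∀ u v w, t u w v = - t u v w) (u v w : U) : t u v w = 0 := by
  have e1 : t u v w = - t u w v := by rw [h23 u v w, neg_neg]
  have e2 : t u w v = t w u v := h12 u w v
  have e3 : t w u v = - t w v u := by rw [h23 w u v, neg_neg]
  have e4 : t w v u = t v w u := h12 w v u
  have e5 : t v w u = - t v u w := by rw [h23 v w u, neg_neg]
  have e6 : t v u w = t u v w := h12 v u w
  linarith

/-- products to trilinear forms -/
noncomputable def toT (B : LinearMap.BilinForm ℝ U) (m : U →ₗ[ℝ] U →ₗ[ℝ] U) :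
    U →ₗ[ℝ] U →ₗ[ℝ] U →ₗ[ℝ] ℝ := m.compr₂ B

theorem toT_apply (B : LinearMap.BilinForm ℝ U) (m : U →ₗ[ℝ] U →ₗ[ℝ] U) (u v w : U) :
    toT B m u v w = B (m u v) w := rfl

/-- trilinear forms to products -/
noncomputable def toM (B : LinearMap.BilinForm ℝ U) (hB : B.Nondegenerate)
    (t : U →ₗ[ℝ] U →ₗ[ℝ] U →ₗ[ℝ] ℝ) : U →ₗ[ℝ] U →ₗ[ℝ] U :=
  t.compr₂ (B.toDual hB).symm.toLinearMap

theorem B_toM (B : LinearMap.BilinForm ℝ U) (hB : B.Nondegenerate)
    (t : U →ₗ[ℝ] U →ₗ[ℝ] U →ₗ[ℝ] ℝ) (u v w : U) : B (toM B hB t u v) w = t u v w := by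
  unfold toM
  rw [LinearMap.compr₂_apply]
  exact LinearMap.BilinForm.apply_toDual_symm_apply (t u v) w

theorem toT_toM (B : LinearMap.BilinForm ℝ U) (hB : B.Nondegenerate)
    (t : U →ₗ[ℝ] U →ₗ[ℝ] U →ₗ[ℝ] ℝ) : toT B (toM B hB t) = t := by
  ext u v w
  rw [toT_apply, B_toM]

theorem toM_toT (B : LinearMap.BilinForm ℝ U) (hB : B.Nondegenerate)
    (m : U →ₗ[ℝ] U →ₗ[ℝ] U) : toM B hB (toT B m) = m := by
  ext u v
  apply eq_of_forall_B B hB
  intro w
  rw [B_toM, toT_apply]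

theorem toT_smul (B : LinearMap.BilinForm ℝ U) (c : ℝ) (m : U →ₗ[ℝ] U →ₗ[ℝ] U) :
    toT B (c • m) = c • toT B m := by
  ext u v w
  simp [toT_apply]

theorem toM_smul (B : LinearMap.BilinForm ℝ U) (hB : B.Nondegenerate) (c : ℝ)
    (t : U →ₗ[ℝ] U →ₗ[ℝ] U →ₗ[ℝ] ℝ) : toM B hB (c • t) = c • toM B hB t := by
  ext u v
  apply eq_of_forall_B B hB
  intro w
  rw [B_toM]
  simp [B_toM]

theorem toT_inv (ρ : Representation ℝ H U) (B : LinearMap.BilinForm ℝ U)
    (hBi : ∀ (g : H) (u v : U), B (ρ g u) (ρ g v) = B u v)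
    (m : U →ₗ[ℝ] U →ₗ[ℝ] U) (hm : ∀ (g : H) (u v : U), m (ρ g u) (ρ g v) = ρ g (m u v))
    (g : H) (u v w : U) : toT B m (ρ g u) (ρ g v) (ρ g w) = toT B m u v w := by
  rw [toT_apply, toT_apply, hm, hBi]

theorem toM_equiv (ρ : Representation ℝ H U) (B : LinearMap.BilinForm ℝ U) (hB : B.Nondegenerate)
    (hBi : ∀ (g : H) (u v : U), B (ρ g u) (ρ g v) = B u v)
    (t : U →ₗ[ℝ] U →ₗ[ℝ] U →ₗ[ℝ] ℝ)
    (ht : ∀ (g : H) (u v w : U), t (ρ g u) (ρ g v) (ρ g w) = t u v w)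
    (g : H) (u v : U) : toM B hB t (ρ g u) (ρ g v) = ρ g (toM B hB t u v) := by
  apply eq_of_forall_B B hB
  intro w
  rw [B_toM]
  have h1 : t (ρ g u) (ρ g v) w = t u v (ρ g⁻¹ w) := by
    rw [← ht g u v (ρ g⁻¹ w), rho_inv_apply]
  have h2 : B (ρ g (toM B hB t u v)) w = B (toM B hB t u v) (ρ g⁻¹ w) := by
    rw [← hBi g (toM B hB t u v) (ρ g⁻¹ w), rho_inv_apply]
  rw [h1, h2, B_toM]

/-- swap of the last two arguments -/
noncomputable def swap23 (t : U →ₗ[ℝ] U →ₗ[ℝ] U →ₗ[ℝ] ℝ) : U →ₗ[ℝ] U →ₗ[ℝ] U →ₗ[ℝ] ℝ :=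
  (LinearMap.lflip (R₀ := ℝ) : (U →ₗ[ℝ] U →ₗ[ℝ] ℝ) ≃ₗ[ℝ] (U →ₗ[ℝ] U →ₗ[ℝ] ℝ)).toLinearMap ∘ₗ t

theorem swap23_apply (t : U →ₗ[ℝ] U →ₗ[ℝ] U →ₗ[ℝ] ℝ) (u v w : U) :
    swap23 t u v w = t u w v := rfl

theorem main (ρ : Representation ℝ H U) (hirr : ∀ W : Submodule ℝ U, (∀ g : H, W.map (ρ g) ≤ W) → W = ⊥ ∨ W = ⊤) (B : LinearMap.BilinForm ℝ U) (hB0 : B ≠ 0) (hBs : ∀ u v, B u v = B v u) (hBi : ∀ (g : H) (u v : U), B (ρ g u) (ρ g v) = B u v) : (∃ m : U →ₗ[ℝ] U →ₗ[ℝ] U, m ≠ 0 ∧ (∀ u v, m u v = m v u) ∧ (∀ (g : H) (u v : U), m (ρ g u) (ρ g v) = ρ g (m u v)) ∧ ∀ m' : U →ₗ[ℝ] U →ₗ[ℝ] U, (∀ (g : H) (u v : U), m' (ρ g u) (ρ g v) = ρ g (m' u v)) → ∃ c : ℝ, m' = c • m) ↔ (∃ t : U →ₗ[ℝ] U →ₗ[ℝ] U →ₗ[ℝ] ℝ, t ≠ 0 ∧ (∀ u v w, t u v w = t v u w ∧ t u v w = t u w v) ∧ (∀ (g : H) (u v w : U), t (ρ g u) (ρ g v) (ρ g w) = t u v w) ∧ ∀ t' : U →ₗ[ℝ] U →ₗ[ℝ] U →ₗ[ℝ] ℝ, (∀ (g : H) (u v w : U), t' (ρ g u) (ρ g v) (ρ g w) = t' u v w) → ∃ c : ℝ,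 t' = c • t) := by
  have hB : B.Nondegenerate := nondeg ρ hirr B hB0 hBs hBi
  constructor
  · rintro ⟨m, hm0, hmc, hme, hmu⟩
    have ht0 : toT B m ≠ 0 := by
      intro h
      apply hm0
      rw [← toM_toT B hB m, h]
      ext u v
      apply eq_of_forall_B B hB
      intro w
      rw [B_toM]
      simp
    have htinv := toT_inv ρ B hBi m hme
    have h12 : ∀ u v w, toT B m u v w = toT B m v u w := by
      intro u v w
      rw [toT_apply, toT_apply, hmc]
    have hsw : ∀ (g : H) (u v w : U),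
        swap23 (toT B m) (ρ g u) (ρ g v) (ρ g w) = swap23 (toT B m) u v w := by
      intro g u v w
      rw [swap23_apply, swap23_apply, htinv]
    obtain ⟨c, hc⟩ := hmu (toM B hB (swap23 (toT B m))) (toM_equiv ρ B hB hBi _ hsw)
    have hc' : ∀ u v w, toT B m u w v = c * toT B m u v w := by
      intro u v w
      have h1 : toT B (toM B hB (swap23 (toT B m))) u v w = toT B (c • m) u v w := by rw [hc]
      rw [toT_toM, swap23_apply, toT_smul] at h1
      rw [h1]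
      rfl
    have hcc : c = 1 := by
      have hex : ∃ u v w, toT B m u v w ≠ 0 := by
        by_contra hne
        push Not at hne
        apply ht0
        ext u v w
        exact hne u v w
      obtain ⟨u, v, w, huvw⟩ := hex
      have h1 := hc' u v w
      have h2 := hc' u w v
      rw [h1] at h2
      have h3 : (c * c - 1) * toT B m u v w = 0 := by linarith
      rcases mul_eq_zero.1 h3 with h4 | h4
      · have h5 : (c - 1) * (c + 1) = 0 := by linarith
        rcases mul_eq_zero.1 h5 with h6 | h6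
        · linarith
        · exfalso
          have hc1 : c = -1 := by linarith
          apply huvw
          apply sym_asym_zero (fun u v w => toT B m u v w) h12
          intro u v w
          rw [hc' u v w, hc1]
          ring
      · exact absurd h4 huvw
    refine ⟨toT B m, ht0, ?_, htinv, ?_⟩
    · intro u v w
      refine ⟨h12 u v w, ?_⟩
      rw [hc' u v w, hcc, one_mul]
    · intro t' ht'
      obtain ⟨c', hc'⟩ := hmu (toM B hB t') (toM_equiv ρ B hB hBi t' ht')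
      refine ⟨c', ?_⟩
      rw [← toT_toM B hB t', hc', toT_smul]
  · rintro ⟨t, ht0, hts, hti, htu⟩
    have hm0 : toM B hB t ≠ 0 := by
      intro h
      apply ht0
      rw [← toT_toM B hB t, h]
      ext u v w
      rw [toT_apply]
      simp
    refine ⟨toM B hB t, hm0, ?_, toM_equiv ρ B hB hBi t hti, ?_⟩
    · intro u v
      apply eq_of_forall_B B hB
      intro w
      rw [B_toM, B_toM]
      exact (hts u v w).1
    · intro m' hm'
      obtain ⟨c, hc⟩ := htu (toT B m') (toT_inv ρ B hBi m' hm')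
      refine ⟨c, ?_⟩
      rw [← toM_toT B hB m', hc, toM_smul]

end


/-- Let ρ be a representation of a group H on a finite-dimensional real vector space U whose only ρ-invariant subspaces are the zero subspace and U, and suppose U carries a non-zero ρ-invariant symmetric bilinear form. Then the following are equivalent: (1) there is a non-zero ρ-equivariant commutative bilinear product on U of which every ρ-equivariant bilinear product is a scalar multiple; (2) there is a non-zero ρ-invariant trilinear form on U that is symmetric under all permutations of its arguments and of which every ρ-invariant trilinear form is a scalar multiple. -/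
theorem result {H : Type*} [Group H] {U : Type*} [AddCommGroup U] [Module ℝ U] [FiniteDimensional ℝ U] (ρ : Representation ℝ H U) (hirr : ∀ W : Submodule ℝ U, (∀ g : H, W.map (ρ g) ≤ W) → W = ⊥ ∨ W = ⊤) (B : LinearMap.BilinForm ℝ U) (hB0 : B ≠ 0) (hBs : ∀ u v, B u v = B v u) (hBi : ∀ (g : H) (u v : U), B (ρ g u) (ρ g v) = B u v) : (∃ m : U →ₗ[ℝ] U →ₗ[ℝ] U, m ≠ 0 ∧ (∀ u v, m u v = m v u) ∧ (∀ (g : H) (u v : U), m (ρ g u) (ρ g v) = ρ g (m u v)) ∧ ∀ m' : U →ₗ[ℝ] U →ₗ[ℝ] U, (∀ (g : H) (u v : U), m' (ρ g u) (ρ g v) = ρ g (m' u v)) → ∃ c : ℝ, m' = c • m) ↔ (∃ t : U →ₗ[ℝ] U →ₗ[ℝ] U →ₗ[ℝ] ℝ, t ≠ 0 ∧ (∀ u v w, t u v w = t v u w ∧ t u v w = t u w v) ∧ (∀ (g : H) (u v w : U), t (ρ g u) (ρ g v) (ρ g w) = t u v w) ∧ ∀ t' : U →ₗ[ℝ] U →ₗ[ℝ] U →ₗ[ℝ] ℝ, (∀ (g : H) (u v w : U), t' (ρ g u) (ρ g v) (ρ g w) = t' u v w) → ∃ c : ℝ, t' = c • t) := by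
  exact main ρ hirr B hB0 hBs hBi

end Cfsg.Agent.S5541
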