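import Cfsg.Statements.S5543
-- import your own Cfsg.Agent.* helpers here

set_option autoImplicit false
open Cfsg

namespace Cfsg.Agent.S5543

theorem key {V : Type*} [AddCommGroup V] [Module ℝ V] (A : V →ₗ[ℝ] V) (w : V)
    (h1 : A w = (1/4 : ℝ) • w)
    (h2 : w ∈ ⨆ c ∈ ({1, 0} : Set ℝ), Module.End.eigenspace A c) : w = 0 := by
  have hle : (⨆ c ∈ ({1, 0} : Set ℝ), Module.End.eigenspace A c)
      ≤ Module.End.eigenspace A 1 ⊔ Module.End.eigenspace A 0 := by
    refine iSup₂_le ?_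
    rintro c (rfl | rfl)
    · exact le_sup_left
    · exact le_sup_right
  obtain ⟨p, hp, q, hq, rfl⟩ := Submodule.mem_sup.1 (hle h2)
  rw [Module.End.mem_eigenspace_iff] at hp hq
  rw [map_add, hp, hq] at h1
  have hq3 : q = (3:ℝ) • p := by
    linear_combination (norm := module) (-4:ℝ) • h1
  have h3 : A q = (3:ℝ) • A p := by rw [hq3, map_smul]
  rw [hp, hq] at h3
  have hp0 : p = 0 := by
    have : (3:ℝ) • p = 0 := by
      linear_combination (norm := module) (-1:ℝ) • h3
    rcases smul_eq_zero.1 this with h | h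
    · norm_num at h
    · exact h
  rw [hq3, hp0]
  simp

theorem exists_three {G : Type*} [Group G] (X : Subgroup G) (h : 4 < Nat.card X) :
    ∃ x ∈ X, ∃ y ∈ X, ∃ z ∈ X, x ≠ 1 ∧ y ≠ 1 ∧ y ≠ x ∧ z ≠ 1 ∧ z ≠ x ∧ z ≠ y ∧ z ≠ x * y := by
  have hfin : Finite X := Nat.finite_of_card_ne_zero (by omega)
  classical
  have : Fintype X := Fintype.ofFinite X
  have hcard' : 4 < Fintype.card X := by rwa [← Nat.card_eq_fintype_card]
  have hex : ∀ T : Finset X, T.card ≤ 4 → ∃ a : X, a ∉ T := by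
    intro T hT
    by_contra hne
    push Not at hne
    have : T = Finset.univ := Finset.eq_univ_iff_forall.2 hne
    rw [this, Finset.card_univ] at hT
    omega
  obtain ⟨x, hx⟩ := hex {1} (by simp)
  obtain ⟨y, hy⟩ := hex {1, x} (Finset.card_le_two.trans (by norm_num))
  obtain ⟨z, hz⟩ := hex {1, x, y, x * y} (Finset.card_le_four)
  simp only [Finset.mem_insert, Finset.mem_singleton, not_or] at hx hy hz
  refine ⟨x, x.2, y, y.2, z, z.2, ?_, ?_, ?_, ?_, ?_, ?_, ?_⟩
  · exact fun h => hx (Subtype.ext h)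
  · exact fun h => hy.1 (Subtype.ext h)
  · exact fun h => hy.2 (Subtype.ext h)
  · exact fun h => hz.1 (Subtype.ext h)
  · exact fun h => hz.2.1 (Subtype.ext h)
  · exact fun h => hz.2.2.1 (Subtype.ext h)
  · exact fun h => hz.2.2.2 (Subtype.ext h)

theorem comm_of_sq {G : Type*} [Group G] (a b : G) (ha : a * a = 1) (hb : b * b = 1)
    (hab : (a * b) * (a * b) = 1) : a * b = b * a := by
  have h1 : a * b = (a * b)⁻¹ := eq_inv_of_mul_eq_one_left hab
  have h2 : a = a⁻¹ := eq_inv_of_mul_eq_one_left ha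
  have h3 : b = b⁻¹ := eq_inv_of_mul_eq_one_left hb
  rw [h1, mul_inv_rev, ← h2, ← h3]

theorem main {V : Type*} [AddCommGroup V] [Module ℝ V] [FiniteDimensional ℝ V] (mul : V →ₗ[ℝ] V →ₗ[ℝ] V) (B : LinearMap.BilinForm ℝ V) (_hV : Cfsg.Axial.IsMajoranaAmbient mul B) (X : Subgroup (V ≃ₗ[ℝ] V)) (hX : ∀ x ∈ X, x * x = 1) (ax : (V ≃ₗ[ℝ] V) → V) (hax : ∀ x ∈ X, x ≠ 1 → Cfsg.Axial.IsMajoranaPair mul B x (ax x)) (h1 : ∀ x ∈ X, x ≠ 1 → B (ax x) (ax x) = 1) (h2A : ∀ x ∈ X, ∀ y ∈ X, x ≠ 1 → y ≠ 1 → x ≠ y → mul (ax x) (ax y) = (1 / 8 : ℝ) • (ax x + ax y - ax (x * y))) : Nat.card ↥X ≤ 4 := by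
  by_contra hcard
  push Not at hcard
  obtain ⟨x, hx, y, hy, z, hz, hx1, hy1, hyx, hz1, hzx, hzy, hzxy⟩ := exists_three X hcard
  have hx2 := hX x hx
  have hy2 := hX y hy
  have hz2 := hX z hz
  have hp : x * y ∈ X := mul_mem hx hy
  have hq : x * z ∈ X := mul_mem hx hz
  have hr : y * z ∈ X := mul_mem hy hz
  have hs : x * (y * z) ∈ X := mul_mem hx hr
  have hp2 := hX _ hp
  have hq2 := hX _ hq
  have hr2 := hX _ hr
  have cxy : x * y = y * x := comm_of_sq x y hx2 hy2 hp2
  -- identities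
  have I1 : x * (x * y) = y := by rw [← mul_assoc, hx2, one_mul]
  have I2 : x * (x * z) = z := by rw [← mul_assoc, hx2, one_mul]
  have I3 : x * (x * (y * z)) = y * z := by rw [← mul_assoc, hx2, one_mul]
  have I5 : y * (x * z) = x * (y * z) := by rw [← mul_assoc, ← mul_assoc, cxy]
  have I6 : (x * y) * z = x * (y * z) := mul_assoc x y z
  have I7 : (x * y) * (x * z) = y * z := by
    rw [cxy, mul_assoc y x, ← mul_assoc x x z, hx2, one_mul]
  have I8 : (x * (y * z)) * (y * z) = x := by rw [mul_assoc, hr2, mul_one]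
  -- non-equalities
  have np1 : x * y ≠ 1 := by
    intro h
    rw [← hx2] at h
    exact hyx (mul_left_cancel h)
  have nxp : x ≠ x * y := by
    intro h
    exact hy1 (left_eq_mul.1 h)
  have nq1 : x * z ≠ 1 := by
    intro h
    rw [← hx2] at h
    exact hzx (mul_left_cancel h)
  have nxq : x ≠ x * z := by
    intro h
    exact hz1 (left_eq_mul.1 h)
  have nr1 : y * z ≠ 1 := by
    intro h
    rw [← hy2] at h
    exact hzy (mul_left_cancel h)
  have ns1 : x * (y * z) ≠ 1 := by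
    intro h
    rw [← hx2] at h
    have h2 : y * z = x := mul_left_cancel h
    apply hzxy
    rw [cxy, ← h2, ← mul_assoc, hy2, one_mul]
  have nxs : x ≠ x * (y * z) := by
    intro h
    exact nr1 (left_eq_mul.1 h)
  have nxr : x ≠ y * z := by
    intro h
    apply ns1
    rw [← h, hx2]
  have nyq : y ≠ x * z := by
    intro h
    apply hzxy
    rw [h, I2]
  have npq : x * y ≠ x * z := by
    intro h
    exact hzy (mul_left_cancel h).symm
  have nsr : x * (y * z) ≠ y * z := by
    intro h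
    exact hx1 (mul_eq_right.1 h)
  -- products
  have E1 := h2A x hx y hy hx1 hy1 (Ne.symm hyx)
  have E2 := h2A x hx _ hp hx1 np1 nxp
  rw [I1] at E2
  have E3 := h2A x hx z hz hx1 hz1 (Ne.symm hzx)
  have E4 := h2A x hx _ hq hx1 nq1 nxq
  rw [I2] at E4
  have E5 := h2A x hx _ hs hx1 ns1 nxs
  rw [I3] at E5
  have E6 := h2A x hx _ hr hx1 nr1 nxr
  have E7 := h2A y hy z hz hy1 hz1 (Ne.symm hzy)
  have E8 := h2A y hy _ hq hy1 nq1 nyq
  rw [I5] at E8
  have E9 := h2A _ hp z hz np1 hz1 (Ne.symm hzxy)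
  rw [I6] at E9
  have E10 := h2A _ hp _ hq np1 nq1 npq
  rw [I7] at E10
  have E11 := h2A _ hs _ hr ns1 nr1 nsr
  rw [I8] at E11
  -- eigenvectors
  have hvy : ax y - ax (x * y) ∈ Cfsg.Axial.eigen mul (ax x) (1/4) := by
    unfold Cfsg.Axial.eigen
    rw [Module.End.mem_eigenspace_iff, map_sub, E1, E2]
    module
  have hvz : ax z - ax (x * z) ∈ Cfsg.Axial.eigen mul (ax x) (1/4) := by
    unfold Cfsg.Axial.eigen
    rw [Module.End.mem_eigenspace_iff, map_sub, E3, E4]
    module
  have hprod : mul (ax y - ax (x * y)) (ax z - ax (x * z))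
      = (1/4 : ℝ) • (ax (x * (y * z)) - ax (y * z)) := by
    simp only [map_sub, LinearMap.sub_apply, E7, E8, E9, E10]
    module
  have hmem14 : (1/4 : ℝ) ∈ Cfsg.Axial.majoranaSpectrum := by
    unfold Cfsg.Axial.majoranaSpectrum
    simp
  have hfus := (hax x hx hx1).2.2.1.1.2.2.2 (1/4) hmem14 (1/4) hmem14 _ hvy _ hvz
  have hlaw : Cfsg.Axial.monsterLaw (1/4 : ℝ) (1/32) (1/4) (1/4) = {1, 0} := by
    unfold Cfsg.Axial.monsterLaw
    norm_num
  rw [hlaw, hprod] at hfus
  have hw : (1/4 : ℝ) • (ax (x * (y * z)) - ax (y * z)) = 0 := by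
    apply key (mul (ax x)) _ _ hfus
    rw [map_smul, map_sub, E5, E6]
    module
  have hsr : ax (x * (y * z)) = ax (y * z) := by
    rcases smul_eq_zero.1 hw with h | h
    · norm_num at h
    · exact sub_eq_zero.1 h
  rw [hsr] at E11
  have hidem : mul (ax (y * z)) (ax (y * z)) = ax (y * z) := (hax _ hr nr1).2.2.1.1.2.1
  rw [hidem] at E11
  have hax6 : ax x = (-6 : ℝ) • ax (y * z) := by
    linear_combination (norm := module) (8:ℝ) • E11
  have hB1 := h1 x hx hx1
  have hB2 := h1 _ hr nr1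
  rw [hax6] at hB1
  simp only [map_smul, LinearMap.smul_apply, smul_eq_mul, hB2] at hB1
  norm_num at hB1


/-- Let V be a finite-dimensional real vector space with a commutative bilinear product and a positive-definite symmetric bilinear form that associates with the product and satisfies the Norton inequality (the Majorana setting of the definitions). Let X be a group of linear automorphisms of V in which every element squares to the identity, and suppose every non-identity element x of X is a Majorana involution with an axial vector a(x) of squared length 1, such that for any two distinct non-identity x, y the product a(x) ∘ a(y) equals (1/8)(a(x) + a(y) − a(xy)) (the dihedral subalgebra of type 2A whose third axis belongs to the involution xy). Then X has order at most 4. -/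
theorem result {V : Type*} [AddCommGroup V] [Module ℝ V] [FiniteDimensional ℝ V] (mul : V →ₗ[ℝ] V →ₗ[ℝ] V) (B : LinearMap.BilinForm ℝ V) (hV : Cfsg.Axial.IsMajoranaAmbient mul B) (X : Subgroup (V ≃ₗ[ℝ] V)) (hX : ∀ x ∈ X, x * x = 1) (ax : (V ≃ₗ[ℝ] V) → V) (hax : ∀ x ∈ X, x ≠ 1 → Cfsg.Axial.IsMajoranaPair mul B x (ax x)) (h1 : ∀ x ∈ X, x ≠ 1 → B (ax x) (ax x) = 1) (h2A : ∀ x ∈ X, ∀ y ∈ X, x ≠ 1 → y ≠ 1 → x ≠ y → mul (ax x) (ax y) = (1 / 8 : ℝ) • (ax x + ax y - ax (x * y))) : Nat.card ↥X ≤ 4 := by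
  exact main mul B hV X hX ax hax h1 h2A

end Cfsg.Agent.S5543
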