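import Cfsg.Statements.S5545
-- import your own Cfsg.Agent.* helpers here

set_option autoImplicit false
open Cfsg

namespace Cfsg.Agent.S5545

open Cfsg.Axial

section
variable {V : Type*} [AddCommGroup V] [Module ℝ V]

theorem mem_eigen_iff (mul : V →ₗ[ℝ] V →ₗ[ℝ] V) (a : V) (c : ℝ) (v : V) :
    v ∈ eigen mul a c ↔ mul a v = c • v := by
  unfold eigen
  rw [Module.End.mem_eigenspace_iff]

theorem mem_eigen_map (mul : V →ₗ[ℝ] V →ₗ[ℝ] V) (φ : V ≃ₗ[ℝ] V)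
    (hφ : ∀ u v, φ (mul u v) = mul (φ u) (φ v)) (a : V) (c : ℝ) (v : V) :
    v ∈ eigen mul (φ a) c ↔ φ.symm v ∈ eigen mul a c := by
  rw [mem_eigen_iff, mem_eigen_iff]
  constructor
  · intro h
    apply φ.injective
    rw [hφ, map_smul, LinearEquiv.apply_symm_apply, h]
  · intro h
    have := congrArg φ h
    rw [hφ, map_smul, LinearEquiv.apply_symm_apply] at this
    exact this

theorem eigen_map (mul : V →ₗ[ℝ] V →ₗ[ℝ] V) (φ : V ≃ₗ[ℝ] V)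
    (hφ : ∀ u v, φ (mul u v) = mul (φ u) (φ v)) (a : V) (c : ℝ) :
    eigen mul (φ a) c = (eigen mul a c).map (φ : V →ₗ[ℝ] V) := by
  ext v
  rw [mem_eigen_map mul φ hφ, Submodule.mem_map_equiv]

theorem eigenSum_map (mul : V →ₗ[ℝ] V →ₗ[ℝ] V) (φ : V ≃ₗ[ℝ] V)
    (hφ : ∀ u v, φ (mul u v) = mul (φ u) (φ v)) (a : V) (S : Set ℝ) :
    eigenSum mul (φ a) S = (eigenSum mul a S).map (φ : V →ₗ[ℝ] V) := by
  unfold eigenSum
  simp only [Submodule.map_iSup, eigen_map mul φ hφ]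

theorem pair_conj (mul : V →ₗ[ℝ] V →ₗ[ℝ] V) (B : LinearMap.BilinForm ℝ V) (μ₀ μ₁ : V ≃ₗ[ℝ] V) (a₁ : V)
    (hμ₀ : ∀ u v, μ₀ (mul u v) = mul (μ₀ u) (μ₀ v))
    (h₁ : IsMajoranaPair mul B μ₁ a₁) (hc : μ₀ * μ₁ = μ₁ * μ₀) :
    IsMajoranaPair mul B μ₁ (μ₀ a₁) := by
  obtain ⟨hm, hb, ⟨⟨hne, hid, hsum, hfus⟩, hprim⟩, hmiy1, hmiy2⟩ := h₁
  have hcomm : ∀ w, μ₁ (μ₀ w) = μ₀ (μ₁ w) := by
    intro w
    have := congrArg (fun f : V ≃ₗ[ℝ] V => f w) hc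
    simp only [LinearEquiv.mul_apply] at this
    exact this.symm
  refine ⟨hm, hb, ⟨⟨?_, ?_, ?_, ?_⟩, ?_⟩, ?_, ?_⟩
  · exact (LinearEquiv.map_ne_zero_iff μ₀).2 hne
  · rw [← hμ₀, hid]
  · rw [eigenSum_map mul μ₀ hμ₀, hsum, Submodule.map_top, LinearMap.range_eq_top]
    exact μ₀.surjective
  · intro c hc' d hd u hu v hv
    rw [eigenSum_map mul μ₀ hμ₀, Submodule.mem_map_equiv]
    rw [mem_eigen_map mul μ₀ hμ₀] at hu hv
    have h := hfus c hc' d hd _ hu _ hv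
    have e : μ₀.symm (mul u v) = mul (μ₀.symm u) (μ₀.symm v) := by
      apply μ₀.injective
      rw [hμ₀]
      simp
    rw [e]
    exact h
  · rw [eigen_map mul μ₀ hμ₀, hprim, Submodule.map_span, Set.image_singleton]
    rfl
  · intro v hv
    rw [eigenSum_map mul μ₀ hμ₀, Submodule.mem_map_equiv] at hv
    have h := hmiy1 _ hv
    have h2 : μ₁ (μ₀.symm v) = μ₀.symm v := h
    show μ₁ v = v
    have h3 := hcomm (μ₀.symm v)
    rw [LinearEquiv.apply_symm_apply, h2, LinearEquiv.apply_symm_apply] at h3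
    exact h3
  · intro v hv
    rw [mem_eigen_map mul μ₀ hμ₀] at hv
    have h := hmiy2 _ hv
    have h2 : μ₁ (μ₀.symm v) = - μ₀.symm v := h
    show μ₁ v = - v
    have h3 := hcomm (μ₀.symm v)
    rw [LinearEquiv.apply_symm_apply, h2, map_neg, LinearEquiv.apply_symm_apply] at h3
    exact h3

theorem decomp (mul : V →ₗ[ℝ] V →ₗ[ℝ] V) (B : LinearMap.BilinForm ℝ V) (μ₀ : V ≃ₗ[ℝ] V) (a₀ a₁ : V)
    (h₀ : IsMajoranaPair mul B μ₀ a₀) (hfix : μ₀ a₁ = a₁) :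
    ∃ (t : ℝ) (u₀ u₁ : V), a₁ = t • a₀ + u₀ + u₁ ∧ u₀ ∈ eigen mul a₀ 0 ∧ u₁ ∈ eigen mul a₀ (1/4) := by
  obtain ⟨hm, hb, ⟨⟨hne, hid, hsum, hfus⟩, hprim⟩, hmiy1, hmiy2⟩ := h₀
  have hle : eigenSum mul a₀ majoranaSpectrum
      ≤ eigenSum mul a₀ {1, 0, 1/4} ⊔ eigen mul a₀ (1/32) := by
    unfold eigenSum majoranaSpectrum
    refine iSup₂_le ?_
    rintro c (rfl | rfl | rfl | rfl)
    · exact le_sup_of_le_left (le_biSup (fun c => eigen mul a₀ c) (by simp))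
    · exact le_sup_of_le_left (le_biSup (fun c => eigen mul a₀ c) (by simp))
    · exact le_sup_of_le_left (le_biSup (fun c => eigen mul a₀ c) (by simp))
    · exact le_sup_right
  have hmem : a₁ ∈ eigenSum mul a₀ {1, 0, 1/4} ⊔ eigen mul a₀ (1/32) := by
    apply hle
    rw [hsum]
    trivial
  obtain ⟨p, hp, v, hv, hpv⟩ := Submodule.mem_sup.1 hmem
  have h1 : μ₀ p = p := hmiy1 p hp
  have h2 : μ₀ v = - v := hmiy2 v hv
  have hv0 : v = 0 := by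
    rw [← hpv, map_add, h1, h2] at hfix
    have h3 : (2:ℝ) • v = 0 := by
      linear_combination (norm := module) (-1:ℝ) • hfix
    rcases smul_eq_zero.1 h3 with h | h
    · norm_num at h
    · exact h
  rw [hv0, add_zero] at hpv
  rw [hpv] at hp
  have hle2 : eigenSum mul a₀ {1, 0, 1/4} ≤ eigen mul a₀ 1 ⊔ eigen mul a₀ 0 ⊔ eigen mul a₀ (1/4) := by
    unfold eigenSum
    refine iSup₂_le ?_
    rintro c (rfl | rfl | rfl)
    · exact le_sup_of_le_left le_sup_left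
    · exact le_sup_of_le_left le_sup_right
    · exact le_sup_right
  obtain ⟨q, hq, u₁, hu₁, hqu⟩ := Submodule.mem_sup.1 (hle2 hp)
  obtain ⟨p₁, hp₁, u₀, hu₀, hpu⟩ := Submodule.mem_sup.1 hq
  rw [hprim] at hp₁
  obtain ⟨t, ht⟩ := Submodule.mem_span_singleton.1 hp₁
  refine ⟨t, u₀, u₁, ?_, hu₀, hu₁⟩
  rw [ht, hpu, hqu]

theorem key (A : V →ₗ[ℝ] V) (w : V)
    (h1 : A w = (1/4 : ℝ) • w)
    (h2 : w ∈ Module.End.eigenspace A 1 ⊔ Module.End.eigenspace A 0) : w = 0 := by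
  obtain ⟨p, hp, q, hq, rfl⟩ := Submodule.mem_sup.1 h2
  rw [Module.End.mem_eigenspace_iff] at hp hq
  rw [map_add, hp, hq] at h1
  have hq3 : q = (3:ℝ) • p := by
    linear_combination (norm := module) (-4:ℝ) • h1
  have h3 : A q = (3:ℝ) • A p := by rw [hq3, map_smul]
  rw [hp, hq] at h3
  have hp0 : p = 0 := by
    have : (3:ℝ) • p = 0 := by
      linear_combination (norm := module) (-1:ℝ) • h3
    rcases smul_eq_zero.1 this with h | h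
    · norm_num at h
    · exact h
  rw [hq3, hp0]
  simp

theorem half (mul : V →ₗ[ℝ] V →ₗ[ℝ] V) (B : LinearMap.BilinForm ℝ V)
    (hV : IsMajoranaAmbient mul B) (μ₀ : V ≃ₗ[ℝ] V) (a₀ a₁ : V)
    (h₀ : IsMajoranaPair mul B μ₀ a₀) (hfix : μ₀ a₁ = a₁) (hn₀ : B a₀ a₀ = 1)
    (hid₁ : mul a₁ a₁ = a₁) :
    mul a₀ (mul a₀ a₁) = (1/4 : ℝ) • mul a₀ a₁ + (3 * B a₀ a₁ / 4) • a₀ ∧
    mul (a₁ + (3 * B a₀ a₁) • a₀ - (4:ℝ) • mul a₀ a₁) ((4:ℝ) • mul a₀ a₁ - (4 * B a₀ a₁) • a₀)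
      = (1/2 - B a₀ a₁ / 4) • ((4:ℝ) • mul a₀ a₁ - (4 * B a₀ a₁) • a₀) := by
  obtain ⟨t, u₀, u₁, hdec, hu₀, hu₁⟩ := decomp mul B μ₀ a₀ a₁ h₀ hfix
  obtain ⟨hcomm, hsym, hpos, hassoc, hnorton⟩ := hV
  have hid₀ : mul a₀ a₀ = a₀ := h₀.2.2.1.1.2.1
  have hfus := h₀.2.2.1.1.2.2.2
  have hu₀' : mul a₀ u₀ = 0 := by
    have := (mem_eigen_iff mul a₀ 0 u₀).1 hu₀
    rwa [zero_smul] at this
  have hu₁' : mul a₀ u₁ = (1/4 : ℝ) • u₁ := (mem_eigen_iff mul a₀ (1/4) u₁).1 hu₁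
  have hB0 : B a₀ u₀ = 0 := by
    have h := hassoc a₀ a₀ u₀
    rw [hu₀', hid₀, map_zero] at h
    exact h.symm
  have hB1 : B a₀ u₁ = 0 := by
    have h := hassoc a₀ a₀ u₁
    rw [hu₁', hid₀, map_smul, smul_eq_mul] at h
    linarith
  have ht : B a₀ a₁ = t := by
    rw [hdec]
    simp only [map_add, map_smul, smul_eq_mul, hn₀, hB0, hB1]
    ring
  rw [ht]
  have hs : mul a₀ a₁ = t • a₀ + (1/4 : ℝ) • u₁ := by
    rw [hdec]
    simp only [map_add, map_smul, hid₀, hu₀', hu₁']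
    module
  have e1 : u₁ = (4:ℝ) • mul a₀ a₁ - (4 * t) • a₀ := by
    rw [hs]
    module
  have e0 : u₀ = a₁ + (3 * t) • a₀ - (4:ℝ) • mul a₀ a₁ := by
    rw [hs]
    nth_rewrite 1 [hdec]
    module
  rw [← e1, ← e0]
  constructor
  · rw [hs]
    simp only [map_add, map_smul, hid₀, hu₁']
    module
  · -- fusion
    have m0 : (0:ℝ) ∈ majoranaSpectrum := by unfold majoranaSpectrum; simp
    have m14 : (1/4:ℝ) ∈ majoranaSpectrum := by unfold majoranaSpectrum; simp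
    have hf01 : mul u₀ u₁ ∈ eigen mul a₀ (1/4) := by
      have h := hfus 0 m0 (1/4) m14 u₀ hu₀ u₁ hu₁
      have hlaw : monsterLaw (1/4 : ℝ) (1/32) 0 (1/4) = {1/4} := by
        unfold monsterLaw
        norm_num
      rw [hlaw] at h
      unfold eigenSum at h
      simpa using h
    have hf00 : mul u₀ u₀ ∈ eigen mul a₀ 0 := by
      have h := hfus 0 m0 0 m0 u₀ hu₀ u₀ hu₀
      have hlaw : monsterLaw (1/4 : ℝ) (1/32) 0 0 = {0} := by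
        unfold monsterLaw
        norm_num
      rw [hlaw] at h
      unfold eigenSum at h
      simpa using h
    have hf11 : mul u₁ u₁ ∈ eigen mul a₀ 1 ⊔ eigen mul a₀ 0 := by
      have h := hfus (1/4) m14 (1/4) m14 u₁ hu₁ u₁ hu₁
      have hlaw : monsterLaw (1/4 : ℝ) (1/32) (1/4) (1/4) = {1, 0} := by
        unfold monsterLaw
        norm_num
      rw [hlaw] at h
      have hle : eigenSum mul a₀ {1, 0} ≤ eigen mul a₀ 1 ⊔ eigen mul a₀ 0 := by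
        unfold eigenSum
        refine iSup₂_le ?_
        rintro c (rfl | rfl)
        · exact le_sup_left
        · exact le_sup_right
      exact hle h
    have ha1 : a₀ ∈ eigen mul a₀ 1 := by
      rw [mem_eigen_iff, hid₀, one_smul]
    have hexp : mul a₁ a₁ = (t^2) • a₀ + (t/2) • u₁ + mul u₀ u₀ + (2:ℝ) • mul u₀ u₁ + mul u₁ u₁ := by
      conv_lhs => rw [hdec]
      simp only [map_add, map_smul, LinearMap.add_apply, LinearMap.smul_apply, hid₀, hu₀', hu₁',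
        hcomm u₀ a₀, hcomm u₁ a₀, hcomm u₁ u₀]
      module
    have hW1 : (t/2) • u₁ + (2:ℝ) • mul u₀ u₁ - u₁ ∈ eigen mul a₀ (1/4) :=
      sub_mem (add_mem (Submodule.smul_mem _ _ hu₁) (Submodule.smul_mem _ _ hf01)) hu₁
    have hW2 : (t/2) • u₁ + (2:ℝ) • mul u₀ u₁ - u₁
        = (t - t^2) • a₀ + u₀ - mul u₀ u₀ - mul u₁ u₁ := by
      rw [hexp] at hid₁
      have h3 : (t^2) • a₀ + (t/2) • u₁ + mul u₀ u₀ + (2:ℝ) • mul u₀ u₁ + mul u₁ u₁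
          = t • a₀ + u₀ + u₁ := by
        rw [hid₁]
        exact hdec
      linear_combination (norm := module) h3
    have hW3 : (t/2) • u₁ + (2:ℝ) • mul u₀ u₁ - u₁ ∈ eigen mul a₀ 1 ⊔ eigen mul a₀ 0 := by
      rw [hW2]
      have hA : (t - t^2) • a₀ ∈ eigen mul a₀ 1 ⊔ eigen mul a₀ 0 :=
        Submodule.mem_sup_left (Submodule.smul_mem _ _ ha1)
      have hB : u₀ ∈ eigen mul a₀ 1 ⊔ eigen mul a₀ 0 := Submodule.mem_sup_right hu₀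
      have hC : mul u₀ u₀ ∈ eigen mul a₀ 1 ⊔ eigen mul a₀ 0 := Submodule.mem_sup_right hf00
      exact sub_mem (sub_mem (add_mem hA hB) hC) hf11
    have hW0 : (t/2) • u₁ + (2:ℝ) • mul u₀ u₁ - u₁ = 0 :=
      key (mul a₀) _ ((mem_eigen_iff mul a₀ (1/4) _).1 hW1) hW3
    linear_combination (norm := module) (1/2 : ℝ) • hW0

theorem main [FiniteDimensional ℝ V] (mul : V →ₗ[ℝ] V →ₗ[ℝ] V) (B : LinearMap.BilinForm ℝ V) (hV : Cfsg.Axial.IsMajoranaAmbient mul B) (μ₀ μ₁ : V ≃ₗ[ℝ] V) (a₀ a₁ : V) (h₀ : Cfsg.Axial.IsMajoranaPair mul B μ₀ a₀) (h₁ : Cfsg.Axial.IsMajoranaPair mul B μ₁ a₁) (hu₀ : ∀ a : V, Cfsg.Axial.IsMajoranaPair mul B μ₀ a → a = a₀) (hu₁ : ∀ a : V, Cfsg.Axial.IsMajoranaPair mul B μ₁ a → a = a₁) (hn₀ : B a₀ a₀ = 1) (hn₁ : B a₁ a₁ = 1) (hc : μ₀ * μ₁ = μ₁ * μ₀) (hne : a₀ ≠ a₁) : (B a₀ a₁ = 0 ∧ mul a₀ a₁ = 0) ∨ (B a₀ a₁ = 1 / 8 ∧ mul (a₀ + a₁ - (8 : ℝ) • mul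 a₀ a₁) (a₀ + a₁ - (8 : ℝ) • mul a₀ a₁) = a₀ + a₁ - (8 : ℝ) • mul a₀ a₁ ∧ mul a₀ (a₀ + a₁ - (8 : ℝ) • mul a₀ a₁) = (1 / 8 : ℝ) • (a₀ + (a₀ + a₁ - (8 : ℝ) • mul a₀ a₁) - a₁) ∧ mul a₁ (a₀ + a₁ - (8 : ℝ) • mul a₀ a₁) = (1 / 8 : ℝ) • (a₁ + (a₀ + a₁ - (8 : ℝ) • mul a₀ a₁) - a₀)) := by
  have hfix1 : μ₀ a₁ = a₁ := hu₁ _ (pair_conj mul B μ₀ μ₁ a₁ h₀.1 h₁ hc)
  have hfix0 : μ₁ a₀ = a₀ := hu₀ _ (pair_conj mul B μ₁ μ₀ a₀ h₁.1 h₀ hc.symm)
  have hid₀ : mul a₀ a₀ = a₀ := h₀.2.2.1.1.2.1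
  have hid₁ : mul a₁ a₁ = a₁ := h₁.2.2.1.1.2.1
  obtain ⟨H1a, H2a⟩ := half mul B hV μ₀ a₀ a₁ h₀ hfix1 hn₀ hid₁
  obtain ⟨H1b, H2b⟩ := half mul B hV μ₁ a₁ a₀ h₁ hfix0 hn₁ hid₀
  obtain ⟨hcomm, hsym, hpos, hassoc, hnorton⟩ := hV
  rw [hsym a₁ a₀, hcomm a₁ a₀] at H1b H2b
  set t : ℝ := B a₀ a₁ with ht
  set s : V := mul a₀ a₁ with hs
  have hsa0 : mul s a₀ = mul a₀ s := hcomm s a₀
  have hsa1 : mul s a₁ = mul a₁ s := hcomm s a₁
  have h10 : mul a₁ a₀ = s := hcomm a₁ a₀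
  -- expand
  have X2a : (16:ℝ) • mul s s = (4 * t - 1) • s + (3 * t) • a₁ + (8 * t^2 + 2 * t) • a₀ := by
    simp only [map_add, map_sub, map_smul, LinearMap.add_apply, LinearMap.sub_apply,
      LinearMap.smul_apply, hid₀, hsa0, h10, H1a, H1b] at H2a
    linear_combination (norm := module) (-1:ℝ) • H2a
  have X2b : (16:ℝ) • mul s s = (4 * t - 1) • s + (3 * t) • a₀ + (8 * t^2 + 2 * t) • a₁ := by
    simp only [map_add, map_sub, map_smul, LinearMap.add_apply, LinearMap.sub_apply,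
      LinearMap.smul_apply, hid₁, hsa1, ← hs, H1a, H1b] at H2b
    linear_combination (norm := module) (-1:ℝ) • H2b
  have hdiff : (t * (1 - 8 * t)) • (a₁ - a₀) = 0 := by
    rw [X2a] at X2b
    linear_combination (norm := module) X2b
  have hcases : t = 0 ∨ t = 1/8 := by
    rcases smul_eq_zero.1 hdiff with h | h
    · rcases mul_eq_zero.1 h with h' | h'
      · exact Or.inl h'
      · right
        linarith
    · exfalso
      exact hne (sub_eq_zero.1 h).symm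
  rcases hcases with h0 | h8
  · left
    refine ⟨h0, ?_⟩
    by_contra hsne
    have hpos' := hpos s hsne
    have e1 : B s s = B a₀ (mul a₁ s) := (hassoc a₀ a₁ s).symm
    have e2 : B a₀ s = B a₀ a₁ := by
      have := hassoc a₀ a₀ a₁
      rw [hid₀] at this
      exact this
    rw [H1b, h0] at e1
    simp only [map_add, map_smul, smul_eq_mul] at e1
    rw [e2, ← ht, h0] at e1
    norm_num at e1
    rw [e1] at hpos'
    exact lt_irrefl _ hpos'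
  · right
    rw [h8] at X2a H1a H1b
    have hss : mul s s = (-(1/32) : ℝ) • s + (3/128 : ℝ) • a₁ + (3/128 : ℝ) • a₀ := by
      linear_combination (norm := module) (1/16 : ℝ) • X2a
    refine ⟨h8, ?_, ?_, ?_⟩
    · simp only [map_add, map_sub, map_smul, LinearMap.add_apply, LinearMap.sub_apply,
        LinearMap.smul_apply, hid₀, hid₁, hsa0, hsa1, h10, ← hs, H1a, H1b, hss]
      module
    · simp only [map_add, map_sub, map_smul, hid₀, ← hs, H1a]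
      module
    · simp only [map_add, map_sub, map_smul, hid₁, h10, H1b]
      module

end


/-- Let V be a finite-dimensional real vector space with a commutative bilinear product and a positive-definite symmetric bilinear form that associates with the product and satisfies the Norton inequality (the Majorana setting of the definitions). Let μ₀, μ₁ be commuting Majorana involutions with distinct axial vectors a₀ ≠ a₁ of squared length 1, each involution having no other axial vector. Then either a₀ and a₁ are orthogonal with a₀ ∘ a₁ = 0 (type 2B), or their inner product is 1/8 and, with a₂ = a₀ + a₁ − 8 a₀ ∘ a₁, the vector a₂ is an idempotent and a₀ ∘ a₂ = (1/8)(a₀ + a₂ − a₁), a₁ ∘ a₂ = (1/8)(a₁ + a₂ − a₀) (type 2A: the three idempotents span a subalgebra with aᵢ ∘ aⱼ = (1/8)(aᵢ + aⱼ − aₖ)). -/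
theorem result {V : Type*} [AddCommGroup V] [Module ℝ V] [FiniteDimensional ℝ V] (mul : V →ₗ[ℝ] V →ₗ[ℝ] V) (B : LinearMap.BilinForm ℝ V) (hV : Cfsg.Axial.IsMajoranaAmbient mul B) (μ₀ μ₁ : V ≃ₗ[ℝ] V) (a₀ a₁ : V) (h₀ : Cfsg.Axial.IsMajoranaPair mul B μ₀ a₀) (h₁ : Cfsg.Axial.IsMajoranaPair mul B μ₁ a₁) (hu₀ : ∀ a : V, Cfsg.Axial.IsMajoranaPair mul B μ₀ a → a = a₀) (hu₁ : ∀ a : V, Cfsg.Axial.IsMajoranaPair mul B μ₁ a → a = a₁) (hn₀ : B a₀ a₀ = 1) (hn₁ : B a₁ a₁ = 1) (hc : μ₀ * μ₁ = μ₁ * μ₀) (hne : a₀ ≠ a₁) : (B a₀ a₁ = 0 ∧ mul a₀ a₁ = 0) ∨ (B a₀ a₁ = 1 / 8 ∧ mul (a₀ + a₁ - (8 : ℝ) • mul a₀ a₁) (a₀ + a₁ - (8 : ℝ) • mul a₀ a₁) = a₀ + a₁ - (8 : ℝ) • mul a₀ a₁ ∧ mul a₀ (a₀ + a₁ - (8 : ℝ) • mul a₀ a₁) = (1 / 8 : ℝ) • (a₀ + (a₀ + a₁ - (8 : ℝ) • mul a₀ a₁) - a₁) ∧ mul a₁ (a₀ + a₁ - (8 : ℝ) • mul a₀ a₁) = (1 / 8 : ℝ) • (a₁ + (a₀ + a₁ - (8 : ℝ) • mul a₀ a₁) - a₀)) := by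
  exact main mul B hV μ₀ μ₁ a₀ a₁ h₀ h₁ hu₀ hu₁ hn₀ hn₁ hc hne

end Cfsg.Agent.S5545
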