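import Cfsg.Statements.S5548
import Cfsg.Agent.Helper3.GMod.Subsp

set_option autoImplicit false
open Cfsg

namespace Cfsg.Agent.S5548

open Cfsg.Agent.Helper3

/-- For the automorphism group of the length-24 binary Golay code of the definitions (the Mathieu group of degree 24) acting on binary words of length 24 by permuting coordinates, the only invariant subspaces of the space of all words are: zero, the span of the all-ones word, the code itself, the even-weight words, and the whole space. (So the permutation module has a unique composition series.) -/
theorem result (W : Submodule (ZMod 2) (Cfsg.GolayPt → ZMod 2)) (hW : ∀ σ ∈ Cfsg.M24, ∀ w ∈ W, (fun p => w (σ.symm p)) ∈ W) : W = ⊥ ∨ W = Submodule.span (ZMod 2) {fun _ => (1 : ZMod 2)} ∨ W = Cfsg.golayCode ∨ (W : Set (Cfsg.GolayPt → ZMod 2)) = {w | ∑ p, w p = 0} ∨ W = ⊤ := by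
  by_cases hsub : W ≤ Cfsg.golayCode
  · by_cases h : ∀ w ∈ W, w = 0 ∨ w = fun _ => 1
    · by_cases h1 : (fun _ : Cfsg.GolayPt => (1 : ZMod 2)) ∈ W
      · right
        left
        apply le_antisymm
        · intro w hw
          rcases h w hw with h0 | h0
          · rw [h0]
            exact Submodule.zero_mem _
          · rw [h0]
            exact Submodule.subset_span rfl
        · rw [Submodule.span_le]
          intro w hw
          rw [Set.mem_singleton_iff] at hw
          rw [hw]
          exact h1
      · left
        rw [Submodule.eq_bot_iff]
        intro w hw
        rcases h w hw with h0 | h0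
        · exact h0
        · exact absurd (h0 ▸ hw) h1
    · right
      right
      left
      push Not at h
      obtain ⟨w, hw, h0, h1'⟩ := h
      exact le_antisymm hsub (golay_le_of_sub W hW hsub hw h0 h1')
  · right
    right
    right
    exact invariant_not_sub W hW hsub

end Cfsg.Agent.S5548
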