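import Cfsg.Statements.S5600
import Cfsg.Agent.Helper3.Golay.Restr

set_option autoImplicit false
open scoped Pointwise
open Cfsg

namespace Cfsg.Agent.S5600

/-- Although the group of the length-24 code is only 5-transitive on the 24 points, it induces the full symmetric group on every 6-element subset: every permutation of a 6-set E is the restriction of an element of the group mapping E to itself. The pointwise stabiliser of E has order 16 when E lies in an octad and order 3 otherwise; in the latter case the setwise stabiliser of E has order 2160. -/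
theorem result (E : Finset Cfsg.GolayPt) (hE : E.card = 6) : (∀ σ : Equiv.Perm ↥E, ∃ g ∈ Cfsg.M24, ∀ p : ↥E, g p = σ p) ∧ ((∃ o ∈ Cfsg.octads, E ⊆ o) → Nat.card {g : Equiv.Perm Cfsg.GolayPt // g ∈ Cfsg.M24 ∧ ∀ p ∈ E, g p = p} = 16) ∧ ((¬ ∃ o ∈ Cfsg.octads, E ⊆ o) → Nat.card {g : Equiv.Perm Cfsg.GolayPt // g ∈ Cfsg.M24 ∧ ∀ p ∈ E, g p = p} = 3 ∧ Nat.card ↥(MulAction.stabilizer Cfsg.M24 E) = 2160) := by
  have h1 := Cfsg.Agent.Helper3.six_perm E hE
  refine ⟨h1, Cfsg.Agent.Helper3.six_ptstab_in E hE, fun hno =>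
    ⟨Cfsg.Agent.Helper3.six_ptstab_out E hE hno, ?_⟩⟩
  rw [Cfsg.Agent.Helper3.stab_card_of_surj M24 E h1, Cfsg.Agent.Helper3.six_ptstab_out E hE hno,
    hE]
  decide

end Cfsg.Agent.S5600
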