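import Cfsg.Statements.S5601
import Cfsg.Agent.Helper3.Cls.Ord3Sub

set_option autoImplicit false
open scoped Pointwise
open Cfsg

namespace Cfsg.Agent.S5601

open Cfsg.Agent.Helper3

/-- The group of the length-24 code has exactly two conjugacy classes of subgroups of order 3: a subgroup of order 3 fixes either exactly 6 of the 24 points or none of them, both cases occur, and two subgroups of order 3 with the same number of fixed points are conjugate. -/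
theorem result : (∀ X : Subgroup ↥Cfsg.M24, Nat.card X = 3 → {p : Cfsg.GolayPt | ∀ x ∈ X, ((x : ↥Cfsg.M24) : Equiv.Perm Cfsg.GolayPt) p = p}.ncard = 6 ∨ {p : Cfsg.GolayPt | ∀ x ∈ X, ((x : ↥Cfsg.M24) : Equiv.Perm Cfsg.GolayPt) p = p}.ncard = 0) ∧ (∃ X : Subgroup ↥Cfsg.M24, Nat.card X = 3 ∧ {p : Cfsg.GolayPt | ∀ x ∈ X, ((x : ↥Cfsg.M24) : Equiv.Perm Cfsg.GolayPt) p = p}.ncard = 6) ∧ (∃ X : Subgroup ↥Cfsg.M24, Nat.card X = 3 ∧ {p : Cfsg.GolayPt | ∀ x ∈ X, ((x : ↥Cfsg.M24) : Equiv.Perm Cfsg.GolayPt) p = p}.ncard = 0) ∧ ∀ X Y : Subgroup ↥Cfsg.M24, Nat.card X = 3 → Nat.card Y = 3 → {p : Cfsg.GolayPt | ∀ x ∈ X, ((x : ↥Cfsg.M24) : Equiv.Perm Cfsg.GolayPt) p = p}.ncard = {p : Cfsg.GolayPt | ∀ x ∈ Y, ((x : ↥Cfsg.M24) : Equiv.Perm Cfsg.GolayPt) p = p}.ncard → ∃ k : ↥Cfsg.M24, MulAut.conj k • X = Y := by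
  refine ⟨?_, ⟨Subgroup.zpowers o3A, ?_, ?_⟩, ⟨Subgroup.zpowers o3B, ?_, ?_⟩, ?_⟩
  · intro X hX
    obtain ⟨x, hx, rfl⟩ := card3_gen X hX
    rw [ncard_fix_zpowers]
    obtain ⟨k, h | h⟩ := ord3_sub_class x hx
    · exact Or.inl (by rw [fixCount_conj h, fixCount_o3A])
    · exact Or.inr (by rw [fixCount_conj h, fixCount_o3B])
  · rw [Nat.card_zpowers, orderOf_o3A]
  · rw [ncard_fix_zpowers, fixCount_o3A]
  · rw [Nat.card_zpowers, orderOf_o3B]
  · rw [ncard_fix_zpowers, fixCount_o3B]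
  · intro X Y hX hY hXY
    obtain ⟨x, hx, rfl⟩ := card3_gen X hX
    obtain ⟨y, hy, rfl⟩ := card3_gen Y hY
    rw [ncard_fix_zpowers, ncard_fix_zpowers] at hXY
    obtain ⟨k, h | h⟩ := ord3_sub_class x hx <;> obtain ⟨k', h' | h'⟩ := ord3_sub_class y hy
    · exact ⟨k'⁻¹ * k, by rw [conj_zpowers, conj_of_common h h']⟩
    · exfalso
      rw [fixCount_conj h, fixCount_conj h', fixCount_o3A, fixCount_o3B] at hXY
      exact absurd hXY (by norm_num)
    · exfalso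
      rw [fixCount_conj h, fixCount_conj h', fixCount_o3A, fixCount_o3B] at hXY
      exact absurd hXY (by norm_num)
    · exact ⟨k'⁻¹ * k, by rw [conj_zpowers, conj_of_common h h']⟩

end Cfsg.Agent.S5601
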