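import Cfsg.Statements.S5606
import Cfsg.Agent.Helper3.Fam.ClsCnt

set_option autoImplicit false
open scoped Pointwise
open Cfsg

namespace Cfsg.Agent.S5606

open Cfsg.Agent.Helper3

/-- A fixed-point-free involution of the group of the length-24 code maps to themselves exactly 15 octads, exactly 75 trios and exactly 51 sextets. -/
theorem result (g : Equiv.Perm Cfsg.GolayPt) (hg : g ∈ Cfsg.M24) (h₂ : orderOf g = 2) (h₀ : ∀ p, g p ≠ p) : {o : Finset Cfsg.GolayPt | o ∈ Cfsg.octads ∧ g • o = o}.ncard = 15 ∧ {T : Finset (Finset Cfsg.GolayPt) | T ∈ Cfsg.trios ∧ g • T = T}.ncard = 75 ∧ {S : Finset (Finset Cfsg.GolayPt) | S ∈ Cfsg.sextets ∧ g • S = S}.ncard = 51 := by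
  obtain ⟨k, hk, h1 | h1⟩ := inv_class g hg (ord2_facts h₂).1 (ord2_facts h₂).2
  · exfalso
    have h8 : (Finset.univ.filter fun p => g p = p).card = 8 :=
      (fix_conj_card h1).trans (octads_card invRA_fix)
    have h0 : (Finset.univ.filter fun p => g p = p).card = 0 := fpf_card_zero h₀
    exact absurd (h0.symm.trans h8) (by norm_num)
  · exact ⟨(fixcount_conj octads (fun k hk x hx => smul_mem_octads hk hx) hk h1).trans
        invRB_fixO,
      (fixcount_conj trios (fun k hk x hx => smul_mem_trios hk hx) hk h1).trans invRB_fixT,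
      (fixcount_conj sextets (fun k hk x hx => smul_mem_sextets hk hx) hk h1).trans invRB_fixS⟩

end Cfsg.Agent.S5606
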