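import Cfsg.Statements.S5607
import Cfsg.Agent.Helper3.Fam.Cent2B

set_option autoImplicit false
open scoped Pointwise
open Cfsg

namespace Cfsg.Agent.S5607

open Cfsg.Agent.Helper3

/-- For a fixed-point-free involution t of the group of the length-24 code: its centraliser in that group has order 7680, is transitive on the 24 points, and is contained, together with t, in the stabiliser of some sextet. -/
theorem result (t : Equiv.Perm Cfsg.GolayPt) (ht : t ∈ Cfsg.M24) (h₂ : orderOf t = 2) (h₀ : ∀ p, t p ≠ p) : Nat.card {c : Equiv.Perm Cfsg.GolayPt // c ∈ Cfsg.M24 ∧ c * t = t * c} = 7680 ∧ (∀ p q : Cfsg.GolayPt, ∃ c ∈ Cfsg.M24, c * t = t * c ∧ c p = q) ∧ ∃ S ∈ Cfsg.sextets, t • S = S ∧ ∀ c ∈ Cfsg.M24, c * t = t * c → c • S = S := by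
  obtain ⟨k, hk, h1 | h1⟩ := inv_class t ht (ord2_facts h₂).1 (ord2_facts h₂).2
  · exfalso
    have h8 : (Finset.univ.filter fun p => t p = p).card = 8 :=
      (fix_conj_card h1).trans (octads_card invRA_fix)
    have h0 : (Finset.univ.filter fun p => t p = p).card = 0 := fpf_card_zero h₀
    exact absurd (h0.symm.trans h8) (by norm_num)
  · exact cent2B_core t k hk h1

end Cfsg.Agent.S5607
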