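import Cfsg.Statements.S5608
import Cfsg.Agent.Helper3.Cls.Ord3Sub

set_option autoImplicit false
open scoped Pointwise
open Cfsg

namespace Cfsg.Agent.S5608

open Cfsg.Agent.Helper3

/-- If an element of order 3 and an involution of the group of the length-24 code commute, then either the element of order 3 has exactly 6 fixed points and the involution exactly 8, or both are fixed-point-free. -/
theorem result (x s : Equiv.Perm Cfsg.GolayPt) (hx : x ∈ Cfsg.M24) (hs : s ∈ Cfsg.M24) (h₃ : orderOf x = 3) (h₂ : orderOf s = 2) (hc : Commute x s) : ((Finset.univ.filter fun p => x p = p).card = 6 ∧ (Finset.univ.filter fun p => s p = p).card = 8) ∨ ((Finset.univ.filter fun p => x p = p).card = 0 ∧ (Finset.univ.filter fun p => s p = p).card = 0) := by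
  rcases ord3_fix_cases x hx h₃ with hx6 | hxf <;> rcases inv_fix_cases s hs h₂ with hso | hsf
  · exact Or.inl ⟨hx6, octads_card hso⟩
  · exact (no_3A_2B x s hx hs h₃ h₂ hc hx6 hsf).elim
  · exfalso
    have hx3 : x ^ 3 = 1 := by
      have h1 := pow_orderOf_eq_one x
      rwa [h₃] at h1
    have hF : ∀ a ∈ (Finset.univ.filter fun p => s p = p),
        x a ∈ (Finset.univ.filter fun p => s p = p) := by
      intro a ha
      rw [Finset.mem_filter] at ha ⊢
      refine ⟨Finset.mem_univ _, ?_⟩
      have h1 := congrArg (fun f : Equiv.Perm Cfsg.GolayPt => f a) hc.eq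
      simp only [Equiv.Perm.mul_apply] at h1
      rw [← h1, ha.2]
    have h := card_fix_modEq x 3 hx3 _ hF
    rw [octads_card hso] at h
    have e : ((Finset.univ.filter fun p => s p = p).filter fun a => x a = a) = ∅ :=
      Finset.filter_eq_empty_iff.2 fun p _ => hxf p
    rw [e, Finset.card_empty] at h
    exact absurd h (by decide)
  · exact Or.inr ⟨fpf_card_zero hxf, fpf_card_zero hsf⟩

end Cfsg.Agent.S5608
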