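import Cfsg.Statements.S5610
import Cfsg.Agent.Helper3.Fam.Trio
import Cfsg.Agent.Helper3.Fam.D5610

set_option autoImplicit false
open scoped Pointwise
open Cfsg

namespace Cfsg.Agent.S5610

open Cfsg.Agent.Helper3

/-- The stabiliser of an octad in the group of the length-24 code has exactly three orbits on the 3795 trios, of sizes 15, 420 and 3360, and exactly three orbits on the 1771 sextets, of sizes 35, 840 and 896. -/
theorem result (o : Finset Cfsg.GolayPt) (ho : o ∈ Cfsg.octads) : (∃ X₁ ∈ Cfsg.trios, ∃ X₂ ∈ Cfsg.trios, ∃ X₃ ∈ Cfsg.trios, (MulAction.orbit ↥(MulAction.stabilizer Cfsg.M24 o) X₁).ncard = 15 ∧ (MulAction.orbit ↥(MulAction.stabilizer Cfsg.M24 o) X₂).ncard = 420 ∧ (MulAction.orbit ↥(MulAction.stabilizer Cfsg.M24 o) X₃).ncard = 3360 ∧ Cfsg.trios = MulAction.orbit ↥(MulAction.stabilizer Cfsg.M24 o) X₁ ∪ MulAction.orbit ↥(MulAction.stabilizer Cfsg.M24 o) X₂ ∪ MulAction.orbit ↥(MulAction.stabilizer Cfsg.M24 o) X₃) ∧ (∃ Y₁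 ∈ Cfsg.sextets, ∃ Y₂ ∈ Cfsg.sextets, ∃ Y₃ ∈ Cfsg.sextets, (MulAction.orbit ↥(MulAction.stabilizer Cfsg.M24 o) Y₁).ncard = 35 ∧ (MulAction.orbit ↥(MulAction.stabilizer Cfsg.M24 o) Y₂).ncard = 840 ∧ (MulAction.orbit ↥(MulAction.stabilizer Cfsg.M24 o) Y₃).ncard = 896 ∧ Cfsg.sextets = MulAction.orbit ↥(MulAction.stabilizer Cfsg.M24 o) Y₁ ∪ MulAction.orbit ↥(MulAction.stabilizer Cfsg.M24 o) Y₂ ∪ MulAction.orbit ↥(MulAction.stabilizer Cfsg.M24 o) Y₃) := by
  obtain ⟨c, hc, rfl⟩ := M24_octad_trans gO0 o gO0_mem ho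
  have hA : ∀ g ∈ M24, g • (c • gO0) = c • gO0 ↔ c⁻¹ * g * c ∈ fSub [q10AX] 0 :=
    fun g hg => stab_bridge_set 5279 c hc g hg
  have key : ∀ x : Finset (Finset GolayPt),
      (MulAction.orbit ↥(MulAction.stabilizer M24 (c • gO0)) (c • x)).ncard =
        (fOrb [q10AX] x).ncard :=
    fun x => orbit_transport_ncard (c • gO0) [q10AX] c hc hA x
  have hT : ∀ (g : ↥(MulAction.stabilizer M24 (c • gO0))) (y : Finset (Finset GolayPt)),
      y ∈ trios → g • y ∈ trios := fun g y hy => smul_mem_trios g.1.2 hy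
  have hS : ∀ (g : ↥(MulAction.stabilizer M24 (c • gO0))) (y : Finset (Finset GolayPt)),
      y ∈ sextets → g • y ∈ sextets := fun g y hy => smul_mem_sextets g.1.2 hy
  have m1 : c • gFam q101X ∈ trios := smul_mem_trios hc (trioOK_mem (by decide +kernel))
  have m2 : c • gFam q102X ∈ trios := smul_mem_trios hc (trioOK_mem (by decide +kernel))
  have m3 : c • gFam q103X ∈ trios := smul_mem_trios hc (trioOK_mem (by decide +kernel))
  have m4 : c • gFam q104X ∈ sextets := smul_mem_sextets hc (sextOK_mem (by decide +kernel))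
  have m5 : c • gFam q105X ∈ sextets := smul_mem_sextets hc (sextOK_mem (by decide +kernel))
  have m6 : c • gFam q106X ∈ sextets := smul_mem_sextets hc (sextOK_mem (by decide +kernel))
  have n1 := (key (gFam q101X)).trans q101_ok.1
  have n2 := (key (gFam q102X)).trans q102_ok.1
  have n3 := (key (gFam q103X)).trans q103_ok.1
  have n4 := (key (gFam q104X)).trans q104_ok.1
  have n5 := (key (gFam q105X)).trans q105_ok.1
  have n6 := (key (gFam q106X)).trans q106_ok.1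
  exact ⟨⟨_, m1, _, m2, _, m3, n1, n2, n3,
      orb_union3 trios _ _ _ 15 420 3360 n1 n2 n3 (orbit_sub _ _ m1 hT) (orbit_sub _ _ m2 hT)
        (orbit_sub _ _ m3 hT) (by norm_num) (by norm_num) (by norm_num)
        (trios_ncard.trans (by norm_num))⟩,
    ⟨_, m4, _, m5, _, m6, n4, n5, n6,
      orb_union3 sextets _ _ _ 35 840 896 n4 n5 n6 (orbit_sub _ _ m4 hS) (orbit_sub _ _ m5 hS)
        (orbit_sub _ _ m6 hS) (by norm_num) (by norm_num) (by norm_num)
        (sextets_ncard.trans (by norm_num))⟩⟩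

end Cfsg.Agent.S5610
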