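import Cfsg.Statements.S5611
import Cfsg.Agent.Helper3.Fam.Trio
import Cfsg.Agent.Helper3.Fam.Sext
import Cfsg.Agent.Helper3.Fam.D5611

set_option autoImplicit false
open scoped Pointwise
open Cfsg

namespace Cfsg.Agent.S5611

open Cfsg.Agent.Helper3

/-- The stabiliser of a sextet in the group of the length-24 code has exactly three orbits on the 759 octads, of sizes 15, 360 and 384, and exactly four orbits on the 3795 trios, of sizes 15, 180, 720 and 2880. -/
theorem result (S : Finset (Finset Cfsg.GolayPt)) (hS : S ∈ Cfsg.sextets) : (∃ X₁ ∈ Cfsg.octads, ∃ X₂ ∈ Cfsg.octads, ∃ X₃ ∈ Cfsg.octads, (MulAction.orbit ↥(MulAction.stabilizer Cfsg.M24 S) X₁).ncard = 15 ∧ (MulAction.orbit ↥(MulAction.stabilizer Cfsg.M24 S) X₂).ncard = 360 ∧ (MulAction.orbit ↥(MulAction.stabilizer Cfsg.M24 S) X₃).ncard = 384 ∧ Cfsg.octads = MulAction.orbit ↥(MulAction.stabilizer Cfsg.M24 S) X₁ ∪ MulAction.orbit ↥(MulAction.stabilizer Cfsg.M24 S) X₂ ∪ MulAction.orbit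 ↥(MulAction.stabilizer Cfsg.M24 S) X₃) ∧ (∃ Y₁ ∈ Cfsg.trios, ∃ Y₂ ∈ Cfsg.trios, ∃ Y₃ ∈ Cfsg.trios, ∃ Y₄ ∈ Cfsg.trios, (MulAction.orbit ↥(MulAction.stabilizer Cfsg.M24 S) Y₁).ncard = 15 ∧ (MulAction.orbit ↥(MulAction.stabilizer Cfsg.M24 S) Y₂).ncard = 180 ∧ (MulAction.orbit ↥(MulAction.stabilizer Cfsg.M24 S) Y₃).ncard = 720 ∧ (MulAction.orbit ↥(MulAction.stabilizer Cfsg.M24 S) Y₄).ncard = 2880 ∧ Cfsg.trios = MulAction.orbit ↥(MulAction.stabilizer Cfsg.M24 S) Y₁ ∪ MulAction.orbit ↥(MulAction.stabilizer Cfsg.M24 S) Y₂ ∪ MulAction.orbit ↥(MulAction.stabilizer Cfsg.M24 S) Y₃ ∪ MulAction.orbit ↥(MulAction.stabilizer Cfsg.M24 S) Y₄) := by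
  obtain ⟨c, hc, rfl⟩ := sextet_trans hS
  have hA : ∀ g ∈ M24, g • (c • gFam sxX) = c • gFam sxX ↔ c⁻¹ * g * c ∈ fSub [sxX] 0 :=
    fun g hg => stab_bridge_fam sxX c hc g hg
  have key : ∀ x : Finset (Finset GolayPt),
      (MulAction.orbit ↥(MulAction.stabilizer M24 (c • gFam sxX)) (c • x)).ncard =
        (fOrb [sxX] x).ncard :=
    fun x => orbit_transport_ncard (c • gFam sxX) [sxX] c hc hA x
  have key' : ∀ x : Finset GolayPt,
      (MulAction.orbit ↥(MulAction.stabilizer M24 (c • gFam sxX)) (c • x)).ncard =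
        (fOrb [sxX] x).ncard :=
    fun x => orbit_transport_ncard (c • gFam sxX) [sxX] c hc hA x
  have hO : ∀ (g : ↥(MulAction.stabilizer M24 (c • gFam sxX))) (y : Finset GolayPt),
      y ∈ octads → g • y ∈ octads := fun g y hy => smul_mem_octads g.1.2 hy
  have hT : ∀ (g : ↥(MulAction.stabilizer M24 (c • gFam sxX))) (y : Finset (Finset GolayPt)),
      y ∈ trios → g • y ∈ trios := fun g y hy => smul_mem_trios g.1.2 hy
  have m1 : c • gSupp 5279 ∈ octads := smul_mem_octads hc (gOctB_mem (by decide +kernel))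
  have m2 : c • gSupp 18147 ∈ octads := smul_mem_octads hc (gOctB_mem (by decide +kernel))
  have m3 : c • gSupp 10558 ∈ octads := smul_mem_octads hc (gOctB_mem (by decide +kernel))
  have m4 : c • gFam q114X ∈ trios := smul_mem_trios hc (trioOK_mem (by decide +kernel))
  have m5 : c • gFam q115X ∈ trios := smul_mem_trios hc (trioOK_mem (by decide +kernel))
  have m6 : c • gFam q116X ∈ trios := smul_mem_trios hc (trioOK_mem (by decide +kernel))
  have m7 : c • gFam q117X ∈ trios := smul_mem_trios hc (trioOK_mem (by decide +kernel))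
  have n1 : (MulAction.orbit ↥(MulAction.stabilizer M24 (c • gFam sxX)) (c • gSupp 5279)).ncard
      = 15 := ((key' (gSupp 5279)).trans (fOrb_singleton_ncard [sxX] 5279)).trans q111_ok.1
  have n2 : (MulAction.orbit ↥(MulAction.stabilizer M24 (c • gFam sxX)) (c • gSupp 18147)).ncard
      = 360 := ((key' (gSupp 18147)).trans (fOrb_singleton_ncard [sxX] 18147)).trans q112_ok.1
  have n3 : (MulAction.orbit ↥(MulAction.stabilizer M24 (c • gFam sxX)) (c • gSupp 10558)).ncard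
      = 384 := ((key' (gSupp 10558)).trans (fOrb_singleton_ncard [sxX] 10558)).trans q113_ok.1
  have n4 := (key (gFam q114X)).trans q114_ok.1
  have n5 := (key (gFam q115X)).trans q115_ok.1
  have n6 := (key (gFam q116X)).trans q116_ok.1
  have n7 := (key (gFam q117X)).trans q117_ok.1
  exact ⟨⟨_, m1, _, m2, _, m3, n1, n2, n3,
      orb_union3 octads _ _ _ 15 360 384 n1 n2 n3 (orbit_sub _ _ m1 hO) (orbit_sub _ _ m2 hO)
        (orbit_sub _ _ m3 hO) (by norm_num) (by norm_num) (by norm_num)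
        (octads_ncard.trans (by norm_num))⟩,
    ⟨_, m4, _, m5, _, m6, _, m7, n4, n5, n6, n7,
      orb_union4 trios _ _ _ _ 15 180 720 2880 n4 n5 n6 n7 (orbit_sub _ _ m4 hT)
        (orbit_sub _ _ m5 hT) (orbit_sub _ _ m6 hT) (orbit_sub _ _ m7 hT) (by norm_num)
        (by norm_num) (by norm_num) (by norm_num) (by norm_num) (by norm_num)
        (trios_ncard.trans (by norm_num))⟩⟩

end Cfsg.Agent.S5611
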