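import Cfsg.Statements.S5612
import Cfsg.Agent.Helper3.Fam.Trio
import Cfsg.Agent.Helper3.Fam.Sext
import Cfsg.Agent.Helper3.Fam.D5612

set_option autoImplicit false
open scoped Pointwise
open Cfsg

namespace Cfsg.Agent.S5612

open Cfsg.Agent.Helper3

/-- The stabiliser of a trio in the group of the length-24 code has exactly three orbits on the 759 octads, of sizes 3, 84 and 672, and exactly four orbits on the 1771 sextets, of sizes 7, 84, 336 and 1344. -/
theorem result (T : Finset (Finset Cfsg.GolayPt)) (hT : T ∈ Cfsg.trios) : (∃ X₁ ∈ Cfsg.octads, ∃ X₂ ∈ Cfsg.octads, ∃ X₃ ∈ Cfsg.octads, (MulAction.orbit ↥(MulAction.stabilizer Cfsg.M24 T) X₁).ncard = 3 ∧ (MulAction.orbit ↥(MulAction.stabilizer Cfsg.M24 T) X₂).ncard = 84 ∧ (MulAction.orbit ↥(MulAction.stabilizer Cfsg.M24 T) X₃).ncard = 672 ∧ Cfsg.octads = MulAction.orbit ↥(MulAction.stabilizer Cfsg.M24 T) X₁ ∪ MulAction.orbit ↥(MulAction.stabilizer Cfsg.M24 T) X₂ ∪ MulAction.orbit ↥(MulAction.stabilizer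 Cfsg.M24 T) X₃) ∧ (∃ Y₁ ∈ Cfsg.sextets, ∃ Y₂ ∈ Cfsg.sextets, ∃ Y₃ ∈ Cfsg.sextets, ∃ Y₄ ∈ Cfsg.sextets, (MulAction.orbit ↥(MulAction.stabilizer Cfsg.M24 T) Y₁).ncard = 7 ∧ (MulAction.orbit ↥(MulAction.stabilizer Cfsg.M24 T) Y₂).ncard = 84 ∧ (MulAction.orbit ↥(MulAction.stabilizer Cfsg.M24 T) Y₃).ncard = 336 ∧ (MulAction.orbit ↥(MulAction.stabilizer Cfsg.M24 T) Y₄).ncard = 1344 ∧ Cfsg.sextets = MulAction.orbit ↥(MulAction.stabilizer Cfsg.M24 T) Y₁ ∪ MulAction.orbit ↥(MulAction.stabilizer Cfsg.M24 T) Y₂ ∪ MulAction.orbit ↥(MulAction.stabilizer Cfsg.M24 T) Y₃ ∪ MulAction.orbit ↥(MulAction.stabilizer Cfsg.M24 T) Y₄) := by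
  obtain ⟨c, hc, rfl⟩ := trio_trans hT
  have hA : ∀ g ∈ M24, g • (c • gFam trX) = c • gFam trX ↔ c⁻¹ * g * c ∈ fSub [trX] 0 :=
    fun g hg => stab_bridge_fam trX c hc g hg
  have key : ∀ x : Finset (Finset GolayPt),
      (MulAction.orbit ↥(MulAction.stabilizer M24 (c • gFam trX)) (c • x)).ncard =
        (fOrb [trX] x).ncard :=
    fun x => orbit_transport_ncard (c • gFam trX) [trX] c hc hA x
  have key' : ∀ x : Finset GolayPt,
      (MulAction.orbit ↥(MulAction.stabilizer M24 (c • gFam trX)) (c • x)).ncard =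
        (fOrb [trX] x).ncard :=
    fun x => orbit_transport_ncard (c • gFam trX) [trX] c hc hA x
  have hO : ∀ (g : ↥(MulAction.stabilizer M24 (c • gFam trX))) (y : Finset GolayPt),
      y ∈ octads → g • y ∈ octads := fun g y hy => smul_mem_octads g.1.2 hy
  have hS : ∀ (g : ↥(MulAction.stabilizer M24 (c • gFam trX))) (y : Finset (Finset GolayPt)),
      y ∈ sextets → g • y ∈ sextets := fun g y hy => smul_mem_sextets g.1.2 hy
  have m1 : c • gSupp 5279 ∈ octads := smul_mem_octads hc (gOctB_mem (by decide +kernel))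
  have m2 : c • gSupp 90318 ∈ octads := smul_mem_octads hc (gOctB_mem (by decide +kernel))
  have m3 : c • gSupp 10558 ∈ octads := smul_mem_octads hc (gOctB_mem (by decide +kernel))
  have m4 : c • gFam q124X ∈ sextets := smul_mem_sextets hc (sextOK_mem (by decide +kernel))
  have m5 : c • gFam q125X ∈ sextets := smul_mem_sextets hc (sextOK_mem (by decide +kernel))
  have m6 : c • gFam q126X ∈ sextets := smul_mem_sextets hc (sextOK_mem (by decide +kernel))
  have m7 : c • gFam q127X ∈ sextets := smul_mem_sextets hc (sextOK_mem (by decide +kernel))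
  have n1 : (MulAction.orbit ↥(MulAction.stabilizer M24 (c • gFam trX)) (c • gSupp 5279)).ncard
      = 3 := ((key' (gSupp 5279)).trans (fOrb_singleton_ncard [trX] 5279)).trans q121_ok.1
  have n2 : (MulAction.orbit ↥(MulAction.stabilizer M24 (c • gFam trX)) (c • gSupp 90318)).ncard
      = 84 := ((key' (gSupp 90318)).trans (fOrb_singleton_ncard [trX] 90318)).trans q122_ok.1
  have n3 : (MulAction.orbit ↥(MulAction.stabilizer M24 (c • gFam trX)) (c • gSupp 10558)).ncard
      = 672 := ((key' (gSupp 10558)).trans (fOrb_singleton_ncard [trX] 10558)).trans q123_ok.1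
  have n4 := (key (gFam q124X)).trans q124_ok.1
  have n5 := (key (gFam q125X)).trans q125_ok.1
  have n6 := (key (gFam q126X)).trans q126_ok.1
  have n7 := (key (gFam q127X)).trans q127_ok.1
  exact ⟨⟨_, m1, _, m2, _, m3, n1, n2, n3,
      orb_union3 octads _ _ _ 3 84 672 n1 n2 n3 (orbit_sub _ _ m1 hO) (orbit_sub _ _ m2 hO)
        (orbit_sub _ _ m3 hO) (by norm_num) (by norm_num) (by norm_num)
        (octads_ncard.trans (by norm_num))⟩,
    ⟨_, m4, _, m5, _, m6, _, m7, n4, n5, n6, n7,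
      orb_union4 sextets _ _ _ _ 7 84 336 1344 n4 n5 n6 n7 (orbit_sub _ _ m4 hS)
        (orbit_sub _ _ m5 hS) (orbit_sub _ _ m6 hS) (orbit_sub _ _ m7 hS) (by norm_num)
        (by norm_num) (by norm_num) (by norm_num) (by norm_num) (by norm_num)
        (sextets_ncard.trans (by norm_num))⟩⟩

end Cfsg.Agent.S5612
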