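import Cfsg.Statements.S5616
import Cfsg.Agent.Helper3.Fam.Sext
import Cfsg.Agent.Helper3.Fam.D5616
import Cfsg.Agent.Helper3.Fam.Orbits

set_option autoImplicit false
open scoped Pointwise
open Cfsg

namespace Cfsg.Agent.S5616

open Cfsg.Agent.Helper3

theorem cnt_smul (g : Equiv.Perm GolayPt) (S : Finset (Finset GolayPt)) (Y : Finset GolayPt) :
    ((g • S).filter fun t => (t ∩ g • Y).Nonempty).card =
      (S.filter fun t => (t ∩ Y).Nonempty).card := by
  have e : g • S = S.image (fun t => g • t) := rfl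
  rw [e, Finset.filter_image, Finset.card_image_of_injective _ (MulAction.injective g)]
  refine congrArg Finset.card (Finset.filter_congr ?_)
  intro t _
  rw [← Finset.smul_finset_inter, Finset.smul_finset_nonempty]

theorem triad_frame (Y : Finset GolayPt) (hY : Y.card = 3) : ∃ c ∈ M24, c • gSupp 7 = Y := by
  have hc3 : (gSupp 7).card = 3 := by
    rw [gSupp_card]
    decide +kernel
  obtain ⟨g, hg, h⟩ := M24_trans_list (gSupp 7).toList Y.toList (Finset.nodup_toList _)
    (Finset.nodup_toList _) (by rw [Finset.length_toList, Finset.length_toList, hc3, hY])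
    (by rw [Finset.length_toList, hc3]; norm_num)
  exact ⟨g, hg, smul_of_map_toList h⟩

theorem class_eq_orbit {G β : Type*} [Group G] [MulAction G β] (Ω : Set β) (f : β → ℕ)
    (hf : ∀ (g : G) (x : β), f (g • x) = f x) (x₁ x₂ x₃ : β)
    (hun : Ω = MulAction.orbit G x₁ ∪ MulAction.orbit G x₂ ∪ MulAction.orbit G x₃)
    (k₁ k₂ k₃ : ℕ) (h1 : f x₁ = k₁) (h2 : f x₂ = k₂) (h3 : f x₃ = k₃) (d12 : k₁ ≠ k₂)
    (d13 : k₁ ≠ k₃) (d23 : k₂ ≠ k₃) :
    {x | x ∈ Ω ∧ f x = k₁} = MulAction.orbit G x₁ ∧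
    {x | x ∈ Ω ∧ f x = k₂} = MulAction.orbit G x₂ ∧
    {x | x ∈ Ω ∧ f x = k₃} = MulAction.orbit G x₃ := by
  have v1 : ∀ x ∈ MulAction.orbit G x₁, f x = k₁ := by
    rintro _ ⟨g, rfl⟩
    exact (hf g x₁).trans h1
  have v2 : ∀ x ∈ MulAction.orbit G x₂, f x = k₂ := by
    rintro _ ⟨g, rfl⟩
    exact (hf g x₂).trans h2
  have v3 : ∀ x ∈ MulAction.orbit G x₃, f x = k₃ := by
    rintro _ ⟨g, rfl⟩
    exact (hf g x₃).trans h3
  have hc : ∀ x ∈ Ω, x ∈ MulAction.orbit G x₁ ∨ x ∈ MulAction.orbit G x₂ ∨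
      x ∈ MulAction.orbit G x₃ := by
    intro x hx
    rw [hun] at hx
    rcases hx with (hx | hx) | hx
    · exact Or.inl hx
    · exact Or.inr (Or.inl hx)
    · exact Or.inr (Or.inr hx)
  have s1 : MulAction.orbit G x₁ ⊆ Ω := by
    rw [hun]
    exact fun x hx => Or.inl (Or.inl hx)
  have s2 : MulAction.orbit G x₂ ⊆ Ω := by
    rw [hun]
    exact fun x hx => Or.inl (Or.inr hx)
  have s3 : MulAction.orbit G x₃ ⊆ Ω := by
    rw [hun]
    exact fun x hx => Or.inr hx
  refine ⟨?_, ?_, ?_⟩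
  · ext x
    constructor
    · rintro ⟨hx, hk⟩
      rcases hc x hx with h | h | h
      · exact h
      · exact absurd ((v2 x h).symm.trans hk).symm d12
      · exact absurd ((v3 x h).symm.trans hk).symm d13
    · intro hx
      exact ⟨s1 hx, v1 x hx⟩
  · ext x
    constructor
    · rintro ⟨hx, hk⟩
      rcases hc x hx with h | h | h
      · exact absurd ((v1 x h).symm.trans hk) d12
      · exact h
      · exact absurd ((v3 x h).symm.trans hk).symm d23
    · intro hx
      exact ⟨s2 hx, v2 x hx⟩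
  · ext x
    constructor
    · rintro ⟨hx, hk⟩
      rcases hc x hx with h | h | h
      · exact absurd ((v1 x h).symm.trans hk) d13
      · exact absurd ((v2 x h).symm.trans hk) d23
      · exact h
    · intro hx
      exact ⟨s3 hx, v3 x hx⟩

theorem class_conj {G β : Type*} [Group G] [MulAction G β] (Ω : Set β) (f : β → ℕ)
    (x₁ x₂ x₃ : β)
    (hun : Ω = MulAction.orbit G x₁ ∪ MulAction.orbit G x₂ ∪ MulAction.orbit G x₃)
    (k₁ k₂ k₃ : ℕ) (e1 : {x | x ∈ Ω ∧ f x = k₁} = MulAction.orbit G x₁)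
    (e2 : {x | x ∈ Ω ∧ f x = k₂} = MulAction.orbit G x₂)
    (e3 : {x | x ∈ Ω ∧ f x = k₃} = MulAction.orbit G x₃)
    (x y : β) (hx : x ∈ Ω) (hy : y ∈ Ω) (hxy : f x = f y) : ∃ g : G, g • x = y := by
  have aux : ∀ (k : ℕ) (z : β), {x | x ∈ Ω ∧ f x = k} = MulAction.orbit G z →
      x ∈ MulAction.orbit G z → ∃ g : G, g • x = y := by
    intro k z e hxz
    have h1 : x ∈ {x | x ∈ Ω ∧ f x = k} := by
      rw [e]
      exact hxz
    have h2 : y ∈ {x | x ∈ Ω ∧ f x = k} := ⟨hy, hxy.symm.trans h1.2⟩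
    rw [e] at h2
    rw [← MulAction.orbit_eq_iff.2 hxz] at h2
    exact h2
  rw [hun] at hx
  rcases hx with (hx | hx) | hx
  · exact aux k₁ x₁ e1 hx
  · exact aux k₂ x₂ e2 hx
  · exact aux k₃ x₃ e3 hx

/-- Let Y be a set of 3 of the 24 points. The sextets of the length-24 code whose tetrads meeting Y number 1, 2 or 3 are respectively 21, 630 and 1120 in number, and two sextets with the same number of tetrads meeting Y are conjugate under the setwise stabiliser of Y in the code's group. -/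
theorem result (Y : Finset Cfsg.GolayPt) (hY : Y.card = 3) : {S : Finset (Finset Cfsg.GolayPt) | S ∈ Cfsg.sextets ∧ (S.filter fun t => (t ∩ Y).Nonempty).card = 1}.ncard = 21 ∧ {S : Finset (Finset Cfsg.GolayPt) | S ∈ Cfsg.sextets ∧ (S.filter fun t => (t ∩ Y).Nonempty).card = 2}.ncard = 630 ∧ {S : Finset (Finset Cfsg.GolayPt) | S ∈ Cfsg.sextets ∧ (S.filter fun t => (t ∩ Y).Nonempty).card = 3}.ncard = 1120 ∧ ∀ S S' : Finset (Finset Cfsg.GolayPt), S ∈ Cfsg.sextets → S' ∈ Cfsg.sextets → (S.filter fun t => (t ∩ Y).Nonempty).card = (S'.filter fun t => (t ∩ Y).Nonempty).card → ∃ g ∈ Cfsg.M24, g • Y = Y ∧ g • S = S' := by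
  obtain ⟨c, hc, rfl⟩ := triad_frame Y hY
  have hA : ∀ g ∈ M24, g • (c • gSupp 7) = c • gSupp 7 ↔ c⁻¹ * g * c ∈ fSub [q16AX] 0 :=
    fun g hg => stab_bridge_set 7 c hc g hg
  have key : ∀ x : Finset (Finset GolayPt),
      (MulAction.orbit ↥(MulAction.stabilizer M24 (c • gSupp 7)) (c • x)).ncard =
        (fOrb [q16AX] x).ncard :=
    fun x => orbit_transport_ncard (c • gSupp 7) [q16AX] c hc hA x
  have hS : ∀ (g : ↥(MulAction.stabilizer M24 (c • gSupp 7))) (y : Finset (Finset GolayPt)),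
      y ∈ sextets → g • y ∈ sextets := fun g y hy => smul_mem_sextets g.1.2 hy
  have m1 : c • gFam q161X ∈ sextets := smul_mem_sextets hc (sextOK_mem (by decide +kernel))
  have m2 : c • gFam q162X ∈ sextets := smul_mem_sextets hc (sextOK_mem (by decide +kernel))
  have m3 : c • gFam q163X ∈ sextets := smul_mem_sextets hc (sextOK_mem (by decide +kernel))
  have n1 := (key (gFam q161X)).trans q161_ok.1
  have n2 := (key (gFam q162X)).trans q162_ok.1
  have n3 := (key (gFam q163X)).trans q163_ok.1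
  have hun := orb_union3 sextets _ _ _ 21 630 1120 n1 n2 n3 (orbit_sub _ _ m1 hS)
    (orbit_sub _ _ m2 hS) (orbit_sub _ _ m3 hS) (by norm_num) (by norm_num) (by norm_num)
    (sextets_ncard.trans (by norm_num))
  have hf : ∀ (g : ↥(MulAction.stabilizer M24 (c • gSupp 7))) (S : Finset (Finset GolayPt)),
      ((g • S).filter fun t => (t ∩ c • gSupp 7).Nonempty).card =
        (S.filter fun t => (t ∩ c • gSupp 7).Nonempty).card := by
    intro g S
    have h := cnt_smul ((g : ↥M24) : Equiv.Perm GolayPt) S (c • gSupp 7)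
    have hg : ((g : ↥M24) : Equiv.Perm GolayPt) • (c • gSupp 7) = c • gSupp 7 := g.2
    rw [hg] at h
    exact h
  have c1 : ((c • gFam q161X).filter fun t => (t ∩ c • gSupp 7).Nonempty).card = 1 :=
    (cnt_smul c (gFam q161X) (gSupp 7)).trans (by decide +kernel)
  have c2 : ((c • gFam q162X).filter fun t => (t ∩ c • gSupp 7).Nonempty).card = 2 :=
    (cnt_smul c (gFam q162X) (gSupp 7)).trans (by decide +kernel)
  have c3 : ((c • gFam q163X).filter fun t => (t ∩ c • gSupp 7).Nonempty).card = 3 :=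
    (cnt_smul c (gFam q163X) (gSupp 7)).trans (by decide +kernel)
  obtain ⟨e1, e2, e3⟩ := class_eq_orbit (G := ↥(MulAction.stabilizer M24 (c • gSupp 7))) sextets
    (fun S : Finset (Finset GolayPt) => (S.filter fun t => (t ∩ c • gSupp 7).Nonempty).card)
    hf _ _ _ hun 1 2 3 c1 c2 c3 (by norm_num) (by norm_num) (by norm_num)
  refine ⟨?_, ?_, ?_, ?_⟩
  · exact (congrArg Set.ncard e1).trans n1
  · exact (congrArg Set.ncard e2).trans n2
  · exact (congrArg Set.ncard e3).trans n3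
  · intro S S' hS1 hS2 hcnt
    obtain ⟨g, hg⟩ := class_conj (G := ↥(MulAction.stabilizer M24 (c • gSupp 7))) sextets
      (fun S : Finset (Finset GolayPt) => (S.filter fun t => (t ∩ c • gSupp 7).Nonempty).card)
      _ _ _ hun 1 2 3 e1 e2 e3 S S' hS1 hS2 hcnt
    exact ⟨((g : ↥M24) : Equiv.Perm GolayPt), (g : ↥M24).2, g.2, hg⟩

end Cfsg.Agent.S5616
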