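import Cfsg.Statements.S5617
import Cfsg.Agent.Helper3.Fam.Sext
import Cfsg.Agent.Helper3.Fam.D5617
import Cfsg.Agent.Helper3.Fam.Orbits
import Cfsg.Agent.Helper3.Golay.DodPairs

set_option autoImplicit false
open scoped Pointwise
open Cfsg

namespace Cfsg.Agent.S5617

open Cfsg.Agent.Helper3

theorem gSupp_compl_of {a b : ℕ}
    (h : gAllLt 24 (fun i => a.testBit i != b.testBit i) = true) :
    gSupp b = (gSupp a)ᶜ := by
  ext p
  rw [Finset.mem_compl, mem_gSupp, mem_gSupp]
  have h2 : (a.testBit (gIdx p) != b.testBit (gIdx p)) = true :=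
    (gAllLt_iff 24 _).1 h (gIdx p) (gIdx_lt p)
  revert h2
  cases a.testBit (gIdx p) <;> cases b.testBit (gIdx p) <;> simp

/-- The setwise stabiliser, in the group of the length-24 code, of a complementary pair of dodecads has exactly three orbits on the 1771 sextets, of sizes 396, 495 and 880. -/
theorem result (d : Finset Cfsg.GolayPt) (hd : d ∈ Cfsg.dodecads) : ∃ X₁ ∈ Cfsg.sextets, ∃ X₂ ∈ Cfsg.sextets, ∃ X₃ ∈ Cfsg.sextets, (MulAction.orbit ↥(MulAction.stabilizer Cfsg.M24 ({d, Finset.univ \ d} : Finset (Finset Cfsg.GolayPt))) X₁).ncard = 396 ∧ (MulAction.orbit ↥(MulAction.stabilizer Cfsg.M24 ({d, Finset.univ \ d} : Finset (Finset Cfsg.GolayPt))) X₂).ncard = 495 ∧ (MulAction.orbit ↥(MulAction.stabilizer Cfsg.M24 ({d, Finset.univ \ d} : Finset (Finset Cfsg.GolayPt))) X₃).ncard = 880 ∧ Cfsg.sextets = MulAction.orbit ↥(MulAction.stabilizer Cfsg.M24 ({d, Finset.univ \ d} : Finset (Finset Cfsg.GolayPt))) X₁ ∪ MulAction.orbit ↥(MulAction.stabilizer Cfsg.M24 ({d,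 Finset.univ \ d} : Finset (Finset Cfsg.GolayPt))) X₂ ∪ MulAction.orbit ↥(MulAction.stabilizer Cfsg.M24 ({d, Finset.univ \ d} : Finset (Finset Cfsg.GolayPt))) X₃ := by
  obtain ⟨c, hc, rfl⟩ := M24_dodecad_trans0 d hd
  have e1 : gSupp 16436384 = (gSupp 340831)ᶜ := gSupp_compl_of (by decide +kernel)
  have e0 : gFam q17AX = dPair gD0 := by
    have e2 : gFam q17AX = {gSupp 340831, gSupp 16436384} := by simp [gFam, q17AX]
    rw [e2, e1]
    rfl
  have eA : ({c • gD0, Finset.univ \ (c • gD0)} : Finset (Finset GolayPt)) =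
      c • gFam q17AX := by
    rw [e0, smul_dPair]
    unfold dPair
    rw [Finset.compl_eq_univ_sdiff]
  rw [eA]
  have hA : ∀ g ∈ M24, g • (c • gFam q17AX) = c • gFam q17AX ↔
      c⁻¹ * g * c ∈ fSub [q17AX] 0 :=
    fun g hg => stab_bridge_fam q17AX c hc g hg
  have key : ∀ x : Finset (Finset GolayPt),
      (MulAction.orbit ↥(MulAction.stabilizer M24 (c • gFam q17AX)) (c • x)).ncard =
        (fOrb [q17AX] x).ncard :=
    fun x => orbit_transport_ncard (c • gFam q17AX) [q17AX] c hc hA x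
  have hS : ∀ (g : ↥(MulAction.stabilizer M24 (c • gFam q17AX)))
      (y : Finset (Finset GolayPt)), y ∈ sextets → g • y ∈ sextets :=
    fun g y hy => smul_mem_sextets g.1.2 hy
  have m1 : c • gFam q171X ∈ sextets := smul_mem_sextets hc (sextOK_mem (by decide +kernel))
  have m2 : c • gFam q172X ∈ sextets := smul_mem_sextets hc (sextOK_mem (by decide +kernel))
  have m3 : c • gFam q173X ∈ sextets := smul_mem_sextets hc (sextOK_mem (by decide +kernel))
  have n1 := (key (gFam q171X)).trans q171_ok.1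
  have n2 := (key (gFam q172X)).trans q172_ok.1
  have n3 := (key (gFam q173X)).trans q173_ok.1
  exact ⟨_, m1, _, m2, _, m3, n1, n2, n3,
      orb_union3 sextets _ _ _ 396 495 880 n1 n2 n3 (orbit_sub _ _ m1 hS) (orbit_sub _ _ m2 hS)
        (orbit_sub _ _ m3 hS) (by norm_num) (by norm_num) (by norm_num)
        (sextets_ncard.trans (by norm_num))⟩

end Cfsg.Agent.S5617
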