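import Cfsg.Statements.S5619
import Cfsg.Agent.Helper3.Fam.M9

set_option autoImplicit false
open scoped Pointwise
open Cfsg

namespace Cfsg.Agent.S5619

open Cfsg.Agent.Helper3

/-- In the group of the length-24 code, the subgroup fixing a dodecad setwise and three of its points individually (a group of order 72) has a normal Sylow 3-subgroup that is elementary abelian of order 9, and its Sylow 2-subgroups are quaternion of order 8. -/
theorem result (d : Finset Cfsg.GolayPt) (hd : d ∈ Cfsg.dodecads) (p q r : Cfsg.GolayPt) (hp : p ∈ d) (hq : q ∈ d) (hr : r ∈ d) (hpq : p ≠ q) (hpr : p ≠ r) (hqr : q ≠ r) : (∀ Q : Sylow 3 ↥(MulAction.stabilizer Cfsg.M24 d ⊓ MulAction.stabilizer Cfsg.M24 p ⊓ MulAction.stabilizer Cfsg.M24 q ⊓ MulAction.stabilizer Cfsg.M24 r), (Q : Subgroup ↥(MulAction.stabilizer Cfsg.M24 d ⊓ MulAction.stabilizer Cfsg.M24 p ⊓ MulAction.stabilizer Cfsg.M24 q ⊓ MulAction.stabilizer Cfsg.M24 r)).Normal ∧ Nat.card ↥Q = 9 ∧ ∀ x ∈ (Q : Subgroup ↥(MulAction.stabilizer Cfsg.M24 d ⊓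 MulAction.stabilizer Cfsg.M24 p ⊓ MulAction.stabilizer Cfsg.M24 q ⊓ MulAction.stabilizer Cfsg.M24 r)), x ^ 3 = 1) ∧ ∀ P : Sylow 2 ↥(MulAction.stabilizer Cfsg.M24 d ⊓ MulAction.stabilizer Cfsg.M24 p ⊓ MulAction.stabilizer Cfsg.M24 q ⊓ MulAction.stabilizer Cfsg.M24 r), Nonempty (↥P ≃* QuaternionGroup 2) := by
  obtain ⟨c, hc, hcd, hcx⟩ := exists_frame d hd 3 (by norm_num) (fun i => [p, q, r].getD i p)
    (by
      intro i hi
      interval_cases i
      · exact hp
      · exact hq
      · exact hr)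
    (by
      intro i hi j hj h
      interval_cases i <;> interval_cases j <;>
        first
        | rfl
        | exact absurd h hpq
        | exact absurd h.symm hpq
        | exact absurd h hpr
        | exact absurd h.symm hpr
        | exact absurd h hqr
        | exact absurd h.symm hqr)
  have h0 : c (gPt 0) = p := hcx 0 (by norm_num)
  have h1 : c (gPt 1) = q := hcx 1 (by norm_num)
  have h2 : c (gPt 2) = r := hcx 2 (by norm_num)
  subst hcd h0 h1 h2
  exact m9_structure c hc

end Cfsg.Agent.S5619
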