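import Cfsg.Statements.S5625
-- import your own Cfsg.Agent.* helpers here

set_option autoImplicit false
open Cfsg

namespace Cfsg.Agent.S5625

section
variable {α : Type*} [DecidableEq α]

theorem card_supersets (b T : Finset α) (k : ℕ) (hT : T ⊆ b) (hk : T.card ≤ k) :
    ((b.powersetCard k).filter (fun s => T ⊆ s)).card = (b.card - T.card).choose (k - T.card) := by
  rw [← Finset.card_sdiff_of_subset hT, ← Finset.card_powersetCard]
  have hdisj : ∀ u ∈ (b \ T).powersetCard (k - T.card), Disjoint u T := by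
    intro u hu
    rw [Finset.mem_powersetCard] at hu
    rw [Finset.disjoint_left]
    intro x hx hxT
    exact (Finset.mem_sdiff.1 (hu.1 hx)).2 hxT
  apply Finset.card_bij' (fun s _ => s \ T) (fun u _ => u ∪ T)
  · intro s hs
    simp only [Finset.mem_filter, Finset.mem_powersetCard] at hs
    rw [Finset.mem_powersetCard]
    refine ⟨Finset.sdiff_subset_sdiff hs.1.1 (le_refl T), ?_⟩
    rw [Finset.card_sdiff_of_subset hs.2, hs.1.2]
  · intro u hu
    have hd := hdisj u hu
    rw [Finset.mem_powersetCard] at hu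
    simp only [Finset.mem_filter, Finset.mem_powersetCard]
    refine ⟨⟨?_, ?_⟩, Finset.subset_union_right⟩
    · exact Finset.union_subset (fun x hx => (Finset.mem_sdiff.1 (hu.1 hx)).1) hT
    · rw [Finset.card_union_of_disjoint hd, hu.2]
      omega
  · intro s hs
    simp only [Finset.mem_filter, Finset.mem_powersetCard] at hs
    exact Finset.sdiff_union_of_subset hs.2
  · intro u hu
    exact Finset.union_sdiff_cancel_right (hdisj u hu)

/-- number of blocks through an `i`-set, `i ≤ 5` -/
theorem lam [Fintype α] (hα : Fintype.card α = 24) (Bf : Finset (Finset α))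
    (h8 : ∀ b ∈ Bf, b.card = 8)
    (hun : ∀ s : Finset α, s.card = 5 → ∃! b, b ∈ Bf ∧ s ⊆ b)
    (T : Finset α) (hT : T.card ≤ 5) :
    (Bf.filter (fun b => T ⊆ b)).card * (8 - T.card).choose (5 - T.card)
      = (24 - T.card).choose (5 - T.card) := by
  have h1 := Finset.sum_card_bipartiteAbove_eq_sum_card_bipartiteBelow
    (fun (s : Finset α) (b : Finset α) => s ⊆ b)
    (s := ((Finset.univ : Finset α).powersetCard 5).filter (fun s => T ⊆ s))
    (t := Bf.filter (fun b => T ⊆ b))
  have h2 : ∀ s ∈ ((Finset.univ : Finset α).powersetCard 5).filter (fun s => T ⊆ s),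
      (Finset.bipartiteAbove (fun (s : Finset α) (b : Finset α) => s ⊆ b)
        (Bf.filter (fun b => T ⊆ b)) s).card = 1 := by
    intro s hs
    simp only [Finset.mem_filter, Finset.mem_powersetCard] at hs
    obtain ⟨b, ⟨hb1, hb2⟩, hbu⟩ := hun s hs.1.2
    rw [Finset.card_eq_one]
    refine ⟨b, ?_⟩
    ext c
    simp only [Finset.bipartiteAbove, Finset.mem_filter, Finset.mem_singleton]
    constructor
    · rintro ⟨⟨hc1, hc2⟩, hc3⟩
      exact hbu c ⟨hc1, hc3⟩
    · rintro rfl
      exact ⟨⟨hb1, hs.2.trans hb2⟩, hb2⟩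
  have h3 : ∀ b ∈ Bf.filter (fun b => T ⊆ b),
      (Finset.bipartiteBelow (fun (s : Finset α) (b : Finset α) => s ⊆ b)
        (((Finset.univ : Finset α).powersetCard 5).filter (fun s => T ⊆ s)) b).card
        = (8 - T.card).choose (5 - T.card) := by
    intro b hb
    rw [Finset.mem_filter] at hb
    rw [← h8 b hb.1, ← card_supersets b T 5 hb.2 hT]
    congr 1
    ext s
    simp only [Finset.bipartiteBelow, Finset.mem_filter, Finset.mem_powersetCard]
    constructor
    · rintro ⟨⟨⟨_, h5⟩, hTs⟩, hsb⟩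
      exact ⟨⟨hsb, h5⟩, hTs⟩
    · rintro ⟨⟨hsb, h5⟩, hTs⟩
      exact ⟨⟨⟨Finset.subset_univ _, h5⟩, hTs⟩, hsb⟩
  rw [Finset.sum_congr rfl h2, Finset.sum_congr rfl h3] at h1
  simp only [Finset.sum_const, smul_eq_mul, mul_one] at h1
  rw [← h1, card_supersets _ T 5 (Finset.subset_univ _) hT, Finset.card_univ, hα]

theorem main (α : Type*) [Fintype α] [DecidableEq α] (hα : Fintype.card α = 24) (B : Set (Finset α)) (hB : Cfsg.IsSteinerSystem 5 8 B) (Y : Finset α) (hY : Y.card = 3) : {b : Finset α | b ∈ B ∧ (b ∩ Y).card = 3}.ncard = 21 ∧ {b : Finset α | b ∈ B ∧ (b ∩ Y).card = 2}.ncard = 168 ∧ {b : Finset α | b ∈ B ∧ (b ∩ Y).card = 1}.ncard = 360 ∧ {b : Finset α | b ∈ B ∧ (b ∩ Y).card = 0}.ncard = 210 := by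
  classical
  set Bf : Finset (Finset α) := Finset.univ.filter (fun b => b ∈ B) with hBf
  have hmem : ∀ b, b ∈ Bf ↔ b ∈ B := by
    intro b
    simp [hBf]
  have h8 : ∀ b ∈ Bf, b.card = 8 := fun b hb => hB.1 b ((hmem b).1 hb)
  have hun : ∀ s : Finset α, s.card = 5 → ∃! b, b ∈ Bf ∧ s ⊆ b := by
    intro s hs
    obtain ⟨b, hb, hbu⟩ := hB.2 s hs
    exact ⟨b, ⟨(hmem b).2 hb.1, hb.2⟩, fun c hc => hbu c ⟨(hmem c).1 hc.1, hc.2⟩⟩
  set n : ℕ → ℕ := fun j => (Bf.filter (fun b => (b ∩ Y).card = j)).card with hn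
  have hset : ∀ j, {b : Finset α | b ∈ B ∧ (b ∩ Y).card = j}.ncard = n j := by
    intro j
    show _ = (Bf.filter (fun b => (b ∩ Y).card = j)).card
    rw [← Set.ncard_coe_finset]
    congr 1
    ext b
    simp [hmem]
  have hid : ∀ i, ∑ T ∈ Y.powersetCard i, (Bf.filter (fun b => T ⊆ b)).card
      = ∑ j ∈ Finset.range 4, n j * j.choose i := by
    intro i
    have h1 := Finset.sum_card_bipartiteAbove_eq_sum_card_bipartiteBelow
      (fun (T : Finset α) (b : Finset α) => T ⊆ b) (s := Y.powersetCard i) (t := Bf)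
    have h3 : ∀ b ∈ Bf, (Finset.bipartiteBelow (fun (T : Finset α) (b : Finset α) => T ⊆ b)
        (Y.powersetCard i) b).card = ((b ∩ Y).card).choose i := by
      intro b hb
      rw [← Finset.card_powersetCard]
      congr 1
      ext T
      simp only [Finset.bipartiteBelow, Finset.mem_filter, Finset.mem_powersetCard,
        Finset.subset_inter_iff]
      tauto
    rw [Finset.sum_congr rfl h3] at h1
    have h4 : ∑ T ∈ Y.powersetCard i, (Bf.filter (fun b => T ⊆ b)).card
        = ∑ b ∈ Bf, ((b ∩ Y).card).choose i := h1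
    rw [h4]
    have hmaps : ∀ b ∈ Bf, (b ∩ Y).card ∈ Finset.range 4 := by
      intro b hb
      rw [Finset.mem_range]
      have : (b ∩ Y).card ≤ Y.card := Finset.card_le_card Finset.inter_subset_right
      omega
    rw [← Finset.sum_fiberwise_of_maps_to hmaps]
    apply Finset.sum_congr rfl
    intro j hj
    have h5 : ∀ b ∈ Bf.filter (fun b => (b ∩ Y).card = j), ((b ∩ Y).card).choose i = j.choose i := by
      intro b hb
      rw [(Finset.mem_filter.1 hb).2]
    rw [Finset.sum_congr rfl h5, Finset.sum_const, smul_eq_mul]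
  have hlam := lam hα Bf h8 hun
  have c1 : Nat.choose 24 5 = 42504 := by decide
  have c2 : Nat.choose 23 4 = 8855 := by decide
  have c3 : Nat.choose 22 3 = 1540 := by decide
  have c4 : Nat.choose 21 2 = 210 := by decide
  have c5 : Nat.choose 8 5 = 56 := by decide
  have c6 : Nat.choose 7 4 = 35 := by decide
  have c7 : Nat.choose 6 3 = 20 := by decide
  have c8 : Nat.choose 5 2 = 10 := by decide
  have L0 : ∀ T ∈ Y.powersetCard 0, (Bf.filter (fun b => T ⊆ b)).card = 759 := by
    intro T hT
    have hc := (Finset.mem_powersetCard.1 hT).2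
    have h := hlam T (by omega)
    rw [hc] at h
    simp only [Nat.sub_zero, c1, c5] at h
    omega
  have L1 : ∀ T ∈ Y.powersetCard 1, (Bf.filter (fun b => T ⊆ b)).card = 253 := by
    intro T hT
    have hc := (Finset.mem_powersetCard.1 hT).2
    have h := hlam T (by omega)
    rw [hc] at h
    norm_num [c2, c6] at h
    omega
  have L2 : ∀ T ∈ Y.powersetCard 2, (Bf.filter (fun b => T ⊆ b)).card = 77 := by
    intro T hT
    have hc := (Finset.mem_powersetCard.1 hT).2
    have h := hlam T (by omega)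
    rw [hc] at h
    norm_num [c3, c7] at h
    omega
  have L3 : ∀ T ∈ Y.powersetCard 3, (Bf.filter (fun b => T ⊆ b)).card = 21 := by
    intro T hT
    have hc := (Finset.mem_powersetCard.1 hT).2
    have h := hlam T (by omega)
    rw [hc] at h
    norm_num [c4, c8] at h
    omega
  have E0 := hid 0
  have E1 := hid 1
  have E2 := hid 2
  have E3 := hid 3
  rw [Finset.sum_congr rfl L0, Finset.sum_const, Finset.card_powersetCard, hY] at E0
  rw [Finset.sum_congr rfl L1, Finset.sum_const, Finset.card_powersetCard, hY] at E1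
  rw [Finset.sum_congr rfl L2, Finset.sum_const, Finset.card_powersetCard, hY] at E2
  rw [Finset.sum_congr rfl L3, Finset.sum_const, Finset.card_powersetCard, hY] at E3
  simp [Finset.sum_range_succ, Nat.choose] at E0 E1 E2 E3
  rw [hset 3, hset 2, hset 1, hset 0]
  omega

end


/-- In any Steiner system S(5, 8, 24) and for any set Y of three points, the blocks meeting Y in exactly 3, 2, 1 and 0 points number 21, 168, 360 and 210 respectively (so there are 759 blocks in all). -/
theorem result (α : Type*) [Fintype α] [DecidableEq α] (hα : Fintype.card α = 24) (B : Set (Finset α)) (hB : Cfsg.IsSteinerSystem 5 8 B) (Y : Finset α) (hY : Y.card = 3) : {b : Finset α | b ∈ B ∧ (b ∩ Y).card = 3}.ncard = 21 ∧ {b : Finset α | b ∈ B ∧ (b ∩ Y).card = 2}.ncard = 168 ∧ {b : Finset α | b ∈ B ∧ (b ∩ Y).card = 1}.ncard = 360 ∧ {b : Finset α | b ∈ B ∧ (b ∩ Y).card = 0}.ncard = 210 := by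
  exact main α hα B hB Y hY

end Cfsg.Agent.S5625
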