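import Cfsg.Statements.S5632
import Cfsg.Agent.Helper28.Transv

set_option autoImplicit false
open Cfsg

namespace Cfsg.Agent.S5632

/-- For a finite field F and subspaces 0 < W < U of F^n with dim W + dim U = n, the elements of SL_n(F) stabilising both W and U form a subgroup that is not maximal in SL_n(F): some subgroup lies strictly between it and SL_n(F). -/
theorem result {F : Type*} [Field F] [Fintype F] (n : ℕ) (W U : Submodule F (Fin n → F)) (hW0 : W ≠ ⊥) (hWU : W < U) (hdim : Module.finrank F W + Module.finrank F U = n) : ∃ K : Subgroup (Matrix.GeneralLinearGroup (Fin n) F), Cfsg.Geo.subspaceStabilizer W ⊓ Cfsg.Geo.subspaceStabilizer U ⊓ Cfsg.Geo.specialLinear (Fin n) F < K ∧ K < Cfsg.Geo.specialLinear (Fin n) F := by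
  have hU1 : U ≠ ⊤ := by
    rintro rfl
    have h1 : Module.finrank F (⊤ : Submodule F (Fin n → F)) = n := by
      rw [finrank_top, Module.finrank_fin_fun]
    rw [h1] at hdim
    have h2 : Module.finrank F W = 0 := by omega
    exact hW0 (Submodule.finrank_eq_zero.1 h2)
  have hW1 : W ≠ ⊤ := fun h => hU1 (top_le_iff.1 (h ▸ hWU.le))
  obtain ⟨u, huU, huW⟩ := SetLike.exists_of_lt hWU
  obtain ⟨v, hv⟩ : ∃ v : Fin n → F, v ∉ U := by
    by_contra hcon
    push Not at hcon
    exact hU1 (eq_top_iff.2 (fun x _ => hcon x))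
  have hu' : u ∉ W ⊔ Submodule.span F {v} := by
    intro hmem
    obtain ⟨w, hw, z, hz, hwz⟩ := Submodule.mem_sup.1 hmem
    obtain ⟨c, rfl⟩ := Submodule.mem_span_singleton.1 hz
    by_cases hc : c = 0
    · subst hc
      rw [zero_smul, add_zero] at hwz
      exact huW (hwz ▸ hw)
    · apply hv
      have h1 : c • v ∈ U := by
        have : c • v = u - w := by rw [← hwz]; abel
        rw [this]
        exact U.sub_mem huU (hWU.le hw)
      have := U.smul_mem c⁻¹ h1
      rwa [smul_smul, inv_mul_cancel₀ hc, one_smul] at this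
  obtain ⟨g, hg1, hg2, hg3⟩ := Cfsg.Agent.Helper28.exists_stab_not_stab W U u v huU hv hu'
  obtain ⟨h, hh1, hh2⟩ := Cfsg.Agent.Helper28.exists_specialLinear_not_stab W hW0 hW1
  refine ⟨Cfsg.Geo.subspaceStabilizer W ⊓ Cfsg.Geo.specialLinear (Fin n) F, ?_, ?_⟩
  · refine lt_of_le_of_ne (fun x hx => ⟨hx.1.1, hx.2⟩) (fun heq => ?_)
    have : g ∈ Cfsg.Geo.subspaceStabilizer W ⊓ Cfsg.Geo.subspaceStabilizer U ⊓ Cfsg.Geo.specialLinear (Fin n) F := by
      rw [heq]; exact ⟨hg2, hg1⟩
    exact hg3 this.1.2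
  · refine lt_of_le_of_ne inf_le_right (fun heq => ?_)
    have : h ∈ Cfsg.Geo.subspaceStabilizer W ⊓ Cfsg.Geo.specialLinear (Fin n) F := by
      rw [heq]; exact hh1
    exact hh2 this.1

end Cfsg.Agent.S5632
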