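import Cfsg.Statements.S5633
import Cfsg.Agent.Helper28.Transv

set_option autoImplicit false
open Cfsg

namespace Cfsg.Agent.S5633

/-- For a finite field F and complementary non-zero subspaces W ⊕ U = F^n with dim W < dim U, the elements of SL_n(F) stabilising both W and U form a subgroup that is not maximal in SL_n(F): some subgroup lies strictly between it and SL_n(F). -/
theorem result {F : Type*} [Field F] [Fintype F] (n : ℕ) (W U : Submodule F (Fin n → F)) (hW0 : W ≠ ⊥) (hWU : W ⊓ U = ⊥) (hWU' : W ⊔ U = ⊤) (hdim : Module.finrank F W < Module.finrank F U) : ∃ K : Subgroup (Matrix.GeneralLinearGroup (Fin n) F), Cfsg.Geo.subspaceStabilizer W ⊓ Cfsg.Geo.subspaceStabilizer U ⊓ Cfsg.Geo.specialLinear (Fin n) F < K ∧ K < Cfsg.Geo.specialLinear (Fin n) F := by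
  have hU0 : U ≠ ⊥ := by
    rintro rfl
    rw [finrank_bot] at hdim
    omega
  have hW1 : W ≠ ⊤ := by
    rintro rfl
    rw [top_inf_eq] at hWU
    exact hU0 hWU
  obtain ⟨u, huU, hu0⟩ := (Submodule.ne_bot_iff U).1 hU0
  obtain ⟨w, hwW, hw0⟩ := (Submodule.ne_bot_iff W).1 hW0
  have hdisj : ∀ x : Fin n → F, x ∈ W → x ∈ U → x = 0 := by
    intro x hxW hxU
    have : x ∈ W ⊓ U := ⟨hxW, hxU⟩
    rw [hWU] at this
    exact (Submodule.mem_bot F).1 this
  have hwU : w ∉ U := fun h => hw0 (hdisj w hwW h)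
  have hu' : u ∉ W ⊔ Submodule.span F {w} := by
    have : W ⊔ Submodule.span F {w} = W := by
      rw [sup_eq_left, Submodule.span_singleton_le_iff_mem]
      exact hwW
    rw [this]
    exact fun h => hu0 (hdisj u h huU)
  obtain ⟨g, hg1, hg2, hg3⟩ := Cfsg.Agent.Helper28.exists_stab_not_stab W U u w huU hwU hu'
  obtain ⟨h, hh1, hh2⟩ := Cfsg.Agent.Helper28.exists_specialLinear_not_stab W hW0 hW1
  refine ⟨Cfsg.Geo.subspaceStabilizer W ⊓ Cfsg.Geo.specialLinear (Fin n) F, ?_, ?_⟩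
  · refine lt_of_le_of_ne (fun x hx => ⟨hx.1.1, hx.2⟩) (fun heq => ?_)
    have : g ∈ Cfsg.Geo.subspaceStabilizer W ⊓ Cfsg.Geo.subspaceStabilizer U ⊓ Cfsg.Geo.specialLinear (Fin n) F := by
      rw [heq]; exact ⟨hg2, hg1⟩
    exact hg3 this.1.2
  · refine lt_of_le_of_ne inf_le_right (fun heq => ?_)
    have : h ∈ Cfsg.Geo.subspaceStabilizer W ⊓ Cfsg.Geo.specialLinear (Fin n) F := by
      rw [heq]; exact hh1
    exact hh2 this.1

end Cfsg.Agent.S5633
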