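import Cfsg.Statements.S5676
-- import your own Cfsg.Agent.* helpers here
import Mathlib
import Cfsg.Agent.Helper5.PlanePlus
import Cfsg.Agent.S0286

set_option autoImplicit false
open Cfsg

namespace Cfsg.Agent.S5676

/-- Let F be the field with 3 elements, m ≥ 6, Q the standard quadratic form on F^(2m+1) and Ω the commutator subgroup of its isometry group. Let W be a 2-dimensional subspace on which the polar form is non-degenerate and which contains a line on which Q vanishes. Then the elements of Ω stabilising W form a subgroup that is not maximal: some subgroup lies strictly between it and Ω. -/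
theorem result {F : Type*} [Field F] [Fintype F] (hq : Fintype.card F = 3) (m : ℕ) (hm : 6 ≤ m) (W : Submodule F (Unit ⊕ (Fin m ⊕ Fin m) → F)) (hdim : Module.finrank F W = 2) (hW : Cfsg.Geo.IsNondegenerateOn (QuadraticMap.polar (Cfsg.quadFormOdd m F)) W) (hplus : Cfsg.Geo.IsPlusTypeOn (Cfsg.quadFormOdd m F) W) : ∃ K : Subgroup (Matrix.GeneralLinearGroup (Unit ⊕ (Fin m ⊕ Fin m)) F), Cfsg.Geo.subspaceStabilizer W ⊓ Cfsg.Geo.omegaGL (Cfsg.quadFormOdd m F) < K ∧ K < Cfsg.Geo.omegaGL (Cfsg.quadFormOdd m F) := by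
  classical
  have hodd : Odd (Fintype.card F) := by rw [hq]; decide
  have h2 : (2 : F) ≠ 0 := Cfsg.Agent.Helper5.two_ne_zero_of_odd hodd
  obtain ⟨𝒬, h𝒬, hnd⟩ := Cfsg.Agent.S0286.odd_model F h2 m
  have hQeq : Cfsg.quadFormOdd m F = ⇑𝒬 := funext (fun v => (h𝒬 v).symm)
  rw [hQeq] at hW hplus ⊢
  have h' : Fintype.card F ≠ 2 ∨ Fintype.card (Unit ⊕ (Fin m ⊕ Fin m)) ≠ 4 :=
    Or.inl (by rw [hq]; decide)
  obtain ⟨U, hUW, hUts, hUdim⟩ := hplus
  have hU1 : Module.finrank F U = 1 := by omega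
  have hUbot : U ≠ ⊥ := by
    intro h0
    rw [h0, finrank_bot] at hU1
    exact zero_ne_one hU1
  obtain ⟨e, heU, he0⟩ := Submodule.exists_mem_ne_zero_of_ne_bot hUbot
  have heW : e ∈ W := hUW heU
  have he : 𝒬 e = 0 := hUts e heU
  obtain ⟨-, x, hxW, hβ⟩ := hW e heW he0
  obtain ⟨β, hβdef⟩ : ∃ β, β = QuadraticMap.polar (⇑𝒬) e x := ⟨_, rfl⟩
  rw [← hβdef] at hβ
  obtain ⟨f, hfdef⟩ : ∃ f, f = β⁻¹ • (x - (𝒬 x * β⁻¹) • e) := ⟨_, rfl⟩
  have hfW : f ∈ W := by
    rw [hfdef]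
    exact W.smul_mem _ (W.sub_mem hxW (W.smul_mem _ heW))
  have hee : QuadraticMap.polar (⇑𝒬) e e = 0 := by
    rw [Cfsg.Agent.Helper5.kit_polar_self, he, mul_zero]
  have hef : QuadraticMap.polar (⇑𝒬) e f = 1 := by
    rw [hfdef, QuadraticMap.polar_smul_right, QuadraticMap.polar_sub_right,
      QuadraticMap.polar_smul_right, hee, ← hβdef]
    simp only [smul_eq_mul, mul_zero, sub_zero]
    exact inv_mul_cancel₀ hβ
  have key : ∀ c : F, c * β = 𝒬 x → 𝒬 (x - c • e) = 0 := by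
    intro c hc
    rw [Cfsg.Agent.Helper5.kit_sub, QuadraticMap.map_smul, QuadraticMap.polar_smul_right, he,
      QuadraticMap.polar_comm (⇑𝒬) x e, ← hβdef]
    simp only [smul_eq_mul, mul_zero, add_zero]
    rw [hc, sub_self]
  have hf : 𝒬 f = 0 := by
    rw [hfdef, QuadraticMap.map_smul,
      key _ (by rw [mul_assoc, inv_mul_cancel₀ hβ, mul_one]), smul_zero]
  have hff : QuadraticMap.polar (⇑𝒬) f f = 0 := by
    rw [Cfsg.Agent.Helper5.kit_polar_self, hf, mul_zero]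
  have hfe : QuadraticMap.polar (⇑𝒬) f e = 1 := by
    rw [QuadraticMap.polar_comm]
    exact hef
  have hind : LinearIndependent F ![e, f] :=
    Cfsg.Agent.Helper5.indep_of_dual 𝒬 e f f e (by rw [hef]; exact one_ne_zero) hff
      (by rw [hfe]; exact one_ne_zero)
  have hspan : Submodule.span F (Set.range ![e, f]) = W := by
    apply Submodule.eq_of_le_of_finrank_eq
    · rw [Submodule.span_le]
      rintro _ ⟨i, rfl⟩
      fin_cases i
      · exact heW
      · exact hfW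
    · rw [finrank_span_eq_card hind, hdim, Fintype.card_fin]
  have hWspan : ∀ x ∈ W, ∃ a b : F, x = a • e + b • f := by
    intro y hy
    rw [← hspan, Submodule.mem_span_range_iff_exists_fun] at hy
    obtain ⟨c, hc⟩ := hy
    rw [Fin.sum_univ_two] at hc
    exact ⟨c 0, c 1, hc.symm⟩
  have H12 := Cfsg.Agent.Helper5.odd_hyp 𝒬 h𝒬 (⟨0, by omega⟩ : Fin m) ⟨1, by omega⟩
    (by simp [Fin.ext_iff])
  have H13 := Cfsg.Agent.Helper5.odd_hyp 𝒬 h𝒬 (⟨0, by omega⟩ : Fin m) ⟨2, by omega⟩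
    (by simp [Fin.ext_iff])
  have H23 := Cfsg.Agent.Helper5.odd_hyp 𝒬 h𝒬 (⟨1, by omega⟩ : Fin m) ⟨2, by omega⟩
    (by simp [Fin.ext_iff])
  obtain ⟨u₁, t, hu, hu0, ht, hue, huf, hte, htf, hut⟩ :=
    Cfsg.Agent.Helper5.plus_plane_aux 𝒬 hnd _ _ _ _ _ _ H12 H13 H23 e f he hf hef
  exact Cfsg.Agent.Helper5.plus_plane_not_max 𝒬 hnd h' (le_of_eq hq) W e f u₁ t heW hfW hWspan
    he hf hef hu hu0 ht hue huf hte htf hut

end Cfsg.Agent.S5676
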