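import Cfsg.Statements.S5682
import Mathlib
import Cfsg.Agent.Helper18.TensOrth

set_option autoImplicit false
open Cfsg

namespace Cfsg.Agent.S5682

/-- Let F be the field with 3 elements, m ≥ 6, Q the standard quadratic form on F^(2m+1) and Ω the commutator subgroup of its isometry group. Suppose the polar form of Q is similar, through P and e, to the tensor product of non-degenerate symmetric bilinear forms f₁ on F^3 and f₂ on F^(n₂) with 3 < n₂. Then the elements of Ω in the stabiliser of this tensor decomposition form a subgroup that is not maximal: some subgroup lies strictly between it and Ω. -/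
theorem result {F : Type*} [Field F] [Fintype F] (hq : Fintype.card F = 3) (m : ℕ) (hm : 6 ≤ m) (n₂ : ℕ) (h2 : 3 < n₂) (e : (Unit ⊕ (Fin m ⊕ Fin m)) ≃ Fin 3 × Fin n₂) (P : Matrix.GeneralLinearGroup (Unit ⊕ (Fin m ⊕ Fin m)) F) (f₁ : (Fin 3 → F) → (Fin 3 → F) → F) (f₂ : (Fin n₂ → F) → (Fin n₂ → F) → F) (hf₁ : Cfsg.Geo.IsSymmetricForm f₁) (hf₂ : Cfsg.Geo.IsSymmetricForm f₂) (hT : Cfsg.Geo.IsTensorFormStructure id (QuadraticMap.polar (Cfsg.quadFormOdd m F)) f₁ f₂ e P) : ∃ K : Subgroup (Matrix.GeneralLinearGroup (Unit ⊕ (Fin m ⊕ Fin m)) F), Cfsg.Geo.tensorProductSubgroup 3 n₂ e P ⊓ Cfsg.Geo.omegaGL (Cfsg.quadFormOdd m F) < K ∧ K < Cfsg.Geo.omegaGL (Cfsg.quadFormOdd m F) := by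
  classical
  have hcard : 1 + (m + m) = 3 * n₂ := by simpa using Fintype.card_congr e
  refine Cfsg.Agent.Helper18.TensOrth.main3 hq (Cfsg.quadFormOdd m F) ?_ n₂ (by omega) e P f₁ f₂ hf₁ hf₂ hT
  intro v
  unfold Cfsg.quadFormOdd
  have h : ∀ i : Fin m, (v + v) (Sum.inr (Sum.inl i)) * (v + v) (Sum.inr (Sum.inr i)) =
      4 * (v (Sum.inr (Sum.inl i)) * v (Sum.inr (Sum.inr i))) := fun i => by
    simp only [Pi.add_apply]
    ring
  rw [Finset.sum_congr rfl (fun i _ => h i), ← Finset.mul_sum, Pi.add_apply]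
  ring

end Cfsg.Agent.S5682
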