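import Cfsg.Statements.S5690
-- import your own Cfsg.Agent.* helpers here
import Mathlib
import Cfsg.Agent.Helper5.GenQuad

set_option autoImplicit false
open Cfsg

namespace Cfsg.Agent.S5690

/-- Let F be a finite field with q elements, n ≥ 13 even, Q a non-degenerate quadratic form on F^n (of either type), and Ω the commutator subgroup of the isometry group of Q, viewed inside GL_n(F). Suppose q ≤ 3 and W is a plane on which the polar form is non-degenerate and which contains a line on which Q vanishes. Then the elements of Ω stabilising W form a subgroup that is not maximal: some subgroup lies strictly between it and Ω. -/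
theorem result {F : Type*} [Field F] [Fintype F] {n : ℕ} (hn : 13 ≤ n) (heven : Even n) (Q : (Fin n → F) → F) (hQ : Cfsg.Geo.IsNondegenerateQuadraticForm Q) (hq : Fintype.card F ≤ 3) (W : Submodule F (Fin n → F)) (hdim : Module.finrank F W = 2) (hW : Cfsg.Geo.IsNondegenerateOn (QuadraticMap.polar Q) W) (hWp : Cfsg.Geo.IsPlusTypeOn Q W) : ∃ K : Subgroup (Matrix.GeneralLinearGroup (Fin n) F), Cfsg.Geo.subspaceStabilizer W ⊓ Cfsg.Geo.omegaGL Q < K ∧ K < Cfsg.Geo.omegaGL Q := by
  classical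
  obtain ⟨𝒬, h𝒬, hnd⟩ := Cfsg.Agent.Helper5.genquad_model Q hQ
  have hQeq : Q = ⇑𝒬 := funext (fun v => (h𝒬 v).symm)
  rw [hQeq] at hW hWp ⊢
  obtain ⟨k, hk⟩ : ∃ k, n = 2 * k + 2 := by
    obtain ⟨r, hr⟩ := heven
    exact ⟨r - 1, by omega⟩
  have hfin : Module.finrank F (Fin n → F) = 2 * k + 2 := by
    rw [Module.finrank_fin_fun]
    exact hk
  obtain ⟨e₁, f₁, e₂, f₂, e₃, f₃, H12, H13, H23⟩ :=
    Cfsg.Agent.Helper5.genquad_hyp3 𝒬 hnd k (by omega) hfin
  obtain ⟨e, f, heW, hfW, hWspan, he, hf, hef⟩ :=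
    Cfsg.Agent.Helper5.plus_plane_basis 𝒬 W hdim hW hWp
  obtain ⟨u₁, t, hu, hu0, ht, hue, huf, hte, htf, hut⟩ :=
    Cfsg.Agent.Helper5.plus_plane_aux 𝒬 hnd _ _ _ _ _ _ H12 H13 H23 e f he hf hef
  exact Cfsg.Agent.Helper5.plus_plane_not_max 𝒬 hnd
    (Or.inr (by rw [Fintype.card_fin]; omega)) hq W e f u₁ t heW hfW hWspan
    he hf hef hu hu0 ht hue huf hte htf hut

end Cfsg.Agent.S5690
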