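import Cfsg.Statements.S5693
-- import your own Cfsg.Agent.* helpers here
import Mathlib
import Cfsg.Agent.Helper5.Frame4

set_option autoImplicit false
open Cfsg

namespace Cfsg.Agent.S5693

/-- Let F be a finite field with q elements, n ≥ 13 even, Q a non-degenerate quadratic form on F^n of plus type (some subspace of dimension n/2 is totally singular), and Ω the commutator subgroup of the isometry group of Q, viewed inside GL_n(F). Let D be a decomposition of F^n into t ≥ 2 pairwise orthogonal, pairwise Q-isometric subspaces of equal dimension k on which the polar form is non-degenerate (with, for even k, all members of plus type or t even; for odd k, q odd and square discriminant), in one of the cases: k = 2 with q = 3; k = 2 with plus-type members and q ∈ {2, 4, 5}; k = 3 with q = 3; k = 4 with plus-type members and q = 2. Then the elements of Ω permuting the members of D form a subgroup that is not maximal: some subgroup lies strictly between it and Ω.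 -/
theorem result {F : Type*} [Field F] [Fintype F] {n : ℕ} (hn : 13 ≤ n) (heven : Even n) (Q : (Fin n → F) → F) (hQ : Cfsg.Geo.IsNondegenerateQuadraticForm Q) (hplus : Cfsg.Geo.IsPlusTypeOn Q ⊤) {t : ℕ} (k : ℕ) (D : Fin t → Submodule F (Fin n → F)) (hD : Cfsg.Geo.IsOrthogonalMDecomposition Q k D) (hke : Even k → ((∀ i, Cfsg.Geo.IsPlusTypeOn Q (D i)) ∨ Even t)) (hko : Odd k → (Odd (Fintype.card F) ∧ Cfsg.Geo.HasSquareDiscriminant Q)) (hcase : ((k = 2 ∧ (Fintype.card F = 3 ∨ ((∀ i, Cfsg.Geo.IsPlusTypeOn Q (D i)) ∧ (Fintype.card F = 2 ∨ Fintype.card F = 4 ∨ Fintype.card F = 5)))) ∨ (k = 3 ∧ Fintype.card F = 3) ∨ (k = 4 ∧ Fintype.card F = 2 ∧ ∀ i, Cfsg.Geo.IsPlusTypeOn Q (D i)))) : ∃ K : Subgroup (Matrix.GeneralLinearGroup (Fin n) F), Cfsg.Geo.decompositionStabilizer D ⊓ Cfsg.Geo.omegaGL Q < K ∧ K < Cfsg.Geo.omegaGL Q := by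
  obtain ⟨𝒬, h𝒬, hnd⟩ := Cfsg.Agent.Helper5.genquad_model Q hQ
  have hQeq : Q = ⇑𝒬 := funext (fun v => (h𝒬 v).symm)
  rw [hQeq] at hD hcase ⊢
  have hnt := Cfsg.Agent.Helper5.fq_finrank_le k D hD.decomp.decomp.finrank_eq
    hD.decomp.decomp.iSup_eq_top
  rw [Fintype.card_fin] at hnt
  have hi : (⟨0, by omega⟩ : Fin n) ≠ ⟨1, by omega⟩ :=
    fun h => absurd (Fin.mk.inj h) (by omega)
  rcases hcase with ⟨hk, h3 | ⟨hpl, h245⟩⟩ | ⟨hk, hq⟩ | ⟨hk, hq, hpl⟩
  · subst hk
    have ht : 5 ≤ t := by omega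
    obtain ⟨a, ha, hqa, htri, x, hx, hx0, hax⟩ :=
      Cfsg.Agent.Helper5.fq_23_block h3 𝒬 (D ⟨0, by omega⟩)
        (hD.decomp.decomp.finrank_eq _) (hD.decomp.nondegenerate _)
    exact Cfsg.Agent.Helper5.fq_odd_not_max (Cfsg.Agent.Helper5.fr3_two h3) 𝒬 hnd _ _ hi ht 2
      D hD 1 one_ne_zero _ a ha hqa htri x hx hx0 hax
  · subst hk
    rcases h245 with hq | hq | hq
    · exact Cfsg.Agent.Helper5.fc_plane_not_max (Or.inl hq) 𝒬 hnd
        (by rw [Fintype.card_fin]; omega) (by omega) D hD hpl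
    · exact Cfsg.Agent.Helper5.fc_plane_not_max (Or.inr hq) 𝒬 hnd
        (by rw [Fintype.card_fin]; omega) (by omega) D hD hpl
    · have h2 : (2 : F) ≠ 0 := by
        intro h
        have h5 := Cfsg.Agent.Helper5.fq_five hq
        exact (one_ne_zero : (1 : F) ≠ 0) (by linear_combination h5 - 2 * h)
      have ht : 5 ≤ t := by omega
      obtain ⟨a, ha, hqa, htri, x, hx, hx0, hax⟩ :=
        Cfsg.Agent.Helper5.fq_25_block hq 𝒬 (D ⟨0, by omega⟩)
          (hD.decomp.decomp.finrank_eq _) (hD.decomp.nondegenerate _) (hpl _)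
      exact Cfsg.Agent.Helper5.fq_odd_not_max h2 𝒬 hnd _ _ hi ht 2
        D hD 1 one_ne_zero _ a ha hqa htri x hx hx0 hax
  · subst hk
    exact Cfsg.Agent.Helper5.fr3_not_max hq 𝒬 hnd _ _ hi D hD
  · subst hk
    exact Cfsg.Agent.Helper5.fc_four_not_max hq 𝒬 hnd
      (by rw [Fintype.card_fin]; omega) (by omega) D hD hpl

end Cfsg.Agent.S5693
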