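import Mathlib
import Cfsg.Statements.S5942
import Cfsg.Agent.Helper14.SubP
import Cfsg.Agent.Helper14.A4Sub

set_option autoImplicit false
open Cfsg

namespace Cfsg.Agent.S5942

open Cfsg.Agent.Helper14.Mat2 Cfsg.Agent.Helper14.SL2Odd Cfsg.Agent.Helper14.PSL2
  Cfsg.Agent.Helper14.SL2Conj Cfsg.Agent.Helper14.Torus Cfsg.Agent.Helper14.TorusB
  Cfsg.Agent.Helper14.TorusC Cfsg.Agent.Helper14.TorusD Cfsg.Agent.Helper14.TorusE
  Cfsg.Agent.Helper14.SL2T Cfsg.Agent.Helper14.SubA Cfsg.Agent.Helper14.SubD
  Cfsg.Agent.Helper14.CE2 Cfsg.Agent.Helper14.SLc Cfsg.Agent.Helper14.SubJ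
  Cfsg.Agent.Helper14.SubK Cfsg.Agent.Helper14.SubL Cfsg.Agent.Helper14.SubM
  Cfsg.Agent.Helper14.SubN Cfsg.Agent.Helper14.SubO Cfsg.Agent.Helper14.SubP
  Cfsg.Agent.Helper14.A4Sub

/-- Let K and F be finite fields of odd characteristic with #F = (#K)^r for an odd prime r. Then PSL_2(F) has a maximal subgroup isomorphic to PSL_2(K). -/
theorem result {F K : Type*} [Field F] [Fintype F] [Field K] [Fintype K] (q r : ℕ) (hK : Fintype.card K = q) (hF : Fintype.card F = q ^ r) (hq : Odd q) (hr : r.Prime) (hr2 : r ≠ 2) : ∃ H : Subgroup (Matrix.ProjectiveSpecialLinearGroup (Fin 2) F), IsCoatom H ∧ Nonempty (H ≃* Matrix.ProjectiveSpecialLinearGroup (Fin 2) K) := by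
  classical
  obtain ⟨p, n, hpp, hqp, hn0, hcF, hcK, ⟨ι⟩⟩ := exists_hom_r (F := F) (K := K) q r hK hF
  haveI := hcF
  haveI := hcK
  haveI : Fact p.Prime := ⟨hpp⟩
  have hpq : p ∣ q := by
    rw [hqp]
    exact dvd_pow_self p hn0
  have hodd : Odd (Fintype.card F) := by
    rw [hF]
    exact hq.pow
  have hoddK : Odd (Fintype.card K) := by
    rw [hK]
    exact hq
  have h2 := two_ne_zero_of_odd hodd
  have h2K := two_ne_zero_of_odd hoddK
  have hq3 : 3 ≤ q := by
    have hq1 : 1 < q := by
      rw [← hK]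
      exact Fintype.one_lt_card
    obtain ⟨m, hm⟩ := hq
    omega
  obtain ⟨φ, hφ⟩ : ∃ φ : Matrix.SpecialLinearGroup (Fin 2) K →* Matrix.SpecialLinearGroup (Fin 2) F,
      φ = Matrix.SpecialLinearGroup.map ι := ⟨_, rfl⟩
  have hφinj : Function.Injective φ := by
    rw [hφ]
    exact map_inj ι
  obtain ⟨Ht, hHt⟩ : ∃ Ht : Subgroup (Matrix.SpecialLinearGroup (Fin 2) F), Ht = φ.range := ⟨_, rfl⟩
  have hHtM : ∀ g : Matrix.SpecialLinearGroup (Fin 2) F,
      (∀ i j, (g : Matrix (Fin 2) (Fin 2) F) i j ∈ Set.range ι) → g ∈ Ht := by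
    intro g hg
    rw [hHt, hφ]
    exact mem_range_map ι g hg
  have hcardHt : Nat.card Ht = q * (q ^ 2 - 1) := by
    rw [hHt, ← Nat.card_congr (MonoidHom.ofInjective hφinj).toEquiv, card_SL2, hK]
  have hnegHt : (negOne : Matrix.SpecialLinearGroup (Fin 2) F) ∈ Ht := negOne_rat ι Ht hHtM
  have hcen : Subgroup.center (Matrix.SpecialLinearGroup (Fin 2) F) ≤ Ht := by
    intro z hz
    rcases sq_one h2 z (center_sq2 z hz) with h1 | h1
    · rw [h1]
      exact Ht.one_mem
    · rw [h1]
      exact hnegHt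
  obtain ⟨Y, g0, hY, hcomm, hnc⟩ := exists_torus_K (K := K) p hoddK
  have hcomap : (Ht.map (QuotientGroup.mk' (Subgroup.center (Matrix.SpecialLinearGroup (Fin 2) F)))).comap
      (QuotientGroup.mk' (Subgroup.center (Matrix.SpecialLinearGroup (Fin 2) F))) = Ht := by
    rw [Subgroup.comap_map_eq, QuotientGroup.ker_mk', sup_eq_left.mpr hcen]
  refine ⟨Ht.map (QuotientGroup.mk' (Subgroup.center (Matrix.SpecialLinearGroup (Fin 2) F))), ?_, ?_⟩
  · refine ⟨?_, ?_⟩
    · intro htop
      have hHtop : Ht = ⊤ := by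
        rw [← hcomap, htop, Subgroup.comap_top]
      have hsurj : Function.Surjective ι := by
        intro v
        have hv : xe v ∈ Ht := by
          rw [hHtop]
          trivial
        rw [hHt, hφ] at hv
        have := entries_of_mem_range ι _ hv 0 1
        rw [xe_coe] at this
        simpa using this
      have hle := Fintype.card_le_of_surjective ι hsurj
      rw [hF, hK] at hle
      have hr2' := hr.two_le
      have h3 : q ^ 2 ≤ q ^ r := Nat.pow_le_pow_right (by omega) hr2'
      nlinarith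
    · intro Mb hMb
      obtain ⟨Mt, hMt⟩ : ∃ Mt : Subgroup (Matrix.SpecialLinearGroup (Fin 2) F),
          Mt = Mb.comap (QuotientGroup.mk' (Subgroup.center (Matrix.SpecialLinearGroup (Fin 2) F))) :=
        ⟨_, rfl⟩
      have hle : Ht ≤ Mt := by
        rw [hMt, ← hcomap]
        exact Subgroup.comap_mono hMb.le
      have hYm : φ Y ∈ Mt := hle (by rw [hHt]; exact ⟨Y, rfl⟩)
      have hgm : φ g0 ∈ Mt := hle (by rw [hHt]; exact ⟨g0, rfl⟩)
      have hoT : orderOf (φ Y) = q + 1 := by
        rw [orderOf_injective φ hφinj, hY, hK]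
      have hn : φ g0 * φ Y * (φ g0)⁻¹ * φ Y = φ Y * (φ g0 * φ Y * (φ g0)⁻¹) := by
        have := congrArg φ hcomm
        simpa only [map_mul, map_inv] using this
      have hnc' : φ g0 * φ Y ≠ φ Y * φ g0 := by
        intro h
        apply hnc
        apply hφinj
        simpa only [map_mul] using h
      rcases max_core ι p q r hK hF hq hr hr2 hpq Mt (fun g hg => hle (hHtM g hg))
        (φ Y) (φ g0) hYm hgm hoT hn hnc' with htop | hcardM
      · rw [hMt] at htop
        apply top_unique
        intro x _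
        obtain ⟨y, rfl⟩ := QuotientGroup.mk'_surjective _ x
        have : y ∈ Mb.comap (QuotientGroup.mk' (Subgroup.center (Matrix.SpecialLinearGroup (Fin 2) F))) := by
          rw [htop]
          trivial
        exact this
      · exfalso
        have hEq : Ht = Mt := Subgroup.eq_of_le_of_card_ge hle (by rw [hcardM, hcardHt])
        have hMb2 : Mb = Ht.map (QuotientGroup.mk' (Subgroup.center (Matrix.SpecialLinearGroup (Fin 2) F))) := by
          rw [hEq, hMt, Subgroup.map_comap_eq_self_of_surjective (QuotientGroup.mk'_surjective _)]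
        exact hMb.ne hMb2.symm
  · obtain ⟨ψ, hψ⟩ : ∃ ψ : Matrix.SpecialLinearGroup (Fin 2) K →*
        Matrix.ProjectiveSpecialLinearGroup (Fin 2) F,
        ψ = (QuotientGroup.mk' (Subgroup.center (Matrix.SpecialLinearGroup (Fin 2) F))).comp φ :=
      ⟨_, rfl⟩
    have hrange : ψ.range =
        Ht.map (QuotientGroup.mk' (Subgroup.center (Matrix.SpecialLinearGroup (Fin 2) F))) := by
      rw [hψ, hHt]
      exact MonoidHom.range_comp _ _
    have hnegφ : φ (negOne : Matrix.SpecialLinearGroup (Fin 2) K) =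
        (negOne : Matrix.SpecialLinearGroup (Fin 2) F) := by
      rw [hφ]
      apply Subtype.ext
      rw [Matrix.SpecialLinearGroup.map_apply_coe, coe_negOne, coe_negOne]
      ext i j
      fin_cases i <;> fin_cases j <;> simp
    have hker : ψ.ker = Subgroup.center (Matrix.SpecialLinearGroup (Fin 2) K) := by
      ext g
      rw [MonoidHom.mem_ker, hψ, MonoidHom.comp_apply, QuotientGroup.mk'_apply,
        QuotientGroup.eq_one_iff]
      constructor
      · intro h
        rcases sq_one h2 _ (center_sq2 _ h) with h1 | h1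
        · have : g = 1 := hφinj (by rw [h1, map_one])
          rw [this]
          exact Subgroup.one_mem _
        · have : g = negOne := hφinj (by rw [h1, hnegφ])
          rw [this]
          exact negOne_mem_center
      · intro h
        rcases sq_one h2K g (center_sq2 g h) with h1 | h1
        · rw [h1, map_one]
          exact Subgroup.one_mem _
        · rw [h1, hnegφ]
          exact negOne_mem_center
    exact ⟨((MulEquiv.subgroupCongr hrange.symm).trans
      (QuotientGroup.quotientKerEquivRange ψ).symm).trans (QuotientGroup.quotientMulEquivOfEq hker)⟩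

end Cfsg.Agent.S5942
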