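import Mathlib
import Cfsg.Statements.S5943
import Cfsg.Agent.Helper14.EvD

set_option autoImplicit false
open Cfsg

namespace Cfsg.Agent.S5943

open Cfsg.Agent.Helper14.Mat2 Cfsg.Agent.Helper14.SL2Odd Cfsg.Agent.Helper14.PSL2
  Cfsg.Agent.Helper14.SL2Conj Cfsg.Agent.Helper14.Torus Cfsg.Agent.Helper14.TorusB
  Cfsg.Agent.Helper14.TorusC Cfsg.Agent.Helper14.TorusD Cfsg.Agent.Helper14.TorusE
  Cfsg.Agent.Helper14.SL2T Cfsg.Agent.Helper14.SubA Cfsg.Agent.Helper14.SubD
  Cfsg.Agent.Helper14.SubP Cfsg.Agent.Helper14.A4Sub Cfsg.Agent.Helper14.EvC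
  Cfsg.Agent.Helper14.EvD

/-- Let K and F be finite fields of characteristic 2 with #K = q > 2 and #F = q^r for a prime r. Then PSL_2(F) has a maximal subgroup isomorphic to PSL_2(K) (which equals PGL_2(K) in characteristic 2). -/
theorem result {F K : Type*} [Field F] [Fintype F] [Field K] [Fintype K] (q r : ℕ) (hK : Fintype.card K = q) (hF : Fintype.card F = q ^ r) (hq : Even q) (hq2 : q ≠ 2) (hr : r.Prime) : ∃ H : Subgroup (Matrix.ProjectiveSpecialLinearGroup (Fin 2) F), IsCoatom H ∧ Nonempty (H ≃* Matrix.ProjectiveSpecialLinearGroup (Fin 2) K) := by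
  classical
  obtain ⟨p, n, hpp, hqp, hn0, hcF, hcK, ⟨ι⟩⟩ := exists_hom_r (F := F) (K := K) q r hK hF
  have hp2 : p = 2 := by
    have h2q : 2 ∣ q := even_iff_two_dvd.mp hq
    rw [hqp] at h2q
    exact ((Nat.prime_dvd_prime_iff_eq Nat.prime_two hpp).mp
      (Nat.prime_two.dvd_of_dvd_pow h2q)).symm
  subst hp2
  haveI := hcF
  haveI := hcK
  have h2 : (2 : F) = 0 := CharTwo.two_eq_zero
  have h2K : (2 : K) = 0 := CharTwo.two_eq_zero
  have hq4 : 4 ≤ q := by
    have hq1 : 1 < q := by
      rw [← hK]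
      exact Fintype.one_lt_card
    obtain ⟨m, hm⟩ := hq
    omega
  obtain ⟨φ, hφ⟩ : ∃ φ : Matrix.SpecialLinearGroup (Fin 2) K →* Matrix.SpecialLinearGroup (Fin 2) F,
      φ = Matrix.SpecialLinearGroup.map ι := ⟨_, rfl⟩
  have hφinj : Function.Injective φ := by
    rw [hφ]
    exact map_inj ι
  obtain ⟨Ht, hHt⟩ : ∃ Ht : Subgroup (Matrix.SpecialLinearGroup (Fin 2) F), Ht = φ.range := ⟨_, rfl⟩
  have hHtM : ∀ g : Matrix.SpecialLinearGroup (Fin 2) F,
      (∀ i j, (g : Matrix (Fin 2) (Fin 2) F) i j ∈ Set.range ι) → g ∈ Ht := by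
    intro g hg
    rw [hHt, hφ]
    exact mem_range_map ι g hg
  have hcardHt : Nat.card Ht = q * (q ^ 2 - 1) := by
    rw [hHt, ← Nat.card_congr (MonoidHom.ofInjective hφinj).toEquiv, card_SL2, hK]
  have hcen : Subgroup.center (Matrix.SpecialLinearGroup (Fin 2) F) ≤ Ht := by
    intro z hz
    rw [center_eq_one_char_two h2 z hz]
    exact Ht.one_mem
  obtain ⟨Y, g0, hY, hcomm, hnc⟩ := exists_torus_K2 (K := K)
  have hcomap : (Ht.map (QuotientGroup.mk' (Subgroup.center (Matrix.SpecialLinearGroup (Fin 2) F)))).comap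
      (QuotientGroup.mk' (Subgroup.center (Matrix.SpecialLinearGroup (Fin 2) F))) = Ht := by
    rw [Subgroup.comap_map_eq, QuotientGroup.ker_mk', sup_eq_left.mpr hcen]
  refine ⟨Ht.map (QuotientGroup.mk' (Subgroup.center (Matrix.SpecialLinearGroup (Fin 2) F))), ?_, ?_⟩
  · refine ⟨?_, ?_⟩
    · intro htop
      have hHtop : Ht = ⊤ := by
        rw [← hcomap, htop, Subgroup.comap_top]
      have hsurj : Function.Surjective ι := by
        intro v
        have hv : xe v ∈ Ht := by
          rw [hHtop]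
          trivial
        rw [hHt, hφ] at hv
        have := entries_of_mem_range ι _ hv 0 1
        rw [xe_coe] at this
        simpa using this
      have hle := Fintype.card_le_of_surjective ι hsurj
      rw [hF, hK] at hle
      have hr2' := hr.two_le
      have h3 : q ^ 2 ≤ q ^ r := Nat.pow_le_pow_right (by omega) hr2'
      nlinarith
    · intro Mb hMb
      obtain ⟨Mt, hMt⟩ : ∃ Mt : Subgroup (Matrix.SpecialLinearGroup (Fin 2) F),
          Mt = Mb.comap (QuotientGroup.mk' (Subgroup.center (Matrix.SpecialLinearGroup (Fin 2) F))) :=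
        ⟨_, rfl⟩
      have hle : Ht ≤ Mt := by
        rw [hMt, ← hcomap]
        exact Subgroup.comap_mono hMb.le
      have hYm : φ Y ∈ Mt := hle (by rw [hHt]; exact ⟨Y, rfl⟩)
      have hgm : φ g0 ∈ Mt := hle (by rw [hHt]; exact ⟨g0, rfl⟩)
      have hoT : orderOf (φ Y) = q + 1 := by
        rw [orderOf_injective φ hφinj, hY, hK]
      have hn : φ g0 * φ Y * (φ g0)⁻¹ * φ Y = φ Y * (φ g0 * φ Y * (φ g0)⁻¹) := by
        have := congrArg φ hcomm
        simpa only [map_mul, map_inv] using this
      have hnc' : φ g0 * φ Y ≠ φ Y * φ g0 := by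
        intro h
        apply hnc
        apply hφinj
        simpa only [map_mul] using h
      rcases max_core2 ι q r hK hF hq4 hr Mt (fun g hg => hle (hHtM g hg))
        (φ Y) (φ g0) hYm hgm hoT hn hnc' with htop | hcardM
      · rw [hMt] at htop
        apply top_unique
        intro x _
        obtain ⟨y, rfl⟩ := QuotientGroup.mk'_surjective _ x
        have : y ∈ Mb.comap (QuotientGroup.mk' (Subgroup.center (Matrix.SpecialLinearGroup (Fin 2) F))) := by
          rw [htop]
          trivial
        exact this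
      · exfalso
        have hEq : Ht = Mt := Subgroup.eq_of_le_of_card_ge hle (by rw [hcardM, hcardHt])
        have hMb2 : Mb = Ht.map (QuotientGroup.mk' (Subgroup.center (Matrix.SpecialLinearGroup (Fin 2) F))) := by
          rw [hEq, hMt, Subgroup.map_comap_eq_self_of_surjective (QuotientGroup.mk'_surjective _)]
        exact hMb.ne hMb2.symm
  · obtain ⟨ψ, hψ⟩ : ∃ ψ : Matrix.SpecialLinearGroup (Fin 2) K →*
        Matrix.ProjectiveSpecialLinearGroup (Fin 2) F,
        ψ = (QuotientGroup.mk' (Subgroup.center (Matrix.SpecialLinearGroup (Fin 2) F))).comp φ :=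
      ⟨_, rfl⟩
    have hrange : ψ.range =
        Ht.map (QuotientGroup.mk' (Subgroup.center (Matrix.SpecialLinearGroup (Fin 2) F))) := by
      rw [hψ, hHt]
      exact MonoidHom.range_comp _ _
    have hker : ψ.ker = Subgroup.center (Matrix.SpecialLinearGroup (Fin 2) K) := by
      ext g
      rw [MonoidHom.mem_ker, hψ, MonoidHom.comp_apply, QuotientGroup.mk'_apply,
        QuotientGroup.eq_one_iff]
      constructor
      · intro h
        have h1 := center_eq_one_char_two h2 _ h
        have : g = 1 := hφinj (by rw [h1, map_one])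
        rw [this]
        exact Subgroup.one_mem _
      · intro h
        rw [center_eq_one_char_two h2K g h, map_one]
        exact Subgroup.one_mem _
    exact ⟨((MulEquiv.subgroupCongr hrange.symm).trans
      (QuotientGroup.quotientKerEquivRange ψ).symm).trans (QuotientGroup.quotientMulEquivOfEq hker)⟩

end Cfsg.Agent.S5943
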