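import Cfsg.Statements.S5944

set_option autoImplicit false
open Cfsg

namespace Cfsg.Agent.S5944

open Subgroup in
theorem index_normalCore_dvd {G : Type*} [Group G] [Finite G] (H : Subgroup G) :
    H.normalCore.index ∣ H.index.factorial := by
  rw [normalCore_eq_ker, index_ker, index_eq_card, ← Nat.card_perm]
  exact card_subgroup_dvd_card (MulAction.toPermHom G (G ⧸ H)).range

/-- For n ≠ 4, every proper subgroup of the symmetric group S_n other than the alternating group A_n has index at least n. -/
theorem result (n : ℕ) (hn : n ≠ 4) (H : Subgroup (Equiv.Perm (Fin n))) (hH : H ≠ ⊤) (hA : H ≠ alternatingGroup (Fin n)) : n ≤ H.index := by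
  by_contra hlt
  push Not at hlt
  have h0 : H.index ≠ 0 := Subgroup.index_ne_zero_of_finite
  have h1 : H.index ≠ 1 := fun h => hH (Subgroup.index_eq_one.mp h)
  have h2 : H.index ≠ 2 := fun h => hA (Equiv.Perm.eq_alternatingGroup_of_index_eq_two h)
  have hn5 : 5 ≤ n := by omega
  have : Nontrivial (Fin n) := Fin.nontrivial_iff_two_le.mpr (by omega)
  have hcard : Nat.card (Fin n) = n := by simp
  have hsimple : IsSimpleGroup (alternatingGroup (Fin n)) :=
    alternatingGroup.isSimpleGroup (by rw [hcard]; exact hn5)
  set N := H.normalCore with hN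
  have hNn : N.Normal := H.normalCore_normal
  have hNH : N ≤ H := H.normalCore_le
  have hNsub : (N.subgroupOf (alternatingGroup (Fin n))).Normal := Subgroup.normal_subgroupOf
  rcases hNsub.eq_bot_or_eq_top with hb | ht
  · -- N ⊓ A_n = ⊥
    have hinf : N ⊓ alternatingGroup (Fin n) = ⊥ := by
      exact Subgroup.subgroupOf_eq_bot.mp hb |>.eq_bot
    have hc : Nat.card N ∣ 2 := by
      have h3 : (alternatingGroup (Fin n)).relIndex N ∣ (alternatingGroup (Fin n)).index :=
        Subgroup.relIndex_dvd_index_of_normal _ _
      rw [alternatingGroup.index_eq_two] at h3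
      rw [← Subgroup.inf_relIndex_right, inf_comm, hinf, Subgroup.relIndex_bot_left] at h3
      exact h3
    have hi : N.index ∣ H.index.factorial := index_normalCore_dvd H
    have hmul : Nat.card N * N.index = n.factorial := by
      rw [Subgroup.card_mul_index, Nat.card_perm, hcard]
    have h4 : n.factorial ∣ 2 * H.index.factorial := by
      rw [← hmul]; exact Nat.mul_dvd_mul hc hi
    have h5 : n.factorial ≤ 2 * H.index.factorial :=
      Nat.le_of_dvd (by positivity) h4
    have h6 : H.index.factorial ≤ (n - 1).factorial := Nat.factorial_le (by omega)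
    have h7 : n.factorial = n * (n - 1).factorial := by
      rw [← Nat.mul_factorial_pred (by omega)]
    have h8 : 0 < (n - 1).factorial := Nat.factorial_pos _
    nlinarith
  · -- A_n ≤ N ≤ H
    have hle : alternatingGroup (Fin n) ≤ H := by
      have := Subgroup.subgroupOf_eq_top.mp ht
      exact this.trans hNH
    have hd : H.index ∣ (alternatingGroup (Fin n)).index := Subgroup.index_dvd_of_le hle
    rw [alternatingGroup.index_eq_two] at hd
    have := Nat.le_of_dvd (by norm_num) hd
    omega

end Cfsg.Agent.S5944
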