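import Cfsg.Statements.S5945
import Cfsg.Agent.Helper29.SymSix

set_option autoImplicit false
open Cfsg

namespace Cfsg.Agent.S5945

open Equiv Equiv.Perm Cfsg.Agent.Helper29

/-- The symmetric group S_6 has exactly 12 subgroups of index 6; each of them is isomorphic to S_5, and at least one of them is not the stabilizer of any point. -/
theorem result : Nat.card {H : Subgroup (Equiv.Perm (Fin 6)) // H.index = 6} = 12 ∧ (∀ H : Subgroup (Equiv.Perm (Fin 6)), H.index = 6 → Nonempty (H ≃* Equiv.Perm (Fin 5))) ∧ ∃ H : Subgroup (Equiv.Perm (Fin 6)), H.index = 6 ∧ ∀ a : Fin 6, H ≠ MulAction.stabilizer (Equiv.Perm (Fin 6)) a := by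
  classical
  have h6 : Fintype.card (Fin 6) = 6 := Fintype.card_fin 6
  obtain ⟨H₂, hH₂, hno⟩ := exists_exotic6 h6
  refine ⟨?_, fun H hH => nonempty_mulEquiv_of_index6 h6 H hH, ⟨H₂, hH₂, fun a h => hno a h.le⟩⟩
  have hfin : Fintype (Perm (Fin 6) ⧸ H₂) := Fintype.ofFinite _
  have hX₂ : Nat.card (Perm (Fin 6) ⧸ H₂) = 6 := by rw [← Subgroup.index_eq_card, hH₂]
  have hX₂' : Fintype.card (Perm (Fin 6) ⧸ H₂) = 6 := by
    rw [← Nat.card_eq_fintype_card]
    exact hX₂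
  have hidx : ∀ x : Fin 6, (MulAction.stabilizer (Perm (Fin 6)) x).index = 6 := fun x => by
    rw [MulAction.index_stabilizer_of_transitive (Perm (Fin 6)) x, Nat.card_eq_fintype_card, h6]
  have hidx₂ : ∀ q : Perm (Fin 6) ⧸ H₂, (MulAction.stabilizer (Perm (Fin 6)) q).index = 6 :=
    fun q => by
      rw [MulAction.index_stabilizer_of_transitive (Perm (Fin 6)) q, hX₂]
  obtain ⟨Φ₂, hΦ₂⟩ := exists_cosetIso (by omega) H₂ (by rw [hH₂, h6])
  obtain ⟨f₁, hf₁⟩ : ∃ f₁ : Fin 6 → {H : Subgroup (Perm (Fin 6)) // H.index = 6},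
      ∀ a, (f₁ a : Subgroup (Perm (Fin 6))) = MulAction.stabilizer (Perm (Fin 6)) a :=
    ⟨fun a => ⟨MulAction.stabilizer (Perm (Fin 6)) a, hidx a⟩, fun a => rfl⟩
  obtain ⟨f₂, hf₂⟩ : ∃ f₂ : Perm (Fin 6) ⧸ H₂ → {H : Subgroup (Perm (Fin 6)) // H.index = 6},
      ∀ q, (f₂ q : Subgroup (Perm (Fin 6))) = MulAction.stabilizer (Perm (Fin 6)) q :=
    ⟨fun q => ⟨MulAction.stabilizer (Perm (Fin 6)) q, hidx₂ q⟩, fun q => rfl⟩
  have hinj₁ : Function.Injective f₁ := by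
    intro a b hab
    have h1 := congrArg Subtype.val hab
    rw [hf₁, hf₁] at h1
    exact stabilizer_injective (by omega) h1
  have hinj₂ : Function.Injective f₂ := by
    intro q q' hqq
    have h1 := congrArg Subtype.val hqq
    rw [hf₂, hf₂] at h1
    apply stabilizer_injective (X := Perm (Fin 6) ⧸ H₂) (by omega)
    show MulAction.stabilizer (Perm (Perm (Fin 6) ⧸ H₂)) q =
      MulAction.stabilizer (Perm (Perm (Fin 6) ⧸ H₂)) q'
    ext σ
    obtain ⟨g, rfl⟩ := Φ₂.surjective σ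
    rw [MulAction.mem_stabilizer_iff, MulAction.mem_stabilizer_iff, Perm.smul_def, Perm.smul_def,
      hΦ₂, hΦ₂, ← MulAction.mem_stabilizer_iff, ← MulAction.mem_stabilizer_iff, h1]
  have hdisj : ∀ a q, f₁ a ≠ f₂ q := by
    intro a q hab
    have h1 := congrArg Subtype.val hab
    rw [hf₁, hf₂] at h1
    obtain ⟨g, rfl⟩ := QuotientGroup.mk_surjective q
    apply hno (g⁻¹ a)
    intro h hh
    have h2 : g * h * g⁻¹ ∈ MulAction.stabilizer (Perm (Fin 6)) ((g : Perm (Fin 6)) : Perm (Fin 6) ⧸ H₂) := by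
      rw [MulAction.mem_stabilizer_iff, MulAction.Quotient.smul_mk, QuotientGroup.eq]
      have h3 : ((g * h * g⁻¹) • g)⁻¹ * g = h⁻¹ := by
        rw [smul_eq_mul]
        group
      rw [h3]
      exact H₂.inv_mem hh
    rw [← h1, MulAction.mem_stabilizer_iff, Perm.smul_def] at h2
    rw [MulAction.mem_stabilizer_iff, Perm.smul_def]
    have h4 : g⁻¹ ((g * h * g⁻¹) a) = g⁻¹ a := by rw [h2]
    rw [Perm.mul_apply, Perm.mul_apply] at h4
    have h5 : g⁻¹ (g (h (g⁻¹ a))) = h (g⁻¹ a) := by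
      rw [← Perm.mul_apply, inv_mul_cancel, Perm.one_apply]
    rw [h5] at h4
    exact h4
  have hsurj : Function.Surjective (Sum.elim f₁ f₂) := by
    rintro ⟨H, hH⟩
    rcases classify6 h6 H₂ hH₂ hno H hH with ⟨x, hx⟩ | ⟨q, hq⟩
    · exact ⟨Sum.inl x, Subtype.ext (by rw [Sum.elim_inl, hf₁]; exact hx.symm)⟩
    · exact ⟨Sum.inr q, Subtype.ext (by rw [Sum.elim_inr, hf₂]; exact hq.symm)⟩
  have hbij : Function.Bijective (Sum.elim f₁ f₂) :=
    ⟨Function.Injective.sumElim hinj₁ hinj₂ hdisj, hsurj⟩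
  rw [← Nat.card_congr (Equiv.ofBijective _ hbij), Nat.card_sum, Nat.card_fin, hX₂]

end Cfsg.Agent.S5945
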