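import Cfsg.Statements.S5952

set_option autoImplicit false
open Cfsg

namespace Cfsg.Agent.S5952

open Module

section aux

variable {F V : Type*} [Field F] [AddCommGroup V] [Module F V] [FiniteDimensional F V]

lemma inv_inf (f : V →ₗ[F] V) {A B : Submodule F V} (hA : A.map f ≤ A) (hB : B.map f ≤ B) :
    (A ⊓ B).map f ≤ A ⊓ B := by
  rintro _ ⟨x, hx, rfl⟩
  have hx' := Submodule.mem_inf.mp hx
  exact Submodule.mem_inf.mpr
    ⟨hA (Submodule.mem_map_of_mem hx'.1), hB (Submodule.mem_map_of_mem hx'.2)⟩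

lemma inv_sup (f : V →ₗ[F] V) {A B : Submodule F V} (hA : A.map f ≤ A) (hB : B.map f ≤ B) :
    (A ⊔ B).map f ≤ A ⊔ B := by
  rw [Submodule.map_sup]
  exact sup_le_sup hA hB

lemma inv_biSup (f : V →ₗ[F] V) {ι : Type*} (U : ι → Submodule F V)
    (hU : ∀ j, (U j).map f ≤ U j) (T : Finset ι) :
    (⨆ j ∈ T, U j).map f ≤ ⨆ j ∈ T, U j := by
  simp only [Submodule.map_iSup]
  exact iSup₂_mono fun j _ => hU j

/-- An invariant subspace of a sum of irreducible invariant subspaces of dimension `a` has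
dimension divisible by `a`. -/
lemma dvd_finrank_of_le_biSup (f : V →ₗ[F] V) {ι : Type*} [DecidableEq ι]
    (U : ι → Submodule F V) (a : ℕ)
    (hUinv : ∀ j, (U j).map f ≤ U j) (hUdim : ∀ j, finrank F ↥(U j) = a)
    (hUirr : ∀ j, ∀ W : Submodule F V, W ≤ U j → W.map f ≤ W → W = ⊥ ∨ W = U j)
    (T : Finset ι) :
    ∀ W : Submodule F V, W ≤ ⨆ j ∈ T, U j → W.map f ≤ W → a ∣ finrank F ↥W := by
  induction T using Finset.induction_on with
  | empty =>
    intro W hW _
    have hb : W = ⊥ := by simpa using hW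
    rw [hb, finrank_bot]
    exact dvd_zero a
  | insert j₀ T hj ih =>
    intro W hW hWinv
    rw [Finset.iSup_insert] at hW
    have hSinv := inv_biSup f U hUinv T
    rcases hUirr j₀ ((W ⊔ ⨆ j ∈ T, U j) ⊓ U j₀) inf_le_right
        (inv_inf f (inv_sup f hWinv hSinv) (hUinv j₀)) with hX | hX
    · refine ih W ?_ hWinv
      have h1 : (⨆ j ∈ T, U j) ≤ W ⊔ ⨆ j ∈ T, U j := le_sup_right
      have h2 := sup_inf_assoc_of_le (U j₀) h1
      rw [inf_comm (U j₀), hX, sup_bot_eq] at h2
      have h3 : W ⊔ ⨆ j ∈ T, U j ≤ (⨆ j ∈ T, U j) ⊔ U j₀ := by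
        rw [sup_comm (⨆ j ∈ T, U j)]
        exact sup_le hW le_sup_right
      have h4 : W ⊔ ⨆ j ∈ T, U j = ⨆ j ∈ T, U j := (inf_eq_right.mpr h3).symm.trans h2
      exact le_sup_left.trans h4.le
    · rcases hUirr j₀ ((⨆ j ∈ T, U j) ⊓ U j₀) inf_le_right
          (inv_inf f hSinv (hUinv j₀)) with hY | hY
      · have hle : U j₀ ≤ W ⊔ ⨆ j ∈ T, U j := by rw [← hX]; exact inf_le_left
        have heq : W ⊔ ⨆ j ∈ T, U j = U j₀ ⊔ ⨆ j ∈ T, U j :=
          le_antisymm (sup_le hW le_sup_right) (sup_le hle le_sup_right)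
        have d1 := Submodule.finrank_sup_add_finrank_inf_eq W (⨆ j ∈ T, U j)
        have d2 := Submodule.finrank_sup_add_finrank_inf_eq (U j₀) (⨆ j ∈ T, U j)
        rw [inf_comm, hY, finrank_bot, hUdim, add_zero] at d2
        rw [heq, d2] at d1
        have h1 := ih (W ⊓ ⨆ j ∈ T, U j) inf_le_right (inv_inf f hWinv hSinv)
        have h5 : finrank F ↥W = a + finrank F ↥(W ⊓ ⨆ j ∈ T, U j) := by omega
        rw [h5]
        exact dvd_add (dvd_refl a) h1
      · refine ih W ?_ hWinv
        have h1 : U j₀ ≤ ⨆ j ∈ T, U j := by rw [← hY]; exact inf_le_left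
        exact hW.trans (sup_le h1 le_rfl)

lemma finrank_biSup_of_indep {ι : Type*} [DecidableEq ι] (U : ι → Submodule F V) (a : ℕ)
    (hUdim : ∀ j, finrank F ↥(U j) = a)
    (hind : ∀ (j₀ : ι) (T : Finset ι), j₀ ∉ T → U j₀ ⊓ ⨆ j ∈ T, U j = ⊥) (T : Finset ι) :
    finrank F ↥(⨆ j ∈ T, U j) = T.card * a := by
  induction T using Finset.induction_on with
  | empty => simp
  | insert j₀ T hj ih =>
    rw [Finset.iSup_insert, Finset.card_insert_of_notMem hj]
    have d := Submodule.finrank_sup_add_finrank_inf_eq (U j₀) (⨆ j ∈ T, U j)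
    rw [hind j₀ T hj, finrank_bot, hUdim, ih, add_zero] at d
    rw [d]
    ring

lemma exists_le_finrank (E : Submodule F V) (i : ℕ) (hi : i ≤ finrank F ↥E) :
    ∃ E' : Submodule F V, E' ≤ E ∧ finrank F ↥E' = i := by
  have hli : LinearIndependent F
      (fun j : Fin i => ((Module.finBasis F ↥E (Fin.castLE hi j) : ↥E) : V)) := by
    have h1 : LinearIndependent F (fun j : Fin i => Module.finBasis F ↥E (Fin.castLE hi j)) :=
      (Module.finBasis F ↥E).linearIndependent.comp _ (Fin.castLE_injective hi)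
    exact h1.map' E.subtype (Submodule.ker_subtype E)
  refine ⟨Submodule.span F
    (Set.range fun j : Fin i => ((Module.finBasis F ↥E (Fin.castLE hi j) : ↥E) : V)), ?_, ?_⟩
  · rw [Submodule.span_le]
    rintro _ ⟨j, rfl⟩
    exact (Module.finBasis F ↥E (Fin.castLE hi j)).2
  · rw [finrank_span_eq_card hli, Fintype.card_fin]

end aux

/-- Which dimensions of invariant subspaces a semisimple linear map has. Let `V` be a finite-dimensional vector space over a field `F` and `f` an invertible semisimple linear map of `V`. Suppose `V` is the internal direct sum of the fixed space `C_V(f)` (the eigenspace for 1) and subspaces `U_1, …, U_s`, each `f`-invariant of dimension `a ≥ 1` on which `f` acts irreducibly (no `f`-invariant subspaces other than 0 and `U_j`). Let `0 < m < dim V` and `ℓ = m mod a`. Then `f` leaves some `m`-dimensional subspace invariant if and only if `dim C_V(f) ≥ m`, or `a ≤ m` and `dim C_V(f) ≥ ℓ`. -/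
theorem result {F V : Type*} [Field F] [AddCommGroup V] [Module F V]
    [FiniteDimensional F V] (f : V →ₗ[F] V) (hf : Function.Bijective f) (hss : Module.End.IsSemisimple f)
    {s a : ℕ} (ha : 1 ≤ a) (U : Fin s → Submodule F V)
    (hUinv : ∀ j, (U j).map f ≤ U j) (hUdim : ∀ j, Module.finrank F ↥(U j) = a)
    (hUirr : ∀ j, ∀ W : Submodule F V, W ≤ U j → W.map f ≤ W → W = ⊥ ∨ W = U j)
    (hdec : DirectSum.IsInternal (fun o : Option (Fin s) => o.elim (Module.End.eigenspace f 1) U))
    (m : ℕ) (hm : 0 < m) (hmV : m < Module.finrank F V) :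
    (∃ W : Submodule F V, Module.finrank F ↥W = m ∧ W.map f ≤ W) ↔
    (m ≤ Module.finrank F ↥(Module.End.eigenspace f 1) ∨
      (a ≤ m ∧ m % a ≤ Module.finrank F ↥(Module.End.eigenspace f 1))) := by
  classical
  obtain ⟨E, hE⟩ : ∃ E : Submodule F V, E = Module.End.eigenspace f 1 := ⟨_, rfl⟩
  rw [← hE] at hdec ⊢
  have hEfix : ∀ x ∈ E, f x = x := by
    intro x hx
    rw [hE, Module.End.mem_eigenspace_iff, one_smul] at hx
    exact hx
  have hEmem : ∀ x, f x = x → x ∈ E := by
    intro x hx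
    rw [hE, Module.End.mem_eigenspace_iff, one_smul]
    exact hx
  have hind := hdec.submodule_iSupIndep
  have htop : E ⊔ ⨆ j, U j = ⊤ := by
    have h := hdec.submodule_iSup_eq_top
    rw [iSup_option] at h
    exact h
  have I1 : E ⊓ ⨆ j, U j = ⊥ := by
    have h := hind none
    refine disjoint_iff.mp (Disjoint.mono_right ?_ h)
    exact iSup_le fun j => le_iSup₂_of_le (some j) (by simp) le_rfl
  have I3 : ∀ (j₀ : Fin s) (T : Finset (Fin s)), j₀ ∉ T → U j₀ ⊓ ⨆ j ∈ T, U j = ⊥ := by
    intro j₀ T hj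
    have h := hind (some j₀)
    refine disjoint_iff.mp (Disjoint.mono_right ?_ h)
    refine iSup₂_le fun j hjT => ?_
    exact le_iSup₂_of_le (some j) (fun h' => hj (Option.some.inj h' ▸ hjT)) le_rfl
  have D1 := finrank_biSup_of_indep U a hUdim I3
  have hall : (⨆ j ∈ (Finset.univ : Finset (Fin s)), U j) = ⨆ j, U j := by simp
  have D2 : Module.finrank F V = Module.finrank F ↥E + s * a := by
    have d := Submodule.finrank_sup_add_finrank_inf_eq E (⨆ j, U j)
    rw [htop, I1, finrank_top, finrank_bot, add_zero, ← hall, D1, Finset.card_univ,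
      Fintype.card_fin] at d
    exact d
  have hUall_inv : (⨆ j, U j).map f ≤ ⨆ j, U j := by
    rw [← hall]
    exact inv_biSup f U hUinv _
  constructor
  · rintro ⟨W, hWdim, hWinv⟩
    have hgW : ∀ x ∈ W, f x - x ∈ ⨆ j, U j := by
      intro x _
      have hx : x ∈ E ⊔ ⨆ j, U j := by rw [htop]; exact Submodule.mem_top
      obtain ⟨e, he, u, hu, rfl⟩ := Submodule.mem_sup.mp hx
      have h1 : f (e + u) - (e + u) = f u - u := by
        rw [map_add, hEfix e he]
        abel
      rw [h1]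
      exact Submodule.sub_mem _ (hUall_inv (Submodule.mem_map_of_mem hu)) hu
    have hW'le : W.map (f - 1) ≤ ⨆ j ∈ (Finset.univ : Finset (Fin s)), U j := by
      rw [hall]
      rintro _ ⟨x, hx, rfl⟩
      simpa using hgW x hx
    have hW'inv : (W.map (f - 1)).map f ≤ W.map (f - 1) := by
      rintro _ ⟨_, ⟨x, hx, rfl⟩, rfl⟩
      refine ⟨f x, hWinv (Submodule.mem_map_of_mem hx), ?_⟩
      simp [LinearMap.sub_apply]
    have hdvd := dvd_finrank_of_le_biSup f U a hUinv hUdim hUirr Finset.univ _ hW'le hW'inv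
    have hrn := LinearMap.finrank_range_add_finrank_ker ((f - 1).domRestrict W)
    rw [LinearMap.range_domRestrict] at hrn
    have hker : Module.finrank F ↥(LinearMap.ker ((f - 1).domRestrict W)) ≤ Module.finrank F ↥E := by
      rw [← Submodule.finrank_map_subtype_eq W]
      apply Submodule.finrank_mono
      rintro _ ⟨x, hx, rfl⟩
      apply hEmem
      have h1 : (f - 1) (x : V) = 0 := hx
      have h2 : f (x : V) - (x : V) = 0 := by simpa using h1
      exact sub_eq_zero.mp h2
    obtain ⟨k, hk⟩ := hdvd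
    rw [hk, hWdim] at hrn
    rcases Nat.eq_zero_or_pos k with rfl | hkpos
    · left
      omega
    · right
      have h1 : a ≤ a * k := Nat.le_mul_of_pos_right a hkpos
      refine ⟨by omega, ?_⟩
      have h2 : m % a = Module.finrank F ↥(LinearMap.ker ((f - 1).domRestrict W)) % a := by
        rw [← hrn, Nat.mul_add_mod]
      rw [h2]
      exact (Nat.mod_le _ _).trans hker
  · intro h
    have hd : 0 < a := ha
    obtain ⟨i, k, hi, hk, hik⟩ : ∃ i k, i ≤ Module.finrank F ↥E ∧ k ≤ s ∧ i + k * a = m := by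
      rcases h with h | ⟨h1, h2⟩
      · exact ⟨m, 0, h, Nat.zero_le _, by simp⟩
      · by_cases hq : m / a ≤ s
        · exact ⟨m % a, m / a, h2, hq, Nat.mod_add_div' m a⟩
        · push Not at hq
          have h3 : (s + 1) * a ≤ m := (Nat.le_div_iff_mul_le hd).mp hq
          have h4 : (s + 1) * a = s * a + a := by ring
          rw [D2] at hmV
          exact ⟨m - s * a, s, by omega, le_rfl, by omega⟩
    obtain ⟨E', hE'le, hE'dim⟩ := exists_le_finrank E i hi
    obtain ⟨T, -, hT⟩ := Finset.exists_subset_card_eq (s := (Finset.univ : Finset (Fin s)))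
      (n := k) (by simpa using hk)
    refine ⟨E' ⊔ ⨆ j ∈ T, U j, ?_, ?_⟩
    · have d := Submodule.finrank_sup_add_finrank_inf_eq E' (⨆ j ∈ T, U j)
      have hbot : E' ⊓ ⨆ j ∈ T, U j = ⊥ := by
        refine le_bot_iff.mp ?_
        rw [← I1]
        exact inf_le_inf hE'le (iSup₂_le fun j _ => le_iSup U j)
      rw [hbot, finrank_bot, add_zero, hE'dim, D1, hT] at d
      rw [d]
      exact hik
    · refine inv_sup f ?_ (inv_biSup f U hUinv T)
      rintro _ ⟨x, hx, rfl⟩
      rw [hEfix x (hE'le hx)]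
      exact hx

end Cfsg.Agent.S5952
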