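import Cfsg.Statements.S5957
import Cfsg.Agent.Helper29.Invol

set_option autoImplicit false
open scoped MatrixGroups
open Cfsg

namespace Cfsg.Agent.S5957

/-- Involutions of PSL_n(q) and imprimitive subgroups. Here `T = PSL_n(F)` for a field `F` with `q = p^f` elements (`n ≥ 2`, `(n, q) ≠ (2, 2), (2, 3)`), `n = a·t` with `t ≥ 2`, and Ω is the set of direct-sum decompositions of `F^n` into `t` subspaces of dimension `a` (unordered; their number is the number of ordered ones divided by `t!`), whose stabilizers are the imprimitive subgroups of type GL_a(q) ≀ S_t (maximal except in some small cases; maximality is not assumed); an element of `T` of prime order `r` (a matrix `x` of determinant 1 with `x^r` scalar, `x` not scalar) fixes a point of Ω when it permutes the summands of some such decomposition. If the number of such decompositions is even, then every involution of `T` stabilizes one of them (the action is 2-elusive). -/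
theorem result {F : Type*} [Field F] [Fintype F] {p : ℕ} [Fact p.Prime] [CharP F p] {q : ℕ} (hq : Fintype.card F = q)
    (n a t : ℕ) (hn : 2 ≤ n) (hT : (n, q) ≠ (2, 2) ∧ (n, q) ≠ (2, 3)) (hat : n = a * t) (ha : 1 ≤ a) (ht : 2 ≤ t)
    (hΩ : 2 ∣ Nat.card {D : Fin t → Submodule F (Fin n → F) // Cfsg.Geo.IsMDecomposition a D} / Nat.factorial t)
    (x : Matrix.SpecialLinearGroup (Fin n) F)
    (hx1 : ∃ z : F, ((x ^ 2 : Matrix.SpecialLinearGroup (Fin n) F) : Matrix (Fin n) (Fin n) F) = z • (1 : Matrix (Fin n) (Fin n) F))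
    (hx2 : ∀ z : F, (x : Matrix (Fin n) (Fin n) F) ≠ z • (1 : Matrix (Fin n) (Fin n) F)) :
    ∃ D : Fin t → Submodule F (Fin n → F), Cfsg.Geo.IsMDecomposition a D ∧
        ∃ σ : Equiv.Perm (Fin t), ∀ j, (D j).map (Matrix.toLin' (x : Matrix (Fin n) (Fin n) F)) = D (σ j) := by
  classical
obtain ⟨z, hz⟩ := hx1
obtain ⟨X, hXdef⟩ : ∃ X : (Fin n → F) →ₗ[F] (Fin n → F),
    X = Matrix.toLin' (x : Matrix (Fin n) (Fin n) F) := ⟨_, rfl⟩
rw [← hXdef]
have hX : ∀ v, X (X v) = z • v := by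
  intro v
  rw [hXdef, ← Matrix.toLin'_mul_apply, ← Matrix.SpecialLinearGroup.coe_mul, ← pow_two, hz,
    Matrix.toLin'_apply, Matrix.smul_mulVec, Matrix.one_mulVec]
have hXe : X = ((Matrix.SpecialLinearGroup.toLin' x : (Fin n → F) ≃ₗ[F] (Fin n → F)) :
    (Fin n → F) →ₗ[F] (Fin n → F)) := by
  rw [hXdef, Matrix.SpecialLinearGroup.toLin'_to_linearMap]
obtain ⟨ι, hι, b, π, c, hb, hsp, hπ, hc⟩ :=
  Cfsg.Agent.Helper29.monomial_basis X z hX _ ⊤ rfl (fun w _ => Submodule.mem_top)
have hcard : Fintype.card ι = a * t := by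
  have h1 := finrank_span_eq_card hb
  rw [hsp, finrank_top, Module.finrank_fin_fun] at h1
  rw [← h1]
  exact hat
obtain ⟨f, σ, s1, s2, s3, s4, s5⟩ :=
  Cfsg.Agent.Helper29.exists_sol (fun k => (Fintype.equivFin ι k : ℕ))
    (fun k l h => (Fintype.equivFin ι).injective (Fin.ext h)) π hπ a ha t Finset.univ
    (by rw [Finset.card_univ, hcard]) (fun k _ => Finset.mem_univ _)
obtain ⟨g, hg⟩ : ∃ g : ι → Fin t, ∀ k, (g k : ℕ) = f k :=
  ⟨fun k => ⟨f k, s3 k (Finset.mem_univ k)⟩, fun k => rfl⟩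
obtain ⟨τ, hτ⟩ : ∃ τ : Equiv.Perm (Fin t), ∀ j, ((τ j : Fin t) : ℕ) = σ j :=
  ⟨Function.Involutive.toPerm (fun j => ⟨σ j, s1 j j.2⟩) (fun j => Fin.ext (s2 j j.2)),
    fun j => rfl⟩
obtain ⟨d1, d2, d3⟩ := Cfsg.Agent.Helper29.decomp_of_basis b hb hsp g
have hfin : ∀ j, Module.finrank F (Submodule.span F (b '' {k | g k = j})) = a := by
  intro j
  have e1 : (Finset.univ.filter (fun k => g k = j)) = Finset.univ.filter (fun k => f k = (j : ℕ)) := by
    ext k
    rw [Finset.mem_filter, Finset.mem_filter, Fin.ext_iff, hg k]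
  rw [d3 j, e1]
  exact s4 j j.2
refine ⟨fun j => Submodule.span F (b '' {k | g k = j}), ⟨ht, ha, hfin, d1, d2⟩, τ, ?_⟩
intro j
have hle : (Submodule.span F (b '' {k | g k = j})).map X ≤ Submodule.span F (b '' {k | g k = τ j}) := by
  rw [Submodule.map_span, Submodule.span_le]
  rintro _ ⟨_, ⟨k, hk, rfl⟩, rfl⟩
  have hk' : g k = j := hk
  show X (b k) ∈ Submodule.span F (b '' {k | g k = τ j})
  rw [hc k]
  refine Submodule.smul_mem _ _ (Submodule.subset_span ⟨π k, ?_, rfl⟩)
  show g (π k) = τ j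
  rw [← hk']
  apply Fin.ext
  rw [hg, hτ, hg]
  exact s5 k (Finset.mem_univ k)
refine Submodule.eq_of_le_of_finrank_eq hle ?_
rw [hfin (τ j), hXe, LinearEquiv.finrank_map_eq, hfin j]

end Cfsg.Agent.S5957
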