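import Cfsg.Statements.S5960
import Cfsg.Agent.Helper29.SymplStd

set_option autoImplicit false
open scoped MatrixGroups
open Cfsg

namespace Cfsg.Agent.S5960

/-- Involutions of PSp_n(q) and imprimitive subgroups. Here `T = PSp_n(q)`, `n = 2d ≥ 4`, `(n, q) ≠ (4, 2)`, realised through the symplectic matrices over the field `F` with `q` elements and the standard alternating form; `n = a·t` with `a` even and `t ≥ 2`, and Ω is the (nonempty) set of orthogonal decompositions of `F^n` into `t` nondegenerate subspaces of dimension `a` (unordered; counted as ordered ones divided by `t!`), whose stabilizers are the imprimitive subgroups of type Sp_a(q) ≀ S_t (maximality is not assumed); an element of `T` of prime order `r` (a symplectic matrix `x` with `x^r` scalar, `x` not scalar) fixes a point of Ω when it permutes the summands of some such decomposition. If the number of such decompositions is even, then every involution of `T` stabilizes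 one of them (the action is 2-elusive). -/
theorem result {F : Type*} [Field F] [Fintype F] {p : ℕ} [Fact p.Prime] [CharP F p] {q : ℕ} (hq : Fintype.card F = q)
    (d : ℕ) (hd : 2 ≤ d) (hT : (d, q) ≠ (2, 2))
    (a t : ℕ) (hat : 2 * d = a * t) (ha : 2 ≤ a) (hae : Even a) (ht : 2 ≤ t) (hΩ : 2 ∣ Nat.card {D : Fin t → Submodule F (Fin d ⊕ Fin d → F) // (Cfsg.Geo.IsMDecomposition a D ∧ (∀ j, ∀ u ∈ D j, u ≠ 0 → ∃ v ∈ D j, Cfsg.sympForm d F u v ≠ 0) ∧
          (∀ j j', j ≠ j' → ∀ u ∈ D j, ∀ v ∈ D j', Cfsg.sympForm d F u v = 0))} / Nat.factorial t)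
    (x : ↥(Matrix.symplecticGroup (Fin d) F))
    (hx1 : ∃ z : F, ((x ^ 2 : ↥(Matrix.symplecticGroup (Fin d) F)) : Matrix (Fin d ⊕ Fin d) (Fin d ⊕ Fin d) F) = z • (1 : Matrix (Fin d ⊕ Fin d) (Fin d ⊕ Fin d) F))
    (hx2 : ∀ z : F, (x : Matrix (Fin d ⊕ Fin d) (Fin d ⊕ Fin d) F) ≠ z • (1 : Matrix (Fin d ⊕ Fin d) (Fin d ⊕ Fin d) F)) :
    ∃ D : Fin t → Submodule F (Fin d ⊕ Fin d → F), (Cfsg.Geo.IsMDecomposition a D ∧ (∀ j, ∀ u ∈ D j, u ≠ 0 → ∃ v ∈ D j, Cfsg.sympForm d F u v ≠ 0) ∧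
          (∀ j j', j ≠ j' → ∀ u ∈ D j, ∀ v ∈ D j', Cfsg.sympForm d F u v = 0)) ∧
        ∃ σ : Equiv.Perm (Fin t), ∀ j, (D j).map (Matrix.toLin' (x : Matrix (Fin d ⊕ Fin d) (Fin d ⊕ Fin d) F)) = D (σ j) := by
  classical
obtain ⟨z, hz⟩ := hx1
obtain ⟨hX, hzz⟩ := Cfsg.Agent.Helper29.sympl_setup d (by omega) x z hz
obtain ⟨X, hXdef⟩ : ∃ X : (Fin d ⊕ Fin d → F) →ₗ[F] (Fin d ⊕ Fin d → F),
    X = Matrix.toLin' (x : Matrix (Fin d ⊕ Fin d) (Fin d ⊕ Fin d) F) := ⟨_, rfl⟩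
rw [← hXdef] at hX ⊢
have hXB : ∀ u v, Cfsg.Agent.Helper29.sympB d (X u) (X v) = Cfsg.Agent.Helper29.sympB d u v := by
  intro u v
  rw [hXdef]
  exact Cfsg.Agent.Helper29.sympB_inv d _ x.2 u v
have halt := Cfsg.Agent.Helper29.sympB_alt (F := F) d
have hnd := Cfsg.Agent.Helper29.sympB_nondeg (F := F) d
have hndtop := Cfsg.Agent.Helper29.sympB_nonDeg_top (F := F) d
have hz0 : z ≠ 0 := by
  rintro rfl
  rw [mul_zero] at hzz
  exact zero_ne_one hzz
have hsys : Cfsg.Agent.Helper29.HasSys (Cfsg.Agent.Helper29.sympB d) X (fun _ _ => True) ⊤ := by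
  by_cases h2 : (2 : F) = 0
  · have hz1 : z = 1 := by
      have h5 : (z - 1) * (z - 1) = 0 := by linear_combination hzz + (1 - z) * h2
      exact sub_eq_zero.1 (mul_self_eq_zero.1 h5)
    have hX' : ∀ v, X (X v) = v := fun v => by rw [hX, hz1, one_smul]
    exact Cfsg.Agent.Helper29.hyp_system (Cfsg.Agent.Helper29.sympB d) halt X hXB z hz0 hX _
      (fun W hW hndW hbot => Cfsg.Agent.Helper29.piece_C _ halt X hXB h2 hX' W hW hndW hbot)
      _ ⊤ rfl (fun w _ => Submodule.mem_top) hndtop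
  · have hz1 : z = 1 ∨ z = -1 := by
      have h5 : (z - 1) * (z + 1) = 0 := by linear_combination hzz
      rcases mul_eq_zero.1 h5 with h | h
      · left
        exact sub_eq_zero.1 h
      · right
        exact eq_neg_of_add_eq_zero_left h
    rcases hz1 with h1 | h1
    · have hX' : ∀ v, X (X v) = v := fun v => by rw [hX, h1, one_smul]
      obtain ⟨ι, hι, u, w, π, hrel, hsp, hπ, hc, -⟩ :=
        Cfsg.Agent.Helper29.hyp_system (Cfsg.Agent.Helper29.sympB d) halt X hXB z hz0 hX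
          (Cfsg.Agent.Helper29.QA X)
          (fun W hW hndW hbot => Cfsg.Agent.Helper29.piece_A _ halt X hXB h2 hX' W hW hndW hbot)
          _ ⊤ rfl (fun w _ => Submodule.mem_top) hndtop
      exact ⟨ι, hι, u, w, π, hrel, hsp, hπ, hc, fun _ => trivial⟩
    · have hX' : ∀ v, X (X v) = -v := fun v => by rw [hX, h1, neg_one_smul]
      obtain ⟨ι, hι, u, w, π, hrel, hsp, hπ, hc, -⟩ :=
        Cfsg.Agent.Helper29.hyp_system (Cfsg.Agent.Helper29.sympB d) halt X hXB z hz0 hX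
          (Cfsg.Agent.Helper29.QB X)
          (fun W hW hndW hbot => Cfsg.Agent.Helper29.piece_B _ halt X hXB h2 hX' W hW hndW hbot)
          _ ⊤ rfl (fun w _ => Submodule.mem_top) hndtop
      exact ⟨ι, hι, u, w, π, hrel, hsp, hπ, hc, fun _ => trivial⟩
obtain ⟨ι, hι, u, w, π, hrel, hsp, hπ, hc, -⟩ := hsys
have hli := Cfsg.Agent.Helper29.hyp_linIndep (Cfsg.Agent.Helper29.sympB d) halt u w hrel
obtain ⟨m, hm⟩ := hae
have hcard : Fintype.card ι = m * t := by
  have h1 := finrank_span_eq_card hli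
  rw [Set.Sum.elim_range, hsp, finrank_top, Module.finrank_fintype_fun_eq_card, Fintype.card_sum,
    Fintype.card_sum, Fintype.card_fin] at h1
  have h3 : 2 * d = 2 * (m * t) := by
    rw [hat, hm]
    ring
  omega
have hm1 : 1 ≤ m := by omega
obtain ⟨f, σ, s1, s2, s3, s4, s5⟩ :=
  Cfsg.Agent.Helper29.exists_sol (fun k => (Fintype.equivFin ι k : ℕ))
    (fun k l h => (Fintype.equivFin ι).injective (Fin.ext h)) π hπ m hm1 t Finset.univ
    (by rw [Finset.card_univ, hcard]) (fun k _ => Finset.mem_univ _)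
obtain ⟨g, hg⟩ : ∃ g : ι → Fin t, ∀ k, (g k : ℕ) = f k :=
  ⟨fun k => ⟨f k, s3 k (Finset.mem_univ k)⟩, fun k => rfl⟩
obtain ⟨τ, hτ⟩ : ∃ τ : Equiv.Perm (Fin t), ∀ j, ((τ j : Fin t) : ℕ) = σ j :=
  ⟨Function.Involutive.toPerm (fun j => ⟨σ j, s1 j j.2⟩) (fun j => Fin.ext (s2 j j.2)),
    fun j => rfl⟩
have hgτ : ∀ k, g (π k) = τ (g k) := by
  intro k
  apply Fin.ext
  rw [hg, hτ, hg]
  exact s5 k (Finset.mem_univ k)
have hfib : ∀ j, (Finset.univ.filter (fun k => g k = j)).card = m := by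
  intro j
  have e1 : (Finset.univ.filter (fun k => g k = j))
      = Finset.univ.filter (fun k => f k = (j : ℕ)) := by
    ext k
    rw [Finset.mem_filter, Finset.mem_filter, Fin.ext_iff, hg k]
  rw [e1]
  exact s4 j j.2
obtain ⟨D, D1, D2, D3, D4, D5, D6⟩ :=
  Cfsg.Agent.Helper29.decomp_of_hypsys (Cfsg.Agent.Helper29.sympB d) halt hnd X z hz0 hX u w π
    hrel hsp hc g τ hgτ m hfib
refine ⟨D, ⟨⟨ht, by omega, fun j => ?_, D1, D2⟩, D4, D5⟩, τ, D6⟩
rw [D3 j, hm]
omega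

end Cfsg.Agent.S5960
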