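import Cfsg.Statements.S5962
import Cfsg.Agent.Helper29.SymplStd

set_option autoImplicit false
open scoped MatrixGroups
open Cfsg

namespace Cfsg.Agent.S5962

/-- Involutions of PSp_n(q), q odd, and the subgroups GL_{n/2}(q).2. Here `T = PSp_n(q)`, `n = 2d ≥ 4`, `q` odd, realised through the symplectic matrices over the field `F` with `q` elements; Ω is the set of unordered pairs `{U, W}` of complementary totally isotropic `d`-spaces (`F^n = U ⊕ W`), whose stabilizers are the subgroups of type GL_d(q).2 (maximal except in some small cases; maximality is not assumed); an element of `T` of prime order `r` (a symplectic matrix `x` with `x^r` scalar, `x` not scalar) fixes such a pair when it fixes or interchanges `U` and `W`. If the number of such pairs is even, every involution of `T` fixes one of them (the action is 2-elusive). -/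
theorem result {F : Type*} [Field F] [Fintype F] {p : ℕ} [Fact p.Prime] [CharP F p] {q : ℕ} (hq : Fintype.card F = q)
    (d : ℕ) (hd : 2 ≤ d) (hT : (d, q) ≠ (2, 2)) (hodd : Odd q)
    (hΩ : 2 ∣ Nat.card {P : Submodule F (Fin d ⊕ Fin d → F) × Submodule F (Fin d ⊕ Fin d → F) // IsCompl P.1 P.2 ∧ (∀ u ∈ P.1, ∀ v ∈ P.1, Cfsg.sympForm d F u v = 0) ∧ (∀ u ∈ P.2, ∀ v ∈ P.2, Cfsg.sympForm d F u v = 0)} / 2)
    (x : ↥(Matrix.symplecticGroup (Fin d) F))
    (hx1 : ∃ z : F, ((x ^ 2 : ↥(Matrix.symplecticGroup (Fin d) F)) : Matrix (Fin d ⊕ Fin d) (Fin d ⊕ Fin d) F) = z • (1 : Matrix (Fin d ⊕ Fin d) (Fin d ⊕ Fin d) F))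
    (hx2 : ∀ z : F, (x : Matrix (Fin d ⊕ Fin d) (Fin d ⊕ Fin d) F) ≠ z • (1 : Matrix (Fin d ⊕ Fin d) (Fin d ⊕ Fin d) F)) :
    ∃ U W : Submodule F (Fin d ⊕ Fin d → F), IsCompl U W ∧ (∀ u ∈ U, ∀ v ∈ U, Cfsg.sympForm d F u v = 0) ∧ (∀ u ∈ W, ∀ v ∈ W, Cfsg.sympForm d F u v = 0) ∧
        ((U.map (Matrix.toLin' (x : Matrix (Fin d ⊕ Fin d) (Fin d ⊕ Fin d) F)) = U ∧ W.map (Matrix.toLin' (x : Matrix (Fin d ⊕ Fin d) (Fin d ⊕ Fin d) F)) = W) ∨
         (U.map (Matrix.toLin' (x : Matrix (Fin d ⊕ Fin d) (Fin d ⊕ Fin d) F)) = W ∧ W.map (Matrix.toLin' (x : Matrix (Fin d ⊕ Fin d) (Fin d ⊕ Fin d) F)) = U)) := by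
  classical
obtain ⟨z, hz⟩ := hx1
have h2 : (2 : F) ≠ 0 := by
  intro h
  have h3 : ringChar F = 2 :=
    CharP.ringChar_of_prime_eq_zero Nat.prime_two (by exact_mod_cast h)
  have h4 := FiniteField.even_card_of_char_two h3
  rw [hq] at h4
  rcases hodd with ⟨k, hk⟩
  omega
obtain ⟨hX, hzz⟩ := Cfsg.Agent.Helper29.sympl_setup d (by omega) x z hz
obtain ⟨X, hXdef⟩ : ∃ X : (Fin d ⊕ Fin d → F) →ₗ[F] (Fin d ⊕ Fin d → F),
    X = Matrix.toLin' (x : Matrix (Fin d ⊕ Fin d) (Fin d ⊕ Fin d) F) := ⟨_, rfl⟩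
rw [← hXdef] at hX ⊢
have hXB : ∀ u v, Cfsg.Agent.Helper29.sympB d (X u) (X v) = Cfsg.Agent.Helper29.sympB d u v := by
  intro u v
  rw [hXdef]
  exact Cfsg.Agent.Helper29.sympB_inv d _ x.2 u v
have halt := Cfsg.Agent.Helper29.sympB_alt (F := F) d
have hnd := Cfsg.Agent.Helper29.sympB_nondeg (F := F) d
have hndtop := Cfsg.Agent.Helper29.sympB_nonDeg_top (F := F) d
have hz1 : z = 1 ∨ z = -1 := by
  have h5 : (z - 1) * (z + 1) = 0 := by linear_combination hzz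
  rcases mul_eq_zero.1 h5 with h | h
  · left
    exact sub_eq_zero.1 h
  · right
    exact eq_neg_of_add_eq_zero_left h
rcases hz1 with rfl | rfl
· have hX' : ∀ v, X (X v) = v := fun v => by rw [hX, one_smul]
  obtain ⟨ι, hι, u, w, π, hrel, hsp, hπ, hc, hQ⟩ :=
    Cfsg.Agent.Helper29.hyp_system (Cfsg.Agent.Helper29.sympB d) halt X hXB 1 one_ne_zero hX
      (Cfsg.Agent.Helper29.QA X)
      (fun W hW hndW hbot => Cfsg.Agent.Helper29.piece_A _ halt X hXB h2 hX' W hW hndW hbot)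
      _ ⊤ rfl (fun w _ => Submodule.mem_top) hndtop
  obtain ⟨c1, c2, c3⟩ :=
    Cfsg.Agent.Helper29.lagr_compl (Cfsg.Agent.Helper29.sympB d) hnd u w hrel hsp
  obtain ⟨c4, c5⟩ := Cfsg.Agent.Helper29.lagr_fixed X 1 one_ne_zero hX u w hQ
  exact ⟨_, _, c1, c2, c3, Or.inl ⟨c4, c5⟩⟩
· have hX' : ∀ v, X (X v) = -v := fun v => by rw [hX, neg_one_smul]
  have hm1 : (-1 : F) ≠ 0 := neg_ne_zero.2 one_ne_zero
  obtain ⟨ι, hι, u, w, π, hrel, hsp, hπ, hc, hQ⟩ :=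
    Cfsg.Agent.Helper29.hyp_system (Cfsg.Agent.Helper29.sympB d) halt X hXB (-1) hm1 hX
      (Cfsg.Agent.Helper29.QB X)
      (fun W hW hndW hbot => Cfsg.Agent.Helper29.piece_B _ halt X hXB h2 hX' W hW hndW hbot)
      _ ⊤ rfl (fun w _ => Submodule.mem_top) hndtop
  obtain ⟨c1, c2, c3⟩ :=
    Cfsg.Agent.Helper29.lagr_compl (Cfsg.Agent.Helper29.sympB d) hnd u w hrel hsp
  obtain ⟨c4, c5⟩ := Cfsg.Agent.Helper29.lagr_swapped X (-1) hm1 hX u w hQ
  exact ⟨_, _, c1, c2, c3, Or.inr ⟨c4, c5⟩⟩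

end Cfsg.Agent.S5962
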